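import Cfsg.Statements.S2653
import Cfsg.Agent.H4.As5

set_option autoImplicit false
open scoped MatrixGroups
open Cfsg

namespace Cfsg.Agent.S2653

/-- Alternating sections of finite linear groups. Let `F` be a finite field of characteristic `p` and `n` a natural number, and suppose some subgroup `H` of GL_n(F) has a normal subgroup `K` with `H ⧸ K` isomorphic to the alternating group of degree `r ≥ 9`. Then `n ≥ r - 2` when `p` divides `r`, and `n ≥ r - 1` otherwise (the smallest degree of a nontrivial projective representation of that alternating group in characteristic `p`). The same bound follows for every classical group with natural module of dimension `n` over `F`, since each is a section of a subgroup of GL_n(F). -/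
theorem result {F : Type*} [Field F] [Fintype F] (p : ℕ) [Fact p.Prime] [CharP F p]
    (n : ℕ) (r : ℕ) (H : Subgroup (GL (Fin n) F)) (K : Subgroup ↥H) [K.Normal]
    (h : Nonempty (↥H ⧸ K ≃* ↥(alternatingGroup (Fin r)))) (hr : 9 ≤ r) :
    r - 1 - (if p ∣ r then 1 else 0) ≤ n := by
    obtain ⟨e⟩ := h
    have : Finite H := inferInstance
    let φ : F →+* AlgebraicClosure (ZMod p) := by
      letI := ZMod.algebra F p
      exact (IsAlgClosed.lift (R := ZMod p) (S := F) (M := AlgebraicClosure (ZMod p))).toRingHom
    let s : Shrink.{0} H ≃* H := Shrink.mulEquiv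
    let σ : H →* Module.End F (Fin n → F) := (Matrix.toLinAlgEquiv' (R := F)).toMonoidHom.comp ((Units.coeHom _).comp H.subtype)
    have hσ : Function.Injective σ := (Matrix.toLinAlgEquiv' (R := F)).injective.comp (Units.val_injective.comp H.subtype_injective)
    obtain ⟨ρ, hρ⟩ := H4.Gs.As.bc φ (σ.comp s.toMonoidHom)
    have : Finite (Shrink.{0} H) := Finite.of_equiv _ s.symm.toEquiv
    have := H4.Gs.As.main (Shrink.{0} H) (Fin r)
      ((alternatingGroup (Fin r)).subtype.comp (e.toMonoidHom.comp ((QuotientGroup.mk' K).comp s.toMonoidHom))) (by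
        rw [MonoidHom.range_comp, MonoidHom.range_eq_top.2 (e.surjective.comp ((QuotientGroup.mk'_surjective K).comp s.surjective)),
          ← MonoidHom.range_eq_map, Subgroup.range_subtype]) (by simpa) p (AlgebraicClosure (ZMod p)) _ ρ (by
        rw [hρ, (MonoidHom.ker_eq_bot_iff (σ.comp s.toMonoidHom)).2 (hσ.comp s.injective)]; exact bot_le)
    simpa [H4.Gs.As.bd] using this

end Cfsg.Agent.S2653
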