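import Cfsg.Statements.S0900
import Cfsg.Agent.H6.Monomial

set_option autoImplicit false
open Cfsg

open H5 H6 Cfsg

namespace Cfsg.Agent.S0900

/-- Let N be a normal subgroup of the finite group G, χ an irreducible character of G and ϑ an irreducible character of N having nonzero inner product with the restriction of χ. Consider: (a) the restriction of χ to N is e • ϑ for a natural number e with e ^ 2 equal to the index of N; (b) χ vanishes outside N and ϑ is invariant under conjugation by G; (c) ϑ is invariant and every irreducible character of G having nonzero inner product with the function induced from ϑ equals χ. Then (a) ↔ (b) and (a) ↔ (c). -/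
theorem result {G : Type*} [Group G] [Fintype G] (N : Subgroup G) [hN : N.Normal] [Fintype N] (χ : G → ℂ) (hχ : Cfsg.IsIrrCharacter G χ) (ϑ : N → ℂ) (hϑ : Cfsg.IsIrrCharacter N ϑ) (hcon : Cfsg.classInner (fun n : N => χ n) ϑ ≠ 0) : ((∃ e : ℕ, (fun n : N => χ n) = (e : ℂ) • ϑ ∧ e ^ 2 = N.index) ↔ ((∀ g : G, g ∉ N → χ g = 0) ∧ ∀ (g : G) (n : N), ϑ ⟨g * n * g⁻¹, hN.conj_mem (n : G) n.2 g⟩ = ϑ n)) ∧ ((∃ e : ℕ, (fun n : N => χ n) = (e : ℂ) • ϑ ∧ e ^ 2 = N.index) ↔ (∀ (g : G) (n : N), ϑ ⟨g * n * g⁻¹, hN.conj_mem (n : G) n.2 g⟩ = ϑ n ∧ ∀ ψ : G → ℂ, Cfsg.IsIrrCharacter G ψ → Cfsg.classInner (Cfsg.indFun N ϑ) ψ ≠ 0 → ψ = χ)) := by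
  have hi : (N.index : ℂ) ≠ 0 := by exact_mod_cast N.index_ne_zero_of_finite
  have hnorm : ∀ e : ℕ, (fun n : N => χ n) = (e : ℂ) • ϑ →
      classInner (fun n : N => χ n) (fun n : N => χ n) = ((e ^ 2 : ℕ) : ℂ) := by
    intro e he
    rw [he, classInner_smul_left, classInner_smul_right, hϑ.classInner_self]
    simp [sq]
  have hinv : ∀ e : ℕ, (fun n : N => χ n) = (e : ℂ) • ϑ → ∀ g, cj ϑ g = ϑ := by
    intro e he
    refine invariant_of_res_eq_smul hχ.isClassFunction (e := e) ?_ he
    intro h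
    apply hcon
    rw [he, h, zero_smul, classInner_zero_left]
  have hv := inner_res_eq_index_iff N χ
  rw [hχ.classInner_self, mul_one] at hv
  refine ⟨⟨?_, ?_⟩, ⟨?_, ?_⟩⟩
  · rintro ⟨e, he, he2⟩
    exact ⟨hv.mp (by rw [hnorm e he, he2]), fun g n => congrFun (hinv e he g) n⟩
  · rintro ⟨h1, h2⟩
    obtain ⟨e, -, -, he⟩ := exists_res_eq_nsmul_of_invariant hχ hϑ (fun g => funext (h2 g)) hcon
    refine ⟨e, he, ?_⟩
    have := hv.mpr h1
    rw [hnorm e he] at this
    exact_mod_cast this
  · rintro ⟨e, he, he2⟩ g n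
    refine ⟨congrFun (hinv e he g) n, fun ψ hψ hne => ?_⟩
    have h1 : classInner (indFun N ϑ) χ = e := by
      rw [inner_ind_left N _ hχ.isClassFunction, he, classInner_smul_right, hϑ.classInner_self]
      simp
    have h2 := (isCharacter_ind N hϑ.isCharacter).isGen.classInner_sub_smul_self hχ (m := e)
      (by rw [h1]; simp)
    rw [inner_ind_self_of_invariant hϑ (hinv e he), ← he2] at h2
    have h3 : indFun N ϑ = ((e : ℤ) : ℂ) • χ := by
      rw [← sub_eq_zero, ← classInner_self_eq_zero, h2]; simp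
    rw [h3, classInner_smul_left] at hne
    exact (hχ.eq_of_classInner_ne_zero hψ (right_ne_zero_of_mul hne)).symm
  · intro h
    have h2 : ∀ g, cj ϑ g = ϑ := fun g => funext fun n => (h g n).1
    obtain ⟨e, -, -, he⟩ := exists_res_eq_nsmul_of_invariant hχ hϑ h2 hcon
    refine ⟨e, he, ?_⟩
    have h1 : classInner (indFun N ϑ) χ = e := by
      rw [inner_ind_left N _ hχ.isClassFunction, he, classInner_smul_right, hϑ.classInner_self]
      simp
    have h3 := eq_smul_of_constituents (classFun_ind N ϑ) hχ (h 1 1).2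
    have h4 := inner_ind_self_of_invariant hϑ h2
    rw [h3, h1, classInner_smul_left, classInner_smul_right, hχ.classInner_self] at h4
    simp only [map_natCast, mul_one] at h4
    exact_mod_cast (sq (e : ℂ)).trans h4

end Cfsg.Agent.S0900
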