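import Cfsg.Statements.S0410
import Cfsg.Agent.H14.Design2

set_option autoImplicit false
open Cfsg

namespace Cfsg.Agent.S0410

/-- Uniqueness of the Steiner system S(3, 6, 22) up to isomorphism. -/
theorem result {α β : Type*} [Fintype α] [DecidableEq α] [Fintype β] [DecidableEq β] (hα : Fintype.card α = 22) (hβ : Fintype.card β = 22) {B : Set (Finset α)} {B' : Set (Finset β)} (hB : Cfsg.IsSteinerSystem 3 6 B) (hB' : Cfsg.IsSteinerSystem 3 6 B') : Cfsg.SetSystemIso B B' := by
  obtain ⟨f, h⟩ := H14.mod22 hα hB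
  obtain ⟨f', h'⟩ := H14.mod22 hβ hB'
  exact h.iso h'

end Cfsg.Agent.S0410
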