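import Cfsg.Statements.S0414
import Cfsg.Agent.H14.Design3

set_option autoImplicit false
open Cfsg

namespace Cfsg.Agent.S0414

open H14 MulAction
open scoped Pointwise

/-- Aut of an S(3, 6, 22) has order 887040, is 3-transitive, and contains a simple subgroup of index 2. -/
theorem result {α : Type*} [Fintype α] [DecidableEq α] (hα : Fintype.card α = 22) {B : Set (Finset α)} (hB : Cfsg.IsSteinerSystem 3 6 B) : Nat.card (Cfsg.setSystemAut B) = 887040 ∧ MulAction.IsMultiplyPretransitive (Cfsg.setSystemAut B) α 3 ∧ ∃ H : Subgroup (Cfsg.setSystemAut B), H.index = 2 ∧ Cfsg.IsM22 H := by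
  obtain ⟨f, h⟩ := mod22 hα hB
  obtain ⟨φ, e⟩ := h.aut22
  have hc : Nat.card (setSystemAut B) = 887040 :=
    (Nat.card_congr φ.toEquiv).symm.trans (card_HDu (by decide +kernel : (bset 0x800001).card = 2))
  have hle : G22 ≤ stabilizer M24 (bset 0x800001) := fun g hg => by
    rw [mem_stabilizer_iff, bset_two, Finset.smul_finset_insert, Finset.smul_finset_singleton,
      hg.1, hg.2]
  refine ⟨hc, h.mt e fun x y hx hy => ?_, (G22.subgroupOf _).map φ.toMonoidHom, ?_⟩
  · have key : ∀ p ∈ bset 0x7ffffe, ∀ i : Fin 2, ![(none : GolayPt), some 0] i ≠ p := by decide +kernel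
    obtain ⟨g, h1, h2⟩ := M24_exists_fix (m := 2) le_rfl ![none, some 0] (by decide) x y
      (fun i j => key _ (hx j) i) fun i j => key _ (hy j) i
    exact ⟨g, hle ⟨h1 0, h1 1⟩, h2⟩
  have ψ := (Subgroup.subgroupOfEquivOfLe hle).symm.trans
    ((G22.subgroupOf _).equivMapOfInjective φ.toMonoidHom φ.injective)
  have := simple_G22
  have h1 := (Nat.card_congr ψ.toEquiv).symm.trans card_G22
  have h2 := Subgroup.index_mul_card ((G22.subgroupOf _).map φ.toMonoidHom)
  rw [h1, hc] at h2
  exact ⟨by omega, ψ.symm.isSimpleGroup, h1⟩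

end Cfsg.Agent.S0414
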