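import Cfsg.Statements.S0428
import Cfsg.Agent.H2.S22

set_option autoImplicit false
open Cfsg

open H2.S22

namespace Cfsg.Agent.S0428

/-- adjacency matrix -/
noncomputable def adjM {α : Type*} (B : Set (Finset α)) : Option (α ⊕ B) → Option (α ⊕ B) → ℤ
  | none, none => 0
  | none, some (Sum.inl _) => 1
  | none, some (Sum.inr _) => 0
  | some (Sum.inl _), none => 1
  | some (Sum.inl _), some (Sum.inl _) => 0
  | some (Sum.inl x), some (Sum.inr b) => inc x b
  | some (Sum.inr _), none => 0
  | some (Sum.inr b), some (Sum.inl x) => inc x b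
  | some (Sum.inr b), some (Sum.inr c) => dj b c

/-- The point-block graph of an S(3, 6, 22) is strongly regular with parameters (100, 22, 0, 6). -/
theorem result {α : Type*} [Fintype α] (hα : Fintype.card α = 22) {B : Set (Finset α)} (hB : Cfsg.IsSteinerSystem 3 6 B) [Fintype B] [DecidableRel (Cfsg.pointBlockGraph B).Adj] : (Cfsg.pointBlockGraph B).IsSRGWith 100 22 0 6 := by
  classical
  refine srg_of_sum _ (adjM B) (fun v w => ?_) 100 22 0 6 ?_ (fun v => ?_) (fun v w h => ?_)
  · rcases v with _ | x | b <;> rcases w with _ | y | c <;> simp only [adjM]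
    · rw [if_neg adj_nn]
    · rw [if_pos (adj_np y)]
    · rw [if_neg (adj_nb c)]
    · rw [if_pos (adj_np x).symm]
    · rw [if_neg (adj_pp x y)]
    · simp only [adj_pb, inc]
    · rw [if_neg (fun h => adj_nb b h.symm)]
    · simp only [SimpleGraph.adj_comm _ (some (Sum.inr b)), adj_pb, inc]
    · by_cases h : b = c
      · subst h; simp [dj_self hB]
      · simp [adj_bb, dj, h]
  · simp [hα, card_B hα hB]
  · rcases v with _ | x | b <;>
      simp [Fintype.sum_option, Fintype.sum_sum_type, adjM, hα, sum1 hα hB, sum_inc hB, sum_a hα hB]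
  · rcases v with _ | x | b <;> rcases w with _ | y | c <;>
      simp only [Fintype.sum_option, Fintype.sum_sum_type, adjM]
    · exact absurd rfl h
    · simp
    · simp [sum_inc hB]
    · simp
    · rw [sum2 hα hB (fun e => h (by rw [e]))]; simp
    · rw [sum_ia hα hB]; simp; ring
    · simp [sum_inc hB]
    · simp only [mul_comm (dj b _), sum_ia hα hB]; simp; ring
    · have hbc : b ≠ c := fun e => h (by rw [e])
      rw [sum_aa hα hB b c hbc, inter hα hB]; simp [dl, hbc]; ring

end Cfsg.Agent.S0428
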