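import Cfsg.Statements.S5979
import Cfsg.Agent.H2.Elu

set_option autoImplicit false
open scoped MatrixGroups
open Cfsg

open H11 H20.El H2.Eu Module Polynomial Matrix Cfsg.Geo
open scoped Kronecker

namespace Cfsg.Agent.S5979

section
variable {F : Type*} [Field F] {κ μ : Type} [Fintype κ] [DecidableEq κ] [Fintype μ] [DecidableEq μ]
  {n a b : ℕ} {e : Fin n ≃ Fin a × Fin b} {P : GL (Fin n) F}

theorem mem_tens {h : GL (Fin n) F} : h ∈ tensorProductSubgroup a b e P ↔
    ∃ (g₁ : GL (Fin a) F) (g₂ : GL (Fin b) F),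
      h.1 = P.1 * reindex e.symm e.symm (g₁.1 ⊗ₖ g₂.1) * (P⁻¹).1 := by
  constructor
  · rintro ⟨_, ⟨k, ⟨g₁, g₂, hk⟩, rfl⟩, rfl⟩
    exact ⟨g₁, g₂, by rw [← hk]; rfl⟩
  · rintro ⟨g₁, g₂, hk⟩
    exact ⟨_, ⟨GeneralLinearGroup.kronecker g₁ g₂, ⟨g₁, g₂, rfl⟩, rfl⟩, Units.ext hk.symm⟩

theorem inG_tens {f : End F (Fin n → F)} : InG (tensorProductSubgroup a b e P) f ↔
    ∃ (g₁ : GL (Fin a) F) (g₂ : GL (Fin b) F), Sim f (mE (g₁.1 ⊗ₖ g₂.1)) := by
  have key : ∀ A, Sim (mE A) (mE (P.1 * reindex e.symm e.symm A * (P⁻¹).1)) := fun A =>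
    (sim_reindex e.symm A).trans (isConj_mat_iff.1 ⟨P, by simp [SemiconjBy, mul_assoc]⟩)
  constructor
  · rintro ⟨h, h1, h2⟩
    obtain ⟨g₁, g₂, hk⟩ := mem_tens.1 h1
    exact ⟨g₁, g₂, h2.trans (hk ▸ (key _).symm)⟩
  · rintro ⟨g₁, g₂, h⟩
    exact ⟨P * glReindex e.symm (GeneralLinearGroup.kronecker g₁ g₂) * P⁻¹,
      mem_tens.2 ⟨g₁, g₂, rfl⟩, h.trans (key _)⟩

theorem scal_le : scalars (Fin n) F ≤ tensorProductSubgroup a b e P := fun g hg => by
  obtain ⟨c, hc⟩ := (mem_scalars_iff g).1 hg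
  refine mem_tens.2 ⟨GeneralLinearGroup.scalar _ c, 1, ?_⟩
  have : (GeneralLinearGroup.scalar (Fin a) c).1 = (c : F) • 1 := by simp [smul_one_eq_diagonal]
  rw [hc, this, smul_kronecker, Units.val_one, one_kronecker_one, reindex_apply, submatrix_smul]
  simp

theorem rank_kron {A : Matrix κ κ F} (h : ∀ z : F, A ≠ z • 1) [Nonempty κ] (B : GL μ F) (c : F) :
    Fintype.card μ ≤ (A ⊗ₖ B.1 - c • 1).rank := by
  obtain ⟨l, v, h1, h2⟩ : ∃ l v : κ → F, l ⬝ᵥ v = 0 ∧ l ⬝ᵥ A *ᵥ v ≠ 0 := by
    by_contra! h'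
    obtain ⟨i₀⟩ := ‹Nonempty κ›
    have h1 : ∀ i j, i ≠ j → A i j = 0 := fun i j hij => by
      simpa using h' (Pi.single i 1) (Pi.single j 1) (by simp [hij])
    refine h (A i₀ i₀) (Matrix.ext fun i j => ?_)
    by_cases e : i = j
    · subst e
      by_cases e : i = i₀
      · simp [e]
      · have := h' (Pi.single i 1 - Pi.single i₀ 1) (Pi.single i 1 + Pi.single i₀ 1)
          (by simp [e, Ne.symm e])
        simpa [mulVec_add, h1 _ _ e, h1 _ _ (Ne.symm e), add_neg_eq_zero] using this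
    · simp [h1 i j e, e]
  have key : (replicateRow Unit l ⊗ₖ (1 : Matrix μ μ F)) * (A ⊗ₖ B.1 - c • 1) *
      (replicateCol Unit v ⊗ₖ (1 : Matrix μ μ F)) = ((l ⬝ᵥ A *ᵥ v) • (1 : Matrix Unit Unit F)) ⊗ₖ B.1 := by
    rw [Matrix.mul_sub, Matrix.sub_mul, Matrix.mul_smul, Matrix.mul_one, Matrix.smul_mul,
      ← mul_kronecker_mul, ← mul_kronecker_mul, ← mul_kronecker_mul, replicateRow_mul_replicateCol,
      h1, Matrix.mul_assoc, ← replicateCol_mulVec, replicateRow_mul_replicateCol]
    ext i j; simp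
  have h3 := (rank_mul_le_left _ _).trans' (congrArg Matrix.rank key).ge |>.trans (rank_mul_le_right _ _)
  rwa [rank_of_isUnit _ ((isUnit_iff_isUnit_det _).2 (by
    rw [det_kronecker]; simp [h2, B.det_ne_zero])), Fintype.card_prod, Fintype.card_unit,
    one_mul] at h3

theorem sim_swap (A : Matrix κ κ F) (B : Matrix μ μ F) : Sim (mE (A ⊗ₖ B)) (mE (B ⊗ₖ A)) := by
  convert sim_reindex (Equiv.prodComm κ μ) (A ⊗ₖ B) using 2
  ext i j; simp [mul_comm]

theorem rank_sim {V : Type*} [AddCommGroup V] [Module F V] [FiniteDimensional F V] {f : End F V}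
    {A : Matrix κ κ F} (h : Sim f (mE A)) (c : F) :
    finrank F (LinearMap.range (f - c • 1)) = (A - c • 1).rank := by
  have := (h.aeval (X - C c)).finrank_range
  rw [map_sub, map_sub, aeval_X, aeval_X, aeval_C, aeval_C, Algebra.algebraMap_eq_smul_one,
    Algebra.algebraMap_eq_smul_one] at this
  rw [this, rank_eq_mE, mE_sub, mE_smul, mE_one]

theorem charpoly_kron (B : Matrix μ μ F) :
    ((1 : Matrix κ κ F) ⊗ₖ B).charpoly = B.charpoly ^ Fintype.card κ := by
  have : ((1 : Matrix κ κ F) ⊗ₖ B).charmatrix = (1 : Matrix κ κ F[X]) ⊗ₖ B.charmatrix := by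
    ext ⟨i, j⟩ ⟨k, l⟩ : 2
    by_cases e : i = k <;> simp [charmatrix_apply, diagonal_apply, one_apply, e]
  rw [Matrix.charpoly, this, det_kronecker]; simp [Matrix.charpoly]

open Classical in
theorem tens_cases (ha : 0 < a) {f : End F (Fin n → F)} (h : InG (tensorProductSubgroup a b e P) f)
    (hf : SS f) : (∀ Q, a ∣ (ED f).count Q) ∨ ∃ (g₁ : GL (Fin a) F) (g₂ : GL (Fin b) F),
      Sim f (mE (g₁.1 ⊗ₖ g₂.1)) ∧ (∀ z : F, g₁.1 ≠ z • 1) ∧
      ∀ c : F, b ≤ finrank F (LinearMap.range (f - c • 1)) := by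
  obtain ⟨g₁, g₂, h⟩ := inG_tens.1 h
  have : Nonempty (Fin a) := ⟨⟨0, ha⟩⟩
  by_cases h1 : ∀ z : F, g₁.1 ≠ z • 1
  · exact .inr ⟨g₁, g₂, h, h1, fun c => by simpa [rank_sim h] using rank_kron h1 g₂ c⟩
  · push Not at h1
    obtain ⟨z, hz⟩ := h1
    refine .inl fun Q => ?_
    rw [hf.ED_eq, h.charpoly, charpoly_mE, hz, smul_kronecker, ← kronecker_smul, charpoly_kron,
      UniqueFactorizationMonoid.normalizedFactors_pow, Multiset.count_nsmul, Fintype.card_fin]
    exact dvd_mul_right _ _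

theorem not_inG_eig [DecidableEq F] (ha : 0 < a) {f : End F (Fin n → F)} {s : Multiset F} (h : Eig f s)
    {c x : F} (h1 : n - s.count c < b) (h2 : ¬ a ∣ s.count x) :
    ¬ InG (tensorProductSubgroup a b e P) f := fun h3 => by
  obtain h4 | ⟨_, _, -, -, h4⟩ := tens_cases ha h3 h.ss
  · have := h4 (X - C x)
    rw [h] at this
    refine h2 ?_
    rw [← Multiset.count_map_eq_count' (fun a => X - C a) _
      (fun a b (e : X - C a = X - C b) => C_injective (sub_right_injective e))]
    convert this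
  · have := (f - c • 1).finrank_range_add_finrank_ker
    have := h4 c
    have := h.finrank_ker c
    simp only [finrank_fin_fun] at *
    omega

end

/-- Elements of prime order of PSL_n(q) and the stabilizers of tensor decompositions with factors of different dimensions. Here `T = PSL_n(F)` for a field `F` with `q` elements and `n = a·b` with `2 ≤ a < b`; a tensor decomposition `F^n ≅ F^a ⊗ F^b` is given by a bijection `e` of index sets and a change of basis `P`, and `H` is the subgroup of matrices of determinant 1 in its stabilizer (the conjugate by `P` of the group of Kronecker products `g₁ ⊗ g₂`) — a subgroup of type GL_a(q) ⊗ GL_b(q) (maximality is not assumed); Ω is the set of cosets of `H` in `T`, so an element of `T` of prime order `r` (a matrix `x` of determinant 1 with `x^r` scalar, `x` not scalar) fixes a point of Ω exactly when some conjugate of `x` by a matrix of determinant 1 lies in `H`. Let `r` be a prime dividing the index of `H`. Then every element of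 `T` of order `r` fixes a point of Ω if and only if `r = 2`, `a = 2`, `q` is odd and `(q − 1)_2 ≤ (n)_2` (2-parts). -/
theorem result {F : Type*} [Field F] [Fintype F] {p : ℕ} [Fact p.Prime] [CharP F p] {q : ℕ} (hq : Fintype.card F = q)
    (n a b : ℕ) (hab : n = a * b) (ha : 2 ≤ a) (hlt : a < b) (e : Fin n ≃ Fin a × Fin b) (P : GL (Fin n) F)
    (r : ℕ) [Fact r.Prime]
    (hΩ : r ∣ (Cfsg.Geo.tensorProductSubgroup a b e P).relIndex (Cfsg.Geo.specialLinear (Fin n) F)) :
    (∀ x ∈ Cfsg.Geo.specialLinear (Fin n) F, (∃ z : F, ((x ^ r : GL (Fin n) F) : Matrix (Fin n) (Fin n) F) = z • (1 : Matrix (Fin n) (Fin n) F)) →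
      (∀ z : F, (x : Matrix (Fin n) (Fin n) F) ≠ z • (1 : Matrix (Fin n) (Fin n) F)) →
      ∃ g ∈ Cfsg.Geo.specialLinear (Fin n) F, g⁻¹ * x * g ∈ Cfsg.Geo.tensorProductSubgroup a b e P) ↔
    (r = 2 ∧ a = 2 ∧ Odd q ∧ padicValNat 2 (q - 1) ≤ padicValNat 2 n) := by
  classical
  have hr : r.Prime := Fact.out
  rw [← Nat.card_eq_fintype_card] at hq
  subst hq
  have hn : 6 ≤ n := by nlinarith
  rw [all_gl]
  constructor
  · intro h
    by_contra h'
    revert h
    by_cases hrp : r = p
    · subst hrp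
      obtain ⟨f, h1, h2, h3, -, -, h4⟩ := exists_tv (F := F) (V := Fin n → F) r (by simp; omega)
      refine not_all h1 h2 h3 fun h5 => ?_
      obtain ⟨g₁, g₂, h5⟩ := inG_tens.1 h5
      have : Nonempty (Fin a) := ⟨⟨0, by omega⟩⟩
      have : Nonempty (Fin b) := ⟨⟨0, by omega⟩⟩
      have h6 := rank_sim h5 1
      have h7 := rank_sim (h5.trans (sim_swap _ _)) 1
      rw [one_smul, h4] at h6 h7
      by_cases e1 : ∀ z : F, g₁.1 ≠ z • 1
      · have := rank_kron e1 g₂ 1
        simp only [Fintype.card_fin] at this; omega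
      by_cases e2 : ∀ z : F, g₂.1 ≠ z • 1
      · have := rank_kron e2 g₁ 1
        simp only [Fintype.card_fin] at this; omega
      push Not at e1 e2
      obtain ⟨z, hz⟩ := e1
      obtain ⟨w, hw⟩ := e2
      rw [hz, hw, smul_kronecker, kronecker_smul, one_kronecker_one, smul_smul, mE_smul, mE_one] at h5
      obtain ⟨e, he⟩ := h5
      exact h3 (z * w) (LinearMap.ext fun x => e.injective (by simpa using he x))
    have h0 : (r : F) ≠ 0 := natCast_ne_zero_of_prime p hr hrp
    have hi := ord_le hr (not_dvd_card p hr hrp) hΩ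
    have hi0 := orderOf_card_ne_zero hr h0
    rw [Fintype.card_fin] at hi
    by_cases hi1 : orderOf (Nat.card F : ZMod r) = 1
    · by_cases e : r = 2 ∧ a = 2
      · obtain ⟨rfl, rfl⟩ := e
        have h2 : (2 : F) ≠ 0 := h0
        obtain ⟨c, hc⟩ := exists_root (F := F) hr (n := n) (by omega) (by
          by_contra! e; exact h' ⟨rfl, rfl, two_ne_zero_iff.1 h2, e⟩)
        have h3 := hc.eq_neg_one_of_two_right
        have h4 : c ≠ 0 := fun e => by simp [e, show n ≠ 0 by omega] at h3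
        have h5 : c ≠ -c := fun e => h4 ((mul_eq_zero.1 (by linear_combination e)).resolve_left h2)
        obtain ⟨f, hf⟩ := exists_eig (V := Fin n → F) (s := Multiset.replicate (n - 1) c + {-c})
          (by simp; omega)
        refine not_all (z := c ^ 2) ?_ (hf.pow_iff.2 ?_) (hf.ne (a := c) (b := -c)
          (by simp [Multiset.mem_replicate]; omega) (by simp) h5)
          (not_inG_eig two_pos hf (c := c) (x := -c) ?_ ?_)
        · rw [hf.det, Multiset.prod_add, Multiset.prod_replicate, Multiset.prod_singleton, mul_neg,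
            ← pow_succ, Nat.sub_add_cancel (by omega), h3, neg_neg]
        · simp +contextual [Multiset.mem_replicate, or_imp]
        · simp [h5]; omega
        · simp [Multiset.count_replicate, h5]
      obtain ⟨ω, hω⟩ := exists_prim (F := F) ((orderOf_eq_one_iff Nat.card_pos).1 hi1)
      have h1 := hω.ne_one hr.one_lt
      have h2 := hω.ne_zero hr.ne_zero
      obtain ⟨f, hf⟩ := exists_eig (V := Fin n → F) (s := Multiset.replicate (n - 2) 1 + {ω, ω⁻¹})
        (by simp; omega)
      refine not_all (z := 1) (by simp [hf.det, h2]) (hf.pow_iff.2 ?_) (hf.ne (a := ω) (b := 1)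
        (by simp) (by simp [Multiset.mem_replicate]; omega) h1)
        (not_inG_eig (by omega) hf (c := 1) (x := ω) ?_ ?_)
      · simp +contextual [Multiset.mem_replicate, or_imp, hω.pow_eq_one]
      · rw [Multiset.count_add, Multiset.count_replicate_self]; omega
      · simp only [Multiset.insert_eq_cons, Multiset.count_add, Multiset.count_replicate, h1.symm,
          if_false, Multiset.count_cons_self, Multiset.count_singleton, zero_add]
        split_ifs with e'
        · intro h3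
          exact e ⟨(Nat.prime_dvd_prime_iff_eq hr Nat.prime_two).1 ((hω.pow_eq_one_iff_dvd 2).1 (by
            rw [pow_two]; nth_rewrite 2 [e']; exact mul_inv_cancel₀ h2)),
            le_antisymm (Nat.le_of_dvd two_pos h3) ha⟩
        · intro h3
          have := Nat.le_of_dvd one_pos h3
          omega
    obtain ⟨Q, hQ⟩ := exists_mem_PhiF hr h0
    obtain ⟨f, h1, h2, h3, h4, -⟩ := exists_jt (V := Fin n → F) hr h0 (by omega) (s := 1)
      (e := n - orderOf (Nat.card F : ZMod r)) one_pos (by rw [finrank_fin_fun]; omega) hQ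
    have h5 : Q ≠ X - 1 := fun e => X_sub_one_notMem_PhiF hr h0 (e ▸ hQ)
    refine not_all h1 (h2.trans (one_smul F _).symm) h3 fun h6 => ?_
    have h7 := ss_of_pow_eq_one h0 h2
    obtain h8 | ⟨g₁, g₂, h8, h9, h10⟩ := tens_cases (by omega) h6 h7
    · have := Nat.le_of_dvd (by simp [h4]) (h8 Q)
      simp [h4, Multiset.count_replicate, h5.symm] at this
      omega
    have h11 := h10 1
    rw [one_smul, finrank_range_eq_nED h7, nED_of_ED (by simpa using h5.symm) h4] at h11
    simp only [Multiset.replicate_one, Multiset.map_singleton, Multiset.sum_singleton,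
      (PhiF_spec hr h0).1 Q hQ] at h11
    have h12 : (g₁.1 ^ r) ⊗ₖ (g₂.1 ^ r) = 1 := by
      have := ((h8.pow r).sub_one_pow 1).eq_zero_iff
      rw [h2, pow_one, pow_one, sub_self, eq_self, true_iff, sub_eq_zero, ← mE_pow, ← mE_one,
        mE_inj] at this
      rw [← this]
      exact Nat.rec (by simp) (fun k hk => by simp only [pow_succ, mul_kronecker_mul, hk]) r
    obtain ⟨β, hβ⟩ : ∃ β : F, β • g₁.1 ^ r = 1 := ⟨(g₂.1 ^ r) ⟨0, by omega⟩ ⟨0, by omega⟩,
      Matrix.ext fun i j => by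
        simpa [one_apply, mul_comm] using
          congrFun₂ h12 (i, ⟨0, by omega⟩) (j, ⟨0, by omega⟩)⟩
    obtain ⟨d, rfl⟩ : ∃ d, d ^ r = β := by
      by_contra! e; exact hi1 (dvd_of_not_pow hr e)
    have h13 : mE (d • g₁.1) ^ r = 1 := by rw [← mE_pow, _root_.smul_pow, hβ, mE_one]
    obtain ⟨-, e', s, h14, h15⟩ := jt_of_pow hr h0 h13
    have h16 := h15 fun e => by
      rw [← mE_one, mE_inj] at e
      have : Nonempty (Fin a) := ⟨⟨0, by omega⟩⟩
      have h17 : d ≠ 0 := fun e' => by simp [e'] at e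
      exact h9 d⁻¹ (by rw [← e, smul_smul, inv_mul_cancel₀ h17, one_smul])
    have h17 := JT_sum (mE (d • g₁.1))
    simp only [h14, Multiset.sum_add, Multiset.sum_replicate, smul_eq_mul, finrank_fin_fun] at h17
    nlinarith
  · rintro ⟨rfl, rfl, h1, h2⟩
    have h0 : (2 : F) ≠ 0 := two_ne_zero_iff.2 h1
    refine all_of' hr h0 scal_le (fun g c h3 _ h4 => ?_) fun g z h3 h4 _ => ?_
    · obtain ⟨k, l, h5, h6, h7⟩ := eig_of_sq h0 h3
      rw [h7, Fintype.card_fin] at h4
      rw [eq_one_of_val hr (by omega) (c := c) (by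
        rcases neg_one_pow_eq_or F k with e | e <;> rw [e] at h4
        · rw [mul_one] at h4; rw [h4, one_pow]
        · rw [mul_neg_one, neg_eq_iff_eq_neg] at h4; rw [h4]; simp) h2, one_mul,
        neg_one_pow_eq_one_iff_even fun e => h0 (by linear_combination -e)] at h4
      obtain ⟨k, rfl⟩ := h4
      rw [finrank_fin_fun] at h6
      obtain ⟨f, hf⟩ := exists_eig (V := Fin b → F)
        (s := Multiset.replicate k (-1 : F) + Multiset.replicate (b - k) 1) (by simp; omega)
      obtain ⟨B, rfl⟩ := mE_surj f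
      have h8 : B ^ 2 = 1 := by
        rw [← mE_inj, mE_pow, mE_one, hf.pow_one_iff]
        simp +contextual [Multiset.mem_replicate, or_imp]
      refine inG_tens.2 ⟨1, ⟨B, B, by rwa [← sq], by rwa [← sq]⟩,
        h5.ss.sim_of_charpoly (ss_of_pow_eq_one (m := 2) h0 ?_) ?_⟩
      · rw [← mE_pow, sq, ← mul_kronecker_mul, ← sq B, h8]; simp [mE_one]
      · rw [charpoly_mE, Units.val_one, charpoly_kron, ← charpoly_mE, hf.charpoly, h5.charpoly,
          show l = (b - k) + (b - k) by omega]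
        simp; ring
    · obtain ⟨f, hf, -⟩ := exists_irr (V := Fin 2 → F) le_rfl h3 one_pos (by simp)
      obtain ⟨A, rfl⟩ := mE_surj f
      rw [← mE_pow, ← mE_one, ← mE_smul, mE_inj] at hf
      have hz : z ≠ 0 := fun e => not_pow_of_irr le_rfl h3 0 (by simp [e])
      refine inG_tens.2 ⟨⟨A, z⁻¹ • A, by rw [mul_smul_comm, ← sq, hf, smul_smul]; simp [hz],
        by rw [smul_mul_assoc, ← sq, hf, smul_smul]; simp [hz]⟩, 1,
        sim_irr' two_ne_zero h3 h4 ?_ (by simp [hab])⟩
      rw [← mE_pow, sq, ← mul_kronecker_mul, ← sq A, hf, smul_kronecker, mE_smul]; simp [mE_one]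

end Cfsg.Agent.S5979
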