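import Cfsg.Statements.S5789
import Cfsg.Agent.H29.ExtS
import Cfsg.Agent.H29.ODec

set_option autoImplicit false
open Cfsg

namespace Cfsg.Agent.S5789

open H11 H11.PForm H29 Matrix Module

section
variable {F V : Type*} [Field F] [Finite F] [AddCommGroup V] [Module F V] [FiniteDimensional F V]
  {S : PForm (sympP F) V}

theorem sq_mem (h2 : (2 : F) = 0) {F₀ : Subfield F} {x : F} (h : x * x ∈ F₀) : x ∈ F₀ := by
  haveI : CharP F 2 := CharTwo.of_one_ne_zero_of_two_eq_zero one_ne_zero h2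
  obtain ⟨c, hc⟩ := FiniteField.isSquare_of_char_two (ringChar.eq F₀ 2) ⟨_, h⟩
  have h3 : (x - c) ^ 2 = 0 := by
    have : x * x = c * c := congrArg Subtype.val hc
    linear_combination this + (c * c - x * c) * h2
  rw [sub_eq_zero.1 (pow_eq_zero_iff two_ne_zero |>.1 h3)]
  exact c.2

theorem rat2 (h2 : (2 : F) = 0) (hS : S.Nondeg) (hn : 3 ≤ finrank F V) {ι : Type*} [Fintype ι]
    {F₀ : Subfield F} {b : Basis ι F V} (R : Rat S F₀ b) (hr : (finrank F₀ F).Prime)
    (H : Subgroup S.Isom) (hH : ∀ u ∈ V0 F₀ b, ∀ v ∈ V0 F₀ b, ∀ a ∈ F₀, S.eich u v a ∈ H) :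
    S.E ≤ H ∨ ∀ g ∈ H, ∀ x ∈ V0 F₀ b, g.1 x ∈ V0 F₀ b := by
  by_cases h : ∀ g ∈ H, ∀ x ∈ V0 F₀ b, g.1 x ∈ V0 F₀ b
  · exact .inr h
  left
  push Not at h
  obtain ⟨g, hg, x, hx, hu⟩ := h
  have hT : ∀ u ∈ V0 F₀ b, ∀ a ∈ F₀, S.eich u 0 a ∈ H := fun u hu => hH u hu 0 (Submodule.zero_mem _)
  have h1 := eich_conj (hT x hx 1 F₀.one_mem) hg
  rw [map_zero] at h1
  generalize g.1 x = u at hu h1
  obtain ⟨e, he, hl⟩ : ∃ e ∈ V0 F₀ b, S.h e u ∉ F₀ := by
    by_contra! h
    exact hu (R.mem_V0_of_h hS h)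
  have he0 : e ≠ 0 := by rintro rfl; simp at hl
  obtain ⟨f, hf, -, hfe⟩ := R.exists_dual hS [] (by simp) he (by simpa)
  obtain ⟨i, hi⟩ : ∃ i, b i ∉ Submodule.span F {e, f} := by
    by_contra! h
    have := (Submodule.finrank_mono (show ⊤ ≤ Submodule.span F {e, f} from
      b.span_eq ▸ Submodule.span_le.2 (by rintro _ ⟨i, rfl⟩; exact h i))).trans (finrank_span_two_le e f)
    rw [finrank_top] at this
    omega
  obtain ⟨d, hd, h3, h4⟩ := R.exists_dual hS [e, f] (by simp [he, hf]) (basis_mem_V0 i)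
    (by rwa [list_set_two])
  simp only [List.mem_cons, List.not_mem_nil, or_false, forall_eq_or_imp, forall_eq] at h3
  obtain ⟨d', hd', h5, h6⟩ := R.exists_dual hS [e] (by simp [he]) hd (by
    rw [list_set_one, Submodule.mem_span_singleton]
    rintro ⟨c, rfl⟩
    have := h3.2
    rw [h_smul_left, symp_symm, hfe] at this
    simp [show c = 0 by simpa using this] at h4)
  replace h5 := h5 e (by simp)
  have hed := S.h_swap_zero h3.1
  have hed' := S.h_swap_zero h5
  have h7 := eich_conj h1 (hH e he d hd 0 F₀.zero_mem)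
  rw [map_zero] at h7
  have h8 := eich_conj (hT e he 1 F₀.one_mem) (H.mul_mem h1 h7)
  rw [map_zero, show (S.eich u 0 1 * _).1 e = (1 - S.h e u * S.h d u) • e - (S.h e u * S.h e u) • d by
    rw [isom_mul_apply, symp_transv_apply, symp_transv_apply, eich_apply (sec hed _)]
    simp only [map_add, map_sub, LinearMap.add_apply, LinearMap.sub_apply, map_smul,
      LinearMap.smul_apply, smul_eq_mul, symp_h_self, h3.1, symp_symm S e u, symp_symm S d u, sympP_ε, RingHom.id_apply]
    linear_combination (norm := module) (h2 * (-S.h e u + S.h e u ^ 2 * S.h d u)) • u] at h8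
  generalize S.h e u = l at hl h8
  generalize 1 - l * S.h d u = m at h8
  let B := BSet H (S.symp_sing e)
  have b1 : ∀ c : F, S.eich e (c • e) 0 = 1 := fun c => isom_ext fun x => by
    rw [eich_apply (sec (by simp [symp_h_self]) _)]
    simp only [h_smul_left, sympP_ε, RingHom.id_apply, isom_one_apply]
    linear_combination (norm := module) (h2 * c * S.h e x) • e
  have b2 : ∀ c : F, c • e ∈ B := fun c => ⟨0, sec (by simp [symp_h_self]) _, b1 c ▸ H.one_mem⟩
  have b3 : ∀ w a, S.h w e = 0 → S.eich w 0 a ∈ H → ∀ v ∈ B, v + (a * S.h w v) • w ∈ B :=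
    fun w a h3 h4 v hv => symp_transv_apply (S := S) w a v ▸ BSet_map hv h4 (by
      rw [symp_transv_apply, h3, mul_zero, zero_smul, add_zero])
  have mv : ∀ y ∈ V0 F₀ b, S.h y e = 0 → S.h y d ≠ 0 → ∀ c : F, c • d ∈ B → c • y ∈ B :=
    fun y hy h9 h10 c hc => by
      convert b3 (y - d) (S.h y d)⁻¹ (by simp [h9, h3.1]) (hT _ (Submodule.sub_mem _ hy hd) _
        (F₀.inv_mem (R.h_mem _ hy _ hd))) _ hc using 1
      simp only [map_smul, map_sub, LinearMap.sub_apply, symp_h_self, sub_zero, smul_eq_mul]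
      rw [mul_left_comm, inv_mul_cancel₀ h10]
      module
  let L : Subring F :=
    { carrier := {r | ∀ c : F, c • d ∈ B → (c * r) • d ∈ B}
      mul_mem' := fun h1 h2 c hc => by rw [← mul_assoc]; exact h2 _ (h1 c hc)
      one_mem' := fun c hc => by rwa [mul_one]
      add_mem' := fun h1 h2 c hc => by rw [mul_add, add_smul]; exact B.add_mem (h1 c hc) (h2 c hc)
      zero_mem' := fun c _ => by simp
      neg_mem' := fun h1 c hc => by rw [mul_neg, neg_smul]; exact B.neg_mem (h1 c hc) }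
  have hl2 : l * l * (l * l) ∉ F₀ := fun h => hl (sq_mem h2 (sq_mem h2 h))
  have hL : L = ⊤ := subring_eq_top hr L (fun r hr c hc => by
    have h9 := mv d' hd' h5 (by simp [h6]) c hc
    convert B.sub_mem h9 (b3 d r h3.1 (hT d hd r hr) _ h9) using 1
    simp only [map_smul, symp_symm S d' d, h6, smul_eq_mul]
    module) (l := l * l * (l * l)) (fun c hc => by
    have h9 := mv d' hd' h5 (by simp [h6]) c hc
    convert B.add_mem (B.sub_mem h9 (b3 _ 1 (by simp [h3.1, symp_h_self]) h8 _ h9))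
      (b2 (c * l * l * m)) using 1
    simp only [map_smul, symp_symm S d' d, h6, smul_eq_mul, map_sub, LinearMap.sub_apply,
      LinearMap.smul_apply, hed', RingHom.id_apply]
    module) hl2
  have b4 : ∀ c : F, c • d ∈ B := fun c => by
    simpa using (hL ▸ Subring.mem_top c : c ∈ L) 1 ⟨0, sec (by simpa) _, hH e he _ (by simpa) _ F₀.zero_mem⟩
  have b5 : ∀ y ∈ V0 F₀ b, S.h e y = 0 → ∀ c : F, c • y ∈ B := fun y hy h9 c => by
    by_cases h10 : S.h y d = 0
    · convert B.sub_mem (mv (d' + y) (Submodule.add_mem _ hd' hy) (by simp [h5, S.h_swap_zero h9])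
        (by simp [h6, h10]) c (b4 c)) (mv d' hd' h5 (by simp [h6]) c (b4 c)) using 1
      module
    · exact mv y hy (S.h_swap_zero h9) h10 c (b4 c)
  have b6 : ∀ w (y r s : F), S.h w e = 0 → S.eich w 0 1 ∈ H →
      (S.eich w 0 1).1 (y • d') = y • d' - (y * r) • d + s • e →
      S.eich e (-((y * r) • d)) (y * (y * r)) ∈ H := fun w y r s h9 h10 h11 => by
    obtain ⟨a, -, ha⟩ := b5 d' hd' hed' y
    have h12 := eich_conj ha h10
    rw [h11, symp_transv_apply, h9, mul_zero, zero_smul, add_zero] at h12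
    convert seich_mul (by simp [hed', hed, symp_h_self]) (by simp [symp_h_self])
      (seich_mul (by simp [hed']) (by simp [hed', hed, symp_h_self]) (seich_inv (by simp [hed']) ha) h12)
      (b1 (-s) ▸ H.one_mem) using 2
    · module
    · simp [symp_h_self, h5, h6, h3.1]
  have full : Full H e := by
    refine full_of_BSet trivial (fun v hv => ?_) fun a _ => ?_
    · let T : Submodule F V :=
        { carrier := {v | ∀ c : F, c • v ∈ B}
          add_mem' := fun h1 h2 c => by rw [smul_add]; exact B.add_mem (h1 c) (h2 c)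
          zero_mem' := fun c => by simp
          smul_mem' := fun a v h c => by rw [smul_smul]; exact h _ }
      simpa using R.span_perp hS he T b5 hv 1
    let A : AddSubgroup F :=
      { carrier := {b | S.eich e 0 b ∈ H}
        add_mem' := fun h1 h2 => by simpa using seich_mul (by simp) (by simp) h1 h2
        zero_mem' := by simp [eich_zero]
        neg_mem' := fun h1 => by simpa using seich_inv (by simp) h1 }
    refine mem_of_sq A (a := l * l * (l * l) * (1 - l * l * (l * l))) (mul_ne_zero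
      (fun h => hl2 (h ▸ F₀.zero_mem)) fun h => hl2 (sub_eq_zero.1 h ▸ F₀.one_mem)) (fun c => ?_) a
    have h9 := b6 _ c (l * l * (l * l)) (c * l * l * m) (by simp [h3.1, symp_h_self]) h8 (by
      rw [symp_transv_apply]
      simp only [map_smul, symp_symm S d' d, h6, smul_eq_mul, map_sub, LinearMap.sub_apply,
        LinearMap.smul_apply, hed', RingHom.id_apply]
      module)
    have h10 := b6 d (c * (l * l * (l * l))) 1 0 h3.1 (hT d hd 1 F₀.one_mem) (by
      rw [symp_transv_apply]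
      simp only [map_smul, symp_symm S d' d, h6, smul_eq_mul]
      module)
    change S.eich e 0 _ ∈ H
    convert seich_mul (by simp [hed]) (by simp [hed]) h9 (seich_inv (by simp [hed]) h10) using 2
    · simp
    · simp [symp_h_self]
      ring
  have h9 := full.map (hT (f - e) (Submodule.sub_mem _ hf he) 1 F₀.one_mem)
  rw [symp_transv_apply] at h9
  exact S.E_le_iff.2 fun x v a _ => full_all_of_pair hS trivial trivial full h9
    (by simp [symp_h_self, hfe, symp_symm S f e]) x v a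

theorem orth2 (h2 : (2 : F) = 0) {T : PForm (orthP F) V} (hS : S.Nondeg)
    (hST : ∀ x y, T.h x y = S.h x y) (hn : 3 ≤ finrank F V) (H : Subgroup S.Isom)
    (hH : ∀ g : S.Isom, (∀ x, T.q (g.1 x) = T.q x) → g ∈ H) :
    S.E ≤ H ∨ ∀ g ∈ H, ∀ x, T.q (g.1 x) = T.q x := by
  by_cases h : ∀ g ∈ H, ∀ x, T.q (g.1 x) = T.q x
  · exact .inr h
  left
  push Not at h
  obtain ⟨g, hg, x, hx⟩ := h
  haveI : CharP F 2 := CharTwo.of_one_ne_zero_of_two_eq_zero one_ne_zero h2
  have sq : ∀ a : F, ∃ c, c ^ 2 = a := fun a =>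
    let ⟨c, hc⟩ := FiniteField.isSquare_of_char_two (ringChar.eq F 2) a; ⟨c, by rw [hc, sq]⟩
  have hT : T.Nondeg := fun x hx => hS x fun y => by rw [← hST]; exact hx y
  have h1 : ∀ u, T.q u = 1 → S.eich u 0 1 ∈ H := fun u hu => hH _ fun x => by
    rw [symp_transv_apply, orth_q_add, orth_q_smul, hu, map_smul, T.orth_symm, hST]
    simp only [smul_eq_mul]
    linear_combination S.h u x ^ 2 * h2
  have hadd : ∀ x y, T.q (g.1 (x + y)) - T.q (x + y) =
      (T.q (g.1 x) - T.q x) + (T.q (g.1 y) - T.q y) := fun x y => by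
    rw [map_add, orth_q_add, orth_q_add, hST, hST, isom_h]; ring
  have hsm : ∀ (c : F) x, T.q (g.1 (c • x)) - T.q (c • x) = c ^ 2 * (T.q (g.1 x) - T.q x) :=
    fun c x => by rw [map_smul, orth_q_smul, orth_q_smul, mul_sub]
  let N : Submodule F V :=
    { carrier := {x | T.q (g.1 x) - T.q x = 0}
      add_mem' := fun h1 h2 => by rw [Set.mem_setOf_eq, hadd, h1, h2, add_zero]
      zero_mem' := by simp
      smul_mem' := fun c x h => by rw [Set.mem_setOf_eq, hsm, h, mul_zero] }
  replace hx := sub_ne_zero.2 hx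
  obtain ⟨w, hw, hwx⟩ := hS.exists_perp_of_notMem (U := N) hx 1
  have h3 : ∀ y, S.h w y = 0 → y ∈ N := fun y hy => by
    obtain ⟨c, hc⟩ := sq ((T.q (g.1 y) - T.q y) / (T.q (g.1 x) - T.q x))
    have h3 : y + c • x ∈ N := by
      change _ = _
      rw [hadd, hsm, hc, div_mul_cancel₀ _ hx, CharTwo.add_self_eq_zero]
    have := S.h_swap_zero (hw _ h3)
    rw [map_add, hy, map_smul, hwx, zero_add, smul_eq_mul, mul_one] at this
    simpa [this] using h3
  obtain ⟨y, y1, y2, y3⟩ : ∃ y, S.h w y = 0 ∧ S.h x y = 0 ∧ T.q y ≠ 0 := by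
    by_contra! h
    obtain ⟨z, hz⟩ := exists_notMem_of_ne_top (W := Submodule.span F {w, x}) fun e => by
      have := finrank_span_two_le (F := F) w x
      rw [e, finrank_top] at this
      omega
    obtain ⟨y, h4, h5⟩ := hS.exists_perp_of_notMem hz 1
    rw [mem_perp_pair] at h4
    have h6 : S.h w (z - S.h w z • x + S.h x z • w) = 0 := by simp [hwx, symp_h_self]
    have h7 : S.h x (z - S.h w z • x + S.h x z • w) = 0 := by simp [hwx, symp_h_self, symp_symm S w x]
    have := T.orth_q_add y (z - S.h w z • x + S.h x z • w)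
    rw [h _ h4.1 h4.2, h _ h6 h7, h _ (by rw [map_add, h4.1, h6, add_zero])
      (by rw [map_add, h4.2, h7, add_zero]), hST] at this
    simp [h5, S.h_swap_zero h4.1, S.h_swap_zero h4.2] at this
  refine E_le_of_transv hS fun u hu => ⟨1, one_ne_zero, fun c hc => ?_⟩
  replace hu := smul_ne_zero hc hu
  generalize c • u = u at hu
  obtain ⟨a, ha⟩ := sq ((1 - T.q u) / (T.q (g.1 x) - T.q x))
  obtain ⟨b, hb⟩ := sq ((T.q u - a ^ 2 * T.q x) / T.q y)
  have h4 : T.q (a • x + b • y) = T.q u := by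
    rw [orth_q_add, orth_q_smul, orth_q_smul, hb, div_mul_cancel₀ _ y3, hST]
    simp [y2]
  have h5 : T.q (g.1 (a • x + b • y)) = 1 := by
    have := hadd (a • x) (b • y)
    rw [hsm, hsm, h3 y y1, ha, div_mul_cancel₀ _ hx, h4] at this
    linear_combination this
  obtain ⟨k, hk⟩ := hT.witt_vec (u := a • x + b • y) (fun e => by simp [e, orth_q_zero] at h5) hu
    (by simp [h4])
  have h6 := eich_conj (eich_conj (h1 _ h5) (H.inv_mem hg)) (hH
    ⟨k.1, symp_isIsom fun x y => by rw [← hST, ← hST, isom_h]⟩ fun x => orth_isom_q k x)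
  simpa [-map_add, hk] using h6

end

/-- Maximal subgroups of Sp_4(q) of geometric type, q ≥ 4 even. Let F be a finite field of even order q ≥ 4, f the standard alternating form on F^4 (coordinates Fin 2 ⊕ Fin 2) and Sp_4(F) its isometry group inside GL_4(F). Each of the following, intersected with Sp_4(F), is a maximal subgroup of Sp_4(F): (1) the stabiliser of any non-zero totally isotropic subspace (totally isotropic 1-spaces and 2-spaces); (2) the stabiliser of any decomposition of F^4 into two mutually orthogonal non-degenerate 2-spaces; (3) the normaliser of any degree-2 subfield K of the matrix algebra whose elements are self-adjoint for f with f(k v, v) = 0 for all k in K and all v; (4) every subfield group for a subfield F₀ with |F| = |F₀|^r, r prime, whose F₀-structure carries a non-zero scalar multiple of f; (5) the similarity group of any non-degenerate quadratic form whose polar form is f (either Witt type); its intersection with Sp_4(F) is the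 orthogonal group of that form. -/
theorem result {F : Type*} [Field F] [Fintype F] (heven : ¬ Odd (Fintype.card F)) (h4 : 4 ≤ Fintype.card F) :
    (∀ W : Submodule F (Fin 2 ⊕ Fin 2 → F), W ≠ ⊥ → Cfsg.Geo.IsTotallySingularFor (Cfsg.sympForm 2 F) W → Cfsg.Geo.IsMaximalIn (Cfsg.spGL 2 F) (Cfsg.Geo.subspaceStabilizer W ⊓ Cfsg.spGL 2 F)) ∧
    (∀ D : Fin 2 → Submodule F (Fin 2 ⊕ Fin 2 → F), Cfsg.Geo.IsNondegenerateMDecomposition (Cfsg.sympForm 2 F) 2 D → Cfsg.Geo.IsMaximalIn (Cfsg.spGL 2 F) (Cfsg.Geo.decompositionStabilizer D ⊓ Cfsg.spGL 2 F)) ∧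
    (∀ K : Subalgebra F (Matrix (Fin 2 ⊕ Fin 2) (Fin 2 ⊕ Fin 2) F), Cfsg.Geo.IsFieldSubalgebra 2 K → Cfsg.Geo.IsSelfAdjointFor (Cfsg.sympForm 2 F) K → (∀ k ∈ K, ∀ v : (Fin 2 ⊕ Fin 2 → F), (Cfsg.sympForm 2 F) (Matrix.mulVec k v) v = 0) → Cfsg.Geo.IsMaximalIn (Cfsg.spGL 2 F) (Cfsg.Geo.subalgebraNormalizer K ⊓ Cfsg.spGL 2 F)) ∧
    (∀ (F₀ : Subfield F) (r : ℕ) (P : Matrix.GeneralLinearGroup (Fin 2 ⊕ Fin 2) F) (ζ : F), r.Prime → Fintype.card F = Nat.card F₀ ^ r → ζ ≠ 0 → Cfsg.Geo.IsFormRationalStructure (Cfsg.sympForm 2 F) F₀ ζ P → Cfsg.Geo.IsMaximalIn (Cfsg.spGL 2 F) (Cfsg.Geo.subfieldSubgroup F₀ P ⊓ Cfsg.spGL 2 F)) ∧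
    (∀ Q : (Fin 2 ⊕ Fin 2 → F) → F, Cfsg.Geo.IsNondegenerateQuadraticForm Q → (∀ u v : (Fin 2 ⊕ Fin 2 → F), QuadraticMap.polar Q u v = (Cfsg.sympForm 2 F) u v) → Cfsg.Geo.IsMaximalIn (Cfsg.spGL 2 F) (Cfsg.Geo.quadSimilarityGroup Q ⊓ Cfsg.spGL 2 F)) := by
  have hS := stdSymp_nondeg (F := F) 2
  have h2 : (2 : F) = 0 := by
    have := ringChar.Nat.cast_ringChar (R := F)
    rw [char_two_of_not_odd heven] at this
    exact_mod_cast this
  have hb := big_sp ((hf_J (F := F) 2).symp (alt_J 2)) (by simp) (by simp; omega)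
  rw [← spGL_iso] at hb
  refine ⟨fun W hW0 hW => ?_, fun D hD => ?_, fun K hK h1 h3 => sp_fld_max le_rfl (by omega)
    Nat.prime_two hK h1 h3, fun F₀ r P ζ hr hcard hζ hP => ?_, fun Q hQ hpol => ?_⟩
  · rw [spGL_eq]
    exact isMaximalIn_ts hS (by simp) (symp_ts fun x hx y hy => by rw [stdSymp_h]; exact hW x hx y hy)
      hW0 (Or.inl symp_Λ_ne)
  · rw [spGL_eq]
    have h : ODec (stdSymp 2 F) 2 D := odec_of _ (fun x y => by rw [stdSymp_h]) hD
    obtain ⟨e, he, he0⟩ := Submodule.exists_mem_ne_zero_of_ne_bot (p := D 0) fun hb => by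
      have := h.dim 0
      rw [hb, finrank_bot] at this
      omega
    exact isMaximalIn_odec hS hD.1 h (h.exists_E_not_perm hS he he0 trivial) fun H hH _ =>
      symp_odec hS h (.inl (exists_ne_zero_ne_one (by rw [Nat.card_eq_fintype_card]; omega))) H
        fun g hg => hH g (hS.symp_E_eq_top ▸ Subgroup.mem_top _) hg
  · have hr' := finrank_of_card (F₀ := F₀) (by rwa [Nat.card_eq_fintype_card])
    have h1 := hb.not_sub (F₀ := F₀) (by
      rintro rfl
      obtain ⟨l, hl⟩ := exists_notMem_subfield (hr' ▸ hr)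
      exact hl trivial) P
    let S := sympS (ζ • (stdSymp 2 F).h) fun x => by simp [symp_h_self]
    have hh : ∀ x y, S.h x y = ζ * (stdSymp 2 F).h x y := fun _ _ => rfl
    have hS' : S.Nondeg := fun x hx => hS x fun y => by simpa [hh, hζ] using hx y
    have e : spGL 2 F = EGL S := by
      rw [spGL_eq, EGL, EGL, hS.symp_E_eq_top, hS'.symp_E_eq_top, ← MonoidHom.range_eq_map,
        ← MonoidHom.range_eq_map]
      ext g
      rw [mem_range_toGL, mem_range_toGL]
      exact ⟨fun h => symp_isIsom fun x y => by simp [hh, h.h_eq],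
        fun h => symp_isIsom fun x y => by simpa [hh, hζ] using h.h_eq x y⟩
    have R : Rat S F₀ (basisOf P) := ⟨fun c hc => hc, fun x hx y hy => by
      obtain ⟨u, hu, rfl⟩ := mem_V0_basisOf'.1 hx
      obtain ⟨v, hv, rfl⟩ := mem_V0_basisOf'.1 hy
      simpa [hh, stdSymp_h] using hP u v hu hv, fun x _ => ⟨0, F₀.zero_mem, trivial⟩⟩
    rw [e] at h1 ⊢
    refine isMaximalIn_of_not_le S h1 fun H hH => (rat2 h2 hS' (by simp) R (hr' ▸ hr) H
      fun u hu v hv a ha => hH _ (S.eich_mem_E u v a) (mem_subfieldSubgroup_iff.2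
        ⟨1, one_ne_zero, fun x hx => by simpa using R.eich_mem hu hv ha hx⟩)).imp_right fun h => ?_
    rintro _ ⟨g, hg, rfl⟩
    exact mem_subfieldSubgroup_iff.2 ⟨1, one_ne_zero, fun x hx => by simpa using h g hg x hx⟩
  rw [spGL_eq]
  have hST : ∀ x y, (orthS (quadOf hQ)).h x y = (stdSymp 2 F).h x y := fun x y => by
    rw [stdSymp_h]; exact hpol x y
  have hT := quadOf_nondeg hQ
  apply isMaximalIn_EGL
  · obtain ⟨e, -, he0, he⟩ := iso3_orth (orthS (quadOf hQ)) ⊤ (by simp)
    obtain ⟨f, Hy⟩ := hT.exists_isHyp he he0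
    refine ⟨(stdSymp 2 F).eich e 0 1, (stdSymp 2 F).eich_mem_E _ _ _, ?_⟩
    rintro ⟨c, hc⟩
    have := hc f
    rw [toGL_mulVec, symp_transv_apply, ← hST, Hy.h_ef, mul_one, one_smul] at this
    have h1 := (orthS (quadOf hQ)).orth_q_add f e
    rw [Hy.h_fe, (orth_sing _ _).1 he, (orth_sing _ _).1 Hy.sing_f] at h1
    have h2 : Q f = 0 := (orth_sing _ _).1 Hy.sing_f
    have h3 : Q (f + e) = 0 + 0 + 1 := h1
    rw [h2, h3] at this
    simp at this
  · intro H h1 _
    refine (orth2 h2 hS hST (by simp) H (fun g hg => h1 ⟨⟨1, fun x => ?_⟩,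
      hS.symp_E_eq_top ▸ Subgroup.mem_top _⟩)).imp id fun h g hg => ⟨1, fun x => ?_⟩
    · rw [toGL_mulVec, Units.val_one, one_mul]; exact hg x
    · rw [toGL_mulVec, Units.val_one, one_mul]; exact h g hg x

end Cfsg.Agent.S5789
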