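import Cfsg.Statements.S3762
import Cfsg.Agent.H9.MaxClass
import Cfsg.Agent.H21.Extra

set_option autoImplicit false
open Cfsg

namespace Cfsg.Agent.S3762

open H18 H21 Subgroup
open scoped commutatorElement

/-- Let G be a finite p-group of symplectic type: every characteristic abelian subgroup of G is cyclic. Then G = E ∗ R is a central product of subgroups E and R (they commute elementwise and generate G) where E is extraspecial or trivial, and R is cyclic, or p = 2 and R is dihedral, semidihedral or generalized quaternion of order at least 16. -/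
theorem result {G : Type*} [Group G] [Finite G] {p : ℕ} [Fact p.Prime] (hG : IsPGroup p G) (hsymp : ∀ A : Subgroup G, A.Characteristic → IsMulCommutative A → IsCyclic A) : ∃ E R : Subgroup G, (∀ e ∈ E, ∀ r ∈ R, e * r = r * e) ∧ E ⊔ R = ⊤ ∧ (E = ⊥ ∨ Cfsg.IsExtraspecial p ↥E) ∧ (IsCyclic R ∨ (p = 2 ∧ 16 ≤ Nat.card R ∧ ((∃ m : ℕ, Nonempty (↥R ≃* DihedralGroup m)) ∨ (∃ m : ℕ, Nonempty (↥R ≃* QuaternionGroup m)) ∨ Cfsg.IsQuasiDihedral ↥R))) := by
  have hp : p.Prime := Fact.out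
  rcases subsingleton_or_nontrivial G with _ | _
  · exact ⟨⊥, ⊤, fun _ _ _ _ => Subsingleton.elim _ _, bot_sup_eq _, Or.inl rfl, Or.inl inferInstance⟩
  have pi : ∀ H : Subgroup G, PiGrp {p} H := fun H => piGrp_of_isPGroup hp (hG.to_subgroup H)
  let Z := Ω[p](center G)
  haveI cZ : Z.Characteristic := H9.char_ohm inferInstance
  have hc : Cyc (center G) := hsymp _ inferInstance inferInstance
  have z1 : Nat.card Z = p := H3.card_ohm_cyc (pi _) hc ((nontrivial_iff_ne_bot _).1 hG.center_nontrivial)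
  have z2 : ∀ H : Subgroup G, Z ≤ C(H) := fun H => H3.ohm_le.trans (center_le_centralizer _)
  let π := QuotientGroup.mk' Z
  have ker : π.ker = Z := QuotientGroup.ker_mk' Z
  let W := (Ω[p](center (G ⧸ Z))).comap π
  have cW : W.Characteristic := Subgroup.Characteristic.comap_quotient_mk (H9.char_ohm inferInstance)
  have ab : Abel (center (G ⧸ Z)) := center_le_centralizer _
  have w1 : ⁅W, (⊤ : Subgroup G)⁆ ≤ Z := commutator_le.2 fun x hx g _ => (QuotientGroup.eq_one_iff _).1 (by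
    show π _ = 1
    rw [map_commutatorElement, commutatorElement_eq_one_iff_mul_comm]
    exact (mem_center_iff.1 (H3.ohm_le hx) _).symm)
  have w2 : ∀ x, (∀ g, ⁅x, g⁆ ∈ Z) → x ^ p ∈ Z → x ∈ W := fun x h1 h2 => H3.mem_ohm (mem_center_iff.2 fun g => by
    obtain ⟨g, rfl⟩ := QuotientGroup.mk'_surjective Z g
    rw [eq_comm, ← commutatorElement_eq_one_iff_mul_comm, ← map_commutatorElement]
    exact (QuotientGroup.eq_one_iff _).2 (h1 g)) (by rw [← map_pow]; exact (QuotientGroup.eq_one_iff _).2 h2)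
  have ZW : Z ≤ Z(W) := le_inf (ker.ge.trans (ker_le_comap π _)) (z2 W)
  have cy : Cyc Z(W) := hsymp _ (by haveI := H9.char_centralizer cW; infer_instance) abel_Z.comm
  obtain ⟨D, hD⟩ := (H3.elem_ohm ab).exists_compl hp (B := Z(W).map π) (map_le_iff_le_comap.2 inf_le_left)
  let E := D.comap π
  have e0 : (Z(W).map π).comap π = Z(W) := by rw [comap_map_eq, ker, sup_eq_left.2 ZW]
  have e1 : Z(W) ⊔ E = W := by rw [← e0, comap_sup_eq π _ _ (QuotientGroup.mk'_surjective Z), hD.sup]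
  have e2 : Z(W) ⊓ E = Z := by rw [← e0, ← comap_inf, hD.inf, MonoidHom.comap_bot, ker]
  have EW : E ≤ W := le_sup_right.trans e1.le
  have w3 : W ⊓ C(E) ≤ Z(W) := le_inf inf_le_left (by
    rw [← e1]; exact cent_sup ((inf_le_left.trans e1.le).trans Z_cent) inf_le_right)
  have e3 : Z(E) = Z := le_antisymm (e2 ▸ le_inf ((inf_le_inf_right _ EW).trans w3) inf_le_left)
    (le_inf (e2.ge.trans inf_le_right) (z2 E))
  have e4 : ⁅(⊤ : Subgroup G), E⁆ ≤ Z := comm_comm.le.trans ((comm_mono EW le_rfl).trans w1)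
  have es : ES p E := ⟨e3 ▸ z1, ((comm_mono le_top le_rfl).trans e4).trans (z2 E)⟩
  have su : E ⊔ C(E) = ⊤ := by
    by_cases c : Abel E
    · rw [← c.Z_eq, e3, eq_top_iff]; exact (cent_symm (z2 ⊤)).trans le_sup_right
    · simpa using es.sup_cent hp c le_top (e3 ▸ e4)
  have zr : Z(C(E)) ≤ center G := by
    rw [← C_top, ← su]; exact cent_sup inf_le_left inf_le_right
  have fin : ∀ E' R : Subgroup G, ES p E' → R ≤ C(E') → Z(E') ≤ R → E' ⊔ R = ⊤ → ∀ Q : Subgroup G → Prop, Q R →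
      ∃ E R : Subgroup G, (∀ e ∈ E, ∀ r ∈ R, e * r = r * e) ∧ E ⊔ R = ⊤ ∧ (E = ⊥ ∨ IsExtraspecial p E) ∧ Q R :=
    fun E' R a b c d Q e => by
      by_cases k : Abel E'
      · exact ⟨⊥, R, by simp, by rw [← d, sup_eq_right.2 (k.Z_eq.ge.trans c), bot_sup_eq], Or.inl rfl, e⟩
      · exact ⟨E', R, cent_iff.1 (cent_symm b), d, Or.inr ((isExtraspecial_iff hp).2 ⟨a, k⟩), e⟩
  rcases H9.cyclic_or_mc_or_normal (hG.to_subgroup C(E)) with h | ⟨rfl, k, x, h⟩ | ⟨U, u1, u2⟩
  · exact fin E _ es le_rfl inf_le_right su _ (Or.inl h)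
  · rcases k with _ | k
    · have r1 : Z(C(E)) = zpowers (x ^ 2 ^ (0 + 1)) := h.inf_centralizer
      have r2 : ES 2 C(E) := ⟨by rw [r1, card_zpowers', h.orderOf_u], h.commutator_eq.le.trans (r1.ge.trans inf_le_right)⟩
      obtain ⟨a, b⟩ := ES.of_cp es r2 (cent_symm le_rfl) (e3.trans (eq_of_card_eq (le_inf (z2 _) (z2 _)) (z1.trans r2.card.symm)))
      rw [su, e3] at a
      rw [su] at b
      exact fin ⊤ Z b (z2 _) a.le (top_sup_eq _) _ (Or.inl (hc.of_le H3.ohm_le))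
    · refine fin E _ es le_rfl inf_le_right su _ (Or.inr ⟨rfl, ?_, ?_⟩)
      · rw [h.card_eq]; exact Nat.pow_le_pow_right two_pos (by omega : 4 ≤ k + 1 + 3)
      · exact h.types.imp (⟨_, ·⟩) (Or.imp_left (⟨_, ·⟩))
  · refine (H3.not_cyc_of_pElem hp u2 |> fun _ => H3.not_cyc_of_pElem hp (H3.pElem_of_le u2 ?_) cy).elim
    have a1 : Z ≤ U := hc.omega_le_of_ne_bot (pi _) (K := U ⊓ Z(C(E))) (inf_le_right.trans zr)
      ((pi _).nil.meet_Z u1 (ne_bot_of_prime_dvd hp (u2.card ▸ dvd_pow_self p two_ne_zero))) |>.trans inf_le_left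
    have a2 : ⁅U, C(E)⁆ ≤ Z := H3.comm_le_of_card_mul (pi _) (cent_norm (cent_symm (z2 _))) u1 a1 (by rw [u2.card, z1, sq])
    have a3 : ⁅U, (⊤ : Subgroup G)⁆ ≤ Z := su ▸ comm_sup_le' ((comm_eq_bot_iff.2 u1.1).le.trans bot_le) a2
      norm_of_normal norm_of_normal
    exact (le_inf (fun x hx => w2 x (fun g => a3 (commutator_mem_commutator hx trivial)) (u2.elem.pow x hx ▸ one_mem _))
      u1.1).trans w3

end Cfsg.Agent.S3762
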