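import Cfsg.Statements.S0244
import Cfsg.Agent.H11.Mat

set_option autoImplicit false
open Cfsg

namespace Cfsg.Agent.S0244

/-- Sp_2 = SL_2: a matrix on Fin 1 ⊕ Fin 1 lies in Mathlib's symplectic group iff its determinant is 1. -/
theorem result {R : Type*} [CommRing R] (A : Matrix (Fin 1 ⊕ Fin 1) (Fin 1 ⊕ Fin 1) R) : A ∈ Matrix.symplecticGroup (Fin 1) R ↔ A.det = 1 := by
  refine ⟨SymplecticGroup.det_eq_one, fun h => ?_⟩
  rw [SymplecticGroup.mem_iff]
  have hd : A.det = A (Sum.inl 0) (Sum.inl 0) * A (Sum.inr 0) (Sum.inr 0) -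
      A (Sum.inl 0) (Sum.inr 0) * A (Sum.inr 0) (Sum.inl 0) := by
    rw [← Matrix.det_submatrix_equiv_self (finSumFinEquiv (m := 1) (n := 1)).symm A]
    erw [Matrix.det_fin_two]
    rfl
  rw [h] at hd
  ext i j
  rcases i with i | i <;> rcases j with j | j <;> fin_cases i <;> fin_cases j <;>
    simp [Matrix.J, Matrix.mul_apply, Fintype.sum_sum_type, Matrix.fromBlocks]
  · ring
  · linear_combination hd
  · linear_combination -hd
  · ring

end Cfsg.Agent.S0244
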