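import Cfsg.Statements.S0822
import Cfsg.Agent.L.QS43
import Cfsg.Agent.L.KW


set_option autoImplicit false
set_option linter.unusedVariables false
open Cfsg

namespace Cfsg.Agent.S0822

/-- PSU_4(2) ≅ PSp_4(3): with |F| = 4 and |K| = 3, the projective special unitary group of the standard Hermitian form on F^4 is isomorphic to PSp_4(K). -/
theorem result {F K : Type*} [Field F] [Fintype F] [Field K] [Fintype K] (hF : Fintype.card F = 4) (hK : Fintype.card K = 3) : Nonempty (Cfsg.PSU 4 F 2 ≃* Cfsg.PSp 2 K) := by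
  obtain ⟨S⟩ := H15.StdU42.std hF
  obtain ⟨T⟩ := H15.StdS43.std hK
  have : Finite (Cfsg.PSp 2 K) := Nat.finite_of_card_ne_zero (T.card ▸ T.ne)
  have l := L.QS43.low T.M T.card
  obtain ⟨e⟩ := (L.QS43.qs_ T.M T.card (L.Pres.of fun _ _ => H15.StdU42.hom S)).iso_bot S.card l S.ne
  exact ⟨e.symm.trans ((MulEquiv.subgroupCongr (Subgroup.eq_top_of_le_card _ (T.card.le.trans l))).trans Subgroup.topEquiv)⟩

end Cfsg.Agent.S0822
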