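import Cfsg.Statements.S1558
import Cfsg.Agent.H14.M24Use
import Cfsg.Agent.H15.StdL32
import Cfsg.Agent.H15.StdSym3
import Cfsg.Agent.L.Out2

set_option autoImplicit false
open scoped Pointwise
open Cfsg

namespace Cfsg.Agent.S1558

open H14 H15 L MulAction
set_option maxRecDepth 100000

def W1 : List Word := [[14, 1, 2, 0, 15], [8, 8, 2, 9, 9], [1, 9, 2, 19, 0, 5, 6], [4, 0, 0, 20, 2, 1, 11, 2, 6],
  [1, 18, 0, 2, 9, 0, 2, 15, 21]]
def W2 : List Word := [[0, 2, 5, 12, 1, 11, 2, 6, 1], [17, 18, 20]]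
def wN : List Word := [[16, 18], [18, 21], [16, 20], [8, 7, 21, 2, 20], [2, 13, 18, 0, 14, 2, 12, 1, 10],
  [1, 9, 2, 20, 11, 0, 19]]
noncomputable def EN : List Word := (List.sublists [0, 2, 4, 6, 8, 10]).map (flat wN)

theorem covN : Cover M0.gen (sub M0.gen wN) [EN] :=
  M0.cover_of_closed (D := 5) (by norm_num) (by norm_num) EN (by decide +kernel)
theorem cardN : Nat.card (sub M0.gen wN) = 64 :=
  M0.card_of_cover covN (.cons 4 [[0], [4], [0, 2]] [[0], [2], [4]]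
    (.cons 0 [[2, 4, 6], [0, 4, 8], [2, 8, 10]] [[0], [2], [4]] .nil)) (by decide +kernel)
theorem gen : stabilizer M24 (fTi 0) ≤ sub M0.gen (wN ++ (W1.take 4 ++ W2)) :=
  HTi_eq ▸ sub_le_of_memRels (vs := [[12, 14, 18, 16, 22, 20, 6, 12], [2, 16, 12, 18, 14, 12, 16, 22, 10],
    [0, 2, 18, 14, 16, 10], [0, 8, 12, 18, 14, 16, 12, 18], [12, 14, 16, 12, 18, 16, 22, 6, 14, 12], [0], [2], [2, 4],
    [0, 4, 22]]) (M0.rels_of_idArr (D := 5) (by norm_num) (by decide +kernel))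
theorem nml : stabilizer M24 (fTi 0) ≤ Subgroup.normalizer (sub M0.gen wN : Set M24) :=
  gen.trans ((sub_append _ _ _).trans_le (sup_le Subgroup.le_normalizer (le_normalizer_of
    (vs := [[0], [0, 2], [4], [0, 2, 6, 8, 10], [8], [0, 10], [0], [2], [0, 2, 4], [0, 2, 6], [0, 2, 4, 6, 10],
      [0, 2, 4, 6, 8], [2], [0], [0, 2, 4], [4, 8, 10], [4, 6, 10], [0, 2, 10], [0], [0, 2, 4], [4], [2, 6, 10], [8],
      [0, 4, 10], [0, 2, 8, 10], [4, 6], [0, 8], [0, 2, 8], [0, 2, 4, 8, 10], [0, 6], [0], [2], [4], [2, 6], [4, 8],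
      [0, 4, 10]]) (M0.rels_of_idArr (D := 5) (by norm_num) (by decide +kernel)))))

theorem sub_loc (W : List Word) {k : ℕ} (hk : k ≤ W.length) : sub (loc M0.gen W) (lets k) = sub M0.gen (W.take k) := by
  refine le_antisymm ((sub_le _).2 fun w hw => ?_) ((sub_le _).2 fun w hw => ?_)
  · obtain ⟨l, hl, rfl⟩ := List.mem_map.1 hw
    rw [List.mem_range] at hl
    refine ev_single (loc M0.gen W) l ▸ ev_mem_sub _ ?_
    rw [getL_eq_getD, List.getD_eq_getElem _ _ (hl.trans_le hk), List.mem_take_iff_getElem]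
    exact ⟨l, by omega, rfl⟩
  · obtain ⟨l, hl, rfl⟩ := List.mem_take_iff_getElem.1 hw
    have := gen_mem_lets (gen := loc M0.gen W) (k := k) (l := l) (by omega)
    rwa [loc, getL_eq_getD, List.getD_eq_getElem _ _ (by omega)] at this

theorem core : ∃ (N : Subgroup ↥(stabilizer M24 (fTi 0))) (_ : N.Normal), Nat.card N = 64 ∧ (∀ x ∈ N, x * x = 1) ∧
    Nonempty (↥(stabilizer M24 (fTi 0)) ⧸ N ≃* GL (Fin 3) (ZMod 2) × Equiv.Perm (Fin 3)) := by
  have hn := normal_subgroupOf nml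
  have hc : Nat.card ((sub M0.gen wN).subgroupOf (stabilizer M24 (fTi 0))) = 64 := by
    rw [card_subgroupOf (oTi.le_stab (by decide +kernel)), cardN]
  refine ⟨_, hn, hc, fun x hx => ?_, ?_⟩
  · rw [← sq]
    exact Subtype.ext (M0.pow_eq_one (D := 5) (by norm_num) (by norm_num) covN (by norm_num) (by decide +kernel) _ hx)
  obtain ⟨a, ha⟩ := ar_2 (F := ZMod 2) (ZMod.card 2)
  obtain ⟨S, -⟩ := StdL32.core ha (mem_gl (Equiv.refl (Fin 3)) ha.1 (L := StdL32.As) (by decide +kernel))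
    (MonoidHom.id _) hq_id (bd_gl (ZMod.card 2) (by decide +kernel))
  obtain ⟨S'⟩ := StdSym3.std
  obtain ⟨φ, h1, -⟩ := StdL32.hom' S (loc M0.gen W1)
    (rels_loc (M0.rels_of_idArr (D := 5) (by norm_num) (by decide +kernel)))
  obtain ⟨ψ, h2, -⟩ := StdSym3.hom' S' (loc M0.gen W2)
    (rels_loc (M0.rels_of_idArr (D := 5) (by norm_num) (by decide +kernel)))
  rw [sub_loc _ (by decide)] at h1 h2
  have h3 : ∀ a b, Commute (φ a) (ψ b) := fun a b => by
    have : sub M0.gen (W2.take 2) ≤ Subgroup.centralizer (sub M0.gen (W1.take 4) : Set M24) :=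
      (sub_le _).2 fun w hw x hx => Subgroup.mem_centralizer_singleton_iff.1 (M0.le_cent (D := 5) (by norm_num)
        (by norm_num) ((show ∀ w ∈ W2.take 2, commAll 24 M24c.nets 5 (W1.take 4) w (arW 24 M24c.nets 5 w) = true by
          decide +kernel) w hw) hx)
    exact this (h2.le ⟨b, rfl⟩) _ (h1.le ⟨a, rfl⟩)
  have h4 : (φ.noncommCoprod ψ h3).range = sub M0.gen (W1.take 4 ++ W2) := by
    rw [MonoidHom.noncommCoprod_range, h1, h2, sub_append]; rfl
  have h5 : ∀ x, φ.noncommCoprod ψ h3 x ∈ stabilizer M24 (fTi 0) := fun x =>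
    oTi.le_stab (by decide +kernel) (h4.le ⟨x, rfl⟩)
  let θ := (QuotientGroup.mk' ((sub M0.gen wN).subgroupOf _)).comp ((φ.noncommCoprod ψ h3).codRestrict _ h5)
  refine ⟨(MulEquiv.ofBijective θ ((Nat.bijective_iff_surjective_and_card θ).2 ⟨fun q => ?_, ?_⟩)).symm⟩
  · obtain ⟨g, rfl⟩ := QuotientGroup.mk'_surjective _ q
    have := gen g.2
    rw [sub_append, sup_comm, ← h4, ← SetLike.mem_coe, Subgroup.coe_mul_of_left_le_normalizer_right _ _
      (by rintro _ ⟨x, rfl⟩; exact nml (h5 x))] at this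
    obtain ⟨_, ⟨x, rfl⟩, n, hn, e⟩ := this
    refine ⟨x, QuotientGroup.eq.2 ?_⟩
    rw [Subgroup.mem_subgroupOf, Subgroup.coe_mul, ← e]
    simpa [mul_assoc] using hn
  · have := ((sub M0.gen wN).subgroupOf (stabilizer M24 (fTi 0))).card_mul_index
    rw [hc, card_HTi fTi0_mem] at this
    rw [Nat.card_prod, S.card, S'.card, ← Subgroup.index_eq_card]
    omega


/-- Structure of a trio stabiliser: every permutation of the three octads is induced, and there is a normal subgroup of order 64 of elements squaring to the identity whose quotient is isomorphic to the product of GL(3, 2) with the symmetric group of degree 3. -/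
theorem result (T : Finset (Finset Cfsg.GolayPt)) (hT : T ∈ Cfsg.trios) : (∀ e : Equiv.Perm ↥T, ∃ g ∈ MulAction.stabilizer Cfsg.M24 T, ∀ o : ↥T, (g : Equiv.Perm Cfsg.GolayPt) • (o : Finset Cfsg.GolayPt) = ((e o : ↥T) : Finset Cfsg.GolayPt)) ∧ ∃ (N : Subgroup ↥(MulAction.stabilizer Cfsg.M24 T)) (_ : N.Normal), Nat.card N = 64 ∧ (∀ x ∈ N, x * x = 1) ∧ Nonempty (↥(MulAction.stabilizer Cfsg.M24 T) ⧸ N ≃* GL (Fin 3) (ZMod 2) × Equiv.Perm (Fin 3)) := by
  refine ⟨fun e => ?_, ?_⟩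
  · obtain ⟨a, ha, b, hb, h⟩ := Finset.one_lt_card.1 (by rw [hT.1]; norm_num : 1 < T.card)
    obtain ⟨g, h1, h2, h3⟩ := trio_trans2 hT hT ha hb h (e ⟨a, ha⟩).2 (e ⟨b, hb⟩).2
      fun k => h (congrArg Subtype.val (e.injective (Subtype.ext k)))
    have k : ∀ o : T, o.1 ≠ a → o.1 ≠ b → o.1 = (a ∪ b)ᶜ := fun o k1 k2 => by
      simpa [k1, k2] using (trio_eq hT ha hb h).le o.2
    refine ⟨g, h1, fun o => ?_⟩
    by_cases k1 : o.1 = a
    · obtain ⟨o, ho⟩ := o; subst k1; exact h2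
    by_cases k2 : o.1 = b
    · obtain ⟨o, ho⟩ := o; subst k2; exact h3
    have hm : g • o.1 ∈ T := h1.le (Finset.smul_mem_smul_finset o.2)
    have : e.symm ⟨_, hm⟩ = o := Subtype.ext ((k _ (fun k3 => k1 (smul_left_cancel g (h2.trans
      (congrArg Subtype.val ((Equiv.symm_apply_eq e).1 (Subtype.ext k3 : _ = (⟨a, ha⟩ : T)))).symm).symm))
      fun k3 => k2 (smul_left_cancel g (h3.trans
      (congrArg Subtype.val ((Equiv.symm_apply_eq e).1 (Subtype.ext k3 : _ = (⟨b, hb⟩ : T)))).symm).symm)).trans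
        (k o k1 k2).symm)
    exact congrArg Subtype.val ((Equiv.symm_apply_eq e).1 this)
  obtain ⟨g, rfl⟩ := oTi.std hT
  obtain ⟨N, hN, h1, h2, ⟨f⟩⟩ := core
  let e := conjEquiv g fun x => conj_mem_stab g x (fTi 0)
  have := hN.map e.toMonoidHom e.surjective
  refine ⟨N.map e.toMonoidHom, this, ?_, ?_, ⟨(QuotientGroup.congr N (N.map e.toMonoidHom) e rfl).symm.trans f⟩⟩
  · rw [Subgroup.card_map_of_injective e.injective, h1]
  · rintro _ ⟨x, hx, rfl⟩
    rw [← map_mul, h2 x hx, map_one]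

end Cfsg.Agent.S1558
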