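import Cfsg.Statements.S5436
import Cfsg.Agent.H21.LX4

set_option autoImplicit false
open Cfsg

namespace Cfsg.Agent.S5436

open H18 H1 H21 Subgroup

/-- Let z be an involution of the finite group G with centralizer H whose generalized Fitting subgroup Q is extraspecial of width at least 2 (order 2^(2w+1), w ≥ 2); suppose some conjugate of z other than z lies in Q, H/Q is a non-abelian simple group, H acts irreducibly by conjugation on Q modulo the subgroup generated by z (the only H-invariant subgroups of Q containing z are that subgroup and Q), and Q is not the subgroup generated by the conjugates of z lying in H. Then G is simple. -/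
theorem result {G : Type*} [Group G] [Finite G] (z : G) (hz : orderOf z = 2) (Q : Subgroup (Subgroup.centralizer ({z} : Set G))) [Q.Normal] (hF : Cfsg.generalizedFittingSubgroup ↥(Subgroup.centralizer ({z} : Set G)) = Q) (hQ : Cfsg.IsExtraspecial 2 ↥Q) (w : ℕ) (hw : 2 ≤ w) (hcard : Nat.card ↥Q = 2 ^ (2 * w + 1)) (hnwc : ∃ g : G, (∃ hq : g * z * g⁻¹ ∈ Subgroup.centralizer ({z} : Set G), (⟨g * z * g⁻¹, hq⟩ : Subgroup.centralizer ({z} : Set G)) ∈ Q) ∧ g * z * g⁻¹ ≠ z) (hsimp : IsSimpleGroup (↥(Subgroup.centralizer ({z} : Set G)) ⧸ Q)) (hna : ¬ IsMulCommutative (↥(Subgroup.centralizer ({z} : Set G)) ⧸ Q)) (hirr : ∀ W : Subgroup (Subgroup.centralizer ({z} : Set G)), W.Normal → W ≤ Q → (W = Q ∨ ∀ x ∈ W, (x : G) ∈ Subgroup.zpowers z)) (hwcl : Subgroup.closure {x : Subgroup.centralizer ({z} : Set G) | IsConj z (x : G)} ≠ Q) : IsSimpleGroup G := by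
  obtain ⟨h, hO⟩ := lx_of_gfit hz (Q := Q.map C1(z).subtype) (by rw [← hF]; rfl)
    (isExtraspecial_of_equiv Nat.prime_two (equivMapOfInjective _ _ (subtype_injective _)) hQ)
  obtain ⟨g, ⟨hq, h1⟩, h2⟩ := hnwc
  have h3 : g * z * g⁻¹ ∈ Q.map C1(z).subtype := ⟨_, h1, rfl⟩
  have p := h.lw.lp h3 h2 (h.symm (eight_lt hw (card_map_subtype.trans hcard)) h3)
  refine h.simple (fun K => h.lw.large_of_mem h3 p.l'.sq p.not_mem (p.l'.le_O2 p.zQ)) hO fun c hc => ?_
  generalize hW : Subgroup.closure {x : C1(z) | IsConj z (x : G)} = W at hwcl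
  have hn : W.Normal := norm_top_iff.1 (hW ▸ norm_closure fun a _ b hb => hb.trans (isConj_iff.2 ⟨a, rfl⟩))
  have hQW : Q ≤ W := by
    rcases hirr (W ⊓ Q) inferInstance inf_le_right with e | e
    · exact e.ge.trans inf_le_left
    · exact absurd (e _ ⟨hW ▸ subset_closure (isConj_iff.2 ⟨g, rfl⟩), h1⟩) p.not_mem
  have hT : W = ⊤ := by
    rcases hsimp.eq_bot_or_eq_top_of_normal (W.map (QuotientGroup.mk' Q)) (hn.map _ (QuotientGroup.mk'_surjective Q))
      with e | e
    · rw [Subgroup.map_eq_bot_iff, QuotientGroup.ker_mk'] at e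
      exact absurd (le_antisymm e hQW) hwcl
    · rw [← comap_map_eq_self (f := QuotientGroup.mk' Q) (H := W) (by rwa [QuotientGroup.ker_mk']), e, comap_top]
  have : W ≤ (normalClosure {z}).subgroupOf C1(z) := hW ▸ (closure_le _).2 fun x hx => by
    obtain ⟨k, e⟩ := isConj_iff.1 hx
    have := (normalClosure_normal (s := {z})).conj_mem _ (subset_normalClosure (Set.mem_singleton z)) k
    rwa [e] at this
  exact this (hT ▸ mem_top (⟨c, hc⟩ : C1(z)))

end Cfsg.Agent.S5436
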