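import Cfsg.Statements.S3359
import Cfsg.Agent.H16.FCStruct

set_option autoImplicit false
open Cfsg

namespace Cfsg.Agent.S3359


/-- Structure of non-solvable Frobenius complements. Let G be a finite non-solvable group that occurs as a Frobenius complement. Then G has a normal subgroup G₀ of index 1 or 2 which is the direct product of a subgroup isomorphic to SL(2,5) and a subgroup M of order prime to 30 all of whose Sylow subgroups are cyclic. -/
theorem result {G : Type*} [Group G] [Finite G] (hns : ¬ Group.IsSolvable G)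
    (hFC : ∃ (L : Type) (_ : Group L) (_ : Finite L) (H : Subgroup L), Cfsg.IsFrobeniusComplement H ∧ Nonempty (G ≃* H)) :
    ∃ G₀ : Subgroup G, G₀.Normal ∧ (G₀.index = 1 ∨ G₀.index = 2) ∧
      ∃ S M : Subgroup G, S ⊔ M = G₀ ∧ S ⊓ M = ⊥ ∧ (∀ s ∈ S, ∀ x ∈ M, s * x = x * s) ∧
        Nonempty (S ≃* Matrix.SpecialLinearGroup (Fin 2) (ZMod 5)) ∧
        (∀ (p : ℕ) [Fact p.Prime] (P : Sylow p M), IsCyclic P) ∧ (Nat.card M).Coprime 30 := by
  have h := H16.IsFC.fc hFC
  obtain ⟨f, hf, hn⟩ := h.exists_SL25 hns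
  obtain ⟨θ, h1, h2⟩ := H16.exists_hom_S5 hf (h.invol_comm (by rw [← map_mul]; simp))
  have hZ := h.isZGroup_cent hf
  have h3 := H16.mem_sup_of_mem_alt h2
  rw [h1] at h3
  generalize hC : Subgroup.centralizer (f.range : Set G) = C at h3 hZ
  obtain ⟨P₀⟩ : Nonempty (Sylow 2 C) := inferInstance
  obtain ⟨P, N, hN, hc⟩ := H9.hasNormalPComplement_of_isCyclic P₀ inferInstance
  have hodd : ¬ 2 ∣ Nat.card (N.map C.subtype) := by
    rw [Subgroup.card_subtype, ← hc.index_eq_card]; exact P.not_dvd_index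
  have hM : ∀ p : ℕ, p.Prime → p ∣ Nat.card (N.map C.subtype) → p ∣ 30 → False := fun p hp h4 h5 => by
    obtain ⟨c, hc, ho⟩ := H10.exists_mem_orderOf_eq _ hp h4
    have h6 : p = 2 ∨ p = 3 ∨ p = 5 := by
      have := Nat.le_of_dvd (by norm_num) h5
      interval_cases p <;> simp_all (config := {decide := true})
    rcases h6 with rfl | rfl | rfl
    · exact hodd h4
    all_goals
      have h7 : c * c = 1 := by
        rcases h.cent_SL25 hf (hC ▸ Subgroup.map_subtype_le _ hc) (by simp [ho]) with e | e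
        · simp [e]
        · rw [e, ← map_mul]; simp
      have := orderOf_dvd_of_pow_eq_one ((sq c).trans h7)
      rw [ho] at this
      exact absurd this (by decide)
  refine ⟨(alternatingGroup (Fin 5)).comap θ, inferInstance, ?_, f.range, N.map C.subtype, ?_, ?_, ?_,
    ⟨(MonoidHom.ofInjective hf).symm⟩, fun p _ Q => ?_, Nat.coprime_of_dvd fun p hp h4 h5 => hM p hp h4 h5⟩
  · have : ((alternatingGroup (Fin 5)).comap θ).index ∣ 2 := by
      rw [Subgroup.index_comap, ← alternatingGroup.index_eq_two (α := Fin 5)]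
      exact Subgroup.relIndex_dvd_index_of_normal _ _
    exact (Nat.dvd_prime Nat.prime_two).1 this
  · rw [h3]
    refine le_antisymm (sup_le_sup_left (Subgroup.map_subtype_le _) _) (sup_le le_sup_left fun c hcC => ?_)
    obtain ⟨n, hn, t, ht, e⟩ := Subgroup.mem_sup_of_normal_left.1
      (hc.sup_eq_top ▸ Subgroup.mem_top (⟨c, hcC⟩ : C) : (⟨c, hcC⟩ : C) ∈ N ⊔ (P : Subgroup C))
    rw [← show (n : G) * t = c from congrArg Subtype.val e]
    refine mul_mem (Subgroup.mem_sup_right ⟨n, hn, rfl⟩) (Subgroup.mem_sup_left ?_)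
    obtain ⟨k, hk⟩ := P.isPGroup' ⟨t, ht⟩
    rcases h.cent_two hf (hC ▸ t.2) (congrArg (fun x : P => ((x : C) : G)) hk) with e | e <;> rw [e]
    exacts [one_mem _, ⟨_, rfl⟩]
  · refine eq_bot_iff.2 fun c hc => ?_
    rcases h.cent_SL25 hf (hC ▸ Subgroup.map_subtype_le _ hc.2) (Or.inr (Or.inr (Or.inr hc.1))) with e | e
    · exact e
    · refine absurd ?_ hodd
      have := Subgroup.orderOf_dvd_natCard _ hc.2
      rwa [e, orderOf_injective f hf, orderOf_eq_prime (p := 2) (by simp) H16.SL25_neg_one_ne] at this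
  · exact fun s hs x hx => (hC ▸ Subgroup.map_subtype_le _ hx : x ∈ Subgroup.centralizer (f.range : Set G)) s hs
  · have : IsZGroup (N.map C.subtype) :=
      IsZGroup.of_injective (Subgroup.inclusion_injective (Subgroup.map_subtype_le N))
    infer_instance

end Cfsg.Agent.S3359
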