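import Cfsg.Statements.S4966
import Cfsg.Agent.H5.Rep
import Mathlib.Data.FunLike.Fintype

set_option autoImplicit false
open Cfsg

namespace Cfsg.Agent.S4966

open Module

section
variable {F G V : Type*} [Field F] [Group G] [AddCommGroup V] [Module F V]
  (ρ : Representation F G V)

def Inv (U : Submodule F V) : Prop := ∀ g : G, ∀ u ∈ U, ρ g u ∈ U

def NF (U : Submodule F V) (A : LinearMap.BilinForm F V) : Prop :=
  (∀ g : G, ∀ x ∈ U, ∀ y ∈ U, A (ρ g x) (ρ g y) = A x y) ∧ (∀ x ∈ U, (∀ y ∈ U, A x y = 0) → x = 0)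

variable {ρ}

theorem Inv.sup {U X : Submodule F V} (hU : Inv ρ U) (hX : Inv ρ X) : Inv ρ (U ⊔ X) := by
  intro g u hu
  obtain ⟨a, ha, b, hb, rfl⟩ := Submodule.mem_sup.1 hu
  rw [map_add]
  exact Submodule.add_mem_sup (hU g a ha) (hX g b hb)

theorem ginv (g : G) (x : V) : ρ g (ρ g⁻¹ x) = x := by
  rw [← Module.End.mul_apply, ← map_mul, mul_inv_cancel, map_one, Module.End.one_apply]

theorem exists_proj {U X : Submodule F V} (h : Disjoint U X) :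
    ∃ π : V →ₗ[F] V, (∀ u ∈ U, π u = u) ∧ ∀ x ∈ X, π x = 0 := by
  obtain ⟨r, hr⟩ := LinearMap.exists_leftInverse_of_injective (X.mkQ ∘ₗ U.subtype) (by
    rw [LinearMap.ker_eq_bot']
    intro m hm
    have : (m : V) ∈ X := by simpa using hm
    exact Subtype.ext (Submodule.disjoint_def.1 h _ m.2 this))
  refine ⟨U.subtype ∘ₗ r ∘ₗ X.mkQ, fun u hu => ?_, fun x hx => ?_⟩
  · have := LinearMap.congr_fun hr ⟨u, hu⟩
    exact congrArg Subtype.val this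
  · have : X.mkQ x = 0 := by simpa using hx
    simp only [LinearMap.comp_apply, this, map_zero]

theorem glue {U X : Submodule F V} (hU : Inv ρ U) (hX : Inv ρ X) (h : Disjoint U X)
    {A₁ A₂ : LinearMap.BilinForm F V} (h₁ : NF ρ U A₁) (h₂ : NF ρ X A₂) :
    ∃ A : LinearMap.BilinForm F V, NF ρ (U ⊔ X) A ∧
      ((∀ x, A₁ x x = 0) → (∀ x, A₂ x x = 0) → ∀ x, A x x = 0) ∧
      ((∀ x y, A₁ x y = A₁ y x) → (∀ x y, A₂ x y = A₂ y x) → ∀ x y, A x y = A y x) := by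
  obtain ⟨π, hπU, hπX⟩ := exists_proj h
  let A : LinearMap.BilinForm F V := A₁.compl₁₂ π π + A₂.compl₁₂ (1 - π) (1 - π)
  have hA : ∀ x y, A x y = A₁ (π x) (π y) + A₂ (x - π x) (y - π y) := fun x y => rfl
  have hA' : ∀ a ∈ U, ∀ b ∈ X, ∀ c ∈ U, ∀ d ∈ X, A (a + b) (c + d) = A₁ a c + A₂ b d := by
    intro a ha b hb c hc d hd
    rw [hA, map_add π, map_add π, hπU a ha, hπU c hc, hπX b hb, hπX d hd]
    simp
  refine ⟨A, ⟨fun g x hx y hy => ?_, fun x hx h0 => ?_⟩, fun a b x => by rw [hA, a, b, add_zero],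
    fun a b x y => by rw [hA, hA, a, b]⟩
  · obtain ⟨a, ha, b, hb, rfl⟩ := Submodule.mem_sup.1 hx
    obtain ⟨c, hc, d, hd, rfl⟩ := Submodule.mem_sup.1 hy
    rw [map_add (ρ g), map_add (ρ g), hA' _ (hU g a ha) _ (hX g b hb) _ (hU g c hc) _ (hX g d hd),
      hA' a ha b hb c hc d hd, h₁.1 g a ha c hc, h₂.1 g b hb d hd]
  · obtain ⟨a, ha, b, hb, rfl⟩ := Submodule.mem_sup.1 hx
    have e1 : a = 0 := h₁.2 a ha fun c hc => by
      have := h0 (c + 0) (Submodule.add_mem_sup hc X.zero_mem)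
      rw [hA' a ha b hb c hc 0 X.zero_mem] at this
      simpa using this
    have e2 : b = 0 := h₂.2 b hb fun d hd => by
      have := h0 (0 + d) (Submodule.add_mem_sup U.zero_mem hd)
      rw [hA' a ha b hb 0 U.zero_mem d hd] at this
      simpa using this
    rw [e1, e2, add_zero]

theorem compl_in [Finite G] [NeZero (Nat.card G : F)] {L C : Submodule F V} (hL : Inv ρ L)
    (hC : Inv ρ C) (hle : L ≤ C) : ∃ D : Submodule F V, Inv ρ D ∧ D ≤ C ∧ Disjoint L D ∧ L ⊔ D = C := by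
  obtain ⟨U', h⟩ := H5.exists_compl (ρ := ρ) ⟨L, fun g v hv => hL g v hv⟩
  refine ⟨U'.toSubmodule ⊓ C, fun g u hu => ⟨U'.apply_mem_toSubmodule g hu.1, hC g u hu.2⟩,
    inf_le_right, h.disjoint.mono_right inf_le_left, ?_⟩
  rw [← sup_inf_assoc_of_le _ hle]
  have := h.sup_eq_top
  dsimp only at this
  rw [this, top_inf_eq]

def Irr (X : Submodule F V) : Prop :=
  Inv ρ X ∧ X ≠ ⊥ ∧ ∀ Y : Submodule F V, Inv ρ Y → Y ≤ X → Y = ⊥ ∨ Y = X

theorem exists_irr [FiniteDimensional F V] {C : Submodule F V} (hC : Inv ρ C) (h0 : C ≠ ⊥) :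
    ∃ X ≤ C, Irr (ρ := ρ) X := by
  obtain ⟨X, ⟨h1, h2, h3⟩, hmin⟩ := (wellFounded_lt (α := Submodule F V)).has_min
    {X | X ≤ C ∧ Inv ρ X ∧ X ≠ ⊥} ⟨C, le_rfl, hC, h0⟩
  refine ⟨X, h1, h2, h3, fun Y hY hle => ?_⟩
  by_cases hb : Y = ⊥
  · exact Or.inl hb
  · exact Or.inr (eq_of_le_of_not_lt hle (hmin Y ⟨hle.trans h1, hY, hb⟩))

/-- left radical of `β` on `X` against `Y` -/
def lrad (β : LinearMap.BilinForm F V) (X Y : Submodule F V) : Submodule F V where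
  carrier := {x | x ∈ X ∧ ∀ y ∈ Y, β x y = 0}
  add_mem' := fun ha hb => ⟨X.add_mem ha.1 hb.1, fun y hy => by simp [ha.2 y hy, hb.2 y hy]⟩
  zero_mem' := ⟨X.zero_mem, fun y _ => by simp⟩
  smul_mem' := fun c _ ha => ⟨X.smul_mem c ha.1, fun y hy => by simp [ha.2 y hy]⟩

theorem lrad_inv {β : LinearMap.BilinForm F V} {X Y : Submodule F V} (hX : Inv ρ X) (hY : Inv ρ Y)
    (hβ : ∀ g : G, ∀ x ∈ X, ∀ y ∈ Y, β (ρ g x) (ρ g y) = β x y) : Inv ρ (lrad β X Y) := by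
  intro g u hu
  refine ⟨hX g u hu.1, fun y hy => ?_⟩
  rw [← ginv (ρ := ρ) g y, hβ g u hu.1 _ (hY _ y hy)]
  exact hu.2 _ (hY _ y hy)

theorem Irr.nd {β : LinearMap.BilinForm F V} {X Y : Submodule F V} (hX : Irr (ρ := ρ) X)
    (hY : Inv ρ Y) (hβ : ∀ g : G, ∀ x ∈ X, ∀ y ∈ Y, β (ρ g x) (ρ g y) = β x y)
    (hne : ∃ x ∈ X, ∃ y ∈ Y, β x y ≠ 0) : ∀ x ∈ X, (∀ y ∈ Y, β x y = 0) → x = 0 := by
  intro x hx h0
  rcases hX.2.2 _ (lrad_inv hX.1 hY hβ) (fun _ h => h.1) with h | h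
  · have : x ∈ lrad β X Y := ⟨hx, h0⟩
    rw [h] at this
    exact this
  · obtain ⟨a, ha, b, hb, hab⟩ := hne
    rw [← h] at ha
    exact absurd (ha.2 b hb) hab

/-- a piece of either kind -/
def Piece (p : ℕ) (X : Submodule F V) : Prop :=
  Inv ρ X ∧ X ≠ ⊥ ∧ ((∃ A : LinearMap.BilinForm F V, (∀ x, A x x = 0) ∧ NF ρ X A) ∨
    ((∃ S : LinearMap.BilinForm F V, (∀ x y, S x y = S y x) ∧ NF ρ X S) ∧
      (p = 2 → ∀ g : G, ∀ w ∈ X, ρ g w = w)))

theorem piece_irr [Fintype F] (p : ℕ) [Fact p.Prime] [CharP F p] {β : LinearMap.BilinForm F V}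
    {X : Submodule F V} (hX : Irr (ρ := ρ) X)
    (hβ : ∀ g : G, ∀ x ∈ X, ∀ y ∈ X, β (ρ g x) (ρ g y) = β x y)
    (hne : ∃ x ∈ X, ∃ y ∈ X, β x y ≠ 0) : Piece (ρ := ρ) p X := by
  refine ⟨hX.1, hX.2.1, ?_⟩
  let A : LinearMap.BilinForm F V := β - β.flip
  have hA : ∀ x y, A x y = β x y - β y x := fun x y => rfl
  have hAi : ∀ g : G, ∀ x ∈ X, ∀ y ∈ X, A (ρ g x) (ρ g y) = A x y := fun g x hx y hy => by
    rw [hA, hA, hβ g x hx y hy, hβ g y hy x hx]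
  by_cases h1 : ∃ x ∈ X, ∃ y ∈ X, A x y ≠ 0
  · exact Or.inl ⟨A, fun x => by rw [hA, sub_self], hAi, hX.nd hX.1 hAi h1⟩
  have hs : ∀ x ∈ X, ∀ y ∈ X, β x y = β y x := fun x hx y hy => by
    by_contra h
    exact h1 ⟨x, hx, y, hy, by rw [hA]; exact sub_ne_zero.2 h⟩
  obtain ⟨X', hX'⟩ := X.exists_isCompl
  let π : V →ₗ[F] V := X.subtype ∘ₗ X.linearProjOfIsCompl X' hX'
  have hπ1 : ∀ x, π x ∈ X := fun x => (X.linearProjOfIsCompl X' hX' x).2
  have hπ2 : ∀ x ∈ X, π x = x := fun x hx =>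
    congrArg Subtype.val (Submodule.linearProjOfIsCompl_apply_left hX' ⟨x, hx⟩)
  let S : LinearMap.BilinForm F V := β.compl₁₂ π π
  have hS : ∀ x y, S x y = β (π x) (π y) := fun x y => rfl
  have hS' : ∀ x ∈ X, ∀ y ∈ X, S x y = β x y := fun x hx y hy => by rw [hS, hπ2 x hx, hπ2 y hy]
  have hNF : NF ρ X S := ⟨fun g x hx y hy => by
    rw [hS' _ (hX.1 g x hx) _ (hX.1 g y hy), hS' x hx y hy, hβ g x hx y hy],
    fun x hx h0 => hX.nd hX.1 hβ hne x hx fun y hy => by rw [← hS' x hx y hy, h0 y hy]⟩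
  by_cases h2 : ∀ x ∈ X, β x x = 0
  · exact Or.inl ⟨S, fun x => by rw [hS, h2 _ (hπ1 x)], hNF⟩
  refine Or.inr ⟨⟨S, fun x y => by rw [hS, hS, hs _ (hπ1 x) _ (hπ1 y)], hNF⟩, ?_⟩
  rintro rfl g w hw
  have two : (2 : F) = 0 := by exact_mod_cast CharP.cast_eq_zero F 2
  let N : Submodule F V :=
    { carrier := {x | x ∈ X ∧ β x x = 0}
      add_mem' := fun {a b} ha hb => ⟨X.add_mem ha.1 hb.1, by
        simp only [map_add, LinearMap.add_apply, ha.2, hb.2, hs b hb.1 a ha.1]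
        linear_combination (β a b) * two⟩
      zero_mem' := ⟨X.zero_mem, by simp⟩
      smul_mem' := fun c a ha => ⟨X.smul_mem c ha.1, by simp [ha.2]⟩ }
  have hN : Inv ρ N := fun g u hu => ⟨hX.1 g u hu.1, by rw [hβ g u hu.1 u hu.1]; exact hu.2⟩
  rcases hX.2.2 N hN (fun _ h => h.1) with h | h
  · have hgw := hX.1 g w hw
    have : ρ g w - w ∈ N := ⟨X.sub_mem hgw hw, by
      simp only [map_sub, LinearMap.sub_apply, hβ g w hw w hw, hs w hw _ hgw]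
      linear_combination (β w w - β (ρ g w) w) * two⟩
    rw [h] at this
    exact sub_eq_zero.1 this
  · exact absurd (fun x hx => by rw [← h] at hx; exact hx.2) h2

theorem exists_piece [Fintype F] (p : ℕ) [Fact p.Prime] [CharP F p] [Finite G]
    [NeZero (Nat.card G : F)] [FiniteDimensional F V] {β : LinearMap.BilinForm F V}
    {C : Submodule F V} (hC : Inv ρ C)
    (hβ : ∀ g : G, ∀ x ∈ C, ∀ y ∈ C, β (ρ g x) (ρ g y) = β x y)
    (hne : ∃ x ∈ C, ∃ y ∈ C, β x y ≠ 0) : ∃ X ≤ C, Piece (ρ := ρ) p X := by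
  obtain ⟨D, hD, hDC, hdis, hsup⟩ := compl_in (lrad_inv hC hC hβ) hC (fun _ h => h.1)
  have hD0 : D ≠ ⊥ := by
    rintro rfl
    obtain ⟨a, ha, b, hb, hab⟩ := hne
    rw [sup_bot_eq] at hsup
    rw [← hsup] at ha
    exact hab (ha.2 b hb)
  obtain ⟨X, hXD, hX⟩ := exists_irr hD hD0
  have hXC := hXD.trans hDC
  by_cases h1 : ∃ x ∈ X, ∃ y ∈ X, β x y ≠ 0
  · exact ⟨X, hXC, piece_irr p hX (fun g x hx y hy => hβ g x (hXC hx) y (hXC hy)) h1⟩
  have hXX : ∀ x ∈ X, ∀ y ∈ X, β x y = 0 := fun x hx y hy => by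
    by_contra h; exact h1 ⟨x, hx, y, hy, h⟩
  have hR : Inv ρ (lrad β.flip C X) := lrad_inv hC hX.1 fun g x hx y hy => hβ g y (hXC hy) x hx
  obtain ⟨Y, hY, hYC, hdisY, hsupY⟩ := compl_in hR hC (fun _ h => h.1)
  have hXR : X ≤ lrad β.flip C X := fun x hx => ⟨hXC hx, fun y hy => hXX y hy x hx⟩
  have hXY : Disjoint X Y := hdisY.mono_left hXR
  have hndX : ∀ x ∈ X, (∀ y ∈ Y, β x y = 0) → x = 0 := fun x hx h0 => by
    refine Submodule.disjoint_def.1 hdis x ⟨hXC hx, fun c hc => ?_⟩ (hXD hx)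
    rw [← hsupY] at hc
    obtain ⟨a, ha, b, hb, rfl⟩ := Submodule.mem_sup.1 hc
    have : β x a = 0 := ha.2 x hx
    rw [map_add, this, h0 b hb, add_zero]
  have hndY : ∀ y ∈ Y, (∀ x ∈ X, β x y = 0) → y = 0 := fun y hy h0 =>
    Submodule.disjoint_def.1 hdisY y ⟨hYC hy, h0⟩ hy
  obtain ⟨π, hπX, hπY⟩ := exists_proj hXY
  let P : LinearMap.BilinForm F V := β.compl₁₂ π (1 - π)
  let A : LinearMap.BilinForm F V := P - P.flip
  have hA : ∀ x y, A x y = β (π x) (y - π y) - β (π y) (x - π x) := fun x y => rfl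
  have hA' : ∀ a ∈ X, ∀ b ∈ Y, ∀ c ∈ X, ∀ d ∈ Y, A (a + b) (c + d) = β a d - β c b := by
    intro a ha b hb c hc d hd
    rw [hA, map_add π, map_add π, hπX a ha, hπX c hc, hπY b hb, hπY d hd]
    simp
  refine ⟨X ⊔ Y, sup_le hXC hYC, hX.1.sup hY, fun h => hX.2.1 (sup_eq_bot_iff.1 h).1,
    Or.inl ⟨A, fun x => by rw [hA, sub_self], fun g x hx y hy => ?_, fun x hx h0 => ?_⟩⟩
  · obtain ⟨a, ha, b, hb, rfl⟩ := Submodule.mem_sup.1 hx
    obtain ⟨c, hc, d, hd, rfl⟩ := Submodule.mem_sup.1 hy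
    rw [map_add (ρ g), map_add (ρ g), hA' _ (hX.1 g a ha) _ (hY g b hb) _ (hX.1 g c hc) _ (hY g d hd),
      hA' a ha b hb c hc d hd, hβ g a (hXC ha) d (hYC hd), hβ g c (hXC hc) b (hYC hb)]
  · obtain ⟨a, ha, b, hb, rfl⟩ := Submodule.mem_sup.1 hx
    have e1 : a = 0 := hndX a ha fun d hd => by
      have := h0 (0 + d) (Submodule.add_mem_sup X.zero_mem hd)
      rw [hA' a ha b hb 0 X.zero_mem d hd] at this
      simpa using this
    have e2 : b = 0 := hndY b hb fun c hc => by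
      have := h0 (c + 0) (Submodule.add_mem_sup hc Y.zero_mem)
      rw [hA' a ha b hb c hc 0 Y.zero_mem] at this
      simpa using this
    rw [e1, e2, add_zero]

theorem cancel [Fintype F] [FiniteDimensional F V] {B β : LinearMap.BilinForm F V}
    (hB : B.Nondegenerate) (hBinv : ∀ g : G, ∀ x y : V, B (ρ g x) (ρ g y) = B x y)
    {Z C : Submodule F V} (hZ : Inv ρ Z) (hdis : Disjoint Z C) (hsup : Z ⊔ C = ⊤) (hβ : NF ρ Z β)
    (hno : ∀ γ : LinearMap.BilinForm F V,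
      (∀ g : G, ∀ x ∈ C, ∀ y ∈ C, γ (ρ g x) (ρ g y) = γ x y) → ∀ x ∈ C, ∀ y ∈ C, γ x y = 0) :
    C = ⊥ := by
  let f : Z →ₗ[F] Dual F Z := β.compl₁₂ Z.subtype Z.subtype
  have hf : Function.Injective f := by
    rw [injective_iff_map_eq_zero]
    intro a ha
    exact Subtype.ext (hβ.2 a a.2 fun y hy => LinearMap.congr_fun ha ⟨y, hy⟩)
  let e : Z ≃ₗ[F] Dual F Z := LinearMap.linearEquivOfInjective f hf Subspace.dual_finrank_eq.symm
  let θ : V →ₗ[F] V := Z.subtype ∘ₗ e.symm.toLinearMap ∘ₗ (B.compl₂ Z.subtype)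
  have hθZ : ∀ v, θ v ∈ Z := fun v => (e.symm (B.compl₂ Z.subtype v)).2
  have hθ : ∀ v, ∀ z ∈ Z, β (θ v) z = B v z := fun v z hz =>
    LinearMap.congr_fun (e.apply_symm_apply (B.compl₂ Z.subtype v)) ⟨z, hz⟩
  have hθg : ∀ (g : G) v, θ (ρ g v) = ρ g (θ v) := fun g v => by
    rw [← sub_eq_zero]
    refine hβ.2 _ (Z.sub_mem (hθZ _) (hZ g _ (hθZ v))) fun y hy => ?_
    have hy' := hZ g⁻¹ y hy
    rw [← ginv (ρ := ρ) g y, map_sub, LinearMap.sub_apply, hθ _ _ (hZ g _ hy'), hBinv,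
      hβ.1 g _ (hθZ v) _ hy', hθ _ _ hy', sub_self]
  have step : ∀ f : V →ₗ[F] V, (∀ (g : G) v, f (ρ g v) = ρ g (f v)) → (∀ c ∈ C, θ (f c) = 0) →
      ∀ c ∈ C, f c = 0 := fun f hfg h0 c hc => by
    refine hB.1 _ fun y => ?_
    have hy : y ∈ Z ⊔ C := by rw [hsup]; trivial
    obtain ⟨a, ha, b, hb, rfl⟩ := Submodule.mem_sup.1 hy
    have e1 : B (f c) a = 0 := by rw [← hθ _ a ha, h0 c hc]; simp
    have e2 : B (f c) b = 0 := hno (B ∘ₗ f) (fun g x _ y _ => by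
      show B (f (ρ g x)) (ρ g y) = B (f x) y
      rw [hfg, hBinv]) c hc b hb
    rw [map_add, e1, e2, add_zero]
  have hpow : ∀ (k : ℕ) (g : G) v, (θ ^ k) (ρ g v) = ρ g ((θ ^ k) v) := fun k g v => by
    induction k with
    | zero => rfl
    | succ k ih => rw [pow_succ', Module.End.mul_apply, Module.End.mul_apply, ih, hθg]
  have iter : ∀ (k : ℕ) (f : V →ₗ[F] V), (∀ (g : G) v, f (ρ g v) = ρ g (f v)) →
      (∀ c ∈ C, (θ ^ k) (f c) = 0) → ∀ c ∈ C, f c = 0 := fun k f hfg => by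
    induction k with
    | zero => exact fun h => h
    | succ k ih =>
      intro h
      refine ih (step ((θ ^ k) ∘ₗ f) (fun g v => ?_) fun c hc => ?_)
      · show (θ ^ k) (f (ρ g v)) = ρ g ((θ ^ k) (f v))
        rw [hfg, hpow]
      · have := h c hc
        rw [pow_succ'] at this
        exact this
  haveI : Finite V := Module.finite_of_finite F
  haveI : Finite (V →ₗ[F] V) := DFunLike.finite _
  have hex : ∃ i k : ℕ, θ ^ i = θ ^ (i + (k + 1)) := by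
    obtain ⟨i, j, hij, h⟩ := Finite.exists_ne_map_eq_of_infinite (fun k : ℕ => θ ^ k)
    rcases lt_or_gt_of_ne hij with hl | hl
    · obtain ⟨k, rfl⟩ := Nat.exists_eq_add_of_lt hl
      exact ⟨i, k, h⟩
    · obtain ⟨k, rfl⟩ := Nat.exists_eq_add_of_lt hl
      exact ⟨j, k, h.symm⟩
  obtain ⟨i, k, hik⟩ := hex
  rw [eq_bot_iff]
  intro c hc
  have := iter i (1 - θ ^ (k + 1)) (fun g v => by
    simp only [LinearMap.sub_apply, Module.End.one_apply, hpow, map_sub]) (fun c _ => by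
    rw [← Module.End.mul_apply, mul_sub, mul_one, ← pow_add, ← hik, sub_self]; rfl) c hc
  have h2 : c = θ ((θ ^ k) c) := by
    rw [LinearMap.sub_apply, sub_eq_zero, pow_succ'] at this
    exact this
  exact Submodule.disjoint_def.1 hdis c (h2 ▸ hθZ _) hc

def Good (p : ℕ) (Z : Submodule F V) : Prop :=
  ∃ U W : Submodule F V, Disjoint U W ∧ U ⊔ W = Z ∧ Inv ρ U ∧ Inv ρ W ∧
    (∃ A : LinearMap.BilinForm F V, (∀ x, A x x = 0) ∧ NF ρ U A) ∧
    (∃ S : LinearMap.BilinForm F V, (∀ x y, S x y = S y x) ∧ NF ρ W S) ∧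
      (p = 2 → ∀ g : G, ∀ w ∈ W, ρ g w = w)

theorem Good.add {p : ℕ} {Z X : Submodule F V} (hZ : Good (ρ := ρ) p Z) (hX : Piece (ρ := ρ) p X)
    (h : Disjoint Z X) : Good (ρ := ρ) p (Z ⊔ X) := by
  obtain ⟨U, W, hd, rfl, hU, hW, ⟨A, hA, hAn⟩, ⟨S, hS, hSn⟩, h2⟩ := hZ
  obtain ⟨hXi, -, ⟨A', hA', hAn'⟩ | ⟨⟨S', hS', hSn'⟩, h2'⟩⟩ := hX
  · obtain ⟨A'', h1, h3, -⟩ := glue hU hXi (h.mono_left le_sup_left) hAn hAn'
    refine ⟨U ⊔ X, W, ?_, by rw [sup_right_comm], hU.sup hXi, hW, ⟨A'', h3 hA hA', h1⟩,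
      ⟨S, hS, hSn⟩, h2⟩
    rw [sup_comm U X]
    exact (hd.symm.disjoint_sup_right_of_disjoint_sup_left (by rw [sup_comm]; exact h)).symm.mono_left
      (by rw [sup_comm])
  · obtain ⟨S'', h1, -, h3⟩ := glue hW hXi (h.mono_left le_sup_right) hSn hSn'
    refine ⟨U, W ⊔ X, hd.disjoint_sup_right_of_disjoint_sup_left h, by rw [sup_assoc], hU,
      hW.sup hXi, ⟨A, hA, hAn⟩, ⟨S'', h3 hS hS', h1⟩, fun hp g w hw => ?_⟩
    obtain ⟨a, ha, b, hb, rfl⟩ := Submodule.mem_sup.1 hw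
    rw [map_add, h2 hp g a ha, h2' hp g b hb]

end

/-- Let F be a finite field of characteristic p, G a finite group of order prime to p, and V a finite-dimensional representation of G over F carrying a nondegenerate G-invariant bilinear form (equivalently, V is self-dual). Then V is the direct sum of two G-invariant subspaces U and W such that U carries a G-invariant alternating bilinear form that is nondegenerate on U and W carries a G-invariant symmetric bilinear form that is nondegenerate on W; moreover when p = 2 the decomposition can be chosen with G acting trivially on W. -/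
theorem result {F : Type*} [Field F] [Fintype F] (p : ℕ) [Fact p.Prime] [CharP F p] {G : Type*} [Group G] [Finite G] (hcop : ¬ p ∣ Nat.card G) {V : Type*} [AddCommGroup V] [Module F V] [FiniteDimensional F V] (ρ : Representation F G V) (B : LinearMap.BilinForm F V) (hB : B.Nondegenerate) (hBinv : ∀ g : G, ∀ x y : V, B (ρ g x) (ρ g y) = B x y) : ∃ U W : Submodule F V, IsCompl U W ∧ (∀ g : G, ∀ u ∈ U, ρ g u ∈ U) ∧ (∀ g : G, ∀ w ∈ W, ρ g w ∈ W) ∧ (∃ A : LinearMap.BilinForm F V, (∀ x : V, A x x = 0) ∧ (∀ g : G, ∀ x ∈ U, ∀ y ∈ U, A (ρ g x) (ρ g y) = A x y) ∧ (∀ x ∈ U, (∀ y ∈ U, A x y = 0) → x = 0)) ∧ (∃ S : LinearMap.BilinForm F V, (∀ x y : V, S x y = S y x) ∧ (∀ g : G, ∀ x ∈ W, ∀ y ∈ W, S (ρ g x) (ρ g y) = S x y) ∧ (∀ x ∈ W, (∀ y ∈ W, S x y = 0) → x = 0)) ∧ (p = 2 → ∀ g : G, ∀ w ∈ W, ρ g w = w) := by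
  haveI : NeZero (Nat.card G : F) := ⟨fun h => hcop ((CharP.cast_eq_zero_iff F p _).1 h)⟩
  have nf0 : NF ρ (⊥ : Submodule F V) 0 := ⟨fun _ _ _ _ _ => rfl, fun x hx _ => hx⟩
  have i0 : Inv ρ (⊥ : Submodule F V) := fun g u hu => by
    rw [Submodule.mem_bot] at hu ⊢; rw [hu, map_zero]
  obtain ⟨Z, hZ, hmax⟩ := (wellFounded_gt (α := Submodule F V)).has_min
    {Z | Good (ρ := ρ) p Z} ⟨⊥, ⊥, ⊥, disjoint_bot_left, sup_bot_eq _, i0, i0,
      ⟨0, fun _ => rfl, nf0⟩, ⟨0, fun _ _ => rfl, nf0⟩, fun _ g w hw => by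
        rw [Submodule.mem_bot] at hw; rw [hw, map_zero]⟩
  have hZ' := hZ
  obtain ⟨U, W, hd, hs, hU, hW, ⟨A, hA, hAn⟩, ⟨S, hS, hSn⟩, h2⟩ := hZ'
  have hZi : Inv ρ Z := hs ▸ hU.sup hW
  obtain ⟨C, hC, -, hdis, hsup⟩ := compl_in hZi (C := ⊤) (fun _ _ _ => trivial) le_top
  obtain ⟨β, hβ, -⟩ := glue hU hW hd hAn hSn
  rw [hs] at hβ
  have hC0 : C = ⊥ := cancel hB hBinv hZi hdis hsup hβ fun γ hγ x hx y hy => by
    by_contra hne
    obtain ⟨X, hXC, hX⟩ := exists_piece p hC hγ ⟨x, hx, y, hy, hne⟩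
    have hd' : Disjoint Z X := hdis.mono_right hXC
    refine hmax _ (Good.add hZ hX hd') (lt_of_le_of_ne le_sup_left fun h => hX.2.1 ?_)
    exact hd'.eq_bot_of_ge (by rw [h]; exact le_sup_right)
  rw [hC0, sup_bot_eq, ← hs] at hsup
  exact ⟨U, W, ⟨hd, codisjoint_iff.2 hsup⟩, hU, hW, ⟨A, hA, hAn.1, hAn.2⟩, ⟨S, hS, hSn.1, hSn.2⟩, h2⟩

end Cfsg.Agent.S4966
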