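import Cfsg.Statements.S0003
import Cfsg.Agent.H1.Solv2

set_option autoImplicit false
open Cfsg

namespace Cfsg.Agent.S0003

open H18 H1

/-- Hall's Theorem, existence: a finite solvable group of order m * n with m and n coprime has a subgroup of order m. -/
theorem result {G : Type*} [Group G] [Finite G] [Group.IsSolvable G] (m n : ℕ)
    (hG : Nat.card G = m * n) (hmn : m.Coprime n) : ∃ H : Subgroup G, Nat.card H = m := by
  obtain ⟨K, hK⟩ := H23.hall_exists (primes m) (H := (⊤ : Subgroup G)) solv_of_solv
  have h0 : m ≠ 0 := by rintro rfl; exact Nat.card_pos.ne' (hG.trans (zero_mul _))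
  exact ⟨K, (hall_iff_card le_top (by simpa using hG) hmn h0).1 hK⟩

end Cfsg.Agent.S0003
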