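import Cfsg.Statements.S0005
import Cfsg.Agent.H1.Solv2

set_option autoImplicit false
open Cfsg

namespace Cfsg.Agent.S0005

open H18 H1

/-- Hall's Theorem, containment: in a finite solvable group of order m * n with m and n coprime, every subgroup of order coprime to n is contained in a subgroup of order m. -/
theorem result {G : Type*} [Group G] [Finite G] [Group.IsSolvable G] (m n : ℕ)
    (hG : Nat.card G = m * n) (hmn : m.Coprime n) (K : Subgroup G) (hK : (Nat.card K).Coprime n) :
    ∃ H : Subgroup G, Nat.card H = m ∧ K ≤ H := by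
  have h0 : m ≠ 0 := by rintro rfl; exact Nat.card_pos.ne' (hG.trans (zero_mul _))
  obtain ⟨H, hH, l⟩ := H23.hall_superset (π := primes m) (H := (⊤ : Subgroup G)) solv_of_solv (X := K) le_top
    fun p hp hd => ⟨hp, ((Nat.Prime.dvd_mul hp).1 (hG ▸ hd.trans K.card_subgroup_dvd_card)).resolve_right
      fun e => hp.ne_one (Nat.eq_one_of_dvd_coprimes hK hd e)⟩
  exact ⟨H, (hall_iff_card le_top (by simpa using hG) hmn h0).1 hH, l⟩

end Cfsg.Agent.S0005
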