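import Cfsg.Statements.S0014
import Cfsg.Agent.H18.Cyc
import Cfsg.Agent.H3.PGrpBasic

set_option autoImplicit false
open Cfsg

namespace Cfsg.Agent.S0014

open H18 Subgroup

theorem step {G : Type*} [Group G] [Finite G] {p : ℕ} [Fact p.Prime] (hG : IsPGroup p G) (K : Subgroup G)
    (hK : frattini G ≤ K) (t : G) (ht : t ∉ K) : K.relIndex (K ⊔ zpowers t) = p := by
  have hp : p.Prime := Fact.out
  have hn : zpowers t ≤ N(K) := le_top.trans
    (norm_of_der_le (H := ⊤) ((H3.commutator_le_frattini hG).trans hK) le_top)
  rw [sup_comm, relIndex_sup_of_norm hn, ← card_quo hn, mim_zpowers (hn (mem_zpowers t)), card_zpowers']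
  haveI := Fact.mk hp
  refine orderOf_eq_prime ?_ fun e => ht ((cs_eq_one_iff (hn (mem_zpowers t))).1 e)
  rw [← mfun_pow (hn (mem_zpowers t))]; exact cs_eq_one (hK (H3.pow_mem_frattini hG t))

theorem ins {G : Type*} [Group G] [DecidableEq G] (F : Subgroup G) (t : G) (S : Finset G) :
    F ⊔ closure ((insert t S : Finset G) : Set G) = F ⊔ closure (S : Set G) ⊔ zpowers t := by
  rw [Finset.coe_insert, Set.insert_eq, Subgroup.closure_union, ← zpowers_eq_closure, sup_comm (zpowers t), sup_assoc]

/-- Burnside's basis Theorem: in a finite p-group whose Frattini quotient has order p ^ n, every generating set contains n elements that already generate, and no set with fewer than n elements generates. -/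
theorem result {G : Type*} [Group G] [Finite G] (p n : ℕ) [Fact p.Prime]
    (hG : IsPGroup p G) (hn : (frattini G).index = p ^ n) :
    (∀ S : Finset G, Subgroup.closure (S : Set G) = ⊤ → ∃ T : Finset G, T ⊆ S ∧ T.card = n ∧ Subgroup.closure (T : Set G) = ⊤) ∧
    (∀ T : Finset G, Subgroup.closure (T : Set G) = ⊤ → n ≤ T.card) := by
  classical
  have hp : p.Prime := Fact.out
  have A : ∀ T : Finset G, (frattini G).relIndex (frattini G ⊔ closure (T : Set G)) ∣ p ^ T.card := fun T => by
    induction T using Finset.induction_on with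
    | empty => simp
    | insert t T ht ih =>
      rw [ins, Finset.card_insert_of_notMem ht, pow_succ]
      by_cases e : t ∈ frattini G ⊔ closure (T : Set G)
      · rw [sup_eq_left.2 (zpowers_le.2 e)]; exact ih.mul_right _
      · rw [← relIndex_tower le_sup_left le_sup_left, step hG _ le_sup_left t e]; exact mul_dvd_mul_right ih _
  have B : ∀ S : Finset G, ∃ T ⊆ S, frattini G ⊔ closure (T : Set G) = frattini G ⊔ closure (S : Set G) ∧
      (frattini G).relIndex (frattini G ⊔ closure (T : Set G)) = p ^ T.card := fun S => by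
    induction S using Finset.induction_on with
    | empty => exact ⟨∅, le_rfl, rfl, by simp⟩
    | insert t S ht ih =>
      obtain ⟨T, a, b, c⟩ := ih
      by_cases e : t ∈ frattini G ⊔ closure (T : Set G)
      · exact ⟨T, a.trans (Finset.subset_insert _ _), by rw [ins, ← b, sup_eq_left.2 (zpowers_le.2 e)], c⟩
      · refine ⟨insert t T, Finset.insert_subset_insert _ a, by rw [ins, ins, b], ?_⟩
        rw [ins, Finset.card_insert_of_notMem (fun h => ht (a h)), pow_succ,
          ← relIndex_tower le_sup_left le_sup_left, step hG _ le_sup_left t e, c]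
  refine ⟨fun S hS => ?_, fun T hT => ?_⟩
  · obtain ⟨T, a, b, c⟩ := B S
    rw [hS, sup_top_eq] at b
    rw [b, relIndex_top_right, hn] at c
    exact ⟨T, a, (Nat.pow_right_injective hp.two_le c).symm, frattini_nongenerating (by rwa [sup_comm])⟩
  · have := A T
    rwa [hT, sup_top_eq, relIndex_top_right, hn, Nat.pow_dvd_pow_iff_le_right hp.one_lt] at this

end Cfsg.Agent.S0014
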