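import Cfsg.Statements.S0018
import Cfsg.Agent.H18.BG1

set_option autoImplicit false
open Cfsg

namespace Cfsg.Agent.S0018

open H18

/-- A finite solvable group whose Sylow p-subgroups are abelian has p-length one: a Sylow p-subgroup together with the largest normal subgroup of order prime to p generates a normal subgroup. -/
theorem result {G : Type*} [Group G] [Finite G] [Group.IsSolvable G]
    (p : ℕ) [Fact p.Prime] (P : Sylow p G) (hP : IsMulCommutative P) :
    ((P : Subgroup G) ⊔ Cfsg.pPrimeCore p G).Normal := by
  have hp : p.Prime := Fact.out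
  have h := hall_sylow_top hp P
  have l := solvable_p_constrained (H := (⊤ : Subgroup G)) solv_of_solv (h.inf_nml (pcore2_nml (π := {p}ᶜ) (ρ := {p})))
  rw [pPrimeCore_eq hp, sup_comm]
  exact ((pl1_of_sylow_le h ((le_inf le_top (cent_mono (abel_of_comm hP) le_rfl inf_le_left)).trans l)).nml_sup h).normal

end Cfsg.Agent.S0018
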