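import Cfsg.Statements.S0019
import Cfsg.Agent.H1.Solv2

set_option autoImplicit false
open Cfsg

namespace Cfsg.Agent.S0019

open H18 H1

/-- A finite group that factorises as H₁H₂ and as H₁H₃ with all three subgroups solvable and the indices of H₂ and H₃ coprime is solvable. -/
theorem result {G : Type*} [Group G] [Finite G] (H₁ H₂ H₃ : Subgroup G)
    (h₁ : Group.IsSolvable H₁) (h₂ : Group.IsSolvable H₂) (h₃ : Group.IsSolvable H₃)
    (h12 : ∀ g : G, ∃ x ∈ H₁, ∃ y ∈ H₂, g = x * y) (h13 : ∀ g : G, ∃ x ∈ H₁, ∃ y ∈ H₃, g = x * y)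
    (hcop : H₂.index.Coprime H₃.index) : Group.IsSolvable G := by
  have k : ∀ H : Subgroup G, (∀ g : G, ∃ x ∈ H₁, ∃ y ∈ H, g = x * y) → ∀ g ∈ (⊤ : Subgroup G), ∃ y ∈ H, ∃ x ∈ H₁, g = y * x :=
    fun H h g _ => by
      obtain ⟨x, hx, y, hy, e⟩ := h g⁻¹
      exact ⟨_, inv_mem hy, _, inv_mem hx, by rw [← mul_inv_rev, ← e, inv_inv]⟩
  exact solv_top_iff.1 (solv_of_factor le_top le_top le_top h₁ h₂ h₃ (k _ h12) (k _ h13) (by simpa using hcop))

end Cfsg.Agent.S0019
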