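import Cfsg.Statements.S0020
import Cfsg.Agent.H2.Carter

set_option autoImplicit false
open Pointwise
open Cfsg

open H18 H1 H2 Subgroup

namespace Cfsg.Agent.S0020

/-- A finite solvable group admits a Sylow system: Sylow subgroups, one for each prime, that pairwise permute as sets. -/
theorem result {G : Type*} [Group G] [Finite G] [Group.IsSolvable G] :
    ∃ S : (p : Nat.Primes) → Sylow (p : ℕ) G,
      ∀ p q : Nat.Primes, (S p : Set G) * (S q : Set G) = (S q : Set G) * (S p : Set G) := by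
  obtain ⟨K, hK⟩ := exists_cs (L := (⊤ : Subgroup G)) solv_of_solv
  choose S hS using fun p : Nat.Primes => (hK.hall {(p : ℕ)}).exists_sylow_top p.2
  refine ⟨S, fun p q => ?_⟩
  have aux : ∀ p q : Nat.Primes, p ≠ q → (S p : Set G) * (S q : Set G) = csHall K ⊤ {(p : ℕ), (q : ℕ)} := by
    intro p q ne
    have h1 : (S p : Subgroup G) ≤ csHall K ⊤ {(p : ℕ), (q : ℕ)} := hS p ▸ csHall_mono (by simp)
    have h2 : (S q : Subgroup G) ≤ csHall K ⊤ {(p : ℕ), (q : ℕ)} := hS q ▸ csHall_mono (by simp)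
    have h3 := (hall_sylow_top p.2 (S p)).of_le h1 le_top
    have h4 := ((hall_sylow_top q.2 (S q)).of_le h2 le_top).congr (ρ := {(p : ℕ)}ᶜ) fun r hr hd => by
      have := (hK.hall {(p : ℕ), (q : ℕ)}).pi r hr hd
      have ne' : (q : ℕ) ≠ p := fun e => ne (Subtype.ext e.symm)
      simp only [Set.mem_insert_iff, Set.mem_singleton_iff, Set.mem_compl_iff] at this ⊢
      rcases this with rfl | rfl
      · simp [ne'.symm]
      · simp [ne']
    ext x
    constructor
    · rintro ⟨a, ha, b, hb, rfl⟩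
      exact mul_mem (h1 ha) (h2 hb)
    · intro hx
      obtain ⟨a, ha, b, hb, rfl⟩ := h3.exists_mul h4 hx
      exact ⟨a, ha, b, hb, rfl⟩
  by_cases e : p = q
  · rw [e]
  · rw [aux p q e, aux q p (Ne.symm e), Set.pair_comm]

end Cfsg.Agent.S0020
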