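import Cfsg.Statements.S0024
import Cfsg.Agent.H1.Coprime

set_option autoImplicit false
open Pointwise
open Cfsg

namespace Cfsg.Agent.S0024

/-- Under coprime action (A normalising K, coprime orders, A or K solvable), any two A-invariant Sylow p-subgroups of K are conjugate by an element of the centraliser of A in K. -/
theorem result {G : Type*} [Group G] [Finite G] (A K : Subgroup G) (hAK : A ≤ Subgroup.normalizer (K : Set G))
    (hcop : (Nat.card A).Coprime (Nat.card K)) (hsolv : Group.IsSolvable A ∨ Group.IsSolvable K)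
    (p : ℕ) [Fact p.Prime] (P Q : Sylow p K)
    (hP : A ≤ Subgroup.normalizer ((P : Subgroup K).map K.subtype : Set G))
    (hQ : A ≤ Subgroup.normalizer ((Q : Subgroup K).map K.subtype : Set G)) :
    ∃ c : K, (c : G) ∈ Subgroup.centralizer (A : Set G) ∧ MulAut.conj c • P = Q := by
  obtain ⟨c, hc, e⟩ := H1.invariant_isSylowIn_conj hAK hcop hsolv (H1.isSylowIn_map P)
    (H1.isSylowIn_map Q) hP hQ
  refine ⟨⟨c, hc.1⟩, hc.2, Sylow.ext ?_⟩
  apply Subgroup.map_injective K.subtype_injective
  rw [Sylow.pointwise_smul_def, H1.map_conj_smul]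
  exact e

end Cfsg.Agent.S0024
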