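import Cfsg.Statements.S0032


set_option autoImplicit false
open Cfsg

namespace Cfsg.Agent.S0032

/-- If an automorphism of a finite group fixes only the identity and maps a normal subgroup N into itself, then the only cosets of N it fixes are those in N: a fixed coset xN forces x ∈ N. -/
theorem result {G : Type*} [Group G] [Finite G] (φ : G ≃* G)
    (hφ : MonoidHom.FixedPointFree (φ : G →* G)) (N : Subgroup G) [N.Normal] (hN : ∀ n ∈ N, φ n ∈ N)
    (x : G) (hx : (φ x)⁻¹ * x ∈ N) : x ∈ N := by
  have h : MonoidHom.FixedPointFree (((φ : G →* G).comp N.subtype).codRestrict N fun n => hN n n.2) :=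
    fun n e => Subtype.ext (hφ n (congrArg Subtype.val e))
  obtain ⟨n, hn⟩ := h.commutatorMap_surjective ⟨x⁻¹ * φ x, by simpa using N.inv_mem hx⟩
  have h1 : (n : G) / φ n = x⁻¹ * φ x := congrArg Subtype.val hn
  have h2 : x * n = 1 := hφ _ (by
    rw [div_eq_iff_eq_mul] at h1
    rw [map_mul]
    conv_rhs => rw [h1]
    simp [← mul_assoc])
  rw [eq_inv_of_mul_eq_one_left h2]
  exact N.inv_mem n.2

end Cfsg.Agent.S0032
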