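import Cfsg.Statements.S0033
import Cfsg.Agent.H23.Thompson

set_option autoImplicit false
open Cfsg

namespace Cfsg.Agent.S0033

/-- Thompson's Theorem on fixed-point-free automorphisms: a finite group with an automorphism of prime order fixing only the identity is nilpotent. -/
theorem result {G : Type*} [Group G] [Finite G] (φ : G ≃* G)
    (hφ : MonoidHom.FixedPointFree (φ : G →* G)) (p : ℕ) (hp : p.Prime) (hord : orderOf φ = p) :
    Group.IsNilpotent G := by
  haveI : Finite (G ⋊[MonoidHom.id (MulAut G)] MulAut G) := Finite.of_equiv _ SemidirectProduct.equivProd.symm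
  let i : G →* G ⋊[MonoidHom.id (MulAut G)] MulAut G := SemidirectProduct.inl
  let t : G ⋊[MonoidHom.id (MulAut G)] MulAut G := SemidirectProduct.inr φ
  have h1 : ∀ g, t * i g * t⁻¹ = i (φ g) := fun g => by
    simp only [t, i, ← map_inv]; exact (SemidirectProduct.inl_aut φ g).symm
  haveI := H23.thompson_prime (K := i.range) (R := Subgroup.zpowers t)
    (Subgroup.zpowers_le.2 (H18.mem_N_of_finite (by rintro _ ⟨g, rfl⟩; exact ⟨_, (h1 g).symm⟩)))
    (by rw [Nat.card_zpowers, orderOf_injective _ SemidirectProduct.inr_injective, hord]; exact hp) (by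
      rw [eq_bot_iff, H18.C_zpowers]
      rintro _ ⟨⟨g, rfl⟩, h⟩
      rw [hφ g (SemidirectProduct.inl_injective ((h1 g).symm.trans (by
        rw [← H18.mem_C1.1 h, mul_inv_cancel_right]))), map_one]
      exact one_mem _)
  exact Group.nilpotent_of_mulEquiv (MonoidHom.ofInjective (f := i) SemidirectProduct.inl_injective).symm

end Cfsg.Agent.S0033
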