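import Cfsg.Statements.S0038
import Cfsg.Agent.H23.FrobCompl

set_option autoImplicit false
open Pointwise
open Cfsg

namespace Cfsg.Agent.S0038

/-- All Frobenius complements of a finite group are conjugate to one another. -/
theorem result {G : Type*} [Group G] [Finite G] (H H₀ : Subgroup G)
    (hH : Cfsg.IsFrobeniusComplement H) (hH₀ : Cfsg.IsFrobeniusComplement H₀) :
    ∃ g : G, MulAut.conj g • H₀ = H := by
  obtain ⟨K, -, h1⟩ := H23.exists_frob_of_compl hH
  obtain ⟨K₀, -, h2⟩ := H23.exists_frob_of_compl hH₀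
  obtain ⟨-, k, -, e⟩ := H23.frob_compl_conj h2 h1
  exact ⟨k, e.symm⟩

end Cfsg.Agent.S0038
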