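import Cfsg.Statements.S0046
import Cfsg.Agent.H2.Schmidt

set_option autoImplicit false
open Cfsg

open H18 H1 H2

namespace Cfsg.Agent.S0046

/-- Schmidt's Theorem on minimal non-nilpotent groups: a finite group in which every maximal subgroup is nilpotent is solvable. -/
theorem result {G : Type*} [Group G] [Finite G]
    (h : ∀ M : Subgroup G, IsCoatom M → Group.IsNilpotent M) : Group.IsSolvable G := by
  refine solv_top_iff.1 (schmidt_solv fun H hH => ?_)
  obtain ⟨M, hM, h1⟩ := (eq_top_or_exists_le_coatom H).resolve_left hH.ne
  exact Nil.of_le (h M hM) h1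

end Cfsg.Agent.S0046
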