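import Cfsg.Statements.S0050
import Cfsg.Agent.H1.Solv2

set_option autoImplicit false
open Cfsg

namespace Cfsg.Agent.S0050

open H18 H1

/-- Frattini argument for Hall subgroups: if L is a solvable normal subgroup and H a subgroup of L of order coprime to its index in L, then L together with the normaliser of H generates the whole group. -/
theorem result {G : Type*} [Group G] [Finite G] (L : Subgroup G) [L.Normal] (hL : Group.IsSolvable L)
    (H : Subgroup G) (hHL : H ≤ L) (hHall : (Nat.card H).Coprime (H.relIndex L)) :
    L ⊔ Subgroup.normalizer (H : Set G) = ⊤ := by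
  refine eq_top_iff.2 fun g _ => ?_
  obtain ⟨k, hk, e⟩ := H23.hall_conj hL (hall_primes hHL hHall) ((hall_primes hHL hHall).cj_N (norm_of_normal (Subgroup.mem_top g)))
  have : k⁻¹ * g ∈ N(H) := mem_N_iff_cj.2 (by rw [cj_mul, e, cj_inv_cj])
  simpa using mul_mem_sup' hk this

end Cfsg.Agent.S0050
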