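import Cfsg.Statements.S0053
import Cfsg.Agent.H2.Frattini

set_option autoImplicit false
open Cfsg

namespace Cfsg.Agent.S0053

/-- An abelian minimal normal subgroup N of a finite group is complemented exactly when N is not inside the Frattini subgroup. -/
theorem result {G : Type*} [Group G] [Finite G]
    (N : Subgroup G) [N.Normal] [IsMulCommutative N] (hN : N ≠ ⊥)
    (hmin : ∀ M : Subgroup G, M.Normal → M ≤ N → M = ⊥ ∨ M = N) :
    (∃ H : Subgroup G, Subgroup.IsComplement' N H) ↔ ¬ N ≤ frattini G := by
  constructor
  · rintro ⟨H, hH⟩ h
    have := H2.eq_top_of_sup_of_le_frattini h hH.sup_eq_top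
    subst this
    exact hN (Subgroup.isComplement'_top_right.mp hH)
  · intro h
    exact H2.exists_complement_of_inf_frattini N
      ((hmin _ inferInstance inf_le_left).resolve_right fun h' => h (inf_eq_left.mp h'))

end Cfsg.Agent.S0053
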