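import Cfsg.Statements.S0054
import Cfsg.Agent.H16.Regular

set_option autoImplicit false
open Cfsg

namespace Cfsg.Agent.S0054

/-- A regular normal subgroup of a finite 2-transitive group is elementary abelian: it is commutative and all its elements have order dividing one prime. -/
theorem result {G : Type*} [Group G] [Finite G]
    {X : Type*} [Nonempty X] [MulAction G X] (h2 : MulAction.IsMultiplyPretransitive G X 2)
    (N : Subgroup G) [N.Normal] (htrans : MulAction.IsPretransitive N X) (hreg : ∀ x : X, MulAction.stabilizer N x = ⊥) :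
    IsMulCommutative N ∧ ∃ p : ℕ, p.Prime ∧ ∀ n ∈ N, n ^ p = 1 := by
  obtain ⟨a⟩ := ‹Nonempty X›
  haveI : Finite X := Finite.of_surjective (fun n : N => n • a) fun b => MulAction.exists_smul_eq N a b
  by_cases h : Nontrivial X
  · obtain ⟨h1, p, hp, h2, -⟩ := H16.regular_normal_elementary h2 N a (hreg a)
    exact ⟨⟨⟨fun x y => Subtype.ext (h1 _ x.2 _ y.2)⟩⟩, p, hp, h2⟩
  · rw [not_nontrivial_iff_subsingleton] at h
    have : ∀ n : N, n = 1 := fun n => by
      have : n ∈ MulAction.stabilizer N a := Subsingleton.elim _ _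
      rwa [hreg a, Subgroup.mem_bot] at this
    exact ⟨⟨⟨fun x y => by rw [this x, this y]⟩⟩, 2, Nat.prime_two, fun n hn => by
      rw [show n = 1 from congrArg Subtype.val (this ⟨n, hn⟩), one_pow]⟩

end Cfsg.Agent.S0054
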