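import Cfsg.Statements.S0057
import Cfsg.Agent.H18.BG1

set_option autoImplicit false
open Cfsg

namespace Cfsg.Agent.S0057

open H18 H1 Subgroup
open scoped commutatorElement

/-- Under coprime action, if the centraliser of A in K has prime index p in K then the commutator subgroup [K, A] has order exactly p. -/
theorem result {G : Type*} [Group G] [Finite G] (A K : Subgroup G) (hAK : A ≤ Subgroup.normalizer (K : Set G))
    (hcop : (Nat.card A).Coprime (Nat.card K)) (hsolv : Group.IsSolvable A ∨ Group.IsSolvable K)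
    (p : ℕ) (hp : p.Prime) (hidx : (K ⊓ Subgroup.centralizer (A : Set G)).relIndex K = p) :
    Nat.card (⁅K, A⁆ : Subgroup G) = p := by
  have h : Cop A K := ⟨hAK, hcop, hsolv⟩
  obtain ⟨P, hP, nP⟩ := h.exists_sylow hp
  have l : ⁅K, A⁆ ≤ P := commutator_le.2 fun k hk a ha => by
    obtain ⟨x, hx, c, hc, rfl⟩ := exists_mul_of_coprime_relIndex (inf_le_left : K ⊓ C(A) ≤ K) hP.le
      (by rw [hidx]; exact (piNat_self hp).coprime hP.idx) hk
    have : ⁅x * c, a⁆ = x * (a * x⁻¹ * a⁻¹) := by
      rw [commutatorElement_def, mul_assoc x, ← mem_C.1 hc.2 a ha]; group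
    rw [this]; exact mul_mem hx (conj_mem nP ha (inv_mem hx))
  have hW := hP.pi.of_le l
  have i : (⁅K, A⁆ ⊓ C(A)).relIndex ⁅K, A⁆ = p := by
    rw [← hidx]
    conv_rhs => rw [← h.comm_sup]
    rw [h.comm_sup, ← relIndex_inf_right (A := K ⊓ C(A))]
    conv_rhs => rw [inf_assoc, inf_comm, inf_assoc, inf_idem, inf_comm]; enter [2]; rw [← h.comm_sup]
    rw [Nrm2.relIndex_sup (Or.inr (inf_le_left.trans norm_comm_left)), ← relIndex_inf_left (A := K ⊓ C(A)),
      ← inf_assoc, inf_eq_left.2 (comm_le_left hAK)]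
  have n := hW.nml_of_relIndex hp inf_le_left i
  have c : ⁅K, A⁆ ⊓ C(A) ≤ C(⁅K, A⁆) := by
    rw [cent_comm, ← comm_eq_bot_iff, ← h.comm_comm]
    conv_lhs => enter [2]; rw [h.comm_comm]
    refine three_subgroup ?_ ?_
    · rw [comm_eq_bot_iff.2 (cent_symm inf_le_right), commutator_bot_left]
    · exact comm_eq_bot_iff.2 ((comm_le_left n.norm).trans inf_le_right)
  have := abel_comm_inf_cent (abel_of_relIndex_prime c (i ▸ hp)) h.comm.1 h.comm.2
  rw [h.comm_comm] at this
  rwa [this, relIndex_bot_left] at i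

end Cfsg.Agent.S0057
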