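import Cfsg.Statements.S0063

set_option autoImplicit false
open Cfsg

namespace Cfsg.Agent.S0063

/-- A finite group of prime-power order p ^ m with m > 1 is nilpotent of class at most m - 1. -/
theorem result {G : Type*} [Group G] [Finite G] (p m : ℕ) [Fact p.Prime]
    (hG : Nat.card G = p ^ m) (hm : 1 < m) : Group.nilpotencyClass G ≤ m - 1 := by
  induction m using Nat.strong_induction_on generalizing G with | _ m ih => ?_
  have hp : p.Prime := Fact.out
  have hP : IsPGroup p G := IsPGroup.of_card hG
  have := hP.isNilpotent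
  have : Nontrivial G := Finite.one_lt_card_iff_nontrivial.1 (hG ▸ Nat.one_lt_pow (by omega) hp.one_lt)
  obtain ⟨k, hk⟩ := IsPGroup.iff_card.1 (hP.to_quotient (Subgroup.center G))
  have hlt : p ^ k < p ^ m := by
    rw [← hk, ← hG, Subgroup.card_eq_card_quotient_mul_card_subgroup (Subgroup.center G)]
    exact lt_mul_of_one_lt_right Nat.card_pos ((Subgroup.one_lt_card_iff_ne_bot _).2
      ((Subgroup.nontrivial_iff_ne_bot _).1 hP.center_nontrivial))
  rw [Nat.pow_lt_pow_iff_right hp.one_lt] at hlt
  by_cases h : 1 < k
  · have := ih k hlt hk h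
    rw [Group.nilpotencyClass_eq_quotient_center_plus_one]; omega
  · have : IsCyclic (G ⧸ Subgroup.center G) := isCyclic_of_card_dvd_prime (p := p)
      (by rw [hk]; simpa using pow_dvd_pow p (not_lt.1 h))
    have := Group.IsNilpotent.nilpotencyClass_le_one_iff.2
      ((QuotientGroup.mk' _).isMulCommutative_of_isCyclic_of_ker_le_center (QuotientGroup.ker_mk' <| Subgroup.center G).le)
    omega

end Cfsg.Agent.S0063
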