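import Cfsg.Statements.S0064
import Cfsg.Agent.H2.Subnormal

set_option autoImplicit false
open Cfsg

namespace Cfsg.Agent.S0064

/-- A finite group is nilpotent exactly when each of its subgroups is subnormal. -/
theorem result {G : Type*} [Group G] [Finite G] :
    Group.IsNilpotent G ↔ ∀ H : Subgroup G, H.IsSubnormal := by
  refine ⟨fun _ H => H2.isSubnormal_of_nilpotent H, fun h => ?_⟩
  refine (Group.isNilpotent_of_finite_tfae.out 1 0).mp ?_
  intro H hH
  have := (H2.subnIn_top_iff.mpr (h H)).lt_normalizer_inf hH.ne
  rwa [inf_top_eq] at this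

end Cfsg.Agent.S0064
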