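import Cfsg.Statements.S0069
import Cfsg.Agent.H23.FrobCompl
import Cfsg.Agent.H1.BG3a

set_option autoImplicit false
open Cfsg

namespace Cfsg.Agent.S0069

open H18 H1 Subgroup

/-- A Frobenius complement has nontrivial centre: if H ≠ 1 complements a nontrivial normal subgroup K and every nonidentity element of H has trivial centraliser in K, then the centre of H is nontrivial. -/
theorem result {G : Type*} [Group G] [Finite G] (K H : Subgroup G) [K.Normal]
    (hc : Subgroup.IsComplement' K H) (hK : K ≠ ⊥) (hH : H ≠ ⊥) (hfpf : ∀ h ∈ H, h ≠ 1 → K ⊓ Subgroup.centralizer {h} = ⊥) :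
    Subgroup.center H ≠ ⊥ := by
  suffices h : ∃ x ∈ H, x ≠ 1 ∧ x ∈ C(H) by
    obtain ⟨x, hx, h1, hc⟩ := h
    exact (ne_bot_iff_exists_ne_one).2 ⟨⟨⟨x, hx⟩, mem_center_iff.2 fun g => Subtype.ext (mem_C.1 hc g g.2)⟩,
      fun e => h1 (congrArg (fun z => (z.1 : G)) e)⟩
  by_cases e : 2 ∣ Nat.card H
  · obtain ⟨s, hs, o⟩ := cauchy Nat.prime_two e
    have s1 : s ≠ 1 := by rintro rfl; simp at o
    have s2 : s * s = 1 := by rw [← sq, ← o, pow_orderOf_eq_one]
    refine ⟨s, hs, s1, mem_C.2 fun h hh => ?_⟩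
    have := H23.semireg_invol_eq norm_of_normal hK hfpf (mul_mem (mul_mem hh hs) (inv_mem hh)) hs
      (by simpa using s1) s1 (by rw [show h * s * h⁻¹ * (h * s * h⁻¹) = h * (s * s) * h⁻¹ by group, s2]; simp) s2
    rwa [mul_inv_eq_iff_eq_mul] at this
  have ho : Odd (Nat.card H) := Nat.odd_iff.2 (by omega)
  have hp := Nat.minFac_prime (one_lt_card hH).ne'
  obtain ⟨X, hX, cX⟩ := cauchy_sub hp (Nat.minFac_dvd _)
  have n := prime_odd_regular_normal (cX ▸ hp) ho hX norm_of_normal hK hfpf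
  obtain ⟨x, x1, rfl⟩ := exists_gen_of_prime (cX ▸ hp)
  refine ⟨x, hX (mem_zpowers x), x1, cent_symm (relIndex_eq_one_iff.1 ?_) (mem_zpowers x)⟩
  by_contra h1
  obtain ⟨q, hq, d⟩ := Nat.exists_prime_and_dvd h1
  have := Nat.le_of_dvd (by have := hp.two_le; omega) (d.trans (prime_relIndex_C_dvd hp cX n))
  have := Nat.minFac_le_of_dvd hq.two_le (d.trans relIndex_dvd)
  have := hp.two_le
  omega

end Cfsg.Agent.S0069
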