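import Cfsg.Statements.S0070
import Cfsg.Agent.H2.Frattini

set_option autoImplicit false
open Cfsg

namespace Cfsg.Agent.S0070

/-- The Fitting subgroup commutes with passing to the Frattini quotient: the Fitting subgroup of G modulo its Frattini subgroup is the image of the Fitting subgroup of G. -/
theorem result {G : Type*} [Group G] [Finite G] :
    Cfsg.fittingSubgroup (G ⧸ frattini G) = (Cfsg.fittingSubgroup G).map (QuotientGroup.mk' (frattini G)) := by
  have hs := QuotientGroup.mk'_surjective (frattini G)
  apply le_antisymm
  · refine sSup_le fun N hN => ?_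
    have := hN.1
    rw [← Subgroup.map_comap_eq_self_of_surjective hs N]
    refine Subgroup.map_mono (H2.le_fitting (H2.nilpotent_of_map_mk'_of_le_frattini _ _ le_rfl ?_))
    rw [Subgroup.map_comap_eq_self_of_surjective hs N]
    exact hN.2
  · rw [Subgroup.map_le_iff_le_comap]
    refine sSup_le fun N hN => Subgroup.map_le_iff_le_comap.mp ?_
    have := hN.1.map _ hs
    exact H2.le_fitting (H2.nilpotent_map _ hN.2)

end Cfsg.Agent.S0070
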