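import Cfsg.Statements.S0073
import Cfsg.Agent.H3.HallTransfer

set_option autoImplicit false
open Cfsg

namespace Cfsg.Agent.S0073

/-- For a finite non-abelian simple group, either the cube of the least prime divisor of the order divides the order, or 12 does. -/
theorem result {G : Type*} [Group G] [Finite G] [IsSimpleGroup G] (hG : ∃ x y : G, x * y ≠ y * x) : (Nat.card G).minFac ^ 3 ∣ Nat.card G ∨ 12 ∣ Nat.card G := by
  have hnt : Nontrivial G := IsSimpleGroup.toNontrivial
  have h1 : Nat.card G ≠ 1 := Finite.one_lt_card.ne'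
  have hp : (Nat.card G).minFac.Prime := Nat.minFac_prime h1
  generalize hpe : (Nat.card G).minFac = p at hp
  have := Fact.mk hp
  have hpd : p ∣ Nat.card G := hpe ▸ Nat.minFac_dvd _
  obtain ⟨P⟩ : Nonempty (Sylow p G) := inferInstance
  by_contra hcon
  rw [not_or] at hcon
  have hP : Nat.card P ∣ p ^ 2 := by
    rw [P.card_eq_multiplicity]
    refine pow_dvd_pow _ (Nat.le_of_lt_succ ?_)
    by_contra h
    exact hcon.1 ((hp.pow_dvd_iff_le_factorization Nat.card_pos.ne').mpr (not_lt.mp h))
  have hn : ¬ HasNormalPComplement p G := by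
    intro h
    rcases IsSimpleGroup.eq_bot_or_eq_top_of_normal (pResidual p G) inferInstance with hb | ht
    · have hG' : IsPGroup p G := H3.pResidual_eq_bot_iff.mp hb
      have := hG'.isNilpotent
      obtain ⟨x, y, hxy⟩ := hG
      rcases IsSimpleGroup.eq_bot_or_eq_top_of_normal (Subgroup.center G) inferInstance with hc | hc
      · have := hG'.center_nontrivial
        rw [hc] at this
        exact not_nontrivial _ this
      · exact hxy (Subgroup.mem_center_iff.mp (hc.ge (Subgroup.mem_top y)) x)
    · rw [H3.hasNormalPComplement_iff_not_dvd_card_pResidual, ht, Subgroup.card_top] at h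
      exact h hpd
  obtain ⟨q, j, hq, hqp, hqG, h1j, hj2, hd⟩ := H3.exists_prime_dvd_pow_sub_one P hP hn
  have hle : p ≤ q := hpe ▸ Nat.minFac_le_of_dvd hq.two_le hqG
  have h2 := hp.two_le
  have hq1 : ¬ q ∣ p - 1 := fun h => by
    have := Nat.le_of_dvd (by omega) h
    omega
  interval_cases j
  · exact hq1 (by simpa using hd)
  · have : p ^ 2 - 1 = (p + 1) * (p - 1) := by simpa using Nat.sq_sub_sq p 1
    rw [this] at hd
    have h3 := Nat.le_of_dvd (by omega) ((hq.dvd_mul.mp hd).resolve_right hq1)
    have h4 : q = p + 1 := by omega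
    have h5 : p = 2 := by
      rcases hp.eq_two_or_odd' with h | h
      · exact h
      · have := hq.eq_two_or_odd'
        rw [h4] at this
        rcases this with h' | h'
        · omega
        · exact absurd h' (Nat.not_odd_iff_even.mpr h.add_one)
    subst h5
    subst h4
    have h6 : ¬ Nat.card P ∣ 2 ^ 1 := fun h => by
      obtain ⟨q, j, hq, hqp, hqG, h1j, hj2, hd⟩ := H3.exists_prime_dvd_pow_sub_one P h hn
      obtain rfl : j = 1 := by omega
      exact hq.ne_one (by simpa using hd)
    have h7 : 4 ∣ Nat.card G := by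
      obtain ⟨k, hk, e⟩ := (Nat.dvd_prime_pow hp).mp hP
      have : k = 2 := by
        by_contra hk2
        exact h6 (e ▸ pow_dvd_pow 2 (by omega))
      subst this
      exact (e ▸ (P : Subgroup G).card_subgroup_dvd_card :)
    exact hcon.2 (Nat.Coprime.mul_dvd_of_dvd_of_dvd (by norm_num : Nat.Coprime 3 4) hqG h7)

end Cfsg.Agent.S0073
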