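import Cfsg.Statements.S0076
import Cfsg.Agent.H3.Frobenius

set_option autoImplicit false
open Cfsg

namespace Cfsg.Agent.S0076

/-- Two P-invariant subsets of a Sylow p-subgroup P that are conjugate in G are conjugate under the normalizer of P. -/
theorem result {G : Type*} [Group G] [Finite G] {p : ℕ} [Fact p.Prime] (P : Sylow p G) (X Y : Set G) (hXP : X ⊆ P) (hYP : Y ⊆ P) (hX : ∀ x ∈ P, (fun y => x * y * x⁻¹) '' X = X) (hY : ∀ x ∈ P, (fun y => x * y * x⁻¹) '' Y = Y) (g : G) (hg : (fun y => g * y * g⁻¹) '' X = Y) : ∃ n ∈ Subgroup.normalizer (P : Set G), (fun y => n * y * n⁻¹) '' X = Y := by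
  have key : ∀ (Z : Set G), (∀ x ∈ P, (fun y => x * y * x⁻¹) '' Z = Z) →
      (P : Subgroup G) ≤ Subgroup.normalizer Z := by
    intro Z hZ x hx
    rw [Subgroup.mem_set_normalizer_iff]
    intro y
    constructor
    · intro hy
      rw [← hZ x hx]
      exact ⟨y, hy, rfl⟩
    · intro hy
      rw [← hZ x hx] at hy
      obtain ⟨z, hz, e⟩ := hy
      have : z = y := by simpa using e
      exact this ▸ hz
  obtain ⟨n, hn, h, hh, rfl⟩ := H3.exists_normalizer_mul_of_sylow_le (H := Subgroup.normalizer X) P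
    (g := g) (key X hX) (fun x hx => by
      rw [Subgroup.mem_set_normalizer_iff]
      intro y
      have h1 : ∀ z, z ∈ X ↔ g * z * g⁻¹ ∈ Y := fun z => by
        rw [← hg]
        exact ⟨fun hz => ⟨z, hz, rfl⟩, fun ⟨w, hw, e⟩ => (by simpa using e : w = z) ▸ hw⟩
      rw [h1, h1, Subgroup.mem_set_normalizer_iff.mp (key Y hY hx)]
      simp [mul_assoc])
  refine ⟨n, hn, ?_⟩
  rw [← hg]
  ext y
  constructor
  · rintro ⟨x, hx, rfl⟩
    exact ⟨h⁻¹ * x * h, (Subgroup.mem_set_normalizer_iff''.mp hh x).mp hx, by group⟩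
  · rintro ⟨x, hx, rfl⟩
    exact ⟨h * x * h⁻¹, (Subgroup.mem_set_normalizer_iff.mp hh x).mp hx, by group⟩

end Cfsg.Agent.S0076
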