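import Cfsg.Statements.S0078
import Cfsg.Agent.H3.Frobenius

set_option autoImplicit false
open Cfsg

namespace Cfsg.Agent.S0078

/-- In a p-normal group, a Sylow p-subgroup P meets O^p(G) exactly where it meets O^p(V), for any subgroup V containing the normalizer of the centre of P. -/
theorem result {G : Type*} [Group G] [Finite G] {p : ℕ} [Fact p.Prime] (P : Sylow p G) (hn : ∀ Q : Sylow p G, (P : Subgroup G) ⊓ Subgroup.centralizer (P : Set G) ≤ (Q : Subgroup G) → (Q : Subgroup G) ⊓ Subgroup.centralizer (Q : Set G) = (P : Subgroup G) ⊓ Subgroup.centralizer (P : Set G)) (V : Subgroup G) (hV : Subgroup.normalizer (((P : Subgroup G) ⊓ Subgroup.centralizer (P : Set G) : Subgroup G) : Set G) ≤ V) : (P : Subgroup G) ⊓ Cfsg.pResidual p G = (P : Subgroup G) ⊓ (Cfsg.pResidual p V).map V.subtype := by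
  set Z : Subgroup G := (P : Subgroup G) ⊓ Subgroup.centralizer (P : Set G) with hZ
  have hW : IsWeaklyClosed Z P := by
    refine H3.isWeaklyClosed_iff.mpr ⟨inf_le_left, fun g hg => ?_⟩
    have h1 := hn (g⁻¹ • P) fun x hx => H3.mem_sylow_smul_iff.mpr (by rw [inv_inv]; exact hg x hx)
    rw [← inv_mem_iff, ← H3.conj_smul_eq_iff_mem_normalizer]
    conv_rhs => rw [← h1]
    rw [hZ, Subgroup.smul_inf, ← Sylow.coe_coe, ← H3.centralizer_conj_smul]
    rfl
  have hPV : (P : Subgroup G) ≤ V :=
    (Subgroup.le_normalizer.trans (H3.sylow_normalizer_le_of_weaklyClosed hW)).trans hV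
  rw [← H3.pResidual_inf_eq_of_weaklyClosed_central P inf_le_right hW hV, inf_comm (pResidual p G),
    ← inf_assoc, inf_of_le_left hPV]

end Cfsg.Agent.S0078
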