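import Cfsg.Statements.S0079
import Cfsg.Agent.H3.HallTransfer

set_option autoImplicit false
open Cfsg

namespace Cfsg.Agent.S0079

/-- A nilpotent Hall subgroup has a normal complement exactly when elements of it that are conjugate in the whole group are already conjugate inside it. -/
theorem result {G : Type*} [Group G] [Finite G] (H : Subgroup G) (hH : Group.IsNilpotent H) (hHall : Nat.Coprime (Nat.card H) H.index) : (∃ N : Subgroup G, N.Normal ∧ N.IsComplement' H) ↔ ∀ x ∈ H, ∀ y ∈ H, (∃ g : G, g * x * g⁻¹ = y) → ∃ h ∈ H, h * x * h⁻¹ = y := by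
  constructor
  · rintro ⟨N, hN, h⟩ x hx y hy ⟨g, rfl⟩
    obtain ⟨z, hz, e⟩ := H3.exists_conj_of_normal_complement h g
    exact ⟨z, hz, e x hx hy⟩
  · intro h
    refine H3.exists_normal_complement_of_forall hHall fun q _ hq => ?_
    obtain ⟨P, hP⟩ := H3.exists_sylow_le_of_not_dvd_index (H3.not_dvd_index_of_hall hHall hq)
    exact H3.hasNormalPComplement_of_controls P hP
      (fun x hx g hg => h x (hP hx) _ (hP hg) ⟨g, rfl⟩) H3.hasNormalPComplement_of_isNilpotent

end Cfsg.Agent.S0079
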