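import Cfsg.Statements.S0083
import Cfsg.Agent.H3.HallTransfer

set_option autoImplicit false
open Cfsg

namespace Cfsg.Agent.S0083

/-- For an abelian Sylow p-subgroup P, a normal p-complement exists exactly when the normalizer of P is an internal direct product of P with some subgroup. -/
theorem result {G : Type*} [Group G] [Finite G] {p : ℕ} [Fact p.Prime] (P : Sylow p G) (hP : IsMulCommutative P) : Cfsg.HasNormalPComplement p G ↔ ∃ Q : Subgroup G, Q ≤ Subgroup.centralizer (P : Set G) ∧ Q ⊓ (P : Subgroup G) = ⊥ ∧ Q ⊔ (P : Subgroup G) = Subgroup.normalizer (P : Set G) := by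
  constructor
  · intro h
    have hc := H3.isComplement'_pResidual P h
    have hd := H3.hasNormalPComplement_iff_not_dvd_card_pResidual.mp h
    refine ⟨pResidual p G ⊓ Subgroup.normalizer (P : Set G), fun x hx =>
      H3.mem_centralizer_of_hasNormalPComplement h P.2 hx.2
        (H3.coprime_orderOf_of_mem_of_not_dvd_card hd hx.1), ?_, ?_⟩
    · rw [eq_bot_iff, ← hc.disjoint.eq_bot]
      exact inf_le_inf_right _ inf_le_left
    · refine le_antisymm (sup_le inf_le_right Subgroup.le_normalizer) fun g hg => ?_
      obtain ⟨n, hn, y, hy, rfl⟩ := H1.exists_mul_of_isComplement' hc g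
      exact Subgroup.mul_mem_sup ⟨hn, (Subgroup.mul_mem_cancel_right _
        (Subgroup.le_normalizer hy)).mp hg⟩ hy
  · rintro ⟨Q, h1, -, h3⟩
    exact H3.burnside_hasNormalPComplement P
      (h3.ge.trans (sup_le h1 (Subgroup.le_centralizer (P : Subgroup G))))

end Cfsg.Agent.S0083
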