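import Cfsg.Statements.S0087
import Cfsg.Agent.H3.HallTransfer
import Cfsg.Agent.H18.Nil

set_option autoImplicit false
open Cfsg

namespace Cfsg.Agent.S0087

open Subgroup H18 in
theorem abel_hall_conj {G : Type*} [Group G] [Finite G] {π : Set ℕ} {H K M : Subgroup G}
    (hH : Hall π H M) (hK : Hall π K M) (aH : Abel H) (aK : Abel K) : ∃ g ∈ M, cj g K = H := by
  obtain ⟨_, ⟨g, hg, rfl⟩, hmax⟩ := exists_max_card (fun D => ∃ g ∈ M, D = H ⊓ cj g K)
    (A := H ⊓ cj 1 K) ⟨1, one_mem _, rfl⟩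
  have hK' := hK.cj_mem hg
  refine ⟨g, hg, (hH.eq_of_le' hK' (le_of_sylows fun p hp hd => ?_)).symm⟩
  obtain ⟨P, hP⟩ := exists_sylow hp H
  obtain ⟨Q, hQ⟩ := exists_sylow hp (cj g K)
  have hπ := hH.pi p hp hd
  have h1 : H ≤ M ⊓ C(H ⊓ cj g K) := le_inf hH.le (cent_mono aH le_rfl inf_le_left)
  have h2 : cj g K ≤ M ⊓ C(H ⊓ cj g K) := le_inf hK'.le (cent_mono (aK.cj g) le_rfl inf_le_right)
  obtain ⟨c, hc, e⟩ := sylow_conj hp ((hQ.trans_p hK' hπ).of_le (hQ.le.trans h2) inf_le_left)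
    ((hP.trans_p hH hπ).of_le (hP.le.trans h1) inf_le_left)
  have h3 : H ⊓ cj g K ≤ H ⊓ cj (c * g) K := le_inf inf_le_left (by
    rw [cj_mul, ← cj_eq_self_of_cent hc.2]; exact cj_mono inf_le_right)
  have h4 := eq_of_card_ge h3 (hmax _ ⟨c * g, mul_mem hc.1 hg, rfl⟩)
  refine ⟨P, hP, le_trans ?_ (inf_le_right : H ⊓ cj g K ≤ _)⟩
  rw [h4]
  exact le_inf hP.le (by rw [e, cj_mul]; exact cj_mono hQ.le)

/-- A Hall subgroup that is central in its normalizer has a normal complement. -/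
theorem result {G : Type*} [Group G] [Finite G] (H : Subgroup G) (hHall : Nat.Coprime (Nat.card H) H.index) (h : Subgroup.normalizer (H : Set G) ≤ Subgroup.centralizer (H : Set G)) : ∃ N : Subgroup G, N.Normal ∧ N.IsComplement' H := by
  open Subgroup H18 in
  have aH : Abel H := le_N.trans h
  have hH := hall_primes (le_top : H ≤ ⊤) (by rwa [relIndex_top_right])
  refine H3.exists_normal_complement_of_forall hHall fun q _ hq => ?_
  obtain ⟨P, hP⟩ := H3.exists_sylow_le_of_not_dvd_index (H3.not_dvd_index_of_hall hHall hq)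
  refine H3.burnside_hasNormalPComplement P fun g hg => ?_
  have h1 : H ≤ C((P : Subgroup G)) := cent_mono aH le_rfl hP
  have h2 : cj g H ≤ C((P : Subgroup G)) := by
    rw [← cj_eq_self (H := (P : Subgroup G)) hg]; exact cj_cent_iff.2 h1
  obtain ⟨c, hc, e⟩ := abel_hall_conj (hH.of_le h1 le_top) ((hH.cj_top g).of_le h2 le_top) aH (aH.cj g)
  rw [cj_cj, ← mem_N_iff_cj] at e
  exact (mul_mem_cancel_left hc).1 (C_anti hP (h e))

end Cfsg.Agent.S0087
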