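import Cfsg.Statements.S0089
import Cfsg.Agent.H3.HallTransfer

set_option autoImplicit false
open Cfsg

namespace Cfsg.Agent.S0089

/-- When all Sylow subgroups are abelian, the derived subgroup meets the centre trivially. -/
theorem result {G : Type*} [Group G] [Finite G] (h : ∀ p : ℕ, p.Prime → ∀ P : Sylow p G, IsMulCommutative P) : commutator G ⊓ Subgroup.center G = ⊥ := by
  by_contra hne
  obtain ⟨p, hp, hd⟩ := Nat.exists_prime_and_dvd (mt Subgroup.card_eq_one.mp hne)
  have := Fact.mk hp
  obtain ⟨P⟩ : Nonempty (Sylow p G) := inferInstance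
  have := h p hp P
  refine H3.not_dvd_card_of_inf_sylow_eq_bot P ?_ hd
  rw [eq_bot_iff, ← H3.commutator_self_eq_bot (P : Subgroup G)]
  exact fun x hx => H3.sylow_inf_center_inf_commutator_le P ⟨⟨hx.2, hx.1.2⟩, hx.1.1⟩

end Cfsg.Agent.S0089
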