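import Cfsg.Statements.S0090
import Cfsg.Agent.H3.HallTransfer

set_option autoImplicit false
open Cfsg

namespace Cfsg.Agent.S0090

/-- An abelian normal Hall subgroup A splits as the internal direct product of G' ∩ A and Z(G) ∩ A, and [A, G] = G' ∩ A. -/
theorem result {G : Type*} [Group G] [Finite G] (A : Subgroup G) [A.Normal] (hc : IsMulCommutative A) (hHall : Nat.Coprime (Nat.card A) A.index) : ⁅A, (⊤ : Subgroup G)⁆ = commutator G ⊓ A ∧ (commutator G ⊓ A) ⊓ (Subgroup.center G ⊓ A) = ⊥ ∧ (commutator G ⊓ A) ⊔ (Subgroup.center G ⊓ A) = A := by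
  have hN : (⊤ : Subgroup G) ≤ Subgroup.normalizer (A : Set G) := Subgroup.le_normalizer_of_normal
  have hco := H3.coprime_card_relIndex_centralizer hHall (le_top : A ≤ ⊤)
  have h1 : ⁅A, (⊤ : Subgroup G)⁆ = commutator G ⊓ A := by
    refine le_antisymm (le_inf (Subgroup.commutator_mono le_top le_top)
      (Subgroup.commutator_le_left _ _)) ?_
    rw [← (H3.focal_of_coprime_index A (hHall.symm.coprime_dvd_right
      (Subgroup.relIndex_dvd_card _ _))).2.2]
    refine (Subgroup.closure_le _).mpr ?_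
    rintro _ ⟨-, x, hx, u, rfl⟩
    exact Subgroup.commutator_mem_commutator hx (Subgroup.mem_top u)
  have h2 := H3.fitting_inf_eq_bot hN hco
  have h3 := H3.fitting_sup_eq hN hco
  rw [Subgroup.coe_top, Subgroup.centralizer_univ] at h2 h3
  rw [← h1, inf_comm (Subgroup.center G)]
  exact ⟨rfl, eq_bot_iff.mpr (h2.le.trans' (inf_le_inf_left _ inf_le_right)), h3⟩

end Cfsg.Agent.S0090
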