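import Cfsg.Statements.S0091
import Cfsg.Agent.H3.Tate

set_option autoImplicit false
open Cfsg

namespace Cfsg.Agent.S0091

/-- If a nontrivial Sylow p-subgroup controls its own fusion then it is not contained in the derived subgroup. -/
theorem result {G : Type*} [Group G] [Finite G] {p : ℕ} [Fact p.Prime] (P : Sylow p G) (hp : p ∣ Nat.card G) (h : ∀ x ∈ P, ∀ y ∈ P, (∃ g : G, g * x * g⁻¹ = y) → ∃ z ∈ P, z * x * z⁻¹ = y) : ¬ (P : Subgroup G) ≤ commutator G := by
  intro hle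
  have h1 := H3.hasNormalPComplement_of_no_fusion P fun x hx g hg => h x hx _ hg ⟨g, rfl⟩
  have h2 : commutator G ⊓ (P : Subgroup G) = ⁅(P : Subgroup G), (P : Subgroup G)⁆ ⊓ P :=
    H3.commutator_inf_sylow_eq_of_controls P le_rfl fun x hx g hg => h x hx _ hg ⟨g, rfl⟩
  rw [inf_of_le_right hle] at h2
  have h3 : (⊤ : Subgroup P) ≤ ⁅(⊤ : Subgroup P), ⊤⁆ := by
    intro x _
    have hx : (x : G) ∈ ⁅(P : Subgroup G), (P : Subgroup G)⁆ := (h2.le x.2).1
    rw [← Subgroup.map_subtype_commutator] at hx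
    obtain ⟨y, hy, e⟩ := hx
    exact (Subtype.ext e : y = x) ▸ hy
  have := P.2.isNilpotent
  have h4 := H3.eq_bot_of_le_commutator_top h3
  apply P.ne_bot_of_dvd_card hp
  rw [eq_bot_iff]
  intro x hx
  have : (⟨x, hx⟩ : P) ∈ (⊤ : Subgroup P) := trivial
  rw [h4] at this
  exact congrArg Subtype.val this

end Cfsg.Agent.S0091
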