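import Cfsg.Statements.S0092
import Cfsg.Agent.H3.HallTransfer
import Cfsg.Agent.H18.Nil
import Cfsg.Agent.H1.SchurZassenhaus

set_option autoImplicit false
open Cfsg

namespace Cfsg.Agent.S0092

/-- If the Sylow p-subgroups of O^p(G) are abelian then G splits over O^p(G). -/
theorem result {G : Type*} [Group G] [Finite G] {p : ℕ} [Fact p.Prime] (h : ∀ Q : Sylow p (Cfsg.pResidual p G), IsMulCommutative Q) : ∃ K : Subgroup G, K.IsComplement' (Cfsg.pResidual p G) := by
  open Subgroup H18 in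
  have hp : p.Prime := Fact.out
  have h0 : pResidual p (pResidual p G) = ⊤ := H3.pResidual_pResidual
  set K := pResidual p G with hK
  obtain ⟨Q'⟩ : Nonempty (Sylow p K) := inferInstance
  have := h Q'
  have h1 := H3.pResidual_inf_abelian_sylow Q'
  rw [h0, top_inf_eq] at h1
  have hQ := hall_map_sylow hp Q'
  have h2 : (Q' : Subgroup K).map K.subtype ≤ ⁅(Q' : Subgroup K).map K.subtype,
      K ⊓ N((Q' : Subgroup K).map K.subtype)⁆ := by
    conv_lhs => rw [h1, map_commutator]
    exact comm_mono le_rfl (le_inf (map_subtype_le _) (le_normalizer_map _))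
  have aQ : Abel ((Q' : Subgroup K).map K.subtype) := abel_of_comm inferInstance
  generalize (Q' : Subgroup K).map K.subtype = Q at hQ h2 aQ
  have hQH : Q ⊴ K ⊓ N(Q) := ⟨le_inf hQ.le le_N, inf_le_right⟩
  have hQ' := hQ.of_le hQH.le inf_le_left
  have := aQ.comm
  have h3 := H3.fitting_inf_eq_bot hQH.norm
    (hQ'.coprime.coprime_dvd_right (relIndex_dvd_left aQ))
  obtain ⟨L, hL, hQL, hsup, hc⟩ := H1.exists_complement_le hQH.norm
    (by rw [inf_eq_left.2 hQH.le]; exact hQ'.coprime)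
  rw [inf_eq_left.2 hQH.le] at hsup
  obtain ⟨S, hS⟩ := exists_sylow hp (N(Q) ⊓ N(L))
  have hKn : ∀ A : Subgroup G, A ≤ N(K) := fun _ => norm_of_normal
  refine ⟨S, (H1.isComplement'_iff_of_normal.mpr ⟨?_, ?_⟩).symm⟩
  · have h4 : K ⊓ S ≤ Q := hQ'.le_of_nml hQH.norm
      (inf_le_inf_left _ (hS.le.trans inf_le_left)) hS.pi.inf_right
    have h5 : K ⊓ S ≤ C(L) := by
      rw [← comm_eq_bot_iff, eq_bot_iff, ← hQL]
      exact le_inf ((comm_mono h4 le_rfl).trans (comm_le_left (hL.trans inf_le_right)))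
        (comm_le_right (inf_le_right.trans (hS.le.trans inf_le_right)))
    rw [eq_bot_iff, ← h3]
    exact le_inf (h4.trans h2) (by rw [← hsup]; exact cent_sup (h4.trans aQ) h5)
  · have h6 : N(Q) ≤ K ⊔ (N(Q) ⊓ N(L)) := by
      intro g hg
      have hgH : cj g L ≤ Q ⊔ L := by
        rw [hsup]; exact cj_le_of_mem_N hL (norm_inf (hKn _) le_N hg)
      obtain ⟨n, hn, e⟩ := H1.exists_conj_le_of_le_sup Q (cj g L) L (hL.trans inf_le_right)
        (by rw [card_cj, hc]; exact hQ'.coprime) (Or.inl aQ.solv) hgH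
      have e' : cj (n * g) L ≤ L := by rw [cj_mul]; exact e
      have := mul_mem_sup (inv_mem (hQ.le hn)) (show n * g ∈ N(Q) ⊓ N(L) from
        ⟨mul_mem (le_N hn) hg, mem_N_of_cj_le e'⟩)
      rwa [inv_mul_cancel_left] at this
    have h7 : N(Q) ⊓ N(L) ≤ K ⊔ S := by
      rw [← H3.map_subtype_pResidual_sup_eq hS.le ((piNat_compl_iff hp).1 hS.idx)]
      exact sup_le_sup_right (H3.map_subtype_pResidual_le_pResidual _) _
    rw [eq_top_iff, ← frattini_arg hp (nml_top (K := K)) hQ]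
    exact sup_le le_sup_left (inf_le_right.trans (h6.trans (sup_le le_sup_left h7)))

end Cfsg.Agent.S0092
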