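import Cfsg.Statements.S0094
import Cfsg.Agent.H21.Extra
import Cfsg.Agent.H1.Basic

set_option autoImplicit false
open Cfsg

namespace Cfsg.Agent.S0094

open scoped commutatorElement

/-- In a special p-group every central element has order dividing p. -/
theorem result {P : Type*} [Group P] [Finite P] {p : ℕ} [Fact p.Prime] (h : Cfsg.IsSpecial p P) (z : P) (hz : z ∈ Subgroup.center P) : z ^ p = 1 := by
  have hp : p.Prime := Fact.out
  have h1 : commutator P ≤ H1.powKer (Subgroup.center P) p := by
    rw [commutator_def, Subgroup.commutator_le]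
    intro x _ y _
    have hc : ∀ x y : P, ⁅x, y⁆ ∈ Subgroup.center P := fun x y =>
      h.2.2 ▸ Subgroup.commutator_mem_commutator (Subgroup.mem_top x) (Subgroup.mem_top y)
    refine H1.mem_powKer.2 ⟨hc x y, ?_⟩
    rw [← H21.comm_pow_right (Subgroup.mem_center_iff.1 (hc x y) y), commutatorElement_eq_one_iff_mul_comm]
    exact Subgroup.mem_center_iff.1 (h.2.1 ▸ H3.pow_mem_frattini h.1 y) x
  exact (H1.mem_powKer.1 (h1 (h.2.2 ▸ hz))).2

end Cfsg.Agent.S0094
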