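import Cfsg.Statements.S0096
import Cfsg.Agent.H21.Extra

set_option autoImplicit false
open Cfsg

namespace Cfsg.Agent.S0096

open scoped commutatorElement

open H18 in
theorem aux {P : Type*} [Group P] {p : ℕ} (hp : Odd p) (h2 : ⁅commutator P, (⊤ : Subgroup P)⁆ = ⊥) (x y : P)
    (hx : x ^ p = 1) (hy : y ^ p = 1) : (x * y) ^ p = 1 := by
  have hc : ∀ g : P, Commute g ⁅y, x⁆ := fun g => (comm_of_cent (comm_eq_bot_iff.1 h2)
    (Subgroup.commutator_mem_commutator (Subgroup.mem_top y) (Subgroup.mem_top x)) (Subgroup.mem_top g)).symm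
  obtain ⟨k, rfl⟩ := hp
  rw [H21.mul_pow_class_two (hc x) (hc y), hx, hy, Nat.choose_two_right, Nat.add_sub_cancel,
    Nat.mul_div_assoc _ (dvd_mul_right 2 k), pow_mul, ← H21.comm_pow_left (hc y), hy]
  simp

/-- For odd p, in a p-group of class at most two the elements of order dividing p generate a subgroup of exponent dividing p. -/
theorem result {P : Type*} [Group P] [Finite P] {p : ℕ} [Fact p.Prime] (hp : p ≠ 2) (hP : IsPGroup p P) (h2 : ⁅commutator P, (⊤ : Subgroup P)⁆ = ⊥) (g : P) (hg : g ∈ Subgroup.closure {x : P | x ^ p = 1}) : g ^ p = 1 := by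
  have hp' : p.Prime := Fact.out
  rw [← H3.ohm_top] at hg
  exact H3.ohm_pow_of_mul (fun x _ y _ => aux (hp'.odd_of_ne_two hp) h2 x y) g hg

end Cfsg.Agent.S0096
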