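import Cfsg.Statements.S0097
import Cfsg.Agent.H21.Extra
import Cfsg.Agent.S0096

set_option autoImplicit false
open Cfsg

namespace Cfsg.Agent.S0097

open scoped commutatorElement

/-- For odd p and E extraspecial, the subgroup generated by the elements of order dividing p has exponent dividing p and index at most p. -/
theorem result {E : Type*} [Group E] [Finite E] {p : ℕ} [Fact p.Prime] (hp : p ≠ 2) (h : Cfsg.IsExtraspecial p E) : (Subgroup.closure {x : E | x ^ p = 1}).index ≤ p ∧ ∀ g ∈ Subgroup.closure {x : E | x ^ p = 1}, g ^ p = 1 := by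
  have hp' : p.Prime := Fact.out
  obtain ⟨h1, h2⟩ := (H21.isExtraspecial_iff_top hp').1 h
  have h3 : ⁅commutator E, (⊤ : Subgroup E)⁆ = ⊥ := H18.comm_eq_bot_iff.2 h1.der
  refine ⟨?_, S0096.result hp h.1.1 h3⟩
  let f : E →* E := MonoidHom.mk' (fun x => x ^ p) fun x y => by
    have hc : ∀ g : E, Commute g ⁅y, x⁆ := fun g => h1.commute (Subgroup.mem_top _) (Subgroup.mem_top _) (Subgroup.mem_top _)
    obtain ⟨k, hk⟩ := hp'.odd_of_ne_two hp
    have e : p.choose 2 = p * k := by
      rw [Nat.choose_two_right, show p - 1 = 2 * k by omega, Nat.mul_div_assoc _ (dvd_mul_right 2 k),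
        Nat.mul_div_cancel_left _ two_pos]
    rw [H21.mul_pow_class_two (hc x) (hc y), e, pow_mul, h1.pow_Z (h1.comm_mem (Subgroup.mem_top _) (Subgroup.mem_top _)),
      one_pow, mul_one]
  have e : Subgroup.closure {x : E | x ^ p = 1} = f.ker := Subgroup.closure_eq f.ker
  rw [e, Subgroup.index_ker, ← h1.card]
  exact H18.card_le (by rintro _ ⟨x, rfl⟩; exact h1.pow_mem (Subgroup.mem_top x))

end Cfsg.Agent.S0097
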