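import Cfsg.Statements.S0098
import Cfsg.Agent.H21.ExtraClass

set_option autoImplicit false
open Cfsg

namespace Cfsg.Agent.S0098

/-- For odd p, extraspecial p-groups of exponent p are determined up to isomorphism by their order. -/
theorem result {E₁ : Type*} {E₂ : Type*} [Group E₁] [Group E₂] [Finite E₁] [Finite E₂] {p : ℕ} [Fact p.Prime] (hp : p ≠ 2) (h₁ : Cfsg.IsExtraspecial p E₁) (h₂ : Cfsg.IsExtraspecial p E₂) (he₁ : Monoid.exponent E₁ = p) (he₂ : Monoid.exponent E₂ = p) (hc : Nat.card E₁ = Nat.card E₂) : Nonempty (E₁ ≃* E₂) := by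
  have hp : p.Prime := Fact.out
  obtain ⟨h1, -⟩ := (H21.isExtraspecial_iff_top hp).1 h₁
  obtain ⟨h2, -⟩ := (H21.isExtraspecial_iff_top hp).1 h₂
  obtain ⟨n, hn⟩ := h1.exists_card hp
  obtain ⟨z, hz, hz1⟩ := h1.exists_gen hp
  obtain ⟨z', hz', hz1'⟩ := h2.exists_gen hp
  obtain ⟨M, hM, -⟩ := H21.ES.exists_gr_of_exp hp hz1 hz1' n h1 h2 (fun x _ => he₁ ▸ Monoid.pow_exponent_eq_one x)
    (fun x _ => he₂ ▸ Monoid.pow_exponent_eq_one x) hn (by rw [Subgroup.card_top, ← hc, ← hn, Subgroup.card_top]) hz hz'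
  exact hM.nonempty_top

end Cfsg.Agent.S0098
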