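import Cfsg.Statements.S0099
import Cfsg.Agent.H21.ExtraClass

set_option autoImplicit false
open Cfsg

namespace Cfsg.Agent.S0099

/-- Among three extraspecial 2-groups of equal order, some two are isomorphic. -/
theorem result {E₁ : Type*} {E₂ : Type*} {E₃ : Type*} [Group E₁] [Group E₂] [Group E₃] [Finite E₁] [Finite E₂] [Finite E₃] (h₁ : Cfsg.IsExtraspecial 2 E₁) (h₂ : Cfsg.IsExtraspecial 2 E₂) (h₃ : Cfsg.IsExtraspecial 2 E₃) (h12 : Nat.card E₁ = Nat.card E₂) (h23 : Nat.card E₂ = Nat.card E₃) : Nonempty (E₁ ≃* E₂) ∨ Nonempty (E₂ ≃* E₃) ∨ Nonempty (E₁ ≃* E₃) := by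
  have hp := Nat.prime_two
  obtain ⟨h1, -⟩ := (H21.isExtraspecial_iff_top hp).1 h₁
  obtain ⟨h2, -⟩ := (H21.isExtraspecial_iff_top hp).1 h₂
  obtain ⟨h3, -⟩ := (H21.isExtraspecial_iff_top hp).1 h₃
  obtain ⟨n, hn⟩ := h1.exists_card hp
  have e1 := h1.ssum_eq hn
  have e2 := h2.ssum_eq (n := n) (by rw [Subgroup.card_top, ← h12, ← hn, Subgroup.card_top])
  have e3 := h3.ssum_eq (n := n) (by rw [Subgroup.card_top, ← h23, ← h12, ← hn, Subgroup.card_top])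
  by_cases k1 : H21.ssum (⊤ : Subgroup E₁) = H21.ssum (⊤ : Subgroup E₂)
  · exact Or.inl (H21.nonempty_equiv_of_ssum h1 h2 h12 k1)
  by_cases k2 : H21.ssum (⊤ : Subgroup E₂) = H21.ssum (⊤ : Subgroup E₃)
  · exact Or.inr (Or.inl (H21.nonempty_equiv_of_ssum h2 h3 h23 k2))
  exact Or.inr (Or.inr (H21.nonempty_equiv_of_ssum h1 h3 (h12.trans h23) (by omega)))

end Cfsg.Agent.S0099
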