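import Cfsg.Statements.S0104
import Cfsg.Agent.H3.Frobenius

set_option autoImplicit false
open Cfsg

namespace Cfsg.Agent.S0104

/-- A subgroup Z of a Sylow p-subgroup P that is normalized by N_G(P) is weakly closed in P exactly when it is normal in every Sylow p-subgroup containing it. -/
theorem result {G : Type*} [Group G] [Finite G] {p : ℕ} [Fact p.Prime] (P : Sylow p G) (Z : Subgroup G) (hZP : Z ≤ (P : Subgroup G)) (hZN : Subgroup.normalizer (P : Set G) ≤ Subgroup.normalizer (Z : Set G)) : Cfsg.IsWeaklyClosed Z P ↔ ∀ R : Sylow p G, Z ≤ (R : Subgroup G) → (R : Subgroup G) ≤ Subgroup.normalizer (Z : Set G) := by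
  constructor
  · intro hW R hR
    obtain ⟨g, rfl⟩ := MulAction.exists_smul_eq G P R
    have h1 : g⁻¹ ∈ Subgroup.normalizer (Z : Set G) :=
      (H3.isWeaklyClosed_iff.mp hW).2 _ fun x hx => by
        rw [inv_inv]; exact H3.mem_sylow_smul_iff.mp (hR hx)
    intro x hx
    have h2 := hZN (Subgroup.le_normalizer (H3.mem_sylow_smul_iff.mp hx))
    have := mul_mem (mul_mem (inv_mem h1) h2) h1
    simpa [mul_assoc] using this
  · intro h
    refine H3.isWeaklyClosed_iff.mpr ⟨hZP, fun g hg => ?_⟩
    obtain ⟨n, hn, k, hk, rfl⟩ := H3.exists_normalizer_mul_of_sylow_le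
      (H := Subgroup.normalizer (Z : Set G)) P (g := g) (h P hZP) fun x hx =>
        h (g⁻¹ • P) (fun z hz => H3.mem_sylow_smul_iff.mpr (by rw [inv_inv]; exact hg z hz))
          (H3.mem_sylow_smul_iff.mpr (by
            have hx' : x ∈ P := hx
            simpa [mul_assoc] using hx'))
    exact mul_mem (hZN hn) hk

end Cfsg.Agent.S0104
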