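import Cfsg.Statements.S0105
import Cfsg.Agent.H3.HallTransfer

set_option autoImplicit false
open Cfsg

namespace Cfsg.Agent.S0105

/-- With an abelian Sylow p-subgroup P, some quotient of G is isomorphic to the part of P central in N_G(P). -/
theorem result {G : Type*} [Group G] [Finite G] {p : ℕ} [Fact p.Prime] (P : Sylow p G) (hP : IsMulCommutative P) : ∃ (N : Subgroup G) (hN : N.Normal), Nonempty (G ⧸ N ≃* ((P : Subgroup G) ⊓ Subgroup.centralizer (Subgroup.normalizer (P : Set G) : Set G) : Subgroup G)) := by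
  obtain ⟨h1, h2, h3⟩ := H3.focal_of_coprime_index (P : Subgroup G)
    (P.card_coprime_index.symm.coprime_dvd_right (Subgroup.relIndex_dvd_card _ _))
  rw [h3, H3.commutator_inf_abelian_sylow] at h1
  have hco := H3.coprime_card_relIndex_centralizer P.card_coprime_index
    (Subgroup.le_normalizer (H := (P : Subgroup G)))
  have h4 := H3.fitting_inf_eq_bot le_rfl hco
  have h5 := H3.fitting_sup_eq le_rfl hco
  refine ⟨_, (inferInstance : (P : Subgroup G).transferFocal.ker.Normal),
    ⟨(H1.isComplement'_iff_of_normal.mpr ⟨?_, ?_⟩).symm.QuotientMulEquiv⟩⟩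
  · rw [← inf_assoc, h1]
    exact h4
  · rw [eq_top_iff, ← h2]
    refine sup_le le_sup_left (h5.ge.trans (sup_le_sup_right ?_ _))
    exact h1.ge.trans inf_le_left

end Cfsg.Agent.S0105
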