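import Cfsg.Statements.S0107
import Cfsg.Agent.H3.HallTransfer
import Cfsg.Agent.H18.Nil

set_option autoImplicit false
open Cfsg

namespace Cfsg.Agent.S0107

/-- A finite group with no nontrivial 2-group quotient and dihedral Sylow 2-subgroups of order at least 8 has a single class of involutions. -/
theorem result {G : Type*} [Group G] [Finite G] (T : Sylow 2 G) (n : ℕ) (hn : 2 ≤ n) (hT : Nonempty ((T : Subgroup G) ≃* DihedralGroup (2 ^ n))) (hO : Cfsg.pResidual 2 G = ⊤) (x y : G) (hx : orderOf x = 2) (hy : orderOf y = 2) : ∃ g : G, g * x * g⁻¹ = y := by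
  open Subgroup H18 in
  obtain ⟨e⟩ := hT
  set c : G := Subtype.val (e.symm (DihedralGroup.r 1)) with hc
  have hcT : zpowers c ≤ (T : Subgroup G) := zpowers_le.2 (Subtype.prop _)
  have ho : orderOf c = 2 ^ n := by
    rw [hc, orderOf_coe, MulEquiv.orderOf_eq, DihedralGroup.orderOf_r_one]
  have hi : (zpowers c).relIndex (T : Subgroup G) = 2 := relIndex_eq_of_mul hcT (by
    rw [Nat.card_congr e.toEquiv, DihedralGroup.nat_card, card_zpowers', ho, mul_comm])
  have key : ∀ u : G, orderOf u = 2 → ∃ g : G, g * u * g⁻¹ = c ^ 2 ^ (n - 1) := by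
    intro u hu
    obtain ⟨g, hg⟩ := H3.exists_conj_mem_sylow' T (Q := zpowers u)
      (IsPGroup.of_card (n := 1) (by rw [card_zpowers', hu]; rfl))
    replace hg := hg u (mem_zpowers u)
    have hu' : orderOf (g * u * g⁻¹) = 2 := by rw [orderOf_conj, hu]
    have : ∃ k : G, k * (g * u * g⁻¹) * k⁻¹ ∈ zpowers c := by
      by_contra hcon
      obtain ⟨M, hM, hMi, hMu⟩ := H3.thompson_transfer T.not_dvd_index hi
        (hu' ▸ pow_orderOf_eq_one _) hg (not_exists.mp hcon)
      exact hMu (H3.pResidual_le_of_index_eq_pow M (k := 1) hMi (hO.ge (mem_top _)))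
    obtain ⟨k, hk⟩ := this
    refine ⟨k * g, ?_⟩
    have e1 : k * g * u * (k * g)⁻¹ = k * (g * u * g⁻¹) * k⁻¹ := by group
    have h2 : orderOf (k * (g * u * g⁻¹) * k⁻¹) = 2 := by rw [orderOf_conj, hu']
    rw [e1]
    generalize k * (g * u * g⁻¹) * k⁻¹ = w at hk h2
    obtain ⟨m, hm, rfl⟩ : ∃ m < orderOf c, c ^ m = w := by
      classical
      have := mem_zpowers_iff_mem_range_orderOf.1 hk
      simpa using this
    have h3 : orderOf c ∣ m * 2 := by
      rw [orderOf_dvd_iff_pow_eq_one, pow_mul, ← h2, pow_orderOf_eq_one]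
    obtain ⟨n, rfl⟩ : ∃ k, n = k + 1 := ⟨n - 1, by omega⟩
    rw [ho, pow_succ] at h3 hm
    obtain ⟨j, rfl⟩ := Nat.dvd_of_mul_dvd_mul_right two_pos h3
    have hj : j < 2 := lt_of_mul_lt_mul_left hm (Nat.zero_le _)
    interval_cases j
    · simp at h2
    · simp
  obtain ⟨g, hg⟩ := key x hx
  obtain ⟨k, hk⟩ := key y hy
  exact ⟨k⁻¹ * g, by rw [mul_inv_rev, inv_inv, mul_assoc k⁻¹, mul_assoc k⁻¹, ← mul_assoc (g * x), hg, ← hk]; group⟩

end Cfsg.Agent.S0107
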