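import Cfsg.Statements.S0109
import Cfsg.Agent.H4.Factor

set_option autoImplicit false
open Cfsg

namespace Cfsg.Agent.S0109

open Subgroup H26 H4


/-- The Thompson factorization Theorem for solvable groups states that, with p odd (and abelian Sylow 2-subgroups when p = 3) and no nontrivial normal subgroup of order prime to p, every element of G is a product of an element normalizing J(P) and an element centralizing the elements of order dividing p in the centre of P. -/
theorem result {G : Type*} [Group G] [Finite G] {p : ℕ} [Fact p.Prime] (hp : p ≠ 2) (hs : Group.IsSolvable G) (h3 : p = 3 → ∀ T : Sylow 2 G, IsMulCommutative T) (hF : ∀ N : Subgroup G, N.Normal → Nat.Coprime (Nat.card N) p → N = ⊥) (P : Sylow p G) (g : G) : ∃ a ∈ Subgroup.normalizer (Cfsg.thompsonSubgroupOf p (P : Subgroup G) : Set G), ∃ c ∈ Subgroup.centralizer {x : G | x ∈ (P : Subgroup G) ∧ (∀ y ∈ (P : Subgroup G), x * y = y * x) ∧ x ^ p = 1}, g = a * c := by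
  have hs' : PSol p (⊤ : Subgroup G) := pSol_top_of_solvable
  have h1 : ¬ Sec (Matrix.SpecialLinearGroup (Fin 2) (ZMod p)) (⊤ : Subgroup G) := fun h => by
    obtain ⟨T⟩ : Nonempty (Sylow 2 G) := inferInstance
    exact not_sec_SL2_of_comm hp (comm_of_isSyl (isSyl_top T) (h3 (hs'.eq_three_of_sec hp h) T)) h
  obtain ⟨c, hc, h⟩ := exists_mul_mem_normalizer_thompsonOf (isSyl_top P)
    (le_normalizer_centralizer (le_normalizer_ncl _ _)) (thompsonOf_le_centralizer_ncl (Or.inr rfl) (isSyl_top P)
      (hs'.charPOf (by rw [H17.oQ_top]; exact hF _ inferInstance (H1.coprime_card_pPrimeCore p G)))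
        (pStab_of_not_sec_SL2 hp h1)) (mem_top g⁻¹)
  refine ⟨_, inv_mem h, c, fun x hx => hc.2 x (le_ncl _ _ (mem_omegaOne ⟨hx.1, fun y hy => (hx.2.1 y hy).symm⟩
    hx.2.2)), by group⟩

end Cfsg.Agent.S0109
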