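import Cfsg.Statements.S0110
import Cfsg.Agent.H21.Extra

set_option autoImplicit false
open Cfsg

namespace Cfsg.Agent.S0110

/-- In a p-group G, an extraspecial subgroup E with [G, E] ≤ Z(E) satisfies G = E C_G(E). -/
theorem result {G : Type*} [Group G] [Finite G] {p : ℕ} [Fact p.Prime] (hG : IsPGroup p G) (E : Subgroup G) (hE : Cfsg.IsExtraspecial p E) (h : ⁅(⊤ : Subgroup G), E⁆ ≤ E ⊓ Subgroup.centralizer (E : Set G)) : E ⊔ Subgroup.centralizer (E : Set G) = ⊤ := by
  have hp : p.Prime := Fact.out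
  obtain ⟨h1, h2⟩ := (H21.isExtraspecial_iff hp).1 hE
  simpa using h1.sup_cent hp h2 le_top h

end Cfsg.Agent.S0110
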