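import Cfsg.Statements.S0113
import Cfsg.Agent.H9.MaxClass

set_option autoImplicit false
open Cfsg

namespace Cfsg.Agent.S0113

/-- A 2-group of maximal class contains a cyclic subgroup of index 2. -/
theorem result {X : Type*} [Group X] [Finite X] (n : ℕ) (hn : 3 ≤ n) (hX : Nat.card X = 2 ^ n) (hc : Group.nilpotencyClass X = n - 1) : ∃ C : Subgroup X, IsCyclic C ∧ C.index = 2 := by
  obtain ⟨m, rfl⟩ : ∃ m, n = m + 3 := ⟨n - 3, by omega⟩
  have := (IsPGroup.of_card hX).isNilpotent
  obtain ⟨x, h⟩ := H9.mc_of_lcs_ne_bot (P := (⊤ : Subgroup X)) (Subgroup.card_top.trans hX) fun h => by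
    have := Subgroup.lowerCentralSeries_eq_bot_iff_nilpotencyClass_le.1 h
    omega
  exact ⟨_, inferInstance, (Subgroup.relIndex_top_right _).symm.trans h.idx⟩

end Cfsg.Agent.S0113
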