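import Cfsg.Statements.S0114
import Cfsg.Agent.H3.MaxCl

set_option autoImplicit false
open Cfsg

namespace Cfsg.Agent.S0114

/-- The central quotient of a 2-group of maximal class is dihedral. -/
theorem result {X : Type*} [Group X] [Finite X] (n : ℕ) (hn : 3 ≤ n) (hX : Nat.card X = 2 ^ n) (hc : Group.nilpotencyClass X = n - 1) : Nonempty (X ⧸ Subgroup.center X ≃* DihedralGroup (2 ^ (n - 2))) := by
  obtain ⟨k, rfl⟩ := Nat.exists_eq_add_of_le' hn
  obtain ⟨x, h⟩ := (H3.mx_top Nat.prime_two hn hX hc).mc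
  obtain ⟨e⟩ := H3.mc_map_dihedral h (QuotientGroup.mk' (Subgroup.center X)) fun g _ => by
    rw [← h.inf_centralizer, top_inf_eq, Subgroup.coe_top, Subgroup.centralizer_univ]
    exact QuotientGroup.eq_one_iff g
  rw [Subgroup.map_top_of_surjective _ (QuotientGroup.mk'_surjective _)] at e
  exact ⟨Subgroup.topEquiv.symm.trans e⟩

end Cfsg.Agent.S0114
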