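import Cfsg.Statements.S0115
import Cfsg.Agent.H3.MaxCl

set_option autoImplicit false
open Cfsg

namespace Cfsg.Agent.S0115

/-- A 2-group of order 2^n, n ≥ 3, is of maximal class exactly when its commutator quotient is a Klein four-group. -/
theorem result {X : Type*} [Group X] [Finite X] (n : ℕ) (hn : 3 ≤ n) (hX : Nat.card X = 2 ^ n) : Group.nilpotencyClass X = n - 1 ↔ IsKleinFour (X ⧸ commutator X) := by
  refine ⟨fun hc => ?_, fun h => ?_⟩
  · have h := H3.mx_top Nat.prime_two hn hX hc
    obtain ⟨k, rfl⟩ := Nat.exists_eq_add_of_le' hn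
    obtain ⟨x, h1⟩ := h.mc
    have h2 : Nat.card (X ⧸ commutator X) = 4 :=
      (Subgroup.relIndex_top_right _).symm.trans h.relIndex_der
    have := Finite.one_lt_card_iff_nontrivial.1 (h2 ▸ by norm_num : 1 < Nat.card (X ⧸ commutator X))
    refine ⟨h2, (Monoid.exponent_eq_prime_iff Nat.prime_two).2 fun g hg => ?_⟩
    have := Fact.mk Nat.prime_two
    refine orderOf_eq_prime ?_ hg
    obtain ⟨g, rfl⟩ := QuotientGroup.mk_surjective g
    rw [← QuotientGroup.mk_pow, QuotientGroup.eq_one_iff, commutator_def, h1.commutator_eq, pow_two g]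
    exact h1.sq_mem_sq (Subgroup.mem_top g)
  · have := Fact.mk Nat.prime_two
    obtain ⟨k, x, h1⟩ := H9.taussky X (IsPGroup.of_card hX) h.card_four fun hc => by
      have h2 := h.card_four
      rw [← Subgroup.index_eq_card, H9.commutator_eq_bot_of_comm hc, Subgroup.index_bot, hX] at h2
      have := Nat.pow_le_pow_right two_pos hn
      omega
    have h2 := h1.card_eq
    rw [Subgroup.card_top, hX] at h2
    rw [Nat.pow_right_injective le_rfl h2]
    exact (H3.mx_of_mc h1).class_eq

end Cfsg.Agent.S0115
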