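import Cfsg.Statements.S0116
import Cfsg.Agent.H3.Alperin

set_option autoImplicit false
open Cfsg

namespace Cfsg.Agent.S0116

/-- The Alperin fusion Theorem states that conjugation between subsets of a Sylow p-subgroup P factors through normalizers of tame intersections P ∩ Q_i with other Sylow p-subgroups, carrying the subset along step by step. -/
theorem result {G : Type*} [Group G] [Finite G] {p : ℕ} [Fact p.Prime] (P : Sylow p G) (A : Set G) (g : G) (hA : A ⊆ (P : Set G)) (hAg : (fun a => g⁻¹ * a * g) '' A ⊆ (P : Set G)) : ∃ (n : ℕ) (Q : Fin n → Sylow p G) (x : Fin n → G), (List.ofFn x).prod = g ∧ (∀ i : Fin n, x i ∈ Subgroup.normalizer ((((P : Subgroup G) ⊓ (Q i : Subgroup G)) : Subgroup G) : Set G) ∧ ¬ p ∣ ((P : Subgroup G) ⊓ Subgroup.normalizer ((((P : Subgroup G) ⊓ (Q i : Subgroup G)) : Subgroup G) : Set G)).relIndex (Subgroup.normalizer ((((P : Subgroup G) ⊓ (Q i : Subgroup G)) : Subgroup G) : Set G)) ∧ ¬ p ∣ ((Q i : Subgroup G) ⊓ Subgroup.normalizer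 ((((P : Subgroup G) ⊓ (Q i : Subgroup G)) : Subgroup G) : Set G)).relIndex (Subgroup.normalizer ((((P : Subgroup G) ⊓ (Q i : Subgroup G)) : Subgroup G) : Set G))) ∧ (∀ h : 0 < n, A ⊆ (((P : Subgroup G) ⊓ (Q ⟨0, h⟩ : Subgroup G) : Subgroup G) : Set G)) ∧ ∀ i : Fin n, ∀ h : i.val + 1 < n, (fun a => (((List.ofFn x).take (i.val + 1)).prod)⁻¹ * a * ((List.ofFn x).take (i.val + 1)).prod) '' A ⊆ (((P : Subgroup G) ⊓ (Q ⟨i.val + 1, h⟩ : Subgroup G) : Subgroup G) : Set G) := by
  have := H3.alperin_induction P (fun A g => ∃ L : List (Sylow p G × G),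
      (L.map Prod.snd).prod = g ∧
      (∀ y ∈ L, y.2 ∈ Subgroup.normalizer ((((P : Subgroup G) ⊓ (y.1 : Subgroup G)) : Subgroup G) : Set G) ∧ ¬ p ∣ ((P : Subgroup G) ⊓ Subgroup.normalizer ((((P : Subgroup G) ⊓ (y.1 : Subgroup G)) : Subgroup G) : Set G)).relIndex (Subgroup.normalizer ((((P : Subgroup G) ⊓ (y.1 : Subgroup G)) : Subgroup G) : Set G)) ∧ ¬ p ∣ ((y.1 : Subgroup G) ⊓ Subgroup.normalizer ((((P : Subgroup G) ⊓ (y.1 : Subgroup G)) : Subgroup G) : Set G)).relIndex (Subgroup.normalizer ((((P : Subgroup G) ⊓ (y.1 : Subgroup G)) : Subgroup G) : Set G))) ∧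
      ∀ (i : ℕ) (hi : i < L.length), ∀ a ∈ A, (((L.map Prod.snd).take i).prod)⁻¹ * a *
        ((L.map Prod.snd).take i).prod ∈ (P : Subgroup G) ⊓ (L[i].1 : Subgroup G))
    (fun A B g hAB ⟨L, h1, h2, h3⟩ => ⟨L, h1, h2, fun i hi a ha => h3 i hi a (hAB ha)⟩)
    (fun A B g h hAB ⟨L, h1, h2, h3⟩ ⟨M, m1, m2, m3⟩ => ⟨L ++ M, by simp [h1, m1],
      fun y hy => (List.mem_append.mp hy).elim (h2 y) (m2 y), fun i hi a ha => by
        by_cases hiL : i < L.length
        · rw [List.getElem_append_left hiL, List.map_append,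
            List.take_append_of_le_length (by simpa using hiL.le)]
          exact h3 i hiL a ha
        · have hiL' : L.length ≤ i := not_lt.mp hiL
          rw [List.getElem_append_right hiL', List.map_append, List.take_append, List.prod_append,
            List.take_of_length_le (by simpa using hiL'), h1, List.length_map]
          have := m3 (i - L.length) (by simp at hi; omega) _ (hAB a ha)
          simpa [mul_assoc] using this⟩)
    (fun Q D hD h1 h2 x hx => ⟨[(Q, x)], by simp, by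
      intro y hy
      rw [List.mem_singleton.mp hy, ← hD]
      exact ⟨hx, h1.not_dvd, h2.not_dvd⟩, fun i hi a ha => by
        have : i = 0 := by simpa using hi
        subst this
        simpa [hD] using ha⟩)
    ((P : Subgroup G) ⊓ (g • P : Sylow p G)) inf_le_left g
    fun a ha => H3.mem_sylow_smul_iff.mp ha.2
  obtain ⟨L, h1, h2, h3⟩ := this
  have hA' : ∀ a ∈ A, a ∈ (P : Subgroup G) ⊓ (g • P : Sylow p G) := fun a ha =>
    ⟨hA ha, H3.mem_sylow_smul_iff.mpr (hAg ⟨a, ha, rfl⟩)⟩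
  have e : List.ofFn (fun i : Fin L.length => L[i].2) = L.map Prod.snd := by
    apply List.ext_getElem <;> simp
  refine ⟨L.length, fun i => L[i].1, fun i => L[i].2, by rw [e, h1],
    fun i => h2 _ (List.getElem_mem i.2), fun h a ha => ?_, fun i h => ?_⟩
  · have := h3 0 h a (hA' a ha)
    rwa [List.take_zero, List.prod_nil, inv_one, one_mul, mul_one] at this
  · rintro _ ⟨a, ha, rfl⟩
    rw [e]
    exact h3 (i + 1) h a (hA' a ha)

end Cfsg.Agent.S0116
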