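import Cfsg.Statements.S0118
import Cfsg.Agent.H4.Factor

set_option autoImplicit false
open Cfsg

namespace Cfsg.Agent.S0118

open Subgroup H26 H4


/-- Glauberman's ZJ-Theorem, in the case of groups with no section isomorphic to SL(2,p), p odd: conjugation of subsets of a Sylow p-subgroup P inside P is always induced from the normalizer of Z(J(P)). -/
theorem result {G : Type*} [Group G] [Finite G] {p : ℕ} [Fact p.Prime] (hp : p ≠ 2) (hfree : ¬ ∃ (H K : Subgroup G) (hK : (K.subgroupOf H).Normal), Nonempty ((H ⧸ K.subgroupOf H) ≃* Matrix.SpecialLinearGroup (Fin 2) (ZMod p))) (P : Sylow p G) (A : Set G) (hA : A ⊆ (P : Set G)) (g : G) (hAg : (fun a => g⁻¹ * a * g) '' A ⊆ (P : Set G)) : ∃ n ∈ Subgroup.normalizer (Cfsg.centerThompsonOf p (P : Subgroup G) : Set G), ∀ a ∈ A, n⁻¹ * a * n = g⁻¹ * a * g := by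
  obtain ⟨n, hn, c, hc, e⟩ := ctl_ZJ_of_not_sec_qd hp (Or.inr rfl) (isSyl_top P)
    (not_sec_qd_of_SL2 fun h => hfree (involves_iff.2 h)) (closure A) g⁻¹ ((closure_le _).2 hA) trivial (by
      rw [MonoidHom.map_closure, closure_le]
      rintro _ ⟨a, ha, rfl⟩
      simpa using hAg ⟨a, ha, rfl⟩)
  refine ⟨n⁻¹, inv_mem hn, fun a ha => ?_⟩
  rw [← inv_inv g, e, ← mem_centralizer_iff'.1 hc a (subset_closure ha)]
  have := mem_centralizer_iff'.1 hc a (subset_closure ha)
  simp only [inv_inv, mul_inv_rev]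
  calc n * (c * a * c⁻¹) * n⁻¹ = n * (c * (c * a * c⁻¹) * c⁻¹) * n⁻¹ := by rw [this, this]
    _ = _ := by group

end Cfsg.Agent.S0118
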