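import Cfsg.Statements.S0119
import Cfsg.Agent.H4.Critical

set_option autoImplicit false
open Cfsg

namespace Cfsg.Agent.S0119

open Subgroup H26 H4
open scoped commutatorElement


/-- If a p'-group A of automorphisms of a p-group G satisfies G = [G, A] and acts trivially on every characteristic abelian subgroup, then G is special with centre equal to the fixed points of A. -/
theorem result {G : Type*} [Group G] [Finite G] {p : ℕ} [Fact p.Prime] (hG : IsPGroup p G) (A : Subgroup (MulAut G)) (hA : Nat.Coprime (Nat.card A) p) (hGA : Subgroup.closure {x : G | ∃ g : G, ∃ a ∈ A, x = g⁻¹ * a g} = ⊤) (hchar : ∀ H : Subgroup G, H.Characteristic → IsMulCommutative H → ∀ a ∈ A, ∀ h ∈ H, a h = h) : Cfsg.IsSpecial p G ∧ (∀ g : G, (g ∈ Subgroup.center G ↔ ∀ a ∈ A, a g = g)) := by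
  classical
  have h1 : ∀ H : Subgroup G, H.Characteristic → IsMulCommutative H → H ≤ center G := by
    intro H hH hc h hh
    have : closure {x : G | ∃ g : G, ∃ a ∈ A, x = g⁻¹ * a g} ≤ centralizer {h} := by
      rw [closure_le]
      rintro _ ⟨g, a, ha, rfl⟩
      have e := hchar H hH hc a ha _ ((inferInstance : H.Normal).conj_mem h hh g)
      rw [map_mul, map_mul, map_inv, hchar H hH hc a ha h hh] at e
      refine mem_centralizer_singleton_iff.2 ?_
      calc g⁻¹ * a g * h = g⁻¹ * (a g * h * (a g)⁻¹) * a g := by group
        _ = h * (g⁻¹ * a g) := by rw [e]; group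
    rw [hGA] at this
    exact mem_center_iff.2 fun g => mem_centralizer_singleton_iff.1 (this (mem_top g))
  have h2 : ∀ x : G, (∀ a ∈ A, a x = x) → x ∈ commutator G := by
    intro x hx
    haveI := Fintype.ofFinite A
    let φ : G →* Abelianization G :=
      { toFun := fun g => ∏ a : A, Abelianization.of ((a : MulAut G) g)
        map_one' := by simp
        map_mul' := fun g h => by simp [Finset.prod_mul_distrib] }
    have hφ : closure {x : G | ∃ g : G, ∃ a ∈ A, x = g⁻¹ * a g} ≤ φ.ker := by
      rw [closure_le]
      rintro _ ⟨g, a, ha, rfl⟩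
      change φ _ = 1
      rw [map_mul, map_inv, inv_mul_eq_one]
      exact (Fintype.prod_equiv (Equiv.mulRight (⟨a, ha⟩ : A)) _ _ fun b => rfl).symm
    rw [hGA] at hφ
    have e : Abelianization.of x ^ Nat.card A = 1 := by
      have : φ x = 1 := hφ (mem_top x)
      rw [← this]
      change _ = ∏ a : A, _
      rw [Finset.prod_congr rfl fun (a : A) _ => congrArg Abelianization.of (hx a a.2)]
      simp
    obtain ⟨k, hk⟩ := hG x
    have e2 : Abelianization.of x ^ p ^ k = 1 := by rw [← map_pow, hk, map_one]
    have := eq_one_of_pow_coprime (hA.pow_right k) e e2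
    rwa [← MonoidHom.mem_ker, Abelianization.ker_of] at this
  have hΦ := phi_top_eq_frattini hG
  have h3 : frattini G ≤ center G := by
    by_contra hn
    obtain ⟨x, hx, hxZ, hxp, hxc⟩ := exists_central_mod hG (center G) (frattini G) hn
    have hc : ∀ g h : G, Commute h ⁅x, g⁆ := fun g h => mem_center_iff.1 (hxc g) h
    refine hxZ (h1 _ inferInstance (comm_inf_centralizer (frattini G)) ⟨hx, ?_⟩)
    have : frattini G ≤ 𝐂 (zpowers x) := by
      rw [← hΦ, phi_le_iff]
      refine ⟨three_subgroups_centralizer ?_ ?_, fun g _ => ?_⟩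
      · rw [centralizer_top']
        exact commutator_zpowers_le' (fun a _ => by
          rw [← commutatorElement_inv]; exact inv_mem (hxc a)) (by rw [normalizer_eq_top]; trivial)
      · rw [centralizer_top']
        exact commutator_zpowers_le (fun a _ => hxc a) (by rw [normalizer_eq_top]; trivial)
      · rw [mem_centralizer_zpowers, ← commutatorElement_eq_one_iff_mul_comm,
          commutatorElement_pow_right' (hc g g), ← commutatorElement_pow_left' (hc g x),
          commutatorElement_eq_one_iff_mul_comm]
        exact (mem_center_iff.1 hxp g).symm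
    exact zpowers_le_centralizer_iff.1 (le_centralizer_iff.1 this)
  have h4 : ∀ g ∈ center G, ∀ a ∈ A, a g = g := fun g hg a ha =>
    hchar _ inferInstance inferInstance a ha g hg
  have h5 : commutator G ≤ frattini G := hΦ ▸ commutator_le_phi p ⊤
  have h6 : center G ≤ commutator G := fun g hg => h2 g (h4 g hg)
  exact ⟨⟨hG, le_antisymm h3 (h6.trans h5), le_antisymm (h5.trans h3) h6⟩,
    fun g => ⟨h4 g, fun h => h3 (h5 (h2 g h))⟩⟩

end Cfsg.Agent.S0119
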