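import Cfsg.Statements.S0122
import Cfsg.Agent.H17.E4

set_option autoImplicit false
open Cfsg

namespace Cfsg.Agent.S0122

open H17 H18 Subgroup

/-- For odd p, a p-group containing an elementary abelian subgroup of order p^4 has a normal elementary abelian subgroup of order p^4. -/
theorem result {G : Type*} [Group G] [Finite G] {p : ℕ} [Fact p.Prime] (hp : p ≠ 2) (hG : IsPGroup p G) (E : Subgroup G) (hE : Cfsg.IsElementaryAbelian p E) (hE4 : Nat.card E = p ^ 4) : ∃ A : Subgroup G, A.Normal ∧ Cfsg.IsElementaryAbelian p A ∧ Nat.card A = p ^ 4 := by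
  obtain ⟨A, h1, h2⟩ := nml_elem_four Fact.out hp (piGrp_of_isPGroup Fact.out (hG.to_subgroup ⊤))
    ⟨le_top, H18.elem_iff.2 hE, hE4⟩
  exact ⟨A, h1.normal, h2.elem.isElem, h2.card⟩

end Cfsg.Agent.S0122
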