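import Cfsg.Statements.S0125
import Cfsg.Agent.H18.Nil
import Cfsg.Agent.H1.SchurZassenhaus

set_option autoImplicit false
open Cfsg

namespace Cfsg.Agent.S0125

/-- The centralizer of a self-centralizing normal subgroup A of a Sylow p-subgroup is the direct product of A with a normal p'-subgroup. -/
theorem result {G : Type*} [Group G] [Finite G] {p : ℕ} [Fact p.Prime] (R : Sylow p G) (A : Subgroup G) (hAR : A ≤ (R : Subgroup G)) (hAn : (R : Subgroup G) ≤ Subgroup.normalizer (A : Set G)) (hC : (R : Subgroup G) ⊓ Subgroup.centralizer (A : Set G) = A) : ∃ H : Subgroup G, H ≤ Subgroup.centralizer (A : Set G) ∧ Nat.Coprime (Nat.card H) p ∧ Subgroup.centralizer (A : Set G) ≤ Subgroup.normalizer (H : Set G) ∧ H ⊓ A = ⊥ ∧ H ⊔ A = Subgroup.centralizer (A : Set G) := by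
  open Subgroup H18 in
  have hp : p.Prime := Fact.out
  have aA : Abel A := hC.ge.trans inf_le_right
  have h1 : Hall {p} A C(A) := by
    have := ((hall_sylow_top hp R).of_le hAn le_top).inf_nml nml_C_N
    rwa [hC] at this
  obtain ⟨L, hL, hAL, hsup, hc⟩ := H1.exists_complement_le (C_le_N (H := A))
    (by rw [inf_eq_left.2 aA]; exact h1.coprime)
  rw [inf_eq_left.2 aA] at hsup
  refine ⟨L, hL, ?_, ?_, by rwa [inf_comm], by rwa [sup_comm]⟩
  · rw [hc]; exact (piNat_compl_iff_coprime hp).1 h1.idx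
  · rw [← hsup]; exact sup_le (cent_norm (cent_symm hL)) le_N

end Cfsg.Agent.S0125
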