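import Cfsg.Statements.S0129
import Cfsg.Agent.H3.Br

set_option autoImplicit false
open Cfsg

namespace Cfsg.Agent.S0129

open Subgroup H18 in
theorem aux {G : Type*} [Group G] [Finite G] {p : ℕ} (hp : p.Prime) {R : Subgroup G} (hR : PiGrp {p} R) (n : ℕ) :
    ∀ {V : Subgroup G}, V ⊴ R → Nat.card V = p ^ n → C(V).relIndex R ≤ p ^ n.choose 2 := by
  induction n with
  | zero => intro V _ h; rw [card_eq_one.1 h, relIndex_eq_one_iff.2 (cent_symm bot_le)]; exact le_rfl
  | succ n ih =>
    intro V hV h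
    obtain ⟨W, -, w2, w3, w4⟩ := H3.exists_nml_below hp hR .bot hV (bot_lt_iff_ne_bot.2 (ne_bot_of_prime_dvd hp
      (h ▸ dvd_pow_self p n.succ_ne_zero)))
    have hW : Nat.card W = p ^ n := Nat.eq_of_mul_eq_mul_right hp.pos (by rw [← w4, h, pow_succ])
    obtain ⟨x, hx, -, e⟩ := H3.exists_sup_zpowers_of_prime (relIndex_eq_of_mul w2 w4 ▸ hp) w2
    have h1 := H3.relIndex_C1_le (A := R ⊓ C(W)) (K := W) fun a ha => H3.comm_le_of_card_mul hR w3.norm hV w2 w4.le
      (comm_comm.le (commutator_mem_commutator ha.1 hx))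
    rw [← relIndex_inf_left, ← relIndex_tower (B := R ⊓ C(W)) (inf_le_inf_left _ (C_anti w2)) inf_le_left,
      Nat.choose_succ_succ' n 1, Nat.choose_one_right, pow_add, relIndex_inf_left (B := R), ← e, C_sup, C_zpowers,
      ← inf_assoc, relIndex_inf_left]
    exact Nat.mul_le_mul (hW ▸ h1) (ih w3 hW)

/-- The order of a p-group is bounded by p^(a(a+1)/2) when it has a maximal normal abelian subgroup of order p^a. -/
theorem result {G : Type*} [Group G] [Finite G] {p : ℕ} [Fact p.Prime] (hG : IsPGroup p G) (A : Subgroup G) [A.Normal] (hA : IsMulCommutative A) (hmax : ∀ B : Subgroup G, B.Normal → IsMulCommutative B → A ≤ B → B = A) (a : ℕ) (ha : Nat.card A = p ^ a) : Nat.card G ≤ p ^ (a * (a + 1) / 2) := by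
  open Subgroup H18 in
  have hp : p.Prime := Fact.out
  have h1 := H3.max_SCN hp (H3.piTop hp hG) nml_top (abel_of_comm hA) fun B h1 h2 => hmax B h1.normal h2.comm
  have h2 := aux hp (H3.piTop hp hG) a nml_top ha
  rw [← card_top, ← card_mul_relIndex' (A := C(A)), inf_comm, h1.cent, ha,
    show a * (a + 1) / 2 = a + a.choose 2 by
      have := Nat.choose_succ_succ' a 1
      rwa [Nat.choose_two_right, Nat.choose_one_right, Nat.add_sub_cancel, mul_comm] at this, pow_add]
  exact Nat.mul_le_mul_left _ h2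

end Cfsg.Agent.S0129
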