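import Cfsg.Statements.S0131
import Cfsg.Agent.H3.HallTransfer
import Cfsg.Agent.H18.Nil

set_option autoImplicit false
open Cfsg

namespace Cfsg.Agent.S0131

/-- P/P' has a normal complement in G exactly when the focal subgroup G' ∩ P is as small as possible, namely P'. -/
theorem result {G : Type*} [Group G] [Finite G] {p : ℕ} [Fact p.Prime] (P : Sylow p G) : (∃ N : Subgroup G, N.Normal ∧ N ⊓ (P : Subgroup G) = ⁅(P : Subgroup G), (P : Subgroup G)⁆ ∧ N ⊔ (P : Subgroup G) = ⊤) ↔ commutator G ⊓ (P : Subgroup G) = ⁅(P : Subgroup G), (P : Subgroup G)⁆ := by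
  open Subgroup H18 in
  constructor
  · rintro ⟨N, hN, h1, h2⟩
    refine le_antisymm ?_ (le_inf (comm_mono le_top le_top) der_le)
    rw [← h1]
    refine inf_le_inf_right _ ?_
    rw [commutator_def, ← h2]
    have hn : ∀ A : Subgroup G, A ≤ N(N) := fun _ => norm_of_normal
    exact comm_sup_le (comm_le_left (hn _))
      (comm_sup_le' (comm_le_right (hn _)) (h1.ge.trans inf_le_left) (hn _) (hn _)) (hn _) (hn _)
  · intro h
    obtain ⟨h1, h2, h3⟩ := H3.focal_of_coprime_index (P : Subgroup G)
      (P.card_coprime_index.symm.coprime_dvd_right (Subgroup.relIndex_dvd_card _ _))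
    exact ⟨_, inferInstance, h1.trans (h3.trans h), h2⟩

end Cfsg.Agent.S0131
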