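import Cfsg.Statements.S0134
import Cfsg.Agent.H5.Column

set_option autoImplicit false
open Cfsg

namespace Cfsg.Agent.S0134
open H5

/-- The sum of the squares of the degrees of the irreducible complex characters of a finite group is the order of the group. -/
theorem result {G : Type*} [Group G] [Finite G] : ∑ᶠ χ : Cfsg.IrrCharacter G, (χ : G → ℂ) 1 ^ 2 = (Nat.card G : ℂ) := by
  rw [finsum_eq_sum_of_fintype]; exact sum_sq_degrees

end Cfsg.Agent.S0134
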