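import Cfsg.Statements.S0149
import Cfsg.Agent.H5.TI

set_option autoImplicit false
open Cfsg

namespace Cfsg.Agent.S0149
open H5

/-- Let T be a subset of G meeting each of its conjugates by elements outside its normalizer N only in the identity, and let ψ be a class function of N vanishing on N away from T. Then the function induced from ψ agrees with ψ at every non-identity element of T. -/
theorem result {G : Type*} [Group G] [Fintype G] (T : Set G) (hTI : ∀ g : G, g ∉ Subgroup.normalizer T → ∀ t ∈ T, g * t * g⁻¹ ∈ T → t = 1) (hTN : T ⊆ Subgroup.normalizer T) (ψ : Subgroup.normalizer T → ℂ) (hψ : Cfsg.IsClassFunction (Subgroup.normalizer T) ψ) (hψT : ∀ x : Subgroup.normalizer T, (x : G) ∉ T → ψ x = 0) (t : Subgroup.normalizer T) (htT : (t : G) ∈ T) (ht1 : t ≠ 1) : Cfsg.indFun (Subgroup.normalizer T) ψ t = ψ t := by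
  refine indFun_apply_of_TI _ hψ t fun x hx hne => ?_
  by_contra hxN
  exact ht1 (Subtype.ext (hTI x hxN t htT (by_contra fun h => hne (hψT _ h))))

end Cfsg.Agent.S0149
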