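import Cfsg.Statements.S0162
import Cfsg.Agent.H5.FS

set_option autoImplicit false
open Cfsg

namespace Cfsg.Agent.S0162
open H5

/-- If a finite group has odd order, its order is congruent to its number of conjugacy classes modulo 16. -/
theorem result {G : Type*} [Group G] [Finite G] (hodd : Odd (Nat.card G)) : Nat.card G ≡ Nat.card (ConjClasses G) [MOD 16] := by
  classical
  have h1 : ∑ χ : IrrCharacter G, charDegree (χ : G → ℂ) ^ 2 = Nat.card G := by
    have := sum_sq_degrees (G := G)
    simp only [← fun χ : IrrCharacter G => χ.2.coe_charDegree] at this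
    exact_mod_cast this
  rw [← ZMod.natCast_eq_natCast_iff, ← h1, ← card_irr_eq_card_conjClasses, Nat.card_eq_fintype_card,
    ← sub_eq_zero]
  have h2 : ((∑ χ : IrrCharacter G, charDegree (χ : G → ℂ) ^ 2 : ℕ) : ZMod 16) -
      Fintype.card (IrrCharacter G) =
      ∑ χ : IrrCharacter G, ((charDegree (χ : G → ℂ) : ZMod 16) ^ 2 - 1) := by
    simp [Finset.sum_sub_distrib]
  rw [h2]
  refine Finset.sum_involution (fun χ _ => ⟨_, χ.2.conj⟩) (fun χ _ => ?_) (fun χ _ hne e => ?_)
    (fun _ _ => Finset.mem_univ _) (fun χ _ => by ext; simp)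
  · have e : charDegree (fun g => (starRingEnd ℂ) ((χ : G → ℂ) g)) = charDegree (χ : G → ℂ) := by
      simp [charDegree]
    simp only [e]
    obtain ⟨k, hk⟩ := χ.2.odd_charDegree hodd
    rw [hk]
    push_cast
    generalize (k : ZMod 16) = x
    revert x; decide
  · have := χ.2.eq_one_of_real_of_odd hodd (congrArg Subtype.val e)
    exact hne (by simp [this, charDegree])

end Cfsg.Agent.S0162
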