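import Cfsg.Statements.S0166
import Cfsg.Agent.H16.Split
import Cfsg.Agent.S0163

set_option autoImplicit false
open Cfsg

namespace Cfsg.Agent.S0166

open H16 IntermediateField

/-- Brauer's splitting field Theorem: a complex representation of a finite group of exponent m is equivalent to a representation by matrices with entries in ℚ adjoined exp(2πi/m). -/
theorem result {G : Type*} [Group G] [Finite G] (n : ℕ) (ρ : Representation ℂ G (Fin n → ℂ)) : ∃ σ : Representation ℂ G (Fin n → ℂ), Nonempty (ρ.Equiv σ) ∧ ∀ g : G, ∀ i j : Fin n, LinearMap.toMatrix' (σ g) i j ∈ Algebra.adjoin ℚ ({Complex.exp (2 * Real.pi * Complex.I / (Monoid.exponent G : ℂ))} : Set ℂ) := by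
  have := Fintype.ofFinite G
  have h0 := Monoid.exponent_ne_zero_of_finite (G := G)
  have hz := Complex.isPrimitiveRoot_exp _ h0
  generalize Complex.exp _ = ζ at hz ⊢
  have : NeZero (Monoid.exponent G) := ⟨h0⟩
  obtain ⟨l, -, e⟩ := S0163.result ρ.character ⟨n, ρ, rfl⟩
  obtain ⟨α, β, a, b, h⟩ := rk_list (K := ℚ⟮ζ⟯.toSubfield) l fun E f x => by
    obtain ⟨i, -, hi⟩ := hz.eq_pow_of_pow_eq_one (ξ := (f x : ℂ)) (by
      rw [← Units.val_pow_eq_pow_val, ← map_pow, show x ^ Monoid.exponent G = 1 from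
        Subtype.ext (Monoid.pow_exponent_eq_one x.1), map_one, Units.val_one])
    exact hi ▸ pow_mem (mem_adjoin_simple_self ℚ ζ) i
  obtain ⟨m, σ, h1, h2⟩ := (RK.cancel ⟨n, ρ, rfl⟩ a b (e ▸ h)).exists
  obtain rfl : m = n := by simpa using congrFun h1 1
  refine ⟨σ, H5.nonempty_equiv_of_character_eq ρ σ h1.symm, fun g i j => ?_⟩
  rw [← adjoin_simple_toSubalgebra_of_isAlgebraic (hz.isIntegral (Nat.pos_of_ne_zero h0)).tower_top.isAlgebraic]
  exact h2 g i j

end Cfsg.Agent.S0166
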