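import Cfsg.Statements.S0168
import Cfsg.Agent.H5.Kernel

set_option autoImplicit false
open Cfsg

namespace Cfsg.Agent.S0168
open H5

/-- The Burnside–Brauer Theorem. Let χ be the character of a faithful complex representation of a finite group, taking m distinct values. Then every irreducible character has nonzero inner product with χ ^ i for some i < m. -/
theorem result {G : Type*} [Group G] [Fintype G] {V : Type*} [AddCommGroup V] [Module ℂ V] [FiniteDimensional ℂ V] (ρ : Representation ℂ G V) (hfaithful : Function.Injective ρ) (ψ : G → ℂ) (hψ : Cfsg.IsIrrCharacter G ψ) : ∃ i : ℕ, i < Nat.card (Set.range ρ.character) ∧ Cfsg.classInner (fun g => ρ.character g ^ i) ψ ≠ 0 := by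
  classical
  by_contra hc
  push Not at hc
  let S : Finset ℂ := Finset.univ.image ρ.character
  have hS : Nat.card (Set.range ρ.character) = S.card := by
    rw [← Fintype.card_coe, ← Nat.card_eq_fintype_card]
    exact Nat.card_congr (Equiv.setCongr (by simp [S]))
  have h1S : ρ.character 1 ∈ S := by simp only [S]; exact Finset.mem_image_of_mem _ (by simp)
  let p : Polynomial ℂ := ∏ a ∈ S.erase (ρ.character 1), (Polynomial.X - Polynomial.C a)
  have hp : p.natDegree < S.card := by
    rw [Polynomial.natDegree_prod_of_monic _ _ fun a _ => Polynomial.monic_X_sub_C a]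
    simp only [Polynomial.natDegree_X_sub_C, Finset.sum_const, smul_eq_mul, mul_one]
    exact Finset.card_erase_lt_of_mem h1S
  have h1 : classInner (fun g => p.eval (ρ.character g)) ψ = 0 := by
    have : (fun g => p.eval (ρ.character g)) = ∑ i ∈ Finset.range (p.natDegree + 1),
        p.coeff i • fun g => ρ.character g ^ i := by
      ext g; simp [Polynomial.eval_eq_sum_range, Finset.sum_apply]
    rw [this, classInner_sum_left]
    refine Finset.sum_eq_zero fun i hi => ?_
    rw [classInner_smul_left, hc i (by rw [hS]; have := Finset.mem_range.1 hi; omega), mul_zero]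
  rw [classInner, Finset.sum_eq_single 1] at h1
  · simp only [mul_eq_zero, inv_eq_zero, card_ne_zero_complex, false_or, map_eq_zero,
      hψ.apply_one_ne_zero, or_false, p, Polynomial.eval_prod, Finset.prod_eq_zero_iff] at h1
    obtain ⟨a, ha, h2⟩ := h1
    simp only [Polynomial.eval_sub, Polynomial.eval_X, Polynomial.eval_C, sub_eq_zero] at h2
    exact (Finset.mem_erase.1 ha).1 h2.symm
  · intro g _ hg
    refine mul_eq_zero_of_left ?_ _
    simp only [p, Polynomial.eval_prod, Finset.prod_eq_zero_iff]
    refine ⟨ρ.character g, Finset.mem_erase.2 ⟨fun e => hg (hfaithful ?_), by simp [S]⟩, by simp⟩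
    rw [map_one]
    exact (character_eq_finrank_iff ρ g).1 (by rw [e, ρ.char_one])
  · simp

end Cfsg.Agent.S0168
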