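import Cfsg.Statements.S0170
import Cfsg.Agent.H5.TI

set_option autoImplicit false
open Cfsg

namespace Cfsg.Agent.S0170
open H5

/-- Exceptional characters. Let S be a subset of a finite group contained in its normalizer N and meeting its conjugates by elements outside N only in the identity. Given n ≥ 2 distinct irreducible characters of N of equal degree that vanish on N away from S, there exist a sign ε and n distinct irreducible characters θ_i of G such that inducing χ_i − χ_j to G gives ε (θ_i − θ_j) for all i, j. -/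
theorem result {G : Type*} [Group G] [Fintype G] (S : Set G) (hSN : S ⊆ Subgroup.normalizer S) (hTI : ∀ g : G, g ∉ Subgroup.normalizer S → ∀ s ∈ S, g * s * g⁻¹ ∈ S → s = 1) (n : ℕ) (hn : 2 ≤ n) (χ : Fin n → (Subgroup.normalizer S → ℂ)) (hirr : ∀ i, Cfsg.IsIrrCharacter (Subgroup.normalizer S) (χ i)) (hinj : Function.Injective χ) (hvan : ∀ i, ∀ x : Subgroup.normalizer S, (x : G) ∉ S → χ i x = 0) (hdeg : ∀ i j, χ i 1 = χ j 1) : ∃ ε : ℂ, (ε = 1 ∨ ε = -1) ∧ ∃ θ : Fin n → (G → ℂ), (∀ i, Cfsg.IsIrrCharacter G (θ i)) ∧ Function.Injective θ ∧ ∀ i j, Cfsg.indFun (Subgroup.normalizer S) (χ i) - Cfsg.indFun (Subgroup.normalizer S) (χ j) = ε • (θ i - θ j) := by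
  classical
  have := Fintype.ofFinite (Subgroup.normalizer S)
  let i₀ : Fin n := ⟨0, by omega⟩
  obtain ⟨ε, hε, μ, h1, h2, h3⟩ := exists_exceptional i₀
    (fun i => indFun (Subgroup.normalizer S) (χ i - χ i₀)) (by simp)
    (fun i => ((hirr i).isGen.sub (hirr i₀).isGen).indFun)
    (fun i => by rw [indFun_apply_one, Pi.sub_apply, hdeg i i₀]; simp) fun i j hi hj => by
      rw [classInner_indFun_of_TI]
      · simp only [classInner_sub_left, classInner_sub_right, (hirr _).classInner_eq (hirr _),
          hinj.eq_iff, hi, hj.symm, if_true, if_false]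
        split_ifs <;> norm_num
      · intro t ht
        refine indFun_apply_of_TI _ ((hirr j).isClassFunction.sub (hirr i₀).isClassFunction) t
          fun x hx hne => ?_
        by_contra hxN
        have h1 : t = 1 := Subtype.ext (hTI x hxN t
          (by_contra fun h => ht (by simp [hvan _ _ h]))
          (by_contra fun h => hne (by simp [hvan _ ⟨_, hx⟩ h])))
        exact ht (by rw [h1, Pi.sub_apply, hdeg i i₀, sub_self])
  refine ⟨ε, hε, μ, h1, h2, fun i j => ?_⟩
  have e : indFun (Subgroup.normalizer S) (χ i) - indFun (Subgroup.normalizer S) (χ j) =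
      indFun (Subgroup.normalizer S) (χ i - χ i₀) - indFun (Subgroup.normalizer S) (χ j - χ i₀) := by
    rw [indFun_sub, indFun_sub]; ring
  rw [e, h3 i, h3 j, ← smul_sub]; congr 1; ring

end Cfsg.Agent.S0170
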