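import Cfsg.Statements.S0172
import Cfsg.Agent.H5.Equiv

set_option autoImplicit false
open Cfsg

namespace Cfsg.Agent.S0172
open H5
theorem card_centralizer_subgroup {G : Type*} [Group G] (H : Subgroup G) (h : H)
    (hle : Subgroup.centralizer {(h : G)} ≤ H) :
    Nat.card (Subgroup.centralizer {(h : G)}) = Nat.card (Subgroup.centralizer {h}) := by
  rw [← Nat.card_congr (Subgroup.subgroupOfEquivOfLe hle).toEquiv]
  congr 2
  ext x
  simp only [Subgroup.mem_subgroupOf, Subgroup.mem_centralizer_singleton_iff, Subtype.ext_iff,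
    Subgroup.coe_mul]

/-- Class number of a Frobenius group: if G = K H with K normal, K ⊓ H trivial and no non-identity element of H commuting with a non-identity element of K, then |H| * k(G) + 1 = |H| * k(H) + k(K), where k denotes the number of conjugacy classes. -/
theorem result {G : Type*} [Group G] [Finite G] (K H : Subgroup G) [K.Normal] (hKH : K ⊓ H = ⊥) (hKH' : K ⊔ H = ⊤) (hfpf : ∀ h ∈ H, h ≠ 1 → ∀ k ∈ K, h * k = k * h → k = 1) : Nat.card H * Nat.card (ConjClasses G) + 1 = Nat.card H * Nat.card (ConjClasses H) + Nat.card (ConjClasses K) := by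
  classical
  have := Fintype.ofFinite G
  have := Fintype.ofFinite H
  have := Fintype.ofFinite K
  have hN : K.Normal := inferInstance
  have hc : Subgroup.IsComplement' K H :=
    Subgroup.isComplement'_of_disjoint_and_mul_eq_univ (disjoint_iff.2 hKH)
      (by rw [← Subgroup.normal_mul, hKH']; rfl)
  have h1 := sum_card_centralizer (G := G)
  rw [← Fintype.sum_bijective _ hc (fun x : K × H =>
    Nat.card (Subgroup.centralizer {((x.1 : G) * x.2)})) _ (fun _ => rfl),
    Fintype.sum_prod_type_right, ← Finset.add_sum_erase _ _ (Finset.mem_univ 1),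
    ← Finset.add_sum_erase _ _ (Finset.mem_univ 1)] at h1
  have e1 : ∀ k ∈ Finset.univ.erase (1 : K), Nat.card (Subgroup.centralizer {((k : G) * (1 : H))}) =
      Nat.card (Subgroup.centralizer {k}) := fun k hk => by
    rw [Subgroup.coe_one, mul_one]
    exact card_centralizer_subgroup K k fun g hg => centralizer_le_of_fpf K H hKH' hfpf k k.2
      (fun e => (Finset.mem_erase.1 hk).1 (Subtype.ext e)) g
      (Subgroup.mem_centralizer_singleton_iff.1 hg).symm
  have e2 : ∀ h ∈ Finset.univ.erase (1 : H), ∑ k : K, Nat.card (Subgroup.centralizer {((k : G) * h)}) =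
      Nat.card K * Nat.card (Subgroup.centralizer {h}) := fun h hh => by
    have hh1 : (h : G) ≠ 1 := fun e => (Finset.mem_erase.1 hh).1 (Subtype.ext e)
    rw [Nat.card_eq_fintype_card, ← Finset.card_univ, ← smul_eq_mul, ← Finset.sum_const]
    refine Finset.sum_congr rfl fun k _ => ?_
    obtain ⟨w, -, hw⟩ := exists_conj_of_fpf K (fun k hk e => hfpf h h.2 hh1 k hk e.symm) k.2
    rw [← card_centralizer_eq_of_isConj (isConj_iff.2 ⟨w, hw⟩)]
    refine card_centralizer_subgroup H h fun g hg => ?_
    obtain ⟨⟨y, h'⟩, rfl⟩ := hc.2 g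
    have h2 := Subgroup.mem_centralizer_singleton_iff.1 hg
    have h3 := hc.1 (a₁ := (y, h' * h)) (a₂ := (⟨h * y * (h : G)⁻¹, hN.conj_mem _ y.2 _⟩, h * h'))
      (by simp only [SetLike.coe_sort_coe, Subgroup.coe_mul] at h2 ⊢
          rw [← mul_assoc, h2]; group)
    have h4 : (y : G) = h * y * (h : G)⁻¹ := congrArg (fun x => (x.1 : G)) h3
    have h5 := hfpf h h.2 hh1 y y.2 (by rw [eq_mul_inv_iff_mul_eq] at h4; exact h4.symm)
    simp only [h5, one_mul]
    exact h'.2
  replace h1 : Nat.card (Subgroup.centralizer {(((1 : K) : G) * (1 : H))}) +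
      ∑ k ∈ Finset.univ.erase (1 : K), Nat.card (Subgroup.centralizer {((k : G) * (1 : H))}) +
      ∑ h ∈ Finset.univ.erase (1 : H), ∑ k : K, Nat.card (Subgroup.centralizer {((k : G) * h)}) =
      Nat.card (ConjClasses G) * Nat.card G := h1
  rw [Finset.sum_congr rfl e1, Finset.sum_congr rfl e2, ← Finset.mul_sum] at h1
  have h2 := sum_card_centralizer (G := H)
  have h3 := sum_card_centralizer (G := K)
  rw [← Finset.add_sum_erase _ _ (Finset.mem_univ 1)] at h2 h3
  simp only [Subgroup.coe_one, mul_one] at h1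
  rw [Subgroup.centralizer_eq_top_iff_subset.2 (by simp), Subgroup.card_top] at h1 h2 h3
  rw [← hc.card_mul] at h1
  have hK : 0 < Nat.card K := Nat.card_pos
  apply Nat.eq_of_mul_eq_mul_left hK
  nlinarith

end Cfsg.Agent.S0172
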