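import Cfsg.Statements.S0174
import Cfsg.Agent.H6.Clifford

set_option autoImplicit false
open Cfsg

open H5 H6 Cfsg

namespace Cfsg.Agent.S0174

/-- The Clifford Theorem for characters: if θ is an irreducible character of a finite group G, N is a normal subgroup and χ is an irreducible character of N occurring in the restriction of θ, then θ restricted to N equals e times the sum of the distinct G-conjugates of χ, where e is the inner product of the restriction with χ. -/
theorem result {G : Type*} [Group G] [Fintype G] (N : Subgroup G) [Fintype N] (hN : N.Normal) (θ : G → ℂ) (hθ : Cfsg.IsIrrCharacter G θ) (χ : N → ℂ) (hχ : Cfsg.IsIrrCharacter N χ) (hconst : Cfsg.classInner (fun n : N => θ n) χ ≠ 0) : (fun n : N => θ n) = Cfsg.classInner (fun n : N => θ n) χ • ∑ᶠ ψ ∈ {ψ : N → ℂ | ∃ g : G, ψ = fun n : N => χ ⟨g * n * g⁻¹, hN.conj_mem n n.2 g⟩}, ψ := by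
  classical
  have hfin : {ψ : N → ℂ | ∃ g : G, ψ = fun n : N => χ ⟨g * n * g⁻¹, hN.conj_mem n n.2 g⟩} =
      ↑(Finset.univ.image (fun g : G => cj χ g)) := by
    ext ψ
    simp only [Set.mem_ofPred_eq, Finset.coe_image, Finset.coe_univ, Set.image_univ, Set.mem_range]
    exact exists_congr fun g => eq_comm
  rw [hfin, finsum_mem_coe_finset]
  have hirr : ∀ ψ ∈ Finset.univ.image (fun g : G => cj χ g), IsIrrCharacter N ψ := by
    intro ψ hψ
    obtain ⟨g, -, rfl⟩ := Finset.mem_image.1 hψ
    exact isIrr_cj hχ g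
  refine (hθ.isClassFunction.restrict N).ext_classInner
    ((IsClassFunction.sum _ fun ψ hψ => (hirr ψ hψ).isClassFunction).smul _) fun φ hφ => ?_
  rw [classInner_smul_left, classInner_sum_left,
    Finset.sum_congr rfl fun ψ hψ => (hirr ψ hψ).classInner_eq hφ, Finset.sum_ite_eq']
  split_ifs with h
  · obtain ⟨g, -, rfl⟩ := Finset.mem_image.1 h
    rw [inner_res_cj hθ.isClassFunction, mul_one]
  · rw [mul_zero]
    by_contra h2
    obtain ⟨g, rfl⟩ := exists_cj_of_constituents hθ hχ hφ hconst h2
    exact h (Finset.mem_image_of_mem _ (Finset.mem_univ g))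

end Cfsg.Agent.S0174
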