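import Cfsg.Statements.S0178
import Cfsg.Agent.H5.FS
import Cfsg.Agent.H6.Clifford

set_option autoImplicit false
open Cfsg

namespace Cfsg.Agent.S0178
open H5

/-- The degree of an irreducible complex representation of a finite group is at most the index of any abelian subgroup. -/
theorem result {G : Type*} [Group G] [Finite G] {V : Type*} [AddCommGroup V] [Module ℂ V] [FiniteDimensional ℂ V] (ρ : Representation ℂ G V) [ρ.IsIrreducible] (A : Subgroup G) (hA : ∀ a ∈ A, ∀ b ∈ A, a * b = b * a) : Module.finrank ℂ V ≤ A.index := by
  have := Fintype.ofFinite G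
  have := Fintype.ofFinite A
  have h := isIrrCharacter_character ρ
  obtain ⟨θ, hθ, hne⟩ := H6.exists_irr_under (N := A) h
  have h1 := hθ.isCharacter.indFun.charDegree_le_of_constituent h (by
    rwa [frobenius_reciprocity _ _ h.isClassFunction, Ne, classInner_eq_zero_comm])
  rwa [charDegree_character, charDegree_eq_of_apply_one (n := A.index) (by
    rw [indFun_apply_one, hθ.apply_one_of_comm fun a b => Subtype.ext (hA a a.2 b b.2), mul_one])]
    at h1

end Cfsg.Agent.S0178
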