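import Cfsg.Statements.S0181
import Cfsg.Agent.H5.FS

set_option autoImplicit false
open Cfsg

namespace Cfsg.Agent.S0181
open H5

/-- Let H be a normal subgroup of a finite group G and ρ an irreducible complex representation whose kernel does not contain H. If g commutes with no non-identity element of H, then the character of ρ vanishes at g. -/
theorem result {G : Type*} [Group G] [Finite G] {V : Type*} [AddCommGroup V] [Module ℂ V] [FiniteDimensional ℂ V] (ρ : Representation ℂ G V) [ρ.IsIrreducible] (H : Subgroup G) [H.Normal] (hker : ∃ h ∈ H, ρ h ≠ LinearMap.id) (g : G) (hg : ∀ h ∈ H, h * g = g * h → h = 1) : ρ.character g = 0 := by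
  have := Fintype.ofFinite G
  have := Fintype.ofFinite H
  have h := isIrrCharacter_character ρ
  have hN : H.Normal := inferInstance
  have h1 := h.sum_coset_eq_zero H (fun hle => by
    obtain ⟨x, hx, hx'⟩ := hker
    exact hx' ((mem_charKer_character ρ x).1 (hle hx))) g
  let f : H → H := fun y => ⟨y * (g * (y : G)⁻¹ * g⁻¹), H.mul_mem y.2 (hN.conj_mem _ (H.inv_mem y.2) g)⟩
  have hf : Function.Injective f := fun a b e => by
    have e1 : (a : G) * (g * (a : G)⁻¹ * g⁻¹) = b * (g * (b : G)⁻¹ * g⁻¹) := congrArg Subtype.val e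
    have := hg ((b : G)⁻¹ * a) (H.mul_mem (H.inv_mem b.2) a.2) (by
      calc (b : G)⁻¹ * a * g = (b : G)⁻¹ * (a * (g * (a : G)⁻¹ * g⁻¹)) * g * a := by group
        _ = g * ((b : G)⁻¹ * a) := by rw [e1]; group)
    exact Subtype.ext (inv_mul_eq_one.1 this).symm
  rw [← Fintype.sum_bijective f (Finite.injective_iff_bijective.1 hf)
    (fun _ => ρ.character g) _ (fun y => by
      rw [← h.isClassFunction g y]; congr 1; simp [f, mul_assoc]), Finset.sum_const,
    Finset.card_univ, nsmul_eq_mul, Fintype.card_eq_nat_card] at h1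
  exact (mul_eq_zero.1 h1).resolve_left card_ne_zero_complex

end Cfsg.Agent.S0181
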