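import Cfsg.Statements.S0184
import Cfsg.Agent.H5.Kernel
import Cfsg.Agent.H1.Fitting
import Cfsg.Agent.S4636

set_option autoImplicit false
open Cfsg

namespace Cfsg.Agent.S0184
open H5

/-- A finite p-group admits a faithful irreducible complex representation if and only if its centre is cyclic. -/
theorem result {G : Type*} [Group G] [Finite G] (p : ℕ) [Fact p.Prime] (hG : IsPGroup p G) : (∃ (n : ℕ) (ρ : Representation ℂ G (Fin n → ℂ)), ρ.IsIrreducible ∧ Function.Injective ρ) ↔ IsCyclic (Subgroup.center G) := by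
  constructor
  · rintro ⟨n, ρ, hρ, hinj⟩
    exact (isIrrCharacter_character ρ).isCyclic_center
      (by rw [charKer_character, MonoidHom.ker_eq_bot_iff]; exact hinj)
  · intro hc
    have := hG.isNilpotent
    obtain ⟨χ, hχ, hk⟩ : ∃ χ, IsIrrCharacter G χ ∧ charKer χ = ⊥ := by
      rcases subsingleton_or_nontrivial G with h | h
      · exact ⟨_, isIrrCharacter_one, Subsingleton.elim _ _⟩
      have := hG.center_nontrivial
      have hZ := hG.to_subgroup (Subgroup.center G)
      obtain ⟨z, hz⟩ := exists_prime_orderOf_dvd_card' (G := Subgroup.center G) p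
        (hZ.card_eq_or_dvd.resolve_left Finite.one_lt_card.ne')
      obtain ⟨χ, hχ, hzχ⟩ := exists_irr_not_mem_charKer (g := (z : G)) fun e => by
        rw [show z = 1 from Subtype.ext e, orderOf_one] at hz
        exact (Fact.out : p.Prime).one_lt.ne hz
      refine ⟨χ, hχ, by_contra fun hne => hzχ ?_⟩
      have := hχ.isCharacter.normal_charKer
      have h1 := H1.normal_inf_center_ne_bot _ hne
      have h4 := Cfsg.Agent.S4636.le_of_ne_bot p _ hZ hc (Subgroup.zpowers (z : G))
        (by simp) (by rw [Nat.card_zpowers, Subgroup.orderOf_coe, hz]) _ inf_le_right h1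
      exact (h4 (Subgroup.mem_zpowers _)).1
    obtain ⟨n, ρ, hρ, rfl⟩ := hχ
    rw [charKer_character, MonoidHom.ker_eq_bot_iff] at hk
    exact ⟨n, ρ, hρ, hk⟩

end Cfsg.Agent.S0184
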