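import Cfsg.Statements.S0185
import Cfsg.Agent.H5.Central

set_option autoImplicit false
open Cfsg

namespace Cfsg.Agent.S0185
open H5

/-- If a finite group has a faithful complex representation of degree less than the smallest prime dividing its order, the group is abelian. -/
theorem result {G : Type*} [Group G] [Finite G] {V : Type*} [AddCommGroup V] [Module ℂ V] [FiniteDimensional ℂ V] (ρ : Representation ℂ G V) (hfaithful : Function.Injective ρ) (hdeg : ∀ p : ℕ, p.Prime → p ∣ Nat.card G → Module.finrank ℂ V < p) (a b : G) : a * b = b * a := by
  have := Fintype.ofFinite G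
  have h := isCharacter_character ρ
  have key : commutator G ≤ charKer ρ.character := by
    refine h.induction_irr (P := fun θ => (∀ p : ℕ, p.Prime → p ∣ Nat.card G → charDegree θ < p) →
      commutator G ≤ charKer θ) (fun _ _ _ _ => rfl) ?_ (by rwa [charDegree_character])
    intro φ θ hφ hθ ih hp
    have e : charDegree (φ + θ) = charDegree φ + charDegree θ :=
      charDegree_eq_of_apply_one (by rw [Pi.add_apply, Nat.cast_add, hφ.coe_charDegree,
        hθ.coe_charDegree])
    rw [hφ.isCharacter.charKer_add hθ]
    refine le_inf (hφ.commutator_le_charKer_iff.2 (hφ.isCharacter.charDegree_eq_one_iff.1 ?_))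
      (ih fun p h1 h2 => by have := hp p h1 h2; omega)
    by_contra hne
    have h1 := Nat.minFac_prime hne
    have h2 := hp _ h1 ((Nat.minFac_dvd _).trans hφ.charDegree_dvd_card)
    have h3 := Nat.minFac_le hφ.charDegree_pos
    omega
  rw [charKer_character, (MonoidHom.ker_eq_bot_iff _).2 hfaithful] at key
  exact commutatorElement_eq_one_iff_mul_comm.1
    (key (Subgroup.commutator_mem_commutator (Subgroup.mem_top a) (Subgroup.mem_top b)))

end Cfsg.Agent.S0185
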