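import Cfsg.Statements.S0186
import Cfsg.Agent.H5.Central

set_option autoImplicit false
open Cfsg

namespace Cfsg.Agent.S0186
open H5

/-- Let G be a finite simple group of order n and p a prime dividing n. If G has more than n / p^2 conjugacy classes, then every Sylow p-subgroup of G is abelian. -/
theorem result {G : Type*} [Group G] [Finite G] [IsSimpleGroup G] (p : ℕ) [Fact p.Prime] (hp : p ∣ Nat.card G) (hmany : Nat.card G < p ^ 2 * Nat.card (ConjClasses G)) (P : Sylow p G) (a b : G) (ha : a ∈ P) (hb : b ∈ P) : a * b = b * a := by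
  classical
  have hp' : p.Prime := Fact.out
  by_contra hab
  have hcomm : ¬ ∀ a b : G, a * b = b * a := fun h => hab (h a b)
  have hPc : ¬ ∀ a b : (P : Subgroup G), a * b = b * a := fun h =>
    hab (congrArg Subtype.val (h ⟨a, ha⟩ ⟨b, hb⟩))
  -- every non-principal degree is at least `p`
  have hdeg : ∀ χ : IrrCharacter G, χ ≠ irrOne G → p ≤ charDegree (χ : G → ℂ) := by
    intro χ hχ
    by_contra hlt
    push Not at hlt
    have hk := χ.2.charKer_eq_bot_of_isSimpleGroup fun e => hχ (Subtype.ext e)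
    have := Fintype.ofFinite (P : Subgroup G)
    have key : commutator P ≤ charKer (fun x : (P : Subgroup G) => (χ : G → ℂ) x) := by
      refine (χ.2.isCharacter.restrict P).induction_irr
        (P := fun θ => charDegree θ < p → commutator P ≤ charKer θ) (fun _ _ _ _ => rfl) ?_ hlt
      intro φ θ hφ hθ ih hp
      have e : charDegree (φ + θ) = charDegree φ + charDegree θ :=
        charDegree_eq_of_apply_one (by rw [Pi.add_apply, Nat.cast_add, hφ.coe_charDegree,
          hθ.coe_charDegree])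
      rw [hφ.isCharacter.charKer_add hθ]
      refine le_inf (hφ.commutator_le_charKer_iff.2 (hφ.isCharacter.charDegree_eq_one_iff.1 ?_))
        (ih (by omega))
      obtain ⟨m, hm⟩ := P.isPGroup'.exists_card_eq
      obtain ⟨j, -, hj⟩ := (Nat.dvd_prime_pow hp').1 (hm ▸ hφ.charDegree_dvd_card)
      rcases j with _ | j
      · simpa using hj
      · have : p ≤ p ^ (j + 1) := Nat.le_self_pow (by omega) p
        omega
    refine hPc fun x y => commutatorElement_eq_one_iff_mul_comm.1 (Subtype.ext ?_)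
    have h1 := apply_eq_of_mem_charKer
      (key (Subgroup.commutator_mem_commutator (Subgroup.mem_top x) (Subgroup.mem_top y)))
    have h2 := χ.2.mem_charKer.2 h1
    rwa [hk, Subgroup.mem_bot] at h2
  -- `|P| ≥ p ^ 3`
  obtain ⟨m, hm⟩ := P.isPGroup'.exists_card_eq
  have hm3 : 3 ≤ m := by
    by_contra hlt
    have : m = 0 ∨ m = 1 ∨ m = 2 := by omega
    rcases this with rfl | rfl | rfl
    · have : Subsingleton (P : Subgroup G) := (Nat.card_eq_one_iff_unique.1 (by simpa using hm)).1
      exact hPc fun a b => Subsingleton.elim _ _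
    · have : IsCyclic (P : Subgroup G) := isCyclic_of_prime_card (p := p) (by simpa using hm)
      exact hPc fun a b => (IsCyclic.commGroup (α := (P : Subgroup G))).mul_comm a b
    · exact hPc (IsPGroup.isMulCommutative_of_card_eq_prime_sq hm).is_comm.comm
  have : Nontrivial (P : Subgroup G) := by
    by_contra h
    rw [not_nontrivial_iff_subsingleton] at h
    exact hPc fun a b => Subsingleton.elim _ _
  have := P.isPGroup'.center_nontrivial
  obtain ⟨⟨z, hz⟩, hz1⟩ := exists_ne (1 : Subgroup.center P)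
  have hz1' : (z : G) ≠ 1 := fun e => hz1 (Subtype.ext (Subtype.ext e))
  have hPC : (P : Subgroup G) ≤ Subgroup.centralizer {(z : G)} := fun x hx =>
    Subgroup.mem_centralizer_singleton_iff.2
      (congrArg Subtype.val (Subgroup.mem_center_iff.1 hz ⟨x, hx⟩))
  have hC : p ^ 3 ≤ Nat.card (Subgroup.centralizer {(z : G)}) :=
    (Nat.pow_le_pow_right hp'.pos hm3).trans (hm ▸ Subgroup.card_le_of_le hPC)
  have hvan : ∀ χ : IrrCharacter G, χ ≠ irrOne G → charDegree (χ : G → ℂ) = p →
      (χ : G → ℂ) z = 0 := by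
    intro χ hχ hd
    refine (χ.2.eq_zero_or_mem_charCenter_of_coprime (g := z) ?_).resolve_right fun h => ?_
    · rw [hd]
      exact (Nat.Prime.coprime_iff_not_dvd hp').2 fun h =>
        P.not_dvd_index (h.trans (Subgroup.index_dvd_of_le hPC))
    · rw [χ.2.charCenter_eq_center (χ.2.charKer_eq_bot_of_isSimpleGroup
        fun e => hχ (Subtype.ext e)), center_eq_bot_of_isSimpleGroup hcomm] at h
      exact hz1' h
  let T : Finset (IrrCharacter G) := Finset.univ.erase (irrOne G)
  let S := T.filter fun χ : IrrCharacter G => charDegree (χ : G → ℂ) ≠ p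
  have h1 : (Nat.card G : ℝ) = 1 + ∑ χ ∈ T, (charDegree (χ : G → ℂ) : ℝ) ^ 2 := by
    have := sum_irr_normSq (1 : G)
    rw [Subgroup.centralizer_eq_top_iff_subset.2 (by simp), Subgroup.card_top,
      ← Finset.add_sum_erase _ _ (Finset.mem_univ (irrOne G))] at this
    rw [← this]
    simp only [fun χ : IrrCharacter G => χ.2.isCharacter.norm_apply_one]
    simp [T, charDegree]
  have h2 : (Nat.card (Subgroup.centralizer {(z : G)}) : ℝ) ≤
      1 + ∑ χ ∈ S, (charDegree (χ : G → ℂ) : ℝ) ^ 2 := by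
    rw [← sum_irr_normSq, ← Finset.add_sum_erase _ _ (Finset.mem_univ (irrOne G)), Finset.sum_filter]
    simp only [irrOne_apply, norm_one, one_pow]
    gcongr with χ hχ
    split_ifs with h
    · rw [← χ.2.isCharacter.norm_apply_one]
      gcongr
      exact χ.2.isCharacter.norm_le _
    · rw [hvan χ (Finset.mem_erase.1 hχ).1 (not_not.1 h)]; simp
  have h3 : ∑ χ ∈ T, (charDegree (χ : G → ℂ) : ℝ) ^ 2 =
      ∑ χ ∈ S, ((charDegree (χ : G → ℂ) : ℝ) ^ 2 - p ^ 2) + T.card * p ^ 2 := by
    rw [Finset.sum_filter, ← nsmul_eq_mul, ← Finset.sum_const, ← Finset.sum_add_distrib]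
    refine Finset.sum_congr rfl fun χ _ => ?_
    split_ifs with h
    · ring
    · rw [not_not.1 h]; ring
  have h4 : (S.card : ℝ) * (2 * p + 1) ≤ ∑ χ ∈ S, ((charDegree (χ : G → ℂ) : ℝ) ^ 2 - p ^ 2) := by
    rw [← nsmul_eq_mul, ← Finset.sum_const]
    refine Finset.sum_le_sum fun χ hχ => ?_
    have h5 := Finset.mem_filter.1 hχ
    have h6 : p + 1 ≤ charDegree (χ : G → ℂ) :=
      lt_of_le_of_ne (hdeg χ (Finset.mem_erase.1 h5.1).1) h5.2.symm
    have h7 : (p : ℝ) + 1 ≤ charDegree (χ : G → ℂ) := by exact_mod_cast h6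
    nlinarith
  have h5 : ∑ χ ∈ S, (charDegree (χ : G → ℂ) : ℝ) ^ 2 =
      ∑ χ ∈ S, ((charDegree (χ : G → ℂ) : ℝ) ^ 2 - p ^ 2) + S.card * p ^ 2 := by
    rw [Finset.sum_sub_distrib, Finset.sum_const, nsmul_eq_mul]; ring
  have h6 : (T.card : ℝ) + 1 = Nat.card (ConjClasses G) := by
    rw [← card_irr_eq_card_conjClasses, Nat.card_eq_fintype_card, ← Finset.card_univ,
      ← Finset.card_erase_add_one (Finset.mem_univ (irrOne G))]
    push_cast; rfl
  have h7 : (Nat.card G : ℝ) < p ^ 2 * Nat.card (ConjClasses G) := by exact_mod_cast hmany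
  have h8 : (p : ℝ) ^ 3 ≤ Nat.card (Subgroup.centralizer {(z : G)}) := by exact_mod_cast hC
  set E := ∑ χ ∈ S, ((charDegree (χ : G → ℂ) : ℝ) ^ 2 - p ^ 2)
  have hp0 : (0 : ℝ) < p := by exact_mod_cast hp'.pos
  have h9 : E + 1 < p ^ 2 := by rw [h1, h3, ← h6] at h7; linarith
  have h10 : (p : ℝ) ^ 2 * p < p ^ 2 * (S.card + 1) := by nlinarith
  have h11 : (p : ℝ) < S.card + 1 := lt_of_mul_lt_mul_left h10 (by positivity)
  have h12 : p < S.card + 1 := by exact_mod_cast h11
  have h13 : (p : ℝ) ≤ S.card := by exact_mod_cast Nat.lt_succ_iff.1 h12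
  nlinarith

end Cfsg.Agent.S0186
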