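import Cfsg.Statements.S0194
import Cfsg.Agent.H5.FS
import Cfsg.Agent.H6.Clifford

set_option autoImplicit false
open scoped ComplexConjugate
open Cfsg

namespace Cfsg.Agent.S0194
open H5

/-- Let G have odd order, H be a normal subgroup and θ a non-principal irreducible character of H. Then the function induced from θ is orthogonal to its complex conjugate. -/
theorem result {G : Type*} [Group G] [Fintype G] (hodd : Odd (Nat.card G)) (H : Subgroup G) [H.Normal] (θ : H → ℂ) (hθ : Cfsg.IsIrrCharacter H θ) (hθ1 : θ ≠ fun _ => 1) : Cfsg.classInner (fun g => conj (Cfsg.indFun H θ g)) (Cfsg.indFun H θ) = 0 := by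
  by_contra hne
  rw [← indFun_conj] at hne
  obtain ⟨g, hg⟩ := H6.exists_cj_of_inner_ind_ne_zero hθ.conj hθ hne
  have h1 : H6.cj θ g = fun x => conj (θ x) := by
    ext x
    have := congrArg conj (congrFun hg x)
    rw [this]; simp [H6.cj]
  have h2 : g ^ 2 ∈ H6.inertia θ := by
    rw [H6.mem_inertia, sq, H6.cj_mul, h1, ← hg]
  have h3 : g ∈ H6.inertia θ := by
    have hc : (orderOf g).Coprime 2 := Nat.coprime_two_right.2 (hodd.of_dvd_nat (orderOf_dvd_natCard g))
    obtain ⟨m, hm⟩ := exists_pow_eq_self_of_coprime hc.symm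
    rw [← hm]; exact pow_mem h2 m
  exact hθ.conj_ne_of_odd (hodd.of_dvd_nat H.card_subgroup_dvd_card) hθ1
    (h1.symm.trans (H6.mem_inertia.1 h3))

end Cfsg.Agent.S0194
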