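import Cfsg.Statements.S0203
import Cfsg.Agent.H9.Hv2

set_option autoImplicit false
open Cfsg

namespace Cfsg.Agent.S0203

open H18 H9 Subgroup

/-- If a Sylow 2-subgroup P of a finite group G is a Klein four-group, then G has three classes of involutions if and only if P has a normal complement in G. -/
theorem result {G : Type*} [Group G] [Finite G] (P : Sylow 2 G) (hP : IsKleinFour (P : Subgroup G)) : Nat.card {C : ConjClasses G // ∃ t : G, orderOf t = 2 ∧ ConjClasses.mk t = C} = 3 ↔ ∃ N : Subgroup G, N.Normal ∧ Subgroup.IsComplement' N (P : Subgroup G) := by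
  have hS := hall_sylow_top Nat.prime_two P
  have hc : IsMulCommutative (P : Subgroup G) := IsKleinFour.isMulCommutative
  rcases klein_classes hS hP with ⟨h1, a, ha, b, hb, hab, c⟩ | ⟨h1, h2⟩
  · refine iff_of_false (by omega) ?_
    rintro ⟨N, hN, h⟩
    obtain ⟨g, rfl⟩ := isConj_iff.1 c
    obtain ⟨y, hy, e⟩ := H3.exists_conj_of_normal_complement h g
    exact hab (by rw [← e a ha hb, comm_of_cent (abel_of_comm hc) hy ha, mul_inv_cancel_right])
  · refine iff_of_true h1 ⟨_, inferInstance, MonoidHom.ker_transferSylow_isComplement' P fun n hn =>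
      mem_C.2 fun a ha => ?_⟩
    exact (mul_inv_eq_iff_eq_mul.1 (h2 a ha _ (conj_mem_N hn ha) (isConj_iff.2 ⟨n, rfl⟩)).symm).symm

end Cfsg.Agent.S0203
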