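import Cfsg.Statements.S0210
import Cfsg.Agent.H9.Dihedral

set_option autoImplicit false
open Cfsg

namespace Cfsg.Agent.S0210

/-- If x, y are involutions whose product has even order, no element of the subgroup generated by x and y conjugates x to y. -/
theorem result {G : Type*} [Group G] [Finite G] (x y : G) (hx : orderOf x = 2) (hy : orderOf y = 2) (heven : Even (orderOf (x * y))) (d : G) (hd : d ∈ Subgroup.closure ({x, y} : Set G)) : d * x * d⁻¹ ≠ y := by
  have hx2 := H9.mul_self_of_orderOf hx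
  have hy2 := H9.mul_self_of_orderOf hy
  have hinv := H9.left_inverts hx2 hy2
  have key : ∀ j : ℤ, x * (x * y) ^ (2 * j) ≠ y := by
    intro j hj
    have h1 : (x * y) ^ (2 * j) = (x * y) ^ (1 : ℤ) := by
      rw [zpow_one]
      nth_rewrite 2 [← hj]
      rw [← mul_assoc, hx2, one_mul]
    rw [zpow_eq_zpow_iff_modEq] at h1
    obtain ⟨m, hm⟩ := heven
    have := h1.dvd
    rw [hm] at this
    obtain ⟨c, hc⟩ := this
    push_cast at hc
    have : (2 : ℤ) ∣ 1 := ⟨j + m * c, by linarith⟩
    omega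
  obtain ⟨k, rfl | rfl⟩ := (H9.mem_closure_pair_iff hx2 hy2).1 hd
  · have := H9.zpow_conj_refl hinv k 0
    rw [zpow_zero, mul_one] at this
    rw [this, show (0 - 2 * k) = 2 * (-k) by ring]
    exact key _
  · have := H9.zpow_conj_refl hinv k 0
    rw [zpow_zero, mul_one] at this
    have h2 : x * (x * y) ^ k * x * (x * (x * y) ^ k)⁻¹ = x * (x * y) ^ (2 * k) := by
      have : x * (x * y) ^ k * x * (x * (x * y) ^ k)⁻¹ =
          x * ((x * y) ^ k * x * ((x * y) ^ k)⁻¹) * x⁻¹ := by group
      rw [this, ‹(x * y) ^ k * x * ((x * y) ^ k)⁻¹ = _›, mul_assoc, mul_assoc, ← mul_assoc x _ x⁻¹,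
        H9.conj_zpow_of_inverts hinv, ← zpow_neg]
      congr 2; ring
    rw [h2]
    exact key _

end Cfsg.Agent.S0210
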