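import Cfsg.Statements.S0211
import Cfsg.Agent.H9.Dihedral

set_option autoImplicit false
open Cfsg

namespace Cfsg.Agent.S0211

/-- Let x, y be involutions with xy of even order n and z = (xy)^(n/2). Then xz is conjugate to x by an element of the subgroup generated by x, y if and only if 4 divides n. -/
theorem result {G : Type*} [Group G] [Finite G] (x y : G) (hx : orderOf x = 2) (hy : orderOf y = 2) (heven : Even (orderOf (x * y))) : (∃ d ∈ Subgroup.closure ({x, y} : Set G), d * x * d⁻¹ = x * (x * y) ^ (orderOf (x * y) / 2)) ↔ 4 ∣ orderOf (x * y) := by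
  have hx2 := H9.mul_self_of_orderOf hx
  have hy2 := H9.mul_self_of_orderOf hy
  have hinv := H9.left_inverts hx2 hy2
  obtain ⟨m, hm⟩ := heven
  have hm' : orderOf (x * y) / 2 = m := by omega
  rw [hm']
  have hc1 : ∀ k : ℤ, (x * y) ^ k * x * ((x * y) ^ k)⁻¹ = x * (x * y) ^ (2 * (-k)) := by
    intro k
    have := H9.zpow_conj_refl hinv k 0
    rw [zpow_zero, mul_one] at this
    rw [this, show (0 - 2 * k) = 2 * (-k) by ring]
  have hc2 : ∀ k : ℤ, x * (x * y) ^ k * x * (x * (x * y) ^ k)⁻¹ = x * (x * y) ^ (2 * k) := by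
    intro k
    have : x * (x * y) ^ k * x * (x * (x * y) ^ k)⁻¹ =
        x * ((x * y) ^ k * x * ((x * y) ^ k)⁻¹) * x⁻¹ := by group
    rw [this, hc1, mul_assoc, mul_assoc, ← mul_assoc x _ x⁻¹,
      H9.conj_zpow_of_inverts hinv, ← zpow_neg]
    congr 2; ring
  have key : ∀ j : ℤ, x * (x * y) ^ (2 * j) = x * (x * y) ^ m → 4 ∣ orderOf (x * y) := by
    intro j hj
    have h1 := mul_left_cancel hj
    rw [← zpow_natCast, zpow_eq_zpow_iff_modEq] at h1
    obtain ⟨c, hc⟩ := h1.dvd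
    rw [hm] at hc ⊢
    push_cast at hc
    have : (2 : ℤ) ∣ m := ⟨j + m * c, by linarith⟩
    omega
  constructor
  · rintro ⟨d, hd, h⟩
    obtain ⟨k, rfl | rfl⟩ := (H9.mem_closure_pair_iff hx2 hy2).1 hd
    · rw [hc1] at h; exact key _ h
    · rw [hc2] at h; exact key _ h
  · intro h4
    obtain ⟨j, hj⟩ : 2 ∣ m := by omega
    refine ⟨x * (x * y) ^ (j : ℤ), (H9.mem_closure_pair_iff hx2 hy2).2 ⟨j, Or.inr rfl⟩, ?_⟩
    rw [hc2, hj, ← zpow_natCast]; push_cast; rfl

end Cfsg.Agent.S0211
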