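import Cfsg.Statements.S0212
import Cfsg.Agent.H9.InvCount

set_option autoImplicit false
open Cfsg

namespace Cfsg.Agent.S0212

/-- The Brauer–Fowler bound: if G is a finite simple group and t an involution of G whose centralizer has order n, then |G| ≤ (2n^2)!. -/
theorem result {G : Type*} [Group G] [Finite G] [IsSimpleGroup G] (t : G) (ht : orderOf t = 2) : Nat.card G ≤ Nat.factorial (2 * (Nat.card (Subgroup.centralizer ({t} : Set G))) ^ 2) := by
  set m := Nat.card (Subgroup.centralizer ({t} : Set G)) with hm
  have hmpos : 0 < m := Nat.card_pos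
  by_cases hZ : Subgroup.center G = ⊤
  · have : Subgroup.centralizer ({t} : Set G) = ⊤ :=
      top_le_iff.1 (hZ ▸ Subgroup.center_le_centralizer _)
    rw [this, Subgroup.card_top] at hm
    rw [← hm]
    refine le_trans ?_ (Nat.self_le_factorial _)
    nlinarith
  have hZ' : Subgroup.center G = ⊥ := (IsSimpleGroup.eq_bot_or_eq_top_of_normal _ inferInstance).resolve_right hZ
  obtain ⟨H, hH, hmin⟩ := H9.exists_min_index (G := G)
  refine (Nat.le_of_dvd (Nat.factorial_pos _) (H9.card_dvd_factorial_index hH)).trans
    (Nat.factorial_le ?_)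
  by_cases h2 : ∃ K : Subgroup G, K.index = 2
  · obtain ⟨K, hK⟩ := h2
    have := hmin K (by rintro rfl; simp at hK)
    nlinarith
  push Not at h2
  have h1 := H9.brauer_fowler_index H.index hmin h2 (fun t ht h => by
    rw [hZ'] at h; exact H9.ne_one_of_orderOf ht h)
  have h3 := H9.index_le_card_involutions ht
  have h4 := (Subgroup.centralizer ({t} : Set G)).index_mul_card
  have h5 : Nat.card {t : G // orderOf t = 2} ≤ Nat.card G :=
    Nat.card_le_card_of_injective _ Subtype.val_injective
  set n := Nat.card {t : G // orderOf t = 2}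
  have h6 : Nat.card G ≤ n * m := by rw [← h4]; exact Nat.mul_le_mul_right _ h3
  have hn : 0 < n := Nat.pos_of_ne_zero (by rintro h; rw [h] at h6; have := Nat.card_pos (α := G); omega)
  have h7 : H.index * n ^ 2 ≤ m ^ 2 * n ^ 2 := by
    have : Nat.card G * (Nat.card G + n) ≤ (n * m) * (n * m + n * m) :=
      Nat.mul_le_mul h6 (by omega)
    nlinarith
  have := Nat.le_of_mul_le_mul_right h7 (by positivity)
  omega

end Cfsg.Agent.S0212
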