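import Cfsg.Statements.S0213
import Cfsg.Agent.H9.Hv2

set_option autoImplicit false
open Cfsg

namespace Cfsg.Agent.S0213

open H9

/-- Thompson Order Formula, two-class case: if every involution of the finite group G is conjugate to exactly one of the non-conjugate involutions x₁, x₂, and nᵢ is the number of pairs (u, v) with u conjugate to x₁, v conjugate to x₂ and xᵢ in the cyclic group generated by uv, then |G| = |C(x₂)| n₁ + |C(x₁)| n₂. -/
theorem result {G : Type*} [Group G] [Finite G] (x₁ x₂ : G) (h₁ : orderOf x₁ = 2) (h₂ : orderOf x₂ = 2) (hnc : ¬ IsConj x₁ x₂) (hall : ∀ t : G, orderOf t = 2 → IsConj x₁ t ∨ IsConj x₂ t) : Nat.card G = Nat.card (Subgroup.centralizer ({x₂} : Set G)) * Nat.card {p : G × G // IsConj x₁ p.1 ∧ IsConj x₂ p.2 ∧ x₁ ∈ Subgroup.zpowers (p.1 * p.2)} + Nat.card (Subgroup.centralizer ({x₁} : Set G)) * Nat.card {p : G × G // IsConj x₁ p.1 ∧ IsConj x₂ p.2 ∧ x₂ ∈ Subgroup.zpowers (p.1 * p.2)} := by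
  classical
  have ne : x₁ ≠ x₂ := fun e => hnc (e ▸ IsConj.refl _)
  have h := thompson_order h₁ h₂ hnc {x₁, x₂} (by simp [h₁, h₂]) fun t ht => by
    rcases hall t ht with c | c
    · exact ⟨x₁, by simp, c.symm, fun w hw c' => (Finset.mem_insert.1 hw).resolve_right fun e =>
        hnc (Finset.mem_singleton.1 e ▸ c.trans c')⟩
    · exact ⟨x₂, by simp, c.symm, fun w hw c' => Finset.mem_singleton.1 ((Finset.mem_insert.1 hw).resolve_left
        fun e => hnc (e ▸ (c.trans c').symm))⟩
  rw [Finset.sum_pair ne] at h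
  have e1 := card_conj_mul_card_centralizer x₁
  have e2 := card_conj_mul_card_centralizer x₂
  refine Nat.eq_of_mul_eq_mul_left (Nat.card_pos (α := G)) ?_
  nth_rewrite 1 [← e1, ← e2]
  rw [mul_mul_mul_comm, h, mul_add]
  nth_rewrite 1 [← e1, ← e2]
  ring

end Cfsg.Agent.S0213
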