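import Cfsg.Statements.S0218
import Cfsg.Agent.H9.Quat

set_option autoImplicit false
open Cfsg

namespace Cfsg.Agent.S0218

/-- The generalized quaternion group of order 2^(n+3) contains exactly one element of order 2. -/
theorem result (n : ℕ) : Nat.card {x : QuaternionGroup (2 ^ (n + 1)) // orderOf x = 2} = 1 := by
  have h := H9.qData_quaternionGroup (2 ^ (n + 1))
  exact Nat.card_eq_one_iff_exists.2 ⟨⟨_, h.orderOf_u⟩, fun y => Subtype.ext (h.eq_u (Subgroup.mem_top _) y.2)⟩

end Cfsg.Agent.S0218
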