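import Cfsg.Statements.S0220
import Cfsg.Agent.H9.Hv2

set_option autoImplicit false
open Cfsg

namespace Cfsg.Agent.S0220

open H18 H9 Subgroup

/-- If x is an involution of a finite group G and a Sylow 2-subgroup of the centralizer of x is cyclic, then G has a subgroup of index 2; in particular G is not simple unless it has order 2. -/
theorem result {G : Type*} [Group G] [Finite G] (x : G) (hx : orderOf x = 2) (S : Sylow 2 ↥(Subgroup.centralizer ({x} : Set G))) (hS : IsCyclic (S : Subgroup ↥(Subgroup.centralizer ({x} : Set G)))) : ∃ H : Subgroup G, H.index = 2 := by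
  have hp := Nat.prime_two
  have h := hall_map_sylow hp S
  have hc : Cyc ((S : Subgroup C1(x)).map C1(x).subtype) := cyc_map_subtype.2 hS
  obtain ⟨x2, x1⟩ := ord2.1 hx
  have hxS := h.nml_le (nml_of_le_Z (zpowers_le.2 ⟨C1_self, le_C1_iff.1 le_rfl⟩)) (two_zpowers x2) (mem_zpowers x)
  obtain ⟨T, hT, le⟩ := exists_sylow_le hp h.pi le_top
  obtain ⟨z, hz, z1⟩ := exists_mem_ne_one' (hT.pi.omegaZ_ne_bot (ne_bot_of_mem (le hxS) x1))
  have e : T ⊓ C1(x) = _ := h.eq_of_le (le_inf le h.le) inf_le_right hT.pi.inf_left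
  have hzS := e.le ⟨(omega_le hz).1, mem_C1.2 (mem_C.1 (omega_le hz).2 x (le hxS)).symm⟩
  obtain ⟨g, hg⟩ := hc.gen
  obtain rfl : z = x := inv_unique_zpowers (hg ▸ hzS) (hg ▸ hxS)
    (ord2.2 ⟨by rw [← sq]; exact omegaZ_elem.pow z hz, z1⟩) hx
  rw [inf_eq_left.2 (omegaZ_cent.trans (C_le_C1 hz))] at e
  exact exists_index_two_of_cyc hT (e ▸ hc) (ne_bot_of_mem (le hxS) x1)

end Cfsg.Agent.S0220
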