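import Cfsg.Statements.S0221
import Cfsg.Agent.H9.Hv2
import Cfsg.Agent.H2.BSWCor

set_option autoImplicit false
open Cfsg

namespace Cfsg.Agent.S0221

open H18 H9 Subgroup

/-- Let G be a finite group with no subgroup of index 2 whose 2-rank is at least 3 (it contains an elementary abelian subgroup of order 8). Then the centralizer of every involution of G also contains an elementary abelian subgroup of order 8. -/
theorem result {G : Type*} [Group G] [Finite G] (hno : ∀ H : Subgroup G, H.index ≠ 2) (hrank : ∃ E : Subgroup G, Nat.card E = 8 ∧ ∀ e ∈ E, e ^ 2 = 1) (x : G) (hx : orderOf x = 2) : ∃ E : Subgroup G, E ≤ Subgroup.centralizer ({x} : Set G) ∧ Nat.card E = 8 ∧ ∀ e ∈ E, e ^ 2 = 1 := by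
  have hp := Nat.prime_two
  obtain ⟨E, hE, e2⟩ := hrank
  have he : Elem 2 E := ⟨cent_iff.2 fun a ha b hb => comm_of_sq (sq a ▸ e2 a ha) (sq b ▸ e2 b hb)
    (sq (a * b) ▸ e2 _ (mul_mem ha hb)), e2⟩
  obtain ⟨S, hS, le⟩ := exists_sylow_le hp (he.pi hp) le_top
  have hb : H17.Big 2 S ⊥ := (H17.big_self le he hE.ge).mono bot_le le_rfl
  obtain ⟨U, hU, hUe⟩ := H17.exists_nml_sq hp hS.pi ((H17.big_bot_iff hp).1 hb)
  obtain ⟨g, hg⟩ : ∃ g : G, g * x * g⁻¹ ∈ C(U) := by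
    rcases (Nat.dvd_prime hp).1 (H17.relIndex_C_dvd hS.pi hp hU.norm hUe.card) with h | h
    · obtain ⟨g, -, e⟩ := sylow_le_cj hp hS (two_zpowers (ord2.1 hx).1) le_top
      exact ⟨g, relIndex_eq_one.1 h (e (conj_mem_cj (mem_zpowers x)))⟩
    · exact H2.isConj_of_no_index_two hS h hno hx
  have key : ∃ F, Elem 2 F ∧ 2 ^ 3 ≤ Nat.card F ∧ g * x * g⁻¹ ∈ F := by
    by_cases h : g * x * g⁻¹ ∈ U
    · obtain ⟨F, h1, -, h2, h3⟩ := H17.big_of_norm hp hS.pi hU.le hU.norm hUe.elem hUe.card hb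
      exact ⟨F, h2, h3, h1 h⟩
    · obtain ⟨F, h1, -, h2, h3⟩ := H17.big_of_elt hp le_top hUe.elem hUe.card.ge (mem_top _)
        (by rw [sq]; exact conj_sq (ord2.1 hx).1 g) hg h
      exact ⟨F, h2, h3, h1 (mem_sup_right (mem_zpowers _))⟩
  obtain ⟨F, h1, h2, h3⟩ := key
  obtain ⟨n, hn⟩ := h1.exists_pelem hp le_rfl
  obtain ⟨B, hB⟩ := hn.exists_sub hp (m := 3) ((Nat.pow_le_pow_iff_right one_lt_two).1 (hn.card ▸ h2))
  refine ⟨cj g⁻¹ B, ?_, by rw [card_cj, hB.card]; rfl, (hB.elem.cj _).pow⟩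
  rw [cj_le_iff, inv_inv, cj_C1]
  exact hB.le.trans (h1.abel.trans (C_le_C1 h3))

end Cfsg.Agent.S0221
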