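import Cfsg.Statements.S0230
import Cfsg.Agent.H9.InvCount

set_option autoImplicit false
open Cfsg

namespace Cfsg.Agent.S0230

/-- Let G be a finite group with two non-conjugate involutions, and let t be an involution whose centralizer has maximal order among centralizers of involutions. Then |G| < |C_G(t)|^3. -/
theorem result {G : Type*} [Group G] [Finite G] (s t : G) (hs : orderOf s = 2) (ht : orderOf t = 2) (hnc : ¬ IsConj s t) (hmax : ∀ u : G, orderOf u = 2 → Nat.card (Subgroup.centralizer ({u} : Set G)) ≤ Nat.card (Subgroup.centralizer ({t} : Set G))) : Nat.card G < Nat.card (Subgroup.centralizer ({t} : Set G)) ^ 3 := by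
  classical
  have := Fintype.ofFinite G
  set m := Nat.card (Subgroup.centralizer ({t} : Set G)) with hm
  have h1 := H9.card_conj_mul_card_centralizer s
  have h2 : Nat.card {y : G // IsConj s y} ≤
      Nat.card (Σ z : {z : G // orderOf z = 2 ∧ Commute z t}, {y : G // orderOf y = 2 ∧ Commute y z.1}) := by
    have key : ∀ y : {y : G // IsConj s y}, ∃ z : G, orderOf z = 2 ∧ Commute z y.1 ∧ Commute z t := by
      rintro ⟨y, hy⟩
      have hy2 : orderOf y = 2 := (H9.IsConj.orderOf_eq' hy).symm.trans hs
      rcases H9.isConj_or_exists_commute (H9.mul_self_of_orderOf hy2) (H9.mul_self_of_orderOf ht) with h | ⟨z, h1, -, h2, h3⟩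
      · exact absurd (hy.trans h) hnc
      · exact ⟨z, h1, h2, h3⟩
    choose f hf using key
    refine Nat.card_le_card_of_injective (fun y => ⟨⟨f y, (hf y).1, (hf y).2.2⟩,
      ⟨y.1, (H9.IsConj.orderOf_eq' y.2).symm.trans hs, (hf y).2.1.symm⟩⟩) ?_
    intro a b hab
    exact Subtype.ext (congrArg (fun p => p.2.1) hab)
  rw [Nat.card_sigma] at h2
  have h3 : ∑ z : {z : G // orderOf z = 2 ∧ Commute z t},
      Nat.card {y : G // orderOf y = 2 ∧ Commute y z.1} ≤ ∑ _z : {z : G // orderOf z = 2 ∧ Commute z t}, m := by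
    refine Finset.sum_le_sum fun z _ => ?_
    have := H9.card_involutions_commute_lt z.1
    have := hmax z.1 z.2.1
    omega
  rw [Finset.sum_const, Finset.card_univ, ← Nat.card_eq_fintype_card, smul_eq_mul] at h3
  have h4 := H9.card_involutions_commute_lt t
  have h5 := hmax s hs
  rw [← hm] at h4
  have h6 : Nat.card G ≤ (Nat.card {z : G // orderOf z = 2 ∧ Commute z t} * m) * m := by
    rw [← h1]; exact Nat.mul_le_mul (h2.trans h3) h5
  have hmpos : 0 < m := Nat.card_pos
  calc Nat.card G ≤ _ := h6
    _ < m * m * m := by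
      apply Nat.mul_lt_mul_of_pos_right _ hmpos
      apply Nat.mul_lt_mul_of_pos_right _ hmpos
      omega
    _ = m ^ 3 := by ring

end Cfsg.Agent.S0230
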