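import Cfsg.Statements.S0231
import Cfsg.Agent.H9.InvCount

set_option autoImplicit false
open scoped Pointwise
open Cfsg

namespace Cfsg.Agent.S0231

/-- Let T be a Sylow 2-subgroup of the finite group G which is not normal and which intersects every other Sylow 2-subgroup trivially. Then G has a single conjugacy class of involutions. -/
theorem result {G : Type*} [Group G] [Finite G] (T : Sylow 2 G) (hnn : ¬ (T : Subgroup G).Normal) (hTI : ∀ g : G, MulAut.conj g • (T : Subgroup G) ≠ T → MulAut.conj g • (T : Subgroup G) ⊓ T = ⊥) (s t : G) (hs : orderOf s = 2) (ht : orderOf t = 2) : IsConj s t := by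
  by_contra hnc
  have hTI' : ∀ R : Sylow 2 G, ∀ x : G, x ≠ 1 → x ∈ R → x ∈ T → R = T := by
    intro R x hx hxR hxT
    obtain ⟨g, rfl⟩ := MulAction.exists_smul_eq G T R
    by_contra hne
    have := hTI g (fun h => hne (Sylow.ext h))
    have hmem : x ∈ MulAut.conj g • (T : Subgroup G) ⊓ T := ⟨hxR, hxT⟩
    rw [this] at hmem
    exact hx hmem
  have hTI'' : ∀ R S : Sylow 2 G, ∀ x : G, x ≠ 1 → x ∈ R → x ∈ S → R = S := by
    intro R S x hx hxR hxS
    obtain ⟨g, rfl⟩ := MulAction.exists_smul_eq G T S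
    have := hTI' (g⁻¹ • R) (g⁻¹ * x * g) (by simpa [mul_assoc, inv_mul_eq_iff_eq_mul] using hx)
      (by rw [H9.mem_smul_sylow]; simpa [mul_assoc] using hxR) (H9.mem_smul_sylow.1 hxS)
    rw [← this, smul_inv_smul]
  obtain ⟨g, hg⟩ : ∃ g : G, g • T ≠ T := by
    by_contra h
    push Not at h
    apply hnn
    rw [← Subgroup.normalizer_eq_top_iff, eq_top_iff]
    exact fun g _ => Sylow.smul_eq_iff_mem_normalizer.1 (h g)
  obtain ⟨a, ha⟩ := H9.exists_conj_mem_sylow_two (H9.mul_self_of_orderOf hs) T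
  obtain ⟨b, hb⟩ := H9.exists_conj_mem_sylow_two (H9.mul_self_of_orderOf ht) (g • T)
  have hs' := (H9.orderOf_conj' a s).trans hs
  have ht' := (H9.orderOf_conj' b t).trans ht
  have key : ∀ (x z : G) (R : Sylow 2 G), orderOf x = 2 → orderOf z = 2 → Commute z x → x ∈ R → z ∈ R := by
    intro x z R hx hz hc hxR
    have hx2 := H9.mul_self_of_orderOf hx
    have hz2 := H9.mul_self_of_orderOf hz
    obtain ⟨S, hS⟩ := (H9.isPGroup_closure_pair hx2 hz2 (k := 1) (by
      rw [hc.symm.mul_pow, pow_one, pow_two, pow_two, hx2, hz2, one_mul])).exists_le_sylow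
    have := hTI'' S R x (H9.ne_one_of_orderOf hx) (hS (Subgroup.subset_closure (by simp))) hxR
    rw [← this]
    exact hS (Subgroup.subset_closure (by simp))
  rcases H9.isConj_or_exists_commute (H9.mul_self_of_orderOf hs') (H9.mul_self_of_orderOf ht') with h | ⟨z, h1, -, h2, h3⟩
  · exact hnc ((isConj_iff.2 ⟨a, rfl⟩).trans (h.trans (isConj_iff.2 ⟨b, rfl⟩).symm))
  · exact hg (hTI'' _ _ z (H9.ne_one_of_orderOf h1) (key _ z _ ht' h1 h3 hb) (key _ z _ hs' h1 h2 ha))

end Cfsg.Agent.S0231
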