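import Cfsg.Statements.S0232
import Cfsg.Agent.H9.Hv2

set_option autoImplicit false
open Cfsg

namespace Cfsg.Agent.S0232

open H18 H9 Subgroup
universe u

theorem aux (n : ℕ) : ∀ (G : Type u) [Group G] [Finite G], Nat.card G = n → Even (Nat.card G) → 2 < Nat.card G →
    ∃ H : Subgroup G, H ≠ ⊤ ∧ Nat.card G < (Nat.card H) ^ 3 := by
  induction n using Nat.strong_induction_on with | _ n ih => ?_
  intro G _ _ hn heven hgt
  by_cases h2 : ∃ H : Subgroup G, H.index = 2
  · obtain ⟨H, hH⟩ := h2
    have e := H.card_mul_index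
    refine ⟨H, fun h => by simp [h] at hH, ?_⟩
    rw [hH] at e
    have : 2 ≤ Nat.card H := by omega
    rw [← e, pow_succ', mul_lt_mul_iff_right₀ (by omega)]; nlinarith
  push Not at h2
  by_cases hZ : ∃ t : G, orderOf t = 2 ∧ t ∈ center G
  · obtain ⟨t, ht, hc⟩ := hZ
    have := normal_zpowers_of_center hc
    have e := card_eq_card_quotient_mul_card_subgroup (zpowers t)
    rw [Nat.card_zpowers, ht] at e
    have ev : Even (Nat.card (G ⧸ zpowers t)) := Nat.not_odd_iff_even.1 fun o =>
      (exists_index_two_of_cyc (hall_of_card_mul le_top (two_zpowers (ord2.1 ht).1) (H5.piNat_two_compl.2 o)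
        (by rw [card_top, e, Nat.card_zpowers, ht, mul_comm])) cyc_zpowers (zpowers_ne_bot.2 (ord2.1 ht).2)).elim h2
    have h3 : Nat.card (G ⧸ zpowers t) ≠ 2 := h2 _
    obtain ⟨H, h4, h5⟩ := ih _ (by omega) (G ⧸ zpowers t) rfl ev (by obtain ⟨k, hk⟩ := ev; omega)
    refine ⟨H.comap (QuotientGroup.mk' _), fun h => h4 (by
      rw [← map_comap_eq_self_of_surjective (QuotientGroup.mk'_surjective _) H, h,
        map_top_of_surjective _ (QuotientGroup.mk'_surjective _)]), ?_⟩
    have e1 := (H.comap (QuotientGroup.mk' _)).card_mul_index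
    have e2 := H.card_mul_index
    rw [index_comap_of_surjective _ (QuotientGroup.mk'_surjective _), e, ← e2, mul_right_comm,
      mul_left_inj' index_ne_zero_of_finite] at e1
    rw [e1, e, mul_pow]; omega
  push Not at hZ
  have : Nontrivial G := Finite.one_lt_card_iff_nontrivial.1 (by omega)
  obtain ⟨H, hH, hm⟩ := exists_min_index (G := G)
  obtain ⟨t, ht⟩ := exists_involution heven
  have h1 := brauer_fowler_index _ hm h2 hZ
  have h3 := (hm C1(t) fun e => hZ t ht (mem_center_iff.2 fun g => mem_C1.1 (e.ge (mem_top g)))).trans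
    (index_le_card_involutions ht)
  have h4 : Nat.card {t : G // orderOf t = 2} ≤ Nat.card G := Nat.card_le_card_of_injective _ Subtype.val_injective
  refine ⟨H, hH, ?_⟩
  have e := H.card_mul_index
  have h5 : 0 < H.index := Nat.pos_of_ne_zero index_ne_zero_of_finite
  generalize Nat.card {t : G // orderOf t = 2} = T, H.index = j, Nat.card H = h, Nat.card G = g at *
  have h6 : j ^ 3 < g ^ 2 := by nlinarith [Nat.mul_le_mul_left j (Nat.pow_le_pow_left h3 2), Nat.mul_le_mul_left g h4]
  subst e
  have h7 : j < h ^ 2 := by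
    rw [mul_pow, pow_succ'] at h6
    exact lt_of_mul_lt_mul_right h6 (Nat.zero_le _)
  rw [pow_succ']
  exact Nat.mul_lt_mul_of_pos_left h7 (Nat.pos_of_ne_zero fun e => by simp [e] at hgt)

/-- A finite group G of even order greater than 2 has a proper subgroup H with |G| < |H|^3. -/
theorem result {G : Type*} [Group G] [Finite G] (heven : Even (Nat.card G)) (hgt : 2 < Nat.card G) : ∃ H : Subgroup G, H ≠ ⊤ ∧ Nat.card G < (Nat.card H) ^ 3 := by
  exact aux _ G rfl heven hgt

end Cfsg.Agent.S0232
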