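import Cfsg.Statements.S0234
import Cfsg.Agent.H9.Hv2

set_option autoImplicit false
open Cfsg

namespace Cfsg.Agent.S0234

open H18 H9 Subgroup

theorem c3 : (Finset.univ.filter fun x : Equiv.Perm (Fin 3) => x * x = 1 ∧ x ≠ 1 ∧ Equiv.Perm.sign x = 1).card = 0 := by
  decide +kernel
theorem c4 : (Finset.univ.filter fun x : Equiv.Perm (Fin 4) => x * x = 1 ∧ x ≠ 1 ∧ Equiv.Perm.sign x = 1).card = 3 := by
  decide +kernel
theorem c5 : (Finset.univ.filter fun x : Equiv.Perm (Fin 5) => x * x = 1 ∧ x ≠ 1 ∧ Equiv.Perm.sign x = 1).card = 15 := by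
  decide +kernel

/-- In a finite simple group G of even order greater than 2, the number n of involutions satisfies 3n < |G|. -/
theorem result {G : Type*} [Group G] [Finite G] [IsSimpleGroup G] (heven : Even (Nat.card G)) (hgt : 2 < Nat.card G) : 3 * Nat.card {t : G // orderOf t = 2} < Nat.card G := by
  have hZ : ∀ t : G, orderOf t = 2 → t ∉ center G := fun t ht hc => by
    rcases (normal_zpowers_of_center hc).eq_bot_or_eq_top with e | e
    · exact (ord2.1 ht).2 (zpowers_eq_bot.1 e)
    · rw [← card_top, ← e, Nat.card_zpowers, ht] at hgt; omega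
  have h2 : ∀ H : Subgroup G, H.index ≠ 2 := fun H hH => by
    rcases (normal_of_index_eq_two hH).eq_bot_or_eq_top with e | e <;> rw [e] at hH <;> simp at hH; omega
  have : Nontrivial G := Finite.one_lt_card_iff_nontrivial.1 (by omega)
  obtain ⟨H, hH, hm⟩ := exists_min_index (G := G)
  have h1 := brauer_fowler_index _ hm h2 hZ
  obtain ⟨f, hf⟩ := exists_perm (rfl : H.index = _)
  have inj := (MonoidHom.ker_eq_bot_iff f).1 (hf.trans ((normalCore_normal H).eq_bot_or_eq_top.resolve_right
    fun e => hH (top_le_iff.1 (e ▸ normalCore_le H))))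
  have hs : ∀ g, Equiv.Perm.sign (f g) = 1 := fun g => by_contra fun e =>
    (exists_index_two (Equiv.Perm.sign.comp f) (piGrp_of_elt fun x _ => piElt_of_pow_eq_one Nat.prime_two
      (Int.units_sq x)) e).elim h2
  have h3 : Nat.card {t : G // orderOf t = 2} ≤ (Finset.univ.filter fun x : Equiv.Perm (Fin H.index) =>
      x * x = 1 ∧ x ≠ 1 ∧ Equiv.Perm.sign x = 1).card := by
    rw [← Fintype.card_subtype, ← Nat.card_eq_fintype_card]
    exact Nat.card_le_card_of_injective (fun t => ⟨f t, by rw [← map_mul, (ord2.1 t.2).1, map_one],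
      fun e => (ord2.1 t.2).2 (inj (e.trans (map_one f).symm)), hs _⟩) fun a b e => Subtype.ext (inj (congrArg Subtype.val e))
  have h4 : ∀ [Nontrivial (Fin H.index)], 2 * Nat.card G ∣ H.index.factorial := by
    intro _
    have := two_mul_nat_card_alternatingGroup (α := Fin H.index)
    rw [Nat.card_perm, Nat.card_fin] at this
    rw [← this]
    exact Nat.mul_dvd_mul_left 2 (card_dvd_of_injective (f.codRestrict (alternatingGroup _) hs)
      fun a b e => inj (congrArg Subtype.val e))
  have h5 := H.index_dvd_card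
  have h6 : H.index ≠ 1 := mt index_eq_one.1 hH
  have h7 := h2 H
  have h8 : H.index ≠ 0 := index_ne_zero_of_finite
  have ho := odd_card_involutions heven
  by_contra! hc
  generalize Nat.card {t : G // orderOf t = 2} = T, Nat.card G = g at *
  have h9 : H.index < 6 := by
    by_contra! e
    nlinarith [Nat.mul_le_mul_right (T ^ 2) e, Nat.mul_le_mul hc (Nat.add_le_add_right hc T), Nat.zero_le (H.index * T)]
  obtain ⟨k, rfl⟩ := ho
  obtain ⟨m, rfl⟩ := heven
  generalize H.index = j at *
  interval_cases j
  · omega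
  · omega
  · omega
  · rw [c3] at h3; omega
  · rw [c4] at h3
    have := Nat.le_of_dvd (by decide) h4
    have : k ≤ 1 := by omega
    have : m ≤ 4 := by omega
    interval_cases k <;> interval_cases m <;> omega
  · rw [c5] at h3
    have : k ≤ 7 := by omega
    have : m ≤ 22 := by omega
    simp only [Nat.factorial] at h4
    interval_cases m <;> first | omega | (interval_cases k <;> omega)

end Cfsg.Agent.S0234
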