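import Cfsg.Statements.S0239
import Cfsg.Agent.H9.InvCount

set_option autoImplicit false
open Cfsg

namespace Cfsg.Agent.S0239

/-- If some nontrivial element x of a finite group G is conjugate to x⁻¹, then |G| is even. -/
theorem result {G : Type*} [Group G] [Finite G] (x : G) (hx : x ≠ 1) (hreal : IsConj x x⁻¹) : Even (Nat.card G) := by
  by_contra hodd
  rw [Nat.not_even_iff_odd] at hodd
  obtain ⟨t, ht, -⟩ := H9.exists_involution_inverting hx hreal
    (hodd.of_dvd_nat (Subgroup.card_subgroup_dvd_card _))
  have := hodd.of_dvd_nat (orderOf_dvd_natCard t)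
  rw [ht] at this
  exact absurd this (by decide)

end Cfsg.Agent.S0239
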