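import Cfsg.Statements.S0240
import Cfsg.Agent.H9.InvCount

set_option autoImplicit false
open Cfsg

namespace Cfsg.Agent.S0240

/-- Let G be a finite group with n involutions and H a subgroup with |H|·(n+1) > |G|. Then some nontrivial h ∈ H is strongly real in G: an involution t of G satisfies t h t⁻¹ = h⁻¹. -/
theorem result {G : Type*} [Group G] [Finite G] (H : Subgroup G) (hH : Nat.card G < Nat.card H * (Nat.card {t : G // orderOf t = 2} + 1)) : ∃ h : G, h ∈ H ∧ h ≠ 1 ∧ ∃ t : G, orderOf t = 2 ∧ t * h * t⁻¹ = h⁻¹ := by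
  rw [H9.card_involutions_add_one] at hH
  have hlt : Nat.card (G ⧸ H) < Nat.card {t : G // t * t = 1} := by
    rw [← H.card_mul_index] at hH
    exact Nat.lt_of_mul_lt_mul_left hH
  have hni : ¬ Function.Injective (fun t : {t : G // t * t = 1} => (QuotientGroup.mk t.1 : G ⧸ H)) :=
    fun h => absurd (Nat.card_le_card_of_injective _ h) (not_le.2 hlt)
  obtain ⟨⟨s, hs⟩, ⟨t, ht⟩, hst, hne⟩ := Function.not_injective_iff.1 hni
  have hmem : s * t ∈ H := by
    have := QuotientGroup.eq.1 hst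
    rwa [H9.inv_eq_of_mul_self hs] at this
  have hne' : s ≠ t := fun h => hne (Subtype.ext h)
  refine ⟨s * t, hmem, fun h => hne' ?_, ?_⟩
  · rw [← H9.inv_eq_of_mul_self hs]; exact inv_eq_of_mul_eq_one_right h
  · by_cases h1 : s = 1
    · exact ⟨t, H9.orderOf_eq_two.2 ⟨ht, fun h => hne' (h1.trans h.symm)⟩, H9.right_inverts hs ht⟩
    · exact ⟨s, H9.orderOf_eq_two.2 ⟨hs, h1⟩, H9.left_inverts hs ht⟩

end Cfsg.Agent.S0240
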