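import Cfsg.Statements.S0250
import Cfsg.Agent.H10.Small
import Cfsg.Agent.H10.P1

set_option autoImplicit false
open Cfsg

namespace Cfsg.Agent.S0250

/-- SL_2(2) is isomorphic to S_3. -/
theorem result {F : Type*} [Field F] [Fintype F] (hF : Fintype.card F = 2) : Nonempty (Matrix.SpecialLinearGroup (Fin 2) F ≃* Equiv.Perm (Fin 3)) := by
  classical
  obtain ⟨f, hf⟩ := H10.exists_hom_perm (Matrix.ProjGenLinGroup (Fin 2) F) (OnePoint F) (n := 3)
    (by change Nat.card (Option F) = _; simp [hF])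
  refine H10.equiv_perm_of_injective (f.comp Matrix.SpecialLinearGroup.toPGL) ?_ ?_
  · rw [← MonoidHom.ker_eq_bot_iff, ← MonoidHom.comap_ker, hf,
      (MonoidHom.ker_eq_bot_iff _).2 MulAction.toPerm_injective, MonoidHom.comap_bot,
      Matrix.SpecialLinearGroup.toPGL_ker, ← Subgroup.card_eq_one, H10.card_center_SL2, hF]
    rfl
  · rw [H10.card_SL2, hF]; rfl

end Cfsg.Agent.S0250
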