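import Cfsg.Statements.S0257
import Cfsg.Agent.H10.PSL2Max
import Cfsg.Agent.S0251
import Cfsg.Agent.S0261

set_option autoImplicit false
open Cfsg

namespace Cfsg.Agent.S0257

/-- SL_2(3) has a normal subgroup of index 3 isomorphic to the quaternion group of order 8, and its centre has order 2. -/
theorem result {F : Type*} [Field F] [Fintype F] (hF : Fintype.card F = 3) : (∃ Q : Subgroup (Matrix.SpecialLinearGroup (Fin 2) F), Q.Normal ∧ Q.index = 3 ∧ Nonempty (Q ≃* QuaternionGroup 2)) ∧ Nat.card (Subgroup.center (Matrix.SpecialLinearGroup (Fin 2) F)) = 2 := by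
  have hZ : Nat.card (Subgroup.center (Matrix.SpecialLinearGroup (Fin 2) F)) = 2 := by
    rw [H10.card_center_SL2, hF]; rfl
  refine ⟨?_, hZ⟩
  obtain ⟨e⟩ := Cfsg.Agent.S0251.result hF
  have hG : Nat.card (Matrix.SpecialLinearGroup (Fin 2) F) = 2 ^ 3 * 3 := by rw [H10.card_SL2, hF]; rfl
  have hV := alternatingGroup.normal_kleinFour (α := Fin 4) (by simp)
  let Q := (alternatingGroup.kleinFour (Fin 4)).comap (e.toMonoidHom.comp (H10.π F))
  have hi : Q.index = 3 := by
    rw [Subgroup.index_comap_of_surjective _ (e.surjective.comp H10.π_surjective)]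
    have := (alternatingGroup.kleinFour (Fin 4)).index_mul_card
    rw [alternatingGroup.kleinFour_card_of_card_eq_four (by simp), H10.card_alt_four] at this
    omega
  have hQ : Nat.card Q = 2 ^ 3 := by
    have := Q.index_mul_card
    rw [hi, hG] at this
    omega
  obtain ⟨k, hk, ⟨e'⟩⟩ := Cfsg.Agent.S0261.result (by rw [hF]; decide)
    ((IsPGroup.of_card hQ).toSylow (by rw [hi]; norm_num))
  have h1 := Nat.card_congr e'.toEquiv
  rw [IsPGroup.toSylow_coe, hQ, Nat.card_eq_fintype_card, QuaternionGroup.card] at h1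
  obtain rfl : k = 1 := Nat.pow_right_injective le_rfl (by simp only; omega)
  exact ⟨Q, inferInstance, hi, ⟨e'⟩⟩

end Cfsg.Agent.S0257
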