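import Cfsg.Statements.S0262
import Cfsg.Agent.H10.SL2Sylow

set_option autoImplicit false
open Cfsg

namespace Cfsg.Agent.S0262

/-- For an odd prime r different from the characteristic, the Sylow r-subgroups of SL_2(q) are cyclic. -/
theorem result {F : Type*} [Field F] [Fintype F] (p : ℕ) [Fact p.Prime] [CharP F p] (r : ℕ) [Fact r.Prime] (hr : r ≠ 2) (hrp : r ≠ p) (R : Sylow r (Matrix.SpecialLinearGroup (Fin 2) F)) : IsCyclic (R : Subgroup (Matrix.SpecialLinearGroup (Fin 2) F)) := by
  obtain ⟨k, hk⟩ := R.isPGroup'.exists_card_eq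
  refine H10.isCyclic_of_le_SL2_of_coprime p _ (fun h => hrp ?_) (fun h => hr ?_)
  · rw [hk] at h
    exact ((Nat.prime_dvd_prime_iff_eq Fact.out Fact.out).1
      ((Fact.out : p.Prime).dvd_of_dvd_pow h)).symm
  · rw [hk] at h
    exact ((Nat.prime_dvd_prime_iff_eq Nat.prime_two Fact.out).1
      (Nat.prime_two.dvd_of_dvd_pow h)).symm

end Cfsg.Agent.S0262
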