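import Cfsg.Statements.S0266
import Cfsg.Agent.H10.P1

set_option autoImplicit false
open scoped MatrixGroups
open Cfsg

namespace Cfsg.Agent.S0266

open H10 OnePoint in
theorem e_smul {F : Type*} [Field F] [DecidableEq F] (g : Matrix.ProjGenLinGroup (Fin 2) F)
    (x : OnePoint F) : equivProjectivization F (g • x) = g • equivProjectivization F x := by
  induction g using Matrix.ProjGenLinGroup.induction_on with | mk g =>
  rw [pgl_mk_smul, equivProjectivization_smul]
  rfl

open H10 OnePoint in
theorem exists_smul_emb {F : Type*} [Field F]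
    (x y : Fin 3 ↪ Projectivization F (Fin 2 → F)) :
    ∃ g : Matrix.ProjGenLinGroup (Fin 2) F, ∀ i, g • x i = y i := by
  classical
  have key : ∀ x : Fin 3 ↪ Projectivization F (Fin 2 → F), ∃ g : Matrix.ProjGenLinGroup (Fin 2) F,
      g • equivProjectivization F ∞ = x 0 ∧ g • equivProjectivization F ((0 : F) : OnePoint F) = x 1 ∧
      g • equivProjectivization F ((1 : F) : OnePoint F) = x 2 := fun x => by
    have hi : Function.Injective fun i => (equivProjectivization F).symm (x i) :=
      (equivProjectivization F).symm.injective.comp x.injective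
    obtain ⟨g, h0, h1, h2⟩ := exists_smul_three (hi.ne (show (0 : Fin 3) ≠ 1 by decide))
      (hi.ne (show (0 : Fin 3) ≠ 2 by decide)) (hi.ne (show (1 : Fin 3) ≠ 2 by decide))
    refine ⟨g, ?_, ?_, ?_⟩ <;> rw [← e_smul]
    · rw [h0, Equiv.apply_symm_apply]
    · rw [h1, Equiv.apply_symm_apply]
    · rw [h2, Equiv.apply_symm_apply]
  obtain ⟨g, a0, a1, a2⟩ := key x
  obtain ⟨h, b0, b1, b2⟩ := key y
  refine ⟨h * g⁻¹, fun i => ?_⟩
  fin_cases i
  · exact (by rw [← a0, mul_smul, inv_smul_smul, b0] : (h * g⁻¹) • x 0 = y 0)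
  · exact (by rw [← a1, mul_smul, inv_smul_smul, b1] : (h * g⁻¹) • x 1 = y 1)
  · exact (by rw [← a2, mul_smul, inv_smul_smul, b2] : (h * g⁻¹) • x 2 = y 2)

/-- PGL_2(F) is sharply 3-transitive on the projective line: it is 3-transitive and the stabiliser of three distinct points is trivial. -/
theorem result {F : Type*} [Field F] : MulAction.IsMultiplyPretransitive (Matrix.ProjGenLinGroup (Fin 2) F) (Projectivization F (Fin 2 → F)) 3 ∧ ∀ (g : Matrix.ProjGenLinGroup (Fin 2) F) (a b c : Projectivization F (Fin 2 → F)), a ≠ b → a ≠ c → b ≠ c → g • a = a → g • b = b → g • c = c → g = 1 := by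
  classical
  refine ⟨MulAction.isMultiplyPretransitive_iff.2 fun x y => ?_, fun g a b c hab hac hbc ha hb hc => ?_⟩
  · obtain ⟨g, hg⟩ := exists_smul_emb x y
    exact ⟨g, Function.Embedding.ext hg⟩
  · obtain ⟨a, rfl⟩ := (OnePoint.equivProjectivization F).surjective a
    obtain ⟨b, rfl⟩ := (OnePoint.equivProjectivization F).surjective b
    obtain ⟨c, rfl⟩ := (OnePoint.equivProjectivization F).surjective c
    rw [← e_smul, Equiv.apply_eq_iff_eq] at ha hb hc
    exact H10.eq_one_of_fix_three (fun e => hab (congrArg _ e)) (fun e => hac (congrArg _ e))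
      (fun e => hbc (congrArg _ e)) ha hb hc

end Cfsg.Agent.S0266
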