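import Cfsg.Statements.S0267
import Cfsg.Agent.H10.P1
import Cfsg.Agent.S0266
import Mathlib.FieldTheory.Finite.Basic

set_option autoImplicit false
open Cfsg

namespace Cfsg.Agent.S0267

theorem sl_smul {F : Type*} [Field F] (s : Matrix.SpecialLinearGroup (Fin 2) F)
    (x : Projectivization F (Fin 2 → F)) : s • x = Matrix.SpecialLinearGroup.toPGL s • x := by
  induction x using Projectivization.ind
  rfl

/-- SL_2(q) is 3-transitive on the q+1 points of the projective line if and only if q is even. -/
theorem result {F : Type*} [Field F] [Fintype F] : MulAction.IsMultiplyPretransitive (Matrix.SpecialLinearGroup (Fin 2) F) (Projectivization F (Fin 2 → F)) 3 ↔ ringChar F = 2 := by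
  classical
  rw [MulAction.isMultiplyPretransitive_iff]
  constructor
  · intro h
    by_contra h2
    obtain ⟨a, ha⟩ := FiniteField.exists_nonsquare h2
    have ha0 : a ≠ 0 := by rintro rfl; exact ha ⟨0, by simp⟩
    let x : Fin 3 ↪ Projectivization F (Fin 2 → F) :=
      ⟨fun i => OnePoint.equivProjectivization F (![OnePoint.infty, ((0 : F) : OnePoint F), ((1 : F) : OnePoint F)] i),
        (OnePoint.equivProjectivization F).injective.comp (by
          intro i j; fin_cases i <;> fin_cases j <;> simp)⟩
    obtain ⟨s, hs⟩ := h x (H10.aff a ha0 0 • x)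
    have e := fun i => congrArg (fun y : Fin 3 ↪ Projectivization F (Fin 2 → F) => y i) hs
    simp only [Function.Embedding.smul_apply, sl_smul] at e
    have := Cfsg.Agent.S0266.result.2 ((H10.aff a ha0 0)⁻¹ * Matrix.SpecialLinearGroup.toPGL s)
      (x 0) (x 1) (x 2) (x.injective.ne (by decide)) (x.injective.ne (by decide))
      (x.injective.ne (by decide)) (by rw [mul_smul, e, inv_smul_smul])
      (by rw [mul_smul, e, inv_smul_smul]) (by rw [mul_smul, e, inv_smul_smul])
    rw [inv_mul_eq_one] at this
    exact ha ((H10.aff_mem_PSL2_iff ha0 0).1 (H10.mem_PSL2_iff_exists.2 ⟨s, this.symm⟩))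
  · intro h x y
    obtain ⟨g, hg⟩ := Cfsg.Agent.S0266.exists_smul_emb x y
    obtain ⟨a, b, c, d, hd, rfl⟩ := H10.mob_surj g
    obtain ⟨s, hs⟩ := H10.mem_PSL2_iff_exists.1
      ((H10.mob_mem_PSL2_iff hd).2 (FiniteField.isSquare_of_char_two h _))
    exact ⟨s, Function.Embedding.ext fun i => by
      rw [Function.Embedding.smul_apply, sl_smul, hs, hg]⟩

end Cfsg.Agent.S0267
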