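import Cfsg.Statements.S0275
import Cfsg.Agent.H10.SL2Sylow

set_option autoImplicit false
open Cfsg

namespace Cfsg.Agent.S0275

/-- If p is odd and H is a subgroup of SL_2(q), q a power of p, with more than one Sylow p-subgroup, then the Sylow 2-subgroups of H are generalised quaternion. -/
theorem result {F : Type*} [Field F] [Fintype F] (p : ℕ) [Fact p.Prime] [CharP F p] (hp : p ≠ 2) (H : Subgroup (Matrix.SpecialLinearGroup (Fin 2) F)) (hH : 1 < Nat.card (Sylow p H)) (S : Sylow 2 H) : ∃ k : ℕ, 1 ≤ k ∧ Nonempty ((S : Subgroup H) ≃* QuaternionGroup (2 ^ k)) := by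
  obtain ⟨f, hf, h⟩ := H10.exists_SL2_prime_le p hp H hH
  have h2 : (2 : F) ≠ 0 := fun h => hp ((Nat.prime_dvd_prime_iff_eq Fact.out Nat.prime_two).1
    ((CharP.cast_eq_zero_iff F p 2).1 (by exact_mod_cast h)))
  have h2' : (2 : ZMod p) ≠ 0 := fun h => hp ((Nat.prime_dvd_prime_iff_eq Fact.out Nat.prime_two).1
    ((CharP.cast_eq_zero_iff (ZMod p) p 2).1 (by exact_mod_cast h)))
  obtain ⟨g, hg⟩ := H10.exists_Q8_SL2_finite h2'
  exact H10.quaternion_sylow_of_Q8 h2 H.subtype H.subtype_injective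
    ((f.codRestrict H fun x => h ⟨x, rfl⟩).comp g)
    (fun x y e => hg (hf (congrArg Subtype.val e))) S

end Cfsg.Agent.S0275
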