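import Cfsg.Statements.S0276
import Cfsg.Agent.H10.PSL2Max
import Mathlib.GroupTheory.SpecificGroups.KleinFour

set_option autoImplicit false
open Cfsg

namespace Cfsg.Agent.S0276

/-- For q = 3 or 5 mod 8 the Sylow 2-subgroups of PSL_2(q) are elementary abelian of order 4. -/
theorem result {F : Type*} [Field F] [Fintype F] {q : ℕ} (hF : Fintype.card F = q) (hq : q % 8 = 3 ∨ q % 8 = 5) (P : Sylow 2 (Matrix.ProjectiveSpecialLinearGroup (Fin 2) F)) : IsKleinFour (P : Subgroup (Matrix.ProjectiveSpecialLinearGroup (Fin 2) F)) := by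
  subst hF
  have h2 := H24.two_ne_zero_of_odd (F := F) (Nat.odd_iff.2 (by omega))
  have hG := H10.card_PSL2 (F := F)
  obtain ⟨m, hm, hm2⟩ : ∃ m, Nat.card (Matrix.ProjectiveSpecialLinearGroup (Fin 2) F) = 2 ^ 2 * m ∧
      ¬ 2 ∣ m := by
    rw [Nat.gcd_eq_left (by omega)] at hG
    obtain ⟨k, hk⟩ : ∃ k, Fintype.card F = 8 * k + 3 ∨ Fintype.card F = 8 * k + 5 :=
      ⟨Fintype.card F / 8, by omega⟩
    rcases hk with hk | hk <;> rw [hk] at hG
    · refine ⟨(8 * k + 3) * (4 * k + 1) * (2 * k + 1), ?_, ?_⟩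
      · rw [show 8 * k + 3 - 1 = 8 * k + 2 from rfl] at hG; linarith
      · exact Odd.not_two_dvd_nat (Odd.mul (Odd.mul ⟨4 * k + 1, by ring⟩ ⟨2 * k, by ring⟩) ⟨k, rfl⟩)
    · refine ⟨(8 * k + 5) * (2 * k + 1) * (4 * k + 3), ?_, ?_⟩
      · rw [show 8 * k + 5 - 1 = 8 * k + 4 from rfl] at hG; linarith
      · exact Odd.not_two_dvd_nat
          (Odd.mul (Odd.mul ⟨4 * k + 2, by ring⟩ ⟨k, rfl⟩) ⟨2 * k + 1, by ring⟩)
  have hP := H10.sylow_card_of hm hm2 P
  obtain ⟨p, hp⟩ := CharP.exists F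
  have : Fact p.Prime := ⟨CharP.char_is_prime F p⟩
  have hP1 : Nontrivial P := Finite.one_lt_card_iff_nontrivial.1 (by rw [hP]; norm_num)
  refine ⟨hP, (Monoid.exponent_eq_prime_iff Nat.prime_two).2 fun g hg => ?_⟩
  have h1 : orderOf g ∣ 2 ^ 2 := hP ▸ orderOf_dvd_natCard g
  obtain ⟨i, hi, h3⟩ := (Nat.dvd_prime_pow Nat.prime_two).1 h1
  have h4 := H10.orderOf_PSL2_dvd p (H10.ι_mem g.1)
  rw [orderOf_injective _ H10.ι_injective, Subgroup.orderOf_coe, h3, Nat.gcd_eq_left (by omega)] at h4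
  interval_cases i
  · exact absurd (orderOf_eq_one_iff.1 h3) hg
  · exact h3
  · rcases h4 with h | h | h
    · rcases (Nat.dvd_prime Fact.out).1 h with h | h
      · omega
      · exact absurd (h ▸ Fact.out : Nat.Prime (2 ^ 2)) (by norm_num)
    all_goals omega

end Cfsg.Agent.S0276
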