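import Cfsg.Statements.S0282
import Cfsg.Agent.H19.U32

set_option autoImplicit false
open Cfsg

namespace Cfsg.Agent.S0282

/-- PSU_3(2) is a solvable group of order 72. -/
theorem result {F : Type*} [Field F] [Fintype F] (hF : Fintype.card F = 4) : Nat.card (Cfsg.PSU 3 F 2) = 72 ∧ Group.IsSolvable (Cfsg.PSU 3 F 2) := by
  obtain ⟨hc, N, _, h1, -, ⟨e⟩⟩ := H19.U32.psu32 hF
  have := (IsPGroup.of_card (p := 3) (n := 2) h1).isNilpotent
  have := (IsPGroup.of_card (p := 2) (n := 3) (G := QuaternionGroup 2) (by simp [QuaternionGroup.card])).isNilpotent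
  exact ⟨hc, Group.isSolvable_of_ker_le_range N.subtype (e.toMonoidHom.comp (QuotientGroup.mk' N)) fun x hx => by
    simpa using hx⟩

end Cfsg.Agent.S0282
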