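import Cfsg.Statements.S0284
import Cfsg.Agent.H11.Unit

set_option autoImplicit false
open Cfsg

namespace Cfsg.Agent.S0284

/-- The standard Hermitian form on F^n, |F| = q^2, has exactly q^(n-1) (q^n - (-1)^n) vectors of norm 1. -/
theorem result {F : Type*} [Field F] [Fintype F] {q : ℕ} (hF : Fintype.card F = q ^ 2) (n : ℕ) : Nat.card {v : Fin n → F // Cfsg.hermForm n F q v v = 1} = (if Even n then q ^ (n - 1) * (q ^ n - 1) else q ^ (n - 1) * (q ^ n + 1)) := by
  obtain ⟨σ, hq, hσ, hne⟩ := H11.exists_frob hF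
  have hF' : Nat.card F = q ^ 2 := by rw [Nat.card_eq_fintype_card, hF]
  obtain ⟨θ, hθ⟩ := H11.exists_trace_one hσ hne
  have h1 : Nat.card {v : Fin n → F // Cfsg.hermForm n F q v v = 1} =
      (H11.stdUnit hσ hne (Fin n)).cnt θ :=
    Nat.card_congr (Equiv.subtypeEquivRight fun v => by
      rw [H11.PForm.unit_congr_iff, H11.stdUnit_h_eq hσ hne hq, hθ])
  rcases n with _ | n
  · simp [Cfsg.hermForm]
  rw [h1, (H11.stdUnit_nondeg hσ hne (Fin (n + 1))).unit_cnt_ne hne hF' (n := n) (by simp)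
    (by simp [hθ])]
  by_cases h : Even n <;> simp [h, Nat.even_add_one]

end Cfsg.Agent.S0284
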