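import Cfsg.Statements.S0301
import Cfsg.Agent.H11.Spin
import Cfsg.Agent.H25.Sp4
import Cfsg.Agent.H12.Orth

set_option autoImplicit false
open Cfsg

namespace Cfsg.Agent.S0301

/-- PΩ_5(q) is isomorphic to PSp_4(q) for q odd. -/
theorem result {F : Type*} [Field F] [Fintype F] (hodd : Odd (Fintype.card F)) : Nonempty (Cfsg.POmega F (Cfsg.quadFormOdd 2 F) ≃* Cfsg.PSp 2 F) := by
  have h3 : 3 ≤ Nat.card F := by
    have := Fintype.one_lt_card (α := F)
    rw [Nat.card_eq_fintype_card]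
    obtain ⟨k, hk⟩ := hodd
    omega
  obtain ⟨ψ, -⟩ := H12.exists_iso_B2 (F := F) (H11.exists_ne_zero_ne_one h3)
  obtain ⟨φ, -⟩ := H25.exists_isoC2 (F := F)
  exact ⟨ψ.symm.trans φ⟩

end Cfsg.Agent.S0301
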