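import Cfsg.Statements.S0304
import Cfsg.Agent.H11.Inv2

set_option autoImplicit false
open Cfsg

namespace Cfsg.Agent.S0304

/-- In characteristic 2, O_{2m+1}(q) is isomorphic to Sp_{2m}(q). -/
theorem result {F : Type*} [Field F] [Fintype F] [CharP F 2] (m : ℕ) : Nonempty (Cfsg.isometryGroup F (Cfsg.quadFormOdd m F) ≃* Matrix.symplecticGroup (Fin m) F) := by
  have hS := H11.stdSymp_nondeg (F := F) m
  let π := LinearMap.funLeft F F (Sum.inr : Fin m ⊕ Fin m → Unit ⊕ (Fin m ⊕ Fin m))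
  let ι := H11.sumInr F Unit (Fin m ⊕ Fin m)
  have h0 : ∀ x, π (ι x) = x := fun _ => rfl
  have h1 : ∀ x y, (H11.stdSymp m F).h (π x) (π y) = (H11.sOdd m F).h x y := fun x y => by
    simp [π, H11.stdSymp_h, H11.qOdd_polar, H11.sympForm_eq, CharTwo.sub_eq_add, add_comm,
      CharTwo.two_eq_zero]
  have h2 : ∀ (g : (H11.sOdd m F).Isom) x, π (g.1 (ι (π x))) = π (g.1 x) := fun g x =>
    hS.ext_left fun y => by
      rw [← h0 y, h1, h1, H11.PForm.isom_h_left, H11.PForm.isom_h_left, ← h1, ← h1, h0]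
  have h3 : ∀ x, H11.qOdd m F x = x (.inl ()) ^ 2 + H11.qPlus m F (π x) := fun _ => rfl
  let φ : (H11.sOdd m F).Isom →* (H11.stdSymp m F).Isom := MonoidHom.mk' (fun g =>
    H11.PForm.mkIsom hS (π ∘ₗ g.1.toLinearMap ∘ₗ ι) (H11.PForm.symp_isIsom fun x y => by
      simp only [LinearMap.comp_apply, LinearEquiv.coe_coe, h1, H11.PForm.isom_h]
      rw [← h1, h0, h0])) fun g g' => H11.PForm.isom_ext fun x => (h2 g _).symm
  have h4 : ∀ g x, (φ g).1 x = π (g.1 (ι x)) := fun _ _ => rfl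
  refine ⟨(H11.orthEquiv (H11.qOdd m F)).trans ((MulEquiv.ofBijective φ ⟨(injective_iff_map_eq_one φ).2
    fun g hg => H11.PForm.isom_ext fun x => ?_, fun A => ?_⟩).trans (H11.spEquiv m F).symm)⟩
  · have h5 : π (g.1 x) = π x := by rw [← h2, ← h4, hg]; rfl
    have h6 := H11.PForm.orth_isom_q g x
    rw [H11.orthS_q, h3, h3, h5, add_left_inj] at h6
    ext (i | i)
    exacts [frobenius_inj F 2 h6, congrFun h5 i]
  · obtain ⟨l, hl⟩ := H11.exists_dual_sq (fun v => H11.qPlus m F (A.1 v) + H11.qPlus m F v)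
      (fun x y => by
        have h5 : ∀ u v, QuadraticMap.polar (H11.qPlus m F) u v = (H11.stdSymp m F).h u v :=
          fun u v => by simp [H11.qPlus_polar, H11.stdSymp_h, H11.sympForm_eq, CharTwo.sub_eq_add, add_comm]
        simp only [map_add, QuadraticMap.map_add (H11.qPlus m F), h5, H11.PForm.isom_h]
        linear_combination CharTwo.add_self_eq_zero ((H11.stdSymp m F).h x y))
      fun c x => by simp [QuadraticMap.map_smul]; ring
    let f : (Unit ⊕ (Fin m ⊕ Fin m) → F) →ₗ[F] _ := ι ∘ₗ A.1.toLinearMap ∘ₗ π +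
      (LinearMap.proj (Sum.inl ()) + l ∘ₗ π).smulRight (Pi.single (.inl ()) 1)
    have h5 : ∀ x, π (f x) = A.1 (π x) := fun x => by ext i; simp [f, π, ι, H11.sumInr]
    have h6 : ∀ x, f x (.inl ()) = x (.inl ()) + l (π x) := fun x => by simp [f, ι, H11.sumInr]
    refine ⟨⟨LinearEquiv.ofInjectiveEndo f ((injective_iff_map_eq_zero f).2 fun x hx => ?_),
      H11.PForm.orth_isIsom (f := f) fun x => ?_⟩, H11.PForm.isom_ext fun x => h5 _⟩
    · have h7 : π x = 0 := by simpa [hx] using (h5 x).symm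
      ext (i | i)
      exacts [by simpa [hx, h7] using (h6 x).symm, congrFun h7 i]
    · rw [H11.orthS_q, h3, h3, h5, h6]
      linear_combination hl (π x) + CharTwo.add_self_eq_zero (x (.inl ()) * l (π x) + l (π x) ^ 2 -
        H11.qPlus m F (π x))

end Cfsg.Agent.S0304
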