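import Cfsg.Statements.S0307
import Cfsg.Agent.H10.SL
import Mathlib.GroupTheory.SpecificGroups.Cyclic

set_option autoImplicit false
open Cfsg

namespace Cfsg.Agent.S0307

open Matrix

/-- PSL_n(q) is normal in PGL_n(q) with cyclic quotient of order gcd(n, q-1): the image of the natural map PSL_n → PGL_n is the kernel of a surjective homomorphism onto the cyclic group of that order. -/
theorem result {F : Type*} [Field F] [Fintype F] {q : ℕ} (hF : Fintype.card F = q) (n : ℕ) (hn : 1 ≤ n) : ∃ g : Matrix.ProjGenLinGroup (Fin n) F →* Multiplicative (ZMod (Nat.gcd n (q - 1))), Function.Surjective g ∧ g.ker = (Matrix.ProjectiveSpecialLinearGroup.toPGL : Matrix.ProjectiveSpecialLinearGroup (Fin n) F →* Matrix.ProjGenLinGroup (Fin n) F).range := by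
  have : NeZero n := ⟨by omega⟩
  let Q := (powMonoidHom n : Fˣ →* Fˣ).range
  let d : ProjGenLinGroup (Fin n) F →* Fˣ ⧸ Q := ProjGenLinGroup.lift
    ((QuotientGroup.mk' Q).comp GeneralLinearGroup.det) (MonoidHom.ext fun u => by
      simp only [MonoidHom.comp_apply, QuotientGroup.mk'_apply, MonoidHom.one_apply,
        QuotientGroup.eq_one_iff]
      exact ⟨u, Units.ext (by simp)⟩)
  have hc : IsCyclic (Fˣ ⧸ Q) := isCyclic_of_surjective _ (QuotientGroup.mk'_surjective Q)
  have hcard : Nat.card (Fˣ ⧸ Q) = Nat.gcd n (q - 1) := by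
    rw [← Subgroup.index, IsCyclic.index_powMonoidHom_range, Nat.card_units,
      Nat.card_eq_fintype_card, hF, Nat.gcd_comm]
  let e := (zmodCyclicMulEquiv hc).symm
  rw [hcard] at e
  refine ⟨e.toMonoidHom.comp d, e.surjective.comp fun y => ?_, ?_⟩
  · obtain ⟨u, rfl⟩ := QuotientGroup.mk_surjective y
    obtain ⟨g, rfl⟩ := GeneralLinearGroup.det_surjective (n := Fin n) u
    exact ⟨ProjGenLinGroup.mk g, rfl⟩
  ext x
  obtain ⟨g, rfl⟩ := ProjGenLinGroup.mk_surjective x
  rw [MonoidHom.mem_ker, MonoidHom.comp_apply, MulEquiv.coe_toMonoidHom, map_eq_one_iff _ e.injective]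
  change ((GeneralLinearGroup.det g : Fˣ) : Fˣ ⧸ Q) = 1 ↔ _
  rw [QuotientGroup.eq_one_iff]
  constructor
  · rintro ⟨u, hu⟩
    obtain ⟨A, hA⟩ : g * (GeneralLinearGroup.scalar (Fin n) u)⁻¹ ∈
        (Matrix.SpecialLinearGroup.toGL : Matrix.SpecialLinearGroup (Fin n) F →* _).range := by
      rw [H10.range_toGL, MonoidHom.mem_ker, map_mul, map_inv, mul_inv_eq_one, ← hu]
      exact Units.ext (by simp)
    refine ⟨QuotientGroup.mk A, ?_⟩
    change ProjGenLinGroup.mk (Matrix.SpecialLinearGroup.toGL A) = _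
    rw [hA, map_mul, map_inv, ProjGenLinGroup.mk_scalar, inv_one, mul_one]
  · rintro ⟨y, hy⟩
    obtain ⟨A, rfl⟩ := QuotientGroup.mk_surjective y
    obtain ⟨u, hu⟩ := ProjGenLinGroup.mk_eq_mk_iff.1
      (show ProjGenLinGroup.mk (Matrix.SpecialLinearGroup.toGL A) = ProjGenLinGroup.mk g from hy)
    refine ⟨u, ?_⟩
    rw [← hu]
    exact Units.ext (by simp)

end Cfsg.Agent.S0307
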