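import Cfsg.Statements.S0310
import Cfsg.Agent.H13.BN2

set_option autoImplicit false
open Cfsg

namespace Cfsg.Agent.S0310

/-- For a set `J` of distinguished generators, the subgroup generated by `B` and `J` is exactly the union of
the double cosets `B n B` with `n` in the subgroup generated by `J` (so `B W_J B` is a subgroup). -/
theorem result {G : Type*} [Group G] (P : Cfsg.BNPair G) {J : Set G}
    (hJ : J ⊆ P.S) (g : G) :
    g ∈ P.parabolic J ↔ ∃ n ∈ Subgroup.closure J, g ∈ DoubleCoset.doubleCoset n (P.B : Set G) P.B := by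
  constructor
  · intro hg
    obtain ⟨l, hl, h⟩ := (H13.BN.mem_parabolic_iff_cell hJ g).mp hg
    refine ⟨H13.BN.wordN l, H13.BN.wordN_mem _ l fun s hs => Subgroup.subset_closure (hl s hs), ?_⟩
    rw [← H13.BN.cell_mk_iff_doubleCoset, H13.BN.mk_wordN]
    exact h
  · rintro ⟨n, hn, h⟩
    obtain ⟨b, hb, b', hb', rfl⟩ := DoubleCoset.mem_doubleCoset.mp h
    have hB : P.B ≤ P.parabolic J := le_sup_left
    have hC : Subgroup.closure J ≤ P.parabolic J := le_sup_right
    exact Subgroup.mul_mem _ (Subgroup.mul_mem _ (hB hb) (hC hn)) (hB hb')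

end Cfsg.Agent.S0310
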