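import Cfsg.Statements.S0316
import Cfsg.Agent.H13.BN2

set_option autoImplicit false
open Cfsg

namespace Cfsg.Agent.S0316

/-- The map `J ↦ P_J` is a lattice isomorphism from the power set of the set of distinguished generators onto the
subgroups containing `B`. -/
theorem result {G : Type*} [Group G] (P : Cfsg.BNPair G) :
    ∃ e : Set P.S ≃o {M : Subgroup G // P.B ≤ M},
      ∀ J : Set P.S, ((e J : {M : Subgroup G // P.B ≤ M}) : Subgroup G) = P.parabolic (Subtype.val '' J) := by
  have hsub : ∀ J : Set P.S, Subtype.val '' J ⊆ P.S := by
    rintro J _ ⟨s, _, rfl⟩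
    exact s.2
  have hmem : ∀ (J : Set P.S) (s : P.S), (s : G) ∈ P.parabolic (Subtype.val '' J) ↔ s ∈ J := by
    intro J s
    rw [H13.BN.mem_parabolic_S (hsub J) s.2]
    exact Subtype.val_injective.mem_set_image
  refine ⟨{ toFun := fun J => ⟨P.parabolic (Subtype.val '' J), le_sup_left⟩
            invFun := fun M => {s | (s : G) ∈ M.1}
            left_inv := fun J => by
              ext s
              exact hmem J s
            right_inv := fun M => by
              apply Subtype.ext
              simp only
              conv_rhs => rw [H13.BN.eq_parabolic_of_le M.1 M.2]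
              congr 1
              ext x
              constructor
              · rintro ⟨s, hs, rfl⟩
                exact ⟨s.2, hs⟩
              · rintro ⟨h1, h2⟩
                exact ⟨⟨x, h1⟩, h2, rfl⟩
            map_rel_iff' := ?_ }, fun J => rfl⟩
  intro J K
  constructor
  · intro h s hs
    exact (hmem K s).mp (h ((hmem J s).mpr hs))
  · intro h
    exact sup_le_sup_left (Subgroup.closure_mono (Set.image_mono h)) _

end Cfsg.Agent.S0316
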