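import Cfsg.Statements.S0321
import Cfsg.Agent.H13.BN2

set_option autoImplicit false
open Cfsg

namespace Cfsg.Agent.S0321

/-- For `n ∈ N` not in `B`, the union `B ∪ B n B` is (the underlying set of) a subgroup exactly when `n` agrees
modulo `B ⊓ N` with one of the distinguished representatives; thus the distinguished involutions are
determined by `B` and `N`. -/
theorem result {G : Type*} [Group G] (P : Cfsg.BNPair G) {n : G}
    (hn : n ∈ P.N) (hnB : n ∉ P.B) :
    (∃ H : Subgroup G, (H : Set G) = (P.B : Set G) ∪ DoubleCoset.doubleCoset n (P.B : Set G) P.B) ↔ ∃ s ∈ P.S, s⁻¹ * n ∈ P.B := by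
  constructor
  · rintro ⟨H, hH⟩
    have hB : P.B ≤ H := fun b hb => by
      rw [← SetLike.mem_coe, hH]
      exact Or.inl hb
    have hnH : n ∈ H := by
      rw [← SetLike.mem_coe, hH]
      exact Or.inr (DoubleCoset.mem_doubleCoset_self _ _ _)
    obtain ⟨l, hl, h⟩ := (H13.BN.gen P).exists_reduced (QuotientGroup.mk ⟨n, hn⟩)
    have h1 := H13.BN.letters_mem_of_cell H hB l (by unfold H13.InvGen.Reduced; rw [h, hl]) hnH
      (by rw [h]; exact H13.BN.cell_self ⟨n, hn⟩)
    cases l with
    | nil =>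
      exact absurd ((H13.BN.mk_eq_one_iff P).mp h.symm) hnB
    | cons s l =>
      have h2 : (s : G) ∈ (H : Set G) := h1 s List.mem_cons_self
      rw [hH] at h2
      rcases h2 with h2 | h2
      · exact absurd h2 (H13.BN.S_not_mem_B s)
      · refine ⟨s, s.2, ?_⟩
        have := H13.BN.cell_unique (H13.BN.cell_sW s)
          ((H13.BN.cell_mk_iff_doubleCoset (n := ⟨n, hn⟩)).mpr h2)
        exact (H13.BN.mk_eq_mk_iff P).mp this
  · rintro ⟨s, hs, h⟩
    have hJ : ({s} : Set G) ⊆ P.S := by simpa using hs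
    have hw : H13.BN.sW P ⟨s, hs⟩ = QuotientGroup.mk ⟨n, hn⟩ := (H13.BN.mk_eq_mk_iff P).mpr h
    refine ⟨P.parabolic {s}, ?_⟩
    ext g
    rw [SetLike.mem_coe, H13.BN.mem_parabolic_iff_cell hJ, Set.mem_union,
      ← H13.BN.cell_mk_iff_doubleCoset (n := ⟨n, hn⟩), ← hw, SetLike.mem_coe, ← H13.BN.cell_one_iff]
    constructor
    · rintro ⟨l, hl, hc⟩
      have : (H13.BN.gen P).wp l = 1 ∨ (H13.BN.gen P).wp l = H13.BN.sW P ⟨s, hs⟩ := by
        clear hc
        induction l with
        | nil => simp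
        | cons t l ih =>
          have ht : t = ⟨s, hs⟩ := Subtype.ext (hl t List.mem_cons_self)
          subst ht
          rcases ih (fun u hu => hl u (List.mem_cons_of_mem _ hu)) with ih | ih
          · simp [ih]
          · simp [ih, H13.BN.sW_sq]
      rcases this with h1 | h1
      · exact Or.inl (h1 ▸ hc)
      · exact Or.inr (h1 ▸ hc)
    · rintro (h1 | h1)
      · exact ⟨[], by simp, h1⟩
      · exact ⟨[⟨s, hs⟩], by simp, by simpa using h1⟩

end Cfsg.Agent.S0321
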