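import Cfsg.Statements.S0322
import Cfsg.Agent.H13.BN2

set_option autoImplicit false
open Cfsg

namespace Cfsg.Agent.S0322

/-- A group with a (B,N)-pair of rank one acts doubly transitively on the left cosets of `B`. -/
theorem result {G : Type*} [Group G] (P : Cfsg.BNPair G) (h : P.rank = 1) : MulAction.IsMultiplyPretransitive G (G ⧸ P.B) 2 := by
  obtain ⟨s⟩ := (Nat.card_eq_one_iff_unique.mp h).2
  have key : ∀ a b : G ⧸ P.B, a ≠ b → ∃ g : G, g • ((1 : G) : G ⧸ P.B) = a ∧
      g • (((s : G) : G) : G ⧸ P.B) = b := by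
    intro a b hab
    obtain ⟨x, rfl⟩ := QuotientGroup.mk_surjective a
    obtain ⟨y, rfl⟩ := QuotientGroup.mk_surjective b
    rcases H13.BN.rank_one_cases h s (x⁻¹ * y) with h1 | ⟨b, hb, b', hb', h1⟩
    · exact absurd (QuotientGroup.eq.mpr h1) hab
    · refine ⟨x * b, ?_, ?_⟩
      · rw [MulAction.Quotient.smul_mk, QuotientGroup.eq]
        simpa using hb
      · rw [MulAction.Quotient.smul_mk, QuotientGroup.eq]
        have : (x * b * s)⁻¹ * y = b' := by
          calc (x * b * s)⁻¹ * y = (b * s)⁻¹ * (x⁻¹ * y) := by group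
            _ = b' := by rw [h1]; group
        rw [smul_eq_mul, this]
        exact hb'
  rw [MulAction.is_two_pretransitive_iff]
  intro a b c d hab hcd
  obtain ⟨g, hg1, hg2⟩ := key a b hab
  obtain ⟨g', hg1', hg2'⟩ := key c d hcd
  refine ⟨g' * g⁻¹, ?_, ?_⟩
  · rw [← hg1, mul_smul, inv_smul_smul, hg1']
  · rw [← hg2, mul_smul, inv_smul_smul, hg2']

end Cfsg.Agent.S0322
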