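import Cfsg.Statements.S0323
import Cfsg.Agent.H13.BN2

set_option autoImplicit false
open scoped Pointwise
open Cfsg

namespace Cfsg.Agent.S0323

/-- A doubly transitive action on a set with at least three points yields a (B,N)-pair of rank one:
`B` is the stabiliser of a point `x`, `N` the setwise stabiliser of a pair `{x, y}`. -/
theorem result {G Ω : Type*} [Group G] [MulAction G Ω]
    (h2 : MulAction.IsMultiplyPretransitive G Ω 2) {x y z : Ω} (hxy : x ≠ y) (hyz : y ≠ z) (hxz : x ≠ z) :
    ∃ P : Cfsg.BNPair G, P.B = MulAction.stabilizer G x ∧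
      P.N = MulAction.stabilizer G ({x, y} : Set Ω) ∧ P.rank = 1 := by
  rw [MulAction.is_two_pretransitive_iff] at h2
  obtain ⟨s, hsx, hsy⟩ := h2 hxy hxy.symm
  have hN : ∀ n : G, n ∈ MulAction.stabilizer G ({x, y} : Set Ω) ↔
      (n • x = x ∧ n • y = y) ∨ (n • x = y ∧ n • y = x) := by
    intro n
    rw [MulAction.mem_stabilizer_iff, Set.smul_set_insert, Set.smul_set_singleton,
      Set.pair_eq_pair_iff]
  have hcell : ∀ g n : G, g • x ≠ x → n • x ≠ x →
      g ∈ DoubleCoset.doubleCoset n (MulAction.stabilizer G x : Set G) (MulAction.stabilizer G x) := by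
    intro g n hg hn
    obtain ⟨b, hb1, hb2⟩ := h2 hn.symm hg.symm
    refine DoubleCoset.mem_doubleCoset.mpr ⟨b, hb1, (b * n)⁻¹ * g, ?_, by group⟩
    rw [SetLike.mem_coe, MulAction.mem_stabilizer_iff, mul_smul, inv_smul_eq_iff, mul_smul, hb2]
  have hcell' : ∀ g n : G, g • x = x → n • x = x →
      g ∈ DoubleCoset.doubleCoset n (MulAction.stabilizer G x : Set G) (MulAction.stabilizer G x) := by
    intro g n hg hn
    refine DoubleCoset.mem_doubleCoset.mpr ⟨1, Subgroup.one_mem _, n⁻¹ * g, ?_, by group⟩
    rw [SetLike.mem_coe, MulAction.mem_stabilizer_iff, mul_smul, inv_smul_eq_iff, hg, hn]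
  have hsN : s ∈ MulAction.stabilizer G ({x, y} : Set Ω) := (hN s).mpr (Or.inr ⟨hsx, hsy⟩)
  refine ⟨{ B := MulAction.stabilizer G x
            N := MulAction.stabilizer G ({x, y} : Set Ω)
            S := {s}
            sup_eq_top := ?_
            conj_mem := ?_
            subset := by simpa using hsN
            sq_mem := ?_
            inj := ?_
            closure_sup := ?_
            mul_mem_union := ?_
            conj_ne := ?_ }, rfl, rfl, by simp [BNPair.rank]⟩
  · rw [eq_top_iff]
    intro g _
    by_cases hg : g • x = x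
    · exact (le_sup_left : MulAction.stabilizer G x ≤ _) hg
    · obtain ⟨b, hb, b', hb', rfl⟩ := DoubleCoset.mem_doubleCoset.mp
        (hcell g s hg (by rw [hsx]; exact hxy.symm))
      exact Subgroup.mul_mem _ (Subgroup.mul_mem _ (Subgroup.mem_sup_left hb)
        (Subgroup.mem_sup_right hsN)) (Subgroup.mem_sup_left hb')
  · intro n hn t ht
    have ht1 : t • x = x := ht.1
    have ht2 : t • y = y := by
      rcases (hN t).mp ht.2 with h | h
      · exact h.2
      · exact absurd (ht1.symm.trans h.1) hxy
    rw [MulAction.mem_stabilizer_iff, mul_smul, mul_smul]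
    rcases (hN n).mp hn with h | h
    · have : n⁻¹ • x = x := by rw [inv_smul_eq_iff, h.1]
      rw [this, ht1, h.1]
    · have : n⁻¹ • x = y := by rw [inv_smul_eq_iff, h.2]
      rw [this, ht2, h.2]
  · rintro _ rfl
    rw [MulAction.mem_stabilizer_iff, mul_smul, hsx, hsy]
  · rintro _ rfl _ rfl _
    rfl
  · apply le_antisymm
    · apply sup_le _ inf_le_right
      rw [Subgroup.closure_le]
      simpa using hsN
    · intro n hn
      rcases (hN n).mp hn with h | h
      · exact Subgroup.mem_sup_right ⟨h.1, hn⟩
      · have h1 : s⁻¹ * n ∈ MulAction.stabilizer G x ⊓ MulAction.stabilizer G ({x, y} : Set Ω) := by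
          refine ⟨?_, Subgroup.mul_mem _ (Subgroup.inv_mem _ hsN) hn⟩
          show (s⁻¹ * n) • x = x
          rw [mul_smul, inv_smul_eq_iff, h.1, hsx]
        have := Subgroup.mul_mem _ (Subgroup.mem_sup_left (Subgroup.subset_closure (Set.mem_singleton s)))
          (Subgroup.mem_sup_right h1)
        simpa using this
  · intro s' hs' n hn b hb
    rw [Set.mem_singleton_iff.mp hs']
    have hb' : b • x = x := hb
    rcases (hN n).mp hn with h | h
    · left
      apply hcell
      · rw [mul_smul, mul_smul, h.1, hb', hsx]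
        exact hxy.symm
      · rw [mul_smul, h.1, hsx]
        exact hxy.symm
    · by_cases h1 : (s * b * n) • x = x
      · left
        apply hcell' _ _ h1
        rw [mul_smul, h.1, hsy]
      · right
        apply hcell _ _ h1
        rw [h.1]
        exact hxy.symm
  · intro s' hs' h
    rw [Set.mem_singleton_iff.mp hs'] at h
    obtain ⟨b, hb1, hb2⟩ := h2 hxy hxz
    have : s * b * s ∈ (MulAction.stabilizer G x : Set G) := by
      rw [← h]
      exact ⟨b, hb1, rfl⟩
    rw [SetLike.mem_coe, MulAction.mem_stabilizer_iff, mul_smul, mul_smul, hsx, hb2, ← hsy,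
      smul_left_cancel_iff] at this
    exact hyz this.symm

end Cfsg.Agent.S0323
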