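import Cfsg.Statements.S0326

set_option autoImplicit false
open Cfsg

namespace Cfsg.Agent.S0326

/-- The Suzuki–Tits ovoid over a finite field with `q` elements has `q² + 1` points. -/
theorem result {F : Type*} [Field F] [Fintype F] (m : ℕ) :
    Nat.card (Cfsg.suzukiOvoid F m) = Fintype.card F ^ 2 + 1 := by
  have h0 : (![1, 0, 0, 0] : Fin 4 → F) ≠ 0 := by simp
  have h1 : ∀ x y : F, (![x * y + x ^ (2 ^ (m + 1) + 2) + y ^ (2 ^ (m + 1)), y, x, 1] : Fin 4 → F) ≠ 0 := by
    intro x y h
    simpa using congrFun h 3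
  let f : Option (F × F) → Cfsg.suzukiOvoid F m := fun o => o.elim
    ⟨Projectivization.mk F _ h0, _, h0, rfl, Or.inl rfl⟩
    fun p => ⟨Projectivization.mk F _ (h1 p.1 p.2), _, h1 p.1 p.2, rfl, Or.inr ⟨_, _, rfl⟩⟩
  have hne : ∀ x y : F, Projectivization.mk F _ (h1 x y) ≠ Projectivization.mk F _ h0 := by
    intro x y h
    rw [Projectivization.mk_eq_mk_iff'] at h
    obtain ⟨a, ha⟩ := h
    simpa using congrFun ha 3
  have hf : Function.Bijective f := by
    constructor
    · rintro (_ | ⟨x, y⟩) (_ | ⟨x', y'⟩) h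
      · rfl
      · exact absurd (congrArg Subtype.val h).symm (hne _ _)
      · exact absurd (congrArg Subtype.val h) (hne _ _)
      · have h2 := congrArg Subtype.val h
        simp only [f, Option.elim, Projectivization.mk_eq_mk_iff'] at h2
        obtain ⟨a, ha⟩ := h2
        have h3 : a = 1 := by simpa using congrFun ha 3
        subst h3
        have h4 := congrFun ha 1
        have h5 := congrFun ha 2
        simp at h4 h5
        rw [h4, h5]
    · rintro ⟨p, v, hv, rfl, rfl | ⟨x, y, rfl⟩⟩
      · exact ⟨none, rfl⟩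
      · exact ⟨some (x, y), rfl⟩
  rw [← Nat.card_eq_of_bijective f hf]
  simp [sq]

end Cfsg.Agent.S0326
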