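import Cfsg.Statements.S0332
import Cfsg.Agent.H13.SzTori

set_option autoImplicit false
open Cfsg

namespace Cfsg.Agent.S0332

/-- The Suzuki group is a CN-group: every non-identity element has nilpotent centraliser. -/
theorem result {F : Type*} [Field F] [Fintype F] {m : ℕ} (hm : 1 ≤ m)
    (hF : Fintype.card F = 2 ^ (2 * m + 1)) : Cfsg.IsCNGroup (Cfsg.Sz F m) := by
  have : H13.Sz.IsSz F m := ⟨hm, hF⟩
  exact fun g hg => H13.Sz.isNilpotent_centralizer hg

end Cfsg.Agent.S0332
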