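import Cfsg.Statements.S0335
import Cfsg.Agent.H13.SzGroup

set_option autoImplicit false
open Cfsg

namespace Cfsg.Agent.S0335

/-- The Suzuki–Tits point set is an ovoid: any three distinct points of it are projectively independent
(no line of projective 3-space meets it in more than two points). -/
theorem result {F : Type*} [Field F] [Fintype F] {m : ℕ} (hm : 1 ≤ m)
    (hF : Fintype.card F = 2 ^ (2 * m + 1)) (p : Fin 3 ↪ Cfsg.suzukiOvoid F m) :
    Projectivization.Independent (fun i => (p i : Projectivization F (Fin 4 → F))) := by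
  have : H13.Sz.IsSz F m := ⟨hm, hF⟩
  obtain ⟨g, h0, h1⟩ := H13.Sz.exists_smul_eq_pair (p.injective.ne (show (0 : Fin 3) ≠ 1 by decide))
  have h2 : g⁻¹ • p 2 ≠ H13.Sz.ptInf F m := by
    rw [Ne, inv_smul_eq_iff, h0]
    exact p.injective.ne (by decide)
  obtain ⟨x, y, h3⟩ := H13.Sz.exists_pt_of_ne h2
  have h4 : ¬ (x = 0 ∧ y = 0) := by
    rintro ⟨rfl, rfl⟩
    rw [inv_smul_eq_iff, h1] at h3
    exact p.injective.ne (by decide) h3
  rw [inv_smul_eq_iff] at h3
  let v : Fin 3 → Fin 4 → F := ![![1, 0, 0, 0], H13.Sz.vec m 0 0, H13.Sz.vec m x y]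
  have hv : LinearIndependent F v := by
    rw [Fintype.linearIndependent_iff]
    intro c hc
    have e0 := congrFun hc 0
    have e1 := congrFun hc 1
    have e2 := congrFun hc 2
    have e3 := congrFun hc 3
    simp [v, H13.Sz.vec, Fin.sum_univ_three] at e0 e1 e2 e3
    have hc2 : c 2 = 0 := by tauto
    simp only [hc2, zero_mul, add_zero] at e0 e3
    intro i
    fin_cases i <;> simp [e0, e3, hc2]
  let L := (DistribMulAction.toLinearEquiv F (Fin 4 → F) g.1)
  have hv' : LinearIndependent F (fun i => L (v i)) :=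
    hv.map' L.toLinearMap (LinearEquiv.ker L)
  have key := Projectivization.Independent.mk _ (fun i => hv'.ne_zero i) hv'
  convert key using 2 with i
  fin_cases i
  · exact (congrArg Subtype.val h0).symm
  · exact (congrArg Subtype.val h1).symm
  · exact (congrArg Subtype.val h3)

end Cfsg.Agent.S0335
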