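import Cfsg.Statements.S0338
import Cfsg.Agent.H23.Zass1

set_option autoImplicit false
open Cfsg

namespace Cfsg.Agent.S0338

open H18 H23 Subgroup

/-- A Zassenhaus group of odd degree is a simple group. -/
theorem result {G Ω : Type*} [Group G] [MulAction G Ω] [Fintype Ω]
    (hZ : Cfsg.IsZassenhausGroup G Ω) (hodd : Odd (Fintype.card Ω)) : IsSimpleGroup G := by
  have := hZ.1
  have : Finite G := finite_of_faithful (Ω := Ω)
  obtain ⟨a, b, hab⟩ := exists_pair hZ
  obtain ⟨Q, h⟩ := exists_ZS hZ hab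
  refine h.simple_of_even hZ.2.2.2.2 ?_
  rw [← Nat.card_eq_fintype_card, h.cardΩ, Nat.odd_add_one, Nat.not_odd_iff_even] at hodd
  exact hodd

end Cfsg.Agent.S0338
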