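import Cfsg.Statements.S0339
import Cfsg.Agent.H23.Zass1

set_option autoImplicit false
open Cfsg

namespace Cfsg.Agent.S0339

open H18 H23 Subgroup

/-- A non-trivial normal subgroup of a Zassenhaus group is itself a Zassenhaus group on the same set. -/
theorem result {G Ω : Type*} [Group G] [MulAction G Ω] [Finite Ω]
    (hZ : Cfsg.IsZassenhausGroup G Ω) (N : Subgroup G) [N.Normal] (hN : N ≠ ⊥) :
    Cfsg.IsZassenhausGroup N Ω := by
  have := hZ.1
  have : Finite G := finite_of_faithful (Ω := Ω)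
  obtain ⟨a, b, hab⟩ := exists_pair hZ
  obtain ⟨Q, h⟩ := exists_ZS hZ hab
  exact (h.sub hZ.2.2.2.2 hN).zass (h.NR_sub hZ.2.2.2.2 hN)

end Cfsg.Agent.S0339
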