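import Cfsg.Statements.S0340
import Cfsg.Agent.H23.Zass4

set_option autoImplicit false
open Cfsg

namespace Cfsg.Agent.S0340

/-- Classification of Zassenhaus groups, simple case, order-level form: a finite simple Zassenhaus group is
isomorphic to `PSL₂(F)` for some finite field `F` or is simple of Suzuki order. -/
theorem result {G Ω : Type*} [Group G] [Finite G] [MulAction G Ω]
    [Finite Ω] (hZ : Cfsg.IsZassenhausGroup G Ω) [IsSimpleGroup G] :
    (∃ (F : Type) (_ : Field F) (_ : Fintype F), Nonempty (G ≃* Matrix.ProjectiveSpecialLinearGroup (Fin 2) F)) ∨ Cfsg.IsSuzuki G := by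
  have := Fintype.ofFinite G
  obtain ⟨a, b, hab⟩ := H23.exists_pair hZ
  obtain ⟨Q, h⟩ := H23.exists_ZS hZ hab
  rcases h.psl_or_suz with ⟨F, i1, i2, -, e⟩ | ⟨h1, h2, t, d⟩
  · exact Or.inl ⟨F, i1, i2, e⟩
  · exact Or.inr (d.isSuzuki h1 h2)

end Cfsg.Agent.S0340
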