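import Cfsg.Statements.S0341
import Cfsg.Agent.H23.Zass5

set_option autoImplicit false
open Cfsg

namespace Cfsg.Agent.S0341

open H18 H23 Subgroup

/-- If a finite group acts faithfully and doubly transitively, no non-identity element fixes three points, some
non-identity element fixes two points, and some normal subgroup acts regularly, then the number of points
is `2^p` with `p` prime. -/
theorem result {G Ω : Type*} [Group G]
    [MulAction G Ω] [Fintype Ω] [FaithfulSMul G Ω] (h2 : MulAction.IsMultiplyPretransitive G Ω 2)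
    (h3 : ∀ g : G, ∀ a b c : Ω, a ≠ b → b ≠ c → a ≠ c → g • a = a → g • b = b → g • c = c → g = 1)
    (hfix : ∃ g : G, g ≠ 1 ∧ ∃ a b : Ω, a ≠ b ∧ g • a = a ∧ g • b = b)
    (N : Subgroup G) [N.Normal] (hNt : MulAction.IsPretransitive N Ω)
    (hNr : ∀ a : Ω, MulAction.stabilizer N a = ⊥) :
    ∃ p : ℕ, p.Prime ∧ Fintype.card Ω = 2 ^ p := by
  have : Finite G := finite_of_faithful (Ω := Ω)
  obtain ⟨g, g1, a, b, hab, ga, gb⟩ := hfix
  obtain ⟨Q, h⟩ := exists_ZS' hab (two_of_multiply h2) (fun {g x y z} => h3 g x y z)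
    (ne_bot_of_mem (x := g) ⟨ga, gb⟩ g1) (by
      by_contra! e
      exact g1 (FaithfulSMul.eq_of_smul_eq_smul (α := Ω) fun x => by
        by_cases e1 : x = a
        · rw [e1, ga, one_smul]
        · rw [e x e1, gb, one_smul]))
  obtain ⟨r, hr, hd⟩ := Nat.exists_prime_and_dvd (n := Nat.card ↥(MulAction.stabilizer G a ⊓ MulAction.stabilizer G b))
    (by have := h.two_le_K; omega)
  exact ⟨r, hr, by rw [← Nat.card_eq_fintype_card, h.cardΩ, (h.card_of_reg (hNr a) hr hd).2.2]⟩

end Cfsg.Agent.S0341
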