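import Cfsg.Statements.S0345
import Cfsg.Agent.H23.Zass4

set_option autoImplicit false
open Cfsg

namespace Cfsg.Agent.S0345

/-- In a finite simple Zassenhaus group the stabiliser `H` of two points `a ≠ b` is cyclic, and some involution
interchanging `a` and `b` inverts every element of `H`. -/
theorem result {G Ω : Type*} [Group G] [Finite G] [MulAction G Ω] [Finite Ω]
    (hZ : Cfsg.IsZassenhausGroup G Ω) [IsSimpleGroup G]
    {a b : Ω} (hab : a ≠ b) :
    IsCyclic ↥(MulAction.stabilizer G a ⊓ MulAction.stabilizer G b) ∧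
      ∃ v : G, orderOf v = 2 ∧ v • a = b ∧ v • b = a ∧ ∀ h ∈ MulAction.stabilizer G a ⊓ MulAction.stabilizer G b, v * h * v⁻¹ = h⁻¹ := by
  obtain ⟨Q, h⟩ := H23.exists_ZS hZ hab
  rcases Nat.even_or_odd (Nat.card ↥(MulAction.stabilizer G a ⊓ MulAction.stabilizer G b)) with he | ho
  · obtain ⟨t, t2, ta, tb, hi⟩ := h.inv_of_half h.NR_of_simple (h.half_of_simple he)
    refine ⟨H1.cyc_of_semireg_abel (H5.abel_of_inverted t2 fun x hx => ?_) h.nQK h.Q_ne h.semireg, t,
      H23.orderOf_two t2 (fun e => hab (by rw [← ta, e, one_smul])), ta, tb, hi⟩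
    rw [← hi x hx, inv_eq_of_mul_eq_one_right t2]
  · obtain ⟨t, d⟩ := h.exists_ZD_of_simple ho
    exact ⟨d.cyc, t, H23.orderOf_two d.tt d.t_ne, d.ta, d.tb, d.inv⟩

end Cfsg.Agent.S0345
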