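import Cfsg.Statements.S0346
import Cfsg.Agent.H23.Zass3

set_option autoImplicit false
open Cfsg

namespace Cfsg.Agent.S0346

open H18 H19 H23 Subgroup

/-- The number of points of a finite simple Zassenhaus group is `p^k + 1` for some prime power `p^k` (the regular normal
subgroup of a point stabiliser is a `p`-group). -/
theorem result {G Ω : Type*} [Group G] [Finite G] [MulAction G Ω] [Fintype Ω]
    (hZ : Cfsg.IsZassenhausGroup G Ω) [IsSimpleGroup G] :
    IsPrimePow (Fintype.card Ω - 1) := by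
  obtain ⟨a, b, hab⟩ := exists_pair hZ
  obtain ⟨Q, h⟩ := exists_ZS hZ hab
  rw [← Nat.card_eq_fintype_card, h.cardΩ, Nat.add_sub_cancel]
  obtain ⟨p, hp, hP⟩ : ∃ p, p.Prime ∧ PiGrp {p} Q := by
    rcases h.feit_odd hZ.2.2.2.2 with e | e
    · obtain ⟨-, p, hp, -, hE⟩ := h.elem_of_le e
      exact ⟨p, hp, hE.pi hp⟩
    · exact ⟨2, Nat.prime_two, e.1⟩
  obtain ⟨k, hk⟩ := hP.eq_pow Nat.card_pos.ne'
  have := h.two_le_Q
  exact ⟨p, k, hp.prime, Nat.pos_of_ne_zero (by rintro rfl; rw [pow_zero] at hk; omega), hk.symm⟩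

end Cfsg.Agent.S0346
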