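import Cfsg.Statements.S0348
import Cfsg.Agent.H13.CitI

set_option autoImplicit false
open Cfsg

namespace Cfsg.Agent.S0348

/-- A finite non-abelian simple group in which the centraliser of every involution is a `2`-group is isomorphic to
`PSL₂(F)` with `|F| = 9`, `|F|` a power of `2`, or `|F|` a prime of the form `2^k ± 1`; or to `PSL₃` over the field with
`4` elements; or is simple of Suzuki order. -/
theorem result {G : Type*} [Group G] [Finite G] [IsSimpleGroup G]
    (hG : ∃ a b : G, a * b ≠ b * a)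
    (hCIT : ∀ t : G, orderOf t = 2 → IsPGroup 2 (Subgroup.centralizer ({t} : Set G))) :
    (∃ (F : Type) (_ : Field F) (_ : Fintype F),
        (Fintype.card F = 9 ∨ (∃ n : ℕ, Fintype.card F = 2 ^ n) ∨
          ((Fintype.card F).Prime ∧ ∃ k : ℕ, Fintype.card F = 2 ^ k + 1 ∨ Fintype.card F + 1 = 2 ^ k)) ∧
        Nonempty (G ≃* Matrix.ProjectiveSpecialLinearGroup (Fin 2) F)) ∨
    (∃ (F : Type) (_ : Field F) (_ : Fintype F), Fintype.card F = 4 ∧
        Nonempty (G ≃* Matrix.ProjectiveSpecialLinearGroup (Fin 3) F)) ∨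
    Cfsg.IsSuzuki G := by
  exact (H13.cit_of_cent hCIT).simple_list (H13.not_solv_of_simple hG)

end Cfsg.Agent.S0348
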