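import Cfsg.Statements.S0349
import Cfsg.Agent.H19.ZDR
import Cfsg.Agent.H13.BN2

set_option autoImplicit false
open Cfsg

namespace Cfsg.Agent.S0349

/-- Let a finite simple group have a (B,N)-pair of rank one which is strongly split (`B = U (B ⊓ N)` with `U` nilpotent,
normal in `B` and meeting `N` trivially), with `[G : B]` and `|B ⊓ N|` odd. Then the group is isomorphic to `PSL₂(F)` with
`|F|` a power of `2`, or is simple of Suzuki order, or is isomorphic to `PSU₃` realised over a field with `q²` elements,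
`q = 2^n`, `n ≥ 2`. -/
theorem result {G : Type*} [Group G] [Finite G] [IsSimpleGroup G]
    (P : Cfsg.BNPair G) (hrank : P.rank = 1) (U : Subgroup G) (hUB : U ≤ P.B)
    (hUn : (U.subgroupOf P.B).Normal) (hUnil : Group.IsNilpotent U) (hsplit : U ⊔ (P.B ⊓ P.N) = P.B)
    (hdisj : U ⊓ P.N = ⊥) (hind : Odd P.B.index) (hH : Odd (Nat.card ↥(P.B ⊓ P.N))) :
    (∃ (F : Type) (_ : Field F) (_ : Fintype F), (∃ n : ℕ, Fintype.card F = 2 ^ n) ∧ Nonempty (G ≃* Matrix.ProjectiveSpecialLinearGroup (Fin 2) F)) ∨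
      Cfsg.IsSuzuki G ∨
      (∃ (F : Type) (_ : Field F) (_ : Fintype F) (n : ℕ), 2 ≤ n ∧ Fintype.card F = (2 ^ n) ^ 2 ∧
        Nonempty (G ≃* Cfsg.PSU 3 F (2 ^ n))) := by
  open H18 H9 H19 Subgroup in
  obtain ⟨s⟩ := (Nat.card_eq_one_iff_unique.mp hrank).2
  have nU : U ⊴ P.B := ⟨hUB, (normal_subgroupOf_iff_le_normalizer hUB).1 hUn⟩
  have sB : (s : G) ∉ P.B := fun e => P.conj_ne s s.2 (Set.Subset.antisymm
    (by rintro _ ⟨b, hb, rfl⟩; exact mul_mem (mul_mem e hb) e) fun b hb =>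
      ⟨(s : G)⁻¹ * b * (s : G)⁻¹, mul_mem (mul_mem (inv_mem e) hb) (inv_mem e), by group⟩)
  have ne : P.B ≠ ⊤ := fun e => sB (e.ge (mem_top _))
  have ev : ¬ Odd (Nat.card U) := fun o => sB (mem_of_sq_mem (Odd.of_dvd_nat (by
    rw [← P.B.card_mul_index, ← hsplit]
    exact (odd_sup o hH (.inr (inf_le_left.trans nU.norm))).mul (hsplit.symm ▸ hind)) (orderOf_dvd_natCard (s : G)))
    (P.sq_mem s s.2))
  have ev' : Even (Nat.card ↥(U ⊓ C(U))) := by
    obtain ⟨R, hR⟩ := exists_sylow Nat.prime_two U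
    have R1 : R ≠ ⊥ := fun e => ev (H5.piNat_two_compl.1 (by simpa [e] using hR.idx))
    have nR := Nil.hall_nml hUnil hR
    exact even_iff_two_dvd.2 ((hR.pi.inf_left.dvd_card (Nil.meet_cent hUnil hR.le le_rfl nR.norm R1)).trans
      (card_dvd (inf_le_inf_right _ hR.le)))
  have h : Fam (U ⊓ C(U)) P.B := .of_norm ⟨inf_le_left.trans hUB, norm_inf nU.norm (norm_C nU.norm)⟩ ne ev'
    fun x hx x2 x1 g e => by_contra fun n => x1 (mem_bot.1 (by
      have k : ∀ g ∉ P.B, ∃ u ∈ U, ∃ b ∈ P.B, g⁻¹ = u * s * b := fun g n => by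
        obtain ⟨b, hb, b', hb', e⟩ := (H13.BN.rank_one_cases hrank s g⁻¹).resolve_left (mt inv_mem_iff.1 n)
        obtain ⟨u, hu, c, hc, rfl⟩ := (mem_sup_of_norm' (inf_le_left.trans nU.norm)).1 (hsplit.ge hb)
        exact ⟨u, hu, (s : G)⁻¹ * c * (s : G)⁻¹⁻¹ * b', mul_mem (P.conj_mem _ (inv_mem (P.subset s.2)) c hc) hb',
          by rw [e]; group⟩
      have k2 : ∀ u ∈ U, ∀ b ∈ P.B, (u * s * b)⁻¹ * x * (u * s * b) ∈ P.B ↔ (s : G)⁻¹ * x * s ∈ P.B := fun u hu b hb => by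
        rw [show (u * s * b)⁻¹ * x * (u * s * b) = b⁻¹ * ((s : G)⁻¹ * (u⁻¹ * (x * u)) * s) * b by group,
          ← mem_C.1 hx.2 u hu, inv_mul_cancel_left, mul_mem_cancel_right hb, mul_mem_cancel_left (inv_mem hb)]
      rw [← (IsSimpleGroup.eq_bot_or_eq_top_of_normal P.B.normalCore inferInstance).resolve_right fun e =>
        ne (eq_top_iff.2 (e.ge.trans P.B.normalCore_le))]
      intro c
      by_cases hc : c ∈ P.B
      · exact cmem hc (hUB hx.1)
      obtain ⟨u, hu, b, hb, e1⟩ := k g n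
      obtain ⟨u', hu', b', hb', e2⟩ := k c hc
      rw [← inv_inv c, e2, inv_inv, k2 u' hu' b' hb', ← k2 u hu b hb, ← e1, inv_inv]
      exact e))
  obtain ⟨Q, t, a, -⟩ := bender_simple h.se
  obtain ⟨F, _, _, ⟨n, -, h2⟩, e⟩ | e | e := H19.suzuki_simple a
  exacts [.inl ⟨F, _, _, ⟨n, h2⟩, e⟩, .inr (.inl (isSuzuki_of_iso e)), .inr (.inr e)]

end Cfsg.Agent.S0349
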