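import Cfsg.Statements.S0351
import Cfsg.Agent.H14.Steiner

set_option autoImplicit false
open Cfsg

namespace Cfsg.Agent.S0351

/-- Derived design: removing a point p from the blocks through p of an S(t+1, k+1, v) yields an S(t, k, v-1) on the points other than p. -/
theorem result {α : Type*} [Fintype α] [DecidableEq α] {t k : ℕ} {B : Set (Finset α)} (hB : Cfsg.IsSteinerSystem (t + 1) (k + 1) B) (p : α) : Cfsg.IsSteinerSystem t k {b' : Finset {a : α // a ≠ p} | ∃ b ∈ B, p ∈ b ∧ b' = Finset.subtype (fun a => a ≠ p) b} := by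
  have key : ∀ (s : Finset {a : α // a ≠ p}) (b : Finset α),
      s ⊆ Finset.subtype (fun a => a ≠ p) b ↔ s.map (Function.Embedding.subtype _) ⊆ b :=
    fun s b => by simp [Finset.subset_iff]
  refine ⟨?_, fun s hs => ?_⟩
  · rintro _ ⟨b, hb, hp, rfl⟩
    rw [Finset.card_subtype, Finset.filter_ne', Finset.card_erase_of_mem hp, hB.1 b hb]
    rfl
  have hp : p ∉ s.map (Function.Embedding.subtype _) := by simp
  obtain ⟨b, ⟨hb, h1⟩, h2⟩ := hB.2 (insert p (s.map (Function.Embedding.subtype _)))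
    (by rw [Finset.card_insert_of_notMem hp, Finset.card_map, hs])
  rw [Finset.insert_subset_iff] at h1
  refine ⟨Finset.subtype _ b, ⟨⟨b, hb, h1.1, rfl⟩, (key s b).2 h1.2⟩, ?_⟩
  rintro _ ⟨⟨c, hc, hp, rfl⟩, h⟩
  rw [h2 c ⟨hc, Finset.insert_subset hp ((key s c).1 h)⟩]

end Cfsg.Agent.S0351
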