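import Cfsg.Statements.S0353
import Cfsg.Agent.H14.Design2

set_option autoImplicit false
open Cfsg

namespace Cfsg.Agent.S0353

/-- In an S(5, 8, 24), the symmetric difference of two blocks meeting in four points is a block. -/
theorem result {α : Type*} [Fintype α] [DecidableEq α] (hα : Fintype.card α = 24) {B : Set (Finset α)} (hB : Cfsg.IsSteinerSystem 5 8 B) {b c : Finset α} (hb : b ∈ B) (hc : c ∈ B) (h4 : (b ∩ c).card = 4) : symmDiff b c ∈ B := by
  obtain ⟨f, h⟩ := H14.mod24 hα hB
  have e : (symmDiff b c).map f = symmDiff (b.map f) (c.map f) := by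
    simp only [Finset.map_eq_image, Finset.image_symmDiff _ _ f.injective]
  have h5 := H14.card_symmDiff_add b c
  rw [h.mem, e]
  refine ⟨H14.symmDiff_mem_GC ((h.mem b).1 hb).1 ((h.mem c).1 hc).1, ?_⟩
  rw [← e, Finset.card_map]
  rw [hB.1 b hb, hB.1 c hc] at h5
  omega

end Cfsg.Agent.S0353
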