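import Cfsg.Statements.S0357
import Cfsg.Agent.H14.Steiner

set_option autoImplicit false
open Cfsg

namespace Cfsg.Agent.S0357

/-- In a Steiner system S(5, 6, 12), the complement of every block is again a block. -/
theorem result {α : Type*} [Fintype α] [DecidableEq α] (hα : Fintype.card α = 12) {B : Set (Finset α)} (hB : Cfsg.IsSteinerSystem 5 6 B) {b : Finset α} (hb : b ∈ B) : bᶜ ∈ B := by
  obtain ⟨c, hc⟩ := Finset.card_pos.1 (show 0 < H14.nI (H14.blk B) b 0 by rw [(H14.nI_12 hα hB hb).1]; norm_num)
  simp only [Finset.mem_filter, H14.mem_blk, Finset.card_eq_zero] at hc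
  have : c = bᶜ := Finset.eq_of_subset_of_card_le
    (Finset.subset_compl_iff_disjoint_right.2 (Finset.disjoint_iff_inter_eq_empty.2 hc.2))
    (by rw [Finset.card_compl, hα, hB.1 b hb, hB.1 c hc.1])
  exact this ▸ hc.1

end Cfsg.Agent.S0357
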