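import Cfsg.Statements.S0369
import Cfsg.Agent.H14.M24Use

set_option autoImplicit false
open Cfsg

namespace Cfsg.Agent.S0369

open H14 MulAction
open scoped Pointwise
set_option maxRecDepth 100000

/-- The group of the length-24 code coincides with the automorphism group of its octad system. -/
theorem result : Cfsg.M24 = Cfsg.setSystemAut Cfsg.octads := by
  ext σ
  rw [mem_setSystemAut_iff (B := octads)]
  exact ⟨fun h s hs => smul_mem_octads ⟨σ, h⟩ hs, fun h => mem_M24_of_basis fun b hb =>
    (h _ (bset_mem_octads (List.all_eq_true.1 (show gB.all oct = true by decide +kernel) b hb))).1⟩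

end Cfsg.Agent.S0369
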