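import Cfsg.Statements.S0371
import Cfsg.Agent.H14.GolayM24

set_option autoImplicit false
open Cfsg

namespace Cfsg.Agent.S0371

/-- Multiplication by a nonzero square residue modulo 23, fixing the extra point, lies in the group of the length-24 code. -/
theorem result (u : (ZMod 23)ˣ) (hu : IsSquare u) : Equiv.optionCongr (Units.mulLeft u) ∈ Cfsg.M24 := by
  obtain ⟨r, rfl⟩ := hu
  refine H14.mem_M24_of_basis fun b hb => ?_
  rw [H14.mem_GC_iff_mask, H14.isCW_iff]
  have key : ∀ a : ZMod 23, a ≠ 0 → ∀ b ∈ H14.gB, H14.cw (H14.mask ((H14.bset b).image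
      (Option.map fun x => a * a * x))) = true := by decide +kernel
  have : Fact (1 < 23) := ⟨by norm_num⟩
  exact key r r.ne_zero b hb

end Cfsg.Agent.S0371
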