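import Cfsg.Statements.S0374
import Cfsg.Agent.H14.GolayM24

set_option autoImplicit false
open Cfsg

namespace Cfsg.Agent.S0374

/-- The group of the length-24 code is generated by x ↦ x+1, x ↦ -1/x and the cube-twist permutation. -/
theorem result : Subgroup.closure {Equiv.optionCongr (Equiv.addRight (1 : ZMod 23)), Cfsg.projInv, Cfsg.cubeTwist} = Cfsg.M24 := by
  have h := H14.M24c.orig_eq H14.M0_all
  rw [H14.M0_top] at h
  have h2 := congrArg (Subgroup.map Cfsg.M24.subtype) h
  rw [H14.map_sub, H14.sub_lets_eq, ← MonoidHom.range_eq_map, Subgroup.range_subtype] at h2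
  rw [← h2]
  congr 1
  ext g
  simp only [Set.mem_insert_iff, Set.mem_singleton_iff, Set.mem_image, Set.mem_ofPred_eq,
    Subgroup.coe_subtype]
  constructor
  · rintro (rfl | rfl | rfl)
    exacts [⟨0, by norm_num, H14.M0_gen0⟩, ⟨1, by norm_num, H14.M0_gen1⟩, ⟨2, by norm_num, H14.M0_gen2⟩]
  · rintro ⟨l, hl, rfl⟩
    interval_cases l
    exacts [Or.inl H14.M0_gen0, Or.inr (Or.inl H14.M0_gen1), Or.inr (Or.inr H14.M0_gen2)]

end Cfsg.Agent.S0374
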