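import Cfsg.Statements.S0380
import Cfsg.Agent.H14.SiL34
import Cfsg.Agent.H14.Mathieu

set_option autoImplicit false
open Cfsg

namespace Cfsg.Agent.S0380

open H14 L

/-- A three-point stabiliser in the group of the length-24 code is isomorphic to PSL(3, F) for the field F with 4 elements. -/
theorem result (p q r : Cfsg.GolayPt) (hpq : p ≠ q) (hpr : p ≠ r) (hqr : q ≠ r) (F : Type) [Field F] [Fintype F] (hF : Fintype.card F = 4) : Nonempty (↥(MulAction.stabilizer Cfsg.M24 p ⊓ MulAction.stabilizer Cfsg.M24 q ⊓ MulAction.stabilizer Cfsg.M24 r) ≃* Matrix.ProjectiveSpecialLinearGroup (Fin 3) F) := by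
  obtain ⟨e⟩ := stab3_equiv hpq hpr hqr
  obtain ⟨S⟩ := H15.StdL34.std hF
  obtain ⟨i⟩ := SiL34.iso M0 card_M24 (Pres.of fun _ _ y hy => H15.StdL34.hom S y hy) S.card G21 card_G21
    fun g h => ⟨⟨h 23 (by simp), h 0 (by simp)⟩, h 1 (by simp)⟩
  exact ⟨e.symm.trans i⟩

end Cfsg.Agent.S0380
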