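import Cfsg.Statements.S0384
import Cfsg.Agent.H14.Mathieu

set_option autoImplicit false
open scoped Pointwise
open Cfsg

namespace Cfsg.Agent.S0384

/-- A dodecad stabiliser is sharply 5-transitive on the dodecad. -/
theorem result (d : Finset Cfsg.GolayPt) (hd : d ∈ Cfsg.dodecads) (x y : Fin 5 ↪ Cfsg.GolayPt) (hx : ∀ i, x i ∈ d) (hy : ∀ i, y i ∈ d) : ∃! g : MulAction.stabilizer Cfsg.M24 d, ∀ i, ((g : Cfsg.M24) : Equiv.Perm Cfsg.GolayPt) (x i) = y i := by
  obtain ⟨g, h1, h2⟩ := H14.dodecad_mt5 hd x y x.injective y.injective hx hy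
  refine ⟨⟨g, h1⟩, h2, fun g' hg' => Subtype.ext ?_⟩
  have : g⁻¹ * g' = 1 := H14.dodecad_sharp hd x x.injective hx
    (by rw [mul_smul, MulAction.mem_stabilizer_iff.1 g'.2, inv_smul_eq_iff, h1])
    fun i => by rw [mul_smul, inv_smul_eq_iff, h2]; exact hg' i
  exact (inv_mul_eq_one.1 this).symm

end Cfsg.Agent.S0384
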