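import Cfsg.Statements.S0385
import Cfsg.Agent.H14.M24Obj
import Cfsg.Agent.H14.Obj2

set_option autoImplicit false
open Cfsg

namespace Cfsg.Agent.S0385

open H14 MulAction
set_option maxRecDepth 100000

/-- The 6-point intersections of octads with a fixed dodecad form a Steiner system S(5, 6, 12) on the dodecad. -/
theorem result (d : Finset Cfsg.GolayPt) (hd : d ∈ Cfsg.dodecads) : Cfsg.IsSteinerSystem 5 6 {h : Finset {p : Cfsg.GolayPt // p ∈ d} | ∃ o ∈ Cfsg.octads, (o ∩ d).card = 6 ∧ h = Finset.subtype (fun p => p ∈ d) o} := by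
  refine ⟨?_, fun s hs => ?_⟩
  · rintro _ ⟨o, -, h, rfl⟩
    rw [Finset.card_subtype, Finset.filter_mem_eq_inter, h]
  obtain ⟨o, ⟨ho, h1⟩, h2⟩ := octads_steiner.2 (s.map (Function.Embedding.subtype _)) (by simpa using hs)
  have key : ∀ o : Finset GolayPt, s ⊆ Finset.subtype (fun p => p ∈ d) o ↔ s.map (Function.Embedding.subtype _) ⊆ o :=
    fun o => by simp [Finset.subset_iff]
  refine ⟨Finset.subtype _ o, ⟨⟨o, ho, ?_, rfl⟩, (key o).2 h1⟩, ?_⟩
  · have h3 := card_mem_GC (symmDiff_mem_GC ho.1 hd.1)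
    have h4 := card_symmDiff_add o d
    have h5 : 5 ≤ (o ∩ d).card := by
      rw [← hs, ← Finset.card_map (Function.Embedding.subtype _)]
      exact Finset.card_le_card (Finset.subset_inter h1 fun x hx => by
        obtain ⟨y, -, rfl⟩ := Finset.mem_map.1 hx
        exact y.2)
    have h6 : o.card = 8 := ho.2
    have h7 : d.card = 12 := hd.2
    have h8 : (o ∩ d).card ≤ o.card := Finset.card_le_card Finset.inter_subset_left
    rw [h6, h7] at h4
    omega
  · rintro _ ⟨⟨o', ho', -, rfl⟩, h⟩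
    rw [h2 o' ⟨ho', (key o').1 h⟩]

end Cfsg.Agent.S0385
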