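import Cfsg.Statements.S0386
import Cfsg.Agent.H14.M24Obj
import Cfsg.Agent.H14.Obj2

set_option autoImplicit false
open Cfsg

namespace Cfsg.Agent.S0386

open H14 MulAction
open scoped Pointwise
set_option maxRecDepth 100000
theorem cnt {d : Finset GolayPt} (hd : d ∈ dodecads) (k : ℕ) :
    {d' : Finset GolayPt | d' ∈ octads ∧ (d' ∩ d).card = k}.ncard =
      pop 759 (selB (fun i => Nat.beq (p24 (Nat.land (cm 24 759 OOc.A i) 0x5335f)) k) 759) := by
  obtain ⟨g, rfl⟩ := dodecad_std hd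
  rw [ncard_smul_eq oOc.inv g (Q := fun x => (x ∩ d0).card = k) fun x _ => by
    rw [← Finset.smul_finset_inter, Finset.card_smul_finset]]
  exact oOc.ncard_sel fun i _ => by rw [d0, fOc, col_eq, ← bset_and, card_bset_eq_iff]; rfl

/-- For a fixed dodecad, 132 octads meet it in 6 points, 132 in 2 points and 495 in 4 points. -/
theorem result (d : Finset Cfsg.GolayPt) (hd : d ∈ Cfsg.dodecads) : {o : Finset Cfsg.GolayPt | o ∈ Cfsg.octads ∧ (o ∩ d).card = 6}.ncard = 132 ∧ {o : Finset Cfsg.GolayPt | o ∈ Cfsg.octads ∧ (o ∩ d).card = 2}.ncard = 132 ∧ {o : Finset Cfsg.GolayPt | o ∈ Cfsg.octads ∧ (o ∩ d).card = 4}.ncard = 495 := by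
  exact ⟨(cnt hd 6).trans (by decide +kernel), (cnt hd 2).trans (by decide +kernel),
    (cnt hd 4).trans (by decide +kernel)⟩

end Cfsg.Agent.S0386
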