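import Cfsg.Statements.S0405
import Cfsg.Agent.H14.Conway2

set_option autoImplicit false
open Cfsg

namespace Cfsg.Agent.S0405

/-- Joint stabiliser of two vectors of sum of squares 48 with coordinate dot product −32 is simple of order 44352000. -/
theorem result (v w : Cfsg.leechLattice) (hv : Cfsg.sqNorm (v : Cfsg.GolayPt → ℤ) = 48) (hw : Cfsg.sqNorm (w : Cfsg.GolayPt → ℤ) = 48) (hvw : Cfsg.dotInt (v : Cfsg.GolayPt → ℤ) (w : Cfsg.GolayPt → ℤ) = -32) : Cfsg.IsHS ↥(MulAction.stabilizer Cfsg.Co0 v ⊓ MulAction.stabilizer Cfsg.Co0 w) := by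
  open H14 in
  obtain ⟨g, h1, h2⟩ := std16 (u := v) (x := -(v + w)) hv
    (by rw [show (-(v + w)).1 = -(v.1 + w.1) from rfl, sqNorm_neg, sqNorm_add]; omega)
    (by rw [show (-(v + w)).1 = -(v.1 + w.1) from rfl, dot_neg, dot_add, dot_self]; omega)
  refine H14.simple_card_of_equiv ((H14.stabEquiv2 g _ _).trans (MulEquiv.subgroupCongr ?_))
    H14.simple_CH H14.card_CH
  rw [h1, h2, H14.stab_neg, inf_comm, H14.stab_inf_sub, add_sub_cancel_left]

end Cfsg.Agent.S0405
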