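import Cfsg.Statements.S0406
import Cfsg.Agent.H28.LeU

set_option autoImplicit false
open Matrix
open Cfsg

namespace Cfsg.Agent.S0406
open H28


/-- A rank-24 even lattice with no roots and the stated numbers of vectors of norms 4, 6, 8 is isomorphic to the Leech lattice. -/
theorem result (B : Matrix (Fin 24) (Fin 24) ℤ) (hsymm : B.IsSymm) (hpos : ∀ x : Fin 24 → ℤ, x ≠ 0 → 0 < x ⬝ᵥ (B *ᵥ x)) (heven : ∀ x : Fin 24 → ℤ, (2 : ℤ) ∣ x ⬝ᵥ (B *ᵥ x)) (h2 : ∀ x : Fin 24 → ℤ, x ⬝ᵥ (B *ᵥ x) ≠ 2) (h4 : {x : Fin 24 → ℤ | x ⬝ᵥ (B *ᵥ x) = 4}.ncard = 196560) (h6 : {x : Fin 24 → ℤ | x ⬝ᵥ (B *ᵥ x) = 6}.ncard = 16773120) (h8 : {x : Fin 24 → ℤ | x ⬝ᵥ (B *ᵥ x) = 8}.ncard = 398034000) : ∃ f : (Fin 24 → ℤ) ≃+ Cfsg.leechLattice, ∀ x : Fin 24 → ℤ, Cfsg.sqNorm ((f x : Cfsg.leechLattice) : Cfsg.GolayPt → ℤ) = 8 * (x ⬝ᵥ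 (B *ᵥ x)) := by
  have h := NoRoot.mk hsymm hpos heven h2
  obtain ⟨x, hx⟩ := Set.nonempty_of_ncard_ne_zero (h8.trans_ne (by decide))
  obtain ⟨v, F⟩ := LU.exists_frm h (h.cross h4 h6 h8 hx)
  exact LU.leech_unique h h4 F

end Cfsg.Agent.S0406
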