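import Cfsg.Statements.S0413
import Cfsg.Agent.H14.Design3

set_option autoImplicit false
open Cfsg

namespace Cfsg.Agent.S0413

open H14

/-- Aut of an S(4, 7, 23) is simple of order 10200960 and 4-transitive. -/
theorem result {α : Type*} [Fintype α] [DecidableEq α] (hα : Fintype.card α = 23) {B : Set (Finset α)} (hB : Cfsg.IsSteinerSystem 4 7 B) : Cfsg.IsM23 (Cfsg.setSystemAut B) ∧ MulAction.IsMultiplyPretransitive (Cfsg.setSystemAut B) α 4 := by
  obtain ⟨f, h⟩ := mod23 hα hB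
  obtain ⟨φ, e⟩ := h.aut23
  have := simple_G23
  refine ⟨⟨φ.symm.isSimpleGroup, (Nat.card_congr φ.toEquiv).symm.trans card_G23⟩,
    h.mt e fun x y hx hy => ?_⟩
  have key : ∀ p ∈ bset 0x7fffff, ∀ i : Fin 1, ![(none : GolayPt)] i ≠ p := by decide +kernel
  obtain ⟨g, h1, h2⟩ := M24_exists_fix (m := 1) le_rfl ![none] (by decide) x y
    (fun i j => key _ (hx j) i) fun i j => key _ (hy j) i
  exact ⟨g, h1 0, h2⟩

end Cfsg.Agent.S0413
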