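import Cfsg.Statements.S0425
import Cfsg.Agent.H14.Design3

set_option autoImplicit false
open Cfsg

namespace Cfsg.Agent.S0425

open H14

/-- Aut of an S(5, 6, 12) is simple of order 95040 and sharply 5-transitive on points. -/
theorem result {α : Type*} [Fintype α] [DecidableEq α] (hα : Fintype.card α = 12) {B : Set (Finset α)} (hB : Cfsg.IsSteinerSystem 5 6 B) : Cfsg.IsM12 (Cfsg.setSystemAut B) ∧ MulAction.IsMultiplyPretransitive (Cfsg.setSystemAut B) α 5 ∧ ∀ x : Fin 5 ↪ α, MulAction.stabilizer (Cfsg.setSystemAut B) x = ⊥ := by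
  obtain ⟨f, h⟩ := mod12 hα hB
  obtain ⟨φ, e⟩ := h.aut12
  have := simple_G12
  refine ⟨⟨φ.symm.isSimpleGroup, (Nat.card_congr φ.toEquiv).symm.trans card_G12⟩,
    h.mt e fun x y hx hy => dodecad_mt5 d0_mem x y x.injective y.injective hx hy, fun x => ?_⟩
  rw [eq_bot_iff]
  intro σ hσ
  obtain ⟨g, rfl⟩ := φ.surjective σ
  rw [show g = 1 from Subtype.ext (dodecad_sharp d0_mem (x.trans f) (x.trans f).injective
    (fun i => h.mem_X _) g.2 fun i => (e g _).symm.trans (congrArg f (DFunLike.congr_fun hσ i))), map_one]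
  exact one_mem _

end Cfsg.Agent.S0425
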