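import Cfsg.Statements.S0426
import Cfsg.Agent.H14.Design3

set_option autoImplicit false
open Cfsg

namespace Cfsg.Agent.S0426

open H14

/-- Aut of an S(4, 5, 11) is simple of order 7920 and sharply 4-transitive on points. -/
theorem result {α : Type*} [Fintype α] [DecidableEq α] (hα : Fintype.card α = 11) {B : Set (Finset α)} (hB : Cfsg.IsSteinerSystem 4 5 B) : Cfsg.IsM11 (Cfsg.setSystemAut B) ∧ MulAction.IsMultiplyPretransitive (Cfsg.setSystemAut B) α 4 ∧ ∀ x : Fin 4 ↪ α, MulAction.stabilizer (Cfsg.setSystemAut B) x = ⊥ := by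
  obtain ⟨f, h⟩ := mod11 hα hB
  obtain ⟨φ, e⟩ := h.aut11
  have := simple_G11
  refine ⟨⟨φ.symm.isSimpleGroup, (Nat.card_congr φ.toEquiv).symm.trans card_G11⟩,
    h.mt e fun x y hx hy => ?_, fun x => ?_⟩
  · have k1 : ∀ x : Fin 4 ↪ GolayPt, (∀ i, x i ∈ bset 0x5335e) →
        Function.Injective (Fin.cons (some 0) x : Fin 5 → GolayPt) ∧
        ∀ i, (Fin.cons (some 0) x : Fin 5 → GolayPt) i ∈ d0 := fun x hx =>
      ⟨Fin.cons_injective_of_injective (by
        rintro ⟨i, e⟩; exact absurd (e ▸ hx i) (by decide +kernel)) x.injective,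
      Fin.cases (show some 0 ∈ d0 by decide +kernel)
        fun i => bset_subset (b := 0x5335f) (by decide +kernel) (hx i)⟩
    obtain ⟨g, h1, h2⟩ := dodecad_mt5 d0_mem _ _ (k1 x hx).1 (k1 y hy).1 (k1 x hx).2 (k1 y hy).2
    exact ⟨g, ⟨h1, h2 0⟩, fun i => h2 i.succ⟩
  rw [eq_bot_iff]
  intro σ hσ
  obtain ⟨g, rfl⟩ := φ.surjective σ
  rw [show g = 1 from Subtype.ext (G11_eq_one g.2 (x.trans f) (x.trans f).injective
    (fun i => h.mem_X _) fun i => (e g _).symm.trans (congrArg f (DFunLike.congr_fun hσ i))), map_one]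
  exact one_mem _

end Cfsg.Agent.S0426
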