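import Cfsg.Statements.S0427
import Cfsg.Agent.H2.S22

set_option autoImplicit false
open Cfsg

namespace Cfsg.Agent.S0427

/-- The block graph (adjacent = disjoint) of an S(3, 6, 22) is strongly regular with parameters (77, 16, 0, 4). -/
theorem result {α : Type*} [Fintype α] (hα : Fintype.card α = 22) {B : Set (Finset α)} (hB : Cfsg.IsSteinerSystem 3 6 B) [Fintype B] [DecidableRel (Cfsg.blockGraph B).Adj] : (Cfsg.blockGraph B).IsSRGWith 77 16 0 4 := by
  classical
  refine H2.S22.srg_of_sum _ H2.S22.dj (fun b c => ?_) 77 16 0 4 (H2.S22.card_B hα hB)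
    (fun b => H2.S22.sum_a hα hB b) (fun b c h => ?_)
  · by_cases h : b = c
    · subst h; simp [H2.S22.dj_self hB]
    · unfold H2.S22.dj
      have : (Cfsg.blockGraph B).Adj b c ↔ Disjoint (b : Finset α) (c : Finset α) := by
        simp only [Cfsg.blockGraph, SimpleGraph.fromRel_adj]
        exact ⟨fun h' => h'.2.elim id (fun h => h.symm), fun h' => ⟨h, Or.inl h'⟩⟩
      simp only [this]
  · rw [H2.S22.sum_aa hα hB b c h]; push_cast; ring

end Cfsg.Agent.S0427
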