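import Cfsg.Statements.S0429
import Cfsg.Agent.H28.SgB

set_option autoImplicit false
open Cfsg

namespace Cfsg.Agent.S0429
open H28


/-- Uniqueness of the strongly regular graph with parameters (77, 16, 0, 4). -/
theorem result {V W : Type*} [Fintype V] [Fintype W] {G : SimpleGraph V} {H : SimpleGraph W} [DecidableRel G.Adj] [DecidableRel H.Adj] (hG : G.IsSRGWith 77 16 0 4) (hH : H.IsSRGWith 77 16 0 4) : Nonempty (G ≃g H) := by
  classical
  obtain ⟨e, he⟩ := Cfsg.Agent.S0410.result (H28.Sg.card_Pt hG) (H28.Sg.card_Pt hH)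
    (H28.Sg.steiner77 hG) (H28.Sg.steiner77 hH)
  have h1 : ∀ x : V, ∃ y : W, H28.Sg.bk H y = (H28.Sg.bk G x).image e := fun x => by
    have : (H28.Sg.bk G x).image e ∈ Set.range (H28.Sg.bk H) := he ▸ ⟨_, ⟨x, rfl⟩, rfl⟩
    exact this
  choose f hf using h1
  have hinj : Function.Injective f := fun x y h => H28.Sg.bk_inj hG
    (Finset.image_injective e.injective (by rw [← hf, ← hf, h]))
  have hbij : Function.Bijective f :=
    (Fintype.bijective_iff_injective_and_card f).2 ⟨hinj, by rw [hG.card, hH.card]⟩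
  refine ⟨⟨Equiv.ofBijective f hbij, fun {a b} => ?_⟩⟩
  rw [H28.Sg.adj_iff hG, H28.Sg.adj_iff hH]
  simp only [Equiv.ofBijective_apply, hf]
  rw [← Finset.image_inter _ _ e.injective, Finset.image_eq_empty]

end Cfsg.Agent.S0429
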