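import Cfsg.Statements.S0435
import Cfsg.Agent.H2.IdM

set_option autoImplicit false
open Cfsg

namespace Cfsg.Agent.S0435

/-- Involution centralisers in a simple group of order 7920 have order 48. -/
theorem result {G : Type*} [Group G] [Finite G] (hG : Cfsg.IsM11 G) (x : G) (hx : orderOf x = 2) : Nat.card (Subgroup.centralizer ({x} : Set G)) = 48 := by
  have := hG.1
  obtain ⟨σ, h⟩ := H2.M11.emb hG.2
  rw [← H5.card_centralizer_eq_of_isConj (h.one x hx), show Subgroup.centralizer {σ H22.D48.ζ} = σ.range from h.range_eq.symm,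
    ← Nat.card_congr (MonoidHom.ofInjective h.inj).toEquiv, Nat.card_eq_fintype_card]
  rfl

end Cfsg.Agent.S0435
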