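import Cfsg.Statements.S0439
import Cfsg.Agent.H28.G1

set_option autoImplicit false
open Cfsg

namespace Cfsg.Agent.S0439
open H28


/-- In the symmetric group of degree n ≥ 2, the set of transpositions is a conjugacy class of 3-transpositions which generates the group. -/
theorem result (n : ℕ) (hn : 2 ≤ n) : Cfsg.IsThreeTranspositionClass {σ : Equiv.Perm (Fin n) | σ.IsSwap} := by
  refine ⟨⟨fun d hd => Equiv.Perm.IsSwap.orderOf hd, ?_⟩, ⟨Equiv.swap ⟨0, by omega⟩ ⟨1, by omega⟩,
    ⟨_, _, by simp, rfl⟩, ?_⟩, Equiv.Perm.closure_isSwap⟩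
  · rintro _ ⟨a, b, hab, rfl⟩ _ ⟨c, d, hcd, rfl⟩
    have three : ∀ x y z : Fin n, x ≠ y → y ≠ z → x ≠ z → (Equiv.swap x y * Equiv.swap y z) ^ 3 = 1 := by
      intro x y z h1 h2 h3
      apply cube_of_braid (Equiv.swap_mul_self _ _) (Equiv.swap_mul_self _ _)
      rw [Equiv.swap_mul_swap_mul_swap (x := x) h1 h3, Equiv.swap_comm x y, Equiv.swap_comm y z,
        Equiv.swap_mul_swap_mul_swap h2.symm h3.symm, Equiv.swap_comm]
    by_cases h1 : c = a
    · subst h1
      by_cases h2 : d = b
      · left; rw [h2, Equiv.swap_mul_self, one_pow]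
      · right; rw [Equiv.swap_comm c b]; exact three _ _ _ hab.symm hcd (Ne.symm h2)
    by_cases h2 : c = b
    · subst h2
      by_cases h3 : d = a
      · left; rw [h3, Equiv.swap_comm c a, Equiv.swap_mul_self, one_pow]
      · right; exact three _ _ _ hab hcd (Ne.symm h3)
    by_cases h3 : d = a
    · subst h3
      right; rw [Equiv.swap_comm d b, Equiv.swap_comm c d]; exact three _ _ _ hab.symm hcd.symm (Ne.symm h2)
    by_cases h4 : d = b
    · subst h4
      right; rw [Equiv.swap_comm c d]; exact three _ _ _ hab hcd.symm (Ne.symm h1)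
    left
    apply sq_of_comm (Equiv.swap_mul_self _ _) (Equiv.swap_mul_self _ _)
    show _ * _ = _ * _
    rw [Equiv.mul_swap_eq_swap_mul, Equiv.swap_apply_of_ne_of_ne h1 h2, Equiv.swap_apply_of_ne_of_ne h3 h4]
  · ext σ
    constructor
    · rintro ⟨a, b, hab, rfl⟩
      exact Equiv.Perm.isConj_swap (by simp) hab
    · intro h
      obtain ⟨g, rfl⟩ := isConj_iff.1 h
      rw [← Equiv.swap_apply_apply]
      exact ⟨_, _, g.injective.ne (by simp), rfl⟩

end Cfsg.Agent.S0439
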