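import Cfsg.Statements.S0442
import Cfsg.Agent.H28.G1

set_option autoImplicit false
open Cfsg

namespace Cfsg.Agent.S0442
open H28


/-- A standard trick for producing elements of an involution centraliser: for an involution a and an element g, let b be the conjugate g⁻¹ * a * g. If a * b has odd order 2m + 1 then g * (a * b) ^ m commutes with a; if a * b has even order 2m then (a * b) ^ m and (a * (g * a * g⁻¹)) ^ m commute with a. -/
theorem result {G : Type*} [Group G] (a g : G) (ha : orderOf a = 2) : (∀ m : ℕ, orderOf (a * (g⁻¹ * a * g)) = 2 * m + 1 → Commute (g * (a * (g⁻¹ * a * g)) ^ m) a) ∧ (∀ m : ℕ, orderOf (a * (g⁻¹ * a * g)) = 2 * m → Commute ((a * (g⁻¹ * a * g)) ^ m) a ∧ Commute ((a * (g * a * g⁻¹)) ^ m) a) := by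
  have h1 : a * a = 1 := sq_of_ord ha
  have inv : ∀ (b : G), b * b = 1 → ∀ m : ℕ, a * (a * b) ^ m * a = ((a * b) ^ m)⁻¹ := by
    intro b hb m
    have e : a * (a * b) * a⁻¹ = (a * b)⁻¹ := by
      rw [mul_inv_rev, inv_of_sq h1, inv_of_sq hb, canc h1]
    rw [← inv_pow, ← e, conj_pow, inv_of_sq h1]
  have ev : ∀ (b : G), b * b = 1 → ∀ m : ℕ, orderOf (a * b) = 2 * m → Commute ((a * b) ^ m) a := by
    intro b hb m hm
    have e : (a * b) ^ m * (a * b) ^ m = 1 := by rw [← pow_add, ← two_mul, ← hm, pow_orderOf_eq_one]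
    have := inv b hb m
    rw [inv_of_sq e] at this
    exact ((comm_iff_conj h1).2 this).symm
  have hb : g⁻¹ * a * g * (g⁻¹ * a * g) = 1 := by
    calc _ = g⁻¹ * (a * a) * g := by group
      _ = 1 := by rw [h1]; group
  have hb' : g * a * g⁻¹ * (g * a * g⁻¹) = 1 := by
    calc _ = g * (a * a) * g⁻¹ := by group
      _ = 1 := by rw [h1]; group
  refine ⟨fun m hm => ?_, fun m hm => ⟨ev _ hb m hm, ev _ hb' m ?_⟩⟩
  · set b := g⁻¹ * a * g with hbd
    have e : (a * b) ^ m * (a * b) ^ m * (a * b) = 1 := by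
      rw [← pow_add, ← two_mul, ← pow_succ, ← hm, pow_orderOf_eq_one]
    have i := inv b hb m
    set w := (a * b) ^ m
    have e2 : a * w = w⁻¹ * a := by rw [← i, mul_assoc (a * w), h1, mul_one]
    have e3 : b = a * (w * w)⁻¹ := by
      have : a * b = (w * w)⁻¹ := eq_inv_of_mul_eq_one_right e
      rw [← this, canc h1]
    have e4 : w * a = b * w := by
      have : w * a = a * w⁻¹ := by
        calc w * a = w * (w⁻¹ * a) * w⁻¹ * (w * a⁻¹ * w * a) := by group
          _ = w * (w⁻¹ * a) * w⁻¹ * (w * (a * w) * a) := by rw [inv_of_sq h1]; group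
          _ = a * w⁻¹ * (a * a) := by rw [e2]; group
          _ = _ := by rw [h1, mul_one]
      rw [this, e3]; group
    show g * w * a = a * (g * w)
    rw [mul_assoc, e4, hbd]; group
  · rw [← hm]
    have : a * (g * a * g⁻¹) = (g * (g⁻¹ * a * g)) * (a * (g⁻¹ * a * g)) * (g * (g⁻¹ * a * g))⁻¹ := by
      calc _ = a * g * a * g⁻¹ * (a * a⁻¹) := by group
        _ = _ := by group
    rw [this]
    exact (MulAut.conj (g * (g⁻¹ * a * g))).orderOf_eq _

end Cfsg.Agent.S0442
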