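import Cfsg.Statements.S0443
import Cfsg.Agent.H28.G1

set_option autoImplicit false
open Cfsg

namespace Cfsg.Agent.S0443
open H28


/-- Two definitions of a 2-central involution agree: an element t of order 2 of a finite group lies in the centre of some Sylow 2-subgroup if and only if its centraliser contains some Sylow 2-subgroup. -/
theorem result {G : Type*} [Group G] [Finite G] (t : G) (ht : orderOf t = 2) : Cfsg.IsTwoCentralInvolution t ↔ ∃ P : Sylow 2 G, (P : Subgroup G) ≤ Subgroup.centralizer ({t} : Set G) := by
  constructor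
  · rintro ⟨-, P, -, h⟩
    exact ⟨P, fun x hx => Subgroup.mem_centralizer_singleton_iff.2 (h x hx)⟩
  · rintro ⟨P, h⟩
    refine ⟨ht, P, ?_, fun x hx => Subgroup.mem_centralizer_singleton_iff.1 (h hx)⟩
    have h1 : IsPGroup 2 (Subgroup.zpowers t) := IsPGroup.of_card (n := 1) (by rw [Nat.card_zpowers, ht, pow_one])
    have h2 : Subgroup.zpowers t ≤ Subgroup.normalizer (P : Subgroup G) := by
      rw [Subgroup.zpowers_le]
      refine Subgroup.centralizer_le_normalizer _ ?_
      intro x hx
      exact Subgroup.mem_centralizer_singleton_iff.1 (h hx)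
    have h3 := IsPGroup.to_sup_of_normal_right' h1 P.2 h2
    have := P.3 h3 le_sup_right
    have h4 : t ∈ Subgroup.zpowers t ⊔ (P : Subgroup G) := Subgroup.mem_sup_left (Subgroup.mem_zpowers t)
    rw [this] at h4
    exact h4

end Cfsg.Agent.S0443
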