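import Cfsg.Statements.S0446


set_option autoImplicit false
open Cfsg

namespace Cfsg.Agent.S0446

/-- Every finite group of even order contains a 2-central involution, i.e. an element of order 2 in the centre of some Sylow 2-subgroup. -/
theorem result {G : Type*} [Group G] [Finite G] (h : Even (Nat.card G)) : ∃ t : G, Cfsg.IsTwoCentralInvolution t := by
  haveI : Fact (Nat.Prime 2) := ⟨Nat.prime_two⟩
  obtain ⟨P⟩ : Nonempty (Sylow 2 G) := inferInstance
  have hP : P.1 ≠ ⊥ := fun e => by
    have := P.not_dvd_index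
    rw [e, Subgroup.index_bot] at this
    exact this h.two_dvd
  haveI : Nontrivial P := (Subgroup.nontrivial_iff_ne_bot _).2 hP
  haveI := P.isPGroup'.center_nontrivial
  obtain ⟨k, hk, e⟩ := (P.isPGroup'.to_subgroup (Subgroup.center P)).nontrivial_iff_card.1 inferInstance
  obtain ⟨t, ht⟩ := exists_prime_orderOf_dvd_card' (G := Subgroup.center P) 2 (e ▸ dvd_pow_self 2 hk.ne')
  refine ⟨t.1.1, by rw [Subgroup.orderOf_coe, Subgroup.orderOf_coe, ht], P, t.1.2, fun x hx => ?_⟩
  exact congrArg Subtype.val (Subgroup.mem_center_iff.1 t.2 ⟨x, hx⟩)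

end Cfsg.Agent.S0446
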