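import Cfsg.Statements.S0458
import Cfsg.Agent.H15.StdJ3
import Cfsg.Agent.H15.Emb

set_option autoImplicit false
open Cfsg

namespace Cfsg.Agent.S0458

/-- Janko's third group exists as a transitive permutation group of degree 6156 with point stabiliser of order 8160: a simple group of order 50232960. -/
theorem result : ∃ H : Subgroup (Equiv.Perm (Fin 6156)), Cfsg.IsJ3 H ∧ MulAction.IsPretransitive H (Fin 6156) ∧ Nat.card (MulAction.stabilizer H (0 : Fin 6156)) = 8160 := by
  obtain ⟨S⟩ := H15.StdJ3.std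
  have := S.faithful
  have hR := H15.StdJ3.rels_of_all S.rels
  obtain ⟨H, ⟨e⟩, h1, ⟨i⟩⟩ := H15.perm_rep S.M fun y => (H15.StdJ3.orb0 S.M hR y).1
    (S.M.S_mono (by decide +kernel) (S.M.mem_S_full' y))
  have := S.simple
  have h2 := H15.StdJ3.stab0 S.M hR
  rw [S.top, top_inf_eq] at h2
  exact ⟨H, ⟨e.symm.isSimpleGroup, (Nat.card_congr e.symm.toEquiv).trans S.card⟩, h1,
    (Nat.card_congr i.toEquiv).trans (h2 ▸ H15.StdJ3.card1 S.M hR)⟩

end Cfsg.Agent.S0458
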