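import Cfsg.Statements.S0459
import Cfsg.Agent.H15.TitsS
import Cfsg.Agent.H15.StdRu

set_option autoImplicit false
open Cfsg

namespace Cfsg.Agent.S0459

/-- the letters of `StdTits` -/
def WT : List H14.Word := [[22, 19, 25, 21, 12, 12, 14, 13, 8, 15, 21, 11],
  [18, 21, 19, 12, 14, 22, 8, 18, 10, 20],
  [24, 18, 20, 15, 13, 21, 19, 11, 8, 8, 11],
  [22, 24, 12, 22, 14, 8, 12, 20, 10],
  [18, 12, 15, 12, 20, 8, 16, 21],
  [22, 18, 21, 18, 13, 15, 18, 8, 19, 20],
  [20, 19, 25, 12, 14, 19, 21, 16, 13, 17],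
  [19, 25, 12, 19, 13, 14, 8, 10, 10, 8],
  [22, 25, 14, 21, 15, 8, 16, 9, 10],
  [24, 19, 12, 12, 19, 8, 15, 9, 17]]
theorem chk : H15.embZ 4060 64 12 H15.StdRu.nets [0, 733, 3094, 3302, 304] WT H15.StdTits.allRels [] 0 1 = true := by
  decide +kernel

/-- The Rudvalis group exists as a transitive permutation group of degree 4060: simple of order 145926144000, with point stabiliser of order 35942400 containing a simple subgroup of order 17971200 (the order of the Tits group). -/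
theorem result : ∃ H : Subgroup (Equiv.Perm (Fin 4060)), Cfsg.IsRu H ∧ MulAction.IsPretransitive H (Fin 4060) ∧ Nat.card (MulAction.stabilizer H (0 : Fin 4060)) = 35942400 ∧ ∃ T : Subgroup (MulAction.stabilizer H (0 : Fin 4060)), Cfsg.IsTits T := by
  obtain ⟨S⟩ := H15.StdRu.std
  have := S.faithful
  have hR := H15.StdRu.rels_of_all S.rels
  obtain ⟨H, ⟨e⟩, h1, ⟨i⟩⟩ := H15.perm_rep S.M (K := H14.sub S.M.gen H15.StdRu.ws0) fun y =>
    (H15.StdRu.orb0 S.M hR y).1 (S.M.mem_S_full (by decide +kernel) y)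
  have := S.simple
  obtain ⟨j1, j2, j3⟩ := H15.emb_of_chk (H15.base_of_fix S.M S.top (H15.StdRu.fixw0 S.M hR)) chk
  have h2 := H15.StdRu.stab0 S.M hR
  rw [S.top, top_inf_eq] at h2
  exact ⟨H, ⟨e.symm.isSimpleGroup, (Nat.card_congr e.symm.toEquiv).trans S.card⟩, h1,
    (Nat.card_congr i.toEquiv).trans (h2 ▸ H15.StdRu.card1 S.M hR),
    _, H15.simple_map (H15.simple_subgroupOf (H15.StdTits.sub_simple j1 j3) (j2 2)) i.symm.toMonoidHom
      i.symm.injective⟩

end Cfsg.Agent.S0459
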