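import Cfsg.Statements.S0460
import Cfsg.Agent.H15.Emb2
import Cfsg.Agent.H15.ONx
import Cfsg.Agent.H15.StdJ1
import Cfsg.Agent.H15.StdM11

set_option autoImplicit false
open Cfsg

namespace Cfsg.Agent.S0460

/-- the letters of `StdJ1` -/
def WJ : List H14.Word := [[2, 22, 28, 20, 4, 10, 14, 10, 17, 29, 15],
  [12, 29, 4, 29, 20, 4, 0, 19, 16, 27, 6],
  [2, 12, 6, 18, 29, 19, 21, 0, 16, 4, 15, 8],
  [2, 22, 6, 20, 8, 21, 17, 15, 18, 14, 10],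
  [22, 19, 2, 21, 29, 20, 14, 21, 26, 14, 20],
  [2, 23, 26, 6, 4, 8, 19, 23, 0, 19, 6, 24, 0],
  [2, 26, 29, 18, 10, 20, 22, 28, 14, 14, 17, 10, 19],
  [2, 12, 28, 4, 19, 20, 8, 26, 14, 14, 17, 26, 20]]
/-- the letters of `StdM11` -/
def WM : List H14.Word := [[22, 24, 29, 4, 23, 20, 26, 20, 0, 20, 23, 15, 20],
  [2, 22, 26, 4, 21, 4, 18, 20, 17, 27, 20, 4, 17],
  [29, 8, 19, 29, 4, 2, 0, 4, 14, 17, 12],
  [2, 22, 10, 28, 18, 8, 18, 0, 14, 26, 8, 26, 14],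
  [2, 23, 26, 6, 10, 22, 20, 26, 14, 29, 16, 8, 28],
  [12, 26, 26, 4, 20, 6, 21, 18, 15, 20, 20, 1, 24],
  [12, 28, 20, 18, 8, 18, 23, 0, 4, 17, 27, 10, 21],
  [28, 27, 8, 18, 20, 20, 10, 14, 29, 6, 29, 18],
  [22, 18, 6, 29, 18, 12, 15, 0, 29, 20, 24]]
theorem chkJ : H15.subR 122760 512 17 H15.ONP.nets (L.bas H15.ONP.lv0) WJ H15.StdJ1.allRels 0 = true := by
  decide +kernel
theorem chkM : H15.subR 122760 512 17 H15.ONP.nets (L.bas H15.ONP.lv0) WM H15.StdM11.allRels 0 = true := by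
  decide +kernel

/-- The O'Nan group exists as a transitive permutation group of degree 122760: simple of order 460815505920, point stabiliser of order 3753792, and containing simple subgroups of orders 175560 and 7920. -/
theorem result : ∃ H : Subgroup (Equiv.Perm (Fin 122760)), Cfsg.IsON H ∧ MulAction.IsPretransitive H (Fin 122760) ∧ Nat.card (MulAction.stabilizer H (0 : Fin 122760)) = 3753792 ∧ (∃ K : Subgroup H, Cfsg.IsJ1 K) ∧ (∃ K : Subgroup H, Cfsg.IsM11 K) := by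
  obtain ⟨H, ⟨e⟩, h1, ⟨i⟩⟩ := H15.perm_rep H15.ON.M (H15.ONP.trans _ H15.ON.hc)
  have := H15.ON.simple
  obtain ⟨j1, j2⟩ := H15.sub_of_chk H15.ON.base chkJ
  obtain ⟨m1, m2⟩ := H15.sub_of_chk H15.ON.base chkM
  exact ⟨H, ⟨e.symm.isSimpleGroup, (Nat.card_congr e.symm.toEquiv).trans H15.ON.card⟩, h1,
    (Nat.card_congr i.toEquiv).trans (H15.ON.stab1 ▸ (H15.ONP.lev0 H15.ON.M H15.ON.hc).2.1),
    ⟨_, H15.simple_map (H15.StdJ1.sub_simple j1 j2) e.toMonoidHom e.injective⟩,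
    ⟨_, H15.simple_map (H15.StdM11.sub_simple m1 m2) e.toMonoidHom e.injective⟩⟩

end Cfsg.Agent.S0460
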