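import Cfsg.Statements.S0462
import Cfsg.Agent.H15.SuzG
import Cfsg.Agent.H15.Hex

set_option autoImplicit false
open Cfsg

namespace Cfsg.Agent.S0462

/-- The Held group exists as a transitive permutation group of degree 2058: simple of order 4030387200, with point stabiliser containing, with index 2, a copy of the 4-dimensional symplectic group over the field with four elements. -/
theorem result : ∃ H : Subgroup (Equiv.Perm (Fin 2058)), Cfsg.IsHe H ∧ MulAction.IsPretransitive H (Fin 2058) ∧ ∃ (F : Type) (_ : Field F) (_ : Fintype F), Fintype.card F = 4 ∧ ∃ N : Subgroup (MulAction.stabilizer H (0 : Fin 2058)), N.index = 2 ∧ Nonempty (N ≃* Matrix.symplecticGroup (Fin 2) F) := by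
  obtain ⟨K, _, _, hK⟩ := H15.exists_field4
  obtain ⟨H, ⟨e⟩, h1, ⟨i⟩⟩ := H15.perm_rep H15.He.M (H15.HeP.trans _ H15.He.hc)
  obtain ⟨N, -, h2, ⟨j⟩⟩ := H15.He.two hK
  have := H15.He.simple
  exact ⟨H, ⟨e.symm.isSimpleGroup, (Nat.card_congr e.symm.toEquiv).trans H15.He.card⟩, h1, K, _, _, hK,
    N.map (i.symm : _ →* _), (N.index_map_of_bijective i.symm.bijective).trans h2,
    ⟨(i.symm.subgroupMap N).symm.trans j⟩⟩

end Cfsg.Agent.S0462
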