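import Cfsg.Statements.S0478
import Cfsg.Agent.S1625
import Cfsg.Agent.H11.Mat

set_option autoImplicit false
open Cfsg

namespace Cfsg.Agent.S0478

open H15 H15.J3 H14 Cfsg.Spor Matrix

theorem chk : allLt (fun t => allLt (fun i => (Nat.ble 3 t && Nat.beq i 0) ||
    Nat.beq (c4.mulN 9 (c4.trN 9 (cd (fG t (u9 i)))) (c4.mapN (fun y => c4.powN y 2) 9 (cd (fG t (u9 i)))))
      (c4.idN 9)) 9) 5 = true := by decide +kernel

section
variable {F : Type} [Field F] [CharP F 2] {ω : F} (h2 : (2 : F) = 0) (hω : ω ^ 2 + ω + 1 = 0)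

/-- the unitary matrices -/
def U (F : Type) [Field F] [CharP F 2] : Subgroup (GL F9 F) where
  carrier := {g | (g : Matrix F9 F9 F)ᵀ * (g : Matrix F9 F9 F).map (frobenius F 2) = 1}
  one_mem' := by simp
  mul_mem' {a b} ha hb := by
    have ha : (a : Matrix F9 F9 F)ᵀ * (a : Matrix F9 F9 F).map (frobenius F 2) = 1 := ha
    have hb : (b : Matrix F9 F9 F)ᵀ * (b : Matrix F9 F9 F).map (frobenius F 2) = 1 := hb
    show ((a * b : GL F9 F) : Matrix F9 F9 F)ᵀ * ((a * b : GL F9 F) : Matrix F9 F9 F).map _ = 1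
    rw [Units.val_mul, transpose_mul, Matrix.map_mul, mul_assoc, ← mul_assoc _ _ (Matrix.map _ _), ha, one_mul, hb]
  inv_mem' {a} ha := by
    have ha : (a : Matrix F9 F9 F)ᵀ * (a : Matrix F9 F9 F).map (frobenius F 2) = 1 := ha
    show ((a⁻¹ : GL F9 F) : Matrix F9 F9 F)ᵀ * ((a⁻¹ : GL F9 F) : Matrix F9 F9 F).map _ = 1
    have e1 : ((a⁻¹ : GL F9 F) : Matrix F9 F9 F)ᵀ * (a : Matrix F9 F9 F)ᵀ = 1 := by
      rw [← transpose_mul, Units.mul_inv, transpose_one]
    have e2 : (a : Matrix F9 F9 F).map (frobenius F 2) * ((a⁻¹ : GL F9 F) : Matrix F9 F9 F).map (frobenius F 2) = 1 := by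
      rw [← Matrix.map_mul, Units.mul_inv]; simp
    calc _ = ((a⁻¹ : GL F9 F) : Matrix F9 F9 F)ᵀ * ((a : Matrix F9 F9 F)ᵀ * (a : Matrix F9 F9 F).map (frobenius F 2)) *
          ((a⁻¹ : GL F9 F) : Matrix F9 F9 F).map (frobenius F 2) := by rw [ha, mul_one]
      _ = 1 := by rw [← mul_assoc, e1, one_mul, e2]

include h2 hω
theorem le_U : threeJ3 F ω ≤ U F := by
  have key : ∀ t < 5, ∀ Z, (3 ≤ t → Z ≠ 0) → ∀ g : GL F9 F,
      (g : Matrix F9 F9 F) = (ar4 h2 hω).toM e9 (cd (fG t Z)) → g ∈ U F := fun t ht Z hZ g h => by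
    have h1 := allLt_spec (allLt_spec chk t ht) _ (e9 Z).2
    rw [Bool.or_eq_true, u9_e9] at h1
    have h3 := congrArg ((ar4 h2 hω).toM e9) (Nat.eq_of_beq_eq_true (h1.resolve_left fun h3 => by
      rw [Bool.and_eq_true, Nat.ble_eq, Nat.beq_eq] at h3
      exact hZ h3.1 ((u9_e9 Z).symm.trans (congrArg u9 h3.2))))
    replace h3 : (ar4 h2 hω).toM e9 ((ar4 h2 hω).mulN 9 ((ar4 h2 hω).trN 9 (cd (fG t Z)))
      ((ar4 h2 hω).mapN (fun y => (ar4 h2 hω).powN y 2) 9 (cd (fG t Z)))) = (ar4 h2 hω).toM e9 ((ar4 h2 hω).idN 9) := h3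
    rw [Ar.toM_mulN, Ar.toM_trN, Ar.toM_mapN _ _ (σ := frobenius F 2) (fun x hx => Ar.v_powN _ hx _),
      Ar.toM_idN, ← h] at h3
    exact h3
  refine (Subgroup.closure_le _).2 fun g hg => ?_
  rcases hg with (((⟨Z, h⟩ | ⟨Z, h⟩) | ⟨Z, h⟩) | ⟨Z, h0, h⟩) | ⟨Z, h0, h⟩
  · exact key 0 (by decide) Z (by omega) g (h.symm.trans (g0 h2 hω Z).symm)
  · exact key 1 (by decide) Z (by omega) g (h.symm.trans (g1 h2 hω Z).symm)
  · exact key 2 (by decide) Z (by omega) g (h.symm.trans (g2 h2 hω Z).symm)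
  · exact key 3 (by decide) Z (fun _ => h0) g (h.trans (g3 h2 hω Z).symm)
  · exact key 4 (by decide) Z (fun _ => h0) g (h.trans (g4 h2 hω Z).symm)

theorem det_one [Fintype F] (hF : Fintype.card F = 4) (g : threeJ3 F ω) : (clM _ g).det = 1 := by
  obtain ⟨-, -, hc, hs⟩ := S1625.result F hF ω hω
  let δ : threeJ3 F ω →* Fˣ := GeneralLinearGroup.det.comp (threeJ3 F ω).subtype
  have h1 : ∀ z ∈ Subgroup.center (threeJ3 F ω), δ z = 1 := fun z hz => by
    have e := S1625.scalar_of_ctr h2 hω hz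
    have u : (clM _ z)ᵀ * (clM _ z).map (frobenius F 2) = 1 := le_U h2 hω z.2
    rw [e] at u
    have u0 := congrFun (congrFun u 0) 0
    simp only [scalar_apply, diagonal_transpose, diagonal_mul, map_apply, diagonal_apply_eq, one_apply_eq,
      frobenius_def] at u0
    refine Units.ext ((GeneralLinearGroup.val_det_apply z.1).trans ?_)
    show (clM _ z).det = 1
    rw [e, scalar_apply, det_diagonal, Finset.prod_const, show (Finset.univ : Finset F9).card = 9 from rfl]
    linear_combination (clM _ z 0 0 ^ 6 + clM _ z 0 0 ^ 3 + 1) * u0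
  let δ' : J3 F ω →* Fˣ := QuotientGroup.lift _ δ h1
  rcases hs.eq_bot_or_eq_top_of_normal δ'.ker inferInstance with h | h
  · have := Nat.card_le_card_of_injective δ' (δ'.ker_eq_bot_iff.1 h)
    rw [hc, Nat.card_units, Nat.card_eq_fintype_card, hF] at this
    omega
  · have : δ' (QuotientGroup.mk g) = 1 := by rw [← MonoidHom.mem_ker, h]; trivial
    exact (GeneralLinearGroup.val_det_apply g.1).symm.trans (congrArg Units.val ((QuotientGroup.lift_mk' _ h1 g).symm.trans this))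

/-- the embedding -/
def emb [Fintype F] (hF : Fintype.card F = 4) : threeJ3 F ω →* Cfsg.SU 9 F 2 where
  toFun g := ⟨⟨reindex e9 e9 (clM _ g), by rw [det_reindex_self, det_one h2 hω hF]⟩, fun u v => by
    have h1 : (clM _ g)ᵀ * (clM _ g).map (frobenius F 2) = 1 := le_U h2 hω g.2
    have h3 : (reindex e9 e9 (clM _ g))ᵀ * (reindex e9 e9 (clM _ g)).map (frobenius F 2) = 1 := by
      have := congrArg (reindex e9 e9) h1
      rw [reindex_apply, reindex_apply, submatrix_one_equiv, ← submatrix_mul_equiv _ _ _ e9.symm] at this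
      exact this
    have e1 : ∀ u v, Cfsg.hermForm 9 F 2 u v = u ⬝ᵥ (frobenius F 2 ∘ v) := fun u v =>
      Finset.sum_congr rfl fun i _ => by rw [Function.comp_apply, frobenius_def]
    show Cfsg.hermForm 9 F 2 (reindex e9 e9 (clM _ g) *ᵥ u) (reindex e9 e9 (clM _ g) *ᵥ v) = _
    rw [e1, e1, show frobenius F 2 ∘ (reindex e9 e9 (clM _ g) *ᵥ v) =
      (reindex e9 e9 (clM _ g)).map (frobenius F 2) *ᵥ (frobenius F 2 ∘ v) from
      funext fun i => RingHom.map_mulVec _ _ v i, ← vecMul_transpose, ← dotProduct_mulVec, mulVec_mulVec, h3,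
      one_mulVec]⟩
  map_one' := Subtype.ext (Subtype.ext (by simp))
  map_mul' a b := Subtype.ext (Subtype.ext (by
    show reindex e9 e9 (clM _ (a * b)) = reindex e9 e9 (clM _ a) * reindex e9 e9 (clM _ b)
    rw [map_mul, reindex_apply, reindex_apply, reindex_apply, submatrix_mul_equiv]))

theorem emb_inj [Fintype F] (hF : Fintype.card F = 4) : Function.Injective (emb h2 hω hF) := fun _ _ h =>
  clM_inj _ ((reindex e9 e9).injective (congrArg (fun x : Cfsg.SU 9 F 2 => x.1.1) h))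

end

/-- A triple cover of Janko's third group inside a unitary group: for a field F with four elements, the special unitary group of dimension 9 (with respect to the form with q = 2) has a subgroup whose centre has order 3 and whose quotient by its centre is simple of order 50232960. -/
theorem result : ∃ (F : Type) (_ : Field F) (_ : Fintype F), Fintype.card F = 4 ∧ ∃ H : Subgroup (Cfsg.SU 9 F 2), Nat.card (Subgroup.center H) = 3 ∧ Cfsg.IsJ3 (H ⧸ Subgroup.center H) := by
  classical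
  have := Fintype.ofFinite (GaloisField 2 2)
  have hF : Fintype.card (GaloisField 2 2) = 4 := by
    rw [← Nat.card_eq_fintype_card, GaloisField.card 2 2 two_ne_zero]; rfl
  obtain ⟨h2, ω, hω⟩ := exists_w4 hF
  obtain ⟨h1, -, hc, hs⟩ := S1625.result _ hF ω hω
  have e := MonoidHom.ofInjective (emb_inj h2 hω hF)
  refine ⟨_, _, _, hF, (emb h2 hω hF).range, ?_, (H11.centerQuotCongr e).symm.isSimpleGroup, ?_⟩
  · exact (Nat.card_congr (Subgroup.centerCongr e).toEquiv).symm.trans h1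
  · exact (Nat.card_congr (H11.centerQuotCongr e).toEquiv).symm.trans hc

end Cfsg.Agent.S0478
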