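import Cfsg.Statements.S0479
import Cfsg.Agent.L.ON45


set_option autoImplicit false
set_option linter.unusedVariables false
open Cfsg

namespace Cfsg.Agent.S0479

/-- A triple cover of the O'Nan group as 45 × 45 matrices over the field with seven elements: SL(45, 7) has a subgroup whose centre has order 3 and whose quotient by its centre is simple of order 460815505920. -/
theorem result : ∃ H : Subgroup (Matrix.SpecialLinearGroup (Fin 45) (ZMod 7)), Nat.card (Subgroup.center H) = 3 ∧ Cfsg.IsON (H ⧸ Subgroup.center H) := by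
  obtain ⟨Γ, h1, ⟨e⟩, h3⟩ := L.ON45.cover
  obtain ⟨H, h, ⟨i⟩⟩ := L.ON45.to_sl Γ h3
  have := H15.ON.simple
  exact ⟨H, h.trans h1, (i.trans e).isSimpleGroup, (Nat.card_congr (i.trans e).toEquiv).trans H15.ON.card⟩

end Cfsg.Agent.S0479
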