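import Cfsg.Statements.S0481
import Cfsg.Agent.H21.LX2

set_option autoImplicit false
open Cfsg

namespace Cfsg.Agent.S0481

open H18 H1 H21 Subgroup

/-- Large extraspecial subgroups: let z be an involution of a finite group G whose centraliser C contains a normal 2-subgroup Q with centre of order 2 and all squares central, such that every element of G centralising Q lies in Q. Then C contains a Sylow 2-subgroup of G, and any involution of G whose centraliser contains a Sylow 2-subgroup of G is conjugate to z. -/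
theorem result {G : Type*} [Group G] [Finite G] (z : G) (hz : orderOf z = 2) (Q : Subgroup G) (hQC : Q ≤ Subgroup.centralizer ({z} : Set G)) (hQn : ∀ g ∈ Subgroup.centralizer ({z} : Set G), ∀ q ∈ Q, g * q * g⁻¹ ∈ Q) (hQ2 : IsPGroup 2 Q) (hZ : Nat.card (Subgroup.center Q) = 2) (hsq : ∀ x : Q, x ^ 2 ∈ Subgroup.center Q) (hlarge : Subgroup.centralizer (Q : Set G) ≤ Q) : (∃ P : Sylow 2 G, (P : Subgroup G) ≤ Subgroup.centralizer ({z} : Set G)) ∧ ∀ u : G, orderOf u = 2 → (∃ P : Sylow 2 G, (P : Subgroup G) ≤ Subgroup.centralizer ({u} : Set G)) → IsConj z u := by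
  have h2 := sq_of_orderOf hz
  have hzZ : z ∈ Z(Q) := ⟨hlarge (le_C1_iff.1 hQC), le_C1_iff.1 hQC⟩
  have e : zpowers z = Z(Q) := zpowers_eq_of_prime
    (by rw [← map_center, card_map_subtype, hZ]; exact Nat.prime_two) hzZ (ne_of_orderOf hz)
  have hi : ∀ x ∈ C(Q), x * x = 1 → x ∈ zpowers z := fun x hx _ => e ▸ ⟨hlarge hx, hx⟩
  obtain ⟨T, hT, hQ⟩ := exists_sylow_le Nat.prime_two (piGrp_of_isPGroup Nat.prime_two hQ2)
    (le_inf le_top hQC : Q ≤ ⊤ ⊓ C1(z))
  obtain ⟨-, hS⟩ := sylow_of_cent hQ hi h2 hT (hQ hzZ.1) (ne_of_orderOf hz)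
  obtain ⟨S, rfl⟩ := hS.exists_sylow_top Nat.prime_two
  refine ⟨⟨S, hT.le.trans inf_le_right⟩, fun u hu ⟨P, hP⟩ => ?_⟩
  obtain ⟨g, -, e⟩ := sylow_conj Nat.prime_two (hall_sylow_top Nat.prime_two P) hS
  have : g * u * g⁻¹ ∈ C(Q) := le_C1_iff.1 (hQ.trans (by rw [e, ← cj_C1]; exact cj_mono hP))
  rcases (mem_zp_two h2).1 (hi _ this (by rw [conj_mul, sq_of_orderOf hu]; simp)) with e | e
  · exact absurd (by simpa using e) (ne_of_orderOf hu)
  · exact (isConj_iff.2 ⟨g, e⟩).symm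

end Cfsg.Agent.S0481
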