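import Cfsg.Statements.S0992
import Cfsg.Agent.H10.Syl2

set_option autoImplicit false
open Cfsg

namespace Cfsg.Agent.S0992

/-- Let G be a non-abelian finite simple group of even order not divisible by 8, and T a Sylow 2-subgroup. Then T is a Klein four-group and the centralizer of T has index 3 in the normalizer of T. -/
theorem result {G : Type*} [Group G] [Finite G] [IsSimpleGroup G] (hG : ¬ IsMulCommutative G) (h2 : Even (Nat.card G)) (h8 : ¬ 8 ∣ Nat.card G) (T : Sylow 2 G) : IsKleinFour ↥(T : Subgroup G) ∧ (Subgroup.centralizer ((T : Subgroup G) : Set G)).relIndex (Subgroup.normalizer ((T : Subgroup G) : Set G)) = 3 := by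
  have hperf := H10.commutator_eq_top_of_simple hG
  have hnc := H10.not_isCyclic_sylow_two_of_perfect hperf h2.two_dvd T
  obtain ⟨k, hk⟩ := T.2.exists_card_eq
  have hk2 : k ≤ 2 := by
    by_contra h
    exact h8 ((pow_dvd_pow 2 (show 3 ≤ k by omega)).trans (hk ▸ Subgroup.card_subgroup_dvd_card _))
  have h4 : Nat.card (T : Subgroup G) = 4 := by
    interval_cases k
    · exact absurd (isCyclic_of_card_dvd_prime (p := 2) (by rw [hk]; norm_num)) hnc
    · exact absurd (isCyclic_of_card_dvd_prime (p := 2) (by rw [hk]; norm_num)) hnc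
    · exact hk
  refine ⟨⟨h4, ?_⟩, ?_⟩
  · exact not_isCyclic_iff_exponent_eq_prime Nat.prime_two h4 |>.1 hnc
  · have h1 := H10.relIndex_centralizer_dvd_factorial (T : Subgroup G)
    have h2' := H10.relIndex_centralizer_ne_one hperf T h2.two_dvd
    have h3 := H10.not_dvd_relIndex_centralizer T (IsPGroup.isMulCommutative_of_card_eq_prime_sq (p := 2) h4)
    rw [h4] at h1
    have := Nat.le_of_dvd (by norm_num) h1
    generalize (Subgroup.centralizer ((T : Subgroup G) : Set G)).relIndex _ = e at *
    norm_num [Nat.factorial] at h1 this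
    interval_cases e <;> omega

end Cfsg.Agent.S0992
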