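import Cfsg.Statements.S0499
import Cfsg.Agent.H10.Syl2
import Cfsg.Agent.S0992

set_option autoImplicit false
open Cfsg

namespace Cfsg.Agent.S0499

/-- A non-abelian finite simple group of even order has order divisible by 12, 16 or 56. -/
theorem result {G : Type*} [Group G] [Finite G] [IsSimpleGroup G]
    (hG : ¬ IsMulCommutative G) (h2 : Even (Nat.card G)) :
    12 ∣ Nat.card G ∨ 16 ∣ Nat.card G ∨ 56 ∣ Nat.card G := by
  have hperf := H10.commutator_eq_top_of_simple hG
  by_cases h16 : 16 ∣ Nat.card G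
  · exact .inr (.inl h16)
  obtain ⟨T⟩ : Nonempty (Sylow 2 G) := inferInstance
  have h4 : 4 ∣ Nat.card G := by
    by_cases h8 : 8 ∣ Nat.card G
    · omega
    · exact (S0992.result hG h2 h8 T).1.card_four ▸ Subgroup.card_subgroup_dvd_card _
  obtain ⟨q, j, hq, -, h1, h2, h3, h4, h5⟩ :=
    H10.exists_prime_dvd_pow_sub_one_of_perfect (p := 2) (n := 3) hperf h2.two_dvd h16
  interval_cases j
  · exact absurd (Nat.dvd_one.1 h5) hq.one_lt.ne'
  · obtain rfl := (Nat.prime_dvd_prime_iff_eq hq Nat.prime_three).1 h5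
    omega
  · obtain rfl := (Nat.prime_dvd_prime_iff_eq hq (by norm_num : Nat.Prime 7)).1 h5
    omega

end Cfsg.Agent.S0499
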