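import Cfsg.Statements.S0501
import Cfsg.Agent.H2.Mw3
import Cfsg.Agent.S0130

set_option autoImplicit false
open Cfsg

open Subgroup

namespace Cfsg.Agent.S0501

/-- A finite 2-group in which every normal elementary abelian subgroup has order at most 4 has sectional rank at most
4: every quotient of every subgroup has no elementary abelian subgroup of order exceeding 16. -/
theorem result {P : Type*} [Group P] [Finite P] (hP : IsPGroup 2 P)
    (h : ∀ A : Subgroup P, A.Normal → IsMulCommutative A → (∀ a ∈ A, a ^ 2 = 1) → Nat.card A ≤ 4) :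
    Cfsg.SectionalPRankLE 2 4 P := by
  haveI : Fact (Nat.Prime 2) := Nat.fact_prime_two
  obtain ⟨W, -, hW⟩ := Finite.exists_le_maximal
    (p := fun B : Subgroup P => B.Normal ∧ IsMulCommutative B ∧ ∀ b ∈ B, b ^ 2 ^ 2 = 1) (a := ⊥)
    ⟨inferInstance, inferInstance, fun b hb => by rw [mem_bot.1 hb, one_pow]⟩
  obtain ⟨hn, hc, he⟩ := hW.prop
  have hcc : ∀ x ∈ W, ∀ y ∈ W, x * y = y * x := fun x hx y hy =>
    congrArg Subtype.val (hc.is_comm.comm ⟨x, hx⟩ ⟨y, hy⟩)
  let V : Subgroup P :=
    { carrier := {b | b ∈ W ∧ b * b = 1}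
      one_mem' := ⟨one_mem _, mul_one _⟩
      mul_mem' := fun {a b} ha hb => ⟨mul_mem ha.1 hb.1, by
        calc a * b * (a * b) = a * (b * a) * b := by group
          _ = a * (a * b) * b := by rw [hcc _ hb.1 _ ha.1]
          _ = (a * a) * (b * b) := by group
          _ = 1 := by rw [ha.2, hb.2, mul_one]⟩
      inv_mem' := fun {a} ha => ⟨inv_mem ha.1, by rw [← mul_inv_rev, ha.2, inv_one]⟩ }
  have S : H2.Mw.St W V := ⟨hP, hn, hcc, he, fun c hc' h4 =>
    Cfsg.Agent.S0130.result hP 2 (by norm_num) W hc he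
      (fun B h1 h2 h3 h4 => le_antisymm (hW.le_of_ge ⟨h1, h2, h3⟩ h4) h4) c hc' h4, fun _ => Iff.rfl, h⟩
  intro H N _ A _ hA
  have := S.bound ((A.comap (QuotientGroup.mk' N)).map H.subtype) (N.map H.subtype)
    (map_mono fun x hx => by
      rw [mem_comap, QuotientGroup.mk'_apply, (QuotientGroup.eq_one_iff x).2 hx]; exact one_mem _) (by
      rintro _ ⟨x, hx, rfl⟩
      refine ⟨x * x, ?_, rfl⟩
      rw [SetLike.mem_coe, ← QuotientGroup.eq_one_iff, QuotientGroup.mk_mul, ← pow_two]
      exact hA _ hx)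
  rw [card_map_of_injective H.subtype_injective, card_map_of_injective H.subtype_injective,
    H2.card_comap_mk'] at this
  exact Nat.le_of_mul_le_mul_right this (H2.card_pos' N)

end Cfsg.Agent.S0501
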