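import Cfsg.Statements.S0502
import Cfsg.Agent.H5.TIsub
import Cfsg.Agent.H9.MaxClass

set_option autoImplicit false
open Cfsg

namespace Cfsg.Agent.S0502
open H5
open H18 Subgroup

/-- If a finite 2-group has a normal elementary abelian subgroup of order at least 8, then any two of its Klein
four-subgroups are joined by a chain of Klein four-subgroups with consecutive members commuting elementwise. -/
theorem result {P : Type*} [Group P] [Finite P] (hP : IsPGroup 2 P)
    (E : Subgroup P) [E.Normal] (hE : IsMulCommutative E) (hE2 : ∀ e ∈ E, e ^ 2 = 1) (hE8 : 8 ≤ Nat.card E) :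
    Cfsg.IsFourConnected P := by
  have p2 := Nat.prime_two
  have hEe : Elem 2 E := ⟨abel_of_comm hE, hE2⟩
  have hT : PiGrp {2} (⊤ : Subgroup P) := piGrp_of_isPGroup p2 (hP.to_subgroup _)
  have hn : ⊤ ≤ N(E) := le_normalizer_of_normal
  obtain ⟨z, hz, hz1⟩ := exists_mem_ne_one' (hT.meet_cent (hT.of_le le_top) hn (by rintro rfl; simp at hE8))
  have hz2 := hEe.card_zpowers p2 hz.1 hz1
  have key : ∀ U : Subgroup P, IsKleinFour U → ∃ U' W : Subgroup P, IsKleinFour U' ∧ IsKleinFour W ∧ U ≤ C(U') ∧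
      U' ≤ C(W) ∧ W ≤ E := by
    intro U hU
    have hU' := H9.pElem_of_isKleinFour hU le_top
    obtain ⟨Y, hY, hY2, hne⟩ := hU'.exists_other p2 hz2
    obtain ⟨u, hu1, rfl⟩ := exists_gen_of_prime (hY2 ▸ p2)
    have hzc : ∀ X : Subgroup P, zpowers z ≤ C(X) := fun X => (zpowers_le_of_mem hz.2).trans (C_anti le_top)
    obtain ⟨W, hW⟩ := exists_pelem_cent (n := 1) hEe (hn (mem_top u))
      (by rw [← pow_two, hU'.elem.pow u (hY (mem_zpowers u))]; exact one_mem _) hE8
    exact ⟨_, W, H9.isKleinFour_of_pElem (pelem_two_of_primes p2 hY2 hz2 hne (cent_symm (hzc _))),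
      H9.isKleinFour_of_pElem hW, cent_symm (sup_le (hY.trans hU'.abel) (hzc _)),
      sup_le (zpowers_le_C_iff.2 (hW.le.trans inf_le_right)) (hzc _), hW.le.trans inf_le_left⟩
  intro U V hU hV
  obtain ⟨U', W, a1, a2, a3, a4, a5⟩ := key U hU
  obtain ⟨V', W', b1, b2, b3, b4, b5⟩ := key V hV
  exact ((((Relation.ReflTransGen.single ⟨hU, a1, cent_iff.1 a3⟩).tail ⟨a1, a2, cent_iff.1 a4⟩).tail
    ⟨a2, b2, cent_iff.1 (cent_mono hEe.abel a5 b5)⟩).tail ⟨b2, b1, cent_iff.1 (cent_symm b4)⟩).tail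
    ⟨b1, hV, cent_iff.1 (cent_symm b3)⟩

end Cfsg.Agent.S0502
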