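import Cfsg.Statements.S0504
import Cfsg.Agent.H17.Dich
import Cfsg.Agent.S1221

set_option autoImplicit false
open Cfsg

namespace Cfsg.Agent.S0504

open H17 H18 Subgroup

/-- Let G be a finite group containing an elementary abelian subgroup of order 8, with no nontrivial normal subgroup of
odd order, not of component type, and with a Sylow 2-subgroup whose commuting graph of Klein four-subgroups is
connected. Then every 2-local subgroup H of G satisfies C_H(O₂(H)) ≤ O₂(H). -/
theorem result {G : Type*} [Group G] [Finite G]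
    (h3 : ¬ Cfsg.PRankLE 2 2 G) (hO : Cfsg.oddCore G = ⊥) (hc : ¬ Cfsg.IsComponentType G) (S : Sylow 2 G)
    (hS : Cfsg.IsFourConnected (S : Subgroup G)) : Cfsg.IsCharacteristicTwoType G := by
  have c : ∀ t : G, orderOf t = 2 → pLay 2 C1(t) = ⊥ := fun t ht =>
    pLay_eq_bot_of_not_hasComponent fun e => hc ⟨t, ht, e⟩
  have hS' := hall_sylow_top Nat.prime_two S
  have b := big_sylow hS' h3
  obtain ⟨M, W, h⟩ := exists_DS c hS' b
  exact charTwoType_of (even_of_not_prankLE h3) c fun t => h.eq_bot (fun t ht t2 => (big_elt_of_big_four Nat.prime_two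
    hS'.pi b (fun V => big_of_fourConnected hS'.pi b hS) ht t2).mono le_rfl h.le) hO Cfsg.Agent.S1221.result

end Cfsg.Agent.S0504
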