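import Cfsg.Statements.S0505
import Cfsg.Agent.H17.FStar

set_option autoImplicit false
open Cfsg

namespace Cfsg.Agent.S0505
open H17

/-- Let G be a finite group of even order in which the centralizer of every involution is solvable and has trivial
core (no nontrivial normal subgroup of odd order). Then G is of characteristic 2 type. -/
theorem result {G : Type*} [Group G] [Finite G]
    (h2 : Even (Nat.card G))
    (hs : ∀ t : G, orderOf t = 2 → Group.IsSolvable (Subgroup.centralizer ({t} : Set G)))
    (hc : ∀ t : G, orderOf t = 2 → Cfsg.oddCore (Subgroup.centralizer ({t} : Set G)) = ⊥) :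
    Cfsg.IsCharacteristicTwoType G := by
  refine ⟨h2, fun T hT h0 => charP_iff_sub.1 ((charP_normalizer_iff hT).2 ?_)⟩
  obtain ⟨z, hz, ho⟩ := exists_orderOf_of_ne_bot hT h0
  refine CharP.centralizer_of_mem hT hz (charP_of_solvable (hs z ho) ?_)
  have := hc z ho
  rw [oQ, show pPrimeCore 2 _ = oddCore _ from ?_, this, Subgroup.map_bot]
  unfold oddCore pPrimeCore
  simp only [Nat.coprime_two_right]

end Cfsg.Agent.S0505
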