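import Cfsg.Statements.S0508
import Cfsg.Agent.H2.GWBlk
import Cfsg.Agent.H2.BSW

set_option autoImplicit false
open Cfsg

open H2 H18 H19 H22 Subgroup

namespace Cfsg.Agent.S0508

/-- Let G be a finite simple group with a dihedral Sylow 2-subgroup S (of order at least 4), t an involution in the
centre of S, C the centralizer of t and O the core of C (its largest normal subgroup of odd order). Suppose that: if O
is nontrivial then the centralizer of O in S is cyclic of index 2 in S; every element of S not centralizing O inverts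
every element of O; and the normalizer of every nontrivial subgroup of O lies in C. Then G is isomorphic to a projective
special linear group of dimension 2 over a field of odd order. -/
theorem result {G : Type*} [Group G] [Finite G] [IsSimpleGroup G] (S : Sylow 2 G) (n : ℕ)
    (hn : 2 ≤ n) (hS : Nonempty ((S : Subgroup G) ≃* DihedralGroup n)) (t : G) (ht : orderOf t = 2)
    (htS : t ∈ (S : Subgroup G))
    (htZ : ∀ s ∈ (S : Subgroup G), s * t = t * s) (O : Subgroup G)
    (hO : O = (Cfsg.oddCore (Subgroup.centralizer ({t} : Set G))).map (Subgroup.centralizer ({t} : Set G)).subtype)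
    (ha : O ≠ ⊥ → IsCyclic ((S : Subgroup G) ⊓ Subgroup.centralizer (O : Set G) : Subgroup G) ∧
      ((S : Subgroup G) ⊓ Subgroup.centralizer (O : Set G)).relIndex (S : Subgroup G) = 2)
    (hb : ∀ s ∈ (S : Subgroup G), s ∉ Subgroup.centralizer (O : Set G) → ∀ y ∈ O, s * y * s⁻¹ = y⁻¹)
    (hc : ∀ Y : Subgroup G, Y ≤ O → Y ≠ ⊥ → Subgroup.normalizer (Y : Set G) ≤ Subgroup.centralizer ({t} : Set G)) :
    ∃ (F : Type) (_ : Field F) (_ : Fintype F), Odd (Fintype.card F) ∧ Nonempty (G ≃* Matrix.ProjectiveSpecialLinearGroup (Fin 2) F) := by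
  have := Fintype.ofFinite G
  obtain ⟨e⟩ := hS
  have hs := hall_sylow_top Nat.prime_two S
  obtain ⟨t0, x0, v0, h0⟩ := dih_of_equiv hs e hn
  obtain ⟨w, w1, w2, w3⟩ : ∃ w ∈ (S : Subgroup G), orderOf w = 2 ∧ w ≠ t := by
    by_cases e : v0 = t
    exacts [⟨t0, h0.tS, h0.ht, e ▸ h0.vt.symm⟩, ⟨v0, h0.vS, h0.hv, e⟩]
  obtain ⟨x, m, h⟩ := exists_dih_of hs h0.cd htS ht (fun s hs => mem_C1.2 (htZ s hs)) w1 w2 w3
  obtain rfl : O = UU t := hO.trans (pPrimeCore_map Nat.prime_two)
  have key : zpowers x ≤ C(UU t) ∧ ∀ u ∈ UU t, w * u * w⁻¹ = u⁻¹ := by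
    by_cases e : UU t = ⊥
    · simp [e]
    obtain ⟨h1, h2⟩ := ha e
    obtain ⟨y, hy⟩ := Cyc.gen h1
    have yS : y ∈ (S : Subgroup G) ⊓ C(UU t) := hy ▸ mem_zpowers y
    have tY : t ∈ zpowers y := hy ▸ ⟨htS, fun u hu => mem_C1.1 (pcore_le hu)⟩
    have yx : y ∈ zpowers x := by
      by_contra e
      exact e (((mem_zp_sq (h.refl_sq yS.1 e)).1 tY).resolve_left h.t1 ▸ h.tx)
    have e : zpowers y = zpowers x := eq_of_card_eq (zpowers_le.2 yx) (by
      have e1 := H18.card_mul_relIndex (inf_le_left : (S : Subgroup G) ⊓ C(UU t) ≤ S)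
      have e2 := H18.card_mul_relIndex h.zp_le
      rw [h2, ← hy] at e1
      rw [h.relIndex_zp] at e2
      omega)
    exact ⟨e ▸ zpowers_le.2 yS.2, hb w w1 fun e' => h.vx (e ▸ hy ▸ ⟨w1, e'⟩)⟩
  have hK : Abel (KK t x) := Abel.sup (fun a ha b hb => by
    have := key.2 _ (mul_mem ha hb)
    rw [← conj_mul, key.2 a ha, key.2 b hb, ← mul_inv_rev, inv_inj] at this
    exact this) abel_zpowers (cent_symm key.1)
  have hinv : ∀ a ∈ KK t x, w * a * w⁻¹ = a⁻¹ := fun a ha => by
    obtain ⟨u, hu, b, hb, rfl⟩ := (dih_sdK h).mem_iff.1 ha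
    rw [← conj_mul, key.2 u hu, h.inv_zp hb, ← mul_inv_rev, key.1 hb u hu]
  have T := dih_tis' h (R := ⊥) fun a h1 h2 g hg => by
    refine ((dih_tis h).cases g (hc _ (zpowers_le.2 h1) (by simpa using h2) (C1_le_N_zpowers hg))).resolve_right
      fun e => h2 (eq_one_of_sq_odd ?_ (pcore_pi.elt h1))
    have e1 := comm_of_cent hK e (mem_sup_left h1)
    have e2 := key.2 a h1
    rw [mul_inv_eq_iff_eq_mul] at e2
    rw [mul_assoc, e2, ← mul_assoc, ← mul_assoc, ← mem_C1.1 hg, mul_left_inj, mul_right_inj] at e1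
    exact mul_eq_one_iff_inv_eq.2 e1
  have h1 : H22.One (⊤ : Subgroup G) := h.one fun M _ h2 => by
    rcases (norm_of_relIndex_two le_top h2).normal.eq_bot_or_eq_top with rfl | rfl
    · have := card_le_of_le (le_top (a := (S : Subgroup G)))
      have := h.two_or'
      rw [relIndex_bot_left] at h2
      rw [h.card] at *; omega
    · simp at h2
  obtain ⟨F, i1, i2, h2, -, h3⟩ := (bsw_of ht hK (dih_tK h) h.vv T.vK (fun g hg => (T.cases g hg).elim mem_sup_left
    fun e => by simpa [h.vv, mul_assoc] using mul_mem_sup' e (mem_zpowers w))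
    (fun a ha e => (em (a = 1)).imp id fun e' => T.uniq a ha (ord2.2 ⟨e, e'⟩)) hinv
    (fun g hg => eq_bot_iff.2 fun a ha => by_contra fun e => hg (by
      simpa using inv_mem (T.ti g⁻¹ a ha.1 e (by simpa using mem_cj.1 ha.2)))) (h1.isConj ht)).psl2
  exact ⟨F, i1, i2, h2, h3⟩

end Cfsg.Agent.S0508
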