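import Cfsg.Statements.S0515
import Cfsg.Agent.H17.SFC

set_option autoImplicit false
open Cfsg

namespace Cfsg.Agent.S0515

open H18 H17

/-- Inside a finite group, let A be an elementary abelian p-subgroup of order at least p^3 normalizing a subgroup K of
order prime to p. If the centralizer in K of every non-identity element of A is solvable, then K is solvable. -/
theorem result {X : Type*} [Group X] [Finite X]
    (p : ℕ) [Fact p.Prime] (A K : Subgroup X) (hA : IsMulCommutative A) (hAp : ∀ a ∈ A, a ^ p = 1)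
    (hA3 : p ^ 3 ≤ Nat.card A) (hK : (Nat.card K).Coprime p) (hAK : A ≤ Subgroup.normalizer (K : Set X))
    (hC : ∀ a ∈ A, a ≠ 1 → Group.IsSolvable ((K ⊓ Subgroup.centralizer ({a} : Set X) : Subgroup X))) :
    Group.IsSolvable K := by
  have hp : p.Prime := Fact.out
  have he : Elem p A := ⟨abel_of_comm hA, hAp⟩
  have hK' : PiGrp {p}ᶜ K := (piNat_compl_iff_coprime hp).2 hK
  have hs : SF p A fun a => K ⊓ C1(a) := ⟨hp, he, fun _ _ _ => inf_le_right, fun _ _ _ => hK'.inf_left,
    fun a ha _ => norm_inf hAK (norm_C1 (he.abel.trans (C_le_C1 ha))), hC,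
    fun _ _ _ _ _ _ => inf_le_inf_right _ inf_le_left⟩
  exact Solv.of_le (hs.mem_WB hA3).solv (le_of_elt' hp he (sq_le_of_cube hp hA3)
    (H1.cop_of_pi hAK (he.pi hp) hK' (Or.inl (he.pi hp).solv)) fun a ha h1 => le_WB (θ := fun a => K ⊓ C1(a)) ha h1)

end Cfsg.Agent.S0515
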