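import Cfsg.Statements.S0518
import Cfsg.Agent.H26.JC5

set_option autoImplicit false
open Cfsg

namespace Cfsg.Agent.S0518

open H26 Subgroup
open scoped Pointwise commutatorElement

/-- Let G be a finite group of characteristic 2 type with trivial 2-core in which every 2-local subgroup is solvable
and, for every Sylow 2-subgroup S, the centralizer of the set of central involutions of S lies in the normalizer of S.
Then either G has a strongly embedded subgroup, or the subgroup generated by the elements of odd order has two distinct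
maximal 2-local subgroups, each isomorphic to the symmetric group of degree 4, whose intersection has order 8. -/
theorem result {G : Type*} [Group G] [Finite G]
    (hL : Cfsg.IsCharacteristicTwoType G) (hO : Cfsg.pCore 2 G = ⊥)
    (hN : ∀ N : Subgroup G, Cfsg.IsTwoLocal N → Group.IsSolvable N)
    (hZ : ∀ S : Sylow 2 G,
      Subgroup.centralizer {z : G | z ∈ (S : Subgroup G) ∧ z ^ 2 = 1 ∧ ∀ s ∈ (S : Subgroup G), s * z = z * s} ≤
        Subgroup.normalizer ((S : Subgroup G) : Set G))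
    (H : Subgroup G) (hH : H = Subgroup.closure {g : G | Odd (orderOf g)}) :
    (∃ K : Subgroup G, Cfsg.IsStronglyEmbedded K) ∨
      ∃ M₁ M₂ : Subgroup H, M₁ ≠ M₂ ∧ Cfsg.IsMaximalTwoLocal M₁ ∧ Cfsg.IsMaximalTwoLocal M₂ ∧
        Nonempty (M₁ ≃* Equiv.Perm (Fin 4)) ∧ Nonempty (M₂ ≃* Equiv.Perm (Fin 4)) ∧ Nat.card ↥(M₁ ⊓ M₂) = 8 := by
  have hG := zn_of hL hN fun S => by
    refine le_trans ?_ (hZ S)
    exact centralizer_le fun z hz => mem_omegaOne ⟨hz.1, hz.2.2⟩ hz.2.1
  obtain rfl : H = pResidualOf 2 ⊤ := by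
    rw [hH, pResidualOf_eq]; simp only [Nat.coprime_two_right, mem_top, true_and]
  refine (hG.spe_or_pr hO hL.1.two_dvd).imp (fun ⟨M, h⟩ => ⟨M, spe_iff_stronglyEmbedded.1 h⟩) ?_
  rintro ⟨T, K₁, K₂, L₁, L₂, p⟩
  have e : ∀ L : Subgroup G, Nonempty (↥(L.subgroupOf (pResidualOf 2 ⊤)) ≃* ↥(L ⊓ pResidualOf 2 ⊤)) := fun L =>
    ⟨(MulEquiv.subgroupCongr (inf_subgroupOf_right L _).symm).trans (subgroupOfEquivOfLe inf_le_right)⟩
  refine ⟨_, _, fun e => p.w1.not_le p.w2 p.ne fun x hx => ?_, p.max_sub hG, p.symm.max_sub hG,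
    ⟨(e _).some.trans (p.iso hG).some⟩, ⟨(e _).some.trans (p.symm.iso hG).some⟩, ?_⟩
  · exact (e.ge (show (⟨x, p.symm.k_le hx⟩ : pResidualOf 2 (⊤ : Subgroup G)) ∈ _ from p.w2.le hx) :)
  · rw [← p.card_T hG, ← p.inf_eq' hG]
    exact Nat.card_congr (e (L₁ ⊓ L₂)).some.toEquiv

end Cfsg.Agent.S0518
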