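import Cfsg.Statements.S0519
import Cfsg.Agent.H9.MaxClass

set_option autoImplicit false
open Cfsg

namespace Cfsg.Agent.S0519

/-- Let P be a finite p-group in which every abelian normal subgroup is cyclic, but which has a non-cyclic abelian
subgroup. Then p = 2 and P is generalized quaternion, dihedral of order at least 16, or quasi-dihedral. -/
theorem result {P : Type*} [Group P] [Finite P] (p : ℕ) [Fact p.Prime]
    (hP : IsPGroup p P) (hn : ∀ A : Subgroup P, A.Normal → IsMulCommutative A → IsCyclic A)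
    (hm : ∃ B : Subgroup P, IsMulCommutative B ∧ ¬ IsCyclic B) :
    p = 2 ∧ ((∃ n : ℕ, Nonempty (P ≃* QuaternionGroup n)) ∨ (∃ n : ℕ, 8 ≤ n ∧ Nonempty (P ≃* DihedralGroup n)) ∨
      Cfsg.IsQuasiDihedral P) := by
  obtain ⟨B, hB, hB'⟩ := hm
  rcases H9.cyclic_or_mc_top hP hn with h | ⟨rfl, k, x, h⟩
  · exact absurd (Subgroup.isCyclic B) hB'
  refine ⟨rfl, ?_⟩
  rcases h.cases with h1 | h1 | ⟨h1, h2⟩
  · obtain ⟨e⟩ := h.equiv_dihedral h1
    refine Or.inr (Or.inl ⟨_, ?_, ⟨Subgroup.topEquiv.symm.trans e⟩⟩)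
    rcases k with _ | k
    · exfalso
      obtain ⟨y, hy, hy'⟩ := h.exists_out
      have hK := H9.isKleinFour_closure h.orderOf_u ((h.orderOf_out hy hy').resolve_right
        fun h2 => h.u_ne_one (h2.1.symm.trans (h1 y hy hy'))).2
        (fun h2 => hy' (h2 ▸ h.u_mem_x)) (h.commute_u hy).symm
      have hE := H9.pElem_of_isKleinFour hK le_rfl
      refine H3.not_cyc_of_pElem Nat.prime_two hE (hn _ ?_ hE.elem.abel.comm)
      refine (H18.nml_of_der_le (h.commutator_eq.le.trans ?_) le_top).normal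
      exact Subgroup.zpowers_le.2 (Subgroup.subset_closure (by simp))
    · exact Nat.pow_le_pow_right two_pos (by omega : 3 ≤ k + 1 + 2)
  · obtain ⟨e⟩ := h.equiv_quaternion h1
    exact Or.inl ⟨_, ⟨Subgroup.topEquiv.symm.trans e⟩⟩
  · exact Or.inr (Or.inr (H9.isQuasiDihedral_of_equiv Subgroup.topEquiv (h.isQuasiDihedral h1 h2)))

end Cfsg.Agent.S0519
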