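import Cfsg.Statements.S0520
import Cfsg.Agent.H9.MaxClass

set_option autoImplicit false
open Cfsg

namespace Cfsg.Agent.S0520
open H18 Subgroup

/-- Let G be a finite group of 2-rank at least 2 and S a Sylow 2-subgroup whose commuting graph of Klein four-subgroups is
connected. Then the commuting graph of Klein four-subgroups of G is disconnected if and only if the 2-generated core — the
subgroup generated by the normalizers N_G(Q) of the subgroups Q of S that contain a Klein four-group — is a proper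
subgroup of G. -/
theorem result {G : Type*} [Group G] [Finite G] (h2 : ¬ Cfsg.PRankLE 2 1 G)
    (S : Sylow 2 G) (hS : Cfsg.IsFourConnected (S : Subgroup G)) :
    ¬ Cfsg.IsFourConnected G ↔
      (⨆ Q : {Q : Subgroup G // Q ≤ (S : Subgroup G) ∧ ¬ Cfsg.PRankLE 2 1 Q},
          Subgroup.normalizer ((Q : Subgroup G) : Set G)) ≠ ⊤ := by
  have p2 := Nat.prime_two
  set Γ := ⨆ Q : {Q : Subgroup G // Q ≤ (S : Subgroup G) ∧ ¬ Cfsg.PRankLE 2 1 Q}, N((Q : Subgroup G))
  have hS' : Hall {2} (S : Subgroup G) ⊤ := hall_sylow_top p2 S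
  have kf : ∀ {W : Subgroup G}, IsKleinFour W ↔ PElem 2 2 W ⊤ :=
    ⟨fun h => H9.pElem_of_isKleinFour h le_top, H9.isKleinFour_of_pElem⟩
  have rk : ∀ {Q : Subgroup G}, ¬ PRankLE 2 1 Q ↔ ∃ W, PElem 2 2 W Q := by
    intro Q; rw [← lt_prank_iff p2, ← le_prank_iff p2]; rfl
  have hN : ∀ {Q W : Subgroup G}, Q ≤ S → PElem 2 2 W Q → N(Q) ≤ Γ := fun h1 h2 =>
    le_iSup (fun Q : {Q : Subgroup G // Q ≤ (S : Subgroup G) ∧ ¬ Cfsg.PRankLE 2 1 Q} => N((Q : Subgroup G))) ⟨_, h1, rk.2 ⟨_, h2⟩⟩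
  obtain ⟨U, hU⟩ : ∃ U, PElem 2 2 U (S : Subgroup G) := by
    obtain ⟨W, hW⟩ := rk.1 (mt prankLE_top.1 h2)
    obtain ⟨g, -, hg⟩ := sylow_le_cj p2 hS' (hW.pi p2) le_top
    exact ⟨_, (hW.cj g).of_le' hg⟩
  have hSΓ : (S : Subgroup G) ≤ Γ := le_N.trans (hN le_rfl hU)
  have hSΓ' : Hall {2} (S : Subgroup G) Γ := hS'.of_le hSΓ le_top
  let r : Subgroup G → Subgroup G → Prop := fun A B => IsKleinFour A ∧ IsKleinFour B ∧ ∀ a ∈ A, ∀ b ∈ B, a * b = b * a
  have rcj : ∀ g {A B}, Relation.ReflTransGen r A B → Relation.ReflTransGen r (cj g A) (cj g B) := fun g _ _ h =>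
    h.lift (cj g) fun A B ⟨a, b, c⟩ => ⟨kf.2 ((kf.1 a).cj g).top, kf.2 ((kf.1 b).cj g).top,
      cent_iff.1 (by rw [← cj_C]; exact cj_mono (cent_iff.2 c))⟩
  rw [not_iff_not]
  constructor
  · intro hc
    have a1 : ∀ n g W, PElem 2 2 W ((S : Subgroup G) ⊓ cj g S) → Nat.card S ≤ Nat.card ↥((S : Subgroup G) ⊓ cj g S) + n → g ∈ Γ := by
      intro n
      induction n with
      | zero =>
        intro g W hW h
        have e := eq_of_le_of_card_ge inf_le_right (card_cj.le.trans h)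
        exact hN le_rfl hU (mem_N_of_cj_le (e.ge.trans inf_le_left))
      | succ n ih =>
        intro g W hW h
        by_cases e : cj g S ≤ S
        · exact hN le_rfl hU (mem_N_of_cj_le e)
        have b1 := (hS'.pi.cj g).nil.lt_norm (inf_lt_right.2 e)
        obtain ⟨c, hc, hc'⟩ := sylow_le_cj p2 hSΓ' (hS'.pi.cj g).inf_left (inf_le_right.trans (hN inf_le_left hW))
        have b2 : cj c (cj g S ⊓ N((S : Subgroup G) ⊓ cj g S)) ≤ (S : Subgroup G) ⊓ cj (c * g) S :=
          le_inf hc' (by rw [cj_mul]; exact cj_mono inf_le_left)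
        refine (mul_mem_cancel_left hc).1 (ih (c * g) _ (((hW.of_le b1.le).cj c).of_le b2) ?_)
        have := card_lt b1
        have := card_le b2
        rw [card_cj] at this
        omega
    have a2 : ∀ W, Relation.ReflTransGen r U W → ∃ c ∈ Γ, cj c W ≤ S := fun W h => by
      induction h with
      | refl => exact ⟨1, one_mem _, by simpa using hU.le⟩
      | tail _ h ih =>
        obtain ⟨c, hc, hc'⟩ := ih
        obtain ⟨d, hd, hd'⟩ := sylow_le_cj p2 hSΓ' (((kf.1 h.2.1).cj c).pi p2) ((cent_norm (by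
          rw [← cj_C]; exact cj_mono (cent_symm (cent_iff.2 h.2.2)))).trans (hN hc' ((kf.1 h.1).cj c).self))
        exact ⟨d * c, mul_mem hd hc, by rw [cj_mul]; exact hd'⟩
    refine eq_top_iff.2 fun g _ => ?_
    obtain ⟨c, hc, hc'⟩ := a2 (cj g U) (hc _ _ (kf.2 hU.top) (kf.2 (hU.cj g).top))
    refine (mul_mem_cancel_left hc).1 (a1 _ (c * g) _ (((hU.cj g).cj c).of_le' (le_inf hc' ?_)) (Nat.le_add_left _ _))
    rw [cj_mul]; exact cj_mono (cj_mono hU.le)
  · intro hc
    have a1 : ∀ {A B}, PElem 2 2 A (S : Subgroup G) → PElem 2 2 B (S : Subgroup G) → Relation.ReflTransGen r A B := fun {A B} hA hB => by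
      have e : ∀ {A : Subgroup G}, PElem 2 2 A (S : Subgroup G) → IsKleinFour (A.subgroupOf S) := fun hA =>
        have := kf.2 hA.top
        H9.isKleinFour_of_equiv (subgroupOfEquivOfLe hA.le)
      have := (hS _ _ (e hA) (e hB)).lift (p := r) (map (S : Subgroup G).subtype) fun A B ⟨a, b, c⟩ =>
        ⟨H9.isKleinFour_of_equiv (equivMapOfInjective _ _ (subtype_injective _)).symm,
          H9.isKleinFour_of_equiv (equivMapOfInjective _ _ (subtype_injective _)).symm, by
          rintro _ ⟨x, hx, rfl⟩ _ ⟨y, hy, rfl⟩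
          rw [← map_mul, ← map_mul, c x hx y hy]⟩
      rwa [Function.onFun, map_subgroupOf_eq_of_le hA.le, map_subgroupOf_eq_of_le hB.le] at this
    have rs : ∀ {A B}, Relation.ReflTransGen r A B → Relation.ReflTransGen r B A := fun h => by
      induction h with
      | refl => exact .refl
      | tail _ h ih => exact .head ⟨h.2.1, h.1, fun x hx y hy => (h.2.2 y hy x hx).symm⟩ ih
    let H : Subgroup G :=
      { carrier := {g | Relation.ReflTransGen r U (cj g U)}
        one_mem' := by simpa using Relation.ReflTransGen.refl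
        mul_mem' := fun {a b} ha hb => ha.trans (by rw [cj_mul]; exact rcj a hb)
        inv_mem' := fun {a} ha => rs (by simpa using rcj a⁻¹ ha) }
    have a2 : Γ ≤ H := iSup_le fun ⟨Q, h1, h2⟩ g hg => by
      obtain ⟨W, hW⟩ := rk.1 h2
      exact (a1 hU ((hW.cj_N hg).of_le h1)).trans (rcj g (a1 (hW.of_le h1) hU))
    have a3 : ∀ W : Subgroup G, IsKleinFour W → Relation.ReflTransGen r U W := fun W hW => by
      obtain ⟨g, -, hg⟩ := sylow_le_cj p2 hS' ((kf.1 hW).pi p2) le_top
      exact (a2 (hc ▸ mem_top g⁻¹)).trans (by simpa using rcj g⁻¹ (a1 hU (((kf.1 hW).cj g).of_le' hg)))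
    exact fun A B hA hB => (rs (a3 A hA)).trans (a3 B hB)

end Cfsg.Agent.S0520
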