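import Cfsg.Statements.S0521
import Cfsg.Agent.H1.BG36
import Cfsg.Agent.H4.BGA

set_option autoImplicit false
open Cfsg

namespace Cfsg.Agent.S0521
open H18 Subgroup
open scoped commutatorElement

universe u in
theorem aux {p : ℕ} (hp : p.Prime) (n : ℕ) : ∀ {G : Type u} [Group G] [Finite G] {H S : Subgroup G}, Nat.card H = n →
    Solv H → Odd (Nat.card H) → Hall {p} S H → Cyc ⁅S, S⁆ → PL1 p H := by
  induction n using Nat.strong_induction_on with
  | _ n ih =>
  intro G _ _ H S e hs ho hS hc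
  have q : ∀ K, K ⊴ H → K ≠ ⊥ → PL1 p (H ⫽ K) := fun K hK h0 =>
    ih _ (e ▸ card_quo_lt hK h0) rfl hs.mim (ho.of_dvd_nat card_mim_dvd) (hS.mim hK.norm)
      (by rw [← mim_comm (hS.le.trans hK.norm) (hS.le.trans hK.norm)]; exact hc.mim)
  by_cases h1 : O[{p}ᶜ](H) = ⊥
  swap
  · exact pl1_of_quo pcore_nml pcore_pi (q _ pcore_nml h1)
  have h2 := cent_sub_pcore hs h1
  by_cases h3 : Φ(O[{p}](H)) = ⊥
  swap
  · exact H1.pl1_of_quo_phi hp h2 (q _ pcore_nml.phi h3)
  rw [pcore_pi.phi_eq_bot_iff hp] at h3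
  have hV : O[{p}](H) ⊴ H := pcore_nml
  have hn := hS.le.trans hV.norm
  have a1 : ⁅⁅O[{p}](H), S⁆, S⁆ = ⊥ := by
    by_cases h : ⁅O[{p}](H), S⁆ = ⊥
    · rw [h, commutator_bot_left]
    have b1 := h3.of_le (comm_le_left hn)
    have b2 := card_lt (hS.pi.comm_lt (b1.pi hp) norm_comm_right h)
    have b3 := b1.card_le_of_cyc hp (hc.of_le (comm_mono hS.pcore_le le_rfl))
    by_contra h'
    have := Nat.le_of_dvd Nat.card_pos (((b1.pi hp).of_le (comm_le_left norm_comm_right)).dvd_card h')
    omega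
  have a2 := BGA.odd_p_stable hp ho hs pcore_pi hV.le (by rw [h1, bot_sup_eq]; exact hV.norm) (le_inf hS.le hn) hS.pi a1
  rw [le_antisymm h2 (le_inf hV.le h3.abel), inf_eq_left.2 hV.norm, pcore_quo_pcore, le_bot_iff, quo_eq_bot_iff hn] at a2
  exact pl1_of_sylow_le hS (a2.trans pcore_le_pcore2')

/-- Let X be a finite solvable group of odd order, p a prime and S a Sylow p-subgroup of X whose commutator subgroup is
cyclic. Then the product of the largest normal subgroup of X of order prime to p with S is a normal subgroup of X. -/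
theorem result {X : Type*} [Group X] [Finite X] [Group.IsSolvable X]
    (hX : Odd (Nat.card X)) (p : ℕ) [Fact p.Prime] (S : Sylow p X) (hS : IsCyclic (commutator (S : Subgroup X))) :
    (Cfsg.pPrimeCore p X ⊔ (S : Subgroup X)).Normal := by
  have hp : p.Prime := Fact.out
  have hS' := hall_sylow_top hp S
  have := (aux hp _ rfl (solv_top_iff.2 ‹_›) (by rwa [card_top]) hS' (by
    rw [← map_subtype_commutator]
    exact (equivMapOfInjective _ _ (subtype_injective _)).isCyclic.1 hS)).nml_sup hS'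
  rw [pPrimeCore_eq hp]
  exact normalizer_eq_top_iff.1 (eq_top_iff.2 this.norm)

end Cfsg.Agent.S0521
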