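import Cfsg.Statements.S0522
import Cfsg.Agent.H18.BG7
import Cfsg.Agent.H1.FTCor

set_option autoImplicit false
open Cfsg

namespace Cfsg.Agent.S0522
open H18 Subgroup

/-- Transitivity Theorem (odd-order setting). Let X be a finite group of odd order in which the normalizer of every
nontrivial p-subgroup is solvable, P a Sylow p-subgroup, and B an abelian subgroup of P, normalized by P, with
C_P(B) = B and containing an elementary abelian subgroup of order p^3. Then for every prime q ≠ p, any two q-subgroups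
that are maximal among the q-subgroups normalized by B are conjugate by an element of the centralizer of B. -/
theorem result {X : Type*} [Group X] [Finite X] (hX : Odd (Nat.card X)) (p : ℕ)
    [Fact p.Prime] (hloc : ∀ T : Subgroup X, IsPGroup p T → T ≠ ⊥ → Group.IsSolvable (Subgroup.normalizer (T : Set X)))
    (P : Sylow p X) (B : Subgroup X) (hBP : B ≤ (P : Subgroup X))
    (hBn : ∀ x ∈ (P : Subgroup X), ∀ b ∈ B, x * b * x⁻¹ ∈ B) (hBa : IsMulCommutative B)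
    (hBc : (P : Subgroup X) ⊓ Subgroup.centralizer (B : Set X) = B)
    (hB3 : ∃ E : Subgroup X, E ≤ B ∧ (∀ e ∈ E, e ^ p = 1) ∧ p ^ 3 ≤ Nat.card E)
    (q : ℕ) [Fact q.Prime] (hqp : q ≠ p) (Q₁ Q₂ : Subgroup X)
    (h₁ : IsPGroup q Q₁ ∧ B ≤ Subgroup.normalizer (Q₁ : Set X) ∧
      ∀ R : Subgroup X, IsPGroup q R → B ≤ Subgroup.normalizer (R : Set X) → Q₁ ≤ R → R = Q₁)
    (h₂ : IsPGroup q Q₂ ∧ B ≤ Subgroup.normalizer (Q₂ : Set X) ∧
      ∀ R : Subgroup X, IsPGroup q R → B ≤ Subgroup.normalizer (R : Set X) → Q₂ ≤ R → R = Q₂) :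
    ∃ c ∈ Subgroup.centralizer (B : Set X), Q₂ = Q₁.map (MulAut.conj c).toMonoidHom := by
  have hp : p.Prime := Fact.out
  have hq : q.Prime := Fact.out
  have ho : Odd (Nat.card (⊤ : Subgroup X)) := by rwa [card_top]
  have hs := H1.solv_of_odd ho
  have hP := hall_sylow_top hp P
  have hB : SCN B P := ⟨⟨hBP, norm_iff.2 hBn⟩, hBc⟩
  have hc : H1.Cop B O[{p}ᶜ]((⊤ : Subgroup X)) :=
    ⟨le_top.trans pcore_nml.norm, (hP.pi.of_le hBP).coprime pcore_pi, Or.inl (hs.of_le le_top)⟩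
  have key : ∀ Q : Subgroup X, (IsPGroup q Q ∧ B ≤ N(Q) ∧ ∀ R : Subgroup X, IsPGroup q R → B ≤ N(R) → Q ≤ R → R = Q) →
      Hall {q} Q O[{p}ᶜ]((⊤ : Subgroup X)) := fun Q ⟨a, b, c⟩ => by
    have a' := piGrp_of_isPGroup hq a
    obtain ⟨R, hR, h1, h2⟩ := hc.exists_sylow_ge hq (hB.normed_le_p'core hp ho hs hP le_top (a'.p'_of_ne hqp) b) a' b
    exact c R hR.pi.isPGroup h2 h1 ▸ hR
  obtain ⟨g, hg, e⟩ := sylow_conj hq (key _ h₁) (key _ h₂)
  obtain ⟨c, hc', e'⟩ := H18.Cop.exists_cent_cj hc h₁.2.1 hg (e ▸ h₂.2.1)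
  exact ⟨c, hc'.2, e.trans e'.symm⟩

end Cfsg.Agent.S0522
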