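import Cfsg.Statements.S0529
import Cfsg.Agent.H2.Supersolvable

set_option autoImplicit false
open Cfsg

namespace Cfsg.Agent.S0529

/-- A finite supersolvable group has a chain of normal subgroups, from the trivial subgroup to the whole group, in which every step has prime index and the primes occurring are non-increasing as one goes up the chain. -/
theorem result {G : Type*} [Group G] [Finite G] (hG : Cfsg.IsSupersolvable G) : ∃ (n : ℕ) (H : Fin (n + 1) → Subgroup G), H 0 = ⊥ ∧ H (Fin.last n) = ⊤ ∧ (∀ i, (H i).Normal) ∧ (∀ i : Fin n, H i.castSucc ≤ H i.succ ∧ ((H i.castSucc).relIndex (H i.succ)).Prime) ∧ ∀ i j : Fin n, i ≤ j → (H j.castSucc).relIndex (H j.succ) ≤ (H i.castSucc).relIndex (H i.succ) := by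
  have key : ∀ N : Subgroup G, N.Normal → ∃ (n : ℕ) (H : Fin (n + 1) → Subgroup G),
      H 0 = N ∧ H (Fin.last n) = ⊤ ∧ (∀ i, (H i).Normal) ∧
      (∀ i : Fin n, H i.castSucc ≤ H i.succ ∧ ((H i.castSucc).relIndex (H i.succ)).Prime ∧
        (H i.castSucc).relIndex (H i.succ) ∣ N.index) ∧
      ∀ i j : Fin n, i ≤ j →
        (H j.castSucc).relIndex (H j.succ) ≤ (H i.castSucc).relIndex (H i.succ) := by
    intro N
    induction N using WellFoundedGT.induction with
    | ind N ih =>
    intro hN
    by_cases hne : N = ⊤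
    · exact ⟨0, fun _ => N, rfl, hne, fun _ => hN, fun i => i.elim0, fun i => i.elim0⟩
    obtain ⟨p, hp, hpd, hmax⟩ := H2.exists_max_prime (n := Nat.card (G ⧸ N)) Nat.card_pos.ne'
      (fun h => hne (Subgroup.index_eq_one.mp h))
    obtain ⟨M, hM, hMp⟩ :=
      H2.ssolv_exists_normal_card_max_prime _ (H2.ssolv_quotient hG N) p hp hpd hmax
    have hle := H1.le_comap_mk' N M
    have hidx : N.relIndex (M.comap (QuotientGroup.mk' N)) = p := by
      rw [H2.relIndex_comap_mk', hMp]
    obtain ⟨n, H, h0, hn, hHn, hs, hm⟩ := ih (M.comap (QuotientGroup.mk' N))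
      (lt_of_le_of_ne hle fun h => hp.one_lt.ne' (by rw [← hidx, ← h, Subgroup.relIndex_self]))
      (hM.comap _)
    have hz : N.relIndex (H 0) = p := by rw [h0, hidx]
    refine ⟨n + 1, Fin.cons N H, rfl, hn, ?_, ?_, ?_⟩
    · intro i
      induction i using Fin.cases with
      | zero => exact hN
      | succ i => exact hHn i
    · intro i
      induction i using Fin.cases with
      | zero =>
        change N ≤ H 0 ∧ (N.relIndex (H 0)).Prime ∧ N.relIndex (H 0) ∣ N.index
        rw [hz, h0]
        exact ⟨hle, hp, hpd⟩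
      | succ i => exact ⟨(hs i).1, (hs i).2.1, (hs i).2.2.trans (Subgroup.index_dvd_of_le hle)⟩
    · intro i j hij
      induction i using Fin.cases with
      | zero =>
        induction j using Fin.cases with
        | zero => exact le_rfl
        | succ j =>
          change (H j.castSucc).relIndex (H j.succ) ≤ N.relIndex (H 0)
          rw [hz]
          exact hmax _ (hs j).2.1 ((hs j).2.2.trans (Subgroup.index_dvd_of_le hle))
      | succ i =>
        induction j using Fin.cases with
        | zero => exact absurd hij (by simp)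
        | succ j => exact hm i j (Fin.succ_le_succ_iff.mp hij)
  obtain ⟨n, H, h0, hn, hHn, hs, hm⟩ := key ⊥ inferInstance
  exact ⟨n, H, h0, hn, hHn, fun i => ⟨(hs i).1, (hs i).2.1⟩, hm⟩

end Cfsg.Agent.S0529
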