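import Cfsg.Statements.S0530
import Cfsg.Agent.H2.Huppert

set_option autoImplicit false
open Cfsg

namespace Cfsg.Agent.S0530

/-- A finite group whose order is twice a prime power is supersolvable. -/
theorem result {G : Type*} [Group G] [Finite G] (p n : ℕ) (hp : p.Prime) (hG : Nat.card G = 2 * p ^ n) : Cfsg.IsSupersolvable G := by
  have := Fact.mk hp
  by_cases h2 : p = 2
  · subst h2
    have : Group.IsNilpotent G :=
      (IsPGroup.of_card (p := 2) (n := n + 1) (by rw [hG, pow_succ'])).isNilpotent
    exact H2.ssolv_of_nilpotent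
  obtain ⟨P, hP⟩ := Sylow.exists_subgroup_card_pow_prime (G := G) p (n := n)
    (hG ▸ dvd_mul_left _ _)
  have hi : P.index = 2 := by
    have := P.index_mul_card
    rw [hG, hP] at this
    exact Nat.eq_of_mul_eq_mul_right (pow_pos hp.pos n) this
  have := Subgroup.normal_of_index_eq_two hi
  have : IsCyclic (G ⧸ P) := isCyclic_of_prime_card (p := 2) hi
  refine H2.ssolv_of_strictly_closed (p := p) P (IsPGroup.of_card hP)
    (Subgroup.Normal.quotient_commutative_iff_commutator_le.mp inferInstance) fun g => ?_
  obtain ⟨k, hk⟩ := hp.even_sub_one h2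
  rw [hk, ← two_mul, pow_mul]
  exact P.pow_mem (Subgroup.sq_mem_of_index_two hi g) k

end Cfsg.Agent.S0530
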