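import Cfsg.Statements.S0534
import Cfsg.Agent.H2.Carter
import Cfsg.Agent.H2.Supersolvable

set_option autoImplicit false
open Cfsg

open H18 H1 H2 Subgroup

namespace Cfsg.Agent.S0534

/-- Let G be a finite solvable group and A a finite abelian group such that every prime dividing the order of A divides the order of G and, for each prime p dividing the order of G, the exponent of p in the order of A is one less than its exponent in the order of G. Then G × A has a subgroup of every order dividing its order. -/
theorem result {G A : Type*} [Group G] [CommGroup A] [Finite G] [Finite A] [Group.IsSolvable G] (hA : ∀ p : ℕ, p.Prime → p ∣ Nat.card A → p ∣ Nat.card G) (hexp : ∀ p : ℕ, p.Prime → p ∣ Nat.card G → (Nat.card A).factorization p + 1 = (Nat.card G).factorization p) : Cfsg.HasSubgroupOfEveryOrder (G × A) := by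
  intro d hd
  rw [Nat.card_prod] at hd
  have hG : Nat.card G ≠ 0 := Nat.card_pos.ne'
  have hA0 : Nat.card A ≠ 0 := Nat.card_pos.ne'
  have hd0 : d ≠ 0 := ne_zero_of_dvd_ne_zero (mul_ne_zero hG hA0) hd
  obtain ⟨H, hH⟩ := hall_exists (M := (⊤ : Subgroup G)) solv_of_solv {p | (Nat.card G).factorization p ≤ d.factorization p}
  have e := H.card_mul_index
  have hi : H.index ≠ 0 := index_ne_zero_of_finite
  have f1 : ∀ p, p.Prime → (Nat.card G).factorization p ≤ d.factorization p → (Nat.card H).factorization p = (Nat.card G).factorization p := by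
    intro p hp h
    have : ¬ p ∣ H.index := by simpa using hH.idx.not_dvd' hp h
    rw [← e, Nat.factorization_mul card_ne_zero' hi, Finsupp.add_apply, Nat.factorization_eq_zero_of_not_dvd this, add_zero]
  have f2 : ∀ p, p.Prime → ¬ (Nat.card G).factorization p ≤ d.factorization p → (Nat.card H).factorization p = 0 :=
    fun p hp h => Nat.factorization_eq_zero_of_not_dvd (hH.pi.not_dvd hp h)
  have h1 : Nat.card H ∣ d := by
    rw [← Nat.factorization_prime_le_iff_dvd card_ne_zero' hd0]
    intro p hp
    by_cases h : (Nat.card G).factorization p ≤ d.factorization p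
    · rwa [f1 p hp h]
    · rw [f2 p hp h]; exact Nat.zero_le _
  obtain ⟨m, rfl⟩ := h1
  have hm : m ≠ 0 := right_ne_zero_of_mul hd0
  have h2 : m ∣ Nat.card A := by
    rw [← Nat.factorization_prime_le_iff_dvd hm hA0]
    intro p hp
    have h3 := (Nat.factorization_prime_le_iff_dvd hd0 (mul_ne_zero hG hA0)).2 hd p hp
    rw [Nat.factorization_mul hG hA0, Finsupp.add_apply] at h3
    have h4 : (Nat.card H * m).factorization p = (Nat.card H).factorization p + m.factorization p := by
      rw [Nat.factorization_mul card_ne_zero' hm, Finsupp.add_apply]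
    by_cases h : (Nat.card G).factorization p ≤ (Nat.card H * m).factorization p
    · have := f1 p hp h; omega
    · have := f2 p hp h
      have := hexp p hp (Nat.dvd_of_factorization_pos (by omega))
      omega
  obtain ⟨B, hB⟩ := ssolv_clt A ssolv_of_nilpotent m h2
  exact ⟨H.prod B, by rw [Nat.card_congr (prodEquiv H B).toEquiv, Nat.card_prod, hB]⟩

end Cfsg.Agent.S0534
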