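import Cfsg.Statements.S0535
import Cfsg.Agent.H2.Schmidt

set_option autoImplicit false
open Cfsg

open H18 H1 H2

namespace Cfsg.Agent.S0535

/-- Suppose that for every nontrivial subgroup H of a finite group and every prime p dividing the order of H there is a proper subgroup of H whose index in H is a power of p. Then the group is solvable. -/
theorem result {G : Type*} [Group G] [Finite G] (h : ∀ H : Subgroup G, H ≠ ⊥ → ∀ p : ℕ, p.Prime → p ∣ Nat.card H → ∃ K : Subgroup H, K ≠ ⊤ ∧ ∃ k : ℕ, K.index = p ^ k) : Group.IsSolvable G := by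
  refine solv_top_iff.1 (solv_of_complements fun p hp _ => ?_)
  obtain ⟨K, -, hK, hmin⟩ := exists_minimal_sub (A := (⊤ : Subgroup G)) (fun K => PiNat {p} (K.relIndex ⊤))
    (by simpa using PiNat.one)
  refine ⟨K, le_top, (piNat_compl_iff hp).2 fun hd => ?_, hK.compl_compl⟩
  obtain ⟨L, hL, k, hk⟩ := h K (ne_bot_of_prime_dvd hp hd) p hp hd
  have h1 : (L.map K.subtype).relIndex K = p ^ k := by
    rw [← hk, Subgroup.relIndex, Subgroup.subgroupOf, Subgroup.comap_map_eq_self_of_injective K.subtype_injective]
  have h2 := hmin (L.map K.subtype) (by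
    rw [← relIndex_tower (Subgroup.map_subtype_le L) le_top, h1]
    exact (piNat_pow_self hp k).mul hK) (Subgroup.map_subtype_le L)
  apply hL
  apply Subgroup.map_injective K.subtype_injective
  rw [h2, ← MonoidHom.range_eq_map, Subgroup.range_subtype]

end Cfsg.Agent.S0535
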