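import Cfsg.Statements.S0537
import Cfsg.Agent.H2.Schmidt

set_option autoImplicit false
open Cfsg

open H18 H1 H2 Subgroup

namespace Cfsg.Agent.S0537

/-- A finite non-abelian group in which every proper subgroup is abelian is either of prime-power order, or is generated by a cyclic Sylow p-subgroup and a normal Sylow q-subgroup that is elementary abelian, for distinct primes p and q. -/
theorem result {G : Type*} [Group G] [Finite G] (hna : ¬ IsMulCommutative G) (h : ∀ H : Subgroup G, H ≠ ⊤ → IsMulCommutative H) : (∃ p : ℕ, p.Prime ∧ IsPGroup p G) ∨ ∃ p q : ℕ, p.Prime ∧ q.Prime ∧ p ≠ q ∧ ∃ (P : Sylow p G) (Q : Sylow q G), IsCyclic P ∧ (Q : Subgroup G).Normal ∧ Cfsg.IsElementaryAbelian q (Q : Subgroup G) ∧ (P : Subgroup G) ⊔ Q = ⊤ := by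
  have hna' : ¬ Abel (⊤ : Subgroup G) := fun a => hna ⟨⟨fun x y => comm_of_cent a (mem_top x) (mem_top y)⟩⟩
  have h' : ∀ H : Subgroup G, H < ⊤ → Abel H := fun H hH => abel_of_comm (h H hH.ne)
  by_cases hn : Nil (⊤ : Subgroup G)
  · left
    by_contra h3
    refine hna' (abel_of_nil_sylow hn fun p hp _ => h' _ (lt_top_iff_ne_top.2 fun e => h3 ⟨p, hp, ?_⟩))
    have : PiGrp {p} (⊤ : Subgroup G) := e ▸ pcore_pi
    exact this.isPGroup.of_equiv topEquiv
  · right
    obtain ⟨p, q, P, Q, hp, hq, ne, hP, hQ, nQ, e, hc, nc⟩ :=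
      schmidt_struct (K := (⊤ : Subgroup G)) (fun H hH => (h' H hH).nil) hn
    have aQ : Abel Q := h' Q (lt_top_iff_ne_top.2 fun e => hn (e ▸ hQ.pi.nil))
    have nP : P ≤ N(Q) := le_top.trans nQ.norm
    have hq' : PiGrp {p}ᶜ Q := hQ.pi.p'_of_ne ne.symm
    have cop : (Nat.card P).Coprime (Nat.card Q) := hP.pi.coprime hq'
    have key : ∀ R, R < Q → P ≤ N(R) → R ≤ C(P) := by
      intro R hR nR
      have : P ⊔ R < ⊤ := by
        refine lt_top_iff_ne_top.2 fun e2 => hR.ne ?_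
        have n2 : Nrm2 R P := Or.inr nR
        have h4 := n2.modular_left hR.le
        rw [sup_comm R P, e2, inf_top_eq, (hP.pi.inf_eq_bot hq' ▸ inf_comm Q P :), sup_bot_eq] at h4
        exact h4.symm
      exact cent_mono (h' _ this) le_sup_right le_sup_left
    have el : ∀ a ∈ Q, a ^ q = 1 := by
      by_contra h3
      have hlt : abelPowKer Q aQ q < Q := lt_of_le_of_ne (fun x hx => hx.1) fun e => h3 fun a ha => (e.ge ha).2
      have c := key _ hlt (norm_abelPowKer aQ q nP)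
      have h5 := abel_comm_inf_cent aQ nP cop
      have h6 : ⁅Q, P⁆ ≠ ⊥ := fun e => nc (cent_symm (comm_eq_bot_iff.1 e))
      obtain ⟨X, hX, cX⟩ := (hQ.pi.of_le (comm_le_left nP)).exists_sub_card h6
      have : X ≤ ⁅Q, P⁆ ⊓ C(P) := le_inf hX fun x hx => c (show x ∈ abelPowKer Q aQ q from ⟨comm_le_left nP (hX hx), cX ▸ pow_card_eq_one_of_mem hx⟩)
      exact ne_bot_of_prime (cX ▸ hq) (le_bot_iff.1 (h5 ▸ this))
    obtain ⟨P, rfl⟩ := hP.exists_sylow_top hp
    obtain ⟨Q, rfl⟩ := hQ.exists_sylow_top hq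
    exact ⟨p, q, hp, hq, ne, P, Q, hc, nQ.normal, ⟨aQ.comm, el⟩, e⟩

end Cfsg.Agent.S0537
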