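import Cfsg.Statements.S0540
import Cfsg.Agent.H2.Subnormal

set_option autoImplicit false
open Pointwise
open Cfsg

namespace Cfsg.Agent.S0540

/-- A uniqueness lemma of zipper type. Let A be a subgroup of a finite group G and U a nonempty family of subgroups. For V in U write S(V) for the set of conjugates of A that lie in V and are subnormal in V. Assume: A belongs to S(V) for every V in U; a member of some S(W) that lies in V belongs to S(V); and for all V, W in U the normalizer of the join of S(V) ∩ S(W) lies in some member of U. Then U has a greatest element. -/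
theorem result {G : Type*} [Group G] [Finite G] (A : Subgroup G) (U : Set (Subgroup G)) (hU : U.Nonempty) (S : Subgroup G → Set (Subgroup G)) (hS : ∀ V B : Subgroup G, B ∈ S V ↔ (∃ g : G, B = MulAut.conj g • A) ∧ B ≤ V ∧ (B.subgroupOf V).IsSubnormal) (h1 : ∀ V ∈ U, A ∈ S V) (h2 : ∀ V ∈ U, ∀ W ∈ U, ∀ B ∈ S W, B ≤ V → B ∈ S V) (h3 : ∀ V ∈ U, ∀ W ∈ U, ∃ X ∈ U, Subgroup.normalizer ((sSup (S V ∩ S W) : Subgroup G) : Set G) ≤ X) : ∃ M ∈ U, ∀ V ∈ U, V ≤ M := by
  have hS' : ∀ V B : Subgroup G, B ∈ S V ↔ (∃ g : G, B = MulAut.conj g • A) ∧ H2.SubnIn B V := by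
    intro V B; rw [hS, H2.subnIn_iff]
  refine H2.exists_greatest_of_zipper (K := ⊤) (C := {B | ∃ g : G, B = MulAut.conj g • A}) ?_
    (fun _ _ => le_top) hU ?_ ?_
  · rintro _ ⟨g, rfl⟩ k -
    exact ⟨k * g, H2.conj_conj _ _ _⟩
  · intro V hV W hW B hB h h'
    exact ((hS' V B).mp (h2 V hV W hW B ((hS' W B).mpr ⟨hB, h⟩) h')).2
  · intro V hV W hW
    obtain ⟨X, hX, h⟩ := h3 V hV W hW
    refine ⟨X, hX, inf_le_left.trans (le_of_eq_of_le ?_ h)⟩
    congr 3
    ext B
    simp only [Set.mem_setOf_eq, Set.mem_inter_iff, hS']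
    tauto

end Cfsg.Agent.S0540
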