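import Cfsg.Statements.S0541
import Cfsg.Agent.H2.Subnormal

set_option autoImplicit false
open Pointwise
open Cfsg

namespace Cfsg.Agent.S0541

/-- Let Z and Y be subgroups of a finite group G and p a prime. Suppose that for every g in G the subgroup generated by the conjugates of g Z g⁻¹ under Y is a p-group. Then there is a Sylow p-subgroup P of G such that Y normalizes the subgroup generated by all conjugates of Z contained in P. -/
theorem result {G : Type*} [Group G] [Finite G] (p : ℕ) [Fact p.Prime] (Z Y : Subgroup G) (h : ∀ g : G, IsPGroup p ↥(⨆ y ∈ Y, MulAut.conj (y * g) • Z)) : ∃ P : Sylow p G, Y ≤ Subgroup.normalizer ((⨆ g ∈ {g : G | MulAut.conj g • Z ≤ (P : Subgroup G)}, MulAut.conj g • Z : Subgroup G) : Set G) := by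
  classical
  let M : Set (Subgroup G) := {U | IsPGroup p U ∧ Y ≤ Subgroup.normalizer (U : Set G) ∧
    U ≤ sSup {B | (∃ g : G, B = MulAut.conj g • Z) ∧ B ≤ U}}
  have hbot : (⊥ : Subgroup G) ∈ M := ⟨IsPGroup.of_bot, Subgroup.le_normalizer_of_normal, bot_le⟩
  obtain ⟨U, -, hU⟩ := (Set.toFinite M).exists_le_maximal hbot
  obtain ⟨hU1, hU2, hU3⟩ := hU.1
  have hUeq : sSup {B | (∃ g : G, B = MulAut.conj g • Z) ∧ B ≤ U} = U :=
    le_antisymm (sSup_le fun B hB => hB.2) hU3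
  obtain ⟨P, hP⟩ := hU1.exists_le_sylow
  refine ⟨P, ?_⟩
  have hss : {B | (∃ g : G, B = MulAut.conj g • Z) ∧ B ≤ U} ⊆
      {B | (∃ g : G, B = MulAut.conj g • Z) ∧ B ≤ (P : Subgroup G)} :=
    fun B hB => ⟨hB.1, hB.2.trans hP⟩
  rcases hss.eq_or_ssubset with heq | hss
  · have : (⨆ g ∈ {g : G | MulAut.conj g • Z ≤ (P : Subgroup G)}, MulAut.conj g • Z : Subgroup G)
        = U := by
      rw [← hUeq, heq]
      refine le_antisymm (iSup₂_le fun g hg => le_sSup ⟨⟨g, rfl⟩, hg⟩) (sSup_le ?_)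
      rintro _ ⟨⟨g, rfl⟩, hg⟩
      exact le_iSup₂_of_le (f := fun g (_ : g ∈ {g : G | MulAut.conj g • Z ≤ (P : Subgroup G)}) =>
        MulAut.conj g • Z) g hg le_rfl
    rw [this]; exact hU2
  · exfalso
    obtain ⟨_, ⟨⟨g, rfl⟩, hXP⟩, hX, hXn⟩ := H2.exists_normalizing_of_ssubset (K := (P : Subgroup G))
      (fun B hB => H2.subnIn_of_nilpotent P.isPGroup'.isNilpotent hB.2)
      (by
        rintro _ ⟨⟨g, rfl⟩, hg⟩ k hk
        exact ⟨⟨k * g, H2.conj_conj _ _ _⟩, H2.conj_le_of_mem hg hk⟩) hss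
    rw [hUeq] at hXn
    set W : Subgroup G := ⨆ y ∈ Y, MulAut.conj (y * g) • Z with hW
    have hWn : W ≤ Subgroup.normalizer (U : Set G) := iSup₂_le fun y hy => by
      rw [← H2.conj_conj]
      exact H2.conj_le_of_mem hXn (hU2 hy)
    have hYW : Y ≤ Subgroup.normalizer (W : Set G) := by
      refine H2.le_normalizer_of_conj_le fun k hk => H2.conj_le_iff.mpr (iSup₂_le fun y hy => ?_)
      rw [← H2.conj_le_iff, H2.conj_conj, ← mul_assoc]
      exact le_iSup₂_of_le (f := fun y (_ : y ∈ Y) => MulAut.conj (y * g) • Z) (k * y)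
        (Y.mul_mem hk hy) le_rfl
    have hXW : MulAut.conj g • Z ≤ W := by
      have := le_iSup₂ (f := fun y (_ : y ∈ Y) => MulAut.conj (y * g) • Z) 1 Y.one_mem
      simp only [one_mul] at this
      exact this
    have hmem : U ⊔ W ∈ M := by
      refine ⟨hU1.to_sup_of_normal_left' (h g) hWn, H2.le_normalizer_sup hU2 hYW, sup_le ?_ ?_⟩
      · exact hU3.trans (sSup_le_sSup fun B hB => ⟨hB.1, hB.2.trans le_sup_left⟩)
      · refine iSup₂_le fun y hy => le_sSup ⟨⟨_, rfl⟩, le_trans ?_ le_sup_right⟩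
        exact le_iSup₂ (f := fun y (_ : y ∈ Y) => MulAut.conj (y * g) • Z) y hy
    exact hX ⟨⟨g, rfl⟩, hXW.trans (le_sup_right.trans (hU.2 hmem le_sup_left))⟩

end Cfsg.Agent.S0541
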