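import Cfsg.Statements.S0545
import Cfsg.Agent.H2.Carter

set_option autoImplicit false
open Cfsg

open H18 H1 H2 Subgroup

namespace Cfsg.Agent.S0545

/-- Let K be a Hall complement system of a finite solvable group G and N a normal subgroup. Then the images of the K p in G modulo N form a Hall complement system of the quotient, and its system normalizer is the image of the system normalizer of K. -/
theorem result {G : Type*} [Group G] [Finite G] [Group.IsSolvable G] (K : Nat.Primes → Subgroup G) (hK : Cfsg.IsComplementSystem K) (N : Subgroup G) [N.Normal] : Cfsg.IsComplementSystem (fun p => (K p).map (QuotientGroup.mk' N)) ∧ Cfsg.systemNormalizer (fun p => (K p).map (QuotientGroup.mk' N)) = (Cfsg.systemNormalizer K).map (QuotientGroup.mk' N) := by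
  have h := cs_top_iff.2 hK
  constructor
  · refine cs_top_iff.1 fun p => ?_
    have := h.mim (f := topq N) le_rfl p
    rwa [mim_topq_top, mim_topq] at this
  · have := h.sn_mim (f := topq N) solv_of_solv le_rfl
    rw [mim_topq_top] at this
    simp only [mim_topq] at this
    rw [← sn_top, ← sn_top, this]

end Cfsg.Agent.S0545
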