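import Cfsg.Statements.S0546
import Cfsg.Agent.H2.Carter

set_option autoImplicit false
open Cfsg

open H18 H1 H2 Subgroup

namespace Cfsg.Agent.S0546

/-- The normal closure of a system normalizer of a finite solvable group is the whole group. -/
theorem result {G : Type*} [Group G] [Finite G] [Group.IsSolvable G] (K : Nat.Primes → Subgroup G) (hK : Cfsg.IsComplementSystem K) : Subgroup.normalClosure ((Cfsg.systemNormalizer K : Subgroup G) : Set G) = ⊤ := by
  have h := cs_top_iff.2 hK
  have hs : Solv (⊤ : Subgroup G) := solv_of_solv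
  by_contra hne
  obtain ⟨A, hc, hA⟩ := exists_chief_below (H := ⊤) nml_top Nml.rfl (lt_top_iff_ne_top.2 hne)
  have nA : A ⊴ ⊤ := hc.nmlV
  have e := h.sn_mim (f := coset A) hs nA.norm
  have ab := hc.minNorm.abel hs.mim
  refine hc.lt.not_ge (le_of_quo_le nA.norm Nml.rfl (le_trans ?_ (mim_mono (le_normalClosure.trans hA))))
  rw [← sn_top, e]
  exact le_inf le_rfl (le_iInf fun p => ab.norm (mim_mono le_top))

end Cfsg.Agent.S0546
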