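import Cfsg.Statements.S0548
import Cfsg.Agent.H2.Primitive

set_option autoImplicit false
open Cfsg

namespace Cfsg.Agent.S0548

/-- Let a finite solvable group G act faithfully and primitively on a set, let M be a minimal normal subgroup and H the stabilizer of a point. Then H is a complement to M, no non-identity element of H centralizes M, and the only subgroups of M normalized by H are the trivial subgroup and M. -/
theorem result {G : Type*} [Group G] [Finite G] [Group.IsSolvable G] {Ω : Type*} [MulAction G Ω] [FaithfulSMul G Ω] (hprim : MulAction.IsPreprimitive G Ω) (M : Subgroup G) [M.Normal] (hM : M ≠ ⊥) (hmin : ∀ K : Subgroup G, K.Normal → K ≤ M → K = ⊥ ∨ K = M) (ω : Ω) : Subgroup.IsComplement' M (MulAction.stabilizer G ω) ∧ MulAction.stabilizer G ω ⊓ Subgroup.centralizer (M : Set G) = ⊥ ∧ ∀ K : Subgroup G, K ≤ M → MulAction.stabilizer G ω ≤ Subgroup.normalizer (K : Set G) → K = ⊥ ∨ K = M := by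
  have := H2.nontrivial_of_faithful (Ω := Ω) hM
  obtain ⟨hc, -⟩ := H1.minimal_normal_elementary M hM hmin
  have hco := MulAction.IsPreprimitive.isCoatom_stabilizer_of_isPreprimitive G ω
  have hcf := H2.normalCore_stabilizer_eq_bot (G := G) ω
  refine ⟨H2.corefree_isComplement hco hcf hM, ?_, fun K hK hn => hmin K ?_ hK⟩
  · rw [inf_comm]; exact H2.corefree_centralizer_inf hco hcf hM
  · refine H2.normal_of_top_le_normalizer (H2.corefree_sup hco hcf hM ▸ sup_le ?_ hn)
    exact ((Subgroup.le_centralizer M).trans (Subgroup.centralizer_le hK)).trans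
      (Subgroup.centralizer_le_normalizer _)

end Cfsg.Agent.S0548
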