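import Cfsg.Statements.S0550
import Cfsg.Agent.H2.Frattini

set_option autoImplicit false
open Cfsg

namespace Cfsg.Agent.S0550

/-- Let U be a maximal subgroup with trivial normal core in a finite group G, and A ≠ B two minimal normal subgroups. Then A is the centralizer of B and B that of A, U complements each of them, A and B are non-abelian, and A, B and (A ⊔ B) ∩ U are pairwise isomorphic. -/
theorem result {G : Type*} [Group G] [Finite G] (U : Subgroup G) (hU : IsCoatom U) (hcore : U.normalCore = ⊥) (A B : Subgroup G) [A.Normal] [B.Normal] (hA : A ≠ ⊥) (hB : B ≠ ⊥) (hAmin : ∀ K : Subgroup G, K.Normal → K ≤ A → K = ⊥ ∨ K = A) (hBmin : ∀ K : Subgroup G, K.Normal → K ≤ B → K = ⊥ ∨ K = B) (hAB : A ≠ B) : Subgroup.centralizer (B : Set G) = A ∧ Subgroup.centralizer (A : Set G) = B ∧ Subgroup.IsComplement' A U ∧ Subgroup.IsComplement' B U ∧ ¬ IsMulCommutative A ∧ Nonempty (A ≃* B) ∧ Nonempty (A ≃* ↥((A ⊔ B) ⊓ U)) := by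
  have h1 : A ⊓ B = ⊥ := by
    rcases hAmin _ inferInstance (inf_le_left : A ⊓ B ≤ A) with h | h
    · exact h
    · exact absurd ((hBmin A inferInstance (inf_eq_left.mp h)).resolve_left hA) hAB
  have h2 : A ≤ Subgroup.centralizer (B : Set G) := H2.le_centralizer_of_disjoint
    Subgroup.le_normalizer_of_normal Subgroup.le_normalizer_of_normal h1
  have h3 : Subgroup.centralizer (B : Set G) = A :=
    ((H2.corefree_centralizer_minimal hU hcore hB A inferInstance h2).resolve_left hA).symm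
  have h4 : Subgroup.centralizer (A : Set G) = B :=
    ((H2.corefree_centralizer_minimal hU hcore hA B inferInstance
      (Subgroup.le_centralizer_iff.mp h2)).resolve_left hB).symm
  have h5 : A ⊓ U = ⊥ := by rw [← H2.corefree_centralizer_inf hU hcore hB, h3]
  have h6 : B ⊓ U = ⊥ := by rw [← H2.corefree_centralizer_inf hU hcore hA, h4]
  have h7 := H2.corefree_sup hU hcore hA
  have h8 := H2.corefree_sup hU hcore hB
  have h9 : A ⊔ (A ⊔ B) ⊓ U = A ⊔ B := by
    rw [inf_comm, H1.sup_inf_of_le Subgroup.le_normalizer_of_normal le_sup_left, h7, top_inf_eq]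
  have h10 : B ⊔ (A ⊔ B) ⊓ U = B ⊔ A := by
    rw [inf_comm, H1.sup_inf_of_le Subgroup.le_normalizer_of_normal le_sup_right, h8, top_inf_eq,
      sup_comm]
  obtain ⟨e1⟩ := H2.equivOfSupEq (N := A) (X := B) (Y := (A ⊔ B) ⊓ U) h1
    (le_bot_iff.mp (h5 ▸ inf_le_inf_left _ inf_le_right)) h9.symm
  obtain ⟨e2⟩ := H2.equivOfSupEq (N := B) (X := A) (Y := (A ⊔ B) ⊓ U) (by rw [inf_comm, h1])
    (le_bot_iff.mp (h6 ▸ inf_le_inf_left _ inf_le_right)) h10.symm
  refine ⟨h3, h4, H1.isComplement'_iff_of_normal.mpr ⟨h5, h7⟩,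
    H1.isComplement'_iff_of_normal.mpr ⟨h6, h8⟩, fun h => hAB ?_, ⟨e2.trans e1.symm⟩, ⟨e2⟩⟩
  rw [← h4, H2.corefree_centralizer_eq hU hcore hA]

end Cfsg.Agent.S0550
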