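import Cfsg.Statements.S0551
import Cfsg.Agent.H2.Huppert

set_option autoImplicit false
open Pointwise
open Cfsg

namespace Cfsg.Agent.S0551

/-- In a finite solvable group all core-free maximal subgroups are conjugate. -/
theorem result {G : Type*} [Group G] [Finite G] [Group.IsSolvable G] (U V : Subgroup G) (hU : IsCoatom U) (hV : IsCoatom V) (hUc : U.normalCore = ⊥) (hVc : V.normalCore = ⊥) : ∃ g : G, MulAut.conj g • U = V := by
  have : Nontrivial G := (Subgroup.nontrivial_iff (G := G)).mp ⟨U, ⊤, hU.1⟩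
  obtain ⟨M, p, hMn, hM, hp, hMc, -, hMp, hmin⟩ := H1.exists_normal_elementary G
  have hMU := H2.corefree_inf hU hUc hM
  have hMV := H2.corefree_inf hV hVc hM
  by_cases hMt : M = ⊤
  · rw [hMt, top_inf_eq] at hMU hMV
    exact ⟨1, by rw [H2.conj_one, hMU, hMV]⟩
  have : Nontrivial (G ⧸ M) := QuotientGroup.nontrivial_iff.mpr hMt
  obtain ⟨N, q, hNn, hN, hq, -, -, hNq, -⟩ := H1.exists_normal_elementary (G ⧸ M)
  have := Fact.mk hp
  have := Fact.mk hq
  have hs := QuotientGroup.mk'_surjective M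
  set K := N.comap (QuotientGroup.mk' M) with hK
  have hMK : M ≤ K := H1.le_comap_mk' M N
  have hKM : ¬ K ≤ M := fun h => hN (by
    rwa [← Subgroup.map_comap_eq_self_of_surjective hs N, H1.map_mk'_eq_bot_iff])
  have hqp : q ≠ p := by
    rintro rfl
    have : IsPGroup q K := hNq.comap_of_ker_isPGroup _ (by rwa [QuotientGroup.ker_mk'])
    refine hKM ?_
    rw [← H2.corefree_centralizer_eq hU hUc hM]
    exact H2.le_centralizer_minimal_of_nilpotent hmin this.isNilpotent
  have key : ∀ W : Subgroup G, IsCoatom W → W.normalCore = ⊥ →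
      H2.SylIn q (W ⊓ K) K ∧ Subgroup.normalizer ((W ⊓ K : Subgroup G) : Set G) = W := by
    intro W hW hWc
    have h1 : M ⊔ (W ⊓ K) = K := by
      rw [H1.sup_inf_of_le Subgroup.le_normalizer_of_normal hMK, H2.corefree_sup hW hWc hM,
        top_inf_eq]
    have h2 : M ⊓ (W ⊓ K) = ⊥ :=
      le_bot_iff.mp (H2.corefree_inf hW hWc hM ▸ inf_le_inf_left _ inf_le_left)
    refine ⟨⟨inf_le_right, ?_, ?_⟩, H2.corefree_normalizer_eq hW hWc ?_ inf_le_left
      (H2.le_normalizer_inf Subgroup.le_normalizer Subgroup.le_normalizer_of_normal)⟩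
    · refine IsPGroup.of_equiv (hNq.to_le ?_) (H2.equivMapOfDisjoint (QuotientGroup.mk' M) _
        (by rwa [QuotientGroup.ker_mk'])).symm
      exact Subgroup.map_le_iff_le_comap.mpr inf_le_right
    · intro hd
      rw [← h1] at hd
      conv at hd => rhs; lhs; rw [h1]
      rw [H2.relIndex_sup_of_le_normalizer' Subgroup.le_normalizer_of_normal] at hd
      exact hqp (H2.eq_prime_of_dvd_card_pgroup hMp hq (hd.trans (Subgroup.relIndex_dvd_card _ _)))
    · intro h
      rw [h, sup_bot_eq] at h1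
      exact hKM h1.ge
  obtain ⟨h1, h2⟩ := key U hU hUc
  obtain ⟨h3, h4⟩ := key V hV hVc
  obtain ⟨k, -, hk⟩ := h1.exists_conj h3
  exact ⟨k, by rw [← h2, H2.conj_normalizer, hk, h4]⟩

end Cfsg.Agent.S0551
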