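import Cfsg.Statements.S0552
import Cfsg.Agent.H1.Fitting
import Cfsg.Agent.H18.Nil

set_option autoImplicit false
open Cfsg

open Subgroup H18

namespace Cfsg.Agent.S0552

/-- Let σ be an automorphism of a finite solvable group G fixing every element of the Fitting subgroup. If σ is not the identity then the order of σ and the order of G have a common prime factor. -/
theorem result {G : Type*} [Group G] [Finite G] [Group.IsSolvable G] (σ : G ≃* G) (hσ : ∀ x ∈ Cfsg.fittingSubgroup G, σ x = x) (hne : σ ≠ MulEquiv.refl G) : ¬ (orderOf σ).Coprime (Nat.card G) := by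
  intro hc
  apply hne
  have hF := H1.centralizer_fitting_le G
  have hn : (Cfsg.fittingSubgroup G).Normal := by rw [← fit_top]; exact fit_nml.normal
  have h1 : ∀ g, g⁻¹ * σ g ∈ Cfsg.fittingSubgroup G := by
    intro g
    apply hF
    rw [mem_C]
    intro x hx
    have h2 := hσ _ (hn.conj_mem x hx g)
    rw [map_mul, map_mul, map_inv, hσ x hx] at h2
    calc x * (g⁻¹ * σ g) = g⁻¹ * (g * x * g⁻¹) * σ g := by group
      _ = g⁻¹ * (σ g * x * (σ g)⁻¹) * σ g := by rw [h2]
      _ = _ := by group
  have h2 : ∀ (n : ℕ) (g : G), (σ ^ n) g = g * (g⁻¹ * σ g) ^ n := by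
    intro n g
    induction n with
    | zero => simp
    | succ n ih =>
      rw [pow_succ', MulAut.mul_apply, ih, map_mul, map_pow, hσ _ (h1 g), pow_succ', ← mul_assoc, mul_inv_cancel_left]
  ext g
  have h3 : (g⁻¹ * σ g) ^ orderOf σ = 1 := by
    have := h2 (orderOf σ) g
    rw [pow_orderOf_eq_one] at this
    simpa using this.symm
  have h4 : orderOf (g⁻¹ * σ g) = 1 :=
    Nat.eq_one_of_dvd_coprimes hc (orderOf_dvd_of_pow_eq_one h3) (orderOf_dvd_natCard _)
  rw [orderOf_eq_one_iff, inv_mul_eq_one] at h4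
  exact h4.symm

end Cfsg.Agent.S0552
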