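import Cfsg.Statements.S0553
import Cfsg.Agent.H2.Frattini
import Cfsg.Agent.H2.Supersolvable

set_option autoImplicit false
open Cfsg

namespace Cfsg.Agent.S0553

/-- Let G be a nontrivial finite solvable group in which every maximal subgroup has order coprime to its index. Then for some prime p dividing the order of G the Sylow p-subgroups of G are normal. -/
theorem result {G : Type*} [Group G] [Finite G] [Group.IsSolvable G] [Nontrivial G] (h : ∀ M : Subgroup G, IsCoatom M → (Nat.card M).Coprime M.index) : ∃ p : ℕ, p.Prime ∧ p ∣ Nat.card G ∧ ∀ P : Sylow p G, (P : Subgroup G).Normal := by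
  have : Nontrivial (G ⧸ frattini G) := QuotientGroup.nontrivial_iff.mpr H2.frattini_ne_top
  obtain ⟨N, p, h1, h2, hp, -, -, h3, -⟩ := H1.exists_normal_elementary (G ⧸ frattini G)
  have := Fact.mk hp
  have hs := QuotientGroup.mk'_surjective (frattini G)
  set L := N.comap (QuotientGroup.mk' (frattini G)) with hL
  have h4 : ¬ L ≤ frattini G := fun h => h2 (by
    rwa [← Subgroup.map_comap_eq_self_of_surjective hs N, H1.map_mk'_eq_bot_iff])
  rw [H2.le_frattini_iff] at h4
  push Not at h4
  obtain ⟨M, hM, h4⟩ := h4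
  have h5 := H2.index_coatom_dvd hM h4 (frattini_le_coatom hM)
  obtain ⟨k, hk⟩ := IsPGroup.iff_card.mp h3
  rw [H2.relIndex_comap_mk', hk] at h5
  obtain ⟨j, -, hj⟩ := (Nat.dvd_prime_pow hp).mp h5
  have hpM : p ∣ M.index := by
    rw [hj]
    refine dvd_pow_self p ?_
    rintro rfl
    exact hM.1 (Subgroup.index_eq_one.mp hj)
  have hnil : Group.IsNilpotent L := H2.nilpotent_of_map_mk'_of_le_frattini _ _ le_rfl (by
    rw [Subgroup.map_comap_eq_self_of_surjective hs N]; exact h3.isNilpotent)
  obtain ⟨P, hP⟩ := H2.exists_sylIn p L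
  have hPn := hP.normal_of_normal (hP.le_normalizer_of_nilpotent hnil)
  have hP' := hP.of_not_dvd le_top (by
    rw [Subgroup.relIndex_top_right,
      H2.index_eq_relIndex_of_sup_eq_top' (H2.sup_eq_top_of_not_le hM h4)]
    exact fun hd => hp.one_lt.ne' (Nat.eq_one_of_dvd_coprimes (h M hM)
      (hd.trans (Subgroup.relIndex_dvd_card _ _)) hpM))
  refine ⟨p, hp, hpM.trans M.index_dvd_card, fun Q => ?_⟩
  have := hP'.toSylowTop.unique_of_normal hPn
  rwa [Subsingleton.elim Q hP'.toSylowTop]

end Cfsg.Agent.S0553
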