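import Cfsg.Statements.S0554
import Cfsg.Agent.H2.Carter

set_option autoImplicit false
open Cfsg

open H18 H1 H2 Subgroup

namespace Cfsg.Agent.S0554

universe u
def InProd {G : Type*} [Group G] : List (Subgroup G) → G → Prop
  | [], g => g = 1
  | A :: l, g => ∃ a ∈ A, ∃ y, InProd l y ∧ g = a * y

theorem inProd_mul {G : Type*} [Group G] {V : Subgroup G} [hV : V.Normal] : ∀ (l : List (Subgroup G)) (g v : G),
    (∃ A ∈ l, V ≤ A) → InProd l g → v ∈ V → InProd l (v * g)
  | [], _, _, h, _, _ => by simp at h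
  | A :: l, g, v, h, ⟨a, ha, y, hy, e⟩, hv => by
    by_cases h1 : V ≤ A
    · exact ⟨v * a, mul_mem (h1 hv) ha, y, hy, by rw [e, mul_assoc]⟩
    · obtain ⟨B, hB, h2⟩ := h
      rcases List.mem_cons.1 hB with rfl | hB
      · exact absurd h2 h1
      · exact ⟨a, ha, _, inProd_mul l y (a⁻¹ * v * a) ⟨B, hB, h2⟩ hy (by simpa using hV.conj_mem v hv a⁻¹), by rw [e]; group⟩

theorem inProd_map {G Q : Type*} [Group G] [Group Q] (f : G →* Q) : ∀ (l : List (Subgroup G)) (z : Q),
    InProd (l.map (Subgroup.map f)) z → ∃ y, InProd l y ∧ f y = z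
  | [], z, h => ⟨1, rfl, by rw [map_one]; exact h.symm⟩
  | A :: l, z, ⟨_, ⟨a, ha, rfl⟩, y, hy, e⟩ => by
    obtain ⟨x, hx, rfl⟩ := inProd_map f l y hy
    exact ⟨a * x, ⟨a, ha, x, hx, rfl⟩, by rw [map_mul, e]⟩

theorem inProd_ofFn {G : Type*} [Group G] : ∀ (t : ℕ) (S : Fin t → Subgroup G) (g : G), InProd (List.ofFn S) g →
    ∃ s : Fin t → G, (∀ i, s i ∈ S i) ∧ g = (List.ofFn s).prod
  | 0, _, g, h => ⟨fun i => i.elim0, fun i => i.elim0, by simpa [InProd] using h⟩
  | t + 1, S, g, h => by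
    rw [List.ofFn_succ] at h
    obtain ⟨a, ha, y, hy, e⟩ := h
    obtain ⟨s, hs, e2⟩ := inProd_ofFn t _ y hy
    exact ⟨Fin.cons a s, fun i => Fin.cases ha hs i, by simp [List.ofFn_succ, e, e2]⟩

theorem inProd_one {G : Type*} [Group G] : ∀ l : List (Subgroup G), InProd l 1
  | [] => rfl
  | A :: l => ⟨1, one_mem A, 1, inProd_one l, (one_mul 1).symm⟩

theorem key (n : ℕ) : ∀ (G : Type u) [Group G] [Finite G] (l : List (Subgroup G)), Nat.card G = n → Group.IsSolvable G →
    (∀ q : ℕ, q.Prime → q ∣ Nat.card G → ∃ A ∈ l, Hall {q} A ⊤) → ∀ g, InProd l g := by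
  induction n using Nat.strong_induction_on with
  | _ n ih =>
  intro G _ _ l hn hs h g
  by_cases h1 : (⊤ : Subgroup G) = ⊥
  · rw [eq_one_of_eq_bot h1 (mem_top g)]; exact inProd_one l
  obtain ⟨p, V, hp, he, hV1, hV, -⟩ := exists_elem_nml (solv_of_solv : Solv (⊤ : Subgroup G)) h1 le_N
  haveI := hV.normal
  have hlt : Nat.card (G ⧸ V) < n := by
    have := card_mim_lt (f := topq V) (A := ⊤) le_rfl (by simpa [mker_topq] using hV1)
    rwa [mim_topq_top, card_top, card_top, hn] at this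
  obtain ⟨y, hy, e⟩ := inProd_map (QuotientGroup.mk' V) l _ (ih _ hlt (G ⧸ V) _ rfl inferInstance (fun q hq hd => by
    obtain ⟨A, hA, h2⟩ := h q hq (hd.trans (card_quotient_dvd_card V))
    refine ⟨_, List.mem_map_of_mem hA, ?_⟩
    have := h2.mim (f := topq V) le_rfl
    rwa [mim_topq_top, mim_topq] at this) (QuotientGroup.mk' V g))
  obtain ⟨A, hA, h2⟩ := h p hp (((he.pi' hp).dvd_card hV1).trans (card_subgroup_dvd_card V))
  have hv : g * y⁻¹ ∈ V := by
    rw [← QuotientGroup.ker_mk' V, MonoidHom.mem_ker, map_mul, map_inv, e, mul_inv_cancel]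
  simpa using inProd_mul l y _ ⟨A, hA, h2.nml_le hV (he.pi' hp)⟩ hy hv

/-- Let G be a finite solvable group and let S assign to each of t distinct primes, including every prime divisor of the order of G, a Sylow subgroup of G. Then every element of G is a product s_0 s_1 ⋯ s_(t-1) with s_i in S i, the factors taken in the given order. -/
theorem result {G : Type*} [Group G] [Finite G] [Group.IsSolvable G] (t : ℕ) (p : Fin t → ℕ) (hp : ∀ i, (p i).Prime) (hinj : Function.Injective p) (hall : ∀ q : ℕ, q.Prime → q ∣ Nat.card G → ∃ i, p i = q) (S : (i : Fin t) → Sylow (p i) G) : ∀ g : G, ∃ s : (i : Fin t) → G, (∀ i, s i ∈ (S i : Subgroup G)) ∧ g = (List.ofFn s).prod := by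
  intro g
  refine inProd_ofFn t (fun i => (S i : Subgroup G)) g (key _ G _ rfl inferInstance (fun q hq hd => ?_) g)
  obtain ⟨i, rfl⟩ := hall q hq hd
  exact ⟨_, List.mem_ofFn.2 ⟨i, rfl⟩, hall_sylow_top hq (S i)⟩

end Cfsg.Agent.S0554
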