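import Cfsg.Statements.S0562
import Cfsg.Agent.H18.Pi

set_option autoImplicit false
open Cfsg

open Subgroup H18

namespace Cfsg.Agent.S0562

/-- Let the finite group G be the product HK of subgroups, A normal in H, B normal in K, and L the normalizer of the subgroup generated by A and B. Then every element of L is a product of an element of L ∩ H and an element of L ∩ K. -/
theorem result {G : Type*} [Group G] [Finite G] (H K A B : Subgroup G) (hHK : ∀ g : G, ∃ h ∈ H, ∃ k ∈ K, g = h * k) (hA : A ≤ H) (hAn : (A.subgroupOf H).Normal) (hB : B ≤ K) (hBn : (B.subgroupOf K).Normal) : ∀ g ∈ Subgroup.normalizer ((A ⊔ B : Subgroup G) : Set G), ∃ h ∈ Subgroup.normalizer ((A ⊔ B : Subgroup G) : Set G) ⊓ H, ∃ k ∈ Subgroup.normalizer ((A ⊔ B : Subgroup G) : Set G) ⊓ K, g = h * k := by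
  intro g hg
  obtain ⟨h, hh, k, hk, rfl⟩ := hHK g
  have hHA : H ≤ N(A) := (normal_subgroupOf_iff_le_normalizer hA).1 hAn
  have hKB : K ≤ N(B) := (normal_subgroupOf_iff_le_normalizer hB).1 hBn
  have hkN : k ∈ N(A ⊔ B) := by
    rw [← inv_mem_iff]
    apply mem_N_of_cj_le
    rw [cj_le_iff, inv_inv]
    refine sup_le ?_ ?_
    · have := cj_eq_self hg
      rw [cj_mul, cj_eq_iff] at this
      rw [this, cj_sup, cj_eq_self (hHA (inv_mem hh))]
      exact le_sup_left
    · rw [cj_sup, cj_eq_self (hKB hk)]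
      exact le_sup_right
  exact ⟨h, ⟨(mul_mem_cancel_right hkN).1 hg, hh⟩, k, ⟨hkN, hk⟩, rfl⟩

end Cfsg.Agent.S0562
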