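import Cfsg.Statements.S0567
import Cfsg.Agent.H2.Subnormal
import Mathlib.GroupTheory.Commutator.Basic

set_option autoImplicit false
open Cfsg
open scoped commutatorElement

namespace Cfsg.Agent.S0567

/-- A subgroup H of a group G is subnormal exactly when, for some m, the subgroup obtained from G by taking the commutator with H m times in succession is contained in H. -/
theorem result {G : Type*} [Group G] (H : Subgroup G) : H.IsSubnormal ↔ ∃ m : ℕ, (fun K : Subgroup G => ⁅K, H⁆)^[m] ⊤ ≤ H := by
  rw [← H2.subnIn_top_iff]
  have hmono : ∀ (m : ℕ) (A B : Subgroup G), A ≤ B →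
      (fun K : Subgroup G => ⁅K, H⁆)^[m] A ≤ (fun K : Subgroup G => ⁅K, H⁆)^[m] B :=
    fun m A B h => Monotone.iterate (fun _ _ h => Subgroup.commutator_mono h le_rfl) m h
  constructor
  · intro h
    have key : ∀ L K : Subgroup G, H2.SubnIn L K → H ≤ L →
        ∃ m : ℕ, (fun K : Subgroup G => ⁅K, H⁆)^[m] K ≤ L := by
      intro L K hL
      induction hL with
      | refl K => exact fun _ => ⟨0, le_rfl⟩
      | @step L L' K a b c ih =>
        intro hH
        obtain ⟨m, hm⟩ := ih (hH.trans a)
        refine ⟨m + 1, ?_⟩
        rw [Function.iterate_succ_apply']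
        exact (Subgroup.commutator_mono hm hH).trans
          (Subgroup.le_normalizer_iff_commutator_le_right.mp b)
    exact key H ⊤ h le_rfl
  · rintro ⟨m, hm⟩
    have key : ∀ (m : ℕ) (K : Subgroup G),
        H2.SubnIn ((fun K : Subgroup G => ⁅K, H⁆)^[m] K ⊔ H) (K ⊔ H) := by
      intro m
      induction m with
      | zero => exact fun K => H2.SubnIn.refl _
      | succ m ih =>
        intro K
        rw [Function.iterate_succ_apply]
        refine (ih _).trans (H2.SubnIn.of_normal
          (sup_le (Subgroup.commutator_le_sup _ _) le_sup_right) (sup_le ?_ ?_))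
        · refine Subgroup.le_normalizer_iff_commutator_le_right.mpr ?_
          refine Subgroup.commutator_le.mpr fun k hk x hx => ?_
          obtain ⟨c, hc, y, hy, rfl⟩ := (H2.mem_sup_of_le_normalizer
            (Subgroup.normalizer_commutator_ge_right K H)).mp hx
          have h1 : k * c * k⁻¹ ∈ ⁅K, H⁆ :=
            (Subgroup.normalizer_commutator_ge_left K H hk c).mp hc
          have h2 : ⁅k, c * y⁆ = (k * c * k⁻¹) * ⁅k, y⁆ * c⁻¹ := by
            simp only [commutatorElement_def]; group
          rw [h2]
          exact Subgroup.mem_sup_left (Subgroup.mul_mem _ (Subgroup.mul_mem _ h1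
            (Subgroup.commutator_mem_commutator hk hy)) (Subgroup.inv_mem _ hc))
        · exact le_sup_right.trans Subgroup.le_normalizer
    have := key m ⊤
    rwa [sup_eq_right.mpr hm, top_sup_eq] at this

end Cfsg.Agent.S0567
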