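import Cfsg.Statements.S0568
import Cfsg.Agent.H2.Carter

set_option autoImplicit false
open Cfsg

open H18 H1 H2 Subgroup

namespace Cfsg.Agent.S0568

/-- Let D be the system normalizer of a Hall complement system of a finite solvable group G, and let A < B be normal subgroups with no normal subgroup of G strictly between them (a chief factor). If G centralizes B modulo A then B ≤ A ⊔ D (D covers the factor); otherwise B ∩ D ≤ A (D avoids it). -/
theorem result {G : Type*} [Group G] [Finite G] [Group.IsSolvable G] (K : Nat.Primes → Subgroup G) (hK : Cfsg.IsComplementSystem K) (A B : Subgroup G) [A.Normal] [B.Normal] (hAB : A < B) (hchief : ∀ N : Subgroup G, N.Normal → A ≤ N → N ≤ B → N = A ∨ N = B) : (⁅B, (⊤ : Subgroup G)⁆ ≤ A → B ≤ A ⊔ Cfsg.systemNormalizer K) ∧ (¬ ⁅B, (⊤ : Subgroup G)⁆ ≤ A → B ⊓ Cfsg.systemNormalizer K ≤ A) := by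
  have h := cs_top_iff.2 hK
  have hs : Solv (⊤ : Subgroup G) := solv_of_solv
  have nA : A ⊴ ⊤ := nml_top
  have hc : Chief ⊤ A B := ⟨hAB, nA, nml_top, fun W h1 h2 h3 => (hchief W (norm_top_iff.1 h3) h1.le h2).resolve_left h1.ne'⟩
  have e := h.sn_mim (f := coset A) hs nA.norm
  rw [← sn_top]
  constructor
  · intro c
    rw [sup_comm, ← quo_le_quo_iff (le_top.trans nA.norm) (le_top.trans nA.norm), e]
    have c' := (comm_le_iff_quo (le_top.trans nA.norm) nA.norm).1 c
    exact le_inf (mim_mono le_top) (le_iInf fun p => cent_norm (c'.trans (C_anti (mim_mono le_top))))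
  · intro c
    have := CS.avoid (h.mim (f := coset A) nA.norm) hs.mim hc.minNorm (mim_mono le_top)
      fun c' => c ((comm_le_iff_quo (le_top.trans nA.norm) nA.norm).2 (cent_symm c'))
    rw [← quo_eq_bot_iff (le_top.trans nA.norm), eq_bot_iff, ← this, ← e]
    exact mim_inf_le

end Cfsg.Agent.S0568
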