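import Cfsg.Statements.S0569
import Cfsg.Agent.H2.Carter

set_option autoImplicit false
open Cfsg

open H18 H1 H2 Subgroup

namespace Cfsg.Agent.S0569

/-- In a finite solvable group: each nilpotent self-normalizing subgroup contains the system normalizer of some Hall complement system, and the system normalizer of any Hall complement system lies in some nilpotent self-normalizing subgroup. -/
theorem result {G : Type*} [Group G] [Finite G] [Group.IsSolvable G] : (∀ C : Subgroup G, Cfsg.IsCarterSubgroup C → ∃ K : Nat.Primes → Subgroup G, Cfsg.IsComplementSystem K ∧ Cfsg.systemNormalizer K ≤ C) ∧ ∀ K : Nat.Primes → Subgroup G, Cfsg.IsComplementSystem K → ∃ C : Subgroup G, Cfsg.IsCarterSubgroup C ∧ Cfsg.systemNormalizer K ≤ C := by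
  have hs : Solv (⊤ : Subgroup G) := solv_of_solv
  constructor
  · intro C hC
    obtain ⟨K, h1, h2⟩ := exists_cs_red hs (le_top : C ≤ ⊤)
    exact ⟨K, cs_top_iff.1 h1, sn_top (K := K) ▸ (car_top_iff.2 hC).sn_le hs h1 h2⟩
  · intro K hK
    obtain ⟨C, h1, h2⟩ := (cs_top_iff.2 hK).exists_car_red hs
    exact ⟨C, car_top_iff.1 h1, sn_top (K := K) ▸ h1.sn_le hs (cs_top_iff.2 hK) h2⟩

end Cfsg.Agent.S0569
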