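import Cfsg.Statements.S0570
import Cfsg.Agent.H2.Carter

set_option autoImplicit false
open Cfsg

open H18 H1 H2 Subgroup

namespace Cfsg.Agent.S0570

/-- Let G be a finite group with a nilpotent normal subgroup F such that G modulo F is nilpotent (nilpotent length at most two). Then a subgroup of G is a Carter subgroup if and only if it is the system normalizer of some Hall complement system. -/
theorem result {G : Type*} [Group G] [Finite G] (F : Subgroup G) [F.Normal] (hF : Group.IsNilpotent F) (hGF : Group.IsNilpotent (G ⧸ F)) (C : Subgroup G) : Cfsg.IsCarterSubgroup C ↔ ∃ K : Nat.Primes → Subgroup G, Cfsg.IsComplementSystem K ∧ C = Cfsg.systemNormalizer K := by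
  have nF : F ⊴ ⊤ := nml_top
  have h2 : Nil (⊤ ⫽ F) := by
    have : Nil (mim (topq F) ⊤) := by rw [mim_topq_top]; exact nil_top_iff.2 hGF
    rw [nil_iff_lcs] at this ⊢
    obtain ⟨n, hn⟩ := this
    refine ⟨n, ?_⟩
    have aux : ∀ {Q : Type _} [Group Q] {D : Subgroup G} (f : D →* Q), ⊤ ≤ D → ∀ n,
        (mim f ⊤).lowerCentralSeries n = mim f ((⊤ : Subgroup G).lowerCentralSeries n) := by
      intro Q _ D f hD n
      induction n with
      | zero => rfl
      | succ n ih => rw [Subgroup.lowerCentralSeries_succ, Subgroup.lowerCentralSeries_succ, ih, mim_comm (le_top.trans hD) hD]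
    rw [aux _ le_rfl, mim_eq_bot_iff le_top, mker_topq] at hn
    rw [aux _ nF.norm, quo_eq_bot hn]
  have hs : Solv (⊤ : Subgroup G) := solv_of_quo nF.norm h2.solv (Nil.solv hF)
  constructor
  · intro hC
    obtain ⟨K, h3, h4⟩ := exists_cs_red hs (le_top : C ≤ ⊤)
    exact ⟨K, cs_top_iff.1 h3, sn_top (K := K) ▸ (car_top_iff.2 hC).eq_sn nF hF h2 h3 h4⟩
  · rintro ⟨K, hK, rfl⟩
    obtain ⟨C, h3, h4⟩ := (cs_top_iff.2 hK).exists_car_red hs
    rw [← sn_top, ← h3.eq_sn nF hF h2 (cs_top_iff.2 hK) h4]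
    exact car_top_iff.1 h3

end Cfsg.Agent.S0570
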