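import Cfsg.Statements.S0576
import Cfsg.Agent.H2.Frattini

set_option autoImplicit false
open Cfsg

namespace Cfsg.Agent.S0576

/-- Let H be a normal subgroup of a finite group G with H contained in the Frattini subgroup of G. Then the group of inner automorphisms of H is contained in the Frattini subgroup of the automorphism group of H. -/
theorem result {G : Type*} [Group G] [Finite G] (H : Subgroup G) [H.Normal] (hH : H ≤ frattini G) : (MulAut.conj : ↥H →* MulAut ↥H).range ≤ frattini (MulAut ↥H) := by
  refine H2.le_frattini_iff.mpr fun M hM => ?_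
  by_contra hcon
  have hn : ((MulAut.conj : ↥H →* MulAut ↥H).range).Normal := by
    refine ⟨?_⟩
    rintro _ ⟨x, rfl⟩ g
    exact ⟨g x, by ext y; simp⟩
  have h1 := H2.sup_eq_top_of_not_le hM hcon
  have h2 : H ⊔ M.comap (MulAut.conjNormal : G →* MulAut H) = ⊤ := by
    rw [eq_top_iff]
    intro g _
    obtain ⟨_, ⟨x, rfl⟩, m, hm, h3⟩ := (H2.mem_sup_of_le_normalizer
      (N := (MulAut.conj : ↥H →* MulAut ↥H).range) (H := M) Subgroup.le_normalizer_of_normal
      (x := MulAut.conjNormal g)).mp (by rw [h1]; trivial)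
    have h4 : g = x * ((x : G)⁻¹ * g) := by group
    rw [h4]
    refine Subgroup.mul_mem_sup x.2 ?_
    rw [Subgroup.mem_comap, map_mul, map_inv, MulAut.conjNormal_val, ← h3, inv_mul_cancel_left]
    exact hm
  have h3 := H2.eq_top_of_sup_of_le_frattini hH h2
  apply hcon
  rintro _ ⟨x, rfl⟩
  rw [← MulAut.conjNormal_val, ← Subgroup.mem_comap, h3]
  trivial

end Cfsg.Agent.S0576
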