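import Cfsg.Statements.S0577
import Cfsg.Agent.H2.Schmidt

set_option autoImplicit false
open Cfsg

open H18 H1 H2 Subgroup

namespace Cfsg.Agent.S0577

/-- Let G be a finite minimal non-nilpotent group and Q a normal Sylow q-subgroup of G, and let D be the commutator subgroup of Q regarded in G (a normal subgroup). Then G modulo D is non-abelian and all its proper subgroups are abelian. -/
theorem result {G : Type*} [Group G] [Finite G] (hG : Cfsg.IsMinimalNonNilpotent G) (q : ℕ) [Fact q.Prime] (hq : q ∣ Nat.card G) (Q : Sylow q G) (hQ : (Q : Subgroup G).Normal) (D : Subgroup G) [D.Normal] (hD : D = (commutator ↥(Q : Subgroup G)).map (Q : Subgroup G).subtype) : ¬ IsMulCommutative (G ⧸ D) ∧ ∀ K : Subgroup (G ⧸ D), K ≠ ⊤ → IsMulCommutative K := by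
  have hn : ¬ Nil (⊤ : Subgroup G) := fun h => hG.1 (nil_top_iff.1 h)
  obtain ⟨p, r, P, R, hp, hr, ne, hP, hR, nR, e, hc, nc⟩ :=
    schmidt_struct (K := (⊤ : Subgroup G)) (fun H hH => hG.2 H hH.ne) hn
  have hq0 : q.Prime := Fact.out
  have hQ' := hall_sylow_top hq0 Q
  have nQ : (Q : Subgroup G) ⊴ ⊤ := nml_top
  have hD' : D = ⁅(Q : Subgroup G), (Q : Subgroup G)⁆ := by rw [hD, map_subtype_commutator]
  have hr' : PiGrp {p}ᶜ R := hR.pi.p'_of_ne ne.symm
  have eqr : q = r := by
    by_contra h3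
    have : q = p := by
      by_contra h4
      have h5 : PiGrp {q}ᶜ (P ⊔ R) := PiGrp.sup (hP.pi.p'_of_ne (Ne.symm h4)) (hR.pi.p'_of_ne (Ne.symm h3)) (nR.nrm2' le_top)
      rw [e] at h5
      exact (piNat_compl_iff hq0).1 h5 (by simpa using hq)
    subst this
    have := hQ'.eq_of_nml nQ.norm hP
    exact nc (cent_of_nml_coprime (this ▸ nQ) nR (hP.pi.coprime hr'))
  subst eqr
  obtain rfl : R = Q := hQ'.eq_of_nml nQ.norm hR
  constructor
  · intro ab
    refine nc (cent_of_comm_le_phi (le_top.trans nR.norm) (hP.pi.coprime hr') (le_trans ?_ (hR.pi.der_le_phi hq0)))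
    rw [← hD']
    refine commutator_le.2 fun a _ b _ => ?_
    rw [← QuotientGroup.eq_one_iff, ← QuotientGroup.mk'_apply, map_commutatorElement, commutatorElement_eq_one_iff_mul_comm]
    exact ab.is_comm.comm _ _
  · intro K hK
    have hL : K.comap (QuotientGroup.mk' D) ≠ ⊤ := fun e => hK (by
      rw [← map_comap_eq_self_of_surjective (QuotientGroup.mk'_surjective D) K, e, map_top_of_surjective _ (QuotientGroup.mk'_surjective D)])
    set L := K.comap (QuotientGroup.mk' D) with hLd
    have nL : Nil L := hG.2 L hL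
    have d : ⁅L, L⁆ ≤ D := by
      have h1 : O[{q}](L) ≤ Q := hR.le_of_nml nR.norm le_top pcore_pi
      have h2 : Abel O[{q}ᶜ](L) := by
        have hP' : Hall {q}ᶜ P ⊤ := (sd_of_nml nR le_top (by rw [inf_comm]; exact hP.pi.inf_eq_bot hr') (by rw [sup_comm, e])).hall_compl hR
        obtain ⟨g, -, hg⟩ := hall_le_cj (schmidt_solv fun H hH => hG.2 H hH.ne) hP' le_top (pcore_pi (π := {q}ᶜ) (H := L))
        exact abel_cj.1 (hc.abel.mono hg)
      rw [(nL.dp_pcore (π := {q})).cp.der_of_abel h2, hD']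
      exact der_mono h1
    rw [← map_comap_eq_self_of_surjective (QuotientGroup.mk'_surjective D) K, ← hLd, ← abel_iff, abel_iff_der, ← map_commutator,
      Subgroup.map_eq_bot_iff, QuotientGroup.ker_mk']
    exact d

end Cfsg.Agent.S0577
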