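import Cfsg.Statements.S0578
import Cfsg.Agent.H2.Schmidt

set_option autoImplicit false
open Cfsg

open H18 H1 H2 Subgroup

namespace Cfsg.Agent.S0578

/-- If in a finite group the normalizer of each abelian subgroup coincides with its centralizer, then the group is abelian. -/
theorem result {G : Type*} [Group G] [Finite G] (h : ∀ A : Subgroup G, IsMulCommutative A → Subgroup.normalizer (A : Set G) = Subgroup.centralizer (A : Set G)) : IsMulCommutative G := by
  have ab : ∀ p, p.Prime → ∀ P : Subgroup G, PiGrp {p} P → Abel P := by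
    intro p hp P hP
    obtain ⟨A, -, ⟨hA, aA⟩, hmax⟩ := exists_maximal_sub (A := (⊥ : Subgroup G)) (fun A => A ⊴ P ∧ Abel A) ⟨Nml.bot, abel_bot⟩
    have c : P ≤ C(A) := h A aA.comm ▸ hA.norm
    by_contra hn
    have hlt : A < P := lt_of_le_of_ne hA.le fun e => hn (e ▸ aA)
    have hq : (P ⫽ A) ≠ ⊥ := fun e => hlt.not_ge ((quo_eq_bot_iff hA.norm).1 e)
    obtain ⟨z, hz, z1⟩ := exists_mem_ne_one' (Nil.Z_ne_bot (hP.nil.mim (f := coset A)) hq)
    obtain ⟨y, hy, rfl⟩ := (mem_quo hA.norm).1 hz.1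
    have n1 : (zpowers y ⊔ A) ⊴ P := by
      refine nml_of_quo hA.norm (sup_le (zpowers_le.2 hy) hA.le) le_sup_right ?_
      rw [quo_sup_self ((zpowers_le.2 hy).trans hA.norm)]
      refine nml_of_le_Z ?_
      rw [mim_zpowers (hA.norm hy)]
      exact zpowers_le.2 hz
    have := hmax _ ⟨n1, abel_zpowers.sup aA ((zpowers_le.2 hy).trans c)⟩ le_sup_right
    exact z1 (cs_eq_one (this ▸ mem_sup_left (mem_zpowers y)))
  have hb : ∀ p, p.Prime → ∀ P : Subgroup G, Hall {p} P ⊤ → N(P) ≤ C(P) := fun p hp P hP =>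
    (h P (ab p hp P hP.pi).comm).le
  have hn : Nil (⊤ : Subgroup G) := by
    by_contra hn
    obtain ⟨K, -, hK, hmin⟩ := exists_minimal_sub (A := (⊤ : Subgroup G)) (fun K => ¬ Nil K) hn
    obtain ⟨p, q, P, Q, hp, hq, ne, hP, hQ, nQ, e, hc, nc⟩ :=
      schmidt_struct (K := K) (fun H hH => by_contra fun h3 => hH.ne (hmin H h3 hH.le)) hK
    exact nc (h Q (ab q hq Q hQ.pi).comm ▸ hP.le.trans nQ.norm)
  have := abel_of_nil_sylow hn fun p hp _ => ab p hp _ pcore_pi
  exact ⟨⟨fun a b => comm_of_cent this (mem_top a) (mem_top b)⟩⟩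

end Cfsg.Agent.S0578
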