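import Cfsg.Statements.S0586
import Cfsg.Agent.H2.Frattini

set_option autoImplicit false
open Cfsg

namespace Cfsg.Agent.S0586

/-- If the Frattini subgroup of a finite group G is trivial, then the Fitting subgroup of G equals the join of all abelian minimal normal subgroups of G. -/
theorem result {G : Type*} [Group G] [Finite G] (hΦ : frattini G = ⊥) : Cfsg.fittingSubgroup G = sSup {N : Subgroup G | N.Normal ∧ N ≠ ⊥ ∧ IsMulCommutative N ∧ ∀ K : Subgroup G, K.Normal → K ≤ N → K = ⊥ ∨ K = N} := by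
  apply le_antisymm
  · refine sSup_le fun N hN => ?_
    have := hN.1
    have hc : IsMulCommutative N := Subgroup.commutator_self_eq_bot_iff.mp
      (le_bot_iff.mp (hΦ ▸ H2.commutator_le_frattini_of_normal_nilpotent N hN.2))
    set S := {M : Subgroup G | M.Normal ∧ M ≠ ⊥ ∧ IsMulCommutative M ∧
      ∀ K : Subgroup G, K.Normal → K ≤ M → K = ⊥ ∨ K = M}
    have hSn : (sSup S).Normal := Subgroup.sSup_normal S fun M hM => hM.1
    have : IsMulCommutative (N ⊓ sSup S : Subgroup G) := H1.isMulCommutative_of_le inf_le_left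
    obtain ⟨H, hH⟩ := H2.exists_complement_of_inf_frattini (N ⊓ sSup S) (by rw [hΦ, inf_bot_eq])
    have h1 : N ⊔ H = ⊤ := top_le_iff.mp (hH.sup_eq_top ▸ sup_le_sup_right inf_le_left H)
    have h2 := H2.inf_normal_of_comm_of_sup_eq_top h1
    have h3 : N ⊓ H = ⊥ := by
      by_contra h3
      obtain ⟨M, hM1, hM2, hM3, hM4⟩ := H1.exists_minimal_normal_le (N ⊓ H) h3
      refine hM2 (le_bot_iff.mp (hH.disjoint.eq_bot ▸ le_inf (le_inf (hM3.trans inf_le_left)
        (le_sSup ⟨hM1, hM2, H1.isMulCommutative_of_le (hM3.trans inf_le_left), hM4⟩))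
        (hM3.trans inf_le_right)))
    have h4 := H1.sup_inf_of_le (N := N ⊓ sSup S) (H := H) (U := N)
      Subgroup.le_normalizer_of_normal inf_le_left
    rw [hH.sup_eq_top, top_inf_eq, inf_comm H, h3, sup_bot_eq] at h4
    exact inf_eq_left.mp h4
  · refine sSup_le fun N hN => ?_
    have := hN.1
    have := hN.2.2.1
    exact H2.le_fitting (H1.isNilpotent_of_isMulCommutative N)

end Cfsg.Agent.S0586
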