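import Cfsg.Statements.S0587
import Cfsg.Agent.H2.Frattini
import Cfsg.Agent.H18.Nil
import Cfsg.Agent.H3.HallTransfer

set_option autoImplicit false
open Cfsg

open Subgroup H18

namespace Cfsg.Agent.S0587

/-- Let G be a finite group whose largest normal p-subgroup L is nontrivial, and M a maximal subgroup of G with trivial normal core. Then L is elementary abelian, M is a complement to L, L is a minimal normal subgroup of G, the centralizer of L is L, and for every prime q such that the largest normal q-subgroup of M is nontrivial, the order of L is congruent to 1 modulo q and q ≠ p. -/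
theorem result {G : Type*} [Group G] [Finite G] (p : ℕ) [Fact p.Prime] (hL : Cfsg.pCore p G ≠ ⊥) (M : Subgroup G) (hM : IsCoatom M) (hcore : M.normalCore = ⊥) : Cfsg.IsElementaryAbelian p (Cfsg.pCore p G) ∧ Subgroup.IsComplement' (Cfsg.pCore p G) M ∧ (∀ K : Subgroup G, K.Normal → K ≤ Cfsg.pCore p G → K = ⊥ ∨ K = Cfsg.pCore p G) ∧ Subgroup.centralizer ((Cfsg.pCore p G : Subgroup G) : Set G) = Cfsg.pCore p G ∧ ∀ (q : ℕ) [Fact q.Prime], Cfsg.pCore q ↥M ≠ ⊥ → Nat.card (Cfsg.pCore p G) % q = 1 % q ∧ q ≠ p := by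
  have hp : p.Prime := Fact.out
  set L := Cfsg.pCore p G with hLdef
  have hLn : L.Normal := Cfsg.pCore_normal p G
  have hLp : PiGrp {p} L := by rw [hLdef, pCore_eq hp]; exact pcore_pi
  have hZ : (Z(L)).Normal := (Nml.Z nml_top).normal
  have hZc : IsMulCommutative (Z(L) : Subgroup G) := abel_Z.comm
  have hZ1 : Z(L) ≠ ⊥ := hLp.nil.Z_ne_bot hL
  have hab : Abel L := by
    have := H2.corefree_centralizer_eq hM hcore hZ1
    have h2 : L ≤ Z(L) := this ▸ Z_cent
    exact h2.trans inf_le_right
  have hc := hab.comm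
  have hmin := H2.corefree_minimal hM hcore hL
  have hC := H2.corefree_centralizer_eq hM hcore hL
  refine ⟨⟨hc, ?_⟩, H2.corefree_isComplement hM hcore hL, hmin, hC, fun q _ hq => ?_⟩
  · let K : Subgroup G :=
      { carrier := {x | x ∈ L ∧ x ^ p = 1}
        mul_mem' := fun {a b} ha hb => ⟨mul_mem ha.1 hb.1, by
          rw [Commute.mul_pow (comm_of_cent hab ha.1 hb.1), ha.2, hb.2, one_mul]⟩
        one_mem' := ⟨one_mem _, one_pow _⟩
        inv_mem' := fun {a} ha => ⟨inv_mem ha.1, by rw [inv_pow, ha.2, inv_one]⟩ }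
    have hK : K.Normal := ⟨fun a ha g => ⟨hLn.conj_mem a ha.1 g, by rw [conj_pow, ha.2]; simp⟩⟩
    rcases hmin K hK (fun a ha => ha.1) with h | h
    · obtain ⟨x, hx, ho⟩ := cauchy hp (hLp.dvd_card hL)
      have : x ∈ K := ⟨hx, ho ▸ pow_orderOf_eq_one x⟩
      rw [h, mem_bot] at this
      rw [this, orderOf_one] at ho
      exact absurd ho.symm hp.ne_one
    · intro a ha
      exact (h.ge ha).2
  · have hq' : q.Prime := Fact.out
    have hR : O[{q}](M) ≠ ⊥ := by
      rw [← pCore_map hq', Ne, Subgroup.map_eq_bot_iff_of_injective _ M.subtype_injective]; exact hq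
    have hN : (L ⊓ C(O[{q}](M))).Normal := by
      rw [← norm_top_iff, ← H2.corefree_sup hM hcore hL]
      exact sup_le (hab.norm inf_le_left) (norm_inf norm_of_normal (norm_C pcore_nml.norm))
    have h1 : L ⊓ C(O[{q}](M)) = ⊥ := by
      refine (hmin _ hN inf_le_left).resolve_right fun h => hR ?_
      rw [eq_bot_iff, ← H2.corefree_inf hM hcore hL]
      refine le_inf ?_ pcore_le
      rw [← hC]; exact cent_symm (h.ge.trans inf_le_right)
    have h2 := H3.card_modEq_card_inf_centralizer (Q := L) (R := O[{q}](M)) pcore_pi.isPGroup norm_of_normal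
    rw [h1, card_bot] at h2
    refine ⟨h2, fun e => ?_⟩
    subst e
    have h3 := (Nat.modEq_zero_iff_dvd.2 (hLp.dvd_card hL)).symm.trans h2
    exact hp.one_lt.ne' (Nat.dvd_one.1 (Nat.modEq_zero_iff_dvd.1 h3.symm))

end Cfsg.Agent.S0587
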