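import Cfsg.Statements.S0588
import Cfsg.Agent.H18.Nil

set_option autoImplicit false
open Cfsg

open Subgroup H18

namespace Cfsg.Agent.S0588

/-- If a subgroup H of a finite group G contains the centralizer of every non-identity element of H, then the order of H is coprime to its index. -/
theorem result {G : Type*} [Group G] [Finite G] (H : Subgroup G) (h : ∀ x ∈ H, x ≠ 1 → Subgroup.centralizer ({x} : Set G) ≤ H) : (Nat.card H).Coprime H.index := by
  rw [Nat.coprime_iff_gcd_eq_one]
  by_contra hne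
  obtain ⟨p, hp, hd⟩ := Nat.exists_prime_and_dvd hne
  obtain ⟨x, hx, ho⟩ := cauchy hp (hd.trans (Nat.gcd_dvd_left _ _))
  have hx1 : x ≠ 1 := by rintro rfl; rw [orderOf_one] at ho; exact hp.ne_one ho.symm
  obtain ⟨S, hS, hxS⟩ := exists_sylow_le (M := ⊤) hp (Q := zpowers x)
    (piGrp_of_prime hp (by rw [card_zpowers', ho])) le_top
  have hxS' : x ∈ S := hxS (mem_zpowers x)
  obtain ⟨z, hz, hz1⟩ := exists_mem_ne_one' (hS.pi.nil.Z_ne_bot (ne_bot_of_mem hxS' hx1))
  have hzH : z ∈ H := h x hx hx1 (C_le_C1 hxS' hz.2)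
  have hSH : S ≤ H := (le_C1_iff.2 hz.2).trans (h z hzH hz1)
  have := (hS.idx_of_le hSH).not_dvd' hp rfl
  rw [relIndex_top_right] at this
  exact this (hd.trans (Nat.gcd_dvd_right _ _))

end Cfsg.Agent.S0588
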