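import Cfsg.Statements.S0592
import Cfsg.Agent.H4.QuadLin

set_option autoImplicit false
open Cfsg

namespace Cfsg.Agent.S0592

/-- Two quadratically acting generators of a linear group that is not a p-group, with the p'-part of the order of their product dividing q - 1, give a homomorphism onto a subgroup of SL(2, q) that is not a p-group. -/
theorem result {K : Type*} [Field K] [Fintype K] {p : ℕ} [Fact p.Prime] [CharP K p] {W : Type*} [AddCommGroup W] [Module K W] [FiniteDimensional K W] [Finite W] [Nontrivial W] (H : Subgroup (W ≃ₗ[K] W)) (a b : W ≃ₗ[K] W) (hH : H = Subgroup.closure {a, b}) (ha : ∀ w : W, a (a w - w) = a w - w) (hb : ∀ w : W, b (b w - w) = b w - w) (hnp : ¬ IsPGroup p H) (hk : ∃ e k : ℕ, orderOf (a * b) = p ^ e * k ∧ k ∣ Fintype.card K - 1) : ∃ φ : H →* Matrix.SpecialLinearGroup (Fin 2) K, ¬ IsPGroup p φ.range := by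
  subst hH
  obtain ⟨e, k, h1, h2⟩ := hk
  let ρ : (W ≃ₗ[K] W) →* Module.End K W := LinearEquiv.automorphismGroup.toLinearMapMonoidHom
  have hρ : ∀ g, ρ g = 1 → g = 1 := fun g hg => LinearEquiv.ext fun w => LinearMap.congr_fun hg w
  obtain ⟨ι, -, φ, -, h⟩ := H4.exists_hom_SL2 (p := p) ρ (a := a) (b := b) (e := e)
    (LinearMap.ext fun w => sub_eq_zero.2 (ha w)) (LinearMap.ext fun w => sub_eq_zero.2 (hb w))
    (by rw [← map_pow, orderOf_dvd_iff_pow_eq_one.1 (h1 ▸ Nat.mul_dvd_mul_left _ h2), map_one])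
    (fun hc => hnp (H26.isPGroup_iff_mem.2 fun x hx => (hc x hx).imp fun k hk => hρ _ hk))
  exact ⟨φ, h⟩

end Cfsg.Agent.S0592
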