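import Cfsg.Statements.S0594
import Cfsg.Agent.H4.PSol2

set_option autoImplicit false
open Cfsg

namespace Cfsg.Agent.S0594

open Subgroup H26 H4


/-- For odd p, two quadratic generators of a faithful group that is not a p-group, one of which acts nontrivially on a normal subgroup of order prime to p, force p = 3 and a section isomorphic to SL(2,3). -/
theorem result {G : Type*} [Group G] [Finite G] {p : ℕ} [Fact p.Prime] (hp : p ≠ 2) (V H : Subgroup G) (hV : Cfsg.IsElementaryAbelian p V) (hHV : H ≤ Subgroup.normalizer (V : Set G)) (hf : H ⊓ Subgroup.centralizer (V : Set G) = ⊥) (a b : G) (hab : H = Subgroup.closure {a, b}) (ha : ⁅⁅V, Subgroup.zpowers a⁆, Subgroup.zpowers a⁆ = ⊥) (hb : ⁅⁅V, Subgroup.zpowers b⁆, Subgroup.zpowers b⁆ = ⊥) (hnp : ¬ IsPGroup p H) (Q : Subgroup G) (hQH : Q ≤ H) (hQn : H ≤ Subgroup.normalizer (Q : Set G)) (hQ : (Nat.card Q).Coprime p) (hQa : ⁅Q, Subgroup.zpowers a⁆ ≠ ⊥) : p = 3 ∧ ∃ (K L : Subgroup G) (hL : (L.subgroupOf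 K).Normal), K ≤ H ∧ Nonempty ((K ⧸ L.subgroupOf K) ≃* Matrix.SpecialLinearGroup (Fin 2) (ZMod 3)) := by
  have haH : a ∈ H := hab ▸ subset_closure (by simp)
  have hK : zpowers a ⊔ Q ≤ H := sup_le (zpowers_le.2 haH) hQH
  have hn : zpowers a ≤ 𝐍 Q := (zpowers_le.2 haH).trans hQn
  have hs := (natSec_of_not_mem_opMod hp hV (hK.trans hHV) (mem_sup_left (mem_zpowers a)) ha fun h => hQa ?_).sec_SL2
  · obtain rfl := ((pSol_of_solvable inferInstance).sup (pSol_of_coprime hQ) hn).eq_three_of_sec hp hs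
    exact ⟨rfl, sec_iff.1 (hs.mono hK)⟩
  rw [opMod_eq_pCoreOf (le_normalizer_centralizer (hK.trans hHV))
    ((le_bot_iff.1 ((inf_le_inf_right _ hK).trans hf.le)) ▸ IsPGroup.of_bot)] at h
  rw [eq_bot_iff, ← H1.inf_eq_bot_of_isPGroup_of_coprime (isPGroup_pCoreOf p (zpowers a ⊔ Q)) hQ]
  exact le_inf ((commutator_mono le_rfl (zpowers_le.2 h)).trans (commutator_le_of_le_normalizer'
    (le_sup_right.trans (le_normalizer_pCoreOf p _)))) (commutator_le_of_le_normalizer hn)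

end Cfsg.Agent.S0594
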