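import Cfsg.Statements.S0604
import Cfsg.Agent.H4.Thompson

set_option autoImplicit false
open Cfsg

namespace Cfsg.Agent.S0604

/-- The Thompson subgroup of G is the join of the Thompson subgroups of its Sylow p-subgroups. -/
theorem result {G : Type*} [Group G] [Finite G] {p : ℕ} [Fact p.Prime] : Cfsg.thompsonSubgroup p G = ⨆ S : Sylow p G, Cfsg.thompsonSubgroupOf p (S : Subgroup G) := by
  rw [← H4.thompsonOf_top]
  apply le_antisymm
  · refine H4.thompsonOf_le_iff.2 fun A hA => ?_
    obtain ⟨S, hS⟩ := (H26.elemAb_isPGroup hA.2.1).exists_le_sylow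
    exact (H4.MaxEA.le_thompsonOf (H4.MaxEA.of_le hA hS le_top)).trans
      (le_iSup (fun S : Sylow p G => Cfsg.thompsonSubgroupOf p (S : Subgroup G)) S)
  · refine iSup_le fun S => ?_
    obtain ⟨A, hA⟩ := H4.exists_maxEA p (⊤ : Subgroup G)
    obtain ⟨g, -, hg⟩ := (H26.isSyl_top S).exists_cj_le (H26.elemAb_isPGroup hA.2.1) le_top
    exact H4.thompsonOf_mono_of_exists
      (H4.MaxEA.cj_of_mem_normalizer hA (Subgroup.le_normalizer (Subgroup.mem_top g))) hg le_top

end Cfsg.Agent.S0604
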