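import Cfsg.Statements.S0607
import Cfsg.Agent.H4.Thompson

set_option autoImplicit false
open Cfsg

namespace Cfsg.Agent.S0607

/-- The replacement Theorem for the Thompson subgroup: from A of maximal order among elementary abelian p-subgroups one obtains A₀ = [V, A] C_A([V, A]) of the same kind, quadratic on V and nontrivial on V when A is. -/
theorem result {G : Type*} [Group G] [Finite G] {p : ℕ} [Fact p.Prime] (V : Subgroup G) [V.Normal] (hV : Cfsg.IsElementaryAbelian p V) (A : Subgroup G) (hA : A ∈ Cfsg.maxElementaryAbelianSubgroups p G) : (⁅V, A⁆ ⊔ (A ⊓ Subgroup.centralizer ((⁅V, A⁆ : Subgroup G) : Set G))) ∈ Cfsg.maxElementaryAbelianSubgroups p G ∧ ⁅⁅V, ⁅V, A⁆ ⊔ (A ⊓ Subgroup.centralizer ((⁅V, A⁆ : Subgroup G) : Set G))⁆, ⁅V, A⁆ ⊔ (A ⊓ Subgroup.centralizer ((⁅V, A⁆ : Subgroup G) : Set G))⁆ = ⊥ ∧ (⁅V, A⁆ ≠ ⊥ → ⁅V, ⁅V, A⁆ ⊔ (A ⊓ Subgroup.centralizer ((⁅V, A⁆ : Subgroup G) : Set G))⁆ ≠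 ⊥) := by
  rw [← H4.maxEA_top] at hA ⊢
  have hAV : A ≤ Subgroup.normalizer (V : Set G) := Subgroup.le_normalizer_of_normal
  have hX : ⁅V, A⁆ ≤ V := Subgroup.commutator_le_left V A
  have h1 := H4.MaxEA.replace hA le_top hV hAV le_rfl
  have h2 := H4.timmesfeld hV hAV (H4.MaxEA.isBestOffenderOn hA le_top hV) le_rfl
  have e1 : ⁅V, ⁅V, A⁆ ⊔ (A ⊓ Subgroup.centralizer ((⁅V, A⁆ : Subgroup G) : Set G))⁆ =
      ⁅V, A ⊓ Subgroup.centralizer ((⁅V, A⁆ : Subgroup G) : Set G)⁆ := by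
    rw [sup_comm]
    exact H4.commutator_sup_centralizer (H4.le_centralizer_of_le_comm hV.1 hX le_rfl)
      (H4.le_normalizer_of_le_comm hV.1 hX (Subgroup.commutator_le_left _ _))
  refine ⟨h1.1, ?_, fun h => e1 ▸ h2.2.2 h⟩
  rw [e1, Subgroup.commutator_eq_bot_iff_le_centralizer]
  exact ((Subgroup.commutator_mono le_rfl inf_le_left).trans le_sup_left).trans
    (H4.comm_le_centralizer h1.1.2.1.1)

end Cfsg.Agent.S0607
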