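import Cfsg.Statements.S0609
import Cfsg.Agent.H4.FFD

set_option autoImplicit false
open Cfsg

namespace Cfsg.Agent.S0609

open Subgroup H26 H4


/-- Thompson factorizability passes to and from the quotient by the largest normal subgroup of order prime to p. -/
theorem result {G : Type*} [Group G] [Finite G] {p : ℕ} [Fact p.Prime] : Cfsg.IsThompsonFactorizable p G ↔ Cfsg.IsThompsonFactorizable p (G ⧸ Cfsg.pPrimeCore p G) := by
  have hc : (Nat.card (pPrimeCore p G)).Coprime p := H1.coprime_card_pPrimeCore p G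
  have key : ∀ S : Sylow p G, (𝐂 (omegaOne p ((S : Subgroup G) ⊓ 𝐂 (S : Subgroup G)))).map (QuotientGroup.mk' _) =
      𝐂 (omegaOne p ((S : Subgroup G).map (QuotientGroup.mk' (pPrimeCore p G)) ⊓
        𝐂 ((S : Subgroup G).map (QuotientGroup.mk' (pPrimeCore p G))))) ∧
      (𝐍 (thompsonSubgroupOf p (S : Subgroup G))).map (QuotientGroup.mk' _) =
        𝐍 (thompsonSubgroupOf p ((S : Subgroup G).map (QuotientGroup.mk' (pPrimeCore p G)))) := fun S => by
    have h1 : (S : Subgroup G) ⊓ (QuotientGroup.mk' (pPrimeCore p G)).ker = ⊥ := by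
      rw [QuotientGroup.ker_mk', inf_pPrimeCore_eq_bot S.isPGroup']
    rw [map_mk'_centralizer_of_coprime (S.isPGroup'.to_le ((omegaOne_le _ _).trans inf_le_left)) hc,
      map_mk'_normalizer_of_coprime (S.isPGroup'.to_le (thompsonOf_le _ _)) hc, map_thompsonOf_of_disjoint h1,
      ← map_center_of_disjoint h1]
    refine ⟨?_, rfl⟩
    have h2 := injective_comp_subtype h1
    have e : (S : Subgroup G) ⊓ 𝐂 (S : Subgroup G) = (center S).map (S : Subgroup G).subtype := (map_subtype_center _).symm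
    rw [e, ← map_omegaOne (subtype_injective _), map_map, map_map, map_omegaOne h2]
  refine ⟨fun h T g => ?_, fun h S g => ?_⟩
  · obtain ⟨S, hS, e⟩ := IsSyl.exists_map_eq (H := ⊤) (QuotientGroup.mk' (pPrimeCore p G))
      ((map_mk'_top (pPrimeCore p G)).symm ▸ isSyl_top T)
    obtain ⟨g, rfl⟩ := QuotientGroup.mk'_surjective _ g
    obtain ⟨x, hx, c, h1, n, h2, rfl⟩ := h hS.toSylow g
    rw [← e]
    exact ⟨1, one_mem _, _, (key hS.toSylow).1.le (mem_map_of_mem _ h1), _, (key hS.toSylow).2.le (mem_map_of_mem _ h2),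
      by rw [map_mul, map_mul, show QuotientGroup.mk' _ x = 1 from (QuotientGroup.eq_one_iff x).2 hx]⟩
  · obtain ⟨x, hx, _, h1, _, h2, e⟩ := h (map_mk'_top (pPrimeCore p G) ▸ (isSyl_top S).map _).toSylow (QuotientGroup.mk' _ g)
    obtain ⟨c, h3, rfl⟩ := (key S).1.ge h1
    obtain ⟨n, h4, rfl⟩ := (key S).2.ge h2
    rw [(H1.pPrimeCore_quotient_eq_bot p G).le hx] at e
    exact ⟨g * n⁻¹ * c⁻¹, (QuotientGroup.eq_one_iff _).1 (show QuotientGroup.mk' _ _ = 1 by
      rw [map_mul, map_mul, e, map_inv, map_inv]; group), c, h3, n, h4,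
      by group⟩

end Cfsg.Agent.S0609
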