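import Cfsg.Statements.S0617
import Cfsg.Agent.H4.FF

set_option autoImplicit false
open Cfsg

namespace Cfsg.Agent.S0617

open Subgroup H26 H4


/-- Structure Theorem for failure of factorization: a faithful group generated by best offenders, with self-centralizing p'-core, is a direct product of copies of SL(2, p) (p = 2 or 3), each acting on its own plane in V, which is the direct product of these planes and C_V(H). -/
theorem result {G : Type*} [Group G] [Finite G] {p : ℕ} [Fact p.Prime] (V H : Subgroup G) (hV : Cfsg.IsElementaryAbelian p V) (hHV : H ≤ Subgroup.normalizer (V : Set G)) (hf : H ⊓ Subgroup.centralizer (V : Set G) = ⊥) (hS1 : Subgroup.centralizer (Cfsg.pPrimeCore p ↥H : Set ↥H) ≤ Cfsg.pPrimeCore p ↥H) (hS3 : H = ⨆ A : {A : Subgroup G // A ≤ H ∧ Cfsg.IsBestOffenderOn p V A}, (A : Subgroup G)) (hH1 : H ≠ ⊥) : (p = 2 ∨ p = 3) ∧ (∀ E :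 {E : Subgroup G // ∃ A : Subgroup G, A ≤ H ∧ Cfsg.IsBestOffenderOn p V A ∧ ⁅V, A⁆ ≠ ⊥ ∧ (∀ B : Subgroup G, B ≤ A → Cfsg.IsBestOffenderOn p V B → ⁅V, B⁆ ≠ ⊥ → B = A) ∧ E = ⁅((Cfsg.pPrimeCore p ↥H).map H.subtype), A⁆ ⊔ A}, H ≤ Subgroup.normalizer ((E : Subgroup G) : Set G) ∧ Nonempty (↥(E : Subgroup G) ≃* Matrix.SpecialLinearGroup (Fin 2) (ZMod p)) ∧ Nat.card ↥(⁅V, (E : Subgroup G)⁆) = p ^ 2) ∧ iSupIndep (fun E : {E : Subgroup G // ∃ A : Subgroup G, A ≤ H ∧ Cfsg.IsBestOffenderOn p V A ∧ ⁅V, A⁆ ≠ ⊥ ∧ (∀ B : Subgroup G, B ≤ A → Cfsg.IsBestOffenderOn p V B → ⁅V, B⁆ ≠ ⊥ → B = A) ∧ E = ⁅((Cfsg.pPrimeCore p ↥H).map H.subtype), A⁆ ⊔ A} => (E : Subgroup G)) ∧ (⨆ E : {E : Subgroup G // ∃ A : Subgroup G, A ≤ H ∧ Cfsg.IsBestOffenderOn p V A ∧ ⁅V, A⁆ ≠ ⊥ ∧ (∀ B : Subgroup G, B ≤ A → Cfsg.IsBestOffenderOn p V B → ⁅V, B⁆ ≠ ⊥ → B = A) ∧ E = ⁅((Cfsg.pPrimeCore p ↥H).map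 H.subtype), A⁆ ⊔ A}, (E : Subgroup G)) = H ∧ iSupIndep (fun o : Option {E : Subgroup G // ∃ A : Subgroup G, A ≤ H ∧ Cfsg.IsBestOffenderOn p V A ∧ ⁅V, A⁆ ≠ ⊥ ∧ (∀ B : Subgroup G, B ≤ A → Cfsg.IsBestOffenderOn p V B → ⁅V, B⁆ ≠ ⊥ → B = A) ∧ E = ⁅((Cfsg.pPrimeCore p ↥H).map H.subtype), A⁆ ⊔ A} => o.elim (V ⊓ Subgroup.centralizer (H : Set G)) (fun E => ⁅V, (E : Subgroup G)⁆)) ∧ (V ⊓ Subgroup.centralizer (H : Set G)) ⊔ (⨆ E : {E : Subgroup G // ∃ A : Subgroup G, A ≤ H ∧ Cfsg.IsBestOffenderOn p V A ∧ ⁅V, A⁆ ≠ ⊥ ∧ (∀ B : Subgroup G, B ≤ A → Cfsg.IsBestOffenderOn p V B → ⁅V, B⁆ ≠ ⊥ → B = A) ∧ E = ⁅((Cfsg.pPrimeCore p ↥H).map H.subtype), A⁆ ⊔ A}, ⁅V, (E : Subgroup G)⁆) = V := by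
  have h := FF.of hV hHV hf hS1
  have g := h.gen_of_best hS3.le
  set X := {E : Subgroup G // ∃ A : Subgroup G, A ≤ H ∧ Cfsg.IsBestOffenderOn p V A ∧ ⁅V, A⁆ ≠ ⊥ ∧
    (∀ B : Subgroup G, B ≤ A → Cfsg.IsBestOffenderOn p V B → ⁅V, B⁆ ≠ ⊥ → B = A) ∧
    E = ⁅((Cfsg.pPrimeCore p ↥H).map H.subtype), A⁆ ⊔ A}
  have h1 : ∀ E : X, ∃ A ≤ H, Tv p V A ∧ E = ffE p H A := fun ⟨E, A, a, b, c, d, e⟩ => ⟨A, a, h.tv_of_min a b c d, e⟩
  have h2 : ∀ A ≤ H, Tv p V A → ∃ E : X, E = ffE p H A := fun A a t =>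
    ⟨⟨_, A, a, t.best hV.1 (a.trans hHV), t.comm_ne_bot, fun B b _ c => t.min B b c, rfl⟩, rfl⟩
  have h3 : ∀ E F : X, F ≠ E → (F : Subgroup G) ≤ 𝐂 ⁅V, (E : Subgroup G)⁆ := fun E F hne => by
    obtain ⟨A, a, t, e⟩ := h1 E
    obtain ⟨B, b, s, f⟩ := h1 F
    rw [e, f]
    exact (h.eq_or_le_centralizer' g a t b s).resolve_left fun k => hne (Subtype.ext (by rw [e, f, k]))
  have h4 : ⨆ E : X, ⁅V, (E : Subgroup G)⁆ = ⁅V, H⁆ := le_antisymm (iSup_le fun E => by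
      obtain ⟨A, a, t, e⟩ := h1 E
      exact commutator_mono le_rfl (e.trans_le (FF.ffE_le a)))
    ((h.commutator_eq_sSup g).trans_le (sSup_le fun W ⟨A, a, t, e⟩ => by
      obtain ⟨E, f⟩ := h2 A a t
      exact le_iSup_of_le E (by rw [e, f])))
  refine ⟨?_, fun E => ?_, fun E => ?_, le_antisymm (iSup_le fun E => ?_) (g.trans (sSup_le fun A hA => ?_)), fun o => ?_,
    h4 ▸ h.span_top g⟩
  · by_contra h5
    exact hH1 (eq_bot_iff.2 (g.trans (sSup_le fun T hT => (h5 (h.two_or_three hT.1 hT.2)).elim)))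
  · obtain ⟨A, a, t, e⟩ := h1 E
    rw [e]
    exact ⟨h.le_normalizer_ffE g a t, (h.natSL a t).nonempty_equiv (h.inf_ffE a t), (h.natSL a t).card⟩
  · refine Disjoint.mono_right (iSup₂_le (h3 E)) (disjoint_iff.2 ?_)
    obtain ⟨A, a, t, e⟩ := h1 E
    simp only [e, h.inf_ffE a t]
  · obtain ⟨A, a, t, e⟩ := h1 E
    exact e.trans_le (FF.ffE_le a)
  · obtain ⟨E, e⟩ := h2 A hA.1 hA.2
    exact le_iSup_of_le E (le_sup_right.trans e.ge)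
  cases o with
  | none =>
    refine Disjoint.mono_right (iSup₂_le fun o ho => ?_) (disjoint_iff.2 (h.disj_top g))
    cases o with
    | none => exact (ho rfl).elim
    | some E => exact (le_iSup (fun E : X => ⁅V, (E : Subgroup G)⁆) E).trans h4.le
  | some E =>
    obtain ⟨A, a, t, e⟩ := h1 E
    refine Disjoint.mono_right (c := 𝐂 (E : Subgroup G)) (iSup₂_le fun o ho => ?_) (disjoint_iff.2 ?_)
    · cases o with
      | none => exact inf_le_right.trans (centralizer_anti (e.trans_le (FF.ffE_le a)))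
      | some F => exact le_centralizer_iff.1 (h3 F E fun k => ho (by rw [k]))
    · simp only [Option.elim, e, h.disj a t]

end Cfsg.Agent.S0617
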