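import Cfsg.Statements.S0619
import Cfsg.Agent.H4.FFD

set_option autoImplicit false
open Cfsg

namespace Cfsg.Agent.S0619

open Subgroup H26 H4


/-- For a p-separable group and a normal elementary abelian p-subgroup V with no nontrivial normal p-subgroup modulo its centralizer C, the Thompson subgroup J(G) moves Ω₁(Z(J(C))) only inside V. -/
theorem result {G : Type*} [Group G] [Finite G] {p : ℕ} [Fact p.Prime] (hsep : Cfsg.IsPSolvable p G) (V : Subgroup G) [V.Normal] (hV : Cfsg.IsElementaryAbelian p V) (hO : Cfsg.pCore p (G ⧸ Subgroup.centralizer (V : Set G)) = ⊥) : ⁅Cfsg.omegaOne p (Cfsg.centerThompsonOf p (Subgroup.centralizer (V : Set G))), Cfsg.thompsonSubgroup p G⁆ ≤ V := by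
  have hn : ∀ X : Subgroup G, X ≤ 𝐍 V := fun X => le_normalizer_of_normal
  have h := FFD.of_mF hV (hn _) (ffd_thompson hV le_top (hn _) (isPSolvable_iff.1 hsep) fun K _ h1 =>
    pCore_quotient_eq_bot_iff.1 hO K (normal_of_top_le_normalizer h1))
  rw [← thompsonOf_top, thompsonOf_eq, commutator_comm, ← sInf_maxEA]
  refine commutator_sSup_le (fun A hA => ?_) fun _ _ => hn _
  have h1 := h.card A (le_sup_of_le_left (MaxEA.le_thompsonOf hA)) (MaxEA.isBestOffenderOn hA le_top hV)
  have h2 := card_sup_mul_card_inf (hn (A ⊓ 𝐂 V))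
  have h3 : A ⊓ 𝐂 V ⊓ V = V ⊓ 𝐂 A := by
    rw [MaxEA.inf_centralizer_eq hA le_top hV, inf_assoc, inf_eq_right.2 (elemAb_le_centralizer hV), inf_comm]
  rw [h3, mul_comm _ (Nat.card V), ← h1] at h2
  have h4 := MaxEA.of_le (MaxEA.of_card_ge hA le_top (elemAb_sup (elemAb_mono hA.2.1 inf_le_left) hV inf_le_right)
    (Nat.eq_of_mul_eq_mul_right (card_pos' _) h2).ge) (sup_le inf_le_right (elemAb_le_centralizer hV)) le_top
  exact (commutator_mono le_rfl (sInf_le h4)).trans (commutator_sup_le' ((commutator_eq_bot_iff'.2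
    (inf_le_left.trans (elemAb_le_centralizer hA.2.1))).trans_le bot_le) (commutator_le_right _ _) (hn _) (hn _))

end Cfsg.Agent.S0619
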