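import Cfsg.Statements.S0621
import Cfsg.Agent.H4.FFD
import Cfsg.Agent.H26.Amalgam

set_option autoImplicit false
open Cfsg

namespace Cfsg.Agent.S0621

open Subgroup H26 H4


/-- Let K be p-separable with O_p'(K) = 1, normalized by an elementary abelian q-group X for a prime q not dividing the order of K. If the Thompson factorization fails in K, then p is 2 or 3 and the fixed points of X contain a plane W of order p² and a subgroup inducing SL(2, p) on it. -/
theorem result {G : Type*} [Group G] [Finite G] {p : ℕ} [Fact p.Prime] {q : ℕ} [Fact q.Prime] (K X : Subgroup G) (hXK : X ≤ Subgroup.normalizer (K : Set G)) (hX : Cfsg.IsElementaryAbelian q X) (hq : ¬ q ∣ Nat.card K) (hsep : Cfsg.IsPSolvable p ↥K) (hO : Cfsg.pPrimeCore p ↥K = ⊥) (hnf : ¬ Cfsg.IsThompsonFactorizable p ↥K) : (p = 2 ∨ p = 3) ∧ ∃ W D : Subgroup G, W ≤ K ⊓ Subgroup.centralizer (X : Set G) ∧ D ≤ K ⊓ Subgroup.centralizer (X : Set G) ∧ Cfsg.IsElementaryAbelian p W ∧ Nat.card W = p ^ 2 ∧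 D ≤ Subgroup.normalizer (W : Set G) ∧ ∃ hn : ((Subgroup.centralizer (W : Set G)).subgroupOf D).Normal, Nonempty ((↥D ⧸ (Subgroup.centralizer (W : Set G)).subgroupOf D) ≃* Matrix.SpecialLinearGroup (Fin 2) (ZMod p)) := by
  have hs := isPSolvable_subgroup_iff.1 hsep
  have r := (hs.charPOf (by rw [H17.oQ, hO, Subgroup.map_bot])).pRed_sylowCenterClosure
  rw [factorizable_iff' hO] at hnf
  set V := sylowCenterClosure p K
  have h1 : thompsonSubgroupOf p K ⊔ K ⊓ 𝐂 V ≤ K := sup_le (thompsonOf_le _ _) inf_le_left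
  have h2 : 𝐍 K ≤ 𝐍 V := normalizer_le_normalizer_sylowCenterClosure p K
  have h3 : 𝐍 K ≤ 𝐍 (thompsonSubgroupOf p K ⊔ K ⊓ 𝐂 V) := le_normalizer_sup (normalizer_le_normalizer_thompsonOf _ _)
    (le_normalizer_inf le_rfl (le_normalizer_centralizer h2))
  have h := ffd_thompson r.elemAb r.le r.norm hs r.red
  have h' := FFD.of_mF r.elemAb (h1.trans r.norm) h
  have hc := (H17.coprime_card_of_pgroup (elemAb_isPGroup hX) hq).coprime_dvd_right (card_dvd_of_le h1)
  obtain ⟨W, hW⟩ := h'.nonempty fun h1 => hnf (le_sup_left.trans h1)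
  obtain ⟨U, h4, h5⟩ := h'.exists_natSL (hXK.trans h2) (hXK.trans h3) hc hW (le_inf_centralizer_sup (h1.trans r.norm) h
    (hXK.trans h2) (hXK.trans h3) hc (H1.isSolvable_of_isPGroup (elemAb_isPGroup hX)) hW)
  exact ⟨h'.two_or_three W hW, U, _, h4.trans (inf_le_inf_right _ r.le), inf_le_inf_right _ h1, h5.elemAb, h5.card,
    h5.le_normalizer, h5.nonempty_quotient⟩

end Cfsg.Agent.S0621
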