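import Cfsg.Statements.S0629
import Cfsg.Agent.H4.PSol2

set_option autoImplicit false
open Cfsg

namespace Cfsg.Agent.S0629

open Subgroup H26 H4


/-- A group in which the centralizer of a Sylow p-subgroup of O_{p',p}(G) is p-solvable is p-constrained. -/
theorem result {G : Type*} [Group G] [Finite G] {p : ℕ} [Fact p.Prime] (P : Sylow p ↥(Cfsg.pPrimePCore p G)) (hsol : Cfsg.IsPSolvable p ↥(Subgroup.centralizer (((P : Subgroup ↥(Cfsg.pPrimePCore p G)).map (Cfsg.pPrimePCore p G).subtype : Subgroup G) : Set G))) : Cfsg.IsPConstrained p G := by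
  have h1 := (isPSolvable_subgroup_iff.1 hsol).map (QuotientGroup.mk' (pPrimeCore p G))
  rw [map_mk'_centralizer_of_coprime (P.isPGroup'.map _) (H1.coprime_card_pPrimeCore p G),
    H17.IsSyl.map_pPrimePCore (H17.isSyl_map_sylow P)] at h1
  exact isPConstrained_iff.2 (charPOf_of_pLay (pLay_eq_bot_of_le ((H17.pLay_le_oQE p _).trans
    (H17.oQE_le_centralizer_oP _)) h1) (H17.oQ_top_quotient G p))

end Cfsg.Agent.S0629
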