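import Cfsg.Statements.S0631
import Cfsg.Agent.H4.PSol2

set_option autoImplicit false
open Cfsg

namespace Cfsg.Agent.S0631

open Subgroup H26 H4


/-- In a p-constrained group the normalizer and the centralizer of any p-subgroup are again p-constrained. -/
theorem result {G : Type*} [Group G] [Finite G] {p : ℕ} [Fact p.Prime] (hG : Cfsg.IsPConstrained p G) (P : Subgroup G) (hP : IsPGroup p P) : Cfsg.IsPConstrained p ↥(Subgroup.normalizer (P : Set G)) ∧ Cfsg.IsPConstrained p ↥(Subgroup.centralizer (P : Set G)) := by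
  have h := isPConstrained_iff_pLay_top.1 hG
  have h1 := H17.oQE_normalizer_le_oQ h hP le_top
  have h2 := H17.oQE_centralizer_le_oQ h hP le_top
  rw [top_inf_eq] at h1 h2
  exact ⟨isPConstrained_iff_pLay.2 (H17.pLay_eq_bot_of_le ((H17.pLay_le_oQE p _).trans h1) (H17.oQ_not_dvd p _)),
    isPConstrained_iff_pLay.2 (H17.pLay_eq_bot_of_le ((H17.pLay_le_oQE p _).trans h2) (H17.oQ_not_dvd p _))⟩

end Cfsg.Agent.S0631
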