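import Cfsg.Statements.S0632
import Cfsg.Agent.H4.PSol2

set_option autoImplicit false
open Cfsg

namespace Cfsg.Agent.S0632

open Subgroup H26 H4


/-- For a group with a nontrivial normal p-subgroup, p-stability passes to and from the quotient by the largest normal subgroup of order prime to p. -/
theorem result {G : Type*} [Group G] [Finite G] {p : ℕ} [Fact p.Prime] (hO : Cfsg.pCore p G ≠ ⊥) : Cfsg.IsPStable p G ↔ Cfsg.IsPStable p (G ⧸ Cfsg.pPrimeCore p G) := by
  have h : pCore p (G ⧸ pPrimeCore p G) ≠ ⊥ := fun h => hO (le_bot_iff.1 ((le_inf le_rfl (map_mk'_eq_bot.1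
    (le_bot_iff.1 ((H1.map_pCore_le (QuotientGroup.mk'_surjective _)).trans h.le)))).trans
      (H1.pCore_inf_pPrimeCore p G).le))
  rw [isPStable_iff, isPStable_iff_of_eq_bot (H1.pPrimeCore_quotient_eq_bot p G)]
  simp [h, hO]

end Cfsg.Agent.S0632
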