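import Cfsg.Statements.S0633
import Cfsg.Agent.H21.HHD

set_option autoImplicit false
open Cfsg

namespace Cfsg.Agent.S0633

open H18 H21 H21.HB Polynomial

/-- Theorem B of Hall and Higman on the minimal polynomial of a p-element of order p^n in a p-solvable linear group on a nonzero vector space in characteristic p with no nontrivial normal p-subgroup: its degree is p^n, except when some p^n₀ - 1 (n₀ ≤ n) is a power of a prime q for which the Sylow q-subgroups are non-abelian, in which case the degree is at least p^(n-n₀)(p^n₀ - 1). -/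
theorem result {F : Type*} [Field F] {p : ℕ} [Fact p.Prime] [CharP F p] {V : Type*} [AddCommGroup V] [Module F V] [FiniteDimensional F V] [Nontrivial V] (H : Subgroup (V ≃ₗ[F] V)) [Finite H] (hsol : Cfsg.IsPSolvable p H) (hOp : Cfsg.pCore p H = ⊥) (x : V ≃ₗ[F] V) (hx : x ∈ H) (n : ℕ) (hn : orderOf x = p ^ n) (r : ℕ) (hr : minpoly F (x : Module.End F V) = (Polynomial.X - 1) ^ r) : r = p ^ n ∨ ∃ n₀ q m : ℕ, 1 ≤ n₀ ∧ n₀ ≤ n ∧ q.Prime ∧ 1 ≤ m ∧ p ^ n₀ - 1 = q ^ m ∧ (∀ Q : Sylow q H, ¬ IsMulCommutative Q) ∧ p ^ (n - n₀) * (p ^ n₀ - 1) ≤ r := by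
  have hp : p.Prime := Fact.out
  let ρ : H →* Module.End F V := LinearEquiv.automorphismGroup.toLinearMapMonoidHom.comp H.subtype
  obtain ⟨s, s1, s2⟩ := thmB (H := ⊤) (x := ⟨x, hx⟩) (n := n) ρ (fun u _ e => Subtype.ext (LinearEquiv.toLinearMap_injective e))
    (H4.isPSolvable_iff.1 hsol) ((pCore_eq hp).symm.trans hOp) trivial (by rw [Subgroup.orderOf_mk, hn])
  have e1 : s < r := not_le.1 fun c => s1 (pow_eq_zero_of_le c (by
    have := minpoly.aeval F (x : Module.End F V)
    rwa [hr, map_pow, map_sub, aeval_X, map_one] at this))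
  have e2 : r ≤ p ^ n := by
    have : minpoly F (x : Module.End F V) ∣ (X - 1) ^ p ^ n := minpoly.dvd _ _ (by
      rw [map_pow, map_sub, aeval_X, map_one, sub_one_pow (K := F), sub_eq_zero]
      exact (map_pow LinearEquiv.automorphismGroup.toLinearMapMonoidHom x _).symm.trans (by
        rw [← hn, pow_orderOf_eq_one, map_one]))
    rwa [hr, ← C_1, pow_dvd_pow_iff (X_sub_C_ne_zero _) (not_isUnit_X_sub_C _)] at this
  rcases s2 with s2 | ⟨q, n₀, m, U, -, hq, -, u1, u2, a1, a2, a3, a4, a5⟩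
  · exact Or.inl (by omega)
  refine Or.inr ⟨n₀, q, m, a1, a2, hq, a3, a4, fun Q c => u2 ?_, by omega⟩
  obtain ⟨g, -, e⟩ := sylow_le_cj' hq (hall_sylow_top hq Q) u1 le_top
  exact ((abel_of_comm c).cj g).mono e

end Cfsg.Agent.S0633
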