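import Cfsg.Statements.S0642
import Cfsg.Agent.H3.Br

set_option autoImplicit false
open Cfsg

namespace Cfsg.Agent.S0642

/-- Among finite 2-groups the regular ones are exactly the abelian ones. -/
theorem result {G : Type*} [Group G] [Finite G] (hG : IsPGroup 2 G) : Cfsg.IsRegularPGroup 2 G ↔ ∀ a b : G, a * b = b * a := by
  open Subgroup H18 in
  have hP := H3.piTop Nat.prime_two hG
  rw [H3.isRegular_iff Nat.prime_two, and_iff_right hP]
  refine ⟨fun h a b => ?_, fun h => H3.reg_of_abel (H3.abel_top_iff.2 h)⟩
  have hn := (H3.mho_nml (p := 2) (n := 1) (nml_der (H := H3.J2 a b))).norm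
  have h1 := H3.der_J2_le hn (by
    have := conj_mem hn (mul_mem (mul_mem H3.right_mem_J2 H3.left_mem_J2) H3.right_mem_J2)
      (inv_mem (h a (mem_top a) b (mem_top b)))
    convert this using 1
    simp only [commutatorElement_def, sq]; group)
  refine comm_of_cent (abel_iff_der.2 ?_) H3.left_mem_J2 H3.right_mem_J2
  by_contra h0
  exact (H3.phi_lt h0).not_ge (h1.trans (H3.mho_le_phi Nat.prime_two (hP.of_le le_top)))

end Cfsg.Agent.S0642
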