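import Cfsg.Statements.S0643
import Cfsg.Agent.H3.Br

set_option autoImplicit false
open Cfsg

namespace Cfsg.Agent.S0643

/-- Kemhadze's criterion: a finite p-group is regular exactly when (ab)^p = a^p b^p c^p always holds for some c in the derived subgroup of the subgroup generated by a and b. -/
theorem result {G : Type*} [Group G] [Finite G] {p : ℕ} [Fact p.Prime] (hG : IsPGroup p G) : Cfsg.IsRegularPGroup p G ↔ ∀ a b : G, ∃ c ∈ ⁅Subgroup.closure ({a, b} : Set G), Subgroup.closure ({a, b} : Set G)⁆, (a * b) ^ p = a ^ p * b ^ p * c ^ p := by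
  open Subgroup H18 in
  have hp' : p.Prime := Fact.out
  have hP := H3.piTop hp' hG
  rw [H3.isRegular_iff hp', and_iff_right hP]
  simp only [H3.closure_pair]
  refine ⟨fun h a b => ?_, fun h a _ b _ => ?_⟩
  · obtain ⟨c, hc, e⟩ := (h.mono le_top).exists_pow hp' (hP.of_le le_top) (h a (mem_top a) b (mem_top b))
    exact ⟨c, hc, inv_mul_eq_iff_eq_mul.1 e⟩
  · obtain ⟨c, hc, e⟩ := h a b
    rw [e, inv_mul_cancel_left]; exact H3.pow_mem_mho1 hc

end Cfsg.Agent.S0643
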