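import Cfsg.Statements.S0645
import Cfsg.Agent.H3.Br

set_option autoImplicit false
open Cfsg

namespace Cfsg.Agent.S0645

/-- Classification of p-groups with a cyclic maximal subgroup, odd p: a non-abelian one of order p^n has generators a of order p^(n-1) and b of order p, b outside the cyclic subgroup generated by a, with b a b⁻¹ = a^(1 + p^(n-2)). -/
theorem result {G : Type*} [Group G] [Finite G] {p : ℕ} [Fact p.Prime] (hp : p ≠ 2) (n : ℕ) (hn : 3 ≤ n) (hG : Nat.card G = p ^ n) (C : Subgroup G) (hC : IsCyclic C) (hCi : C.index = p) (hna : ∃ x y : G, x * y ≠ y * x) : ∃ a b : G, orderOf a = p ^ (n - 1) ∧ orderOf b = p ∧ b ∉ Subgroup.zpowers a ∧ b * a * b⁻¹ = a ^ (1 + p ^ (n - 2)) := by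
  open Subgroup H18 in
  open scoped commutatorElement in
  have hp' : p.Prime := Fact.out
  have hP : PiGrp {p} (⊤ : Subgroup G) := piGrp_of_card_pow hp' (card_top.trans hG)
  have hab : ¬ Abel (⊤ : Subgroup G) := fun h => by
    obtain ⟨x, y, e⟩ := hna; exact e (H3.abel_top_iff.1 h x y)
  have hi : C.relIndex ⊤ = p := by rwa [relIndex_top_right]
  have hO := H3.ohm_extremal_odd hp' hP (H3.odd_of_piGrp hp' hp hP) (fun h => hab h.abel) le_top hC hi
  have nC := H3.nml_of_relIndex_prime hp' hP le_top hi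
  obtain ⟨a, rfl⟩ := Cyc.gen hC
  obtain ⟨n, rfl⟩ := Nat.exists_eq_add_of_le' hn
  have ha : orderOf a = p ^ (n + 2) := by
    have := card_mul_relIndex (le_top : zpowers a ≤ ⊤)
    rw [hi, card_top, hG, card_zpowers', pow_succ] at this
    exact Nat.eq_of_mul_eq_mul_right hp'.pos this
  obtain ⟨b, hb, hba⟩ := SetLike.not_le_iff_exists.1 fun h : Ω[p]((⊤ : Subgroup G)) ≤ zpowers a =>
    hO.not_cyc hp' le_rfl (cyc_zpowers.of_le h)
  have hz : orderOf (a ^ p ^ (n + 1)) = p := by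
    rw [orderOf_pow_of_dvd (pow_pos hp'.pos _).ne' (ha ▸ pow_dvd_pow p (by omega)), ha, pow_succ,
      Nat.mul_div_cancel_left _ (pow_pos hp'.pos _)]
  have h1 : ⁅b, a⁆ ∈ zpowers a := comm_le_right nC.norm (commutator_mem_commutator (mem_top b) (mem_zpowers a))
  have h2 : ⁅b, a⁆ ∈ Ω[p]((⊤ : Subgroup G)) :=
    comm_le_left (H3.norm_ohm le_N) (commutator_mem_commutator hb (mem_top a))
  have h3 : ⁅b, a⁆ ≠ 1 := fun e => hab (by
    rw [← H3.sup_zpowers_eq_of_prime (hi ▸ hp') le_top (mem_top b) hba]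
    exact H3.abel_J2 (commutatorElement_eq_one_iff_mul_comm.1 e).symm)
  obtain ⟨m, hm⟩ := H3.mem_zpowers_nat (x := ⁅b, a⁆) (H3.cyc_le_of_card_dvd cyc_zpowers
    (zpowers_le.2 (pow_mem (mem_zpowers a) (p ^ (n + 1)))) (zpowers_le.2 h1) (by
      rw [card_zpowers', card_zpowers', hz, hO.elem.orderOf hp' h2 h3]) (mem_zpowers _))
  rw [← H3.comm_pow_left (comm_of_cent hO.abel hb h2)] at hm
  have h4 : b ^ m ≠ 1 := fun e => hp'.ne_one (by rw [← hz, hm, e, commutatorElement_one_left, orderOf_one])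
  refine ⟨a, b ^ m, ha, hO.elem.orderOf hp' (pow_mem hb m) h4, fun h => hba (H3.mem_of_pow_mem
    (hP.elt (mem_top b)) hp' (fun ⟨k, hk⟩ => h4 (by rw [hk, pow_mul, hO.elem.pow b hb, one_pow])) h), ?_⟩
  rw [show n + 3 - 2 = n + 1 from rfl, add_comm, pow_succ, hm, commutatorElement_def, inv_mul_cancel_right]

end Cfsg.Agent.S0645
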