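import Cfsg.Statements.S0646
import Cfsg.Agent.H9.MaxClass

set_option autoImplicit false
open Cfsg

namespace Cfsg.Agent.S0646

/-- Classification of non-abelian 2-groups with a cyclic maximal subgroup: dihedral, generalized quaternion, and for order at least 16 the modular group and the semidihedral group, each given by generators a (of index 2) and b with the stated relations. -/
theorem result {G : Type*} [Group G] [Finite G] (n : ℕ) (hn : 3 ≤ n) (hG : Nat.card G = 2 ^ n) (C : Subgroup G) (hC : IsCyclic C) (hCi : C.index = 2) (hna : ∃ x y : G, x * y ≠ y * x) : ∃ a b : G, orderOf a = 2 ^ (n - 1) ∧ b ∉ Subgroup.zpowers a ∧ ((b ^ 2 = 1 ∧ b * a * b⁻¹ = a⁻¹) ∨ (b ^ 2 = a ^ (2 ^ (n - 2)) ∧ b * a * b⁻¹ = a⁻¹) ∨ (4 ≤ n ∧ b ^ 2 = 1 ∧ b * a * b⁻¹ = a ^ (1 + 2 ^ (n - 2))) ∨ (4 ≤ n ∧ b ^ 2 = 1 ∧ b * a * b⁻¹ = a ^ (2 ^ (n - 2) - 1))) := by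
  obtain ⟨m, rfl⟩ : ∃ m, n = m + 3 := ⟨n - 3, by omega⟩
  obtain ⟨x, y, hxy⟩ := hna
  obtain ⟨k, a, -, h | ⟨b, h⟩⟩ := H9.mc_or_mod_of_cyclic ((IsPGroup.of_card hG).to_subgroup ⊤) hC le_top
    ((Subgroup.relIndex_top_right _).trans hCi) fun h => hxy (H1.isMulCommutative_iff.1 h x trivial y trivial)
  · obtain rfl : m = k := by
      have := Nat.pow_right_injective le_rfl (hG.symm.trans (Subgroup.card_top.symm.trans h.card_eq))
      omega
    obtain ⟨b, hb, hb'⟩ := h.exists_out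
    rcases h.cases with h1 | h1 | ⟨h1, h2⟩
    · exact ⟨a, b, h.ordx, hb', Or.inl ⟨(pow_two b).trans (h1 b hb hb'),
        h.inverts_of_sq_const h1 hb hb' (Subgroup.mem_zpowers a)⟩⟩
    · exact ⟨a, b, h.ordx, hb', Or.inr (Or.inl ⟨(pow_two b).trans (h1 b hb hb'),
        h.inverts_of_sq_const h1 hb hb' (Subgroup.mem_zpowers a)⟩)⟩
    · obtain ⟨b, hb, hb', h3⟩ := h.sd_exists h2
      refine ⟨a, b, h.ordx, hb', Or.inr (Or.inr (Or.inr ⟨by omega, (pow_two b).trans h3, ?_⟩))⟩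
      change _ = a ^ (2 ^ (m + 1) - 1)
      rw [h2 b hb hb', inv_mul_eq_iff_eq_mul, ← pow_succ', Nat.sub_add_cancel Nat.one_le_two_pow]
  · obtain rfl : m = k := by
      have := Nat.pow_right_injective le_rfl (hG.symm.trans (Subgroup.card_top.symm.trans h.card_eq))
      omega
    exact ⟨a, b, h.ordx, h.bnot, Or.inr (Or.inr (Or.inl ⟨by have := h.pos; omega,
      (pow_two b).trans h.bsq, h.act.trans (by rw [pow_add a 1, pow_one]; rfl)⟩))⟩

end Cfsg.Agent.S0646
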