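import Cfsg.Statements.S0658
import Cfsg.Agent.H4.PSol2

set_option autoImplicit false
open Cfsg

namespace Cfsg.Agent.S0658

open Subgroup H26 H4


/-- In a group of characteristic p type all of whose p-locals are p-stable (p odd), the normalizer of Z(J(P)) contains the normalizer of every nontrivial subgroup of the Sylow p-subgroup P. -/
theorem result {G : Type*} [Group G] [Finite G] {p : ℕ} [Fact p.Prime] (hp : p ≠ 2) (hloc : ∀ Q : Subgroup G, IsPGroup p Q → Q ≠ ⊥ → Cfsg.pPrimeCore p ↥(Subgroup.normalizer (Q : Set G)) = ⊥ ∧ Cfsg.IsPConstrained p ↥(Subgroup.normalizer (Q : Set G)) ∧ Cfsg.IsPStable p ↥(Subgroup.normalizer (Q : Set G))) (P : Sylow p G) (Q : Subgroup G) (hQP : Q ≤ (P : Subgroup G)) (hQ1 : Q ≠ ⊥) : Subgroup.normalizer (Q : Set G) ≤ Subgroup.normalizer (Cfsg.centerThompsonAOf ((P : Subgroup G)) : Set G) := by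
  rw [centerThompsonAOf_eq]
  refine (le_inf le_top le_rfl).trans (normalizer_le_of_local (isSyl_top P) (centerThompsonOf 0) (centerThompsonOf_le 0)
    (fun R h1 h2 => centerThompsonOf_ne_bot h1 h2 (dvd_zero p)) (normalizer_le_normalizer_centerThompsonOf 0)
    (fun Q R h1 h2 _ h3 => ?_) hQP hQ1)
  obtain ⟨h4, h5, h6⟩ := hloc Q h1 h2
  rw [top_inf_eq] at h3 ⊢
  refine zj hp (Or.inl rfl) h3 ?_ (pStab_iff_top.2 ((isPStable_iff_of_eq_bot h4).1 h6).2.2)
  exact charPOf_iff.2 (charPOf_top.1 ((isPConstrained_iff_of_eq_bot h4).1 h5))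

end Cfsg.Agent.S0658
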