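import Cfsg.Statements.S0663
import Cfsg.Agent.H3.MaxCl

set_option autoImplicit false
open Cfsg

namespace Cfsg.Agent.S0663

/-- A p-group acts uniserially on a p-group N of order p^n exactly when the iterated commutator chain from N has length n; in that case the chain terms are all the invariant subgroups of N and they are normal in N. -/
theorem result {L : Type*} [Group L] [Finite L] {p : ℕ} [Fact p.Prime] (N G : Subgroup L) (hN : IsPGroup p N) (hG : IsPGroup p G) (hGN : G ≤ Subgroup.normalizer (N : Set L)) (n : ℕ) (hn : Nat.card N = p ^ n) : ((∀ H : Subgroup L, H ≤ N → G ≤ Subgroup.normalizer (H : Set L) → H ≠ ⊥ → (⁅H, G⁆).relIndex H = p) ↔ Cfsg.iterCommutator N G (n - 1) ≠ ⊥ ∨ n = 0) ∧ ((∀ H : Subgroup L, H ≤ N → G ≤ Subgroup.normalizer (H : Set L) → H ≠ ⊥ → (⁅H, G⁆).relIndex H = p) → ∀ H : Subgroup L, H ≤ N → G ≤ Subgroup.normalizer (H : Set L) → (∃ i ≤ n, H = Cfsg.iterCommutator N G i) ∧ N ≤ Subgroup.normalizer (H : Set L))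 := by
  have hp : p.Prime := Fact.out
  have h1 := H18.piGrp_of_isPGroup hp hN
  have h2 := H18.piGrp_of_isPGroup hp hG
  refine ⟨H3.uni_iff h1 h2 hGN hp hn, fun h H h3 h4 => ?_⟩
  rcases n with _ | n
  · obtain rfl := Subgroup.card_eq_one.1 hn
    obtain rfl := le_bot_iff.1 h3
    exact ⟨⟨0, le_rfl, rfl⟩, bot_le⟩
  have h5 := ((H3.uni_iff h1 h2 hGN hp hn).1 h).resolve_right n.succ_ne_zero
  obtain ⟨i, j, hij, -, e⟩ := H3.uni_exists h1 h2 hGN hp hn h5 h3 h4
  exact ⟨⟨i, by omega, e⟩, H3.uni_norm h1 h2 hGN hp hn h5 h3 h4⟩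

end Cfsg.Agent.S0663
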