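import Cfsg.Statements.S0666
import Cfsg.Agent.H21.FrobB
import Cfsg.Agent.H1.BG3a

set_option autoImplicit false
open Cfsg

namespace Cfsg.Agent.S0666

open Subgroup H18


/-- A Frobenius group acting on a nontrivial abelian group of order prime to that of its kernel, with the kernel acting without nontrivial fixed points, has a complement with a nontrivial fixed point. -/
theorem result {G : Type*} [Group G] [Finite G] (V F : Subgroup G) (hVab : IsMulCommutative V) (hV1 : V ≠ ⊥) (hFV : F ≤ Subgroup.normalizer (V : Set G)) (H : Subgroup ↥F) (hH : Cfsg.IsFrobeniusComplement H) (hcop : (Nat.card V).Coprime (Nat.card (Cfsg.frobeniusKernel H))) (hCK : V ⊓ Subgroup.centralizer (Subtype.val '' Cfsg.frobeniusKernel H : Set G) = ⊥) : V ⊓ Subgroup.centralizer ((H.map F.subtype : Subgroup G) : Set G) ≠ ⊥ := by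
  intro h0
  obtain ⟨K, eK, hf⟩ := H21.exists_frob hH
  obtain ⟨k, hk, hkV⟩ := Nat.exists_prime_and_dvd (mt card_eq_one.1 hV1)
  have hab := abel_of_comm hVab
  have hcK : Nat.card K = Nat.card (Cfsg.frobeniusKernel H) := by
    change Nat.card (K : Set G) = _
    rw [eK, Nat.card_image_of_injective Subtype.val_injective]
  have hK : PiGrp {k}ᶜ K := by
    refine (piNat_compl_iff hk).2 fun hd => ?_
    rw [hcK] at hd
    exact hk.one_lt.ne' (Nat.eq_one_of_dvd_one (hcop ▸ Nat.dvd_gcd hkV hd))
  have hc : K ≤ C(Ω[k](V)) := H1.Frobenius_rfix_compl hk hf hab.omega_elem (norm_omega hFV) hK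
    (le_bot_iff.1 ((inf_le_inf_right _ omega_le).trans h0.le))
  refine omega_ne_bot hk hkV (le_bot_iff.1 ?_)
  rw [← hCK, ← eK]
  exact le_inf omega_le (cent_symm hc)

end Cfsg.Agent.S0666
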