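import Cfsg.Statements.S0668


set_option autoImplicit false
open Cfsg

namespace Cfsg.Agent.S0668


/-- The equivariant linear maps between the permutation modules of two finite `G`-sets form a space whose dimension is the number of `G`-orbits on the product of the two sets. -/
theorem result {G : Type*} [Group G] {K : Type*} [Field K] {Ω₁ Ω₂ : Type*} [Fintype Ω₁] [Fintype Ω₂] [MulAction G Ω₁] [MulAction G Ω₂] : Module.finrank K ((Cfsg.permRep K G Ω₁).linHom (Cfsg.permRep K G Ω₂)).invariants = Nat.card (MulAction.orbitRel.Quotient G (Ω₁ × Ω₂)) := by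
  classical
  have := Fintype.ofFinite (MulAction.orbitRel.Quotient G (Ω₁ × Ω₂))
  have mem : ∀ S, S ∈ ((Cfsg.permRep K G Ω₁).linHom (Cfsg.permRep K G Ω₂)).invariants ↔
      ∀ (g : G) y x, LinearMap.toMatrix' S (g • y) (g • x) = LinearMap.toMatrix' S y x := fun S => by
    have e : ∀ (g : G) x, Cfsg.permRep K G Ω₁ g⁻¹ (Pi.single x 1) = Pi.single (g⁻¹ • x) 1 := fun g x => by
      ext z
      change (Pi.single x 1 : Ω₁ → K) (g⁻¹⁻¹ • z) = _
      simp [Pi.single_apply, eq_inv_smul_iff]
    have : ∀ (g : G) y x, LinearMap.toMatrix' ((Cfsg.permRep K G Ω₁).linHom (Cfsg.permRep K G Ω₂) g S) y x =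
        LinearMap.toMatrix' S (g⁻¹ • y) (g⁻¹ • x) := fun g y x => by
      rw [LinearMap.toMatrix'_apply, LinearMap.toMatrix'_apply, ← e]; rfl
    rw [Representation.mem_invariants]
    exact ⟨fun h g y x => by rw [← inv_inv g, ← this, h], fun h g => LinearMap.toMatrix'.injective
      (Matrix.ext fun y x => by rw [this, h])⟩
  let φ : (MulAction.orbitRel.Quotient G (Ω₁ × Ω₂) → K) →ₗ[K]
      ((Cfsg.permRep K G Ω₁).linHom (Cfsg.permRep K G Ω₂)).invariants :=
    { toFun := fun f => ⟨Matrix.toLin' (Matrix.of fun y x => f (Quotient.mk _ (x, y))), (mem _).2 fun g y x => by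
        simp only [LinearMap.toMatrix'_toLin', Matrix.of_apply]
        exact congrArg f (Quotient.sound ⟨g, rfl⟩)⟩
      map_add' := fun f g => Subtype.ext (map_add Matrix.toLin' _ _)
      map_smul' := fun c f => Subtype.ext (map_smul Matrix.toLin' c _) }
  rw [← (LinearEquiv.ofBijective φ ⟨fun f g h => ?_, fun S => ?_⟩).finrank_eq, Module.finrank_fintype_fun_eq_card,
    Nat.card_eq_fintype_card]
  · ext q
    obtain ⟨⟨x, y⟩, rfl⟩ := Quotient.exists_rep q
    exact congrFun (congrFun (Matrix.toLin'.injective (congrArg Subtype.val h)) y) x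
  · refine ⟨Quotient.lift (fun p => LinearMap.toMatrix' S.1 p.2 p.1) ?_, Subtype.ext ?_⟩
    · rintro _ p ⟨g, rfl⟩
      exact (mem _).1 S.2 g _ _
    · exact Matrix.toLin'_toMatrix' S.1

end Cfsg.Agent.S0668
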