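import Cfsg.Statements.S0673
import Cfsg.Agent.H16.PolyFun

set_option autoImplicit false
open Cfsg

namespace Cfsg.Agent.S0673


/-- In characteristic `p`, the translation-invariant subspaces of the space of functions on `ZMod p` are exactly the spaces of polynomial functions of degree less than `r`, one for each `r ≤ p`, of dimension `r`. -/
theorem result {p : ℕ} [Fact p.Prime] {K : Type*} [Field K] [CharP K p] (W : Submodule K (ZMod p → K)) (hW : ∀ f ∈ W, (fun j => f (j - 1)) ∈ W) : ∃ r : ℕ, r ≤ p ∧ Module.finrank K W = r ∧ ∀ f : ZMod p → K, f ∈ W ↔ ∃ P : Polynomial K, P.degree < r ∧ ∀ j : ZMod p, f j = P.eval (ZMod.cast j : K) := by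
  have hc : Function.Injective (fun j : ZMod p => (ZMod.cast j : K)) :=
    (ZMod.castHom (dvd_refl p) K).injective
  have h := H16.exists_eq_polyFun (p := p) (ZMod.card p) hc (fun j => j - 1) (r := -1)
    (by simp) (fun a => by
      have := map_sub (ZMod.castHom (dvd_refl p) K) a 1
      simp only [ZMod.castHom_apply, map_one] at this
      rw [this]; ring) W hW
  refine ⟨Module.finrank K W, ?_, rfl, fun f => ?_⟩
  · have := W.finrank_le
    rwa [Module.finrank_fintype_fun_eq_card, ZMod.card] at this
  · conv_lhs => rw [h]
    exact H16.mem_polyFun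

end Cfsg.Agent.S0673
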