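import Cfsg.Statements.S0678
import Cfsg.Agent.H16.PrimeDeg2
import Cfsg.Agent.H16.PTools

set_option autoImplicit false
open Cfsg

namespace Cfsg.Agent.S0678


/-- A non-solvable transitive permutation group on 7 points that does not contain the alternating group is a simple group of order 168. -/
theorem result {α : Type*} [Fintype α] [DecidableEq α] (hα : Fintype.card α = 7) (G : Subgroup (Equiv.Perm α)) [MulAction.IsPretransitive G α] (hG : ¬ Group.IsSolvable G) (hA : ¬ alternatingGroup α ≤ G) : Nat.card G = 168 ∧ IsSimpleGroup G := by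
  have : Fact (Nat.Prime 7) := ⟨by norm_num⟩
  have hα' : Nat.card α = 7 := Nat.card_eq_fintype_card.trans hα
  obtain ⟨P⟩ : Nonempty (Sylow 7 G) := inferInstance
  obtain ⟨-, -, -, d, d1, d3, d2⟩ := H16.prime_degree_sylow hα' P
  have n1 : Nat.card (Sylow 7 G) % 7 = 1 := card_sylow_modEq_one 7 G
  have pr : MulAction.IsPreprimitive G α := .of_prime_card (by rw [hα']; norm_num)
  have sp : ∀ g ∈ G, g.support.card ≤ 3 → g = 1 := fun g hg h =>
    by_contra fun e => hA (H16.alternating_le_of_support_le_three pr hg e h)
  have c : Nat.card G = 168 := by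
    by_cases ev : Even d
    · exfalso
      have h3 := H16.three_transitive_of_even hα G hG P (d3 ▸ ev.mul_left 7)
      have cs : ∀ s : Finset α, s.card = 3 → Nat.card G = 210 * Nat.card (fixingSubgroup G (s : Set α)) :=
        fun s hs => by rw [H16.card_eq_descFactorial_mul h3 s hs, hα']; rfl
      obtain ⟨s, -, hs⟩ := Finset.exists_subset_card_eq (s := (Finset.univ : Finset α)) (n := 3) (by simp [hα])
      obtain ⟨x, hx⟩ : sᶜ.Nonempty := Finset.card_pos.1 (by rw [Finset.card_compl]; omega)
      have e := H16.card_fixing_insert_mul (G := G) s x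
      rw [(Subgroup.eq_bot_iff_forall (fixingSubgroup G _)).2 fun (g : G) hg => Subtype.ext (sp g g.2 (by
        have := H16.card_support_add_le (g := g.1) _ (H16.mem_fixing_finset.1 hg)
        rw [Finset.card_insert_of_notMem (Finset.mem_compl.1 hx)] at this
        omega)), Subgroup.card_bot, one_mul] at e
      have le : Nat.card (fixingSubgroup G (s : Set α)) ≤ 4 := by
        rw [← e, show 4 = sᶜ.card by rw [Finset.card_compl]; omega, ← Set.ncard_coe_finset]
        refine Set.ncard_le_ncard ?_
        rintro _ ⟨g, rfl⟩
        exact Finset.mem_coe.2 (Finset.mem_compl.2 fun h => Finset.mem_compl.1 hx (MulAction.injective g.1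
          (H16.mem_fixing_finset.1 g.2 _ h) ▸ h))
      have c := cs s hs
      obtain h | h : Nat.card G = 210 ∨ 3 ∣ Nat.card (fixingSubgroup G (s : Set α)) := by
        have := Nat.le_of_dvd (by norm_num) d1
        have := Nat.card_pos (α := fixingSubgroup G (s : Set α))
        obtain ⟨k, hk⟩ := ev
        interval_cases d <;> omega
      · obtain ⟨p, j, hp, hj, e⟩ := H16.sharp3_card (by omega) h3 fun g a b c ab ac bc h1 h2 h3 => by
          have := cs {a, b, c} (Finset.card_eq_three.2 ⟨a, b, c, ab, ac, bc, rfl⟩)
          exact (Subgroup.eq_bot_iff_forall _).1 (Subgroup.eq_bot_of_card_eq _ (by omega)) g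
            (H16.mem_fixing_finset.2 (by simp [h1, h2, h3]) : g ∈ fixingSubgroup G (({a, b, c} : Finset α) : Set α))
        have e : p ^ j = 6 := by omega
        have h2 := (Nat.prime_dvd_prime_iff_eq Nat.prime_two hp).1 (Nat.prime_two.dvd_of_dvd_pow (n := j) (by omega))
        have h3 := (Nat.prime_dvd_prime_iff_eq Nat.prime_three hp).1 (Nat.prime_three.dvd_of_dvd_pow (n := j) (by omega))
        omega
      · obtain ⟨g, hg, o, f⟩ := H16.exists_prime_order_fixing G s Nat.prime_three h
        obtain ⟨j, -, e⟩ := H16.exists_card_support_of_prime Nat.prime_three o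
        have := H16.card_support_add_le s f
        simp [sp g hg (by omega)] at o
    obtain ⟨s, -, hs⟩ := Finset.exists_subset_card_eq (s := (Finset.univ : Finset α)) (n := 2) (by simp [hα])
    have c := H16.card_eq_descFactorial_mul (H16.burnside_prime_degree hα hG) s hs
    have dv := H16.card_fixing_dvd_factorial (G := G) (s : Set α)
    rw [← Finset.coe_compl, Set.ncard_coe_finset, Finset.card_compl, hα, hs] at dv
    rw [hα', show Nat.descFactorial 7 2 = 42 from rfl] at c
    have n1 : d ≠ 1 := by
      rintro rfl
      have := H16.card_eq_of_normalizer hα' P d3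
      omega
    have n2 : Nat.card G ≠ 2520 := fun e => hA (Equiv.Perm.alternatingGroup_le_of_index_le_two (by
      have := G.index_mul_card
      rw [e, Nat.card_perm, hα', show Nat.factorial 7 = 5040 from rfl] at this
      omega))
    obtain rfl : d = 3 := by
      have := Nat.le_of_dvd (by norm_num) d1
      rw [Nat.not_even_iff] at ev
      interval_cases d <;> omega
    generalize Nat.card (fixingSubgroup G (s : Set α)) = m at *
    have : m % 7 = 4 → m = 4 ∨ m = 60 := by
      have : m ≤ 120 := Nat.le_of_dvd (by decide) dv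
      revert dv
      interval_cases m <;> decide
    omega
  have : Nontrivial G := Finite.one_lt_card_iff_nontrivial.1 (by omega)
  refine ⟨c, ⟨fun N hN => or_iff_not_imp_left.2 fun h0 => ?_⟩⟩
  have := H16.isPretransitive_of_normal (α := α) N h0
  obtain ⟨Q⟩ : Nonempty (Sylow 7 N) := inferInstance
  obtain ⟨q1, -, -, e, e1, e3, e2⟩ := H16.prime_degree_sylow hα' Q
  have n2 : Nat.card (Sylow 7 N) % 7 = 1 := card_sylow_modEq_one 7 N
  have dv := c ▸ N.card_subgroup_dvd_card
  have n3 : Nat.card (Sylow 7 N) ≠ 1 := fun h => by
    have := (Nat.card_eq_one_iff_unique.1 h).1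
    have := Sylow.characteristic_of_subsingleton Q
    have le := (Q.isPGroup'.map N.subtype).le_sylow_of_normal P
    have := H16.prime_degree_sylow hα' P
    have e := Subgroup.eq_of_le_of_card_ge le (by rw [Subgroup.card_subtype, q1]; exact this.1.le)
    have : (P : Subgroup G).Normal := e ▸ inferInstance
    have := Sylow.unique_of_normal P this
    rw [Nat.card_unique (α := Sylow 7 G), c] at d2
    have := Nat.le_of_dvd (by norm_num) d1
    omega
  have n4 : e = 1 → Nat.card N = 7 := fun h => H16.card_eq_of_normalizer hα' Q (by rw [e3, h])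
  refine Subgroup.eq_top_of_card_eq _ ?_
  have := Nat.le_of_dvd (by norm_num) e1
  have := Nat.le_of_dvd (by norm_num) dv
  generalize Nat.card (Sylow 7 N) = n at *
  generalize Nat.card N = m at *
  subst e2
  rcases Nat.eq_zero_or_pos e with rfl | e0
  · simp at e1
  have : n ≤ 24 := by nlinarith
  interval_cases e <;> interval_cases n <;> omega

end Cfsg.Agent.S0678
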