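import Cfsg.Statements.S0680
import Cfsg.Agent.H16.Sharp2

set_option autoImplicit false
open Cfsg

namespace Cfsg.Agent.S0680


/-- A finite sharply doubly transitive permutation group has degree a prime power `p ^ j`; a Sylow `p`-subgroup is normal, elementary abelian and regular, and consists of the identity together with the elements without fixed points. (Frobenius' Theorem is not needed.) -/
theorem result {α : Type*} [Fintype α] [DecidableEq α] (G : Subgroup (Equiv.Perm α)) [MulAction.IsMultiplyPretransitive G α 2] (hsharp : ∀ x : Fin 2 ↪ α, MulAction.stabilizer G x = ⊥) (h2 : 2 ≤ Fintype.card α) : ∃ p j : ℕ, p.Prime ∧ 1 ≤ j ∧ Fintype.card α = p ^ j ∧ ∀ (hp : Fact p.Prime) (P : Sylow p G), (P : Subgroup G).Normal ∧ IsMulCommutative (P : Subgroup G) ∧ (∀ x ∈ (P : Subgroup G), x ^ p = 1) ∧ MulAction.IsPretransitive (P : Subgroup G) α ∧ (∀ a : α, MulAction.stabilizer (P : Subgroup G) a = ⊥) ∧ ∀ g : G, g ∈ (P : Subgroup G) ↔ g = 1 ∨ ∀ a : α, g • a ≠ a :=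 by
  have : Nontrivial α := Fintype.one_lt_card_iff_nontrivial.1 h2
  obtain ⟨K, hKn, hKt, hKr, hKm, hKc, p, hp, hP, hpow, j, hj, hcard⟩ :=
    H16.exists_kernel_sharp (G := G) (α := α) inferInstance
      (fun g a b hab ha hb => H16.eq_one_of_sharp2 hsharp hab ha hb)
  refine ⟨p, j, hp, hj, by rw [← hcard, Nat.card_eq_fintype_card], fun _ P => ?_⟩
  obtain ⟨k, -, hk⟩ := hP.exists_conj (H2.sylIn_top P)
  rw [H2.conj_eq_of_mem_normalizer (by rw [Subgroup.normalizer_eq_top]; trivial)] at hk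
  rw [← hk]
  exact ⟨hKn, ⟨⟨fun x y => Subtype.ext (hKc x x.2 y y.2)⟩⟩, hpow, hKt, hKr, hKm⟩

end Cfsg.Agent.S0680
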