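import Cfsg.Statements.S0681
import Cfsg.Agent.H16.Basic
import Cfsg.Agent.H16.NearField

set_option autoImplicit false
open Cfsg

namespace Cfsg.Agent.S0681


/-- The affine maps `x ↦ x * a + b`, `a ≠ 0`, of a near-field form a sharply doubly transitive permutation group. -/
theorem result {F : Type*} [Cfsg.NearField F] : ∃ H : Subgroup (Equiv.Perm F), (∀ σ : Equiv.Perm F, σ ∈ H ↔ ∃ a b : F, a ≠ 0 ∧ ∀ x : F, σ x = x * a + b) ∧ MulAction.IsMultiplyPretransitive H F 2 ∧ ∀ x : Fin 2 ↪ F, MulAction.stabilizer H x = ⊥ := by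
  open H16.NF in
  let H : Subgroup (Equiv.Perm F) :=
    { carrier := {σ | ∃ a b : F, a ≠ 0 ∧ ∀ x : F, σ x = x * a + b}
      one_mem' := ⟨1, 0, Cfsg.NearField.zero_ne_one.symm, by simp⟩
      mul_mem' := by
        rintro σ τ ⟨a, b, ha, hσ⟩ ⟨c, d, hc, hτ⟩
        exact ⟨c * a, d * a + b, mul_ne_zero' hc ha, fun x => by
          rw [Equiv.Perm.mul_apply, hτ, hσ, add_mul', mul_assoc, add_assoc]⟩
      inv_mem' := by
        rintro σ ⟨a, b, ha, hσ⟩
        obtain ⟨c, hc, hca⟩ := exists_mul_eq ha Cfsg.NearField.zero_ne_one.symm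
        refine ⟨c, (-b) * c, hc, fun x => ?_⟩
        obtain ⟨y, rfl⟩ := σ.surjective x
        rw [Equiv.Perm.coe_inv, Equiv.symm_apply_apply, hσ, ← add_mul', add_neg_cancel_right, mul_assoc,
          hca, mul_one] }
  open H16.NF in
  refine ⟨H, fun σ => Iff.rfl, MulAction.is_two_pretransitive_iff.2 ?_, H16.sharp_of_eq_one ?_⟩
  · intro x y x' y' hxy hxy'
    obtain ⟨a, ha, h⟩ := exists_mul_eq (sub_ne_zero.2 hxy) (sub_ne_zero.2 hxy')
    obtain ⟨c, hc, hc'⟩ := Cfsg.NearField.exists_inv a ha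
    let σ : Equiv.Perm F := ⟨fun z => z * a + (-(y * a) + y'), fun z => (z - (-(y * a) + y')) * c,
      fun z => by simp [mul_assoc, hc], fun z => by simp [mul_assoc, hc']⟩
    refine ⟨⟨σ, a, _, ha, fun z => rfl⟩, ?_, ?_⟩
    · change x * a + (-(y * a) + y') = x'
      rw [sub_eq_add_neg, add_mul', neg_mul'] at h
      rw [← add_assoc, h, sub_add_cancel]
    · change y * a + (-(y * a) + y') = y'
      simp
  · rintro x hx ⟨σ, a, b, ha, hσ⟩ h
    have h0 : σ (x 0) = x 0 := h 0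
    have h1 : σ (x 1) = x 1 := h 1
    rw [hσ] at h0 h1
    have hne : x 0 - x 1 ≠ 0 := sub_ne_zero.2 (hx.ne (by simp))
    have h2 : (x 0 - x 1) * a = (x 0 - x 1) * 1 := by
      rw [mul_one, sub_eq_add_neg, add_mul', neg_mul', eq_sub_of_add_eq h0, eq_sub_of_add_eq h1]
      simp [sub_eq_add_neg, add_assoc]
    have h3 := mul_left_cancel' hne h2
    subst h3
    rw [mul_one, add_eq_left] at h0
    ext z
    simp [hσ, h0]

end Cfsg.Agent.S0681
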