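import Cfsg.Statements.S0682
import Cfsg.Agent.H16.NearField
import Mathlib.GroupTheory.Sylow

set_option autoImplicit false
open Cfsg

namespace Cfsg.Agent.S0682


/-- A finite near-field has prime-power order; its additive group is commutative of prime exponent. -/
theorem result {F : Type*} [Cfsg.NearField F] [Finite F] : ∃ p j : ℕ, p.Prime ∧ 1 ≤ j ∧ Nat.card F = p ^ j ∧ (∀ x y : F, x + y = y + x) ∧ ∀ x : F, p • x = 0 := by
  open H16.NF in
  have : Nontrivial F := ⟨0, 1, Cfsg.NearField.zero_ne_one⟩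
  obtain ⟨p, hp, hpd⟩ := Nat.exists_prime_and_dvd (Finite.one_lt_card (α := F)).ne'
  have := Fact.mk hp
  obtain ⟨x, hx⟩ := exists_prime_addOrderOf_dvd_card' p hpd
  have hx0 : x ≠ 0 := by
    rintro rfl
    rw [addOrderOf_zero] at hx
    exact hp.one_lt.ne hx
  have hpow : ∀ y : F, p • y = 0 := by
    intro y
    by_cases hy : y = 0
    · simp [hy]
    obtain ⟨c, -, rfl⟩ := H16.NF.exists_mul_eq hx0 hy
    rw [← H16.NF.nsmul_mul', ← hx, addOrderOf_nsmul_eq_zero, H16.NF.zero_mul']
  have hP : IsPGroup p (Multiplicative F) := fun y => ⟨1, by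
    rw [pow_one]; exact hpow y.toAdd⟩
  obtain ⟨j, hj⟩ := IsPGroup.iff_card.1 hP
  have hj' : Nat.card F = p ^ j := hj
  refine ⟨p, j, hp, ?_, hj', ?_, hpow⟩
  · rcases j with _ | j
    · have := Finite.one_lt_card (α := F)
      rw [pow_zero] at hj'; omega
    · omega
  · have := hP.center_nontrivial
    obtain ⟨⟨z, hz⟩, hz1⟩ := exists_ne (1 : Subgroup.center (Multiplicative F))
    have hz0 : z.toAdd ≠ 0 := fun h => hz1 (Subtype.ext h)
    have hzc : ∀ w : F, w + z.toAdd = z.toAdd + w := fun w =>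
      Subgroup.mem_center_iff.1 hz (Multiplicative.ofAdd w)
    intro u v
    by_cases hv : v = 0
    · simp [hv]
    obtain ⟨c, hc, rfl⟩ := H16.NF.exists_mul_eq hz0 hv
    obtain ⟨d, -, hd⟩ := Cfsg.NearField.exists_inv c hc
    have : u = u * d * c := by rw [mul_assoc, hd, mul_one]
    rw [this, ← H16.NF.add_mul', hzc, H16.NF.add_mul']

end Cfsg.Agent.S0682
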