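import Cfsg.Statements.S0683
import Cfsg.Agent.H16.Sharp2

set_option autoImplicit false
open Cfsg

namespace Cfsg.Agent.S0683


/-- A finite sharply doubly transitive permutation group is the affine group of a near-field: the permuted set carries a near-field structure for which the group consists exactly of the maps `x ↦ x * a + b` with `a ≠ 0`. -/
theorem result {α : Type*} [Fintype α] [DecidableEq α] (H : Subgroup (Equiv.Perm α)) [MulAction.IsMultiplyPretransitive H α 2] (hsharp : ∀ x : Fin 2 ↪ α, MulAction.stabilizer H x = ⊥) (h2 : 2 ≤ Fintype.card α) : ∃ _ : Cfsg.NearField α, ∀ σ : Equiv.Perm α, σ ∈ H ↔ ∃ a b : α, a ≠ 0 ∧ ∀ x : α, σ x = x * a + b := by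
  have : Nontrivial α := Fintype.one_lt_card_iff_nontrivial.1 h2
  have hF : ∀ (g : H) (a b : α), a ≠ b → g • a = a → g • b = b → g = 1 :=
    fun g a b hab ha hb => H16.eq_one_of_sharp2 hsharp hab ha hb
  obtain ⟨K, hKn, hKt, hKr, hKm, hKc, -⟩ := H16.exists_kernel_sharp (G := H) (α := α) inferInstance hF
  obtain ⟨o, e, hoe⟩ := exists_pair_ne α
  choose τ hτK hτ using H16.exists_mem_smul_eq K o
  have hτu : ∀ k ∈ K, τ (k • o) = k := fun k hk =>
    H16.eq_of_smul_eq_of_stabilizer_bot (hKr o) (hτK _) hk (hτ _)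
  have hτo : τ o = 1 := by simpa using hτu 1 K.one_mem
  have hτadd : ∀ x y, τ (τ y • x) = τ y * τ x := by
    intro x y
    rw [← hτu _ (K.mul_mem (hτK y) (hτK x)), mul_smul, hτ]
  have hex : ∀ a, a ≠ o → ∃ h : H, h • o = o ∧ h • e = a := fun a ha =>
    H16.exists_smul2 inferInstance hoe ha.symm
  choose μ hμo hμe using hex
  have hμu : ∀ (h : H) (a) (ha : a ≠ o), h • o = o → h • e = a → μ a ha = h := by
    intro h a ha h1 h2
    have := hF (h⁻¹ * μ a ha) o e hoe (by rw [mul_smul, hμo, inv_smul_eq_iff, h1])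
      (by rw [mul_smul, hμe, inv_smul_eq_iff, h2])
    exact (inv_mul_eq_one.1 this).symm
  have hne : ∀ (h : H) a, h • o = o → a ≠ o → h • a ≠ o := fun h a h1 ha h2 =>
    ha (smul_left_cancel h (h2.trans h1.symm))
  let mul : α → α → α := fun x a => if ha : a = o then o else μ a ha • x
  have hmul0 : ∀ x, mul x o = o := fun x => dif_pos rfl
  have hmul : ∀ x a (ha : a ≠ o), mul x a = μ a ha • x := fun x a ha => dif_neg ha
  have hconj : ∀ (h : H) y, h • o = o → τ (h • y) = h * τ y * h⁻¹ := by
    intro h y ho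
    rw [← hτu _ (hKn.conj_mem _ (hτK y) h), mul_smul, mul_smul, inv_smul_eq_iff.2 ho.symm, hτ]
  let _ : Add α := ⟨fun x y => τ y • x⟩
  let _ : Zero α := ⟨o⟩
  let _ : Neg α := ⟨fun x => (τ x)⁻¹ • o⟩
  let _ : Mul α := ⟨mul⟩
  let _ : One α := ⟨e⟩
  let N : Cfsg.NearField α :=
    { add_assoc := fun x y z => by
        change τ z • τ y • x = τ (τ z • y) • x
        rw [hτadd, mul_smul]
      zero_add := fun x => hτ x
      add_zero := fun x => by
        change τ o • x = x
        rw [hτo, one_smul]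
      nsmul := nsmulRec
      zsmul := zsmulRec
      neg_add_cancel := fun x => smul_inv_smul _ _
      mul_assoc := fun x a b => by
        change mul (mul x a) b = mul x (mul a b)
        by_cases hb : b = o
        · rw [hb, hmul0, hmul0, hmul0]
        by_cases ha : a = o
        · rw [ha, hmul0, hmul _ _ hb, hμo, hmul0]
        rw [hmul _ _ hb, hmul _ _ hb, hmul _ _ ha, hmul _ _ (hne _ _ (hμo b hb) ha),
          hμu (μ b hb * μ a ha) (μ b hb • a) _ (by rw [mul_smul, hμo, hμo]) (by rw [mul_smul, hμe]), mul_smul]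
      one_mul := fun a => by
        change mul e a = a
        by_cases ha : a = o
        · rw [ha, hmul0]
        · rw [hmul _ _ ha, hμe]
      mul_one := fun a => by
        change mul a e = a
        rw [hmul _ _ hoe.symm, hμu 1 _ _ (by simp) (by simp), one_smul]
      right_distrib := fun x y c => by
        change mul (τ y • x) c = τ (mul y c) • mul x c
        by_cases hc : c = o
        · rw [hc, hmul0, hmul0, hmul0, hτ]
        · rw [hmul _ _ hc, hmul _ _ hc, hmul _ _ hc, hconj _ _ (hμo c hc), mul_smul, mul_smul,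
            inv_smul_smul]
      mul_zero := hmul0
      zero_ne_one := hoe
      exists_inv := fun a ha => by
        have ha' : a ≠ o := ha
        have h1 : (μ a ha')⁻¹ • o = o := inv_smul_eq_iff.2 (hμo a ha').symm
        refine ⟨(μ a ha')⁻¹ • e, ?_, ?_⟩
        · change mul a _ = e
          rw [hmul _ _ (hne _ _ h1 hoe.symm), hμu (μ a ha')⁻¹ _ _ h1 rfl, inv_smul_eq_iff, hμe]
        · change mul _ a = e
          rw [hmul _ _ ha', smul_inv_smul] }
  refine ⟨N, fun σ => ⟨fun hσ => ?_, ?_⟩⟩
  · set g : H := ⟨σ, hσ⟩ with hg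
    have h1 : ((τ (g • o))⁻¹ * g) • o = o := by rw [mul_smul, inv_smul_eq_iff, hτ]
    have h2 := hne _ _ h1 hoe.symm
    refine ⟨((τ (g • o))⁻¹ * g) • e, g • o, h2, fun x => ?_⟩
    change g • x = τ (g • o) • mul x _
    rw [hmul _ _ h2, hμu _ _ _ h1 rfl, mul_smul, smul_inv_smul]
  · rintro ⟨a, b, ha, h⟩
    have ha' : a ≠ o := ha
    have : σ = ((τ b * μ a ha' : H) : Equiv.Perm α) := by
      ext x
      rw [h x]
      change τ b • mul x a = (τ b * μ a ha') • x
      rw [hmul _ _ ha', mul_smul]
    rw [this]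
    exact SetLike.coe_mem _

end Cfsg.Agent.S0683
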