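import Cfsg.Statements.S0684
import Cfsg.Agent.H16.NF3

set_option autoImplicit false
open Cfsg

namespace Cfsg.Agent.S0684


/-- Point stabiliser of a sharply doubly transitive group not of semilinear type: a maximal normal abelian subgroup `A` of a linear group `H` that is regular on non-zero vectors and has no irreducible cyclic normal subgroup is cyclic and reducible, and the order of `A` divides `p ^ k - 1` for `k` the dimension of a minimal `A`-invariant subspace. -/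
theorem result {p : ℕ} [Fact p.Prime] {V : Type*} [AddCommGroup V] [Module (ZMod p) V] [Finite V] (H : Subgroup (V ≃ₗ[ZMod p] V)) (hreg : ∀ v w : V, v ≠ 0 → w ≠ 0 → ∃! h : H, (h : V ≃ₗ[ZMod p] V) v = w) (hI : ∀ A : Subgroup H, A.Normal → IsCyclic A → ∃ W : Submodule (ZMod p) V, W ≠ ⊥ ∧ W ≠ ⊤ ∧ ∀ a ∈ A, ∀ v ∈ W, ((a : H) : V ≃ₗ[ZMod p] V) v ∈ W) (A : Subgroup H) (hAn : A.Normal) (hAc : IsMulCommutative A) (hAmax : ∀ B : Subgroup H, B.Normal → IsMulCommutative B → A ≤ B → B = A) : IsCyclic A ∧ ∃ W : Submodule (ZMod p) V, W ≠ ⊥ ∧ W ≠ ⊤ ∧ (∀ a ∈ A, ∀ v ∈ W, ((a : H) : V ≃ₗ[ZMod p] V) v ∈ W) ∧ (∀ W' : Submodule (ZMod p) V, W' ≤ W → (∀ a ∈ A, ∀ v ∈ W', ((a : H) : V ≃ₗ[ZMod p] V) v ∈ W') → W' = ⊥ ∨ W' = W) ∧ Nat.card A ∣ p ^ Module.finrank (ZMod p) W - 1 := by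
  have h := H16.nf_of_subgroup H hreg
  obtain ⟨W₀, h0, h1, -⟩ := hI ⊥ inferInstance inferInstance
  have : Nontrivial V := by
    obtain ⟨w, -, hw⟩ := (Submodule.ne_bot_iff _).1 h0
    exact ⟨w, 0, hw⟩
  have := h.free.finite
  have hc := h.free.fc.isCyclic_of_comm hAc
  obtain ⟨W, h0, h1, hW⟩ := hI A hAn hc
  obtain ⟨U, hle, hU⟩ := H16.exists_irr (τ := H16.toRep H.subtype) h0 hW
  refine ⟨hc, U, hU.1, fun e => h1 (top_le_iff.1 (e ▸ hle)), hU.2.1, hU.2.2, ?_⟩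
  rw [← H16.card_eq_pow]
  exact h.free.card_dvd hU.2.1

end Cfsg.Agent.S0684
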