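import Cfsg.Statements.S0685
import Cfsg.Agent.H16.NF3

set_option autoImplicit false
open Cfsg

namespace Cfsg.Agent.S0685


/-- In a linear group over the prime field that is regular on non-zero vectors and has no irreducible cyclic normal subgroup, a maximal normal abelian subgroup is properly contained in its centraliser, which is non-abelian. -/
theorem result {p : ℕ} [Fact p.Prime] {V : Type*} [AddCommGroup V] [Module (ZMod p) V] [Finite V] (H : Subgroup (V ≃ₗ[ZMod p] V)) (hreg : ∀ v w : V, v ≠ 0 → w ≠ 0 → ∃! h : H, (h : V ≃ₗ[ZMod p] V) v = w) (hI : ∀ A : Subgroup H, A.Normal → IsCyclic A → ∃ W : Submodule (ZMod p) V, W ≠ ⊥ ∧ W ≠ ⊤ ∧ ∀ a ∈ A, ∀ v ∈ W, ((a : H) : V ≃ₗ[ZMod p] V) v ∈ W) (A : Subgroup H) (hAn : A.Normal) (hAc : IsMulCommutative A) (hAmax : ∀ B : Subgroup H, B.Normal → IsMulCommutative B → A ≤ B → B = A) : A < Subgroup.centralizer (A : Set H) ∧ ¬ IsMulCommutative (Subgroup.centralizer (A : Set H)) := by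
  have h := H16.nf_of_subgroup H hreg
  obtain ⟨W₀, h0, h1, -⟩ := hI ⊥ inferInstance inferInstance
  have : Nontrivial V := by
    obtain ⟨w, -, hw⟩ := (Submodule.ne_bot_iff _).1 h0
    exact ⟨w, 0, hw⟩
  have := h.free.finite
  obtain ⟨W, h0, h1, hW⟩ := hI A hAn (h.free.fc.isCyclic_of_comm hAc)
  exact ⟨lt_of_le_not_ge (Subgroup.le_centralizer A) (h.cent_not_le hAc hW h0 h1),
    h.cent_not_comm hAn hAc hAmax hW h0 h1⟩

end Cfsg.Agent.S0685
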