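import Cfsg.Statements.S0687
import Cfsg.Agent.H16.NF3

set_option autoImplicit false
open Cfsg

namespace Cfsg.Agent.S0687


/-- In a linear group over the prime field that is regular on non-zero vectors and has no irreducible cyclic normal subgroup, a normal subgroup `N` minimal among the non-abelian normal subgroups centralising a maximal normal abelian subgroup `A` is irreducible on `V`, and its centraliser is `A`. -/
theorem result {p : ℕ} [Fact p.Prime] {V : Type*} [AddCommGroup V] [Module (ZMod p) V] [Finite V] (H : Subgroup (V ≃ₗ[ZMod p] V)) (hreg : ∀ v w : V, v ≠ 0 → w ≠ 0 → ∃! h : H, (h : V ≃ₗ[ZMod p] V) v = w) (hI : ∀ A : Subgroup H, A.Normal → IsCyclic A → ∃ W : Submodule (ZMod p) V, W ≠ ⊥ ∧ W ≠ ⊤ ∧ ∀ a ∈ A, ∀ v ∈ W, ((a : H) : V ≃ₗ[ZMod p] V) v ∈ W) (A : Subgroup H) (hAn : A.Normal) (hAc : IsMulCommutative A) (hAmax : ∀ B : Subgroup H, B.Normal → IsMulCommutative B → A ≤ B → B = A) (N : Subgroup H) (hNn : N.Normal)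 (hNle : N ≤ Subgroup.centralizer (A : Set H)) (hNna : ¬ IsMulCommutative N) (hNmin : ∀ M : Subgroup H, M.Normal → M ≤ N → ¬ IsMulCommutative M → M = N) : (∀ W : Submodule (ZMod p) V, (∀ n ∈ N, ∀ v ∈ W, ((n : H) : V ≃ₗ[ZMod p] V) v ∈ W) → W = ⊥ ∨ W = ⊤) ∧ Subgroup.centralizer (N : Set H) = A := by
  have h := H16.nf_of_subgroup H hreg
  obtain ⟨W₀, h0, h1, -⟩ := hI ⊥ inferInstance inferInstance
  have : Nontrivial V := by
    obtain ⟨w, -, hw⟩ := (Submodule.ne_bot_iff _).1 h0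
    exact ⟨w, 0, hw⟩
  have := h.free.finite
  have hp : p.Prime := Fact.out
  obtain ⟨W, hW, h2, h3⟩ : ∃ W : Submodule (ZMod p) V,
      H16.Inv (H16.toRep H.subtype) (Subgroup.centralizer (N : Set H)) W ∧ Nat.card W = p ∧
        Nat.card V = p ^ 2 := by
    rcases h.free.fc.min_nonab hAn hAc hAmax hNn hNle hNna hNmin with ⟨i, j, q⟩ | ⟨f, hf, rfl⟩
    · obtain ⟨W, θ, hθ, h1, h2, h3, -⟩ := h.of_Q8 q
      exact ⟨W, hθ ▸ h1, h2, h3⟩
    · obtain ⟨W, h1, h2, h3, -⟩ := h.of_SL25 hf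
      exact ⟨W, h1, h2, h3⟩
  refine ⟨fun U hU => ?_, hAmax _ inferInstance (h.free.comm_of_card_prime hW (by rwa [h2]))
    (Subgroup.le_centralizer_iff.1 hNle)⟩
  by_contra hc
  rw [not_or] at hc
  exact hNna (h.free.comm_of_card_prime hU (by rwa [H16.card_eq_of_proper h3 hc.1 hc.2]))

end Cfsg.Agent.S0687
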