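import Cfsg.Statements.S0688
import Cfsg.Agent.H16.NF3

set_option autoImplicit false
open Cfsg

namespace Cfsg.Agent.S0688


/-- Degrees of the soluble exceptional sharply doubly transitive groups: if a solvable linear group over the prime field is regular on the non-zero vectors of `V` and has no irreducible cyclic normal subgroup, then `V` has 25, 49, 121 or 529 elements. -/
theorem result {p : ℕ} [Fact p.Prime] {V : Type*} [AddCommGroup V] [Module (ZMod p) V] [Finite V] (H : Subgroup (V ≃ₗ[ZMod p] V)) (hreg : ∀ v w : V, v ≠ 0 → w ≠ 0 → ∃! h : H, (h : V ≃ₗ[ZMod p] V) v = w) (hI : ∀ A : Subgroup H, A.Normal → IsCyclic A → ∃ W : Submodule (ZMod p) V, W ≠ ⊥ ∧ W ≠ ⊤ ∧ ∀ a ∈ A, ∀ v ∈ W, ((a : H) : V ≃ₗ[ZMod p] V) v ∈ W) (hsolv : Group.IsSolvable H) : Nat.card V = 25 ∨ Nat.card V = 49 ∨ Nat.card V = 121 ∨ Nat.card V = 529 := by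
  have h := H16.nf_of_subgroup H hreg
  obtain ⟨W₀, h0, h1, -⟩ := hI ⊥ inferInstance inferInstance
  have : Nontrivial V := by
    obtain ⟨w, -, hw⟩ := (Submodule.ne_bot_iff _).1 h0
    exact ⟨w, 0, hw⟩
  rcases h.cases with ⟨A, hA, hc, hirr⟩ | ⟨h3, Q, i, j, hQ, q⟩ | ⟨f, hf, -⟩
  · obtain ⟨W, h0, h1, hW⟩ := hI A hA hc
    exact ((hirr W hW).elim h0 h1).elim
  · obtain ⟨-, -, -, -, -, h5, -, h7⟩ := h.of_Q8 q
    rcases h7 with rfl | rfl | rfl | rfl | rfl <;> omega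
  · exact absurd hsolv (H16.not_solvable_of_SL25 hf)

end Cfsg.Agent.S0688
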