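import Cfsg.Statements.S0692
import Cfsg.Agent.H16.RegCert

set_option autoImplicit false
open Cfsg

namespace Cfsg.Agent.S0692


/-- An exceptional sharply doubly transitive group of degree 11^2: the listed matrices generate a subgroup of GL(2,11) of order 120 acting regularly on the non-zero vectors. -/
theorem result (A : Matrix.GeneralLinearGroup (Fin 2) (ZMod 11)) (B : Matrix.GeneralLinearGroup (Fin 2) (ZMod 11)) (hA : (A : Matrix (Fin 2) (Fin 2) (ZMod 11)) = !![0, -1; 1, 0]) (hB : (B : Matrix (Fin 2) (Fin 2) (ZMod 11)) = !![2, 4; 1, -3]) : Nat.card (Subgroup.closure ({A, B} : Set (Matrix.GeneralLinearGroup (Fin 2) (ZMod 11)))) = 120 ∧ ∀ v w : Fin 2 → ZMod 11, v ≠ 0 → w ≠ 0 → ∃! h : Subgroup.closure ({A, B} : Set (Matrix.GeneralLinearGroup (Fin 2) (ZMod 11))), Matrix.mulVec ((h : Matrix.GeneralLinearGroup (Fin 2) (ZMod 11)) : Matrix (Fin 2) (Fin 2) (ZMod 11)) v = w := by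
  have : Fact (1 < 11) := ⟨by norm_num⟩
  refine H16.regular_of_cert _ (fun x y => H16.tab 11 0xa00100400700500600800200300900000700900800a00500600000200300100400700900800a00200500300400600000100000600800700900100400200300500a00900a00500700600800000300100200400900a00800000300500400600100200700600800900700a00200400300500000100000500700800600900100300200400a00a00800900000500600100300200400700200800900300500600400700a00100000100600400300900200800700500a000 x y)
    (fun x y => H16.tab 11 0x900100000500200200000400400100a00300300600300100100500200200a00500200200400200300600300300300700700800000300400000400400100100400800600600500100800500200900600600200500500200900600300a00600500500900700a00a00700700000700800000300300400800800800500800900700900900400100900900600a00a00800500800800600a00700700000900900600000a00200100000400100a00400700100a007000000 x y)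
    (H16.tab 11 0x700600800b00a00700900200500400200400a00b00300900800500900b00700500100c00a00600b00500900b00900900800800400800c00600b00c00300400c00900a00700800a00500600700c00600700700900800a00500400700c00600900800500b00200500c00900800b00a00600600a00700b00900b00700c00400c00a00300a00500900b00300600700500a00800200700600300400700900800a00a00800500000100800700800600400a009006003000) (by decide +kernel) ?_ ?_
  · simp only [Set.mem_insert_iff, Set.mem_singleton_iff, forall_eq_or_imp, forall_eq, hA, hB, Matrix.of_apply,
      Matrix.cons_val', Matrix.cons_val_zero, Matrix.cons_val_one, Matrix.cons_val_fin_one]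
    decide +kernel
  · simp only [Set.mem_insert_iff, Set.mem_singleton_iff, exists_eq_or_imp, exists_eq_left, hA, hB, Matrix.of_apply,
      Matrix.cons_val', Matrix.cons_val_zero, Matrix.cons_val_one, Matrix.cons_val_fin_one]
    decide +kernel

end Cfsg.Agent.S0692
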