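import Cfsg.Statements.S0694
import Mathlib.NumberTheory.Multiplicity
import Mathlib.FieldTheory.Finite.Basic

set_option autoImplicit false
open Cfsg

namespace Cfsg.Agent.S0694


/-- The Dickson pair condition: for a prime power `q` and `n > 1`, (every prime factor of `n` divides `q - 1`, and `4 ∣ n → 4 ∣ q - 1`) holds exactly when `q ^ n ≡ 1` modulo `n * (q - 1)` but `q ^ i` is not, for `0 < i < n`. -/
theorem result (q n : ℕ) (hq : IsPrimePow q) (hn : 1 < n) : ((∀ r : ℕ, r.Prime → r ∣ n → r ∣ q - 1) ∧ (4 ∣ n → 4 ∣ q - 1)) ↔ (q ^ n ≡ 1 [MOD n * (q - 1)] ∧ ∀ i : ℕ, 0 < i → i < n → ¬ q ^ i ≡ 1 [MOD n * (q - 1)]) := by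
  obtain ⟨t, rfl⟩ : ∃ t, q = t + 1 := ⟨q - 1, by have := hq.two_le; omega⟩
  have t0 : 0 < t := by have := hq.two_le; omega
  simp only [Nat.add_sub_cancel]
  obtain ⟨s, hs⟩ : ∃ s : ℕ → ℕ, ∀ i, s i * t + 1 = (t + 1) ^ i := ⟨_, geom_sum_mul_add t⟩
  have hs' : ∀ i, (t + 1) ^ i - 1 = s i * t := fun i => by rw [← hs, Nat.add_sub_cancel]
  have md : ∀ n i, (t + 1) ^ i ≡ 1 [MOD n * t] ↔ n ∣ s i := fun n i => by
    rw [Nat.ModEq.comm, Nat.modEq_iff_dvd' (Nat.one_le_pow _ _ t.succ_pos), hs', Nat.mul_dvd_mul_iff_right t0]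
  have s0 : ∀ i, i ≠ 0 → s i ≠ 0 := fun i hi e => by
    have := Nat.one_lt_pow hi (show 1 < t + 1 by omega)
    rw [← hs, e] at this; simp at this
  have nd : ∀ r, r.Prime → r ∣ t → ¬ r ∣ t + 1 := fun r hr h1 h2 =>
    hr.one_lt.ne' (Nat.dvd_one.1 ((Nat.dvd_add_right h1).1 h2))
  have la : ∀ r i, r.Prime → r ≠ 2 → r ∣ t → i ≠ 0 → padicValNat r (s i) = padicValNat r i := fun r i hr h2 h hi => by
    have := Fact.mk hr
    have e := padicValNat.pow_sub_pow (hr.odd_of_ne_two h2) (show 1 < t + 1 by omega) (by simpa) (nd r hr h) hi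
    rw [one_pow, hs', padicValNat.mul (s0 i hi) t0.ne', Nat.add_sub_cancel] at e
    omega
  have lb : ∀ i, 2 ∣ t → i ≠ 0 → Even i → padicValNat 2 (s i) + 1 = padicValNat 2 (t + 1 + 1) + padicValNat 2 i :=
    fun i h hi he => by
    have e := padicValNat.pow_two_sub_pow (show 1 < t + 1 by omega) (by simpa) (nd 2 Nat.prime_two h) hi he
    rw [one_pow, hs', padicValNat.mul (s0 i hi) t0.ne', Nat.add_sub_cancel] at e
    omega
  have lc : ∀ i, 2 ∣ t → (2 ∣ s i ↔ 2 ∣ i) := fun i h => by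
    induction i with
    | zero => simp [show s 0 = 0 by simpa [t0.ne'] using hs 0]
    | succ i ih =>
      have : s (i + 1) = s i * t + s i + 1 := Nat.eq_of_mul_eq_mul_right t0 (by
        have := hs (i + 1); rw [pow_succ, ← hs] at this; nlinarith)
      have := dvd_mul_of_dvd_right h (s i)
      omega
  have v2 : ∀ k x, x ≠ 0 → (2 ^ k ∣ x ↔ k ≤ padicValNat 2 x) := fun k x => padicValNat_dvd_iff_le
  have l1 : ∀ r k i, r.Prime → r ∣ t → i ≠ 0 → r ^ k ∣ i → r ^ k ∣ s i := fun r k i hr h hi hk => by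
    have := Fact.mk hr
    by_cases h2 : r = 2
    · subst h2
      rcases Nat.eq_zero_or_pos k with rfl | k0
      · simp
      have := lb i h hi (even_iff_two_dvd.2 ((dvd_pow_self 2 k0.ne').trans hk))
      have := (v2 1 (t + 1 + 1) (by omega)).1 (by omega)
      rw [v2 _ _ hi] at hk
      exact (v2 _ _ (s0 i hi)).2 (by omega)
    · rwa [padicValNat_dvd_iff_le (s0 i hi), la r i hr h2 h hi, ← padicValNat_dvd_iff_le hi]
  simp only [md]
  refine ⟨fun ⟨h1, h2⟩ => ⟨(Nat.dvd_iff_prime_pow_dvd_dvd _ _).2 fun r k hr hk => ?_, fun i i0 hi h =>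
    (Nat.le_of_dvd i0 ((Nat.dvd_iff_prime_pow_dvd_dvd _ _).2 fun r k hr hk => ?_)).not_gt hi⟩, fun ⟨h1, h2⟩ => ?_⟩
  · rcases Nat.eq_zero_or_pos k with rfl | k0
    · simp
    exact l1 r k n hr (h1 r hr ((dvd_pow_self r k0.ne').trans hk)) (by omega) hk
  · rcases Nat.eq_zero_or_pos k with rfl | k0
    · simp
    have := Fact.mk hr
    have rt := h1 r hr ((dvd_pow_self r k0.ne').trans hk)
    have e := hk.trans h
    by_cases r2 : r = 2
    · subst r2
      have e2 := (lc i rt).1 ((dvd_pow_self 2 k0.ne').trans e)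
      rcases (Nat.succ_le_of_lt k0).eq_or_lt with rfl | k1
      · simpa using e2
      have := h2 ((pow_dvd_pow 2 k1).trans hk)
      have := lb i rt i0.ne' (even_iff_two_dvd.2 e2)
      have := (v2 2 (t + 1 + 1) (by omega)).not.1 (by omega)
      rw [v2 _ _ (s0 i i0.ne')] at e
      exact (v2 _ _ i0.ne').2 (by omega)
    · rwa [padicValNat_dvd_iff_le (s0 i i0.ne'), la r i hr r2 rt i0.ne', ← padicValNat_dvd_iff_le i0.ne'] at e
  have sd : ∀ i j, s i ∣ s (i * j) := fun i j => Nat.dvd_of_mul_dvd_mul_right t0 (by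
    rw [← hs', ← hs', pow_mul]; simpa using Nat.sub_dvd_pow_sub_pow ((t + 1) ^ i) 1 j)
  have key : ∀ m, m ≠ 0 → m.Coprime (t + 1) →
      ∃ i, 0 < i ∧ i ≤ m ∧ m ∣ s i ∧ ∀ r, r.Prime → r ∣ m → ¬ r ∣ t → i < m := fun m => by
    induction m using Nat.recOnPosPrimePosCoprime with
    | zero => simp
    | one => exact fun _ _ => ⟨1, by simp, le_rfl, one_dvd _, fun r hr h => absurd (Nat.dvd_one.1 h) hr.one_lt.ne'⟩
    | prime_pow p k hp k0 =>
      intro h0 hc
      by_cases h : p ∣ t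
      · exact ⟨_, Nat.pos_of_ne_zero h0, le_rfl, l1 p k _ hp h h0 dvd_rfl, fun r hr h' h'' =>
          absurd ((Nat.prime_dvd_prime_iff_eq hr hp).1 (hr.dvd_of_dvd_pow h') ▸ h) h''⟩
      have := Nat.totient_lt _ (Nat.one_lt_pow k0.ne' hp.one_lt)
      refine ⟨_, Nat.totient_pos.2 (Nat.pos_of_ne_zero h0), this.le, ?_, fun _ _ _ _ => this⟩
      refine (((Nat.Prime.coprime_iff_not_dvd hp).2 h).pow_left k).dvd_of_dvd_mul_right ?_
      rw [← hs', ← Nat.modEq_iff_dvd' (Nat.one_le_pow _ _ t.succ_pos)]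
      exact (Nat.ModEq.pow_totient hc.symm).symm
    | coprime a b ha hb hab iha ihb =>
      intro _ hc
      obtain ⟨i, i0, i1, i2, i3⟩ := iha (by omega) hc.coprime_mul_right
      obtain ⟨j, j0, j1, j2, j3⟩ := ihb (by omega) hc.coprime_mul_left
      refine ⟨i * j, Nat.mul_pos i0 j0, Nat.mul_le_mul i1 j1,
        hab.mul_dvd_of_dvd_of_dvd (i2.trans (sd i j)) (mul_comm j i ▸ j2.trans (sd j i)), fun r hr h h' => ?_⟩
      rcases hr.dvd_mul.1 h with h | h
      · exact Nat.mul_lt_mul_of_lt_of_le (i3 r hr h h') j1 (by omega)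
      · exact Nat.mul_lt_mul_of_le_of_lt i1 (j3 r hr h h') (by omega)
  have p1 : ∀ r, r.Prime → r ∣ n → r ∣ t := fun r hr h => by
    by_contra h'
    obtain ⟨i, i0, -, i2, i3⟩ := key n (by omega) (Nat.Coprime.coprime_dvd_left h1 (by
      rw [← Nat.coprime_pow_right_iff (show 0 < n by omega), ← hs]; simp))
    exact h2 i i0 (i3 r hr h h') i2
  refine ⟨p1, fun ⟨c, hc⟩ => ?_⟩
  by_contra h4
  have t2 := p1 2 Nat.prime_two (by omega)
  refine h2 (2 * c) (by omega) (by omega) ((Nat.dvd_iff_prime_pow_dvd_dvd _ _).2 fun r k hr hk => ?_)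
  rcases Nat.eq_zero_or_pos k with rfl | k0
  · simp
  by_cases r2 : r = 2
  · subst r2
    have := lb (2 * c) t2 (by omega) (by simp)
    have := (v2 2 (t + 1 + 1) (by omega)).1 (by omega)
    obtain ⟨k, rfl⟩ : ∃ j, k = j + 1 := ⟨k - 1, by omega⟩
    rw [show n = 2 * c * 2 by omega, pow_succ, Nat.mul_dvd_mul_iff_right two_pos, v2 _ _ (by omega)] at hk
    exact (v2 _ _ (s0 _ (by omega))).2 (by omega)
  · exact l1 r k _ hr (p1 r hr ((dvd_pow_self r k0.ne').trans hk)) (by omega)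
      ((((Nat.coprime_primes hr Nat.prime_two).2 r2).pow_left k).dvd_of_dvd_mul_right
        (show n = 2 * c * 2 by omega ▸ hk))

end Cfsg.Agent.S0694
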