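import Cfsg.Statements.S0698
import Cfsg.Agent.H16.Normal

set_option autoImplicit false
open Cfsg

namespace Cfsg.Agent.S0698


/-- Jordan's Theorem on normal subgroups of multiply transitive groups: if `G` is `k`-transitive (`k > 1`) of degree greater than `k`, a non-trivial normal subgroup is `(k-1)`-transitive, except possibly for `k = 3` when it may be an elementary abelian 2-group. -/
theorem result {α : Type*} [Fintype α] [DecidableEq α] (G : Subgroup (Equiv.Perm α)) {k : ℕ} (hk : 1 < k) (hdeg : k < Fintype.card α) (hG : MulAction.IsMultiplyPretransitive G α k) (N : Subgroup G) [N.Normal] (hN : N ≠ ⊥) : MulAction.IsMultiplyPretransitive N α (k - 1) ∨ (k = 3 ∧ IsMulCommutative N ∧ ∀ n ∈ N, n ^ 2 = 1) := by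
  rw [← Nat.card_eq_fintype_card] at hdeg
  have hprim : MulAction.IsPreprimitive G α := MulAction.isPreprimitive_of_is_two_pretransitive
    (MulAction.isMultiplyPretransitive_of_le (n := k) (by omega) (by omega))
  have hNt := H16.isPretransitive_of_normal (α := α) N hN
  by_cases h2 : k = 2
  · subst h2
    exact Or.inl (MulAction.is_one_pretransitive_iff.2 hNt)
  by_cases h3 : k = 3
  · subst h3
    rcases H16.normal_two_transitive_or hdeg hG N hN with h | ⟨-, h⟩
    · exact Or.inl h
    · exact Or.inr ⟨rfl, ⟨⟨fun x y => Subtype.ext (H16.comm_of_sq_eq_one h x x.2 y y.2)⟩⟩, h⟩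
  left
  obtain ⟨j, rfl⟩ : ∃ j, k = j + 1 := ⟨k - 1, by omega⟩
  have hj : MulAction.IsMultiplyPreprimitive G α j :=
    MulAction.isMultiplyPreprimitive_of_isMultiplyPretransitive_succ G α
      (by rw [ENat.card_eq_coe_natCard]; exact_mod_cast hdeg.le)
  by_cases htop : MulAction.IsMultiplyPretransitive G α (Nat.card α)
  · have hGtop : G = ⊤ := by
      apply Equiv.Perm.eq_top_of_isMultiplyPretransitive
      exact MulAction.isMultiplyPretransitive_of_le (n := Nat.card α) (by omega) le_rfl
    have hn : (N.map G.subtype).Normal := Subgroup.Normal.map inferInstance _ (fun x =>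
      ⟨⟨x, hGtop ▸ Subgroup.mem_top x⟩, rfl⟩)
    have hle := Equiv.Perm.alternatingGroup_le_of_normal (α := α) (by omega) (N := N.map G.subtype)
      ((Subgroup.nontrivial_iff_ne_bot _).2 (fun h => hN
        ((Subgroup.map_eq_bot_iff_of_injective _ G.subtype_injective).1 h)))
    have hA := alternatingGroup.isMultiplyPretransitive α
    have hA' : MulAction.IsMultiplyPretransitive (alternatingGroup α) α j :=
      MulAction.isMultiplyPretransitive_of_le (n := Nat.card α - 2) (by omega) (by omega)
    refine ⟨fun x y => ?_⟩
    obtain ⟨g, hg⟩ := hA'.exists_smul_eq x y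
    obtain ⟨n, hn, hng⟩ := hle g.2
    refine ⟨⟨n, hn⟩, ?_⟩
    rw [← hg]
    ext i
    change (G.subtype n) (x i) = (g : Equiv.Perm α) (x i)
    rw [hng]
  · refine H16.normal_transitive_of_primitive (by omega) (by omega) hj htop N ?_
    by_contra hc
    push Not at hc
    have h3' : MulAction.IsMultiplyPreprimitive G α 3 :=
      MulAction.isMultiplyPreprimitive_of_le G α hj (by omega)
        (by rw [ENat.card_eq_coe_natCard]; exact_mod_cast (by omega))
    rw [Nat.card_eq_fintype_card] at hdeg
    have := H16.three_primitive_regular (by omega) h3' N hc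
    omega

end Cfsg.Agent.S0698
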