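import Cfsg.Statements.S0700
import Cfsg.Agent.H16.Normal

set_option autoImplicit false
open Cfsg

namespace Cfsg.Agent.S0700


/-- Burnside's Theorem on doubly transitive groups: a minimal normal subgroup of a finite doubly transitive permutation group is elementary abelian and regular, or simple and primitive. -/
theorem result {α : Type*} [Fintype α] [DecidableEq α] (G : Subgroup (Equiv.Perm α)) (hG : MulAction.IsMultiplyPretransitive G α 2) (N : Subgroup G) [N.Normal] (hN : N ≠ ⊥) (hmin : ∀ M : Subgroup G, M.Normal → M ≤ N → M = ⊥ ∨ M = N) : (IsMulCommutative N ∧ (∃ p : ℕ, p.Prime ∧ ∀ n ∈ N, n ^ p = 1) ∧ ∀ a : α, MulAction.stabilizer N a = ⊥) ∨ (IsSimpleGroup N ∧ MulAction.IsPreprimitive N α) := by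
  rcases H16.burnside_minimal_normal hG N hN hmin with h | h
  · left
    have hprim := MulAction.isPreprimitive_of_is_two_pretransitive hG
    have hNt := H16.isPretransitive_of_normal (α := α) N hN
    have : Nontrivial α := by
      by_contra h
      rw [not_nontrivial_iff_subsingleton] at h
      exact hN (Subsingleton.elim _ _)
    obtain ⟨a, -⟩ := exists_pair_ne α
    obtain ⟨hc, p, hp, hpow, -⟩ := H16.regular_normal_elementary hG N a (h a)
    exact ⟨⟨⟨fun x y => Subtype.ext (hc x x.2 y y.2)⟩⟩, ⟨p, hp, hpow⟩, h⟩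
  · exact Or.inr h

end Cfsg.Agent.S0700
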