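import Cfsg.Statements.S0701
import Cfsg.Agent.H16.Centralizer

set_option autoImplicit false
open Cfsg

namespace Cfsg.Agent.S0701


/-- The centraliser in the full symmetric group of a transitive permutation group `G` is semiregular, and it is transitive if and only if `G` is regular. -/
theorem result {α : Type*} (G : Subgroup (Equiv.Perm α)) [MulAction.IsPretransitive G α] : (∀ c ∈ Subgroup.centralizer (G : Set (Equiv.Perm α)), ∀ a : α, c a = a → c = 1) ∧ (MulAction.IsPretransitive (Subgroup.centralizer (G : Set (Equiv.Perm α))) α ↔ ∀ a : α, MulAction.stabilizer G a = ⊥) := by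
  have hc : ∀ c ∈ Subgroup.centralizer (G : Set (Equiv.Perm α)), ∀ (g : G) (x : α),
      c (g • x) = g • c x := by
    intro c hc g x
    have := (Subgroup.mem_centralizer_iff.1 hc) g g.2
    exact (congrArg (fun σ : Equiv.Perm α => σ x) this).symm
  refine ⟨fun c hc' a ha => H16.perm_eq_one_of_commute c (hc c hc') ha, ?_, ?_⟩
  · intro ht a
    exact H16.stabilizer_eq_bot_of_commute (Subgroup.centralizer (G : Set (Equiv.Perm α))) G
      (fun m hm n hn => ((Subgroup.mem_centralizer_iff.1 hm) n hn).symm) a
  · intro h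
    refine ⟨fun a b => ?_⟩
    obtain ⟨c, hc1, hc2⟩ := H16.exists_perm_commute (G := G) ((h a).trans (h b).symm)
    refine ⟨⟨c, Subgroup.mem_centralizer_iff.2 fun g hg => ?_⟩, hc2⟩
    ext x
    exact (hc1 ⟨g, hg⟩ x).symm

end Cfsg.Agent.S0701
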