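import Cfsg.Statements.S0702
import Cfsg.Agent.H16.Centralizer

set_option autoImplicit false
open Cfsg

namespace Cfsg.Agent.S0702


/-- For a transitive permutation group `G` on a finite set, the centraliser of `G` in the symmetric group is isomorphic to `N_G(G_ω)/G_ω`, and its orbit of `ω` is the set of fixed points of `G_ω`. -/
theorem result {α : Type*} [Finite α] (G : Subgroup (Equiv.Perm α)) [MulAction.IsPretransitive G α] (a : α) : Nonempty (Subgroup.centralizer (G : Set (Equiv.Perm α)) ≃* Subgroup.normalizer ((MulAction.stabilizer G a : Subgroup G) : Set G) ⧸ (MulAction.stabilizer G a).subgroupOf (Subgroup.normalizer ((MulAction.stabilizer G a : Subgroup G) : Set G))) ∧ MulAction.orbit (Subgroup.centralizer (G : Set (Equiv.Perm α))) a = MulAction.fixedPoints (MulAction.stabilizer G a) α := by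
  classical
  have hc : ∀ c ∈ Subgroup.centralizer (G : Set (Equiv.Perm α)), ∀ (g : G) (x : α),
      c (g • x) = g • c x := by
    intro c hc g x
    have := (Subgroup.mem_centralizer_iff.1 hc) g g.2
    exact (congrArg (fun σ : Equiv.Perm α => σ x) this).symm
  have hst : ∀ c ∈ Subgroup.centralizer (G : Set (Equiv.Perm α)),
      MulAction.stabilizer G (c a) = MulAction.stabilizer G a := by
    intro c hc'
    ext g
    simp only [MulAction.mem_stabilizer_iff]
    rw [← hc c hc', c.injective.eq_iff]
  have hex : ∀ b : α, MulAction.stabilizer G a = MulAction.stabilizer G b →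
      ∃ c : Subgroup.centralizer (G : Set (Equiv.Perm α)), (c : Equiv.Perm α) a = b := by
    intro b hb
    obtain ⟨c, hc1, hc2⟩ := H16.exists_perm_commute (G := G) hb
    refine ⟨⟨c, Subgroup.mem_centralizer_iff.2 fun g hg => ?_⟩, hc2⟩
    ext x
    exact (hc1 ⟨g, hg⟩ x).symm
  have huniq : ∀ c d : Subgroup.centralizer (G : Set (Equiv.Perm α)),
      (c : Equiv.Perm α) a = (d : Equiv.Perm α) a → c = d := by
    intro c d h
    have := H16.perm_eq_one_of_commute (G := G) ((d⁻¹ * c : Subgroup.centralizer _) : Equiv.Perm α)
      (hc _ (d⁻¹ * c).2) (a := a) (by simp [h])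
    have h2 : d⁻¹ * c = 1 := Subtype.ext this
    exact (inv_mul_eq_one.1 h2).symm
  have hnorm : ∀ n : G, n ∈ Subgroup.normalizer ((MulAction.stabilizer G a : Subgroup G) : Set G) ↔
      MulAction.stabilizer G a = MulAction.stabilizer G (n⁻¹ • a) := by
    intro n
    rw [Subgroup.mem_normalizer_iff, Subgroup.ext_iff]
    refine forall_congr' fun h => ?_
    simp only [MulAction.mem_stabilizer_iff, mul_smul]
    rw [eq_inv_smul_iff]
  constructor
  · choose f hf using hex
    let φ : Subgroup.normalizer ((MulAction.stabilizer G a : Subgroup G) : Set G) →*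
        Subgroup.centralizer (G : Set (Equiv.Perm α)) :=
      MonoidHom.mk' (fun n => f ((n : G)⁻¹ • a) ((hnorm n).1 n.2)) (by
        intro n m
        apply huniq
        simp only [hf, Subgroup.coe_mul, Equiv.Perm.coe_mul, Function.comp_apply]
        rw [hc _ (f _ _).2, hf, mul_inv_rev, mul_smul])
    have hφ : ∀ n, (φ n : Equiv.Perm α) a = (n : G)⁻¹ • a := fun n => hf _ _
    have hsurj : Function.Surjective φ := by
      intro c
      obtain ⟨g, hg⟩ := MulAction.exists_smul_eq G a ((c : Equiv.Perm α) a)
      refine ⟨⟨g⁻¹, (hnorm _).2 (by rw [inv_inv, hg, hst _ c.2])⟩, huniq _ _ ?_⟩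
      rw [hφ]; simpa using hg
    have hker : φ.ker = (MulAction.stabilizer G a).subgroupOf _ := by
      ext n
      rw [MonoidHom.mem_ker, Subgroup.mem_subgroupOf, MulAction.mem_stabilizer_iff]
      constructor
      · intro h
        have := hφ n
        rw [h] at this
        exact (eq_inv_smul_iff.1 this)
      · intro h
        apply huniq
        rw [hφ]
        exact inv_smul_eq_iff.2 h.symm
    exact ⟨((QuotientGroup.quotientKerEquivOfSurjective φ hsurj).symm).trans
      (QuotientGroup.quotientMulEquivOfEq hker)⟩
  · ext b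
    constructor
    · rintro ⟨c, rfl⟩ g
      have : (g : G) ∈ MulAction.stabilizer G ((c : Equiv.Perm α) a) := by
        rw [hst _ c.2]; exact g.2
      exact this
    · intro hb
      have hle : MulAction.stabilizer G a ≤ MulAction.stabilizer G b := fun g hg => hb ⟨g, hg⟩
      have : Finite G := inferInstance
      have heq : MulAction.stabilizer G a = MulAction.stabilizer G b := by
        apply Subgroup.eq_of_le_of_card_ge hle
        have h1 := H16.card_mul_card_stabilizer (G := G) a
        have h2 := H16.card_mul_card_stabilizer (G := G) b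
        have : Nonempty α := ⟨a⟩
        have h3 : 0 < Nat.card α := Nat.card_pos
        rw [← h2] at h1
        exact (Nat.eq_of_mul_eq_mul_left h3 h1).ge
      obtain ⟨c, hc⟩ := hex b heq
      exact ⟨c, hc⟩

end Cfsg.Agent.S0702
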