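import Cfsg.Statements.S0703
import Cfsg.Agent.H16.Centralizer

set_option autoImplicit false
open Cfsg

namespace Cfsg.Agent.S0703


/-- An abelian transitive minimal normal subgroup `M` of a permutation group on a finite set is self-centralising in the symmetric group, regular, elementary abelian, and is the unique minimal normal subgroup. -/
theorem result {α : Type*} [Finite α] (G : Subgroup (Equiv.Perm α)) (M : Subgroup G) [M.Normal] (hM : M ≠ ⊥) (hmin : ∀ L : Subgroup G, L.Normal → L ≤ M → L = ⊥ ∨ L = M) (hab : IsMulCommutative M) (htrans : MulAction.IsPretransitive M α) : Subgroup.centralizer ((M.map G.subtype : Subgroup (Equiv.Perm α)) : Set (Equiv.Perm α)) = M.map G.subtype ∧ (∀ a : α, MulAction.stabilizer M a = ⊥) ∧ (∃ p : ℕ, p.Prime ∧ ∀ m ∈ M, m ^ p = 1) ∧ ∀ L : Subgroup G, L.Normal → L ≠ ⊥ → (∀ L' : Subgroup G, L'.Normal → L' ≤ L → L' = ⊥ ∨ L' = L) → L = M := by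
  have hab' : ∀ m ∈ M, ∀ n ∈ M, m * n = n * m := fun m hm n hn =>
    congrArg Subtype.val (hab.is_comm.comm (⟨m, hm⟩ : M) ⟨n, hn⟩)
  have hne : Nonempty α := by
    by_contra h
    rw [not_nonempty_iff] at h
    exact hM (Subsingleton.elim _ _)
  have ht' : MulAction.IsPretransitive (M.map G.subtype) α := ⟨fun a b => by
    obtain ⟨m, hm⟩ := MulAction.exists_smul_eq M a b
    exact ⟨⟨((m : G) : Equiv.Perm α), ⟨m, m.2, rfl⟩⟩, hm⟩⟩
  have hab'' : ∀ m ∈ M.map G.subtype, ∀ n ∈ M.map G.subtype, m * n = n * m := by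
    rintro _ ⟨m, hm, rfl⟩ _ ⟨n, hn, rfl⟩
    rw [← map_mul, hab' m hm n hn, map_mul]
  refine ⟨le_antisymm ?_ ?_, H16.stabilizer_eq_bot_of_commute M M hab',
    H16.exists_prime_pow_eq_one_of_minimal_normal M hM hmin hab', ?_⟩
  · intro c hc
    exact H16.mem_of_commute_transitive (α := α) _ _ hab'' (Subgroup.mem_centralizer_iff.1 hc)
  · intro c hc
    exact Subgroup.mem_centralizer_iff.2 fun m hm => hab'' m hm c hc
  · intro L hLn hL hLmin
    by_contra hLM
    have := H16.commute_of_minimal_normal hmin hLmin (Ne.symm hLM)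
    have hle : L ≤ M := fun l hl =>
      H16.mem_of_commute_transitive (α := α) M M hab' (fun m hm => this m hm l hl)
    rcases hmin L hLn hle with h | h
    · exact hL h
    · exact hLM h

end Cfsg.Agent.S0703
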