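import Cfsg.Statements.S0704
import Cfsg.Agent.H16.Centralizer

set_option autoImplicit false
open Cfsg

namespace Cfsg.Agent.S0704


/-- Two distinct transitive minimal normal subgroups `M`, `N` of a permutation group are regular, non-abelian, isomorphic, each other's centraliser in the symmetric group, and the only minimal normal subgroups. -/
theorem result {α : Type*} (G : Subgroup (Equiv.Perm α)) (M N : Subgroup G) [M.Normal] [N.Normal] (hM : M ≠ ⊥) (hN : N ≠ ⊥) (hMmin : ∀ L : Subgroup G, L.Normal → L ≤ M → L = ⊥ ∨ L = M) (hNmin : ∀ L : Subgroup G, L.Normal → L ≤ N → L = ⊥ ∨ L = N) (hMN : M ≠ N) (hMt : MulAction.IsPretransitive M α) (hNt : MulAction.IsPretransitive N α) : (∀ a : α, MulAction.stabilizer M a = ⊥) ∧ (∀ a : α, MulAction.stabilizer N a = ⊥) ∧ ¬ IsMulCommutative M ∧ Nonempty (M ≃* N) ∧ Subgroup.centralizer ((M.map G.subtype : Subgroup (Equiv.Perm α)) : Set (Equiv.Perm α)) = N.map G.subtype ∧ Subgroup.centralizer ((N.map G.subtype : Subgroup (Equiv.Perm α)) : Set (Equiv.Perm α))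 = M.map G.subtype ∧ ∀ L : Subgroup G, L.Normal → L ≠ ⊥ → (∀ L' : Subgroup G, L'.Normal → L' ≤ L → L' = ⊥ ∨ L' = L) → L = M ∨ L = N := by
  have hne : Nonempty α := by
    by_contra h
    rw [not_nonempty_iff] at h
    exact hM (Subsingleton.elim _ _)
  have ht' : ∀ M : Subgroup G, MulAction.IsPretransitive M α →
      MulAction.IsPretransitive (M.map G.subtype) α := fun M _ => ⟨fun a b => by
    obtain ⟨m, hm⟩ := MulAction.exists_smul_eq M a b
    exact ⟨⟨((m : G) : Equiv.Perm α), ⟨m, m.2, rfl⟩⟩, hm⟩⟩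
  have hc := H16.commute_of_minimal_normal hMmin hNmin hMN
  have hc' : ∀ n ∈ N, ∀ m ∈ M, n * m = m * n := fun n hn m hm => (hc m hm n hn).symm
  have hcent : ∀ M N : Subgroup G, MulAction.IsPretransitive M α → MulAction.IsPretransitive N α →
      (∀ m ∈ M, ∀ n ∈ N, m * n = n * m) →
      Subgroup.centralizer ((M.map G.subtype : Subgroup (Equiv.Perm α)) : Set (Equiv.Perm α)) =
        N.map G.subtype := by
    intro M N hMt hNt hc
    have := ht' M hMt
    have := ht' N hNt
    have hab'' : ∀ m ∈ M.map G.subtype, ∀ n ∈ N.map G.subtype, m * n = n * m := by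
      rintro _ ⟨m, hm, rfl⟩ _ ⟨n, hn, rfl⟩
      rw [← map_mul, hc m hm n hn, map_mul]
    refine le_antisymm (fun c hc => ?_) (fun c hc => ?_)
    · exact H16.mem_of_commute_transitive (α := α) _ _ hab'' (Subgroup.mem_centralizer_iff.1 hc)
    · exact Subgroup.mem_centralizer_iff.2 fun m hm => hab'' m hm c hc
  refine ⟨H16.stabilizer_eq_bot_of_commute N M hc', H16.stabilizer_eq_bot_of_commute M N hc, ?_,
    H16.nonempty_mulEquiv_of_commute (α := α) M N hc, hcent M N hMt hNt hc, hcent N M hNt hMt hc', ?_⟩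
  · intro hab
    have hab' : ∀ m ∈ M, ∀ n ∈ M, m * n = n * m := fun m hm n hn =>
      congrArg Subtype.val (hab.is_comm.comm (⟨m, hm⟩ : M) ⟨n, hn⟩)
    have hle : M ≤ N := fun m hm =>
      H16.mem_of_commute_transitive (α := α) M N hc (fun m' hm' => hab' m' hm' m hm)
    rcases hNmin M inferInstance hle with h | h
    · exact hM h
    · exact hMN h
  · intro L hLn hL hLmin
    by_cases hLM : L = M
    · exact Or.inl hLM
    right
    have := H16.commute_of_minimal_normal hMmin hLmin (Ne.symm hLM)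
    have hle : L ≤ N := fun l hl =>
      H16.mem_of_commute_transitive (α := α) M N hc (fun m hm => this m hm l hl)
    exact (hNmin L hLn hle).resolve_left hL

end Cfsg.Agent.S0704
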