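import Cfsg.Statements.S0707
import Cfsg.Agent.H16.Centralizer

set_option autoImplicit false
open Cfsg

namespace Cfsg.Agent.S0707


/-- In a primitive permutation group, distinct points have distinct stabilisers unless the group is regular of prime degree. -/
theorem result {α : Type*} (G : Subgroup (Equiv.Perm α)) [MulAction.IsPreprimitive G α] (h : ¬ (Nat.card α).Prime ∨ ∃ a : α, MulAction.stabilizer G a ≠ ⊥) {a b : α} (hab : a ≠ b) : MulAction.stabilizer G a ≠ MulAction.stabilizer G b := by
  intro heq
  have : Nontrivial α := ⟨a, b, hab⟩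
  have hco : IsCoatom (MulAction.stabilizer G a) :=
    MulAction.IsPreprimitive.isCoatom_stabilizer_of_isPreprimitive G a
  obtain ⟨g, hg⟩ := MulAction.exists_smul_eq G a b
  have hnorm : Subgroup.normalizer ((MulAction.stabilizer G a : Subgroup G) : Set G) = ⊤ := by
    apply hco.2
    refine lt_of_le_of_ne Subgroup.le_normalizer ?_
    intro h
    have : g⁻¹ ∈ Subgroup.normalizer ((MulAction.stabilizer G a : Subgroup G) : Set G) := by
      rw [Subgroup.mem_normalizer_iff]
      intro k
      conv_lhs => rw [heq, ← hg]
      simp only [MulAction.mem_stabilizer_iff, mul_smul, inv_inv]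
      rw [inv_smul_eq_iff]
    rw [← h, inv_mem_iff, MulAction.mem_stabilizer_iff, hg] at this
    exact hab this.symm
  have hn : (MulAction.stabilizer G a).Normal := Subgroup.normalizer_eq_top_iff.1 hnorm
  have hall : ∀ x : α, MulAction.stabilizer G x = ⊥ := by
    have h0 : MulAction.stabilizer G a = ⊥ := by
      by_contra h0
      have := H16.isPretransitive_of_normal (α := α) _ h0
      obtain ⟨k, hk⟩ := MulAction.exists_smul_eq (MulAction.stabilizer G a) a b
      exact hab (k.2.symm.trans hk)
    intro x
    obtain ⟨k, rfl⟩ := MulAction.exists_smul_eq G a x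
    rw [MulAction.stabilizer_smul_eq_stabilizer_map_conj, h0, Subgroup.map_bot]
  rcases h with h | ⟨x, hx⟩
  · apply h
    rw [← H16.card_eq_of_regular (G := G) a (hall a)]
    exact H16.card_prime_of_isCoatom_bot (hall a ▸ hco)
  · exact hx (hall x)

end Cfsg.Agent.S0707
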