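import Cfsg.Statements.S0709
import Mathlib

set_option autoImplicit false
open Cfsg

namespace Cfsg.Agent.S0709

theorem ext_step {Γ : Type*} [Group Γ] (A B : Subgroup Γ) (a b : Γ) (hAB : A ≤ B) (ha : a ∈ B)
    (hdc : ∀ g ∈ B, g ∈ A ∨ ∃ x ∈ A, ∃ y ∈ A, g = x * a * y)
    (hn : ∀ g ∈ A, b * g * b⁻¹ ∈ A) (hb2 : b ^ 2 ∈ A) (hab : (a * b) ^ 3 ∈ A) :
    ∀ g ∈ B ⊔ Subgroup.zpowers b, g ∈ B ∨ ∃ x ∈ B, ∃ y ∈ B, g = x * b * y := by
  have hn' : ∀ g ∈ A, b⁻¹ * g * b ∈ A := by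
    intro g hg
    have : b⁻¹ * g * b = (b ^ 2)⁻¹ * (b * g * b⁻¹) * b ^ 2 := by simp only [pow_two]; group
    rw [this]
    exact A.mul_mem (A.mul_mem (A.inv_mem hb2) (hn g hg)) hb2
  have hB : ∀ u ∈ B, ∀ g, (g ∈ B ∨ ∃ x ∈ B, ∃ y ∈ B, g = x * b * y) →
      (u * g ∈ B ∨ ∃ x ∈ B, ∃ y ∈ B, u * g = x * b * y) := by
    rintro u hu g (hg | ⟨x, hx, y, hy, rfl⟩)
    · exact Or.inl (B.mul_mem hu hg)
    · exact Or.inr ⟨u * x, B.mul_mem hu hx, y, hy, by group⟩
  have hb : ∀ g, (g ∈ B ∨ ∃ x ∈ B, ∃ y ∈ B, g = x * b * y) →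
      (b * g ∈ B ∨ ∃ x ∈ B, ∃ y ∈ B, b * g = x * b * y) := by
    rintro g (hg | ⟨x, hx, y, hy, rfl⟩)
    · exact Or.inr ⟨1, B.one_mem, g, hg, by group⟩
    · rcases hdc x hx with hx | ⟨u, hu, v, hv, rfl⟩
      · left
        have : b * (x * b * y) = (b * x * b⁻¹) * b ^ 2 * y := by simp only [pow_two]; group
        rw [this]
        exact B.mul_mem (B.mul_mem (hAB (hn x hx)) (hAB hb2)) hy
      · right
        refine ⟨(b * u * b⁻¹) * a⁻¹ * (a * b) ^ 3 * (b ^ 2)⁻¹, ?_, a⁻¹ * (b⁻¹ * v * b) * y, ?_, ?_⟩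
        · exact B.mul_mem (B.mul_mem (B.mul_mem (hAB (hn u hu)) (B.inv_mem ha)) (hAB hab))
            (B.inv_mem (hAB hb2))
        · exact B.mul_mem (B.mul_mem (B.inv_mem ha) (hAB (hn' v hv))) hy
        · simp only [pow_succ, pow_zero, one_mul]; group
  intro g hg
  rw [Subgroup.zpowers_eq_closure, ← Subgroup.closure_eq B, ← Subgroup.closure_union] at hg
  induction hg using Subgroup.closure_induction_left with
  | one => exact Or.inl B.one_mem
  | mul_left x hx y hy ih =>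
    rcases hx with hx | hx
    · exact hB x hx y ih
    · rw [Set.mem_singleton_iff.1 hx]; exact hb y ih
  | inv_mul_cancel x hx y hy ih =>
    rcases hx with hx | hx
    · exact hB x⁻¹ (B.inv_mem hx) y ih
    · rw [Set.mem_singleton_iff.1 hx]
      have : b⁻¹ * y = (b ^ 2)⁻¹ * (b * y) := by simp only [pow_two]; group
      rw [this]
      exact hB _ (B.inv_mem (hAB hb2)) _ (hb y ih)

/-- the chain of groups -/
def chain {Γ : Type*} [Group Γ] (A : Subgroup Γ) (s : ℕ → Γ) : ℕ → Subgroup Γ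
  | 0 => A
  | m + 1 => chain A s m ⊔ Subgroup.zpowers (s (m + 1))

theorem chain_ind {Γ : Type*} [Group Γ] (B : Subgroup Γ) (b : Γ) (C : Subgroup Γ) (h1 : B ≤ C)
    (h2 : b ∈ C) : B ⊔ Subgroup.zpowers b ≤ C :=
  sup_le h1 (Subgroup.zpowers_le_of_mem h2)

/-- Witt's Lemma for constructing transitive extensions. Points `q 1, …, q t` (`t ≥ 2`) of a finite set are given; `G` fixes `q i` for `i ≥ 3` and is doubly transitive on the remaining points; `s 1 ∈ G` swaps `q 1, q 2`; for `2 ≤ i ≤ t-1`, `s i` swaps `q i, q (i+1)` and fixes the other `q j`; with `H` the stabiliser of `q 1, q 2` in `G`: `s i ^ 2 ∈ H`, `(s i * s (i+1)) ^ 3 ∈ H`, `(s i * s j) ^ 2 ∈ H` for `j ≥ i + 2`, and `s i` (`i ≥ 2`) normalises the stabiliser of `q 2` in `G`. Then `G` and the `s i` generate a `t`-transitive group whose pointwise stabiliser of the `q`'s is `H`. -/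
theorem result {α : Type*} [Fintype α] [DecidableEq α] (t : ℕ) (ht : 2 ≤ t) (q : ℕ → α) (hq : ∀ i j : ℕ, 1 ≤ i → i ≤ t → 1 ≤ j → j ≤ t → q i = q j → i = j) (G : Subgroup (Equiv.Perm α)) (hfix : ∀ g ∈ G, ∀ i : ℕ, 3 ≤ i → i ≤ t → g (q i) = q i) (h2 : ∀ a b c d : α, (∀ i, 3 ≤ i → i ≤ t → a ≠ q i ∧ b ≠ q i ∧ c ≠ q i ∧ d ≠ q i) → a ≠ b → c ≠ d → ∃ g ∈ G, g a = c ∧ g b = d) (s : ℕ → Equiv.Perm α) (hs1 : s 1 ∈ G) (hs1q : s 1 (q 1) = q 2 ∧ s 1 (q 2) = q 1) (hsq : ∀ i : ℕ, 2 ≤ i → i + 1 ≤ t → s i (q i) = q (i + 1) ∧ s i (q (i + 1)) = q i ∧ ∀ j : ℕ, 1 ≤ j → j ≤ t → j ≠ i → j ≠ i + 1 → s i (q j) = q j) (H : Subgroup (Equiv.Perm α)) (hH : H = G ⊓ MulAction.stabilizer (Equiv.Perm α) (q 1) ⊓ MulAction.stabilizer (Equiv.Perm α) (q 2)) (hsq2 : ∀ i : ℕ, 1 ≤ i → i + 1 ≤ t → s i ^ 2 ∈ H) (hbraid : ∀ i : ℕ, 1 ≤ i → i + 2 ≤ t → (s i * s (i + 1)) ^ 3 ∈ H) (hcomm : ∀ i j : ℕ, 1 ≤ i → i + 2 ≤ j → j + 1 ≤ t → (s i * s j) ^ 2 ∈ H ∧ (s j * s i)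 ^ 2 ∈ H) (hnorm : ∀ i : ℕ, 2 ≤ i → i + 1 ≤ t → ∀ g ∈ G ⊓ MulAction.stabilizer (Equiv.Perm α) (q 2), s i * g * (s i)⁻¹ ∈ G ⊓ MulAction.stabilizer (Equiv.Perm α) (q 2)) : MulAction.IsMultiplyPretransitive ↥(Subgroup.closure ((G : Set (Equiv.Perm α)) ∪ {x | ∃ i : ℕ, 2 ≤ i ∧ i + 1 ≤ t ∧ x = s i})) α t ∧ Subgroup.closure ((G : Set (Equiv.Perm α)) ∪ {x | ∃ i : ℕ, 2 ≤ i ∧ i + 1 ≤ t ∧ x = s i}) ⊓ fixingSubgroup (Equiv.Perm α) {x | ∃ i : ℕ, 1 ≤ i ∧ i ≤ t ∧ x = q i} = H := by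
  classical
  set A := G ⊓ MulAction.stabilizer (Equiv.Perm α) (q 2) with hA
  set K := chain A s with hK
  have hK0 : K 0 = A := rfl
  have hKs : ∀ m, K (m + 1) = K m ⊔ Subgroup.zpowers (s (m + 1)) := fun m => rfl
  have hle : ∀ m, K m ≤ K (m + 1) := fun m => by rw [hKs]; exact le_sup_left
  have hsK : ∀ m, s (m + 1) ∈ K (m + 1) := fun m => by
    rw [hKs]; exact Subgroup.mem_sup_right (Subgroup.mem_zpowers _)
  have hmono : Monotone K := monotone_nat_of_le_succ hle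
  have hHA : H ≤ A := by
    rw [hH]; intro g hg; exact ⟨hg.1.1, hg.2⟩
  have hHK : ∀ m, H ≤ K m := fun m => hHA.trans (hmono (Nat.zero_le m))
  have hne : ∀ i j : ℕ, 1 ≤ i → i ≤ t → 1 ≤ j → j ≤ t → i ≠ j → q i ≠ q j :=
    fun i j a b c d e f => e (hq i j a b c d f)
  -- swaps
  have hsw : ∀ m, m + 2 ≤ t → s (m + 1) (q (m + 1)) = q (m + 2) ∧ s (m + 1) (q (m + 2)) = q (m + 1) := by
    intro m hm
    rcases Nat.eq_zero_or_pos m with rfl | h0
    · exact hs1q
    · exact ⟨(hsq (m + 1) (by omega) hm).1, (hsq (m + 1) (by omega) hm).2.1⟩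
  -- fixing
  have hfx : ∀ m, ∀ j, m + 2 ≤ j → j ≤ t → K m ≤ MulAction.stabilizer (Equiv.Perm α) (q j) := by
    intro m
    induction m with
    | zero =>
      intro j hj hjt g hg
      rcases eq_or_lt_of_le hj with h | h
      · subst h; exact hg.2
      · exact hfix g hg.1 j h hjt
    | succ m ih =>
      intro j hj hjt
      rw [hKs]
      refine chain_ind _ _ _ (ih j (by omega) hjt) ?_
      rcases Nat.eq_zero_or_pos m with rfl | h0
      · exact hfix _ hs1 j hj hjt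
      · exact (hsq (m + 1) (by omega) (by omega)).2.2 j (by omega) hjt (by omega) (by omega)
  have hfx' : ∀ m, ∀ j, m + 2 ≤ j → j ≤ t → ∀ g ∈ K m, g (q j) = q j :=
    fun m j a b g hg => hfx m j a b hg
  -- normalising
  have hnm : ∀ m, ∀ j, m + 2 ≤ j → j + 1 ≤ t → ∀ g ∈ K m, s j * g * (s j)⁻¹ ∈ K m := by
    intro m
    induction m with
    | zero => intro j hj hjt g hg; exact hnorm j hj hjt g hg
    | succ m ih =>
      intro j hj hjt
      have : K (m + 1) ≤ (K (m + 1)).comap (MulAut.conj (s j)).toMonoidHom := by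
        conv_lhs => rw [hKs]
        refine chain_ind _ _ _ (fun g hg => hle m (ih j (by omega) hjt g hg)) ?_
        show s j * s (m + 1) * (s j)⁻¹ ∈ K (m + 1)
        have e : s j * s (m + 1) * (s j)⁻¹ =
            (s (m + 1))⁻¹ * (s (m + 1) * s j) ^ 2 * (s j ^ 2)⁻¹ := by
          simp only [pow_two]; group
        rw [e]
        exact (K _).mul_mem ((K _).mul_mem ((K _).inv_mem (hsK m))
          (hHK _ (hcomm (m + 1) j (by omega) (by omega) hjt).1))
          ((K _).inv_mem (hHK _ (hsq2 j (by omega) hjt)))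
      exact fun g hg => this hg
  -- base transitivity
  have hT0 : ∀ x, (∀ j, 2 ≤ j → j ≤ t → x ≠ q j) → ∃ g ∈ K 0, g x = q 1 := by
    intro x hx
    obtain ⟨g, hg, h1, h2⟩ := h2 x (q 2) (q 1) (q 2) (fun i hi hit =>
      ⟨hx i (by omega) hit, hne 2 i (by omega) ht (by omega) hit (by omega),
        hne 1 i (by omega) (by omega) (by omega) hit (by omega),
        hne 2 i (by omega) ht (by omega) hit (by omega)⟩) (hx 2 le_rfl ht)
      (hne 1 2 (by omega) (by omega) (by omega) ht (by omega))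
    exact ⟨g, ⟨hg, h2⟩, h1⟩
  have hGdc : ∀ g ∈ G, g ∈ K 0 ∨ ∃ x ∈ K 0, ∃ y ∈ K 0, g = x * s 1 * y := by
    intro g hg
    by_cases h : g (q 2) = q 2
    · exact Or.inl ⟨hg, h⟩
    · right
      obtain ⟨u, hu, hu1⟩ := hT0 (g (q 2)) (fun j hj hjt => by
        rcases eq_or_lt_of_le hj with h' | h'
        · subst h'; exact h
        · intro e
          rw [← hfix g hg j h' hjt] at e
          exact hne 2 j (by omega) ht (by omega) hjt (by omega) (g.injective e))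
      refine ⟨u⁻¹, (K 0).inv_mem hu, (s 1)⁻¹ * u * g, ⟨G.mul_mem (G.mul_mem (G.inv_mem hs1) hu.1) hg, ?_⟩,
        by group⟩
      show ((s 1)⁻¹ * u * g) (q 2) = q 2
      simp only [Equiv.Perm.mul_apply, hu1]
      rw [Equiv.Perm.inv_eq_iff_eq]; exact hs1q.2.symm
  have hK1 : K 1 = G := by
    apply le_antisymm
    · rw [hKs]; exact chain_ind _ _ _ (fun g hg => hg.1) hs1
    · intro g hg
      rcases hGdc g hg with h | ⟨x, hx, y, hy, rfl⟩
      · exact hle 0 h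
      · exact (K 1).mul_mem ((K 1).mul_mem (hle 0 hx) (hsK 0)) (hle 0 hy)
  have hdc : ∀ m, m + 2 ≤ t → ∀ g ∈ K (m + 1),
      g ∈ K m ∨ ∃ x ∈ K m, ∃ y ∈ K m, g = x * s (m + 1) * y := by
    intro m
    induction m with
    | zero => intro _ g hg; rw [hK1] at hg; exact hGdc g hg
    | succ m ih =>
      intro hm g hg
      rw [hKs] at hg
      exact ext_step (K m) (K (m + 1)) (s (m + 1)) (s (m + 2)) (hle m) (hsK m) (ih (by omega))
        (hnm m (m + 2) le_rfl hm) (hHK _ (hsq2 (m + 2) (by omega) hm))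
        (hHK _ (hbraid (m + 1) (by omega) hm)) g hg
  have hst : ∀ m, m + 2 ≤ t → ∀ g ∈ K (m + 1), g (q (m + 2)) = q (m + 2) → g ∈ K m := by
    intro m hm g hg hgq
    rcases hdc m hm g hg with h | ⟨x, hx, y, hy, rfl⟩
    · exact h
    · exfalso
      simp only [Equiv.Perm.mul_apply, hfx' m (m + 2) le_rfl hm y hy, (hsw m hm).2] at hgq
      rw [← hfx' m (m + 2) le_rfl hm x hx] at hgq
      exact hne (m + 1) (m + 2) (by omega) (by omega) (by omega) hm (by omega) (x.injective hgq)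
  have hT : ∀ m, m + 1 ≤ t → ∀ x, (∀ j, m + 2 ≤ j → j ≤ t → x ≠ q j) → ∃ g ∈ K m, g x = q (m + 1) := by
    intro m
    induction m with
    | zero => intro _ x hx; exact hT0 x hx
    | succ m ih =>
      intro hm x hx
      by_cases h : x = q (m + 2)
      · exact ⟨1, (K _).one_mem, h⟩
      · obtain ⟨g, hg, hgx⟩ := ih (by omega) x (fun j hj hjt => by
          rcases eq_or_lt_of_le hj with h' | h'
          · subst h'; exact h
          · exact hx j h' hjt)
        exact ⟨s (m + 1) * g, (K _).mul_mem (hsK m) (hle m hg), by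
          rw [Equiv.Perm.mul_apply, hgx, (hsw m hm).1]⟩
  have hP : ∀ m, m + 1 ≤ t → ∀ a : ℕ → α,
      (∀ i j, 1 ≤ i → i ≤ m + 1 → 1 ≤ j → j ≤ m + 1 → a i = a j → i = j) →
      (∀ i j, 1 ≤ i → i ≤ m + 1 → m + 2 ≤ j → j ≤ t → a i ≠ q j) →
      ∃ g ∈ K m, ∀ i, 1 ≤ i → i ≤ m + 1 → g (a i) = q i := by
    intro m
    induction m with
    | zero =>
      intro hm a _ ha
      obtain ⟨g, hg, h⟩ := hT0 (a 1) (fun j hj hjt => ha 1 j le_rfl le_rfl hj hjt)
      exact ⟨g, hg, fun i h1 h2 => by obtain rfl : i = 1 := by omega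
                                      exact h⟩
    | succ m ih =>
      intro hm a hinj ha
      obtain ⟨g, hg, hga⟩ := hT (m + 1) hm (a (m + 2)) (fun j hj hjt => ha _ j (by omega) le_rfl hj hjt)
      obtain ⟨u, hu, hua⟩ := ih (by omega) (fun i => g (a i))
        (fun i j a1 a2 a3 a4 e => hinj i j a1 (by omega) a3 (by omega) (g.injective e))
        (fun i j a1 a2 a3 a4 e => by
          rcases eq_or_lt_of_le a3 with h' | h'
          · subst h'
            rw [← hga] at e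
            have := hinj i (m + 2) a1 (by omega) (by omega) le_rfl (g.injective e)
            omega
          · rw [← hfx' (m + 1) j h' a4 g hg] at e
            exact ha i j a1 (by omega) h' a4 (g.injective e))
      refine ⟨u * g, (K _).mul_mem (hle m hu) hg, fun i h1 h2 => ?_⟩
      rcases eq_or_lt_of_le h2 with h' | h'
      · subst h'
        rw [Equiv.Perm.mul_apply, hga, hfx' m (m + 2) le_rfl hm u hu]
      · exact hua i h1 (by omega)
  have hcl : ∀ m, K (m + 1) = Subgroup.closure ((G : Set (Equiv.Perm α)) ∪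
      {x | ∃ i : ℕ, 2 ≤ i ∧ i + 1 ≤ m + 2 ∧ x = s i}) := by
    intro m
    apply le_antisymm
    · induction m with
      | zero => rw [hK1]; intro g hg; exact Subgroup.subset_closure (Or.inl hg)
      | succ m ih =>
        rw [hKs]
        refine chain_ind _ _ _ (ih.trans (Subgroup.closure_mono ?_))
          (Subgroup.subset_closure (Or.inr ⟨m + 2, by omega, le_rfl, rfl⟩))
        rintro x (hx | ⟨i, h1, h2, rfl⟩)
        · exact Or.inl hx
        · exact Or.inr ⟨i, h1, by omega, rfl⟩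
    · rw [Subgroup.closure_le]
      rintro x (hx | ⟨i, h1, h2, rfl⟩)
      · exact hmono (by omega : 1 ≤ m + 1) (hK1 ▸ hx)
      · obtain ⟨i, rfl⟩ : ∃ k, i = k + 1 := ⟨i - 1, by omega⟩
        exact hmono (by omega : i + 1 ≤ m + 1) (hsK i)
  obtain ⟨m, rfl⟩ : ∃ m, t = m + 2 := ⟨t - 2, by omega⟩
  rw [← hcl m]
  constructor
  · have key : ∀ x : Fin (m + 2) ↪ α, ∃ g ∈ K (m + 1), ∀ i : Fin (m + 2), g (x i) = q (i + 1) := by
      intro x
      obtain ⟨g, hg, h⟩ := hP (m + 1) le_rfl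
        (fun i => if h : 1 ≤ i ∧ i ≤ m + 2 then x ⟨i - 1, by omega⟩ else q 1)
        (fun i j a1 a2 a3 a4 e => by
          simp only [dif_pos (And.intro a1 a2), dif_pos (And.intro a3 a4)] at e
          have := Fin.ext_iff.1 (x.injective e)
          simp only at this
          omega)
        (fun i j a1 a2 a3 a4 => by omega)
      refine ⟨g, hg, fun i => ?_⟩
      have := h (i + 1) (by omega) (by omega)
      rw [dif_pos ⟨by omega, by omega⟩] at this
      simpa using this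
    rw [MulAction.isMultiplyPretransitive_iff]
    intro x y
    obtain ⟨g, hg, hgx⟩ := key x
    obtain ⟨u, hu, huy⟩ := key y
    refine ⟨⟨u⁻¹ * g, (K _).mul_mem ((K _).inv_mem hu) hg⟩, ?_⟩
    ext i
    show (u⁻¹ * g) (x i) = y i
    rw [Equiv.Perm.mul_apply, hgx, Equiv.Perm.inv_eq_iff_eq, huy]
  · apply le_antisymm
    · rintro g ⟨hg, hgf⟩
      have hf : ∀ i, 1 ≤ i → i ≤ m + 2 → g (q i) = q i := fun i a b =>
        (mem_fixingSubgroup_iff _).1 hgf (q i) ⟨i, a, b, rfl⟩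
      have hdown : ∀ k, k ≤ m + 1 → g ∈ K (m + 1 - k) := by
        intro k
        induction k with
        | zero => intro _; exact hg
        | succ k ih =>
          intro hk
          have h1 := ih (by omega)
          have e : m + 1 - k = (m + 1 - (k + 1)) + 1 := by omega
          rw [e] at h1
          exact hst _ (by omega) g h1 (hf _ (by omega) (by omega))
      have h0 := hdown (m + 1) le_rfl
      rw [Nat.sub_self] at h0
      rw [hH]
      exact ⟨⟨h0.1, hf 1 le_rfl (by omega)⟩, h0.2⟩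
    · intro g hg
      refine ⟨hHK _ hg, (mem_fixingSubgroup_iff _).2 ?_⟩
      rintro _ ⟨i, h1, h2, rfl⟩
      rcases eq_or_lt_of_le h1 with h' | h'
      · subst h'; rw [hH] at hg; exact hg.1.2
      · exact hfx' 0 i h' h2 g (hHK 0 hg)

end Cfsg.Agent.S0709
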