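import Cfsg.Statements.S0710
import Cfsg.Agent.H16.PrimeDeg2
import Mathlib.Tactic.NormNum.Prime

set_option autoImplicit false
open Cfsg

namespace Cfsg.Agent.S0710


/-- No transitive permutation group on 13 points has order `13 * 12 * 11 * 10 * 9 * 8`. -/
theorem result {α : Type*} [Fintype α] [DecidableEq α] (hα : Fintype.card α = 13) (G : Subgroup (Equiv.Perm α)) [MulAction.IsPretransitive G α] : Nat.card G ≠ 13 * 12 * 11 * 10 * 9 * 8 := by
  intro h
  have : Fact (Nat.Prime 13) := ⟨by norm_num⟩
  obtain ⟨P⟩ : Nonempty (Sylow 13 G) := inferInstance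
  obtain ⟨-, -, -, d, d1, -, d2⟩ := H16.prime_degree_sylow (Nat.card_eq_fintype_card.trans hα) P
  have : Nat.card (Sylow 13 G) % 13 = 1 := card_sylow_modEq_one 13 G
  have := Nat.le_of_dvd (by norm_num) d1
  interval_cases d <;> omega

end Cfsg.Agent.S0710
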