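import Cfsg.Statements.S0714
import Cfsg.Agent.H16.PermModule
import Mathlib.Tactic.LinearCombination

set_option autoImplicit false
open Cfsg

namespace Cfsg.Agent.S0714


/-- Over any field, the permutation module of the alternating group of degree at least 5 has exactly four invariant subspaces: zero, the constant functions, the functions with coordinate sum zero, and everything. -/
theorem result {α : Type*} [Fintype α] [DecidableEq α] (hα : 5 ≤ Fintype.card α) {K : Type*} [Field K] (W : Subrepresentation (Cfsg.permRep K (alternatingGroup α) α)) : W.toSubmodule = ⊥ ∨ W = Cfsg.permConstants K (alternatingGroup α) α ∨ W = Cfsg.permSumZero K (alternatingGroup α) α ∨ W.toSubmodule = ⊤ := by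
  have hW := H16.pinv_of_subrep W
  have h3 : MulAction.IsMultiplyPretransitive (alternatingGroup α) α 3 :=
    have := alternatingGroup.isMultiplyPretransitive α
    MulAction.isMultiplyPretransitive_of_le (n := Nat.card α - 2) (by rw [Nat.card_eq_fintype_card]; omega)
      (Nat.sub_le _ _)
  by_cases hc : W.toSubmodule ≤ (Cfsg.permConstants K (alternatingGroup α) α).toSubmodule
  · by_cases h0 : W.toSubmodule = ⊥
    · exact .inl h0
    refine .inr (.inl (Subrepresentation.toSubmodule_injective (le_antisymm hc (H16.permConstants_le_iff.2 ?_))))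
    obtain ⟨f, hf, hf0⟩ := (Submodule.ne_bot_iff _).1 h0
    obtain ⟨c, rfl⟩ := H16.mem_permConstants.1 (hc hf)
    convert W.toSubmodule.smul_mem c⁻¹ hf using 1
    ext
    simp [inv_mul_cancel₀ (show c ≠ 0 by rintro rfl; exact hf0 rfl)]
  obtain ⟨f, hf, hfc⟩ := SetLike.not_le_iff_exists.1 hc
  obtain ⟨a, b, hab⟩ : ∃ a b, f a ≠ f b := by
    by_contra! h
    have : Nonempty α := Fintype.card_pos_iff.1 (by omega)
    exact hfc (H16.mem_permConstants.2 ⟨f (Classical.arbitrary α), funext fun x => h _ _⟩)
  have nab : a ≠ b := fun e => hab (e ▸ rfl)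
  obtain ⟨d, e, hd, he, hde⟩ := Finset.one_lt_card_iff.1 (show 1 < ({a, b}ᶜ : Finset α).card by
    rw [Finset.card_compl, Finset.card_pair nab]; omega)
  simp only [Finset.mem_compl, Finset.mem_insert, Finset.mem_singleton, not_or] at hd he
  obtain ⟨σ, s1, s2, s3⟩ := H16.exists_smul3 h3 (Ne.symm hd.1) (Ne.symm he.1) hde (Ne.symm hd.2) (Ne.symm he.2) hde
  let τ : alternatingGroup α := ⟨Equiv.swap a d * Equiv.swap d e, by simp [Ne.symm hd.1, hde]⟩
  have h1 := W.toSubmodule.sub_mem hf (hW σ f hf)
  have h2 : (Pi.single a 1 - Pi.single e 1 : α → K) ∈ W.toSubmodule := by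
    convert W.toSubmodule.smul_mem (f a - f b)⁻¹ (W.toSubmodule.sub_mem h1 (hW τ _ h1))
    ext x
    have t : τ • x = Equiv.swap a d (Equiv.swap d e x) := rfl
    have := inv_mul_cancel₀ (sub_ne_zero.2 hab)
    simp only [Pi.smul_apply, Pi.sub_apply, t, smul_eq_mul]
    by_cases xa : x = a
    · subst xa; simp [Equiv.swap_apply_of_ne_of_ne (Ne.symm hd.1) (Ne.symm he.1), s1, s2, Ne.symm he.1, this]
    by_cases xd : x = d
    · subst xd; simp [Equiv.swap_apply_of_ne_of_ne he.1 hde.symm, s2, s3, xa, hde]
    by_cases xe : x = e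
    · subst xe; simp [s1, s3, xa]; linear_combination this
    simp [Equiv.swap_apply_of_ne_of_ne xd xe, Equiv.swap_apply_of_ne_of_ne xa xd, xa, xe]
  have h4 : ∀ x, (Pi.single x 1 - Pi.single a 1 : α → K) ∈ W.toSubmodule := fun x => by
    by_cases xa : x = a
    · simp [xa]
    obtain ⟨g, g1, g2⟩ := H16.exists_smul2 (MulAction.isMultiplyPretransitive_of_le (G := alternatingGroup α)
      (n := 3) (by norm_num) (by rw [Nat.card_eq_fintype_card]; omega)) xa (Ne.symm he.1)
    convert hW g _ h2 using 1
    ext y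
    simp only [Pi.sub_apply, Pi.single_apply, ← smul_left_cancel_iff g (x := y), g1, g2]
  have h5 : ∀ v : α → K, v - (∑ x, v x) • Pi.single a 1 ∈ W.toSubmodule := fun v => by
    convert W.toSubmodule.sum_mem fun x (_ : x ∈ Finset.univ) => W.toSubmodule.smul_mem (v x) (h4 x)
    simp only [smul_sub, Finset.sum_sub_distrib, ← Finset.sum_smul]
    congr 1
    ext y; simp [Finset.sum_apply, Pi.single_apply]
  by_cases hs : ∀ v ∈ W.toSubmodule, ∑ x, v x = 0
  · refine .inr (.inr (.inl (Subrepresentation.toSubmodule_injective (le_antisymm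
      (fun v hv => H16.mem_permSumZero.2 (hs v hv)) fun v hv => ?_))))
    simpa [H16.mem_permSumZero.1 hv] using h5 v
  push Not at hs
  obtain ⟨v, hv, hv0⟩ := hs
  have h6 := (W.toSubmodule.smul_mem_iff hv0).1 (by simpa using W.toSubmodule.sub_mem hv (h5 v))
  exact .inr (.inr (.inr (eq_top_iff.2 fun w _ => by
    simpa using W.toSubmodule.add_mem (h5 w) (W.toSubmodule.smul_mem (∑ x, w x) h6))))

end Cfsg.Agent.S0714
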