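import Cfsg.Statements.S0717
import Cfsg.Agent.H16.CRing2

set_option autoImplicit false
open Cfsg

namespace Cfsg.Agent.S0717


/-- All suborbits of a transitive group are self-paired (every pair of points is interchanged by some group element) if and only if the permutation character is multiplicity-free and each of its irreducible constituents is real-valued. -/
theorem result {G : Type*} [Group G] [Fintype G] {Ω : Type*} [Fintype Ω] [MulAction G Ω] [MulAction.IsPretransitive G Ω] : (∀ a b : Ω, ∃ g : G, g • a = b ∧ g • b = a) ↔ ∀ χ : G → ℂ, Cfsg.IsIrrCharacter G χ → Cfsg.classInner (fun g : G => (Nat.card (MulAction.fixedBy Ω g) : ℂ)) χ ≠ 0 → Cfsg.classInner (fun g : G => (Nat.card (MulAction.fixedBy Ω g) : ℂ)) χ = 1 ∧ ∀ g : G, (starRingEnd ℂ) (χ g) = χ g := by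
  classical
  refine ⟨fun h χ hχ h0 => ?_, fun h a b => ?_⟩
  · have sy : ∀ A : Matrix Ω Ω ℂ, H16.MInv G A → A.transpose = A := fun A hA => Matrix.ext fun x y => by
      obtain ⟨g, h1, h2⟩ := h x y
      rw [Matrix.transpose_apply, ← hA g x y, h1, h2]
    refine ⟨(H16.mult_le_one_of_minv_comm (fun A B hA hB => ?_) hχ).resolve_left h0, ?_⟩
    · rw [← sy _ (hA.mul hB), Matrix.transpose_mul, sy _ hA, sy _ hB]
    · have e := H16.E_mul_E (Ω := Ω) (H5.Cfsg.IsIrrCharacter.conj hχ) hχ
      rw [← H16.E_transpose hχ, sy _ (H16.minv_E hχ), H16.E_mul_E hχ hχ, if_pos rfl] at e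
      by_contra hne
      rw [if_neg fun e => hne (congrFun e)] at e
      exact H16.E_ne_zero hχ h0 e
  · obtain ⟨c, hc⟩ := (H16.minv_orb (G := G) (a := a) (b := b)).eq_sum fun χ hχ =>
      (em _).imp_right fun h0 => (h χ hχ h0).1
    have : (H16.orb G a b).transpose = H16.orb G a b := by
      rw [hc, Matrix.transpose_sum]
      refine Finset.sum_congr rfl fun χ _ => ?_
      by_cases h0 : Cfsg.classInner (H16.pc G Ω) χ.1 = 0
      · simp [H16.E_eq_zero χ.2 h0]
      · simp only [Matrix.transpose_smul, H16.E_transpose χ.2, (h _ χ.2 h0).2]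
    have e := congrFun (congrFun this a) b
    simp only [Matrix.transpose_apply, H16.orb, Matrix.of_apply] at e
    by_contra hne
    rw [if_neg hne, if_pos ⟨1, one_smul _ _, one_smul _ _⟩] at e
    exact zero_ne_one e

end Cfsg.Agent.S0717
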