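import Cfsg.Statements.S0718
import Cfsg.Agent.H16.CRing2

set_option autoImplicit false
open Cfsg

namespace Cfsg.Agent.S0718


/-- Multiplicity-freeness of the permutation character is equivalent to commutativity of the centraliser ring, i.e. of the algebra of `G`-equivariant endomorphisms of the complex permutation module. -/
theorem result {G : Type*} [Group G] [Fintype G] {Ω : Type*} [Fintype Ω] [MulAction G Ω] : (∀ χ : G → ℂ, Cfsg.IsIrrCharacter G χ → Cfsg.classInner (fun g : G => (Nat.card (MulAction.fixedBy Ω g) : ℂ)) χ = 0 ∨ Cfsg.classInner (fun g : G => (Nat.card (MulAction.fixedBy Ω g) : ℂ)) χ = 1) ↔ ∀ S T : (Ω → ℂ) →ₗ[ℂ] (Ω → ℂ), S ∈ ((Cfsg.permRep ℂ G Ω).linHom (Cfsg.permRep ℂ G Ω)).invariants → T ∈ ((Cfsg.permRep ℂ G Ω).linHom (Cfsg.permRep ℂ G Ω)).invariants → S ∘ₗ T = T ∘ₗ S := by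
  have iv : ∀ S : Module.End ℂ (Ω → ℂ), S ∈ ((Cfsg.permRep ℂ G Ω).linHom (Cfsg.permRep ℂ G Ω)).invariants ↔
      ∀ g, Commute S (Cfsg.permRep ℂ G Ω g) := fun S => by
    refine forall_congr' fun g => ?_
    change Cfsg.permRep ℂ G Ω g * (S * Cfsg.permRep ℂ G Ω g⁻¹) = S ↔ S * _ = _ * S
    exact ⟨fun h => by conv_lhs => rw [← h]
                       rw [mul_assoc, mul_assoc, ← map_mul, inv_mul_cancel, map_one, mul_one],
      fun h => by rw [← mul_assoc, ← h, mul_assoc, ← map_mul, mul_inv_cancel, map_one, mul_one]⟩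
  classical
  simp only [iv]
  refine ⟨fun h S T hS hT => ?_, fun h χ hχ => ?_⟩
  · obtain ⟨c, rfl⟩ := H16.comm_of_mult_le_one _ (by rwa [H16.char_permRep]) hT
    exact (Commute.sum_right _ _ _ fun χ _ => (H16.commute_idem _ hS).smul_right (c χ) :)
  · rw [← show _ = fun g : G => _ from H16.char_permRep]
    exact H16.mult_le_one_of_comm _ h hχ

end Cfsg.Agent.S0718
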