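import Cfsg.Statements.S0720
import Cfsg.Agent.H10.W2p2
import Cfsg.Agent.H16.Jordan
import Cfsg.Agent.H16.PTools

set_option autoImplicit false
open Cfsg

namespace Cfsg.Agent.S0720

/-- Wielandt's Theorem on primitive groups of degree `2p`: such a group is doubly transitive, or it has rank 3, `p = 2a² + 2a + 1`, and subdegrees `a(2a+1)` and `(a+1)(2a+1)`. -/
theorem result {α : Type*} [Fintype α] [DecidableEq α] {p : ℕ} (hp : p.Prime) (hα : Fintype.card α = 2 * p) (G : Subgroup (Equiv.Perm α)) (hG : MulAction.IsPreprimitive G α) (a₀ : α) : MulAction.IsMultiplyPretransitive G α 2 ∨ (Nat.card (MulAction.orbitRel.Quotient (MulAction.stabilizer G a₀) α) = 3 ∧ ∃ a : ℕ, 0 < a ∧ p = 2 * a ^ 2 + 2 * a + 1 ∧ ∀ b : α, b ≠ a₀ → Nat.card (MulAction.orbit (MulAction.stabilizer G a₀) b) = a * (2 * a + 1) ∨ Nat.card (MulAction.orbit (MulAction.stabilizer G a₀) b) = (a + 1) * (2 * a + 1)) := by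
  classical
  have : Fact p.Prime := ⟨hp⟩
  have p1 := hp.one_lt
  obtain ⟨σ, hσ⟩ := exists_prime_orderOf_dvd_card' (G := G) p (((Dvd.intro_left 2 rfl).trans
    ((MulAction.index_stabilizer_of_transitive G a₀).trans (Nat.card_eq_fintype_card.trans hα)).symm.dvd).trans
      (Subgroup.index_dvd_card _))
  have o : orderOf (σ : Equiv.Perm α) = p := by rwa [Subgroup.orderOf_coe]
  obtain ⟨j, j0, hj⟩ := H16.exists_card_support_of_prime hp o
  have h2 := Finset.card_le_univ (σ : Equiv.Perm α).support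
  rcases Nat.lt_or_ge j 2 with h | h
  · obtain rfl : j = 1 := by omega
    have := (H16.transitive_of_cycle hG hp (by omega) (Equiv.Perm.isCycle_of_prime_order (o ▸ hp)
      (by rw [o]; omega)) (by omega) σ.2).isMultiplyPretransitive
    exact .inl (MulAction.isMultiplyPretransitive_of_le (n := Fintype.card α - p + 1) (by omega)
      (by rw [Nat.card_eq_fintype_card]; omega))
  have fp : ∀ x : α, σ • x ≠ x := fun x => Equiv.Perm.mem_support.1 (by
    rw [Finset.eq_univ_of_card _ (le_antisymm h2 (by rw [hj, hα]; exact Nat.mul_le_mul_right _ h))]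
    exact Finset.mem_univ _)
  have : Fintype G := Fintype.ofFinite _
  refine (H10.wielandt_two_p hα (hσ ▸ pow_orderOf_eq_one σ) fp a₀).imp_right ?_
  rintro ⟨r, χ₁, χ₂, h1, h2, h3, h4, h5⟩
  exact ⟨r, H16.rank3_two_m hα a₀ r h1 h2 h3 h4 h5⟩

end Cfsg.Agent.S0720
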