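import Cfsg.Statements.S0727
import Cfsg.Agent.H23.Zass5

set_option autoImplicit false
open Cfsg

namespace Cfsg.Agent.S0727

open H18 H23 Subgroup

/-- A sharply triply transitive permutation group of degree `2^f + 1` is isomorphic to the projective general linear group of degree 2 over the field with `2^f` elements. -/
theorem result {α : Type*} [Fintype α] [DecidableEq α] {f : ℕ} (hf : 1 ≤ f) (hα : Fintype.card α = 2 ^ f + 1) (G : Subgroup (Equiv.Perm α)) (h3 : MulAction.IsMultiplyPretransitive G α 3) (hsharp : ∀ x : Fin 3 ↪ α, MulAction.stabilizer G x = ⊥) : ∃ (F : Type) (_ : Field F) (_ : Fintype F), Fintype.card F = 2 ^ f ∧ Nonempty (G ≃* Matrix.ProjGenLinGroup (Fin 2) F) := by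
  by_cases f1 : f = 1
  · subst f1
    exact pgl_of_three hα (two_of_multiply (MulAction.isMultiplyPretransitive_of_le (n := 3) (by omega)
      (by rw [Nat.card_eq_fintype_card, hα]; simp)))
  have h4 : 2 ^ 2 ≤ 2 ^ f := Nat.pow_le_pow_right two_pos (by omega)
  obtain ⟨a, b, hab⟩ := Fintype.exists_pair_of_one_lt_card (α := α) (by omega)
  obtain ⟨Q, h, hQ⟩ := exists_ZS_of_sharp3 (by omega) h3 hsharp hab
  have hc : Nat.card Q = 2 ^ f := by have := h.cardΩ; rw [Nat.card_eq_fintype_card] at this; omega
  exact hc ▸ h.pgl_of_abel hQ (Or.inl (hc ▸ (Nat.even_pow' (by omega)).2 even_two))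

end Cfsg.Agent.S0727
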