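import Cfsg.Statements.S0728
import Cfsg.Agent.H23.Zass5

set_option autoImplicit false
open Cfsg

namespace Cfsg.Agent.S0728

open H18 H23 Subgroup

/-- In a sharply triply transitive group of even degree at least 6 (degree `q + 1`, `q` odd), a two-point stabiliser has at most one subgroup of order 3. -/
theorem result {α : Type*} [Fintype α] [DecidableEq α] (heven : Even (Fintype.card α)) (h6 : 6 ≤ Fintype.card α) (G : Subgroup (Equiv.Perm α)) (h3 : MulAction.IsMultiplyPretransitive G α 3) (hsharp : ∀ x : Fin 3 ↪ α, MulAction.stabilizer G x = ⊥) {a b : α} (hab : a ≠ b) (A B : Subgroup G) (hA : A ≤ MulAction.stabilizer G a ⊓ MulAction.stabilizer G b) (hB : B ≤ MulAction.stabilizer G a ⊓ MulAction.stabilizer G b) (hA3 : Nat.card A = 3) (hB3 : Nat.card B = 3) : A = B := by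
  obtain ⟨Q, h, hQ⟩ := exists_ZS_of_sharp3 (by omega) h3 hsharp hab
  obtain ⟨x, hx, x3⟩ := cauchy Nat.prime_three hA3.symm.dvd
  obtain ⟨y, hy, y3⟩ := cauchy Nat.prime_three hB3.symm.dvd
  rw [← eq_of_card_eq (zpowers_le.2 hx) (by rw [card_zpowers', x3, hA3]),
    ← eq_of_card_eq (zpowers_le.2 hy) (by rw [card_zpowers', y3, hB3])]
  rcases h.three_cases hQ (hA hx) (hB hy) x3 y3 with e | e <;> simp [e]

end Cfsg.Agent.S0728
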