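import Cfsg.Statements.S0730
import Cfsg.Agent.H23.Zass5

set_option autoImplicit false
open Cfsg

namespace Cfsg.Agent.S0730

open H18 H23 Subgroup

/-- A sharply triply transitive group of degree `p^f + 1`, `p` an odd prime and `f` odd, is isomorphic to the projective general linear group of degree 2 over the field with `p^f` elements (for even `f` there is a second, twisted, group). -/
theorem result {α : Type*} [Fintype α] [DecidableEq α] {p f : ℕ} (hp : p.Prime) (hp2 : p ≠ 2) (hfo : Odd f) (hα : Fintype.card α = p ^ f + 1) (G : Subgroup (Equiv.Perm α)) (h3 : MulAction.IsMultiplyPretransitive G α 3) (hsharp : ∀ x : Fin 3 ↪ α, MulAction.stabilizer G x = ⊥) : ∃ (F : Type) (_ : Field F) (_ : Fintype F), Fintype.card F = p ^ f ∧ Nonempty (G ≃* Matrix.ProjGenLinGroup (Fin 2) F) := by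
  have h4 : 3 ≤ p ^ f := (hp.two_le.lt_of_ne hp2.symm).trans_le (Nat.le_self_pow hfo.pos.ne' p)
  obtain ⟨a, b, hab⟩ := Fintype.exists_pair_of_one_lt_card (α := α) (by omega)
  obtain ⟨Q, h, hQ⟩ := exists_ZS_of_sharp3 (by omega) h3 hsharp hab
  have hc : Nat.card Q = p ^ f := by have := h.cardΩ; rw [Nat.card_eq_fintype_card] at this; omega
  exact hc ▸ h.pgl_of_abel hQ (Or.inr (h.abel_of_odd hQ hp hp2 hfo hc))

end Cfsg.Agent.S0730
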