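import Cfsg.Statements.S0731
import Cfsg.Agent.H23.Zass3

set_option autoImplicit false
open Cfsg

namespace Cfsg.Agent.S0731

open H18 H19 H23 Subgroup

/-- A finite Zassenhaus group whose point stabiliser has an abelian regular normal subgroup on the remaining points is sharply triply transitive or isomorphic to `PSL(2, F)` for a finite field `F` of odd characteristic. -/
theorem result {G Ω : Type*} [Group G] [Finite G] [MulAction G Ω] [Finite Ω] (hZ : Cfsg.IsZassenhausGroup G Ω) (x : Ω) (F : Subgroup G) (hFle : F ≤ MulAction.stabilizer G x) (hFn : (F.subgroupOf (MulAction.stabilizer G x)).Normal) (hFab : IsMulCommutative F) (hreg : ∀ y z : Ω, y ≠ x → z ≠ x → ∃! u : F, (u : G) • y = z) : (MulAction.IsMultiplyPretransitive G Ω 3 ∧ ∀ t : Fin 3 ↪ Ω, MulAction.stabilizer G t = ⊥) ∨ ∃ (K : Type) (_ : Field K) (_ : Fintype K), ringChar K ≠ 2 ∧ Nonempty (G ≃* Matrix.ProjectiveSpecialLinearGroup (Fin 2) K) := by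
  obtain ⟨b, hab⟩ := exists_ne_pair hZ x
  obtain ⟨Q, h⟩ := exists_ZS hZ hab
  obtain rfl := h.eq_Q' hFle hreg
  rcases h.eq_or_eq (h.le_of_abel hZ.2.2.2.2 (abel_of_comm hFab)) with e | e
  · exact Or.inl (h.sharp3 e)
  · obtain ⟨K, _, _, h1, h2⟩ := h.psl_of_half hZ.2.2.2.2 e
    refine Or.inr ⟨K, _, ‹_›, fun e' => ?_, h2⟩
    have := FiniteField.even_card_of_char_two e'
    omega

end Cfsg.Agent.S0731
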