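import Cfsg.Statements.S0733
import Cfsg.Agent.H16.Basic
import Mathlib.Algebra.Module.ZMod

set_option autoImplicit false
open Cfsg

namespace Cfsg.Agent.S0733


/-- A permutation group of affine type — generated by the translations of a finite vector space `V` over `ZMod p` together with a group `G₀` of linear automorphisms — is primitive on `V` if and only if `G₀` is irreducible on `V`. -/
theorem result {p : ℕ} [Fact p.Prime] {V : Type*} [AddCommGroup V] [Module (ZMod p) V] [Finite V] [Nontrivial V] (G₀ : Subgroup (V ≃ₗ[ZMod p] V)) (G : Subgroup (Equiv.Perm V)) (hG : ∀ σ : Equiv.Perm V, σ ∈ G ↔ ∃ g ∈ G₀, ∃ b : V, ∀ x : V, σ x = (g : V ≃ₗ[ZMod p] V) x + b) : MulAction.IsPreprimitive G V ↔ ∀ W : Submodule (ZMod p) V, (∀ g ∈ G₀, ∀ v ∈ W, (g : V ≃ₗ[ZMod p] V) v ∈ W) → W = ⊥ ∨ W = ⊤ := by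
  have htr : ∀ b : V, ∃ g : G, ∀ x, g • x = x + b := fun b =>
    ⟨⟨Equiv.addRight b, (hG _).2 ⟨1, G₀.one_mem, b, fun x => rfl⟩⟩, fun x => rfl⟩
  have hlin : ∀ g ∈ G₀, ∃ σ : G, ∀ x, σ • x = g x := fun g hg =>
    ⟨⟨g.toEquiv, (hG _).2 ⟨g, hg, 0, fun x => by simp⟩⟩, fun x => rfl⟩
  constructor
  · intro hP W hW
    have hB : MulAction.IsBlock G (W : Set V) := by
      rw [MulAction.isBlock_iff_smul_eq_of_mem]
      have hsub : ∀ (σ : G) (x : V), x ∈ W → σ • x ∈ W → ∀ y ∈ W, σ • y ∈ W := by
        intro σ x hx hσx y hy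
        obtain ⟨g, hg, b, hb⟩ := (hG σ).1 σ.2
        have h1 : σ • x = g x + b := hb x
        have h2 : σ • y = g y + b := hb y
        rw [h1] at hσx
        rw [h2]
        exact W.add_mem (hW g hg y hy) ((W.add_mem_iff_right (hW g hg x hx)).1 hσx)
      intro σ x hx hσx
      ext y
      rw [Set.mem_smul_set_iff_inv_smul_mem]
      constructor
      · intro hy
        simpa using hsub σ x hx hσx _ hy
      · intro hy
        exact hsub σ⁻¹ _ hσx (by simpa using hx) y hy
    rcases hB.subsingleton_or_eq_univ with h | h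
    · left
      rw [eq_bot_iff]
      intro x hx
      exact h hx W.zero_mem
    · right
      rw [eq_top_iff]
      intro x _
      exact (h ▸ Set.mem_univ x : x ∈ (W : Set V))
  · intro h
    have : MulAction.IsPretransitive G V := ⟨fun x y => by
      obtain ⟨g, hg⟩ := htr (y - x)
      exact ⟨g, by rw [hg]; simp⟩⟩
    apply MulAction.IsPreprimitive.of_isTrivialBlock_base (0 : V)
    intro B hB0 hB
    rw [MulAction.isBlock_iff_smul_eq_of_mem] at hB
    have hadd : ∀ x ∈ B, ∀ y, y ∈ B ↔ y + x ∈ B := by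
      intro x hx y
      obtain ⟨g, hg⟩ := htr x
      have := hB (g := g) hB0 (by rw [hg, zero_add]; exact hx)
      conv_rhs => rw [← this, ← hg]
      exact Set.smul_mem_smul_set_iff.symm
    let A : AddSubgroup V :=
      { carrier := B
        zero_mem' := hB0
        add_mem' := fun {x y} hx hy => (hadd y hy x).1 hx
        neg_mem' := fun {x} hx => (hadd x hx (-x)).2 (by simpa using hB0) }
    rcases h (AddSubgroup.toZModSubmodule p A) (by
      intro g hg v hv
      obtain ⟨σ, hσ⟩ := hlin g hg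
      have := hB (g := σ) hB0 (by rw [hσ, map_zero]; exact hB0)
      change g v ∈ B
      rw [← this, ← hσ]
      exact Set.smul_mem_smul_set hv) with h' | h'
    · left
      intro x hx y hy
      have h1 : x ∈ AddSubgroup.toZModSubmodule p A := hx
      have h2 : y ∈ AddSubgroup.toZModSubmodule p A := hy
      rw [h', Submodule.mem_bot] at h1 h2
      rw [h1, h2]
    · right
      rw [Set.eq_univ_iff_forall]
      intro x
      have h1 : x ∈ AddSubgroup.toZModSubmodule p A := h' ▸ Submodule.mem_top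
      exact h1

end Cfsg.Agent.S0733
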