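import Cfsg.Statements.S0734
import Cfsg.Agent.H16.Basic
import Mathlib.Combinatorics.SimpleGraph.Connectivity.Connected

set_option autoImplicit false
open Cfsg

namespace Cfsg.Agent.S0734


/-- Higman's criterion for primitivity: a transitive action on a finite set is primitive if and only if every non-trivial orbital graph (edges = images of a fixed pair of distinct points) is connected. -/
theorem result {G : Type*} [Group G] {Ω : Type*} [Finite Ω] [MulAction G Ω] [MulAction.IsPretransitive G Ω] [Nontrivial Ω] : MulAction.IsPreprimitive G Ω ↔ ∀ a b : Ω, a ≠ b → (SimpleGraph.fromRel fun x y : Ω => ∃ g : G, g • a = x ∧ g • b = y).Connected := by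
  constructor
  · intro hG a b hab
    set Γ := SimpleGraph.fromRel fun x y : Ω => ∃ g : G, g • a = x ∧ g • b = y with hΓ
    have hadj : ∀ (g : G) x y, Γ.Adj x y → Γ.Adj (g • x) (g • y) := by
      intro g x y h
      rw [hΓ, SimpleGraph.fromRel_adj] at h ⊢
      refine ⟨fun h' => h.1 (smul_left_cancel g h'), ?_⟩
      rcases h.2 with ⟨k, h1, h2⟩ | ⟨k, h1, h2⟩
      · exact Or.inl ⟨g * k, by rw [mul_smul, h1], by rw [mul_smul, h2]⟩
      · exact Or.inr ⟨g * k, by rw [mul_smul, h1], by rw [mul_smul, h2]⟩
    have hreach : ∀ (g : G) x y, Γ.Reachable x y → Γ.Reachable (g • x) (g • y) := fun g x y h =>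
      h.map ⟨fun z => g • z, hadj g _ _⟩
    have hB : MulAction.IsBlock G {x | Γ.Reachable a x} := by
      rw [MulAction.isBlock_iff_smul_eq_of_mem]
      intro g x hx hgx
      have h1 : Γ.Reachable a (g • a) := hgx.trans (hreach g _ _ hx).symm
      ext y
      rw [Set.mem_smul_set_iff_inv_smul_mem]
      constructor
      · intro hy
        have := hreach g _ _ hy
        rw [smul_inv_smul] at this
        exact h1.trans this
      · intro hy
        have h2 := hreach g⁻¹ _ _ h1
        rw [inv_smul_smul] at h2
        exact h2.symm.trans (hreach g⁻¹ _ _ hy)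
    rcases hB.subsingleton_or_eq_univ with h | h
    · exfalso
      refine hab (h (SimpleGraph.Reachable.refl a) (SimpleGraph.Adj.reachable ?_))
      rw [hΓ, SimpleGraph.fromRel_adj]
      exact ⟨hab, Or.inl ⟨1, by simp⟩⟩
    · have hall : ∀ x, Γ.Reachable a x := fun x => (h ▸ Set.mem_univ x : x ∈ {x | Γ.Reachable a x})
      have : Nonempty Ω := ⟨a⟩
      exact ⟨fun x y => (hall x).symm.trans (hall y)⟩
  · intro h
    refine ⟨fun {B} hB => ?_⟩
    rcases B.subsingleton_or_nontrivial with hs | ⟨a, ha, b, hb, hab⟩
    · exact Or.inl hs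
    right
    have key : ∀ (g : G), g • a ∈ B ↔ g • b ∈ B := by
      intro g
      rw [MulAction.isBlock_iff_smul_eq_of_mem] at hB
      constructor
      · intro h; rw [← hB ha h]; exact Set.smul_mem_smul_set hb
      · intro h; rw [← hB hb h]; exact Set.smul_mem_smul_set ha
    rw [Set.eq_univ_iff_forall]
    intro x
    obtain ⟨w⟩ := (h a b hab).preconnected a x
    clear hb hab h
    generalize hy : a = y at w ha
    have : ∀ {y x : Ω} (_ : (SimpleGraph.fromRel fun x y : Ω => ∃ g : G, g • a = x ∧ g • b = y).Walk y x),
        y ∈ B → x ∈ B := by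
      intro y x w
      induction w with
      | nil => exact id
      | cons hadj _ ih =>
        intro hu
        apply ih
        rw [SimpleGraph.fromRel_adj] at hadj
        rcases hadj.2 with ⟨k, h1, h2⟩ | ⟨k, h1, h2⟩
        · rw [← h2, ← key, h1]; exact hu
        · rw [← h1, key, h2]; exact hu
    subst hy
    exact this w ha

end Cfsg.Agent.S0734
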