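import Cfsg.Statements.S0737
import Cfsg.Agent.H16.Hup3

set_option autoImplicit false
open Cfsg

namespace Cfsg.Agent.S0737


/-- A non-trivial 2-homogeneous permutation group that is not doubly transitive has odd order and degree `p^f ≡ 3 (mod 4)`, and is permutation-isomorphic to a group of semi-affine transformations `x ↦ a φ(x) + b` of the field with `p^f` elements containing all translations. -/
theorem result {α : Type*} [Fintype α] [DecidableEq α] (G : Subgroup (Equiv.Perm α)) (hne : G ≠ ⊥) (h2 : MulAction.IsPretransitive G (Set.powersetCard α 2)) (hn2 : ¬ MulAction.IsMultiplyPretransitive G α 2) : Odd (Nat.card G) ∧ ∃ (p f : ℕ) (_ : Fact p.Prime), p ≠ 2 ∧ Fintype.card α = p ^ f ∧ p ^ f % 4 = 3 ∧ ∃ e : α ≃ GaloisField p f, (∀ g : G, e.symm.trans (((g : Equiv.Perm α)).trans e) ∈ Cfsg.semiaffineGroup (GaloisField p f)) ∧ ∀ b : GaloisField p f, ∃ g : G, ∀ x : α, e ((g : Equiv.Perm α) x) = e x + b := by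
  have h := H16.homog_iff.1 h2
  have hodd : Odd (Nat.card G) := Nat.not_even_iff_odd.1 fun e => hn2 (h.two_transitive_of_even e)
  have : Nontrivial G := (Subgroup.nontrivial_iff_ne_bot G).2 hne
  obtain ⟨g₀, hg₀⟩ := exists_ne (1 : G)
  obtain ⟨a, ha⟩ : ∃ a : α, g₀ • a ≠ a := by
    by_contra! e
    exact hg₀ (eq_of_smul_eq_smul fun a : α => (e a).trans (one_smul G a).symm)
  have := h.isPreprimitive ⟨g₀, a, ha⟩
  have hs := H16.odd_order G hodd
  obtain ⟨N, p, hN, h1, hc, ht, hr, hp, hpw⟩ := H16.exists_regular_elem (α := α) hs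
  have := Fact.mk hp
  have : Nontrivial N := (Subgroup.nontrivial_iff_ne_bot N).2 h1
  let : CommGroup N := { (inferInstance : Group N) with mul_comm := hc.is_comm.comm }
  let E : N ≃ α := Equiv.ofBijective (fun n => (n : G) • a)
    ⟨fun n m e => Subtype.ext (H16.eq_of_smul_eq_of_stabilizer_bot (hr a) n.2 m.2 e), fun b =>
      (H16.exists_mem_smul_eq N a b).elim fun n hn => ⟨⟨n, hn.1⟩, hn.2⟩⟩
  have hE : ∀ n : N, E n = (n : G) • a := fun _ => rfl
  have hcard : Nat.card N = Fintype.card α := by rw [Nat.card_congr E, Nat.card_eq_fintype_card]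
  obtain ⟨f, hf⟩ := IsPGroup.iff_card.1 (fun n : N => ⟨1, Subtype.ext (by simpa using hpw n n.2)⟩ : IsPGroup p N)
  have hlt := Finite.one_lt_card (α := N)
  have h3 : Nat.card N % 4 = 3 := by
    have e1 := hodd.of_dvd_nat (Subgroup.card_subgroup_dvd_card N)
    obtain ⟨s⟩ : Nonempty (Set.powersetCard α 2) := ⟨⟨{a, g₀ • a}, Finset.card_pair ha.symm⟩⟩
    have e2 := hodd.of_dvd_nat (Subgroup.index_dvd_card (MulAction.stabilizer G s))
    rw [MulAction.index_stabilizer_of_transitive, Set.powersetCard.card, Nat.card_eq_fintype_card, ← hcard,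
      Nat.choose_two_right] at e2
    obtain ⟨k, hk⟩ := e1
    rw [hk, Nat.add_sub_cancel, mul_comm 2 k, ← mul_assoc, Nat.mul_div_cancel _ two_pos, Nat.odd_mul] at e2
    obtain ⟨j, hj⟩ := e2.2
    omega
  let ι : ℤˣ →* MulAut N :=
    { toFun := fun u =>
        { toFun := fun n => n ^ (u : ℤ), invFun := fun n => n ^ (u : ℤ), map_mul' := fun x y => mul_zpow x y u
          left_inv := fun n => by simp [← zpow_mul], right_inv := fun n => by simp [← zpow_mul] }
      map_one' := MulEquiv.ext fun n => zpow_one n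
      map_mul' := fun u v => MulEquiv.ext fun n => by simp [mul_comm u, zpow_mul] }
  let ρ : G × ℤˣ →* MulAut N := MonoidHom.noncommCoprod MulAut.conjNormal ι fun g u =>
    MulEquiv.ext fun n => map_zpow (MulAut.conjNormal g) n u
  have hρ : ∀ g u n, ρ (g, u) n = MulAut.conjNormal g (n ^ (u : ℤ)) := fun _ _ _ => rfl
  have hE1 : ∀ n : N, n ≠ 1 → a ≠ E n := fun n hn e => hn (E.injective (e.symm.trans (one_smul G a).symm))
  obtain ⟨F, _, _, e, he⟩ := (H16.huppert_mul (N := N) (G := G × ℤˣ) hp (fun n => Subtype.ext (hpw n n.2))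
      inferInstance ρ fun v w hv hw => by
    obtain ⟨g, ⟨e1, e2⟩ | ⟨e1, e2⟩⟩ := h.exists_pair (hE1 v hv) (hE1 w hw)
    · exact ⟨(g, 1), E.injective (by
        rw [← e2, hE, hE, ← mul_smul, ← inv_mul_cancel_right (g * v) g, mul_smul _ g, e1]
        simp [hρ])⟩
    · refine ⟨(g, -1), eq_comm.1 (eq_inv_of_mul_eq_one_right (a := MulAut.conjNormal g v) (E.injective ?_) |>.trans ?_)⟩
      · rw [hE, Subgroup.coe_mul, mul_smul, ← hE w, ← e1, ← mul_smul, MulAut.conjNormal_apply,
          inv_mul_cancel_right, mul_smul, ← hE, e2]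
        exact (one_smul G a).symm
      · simp [hρ]).resolve_right (by simp only [Set.mem_insert_iff, Set.mem_singleton_iff]; omega)
  have hf0 : f ≠ 0 := by rintro rfl; simp [hf] at hlt
  let := Fintype.ofFinite (GaloisField p f)
  let ψ : F ≃+* GaloisField p f := FiniteField.ringEquivOfCardEq (by
    rw [← Nat.card_eq_fintype_card, ← Nat.card_eq_fintype_card, GaloisField.card p f hf0, ← hf]
    exact (Nat.card_congr e.toEquiv).symm)
  let e' : α ≃ GaloisField p f := E.symm.trans (Additive.ofMul.trans (e.toEquiv.trans ψ.toEquiv))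
  have he' : ∀ n : N, e' (E n) = ψ (e (.ofMul n)) := fun n => by simp [e']
  refine ⟨hodd, p, f, inferInstance, ?_, hcard.symm.trans hf, hf ▸ h3, e', fun g => ?_, fun b => ?_⟩
  · rintro rfl
    have := (Nat.even_pow.2 ⟨even_two, hf0⟩).two_dvd
    omega
  · obtain ⟨c, σ, hσ⟩ := he (g, 1)
    obtain ⟨m, hm⟩ := E.surjective (g • a)
    have hc0 : ψ c ≠ 0 := fun e0 => by
      obtain ⟨n, hn⟩ := exists_ne (1 : N)
      have := hσ n
      rw [(map_eq_zero_iff ψ ψ.injective).1 e0, zero_mul, map_eq_zero_iff e e.injective] at this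
      exact hn ((map_eq_one_iff _ (ρ (g, 1)).injective).1 this)
    refine ⟨Units.mk0 _ hc0, e' (E m), ψ.symm.trans (σ.trans ψ), fun x => ?_⟩
    obtain ⟨x, rfl⟩ := (E.trans e').surjective x
    have e1 : (g : Equiv.Perm α) (E x) = E (ρ (g, 1) x * m) := by
      rw [hE (_ * _), Subgroup.coe_mul, mul_smul, ← hE m, hm, ← mul_smul]
      simp [hρ, hE, mul_smul, Subgroup.smul_def]
    show e' ((g : Equiv.Perm α) (e'.symm (e' (E x)))) = _
    rw [e'.symm_apply_apply, e1]
    simp [he', hσ]
  · obtain ⟨m, rfl⟩ := (E.trans e').surjective b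
    refine ⟨m, fun x => ?_⟩
    obtain ⟨x, rfl⟩ := E.surjective x
    have e1 : ((m : G) : Equiv.Perm α) (E x) = E (x * m) := by
      rw [mul_comm x m]; rfl
    simp [e1, he']

end Cfsg.Agent.S0737
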