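import Cfsg.Statements.S0739
import Cfsg.Agent.H23.Zass2

set_option autoImplicit false
open Cfsg

namespace Cfsg.Agent.S0739

open H18 H23 Subgroup

/-- In a finite Zassenhaus group whose two-point stabiliser `H = G_{a,b}` has odd order `d`, and which has no normal `q`-complement for any prime `q ∣ d`, `H` is cyclic, `C_G(H) = H`, and every element swapping `a` and `b` inverts each element of `H`. -/
theorem result {G Ω : Type*} [Group G] [Finite G] [MulAction G Ω] [Fintype Ω] (hZ : Cfsg.IsZassenhausGroup G Ω) {a b : Ω} (hab : a ≠ b) (hodd : Odd (Nat.card ↥(MulAction.stabilizer G a ⊓ MulAction.stabilizer G b))) (hnil : ∀ q : ℕ, q.Prime → q ∣ Nat.card ↥(MulAction.stabilizer G a ⊓ MulAction.stabilizer G b) → ¬ ∃ N : Subgroup G, N.Normal ∧ N.index = q ^ (Nat.card G).factorization q) : IsCyclic ↥(MulAction.stabilizer G a ⊓ MulAction.stabilizer G b) ∧ Subgroup.centralizer ((MulAction.stabilizer G a ⊓ MulAction.stabilizer G b : Subgroup G) : Set G) = MulAction.stabilizer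 G a ⊓ MulAction.stabilizer G b ∧ ∀ s : G, s • a = b → s • b = a → ∀ h ∈ MulAction.stabilizer G a ⊓ MulAction.stabilizer G b, s * h * s⁻¹ = h⁻¹ := by
  obtain ⟨Q, h⟩ := exists_ZS hZ hab
  obtain ⟨h1, h2⟩ := h.inverted_of_odd hodd fun q hq hd hH => hnil q hq hd ⟨_, pcore_nml.normal, by
    obtain ⟨P, hP⟩ := exists_sylow hq (⊤ : Subgroup G)
    obtain ⟨S, rfl⟩ := hP.exists_sylow_top hq
    have : Fact q.Prime := ⟨hq⟩
    rw [← S.card_eq_multiplicity, ← relIndex_top_right]
    exact hH.relIndex_eq_compl (by rwa [compl_compl])⟩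
  obtain ⟨t, hD⟩ := h.exists_ZD hodd h2
  obtain ⟨k, hk, k1⟩ := h.exists_K_ne
  exact ⟨h1, le_antisymm ((C_le_C1 hk).trans (hD.cent_K' hk k1)) hD.abel, h2⟩

end Cfsg.Agent.S0739
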