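import Cfsg.Statements.S0740
import Cfsg.Agent.H23.Zass1

set_option autoImplicit false
open Cfsg

namespace Cfsg.Agent.S0740

open H18 H23 Subgroup

/-- In a finite Zassenhaus group any two points `a ≠ b` are swapped by an involution; every such involution has exactly one fixed point when the degree is odd and 0 or 2 fixed points when the degree is even; and if the two-point stabiliser has even order, some such involution has exactly 2 fixed points. -/
theorem result {G Ω : Type*} [Group G] [Finite G] [MulAction G Ω] [Fintype Ω] (hZ : Cfsg.IsZassenhausGroup G Ω) {a b : Ω} (hab : a ≠ b) : (∃ s : G, orderOf s = 2 ∧ s • a = b ∧ s • b = a) ∧ (∀ s : G, orderOf s = 2 → s • a = b → s • b = a → (Odd (Fintype.card Ω) → Nat.card (MulAction.fixedBy Ω s) = 1) ∧ (Even (Fintype.card Ω) → Nat.card (MulAction.fixedBy Ω s) = 0 ∨ Nat.card (MulAction.fixedBy Ω s) = 2)) ∧ (Even (Fintype.card Ω) → Even (Nat.card ↥(MulAction.stabilizer G a ⊓ MulAction.stabilizer G b)) → ∃ s : G, orderOf s = 2 ∧ s • a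 = b ∧ s • b = a ∧ Nat.card (MulAction.fixedBy Ω s) = 2) := by
  obtain ⟨Q, h⟩ := exists_ZS hZ hab
  have : Fact (Nat.Prime 2) := ⟨Nat.prime_two⟩
  have key : ∀ {s : G}, s * s = 1 → s • a = b → orderOf s = 2 := fun {s} h1 h2 =>
    orderOf_eq_prime (by rw [sq, h1]) (by rintro rfl; exact hab ((one_smul G a).symm.trans h2))
  refine ⟨?_, fun s hs _ _ => ?_, fun _ he => ?_⟩
  · obtain ⟨t, h1, h2, h3⟩ := h.exists_swap_inv
    exact ⟨t, key h1 h2, h2, h3⟩
  · have h1 := h.card_fixedBy_le (g := s) (by rintro rfl; simp at hs)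
    have h2 := h.card_fixedBy_mod (s := s) (by rw [← sq, ← hs, pow_orderOf_eq_one])
    rw [Nat.card_eq_fintype_card, Nat.ModEq] at h2
    rw [Nat.odd_iff, Nat.even_iff]
    omega
  · obtain ⟨z, hz, z2, z1⟩ := h.exists_inv_of_even he
    obtain ⟨g, h1, h2⟩ := h.exists_conj_swap z2 z1
    exact ⟨_, key (by simp [mul_assoc, ← mul_assoc z z, z2]) h1, h1, h2,
      by rw [h.card_fixedBy_conj, h.card_fixedBy_K hz z1]⟩

end Cfsg.Agent.S0740
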