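import Cfsg.Statements.S0742
import Cfsg.Agent.H23.Zass3

set_option autoImplicit false
open Cfsg

namespace Cfsg.Agent.S0742

open H18 H19 H23 Subgroup

/-- A finite Zassenhaus group of degree `n + 1` with two-point stabilisers of even order `d` satisfying `2d ≤ n - 1` has `n = p^f` for an odd prime `p` and is isomorphic to `PSL(2, p^f)`. -/
theorem result {G Ω : Type*} [Group G] [Finite G] [MulAction G Ω] [Fintype Ω] (hZ : Cfsg.IsZassenhausGroup G Ω) {a b : Ω} (hab : a ≠ b) (heven : Even (Nat.card ↥(MulAction.stabilizer G a ⊓ MulAction.stabilizer G b))) (hd : 2 * Nat.card ↥(MulAction.stabilizer G a ⊓ MulAction.stabilizer G b) ≤ Fintype.card Ω - 2) : ∃ (p f : ℕ) (K : Type) (_ : Field K) (_ : Fintype K), p.Prime ∧ p ≠ 2 ∧ Fintype.card K = p ^ f ∧ Fintype.card Ω = p ^ f + 1 ∧ Nonempty (G ≃* Matrix.ProjectiveSpecialLinearGroup (Fin 2) K) := by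
  obtain ⟨Q, h⟩ := exists_ZS hZ hab
  rw [← Nat.card_eq_fintype_card, h.cardΩ] at hd ⊢
  have e := h.le_of_even heven
  have := h.two_le_Q
  have e' : Nat.card Q = 2 * Nat.card ↥(MulAction.stabilizer G a ⊓ MulAction.stabilizer G b) + 1 := by omega
  obtain ⟨K, _, _, h1, h2⟩ := h.psl_of_half hZ.2.2.2.2 e'
  obtain ⟨-, p, hp, hd, hE⟩ := h.elem_of_le e
  obtain ⟨f, hf⟩ := hE.exists_pelem hp le_rfl
  exact ⟨p, f, K, _, _, hp, by rintro rfl; omega, h1.trans hf.card, by rw [hf.card], h2⟩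

end Cfsg.Agent.S0742
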