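import Cfsg.Statements.S0743
import Cfsg.Agent.H16.PFix

set_option autoImplicit false
open Cfsg

namespace Cfsg.Agent.S0743


/-- Gleason's Lemma: let `p` be a prime and `1 ≤ k < n`; if every `k`-subset of the `n` points is exactly the fixed-point set of some `p`-subgroup of `G`, then `G` is `k`-transitive. -/
theorem result {α : Type*} [Fintype α] [DecidableEq α] (G : Subgroup (Equiv.Perm α)) {p k : ℕ} (hp : p.Prime) (hk : 1 ≤ k) (hkn : k < Fintype.card α) (h : ∀ s : Finset α, s.card = k → ∃ P : Subgroup G, IsPGroup p P ∧ MulAction.fixedPoints P α = (s : Set α)) : MulAction.IsMultiplyPretransitive G α k := by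
  apply H16.gleason hp hk hkn
  intro s hs
  obtain ⟨P, hP, hfix⟩ := h s hs
  refine ⟨P, hP, fun x => ?_⟩
  rw [← Finset.mem_coe, ← hfix, MulAction.mem_fixedPoints]
  exact ⟨fun h u => h u u.2, fun h u hu => h ⟨u, hu⟩⟩

end Cfsg.Agent.S0743
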