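import Cfsg.Statements.S0748
import Cfsg.Agent.H16.LW2

set_option autoImplicit false
open Cfsg

namespace Cfsg.Agent.S0748


/-- The Livingstone–Wagner Theorem: a `k`-homogeneous permutation group of degree `n` with `10 ≤ 2k ≤ n` is `k`-transitive. -/
theorem result {α : Type*} [Fintype α] [DecidableEq α] (G : Subgroup (Equiv.Perm α)) {k : ℕ} (hk : 5 ≤ k) (hkn : 2 * k ≤ Fintype.card α) (hh : MulAction.IsPretransitive G (Set.powersetCard α k)) : MulAction.IsMultiplyPretransitive G α k := by
  obtain ⟨m, rfl⟩ : ∃ m, k = m + 2 := ⟨k - 2, by omega⟩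
  exact H16.LW.trans_of_homog (by omega) hkn (H16.homog_iff.1 hh)

end Cfsg.Agent.S0748
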