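import Cfsg.Statements.S0752
import Cfsg.Agent.H11.Tens

set_option autoImplicit false
open Cfsg

namespace Cfsg.Agent.S0752

/-- Classification of alternating forms: for an alternating bilinear form B on a finite-dimensional space over any field there is a basis indexed by (Fin m ⊕ Fin m) ⊕ Fin k such that B (e_i, f_j) = δ_ij, the e's are pairwise orthogonal, the f's are pairwise orthogonal, and the last k basis vectors are orthogonal to everything (they span the radical). -/
theorem result {F V : Type*} [Field F] [AddCommGroup V] [Module F V] [FiniteDimensional F V] (B : LinearMap.BilinForm F V) (hA : B.IsAlt) : ∃ (m k : ℕ) (b : Module.Basis ((Fin m ⊕ Fin m) ⊕ Fin k) F V), (∀ i j : Fin m, B (b (Sum.inl (Sum.inl i))) (b (Sum.inl (Sum.inr j))) = if i = j then 1 else 0) ∧ (∀ i j : Fin m, B (b (Sum.inl (Sum.inl i))) (b (Sum.inl (Sum.inl j))) = 0) ∧ (∀ i j : Fin m, B (b (Sum.inl (Sum.inr i))) (b (Sum.inl (Sum.inr j))) = 0) ∧ (∀ (j : Fin k) (v : V), B (b (Sum.inr j)) v = 0) := by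
  obtain ⟨C, hC⟩ := (LinearMap.ker B).exists_isCompl
  let S := (H11.sympS B hA).restrict C
  have hS : S.Nondeg := (H11.PForm.restrict_nondeg_iff' _ _).2 fun x hx h =>
    Submodule.disjoint_def.1 hC.disjoint x (LinearMap.ext fun y => by
      obtain ⟨a, ha, b, hb, rfl⟩ := Submodule.mem_sup.1 (hC.sup_eq_top ▸ Submodule.mem_top (x := y))
      have : B x b = 0 := h b hb
      rw [map_add, this, ← hA.neg_eq, LinearMap.mem_ker.1 ha]; simp) hx
  obtain ⟨m, hm⟩ := H11.PForm.symp_even _ hS rfl
  obtain ⟨e, he⟩ := H11.PForm.symp_eqv _ (H11.stdSymp_nondeg m) hS (H11.finrank_sum_fun m)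
    (hm.trans (two_mul m).symm)
  have h : ∀ x y, B (e x) (e y) = (H11.stdSymp m F).h x y := he.h_eq
  refine ⟨m, _, ((((Pi.basisFun F _).map e).reindex (Equiv.sumComm _ _)).prod
    (Module.finBasis F (LinearMap.ker B))).map (Submodule.prodEquivOfIsCompl _ _ hC.symm),
    ?_, ?_, ?_, fun j v => ?_⟩
  · simp [h, H11.stdSymp_single_inr, Pi.single_apply]
  · simp [h, H11.stdSymp_single_inr]
  · simp [h, H11.stdSymp_single_inl]
  · simp

end Cfsg.Agent.S0752
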