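import Cfsg.Statements.S0755
import Cfsg.Agent.H11.Unit

set_option autoImplicit false
open Cfsg

namespace Cfsg.Agent.S0755

/-- Classification of Hermitian forms over finite fields: if σ is a non-identity involutive automorphism of the finite field F and B is a non-degenerate conjugate-symmetric σ-sesquilinear form on the finite-dimensional space V, then V has a B-orthonormal basis. -/
theorem result {F V : Type*} [Field F] [Finite F] [AddCommGroup V] [Module F V] [FiniteDimensional F V] (σ : F →+* F) (hσ : σ ≠ RingHom.id F) (hσ2 : ∀ a : F, σ (σ a) = a) (B : V →ₛₗ[σ] V →ₗ[F] F) (hS : B.IsSymm) (hB : B.Nondegenerate) : ∃ b : Module.Basis (Fin (Module.finrank F V)) F V, ∀ i j, B (b i) (b j) = if i = j then 1 else 0 := by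
  obtain ⟨e, he⟩ := H11.PForm.unit_eqv hσ (Module.finrank F V)
    (H11.stdUnit_nondeg hσ2 hσ (Fin (Module.finrank F V))) (T := H11.unitS hσ2 hσ B hS)
    (fun x hx => hB.1 x hx) (by simp) rfl
  refine ⟨(Pi.basisFun F _).map e, fun i j => ?_⟩
  have := he.h_eq (Pi.single i 1) (Pi.single j 1)
  rw [H11.stdUnit_single] at this
  simpa [Pi.single_apply, eq_comm] using this

end Cfsg.Agent.S0755
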