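import Cfsg.Statements.S0756
import Cfsg.Agent.H11.Orth2

set_option autoImplicit false
open Cfsg

namespace Cfsg.Agent.S0756

/-- Classification of symmetric bilinear forms over finite fields of odd characteristic: if B is non-degenerate symmetric on V of dimension n + 1 and α is a fixed non-square of F, there is an orthogonal basis b_0, ..., b_n with B(b_i, b_i) = 1 for i < n and B(b_n, b_n) ∈ {1, α}. -/
theorem result {F V : Type*} [Field F] [Finite F] [AddCommGroup V] [Module F V] [FiniteDimensional F V] (h2 : (2 : F) ≠ 0) (B : LinearMap.BilinForm F V) (hS : B.IsSymm) (hB : B.Nondegenerate) {n : ℕ} (hn : Module.finrank F V = n + 1) (α : F) (hα : ¬ IsSquare α) : ∃ b : Module.Basis (Fin (n + 1)) F V, (∀ i j, i ≠ j → B (b i) (b j) = 0) ∧ (∀ i, i ≠ Fin.last n → B (b i) (b i) = 1) ∧ (B (b (Fin.last n)) (b (Fin.last n)) = 1 ∨ B (b (Fin.last n)) (b (Fin.last n)) = α) := by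
  have hT : (H11.symmS h2 B hS).Nondeg := hB.1
  have hα0 : α ≠ 0 := by rintro rfl; exact hα ⟨0, by simp⟩
  have key : ∀ d : F, d ≠ 0 → H11.sqSign d = H11.sqSign (2 : F) ^ Module.finrank F V * hT.disc →
      ∃ b : Module.Basis (Fin (n + 1)) F V, (∀ i j, i ≠ j → B (b i) (b j) = 0) ∧
        (∀ i, i ≠ Fin.last n → B (b i) (b i) = 1) ∧ B (b (Fin.last n)) (b (Fin.last n)) = d := by
    intro d hd h
    obtain ⟨b, hb⟩ := hT.exists_basis_gram h2
      (M := Matrix.diagonal fun i : Fin (n + 1) => if i = Fin.last n then d else 1)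
      (Matrix.isSymm_diagonal _) (by simpa using hd) (by simpa using hn) (by simpa using h)
    exact ⟨b, fun i j hij => (hb i j).trans (by simp [hij]),
      fun i hi => (hb i i).trans (by simp [hi]), (hb _ _).trans (by simp)⟩
  rcases Int.units_eq_one_or (H11.sqSign (2 : F) ^ Module.finrank F V * hT.disc) with h | h
  · obtain ⟨b, h1, h3, h4⟩ := key 1 one_ne_zero (by rw [h, H11.sqSign_one])
    exact ⟨b, h1, h3, Or.inl h4⟩
  · obtain ⟨b, h1, h3, h4⟩ := key α hα0 (by rw [h, H11.sqSign_eq_neg_one_iff.2 hα])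
    exact ⟨b, h1, h3, Or.inr h4⟩

end Cfsg.Agent.S0756
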