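import Cfsg.Statements.S0757


set_option autoImplicit false
open Cfsg

namespace Cfsg.Agent.S0757

/-- The two diagonal forms Σ x_i^2 and Σ_(i<n) x_i^2 + α x_n^2 on F^(n+1), with α a non-square and 2 ≠ 0 in F, are inequivalent quadratic forms (so over a finite field of odd order there are exactly two classes of non-singular symmetric bilinear forms in each dimension). -/
theorem result {F : Type*} [Field F] (h2 : (2 : F) ≠ 0) (n : ℕ) (α : F) (hα : ¬ IsSquare α) : ¬ (QuadraticMap.weightedSumSquares F (fun _ : Fin (n + 1) => (1 : F))).Equivalent (QuadraticMap.weightedSumSquares F (fun i : Fin (n + 1) => if i = Fin.last n then α else (1 : F))) := by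
  rintro ⟨e⟩
  let := invertibleOfNonzero h2
  have key : ∀ w : Fin (n + 1) → F,
      QuadraticForm.discr' (QuadraticMap.weightedSumSquares F w) = ∏ i, w i := fun w => by
    rw [QuadraticForm.discr', ← Matrix.det_diagonal]
    congr 1
    ext i j
    by_cases h : i = j
    · subst h
      simp [QuadraticForm.toMatrix', QuadraticMap.associated_eq_self_apply, Pi.single_apply]
    · simp [QuadraticForm.toMatrix', QuadraticMap.associated_apply, Pi.single_apply, h, add_mul,
        mul_add, Finset.sum_add_distrib, Ne.symm h]
  have h := QuadraticForm.discr'_comp (Q := QuadraticMap.weightedSumSquares F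
    (fun _ : Fin (n + 1) => (1 : F))) (e.symm.toLinearEquiv : (Fin (n + 1) → F) →ₗ[F] _)
  rw [show QuadraticMap.comp _ _ = QuadraticMap.weightedSumSquares F
    (fun i : Fin (n + 1) => if i = Fin.last n then α else (1 : F)) from
      QuadraticMap.ext fun x => e.symm.map_app x, key, key] at h
  exact hα ⟨_, by simpa using h⟩

end Cfsg.Agent.S0757
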