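import Cfsg.Statements.S0758
import Cfsg.Agent.H11.Orth2

set_option autoImplicit false
open Cfsg

namespace Cfsg.Agent.S0758

/-- For a finite field F of odd order q and a non-square α: the form x² + y² is isotropic iff q ≡ 1 mod 4, and the form x² + α y² is isotropic iff q ≡ 3 mod 4. -/
theorem result {F : Type*} [Field F] [Fintype F] (h2 : (2 : F) ≠ 0) (α : F) (hα : ¬ IsSquare α) : ((∃ x y : F, (x ≠ 0 ∨ y ≠ 0) ∧ x ^ 2 + y ^ 2 = 0) ↔ Fintype.card F % 4 = 1) ∧ ((∃ x y : F, (x ≠ 0 ∨ y ≠ 0) ∧ x ^ 2 + α * y ^ 2 = 0) ↔ Fintype.card F % 4 = 3) := by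
  have hα0 : α ≠ 0 := by rintro rfl; exact hα ⟨0, by simp⟩
  have key : ∀ a : F, (∃ x y : F, (x ≠ 0 ∨ y ≠ 0) ∧ x ^ 2 + a * y ^ 2 = 0) ↔ IsSquare (-a) := by
    intro a
    constructor
    · rintro ⟨x, y, h0, h⟩
      have hy : y ≠ 0 := by rintro rfl; simp_all
      exact ⟨x / y, by field_simp; linear_combination -h⟩
    · rintro ⟨r, hr⟩
      exact ⟨r, 1, Or.inr one_ne_zero, by linear_combination -hr⟩
  have h1 := key 1
  have h3 := H11.sqSign_neg_one_pow h2 1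
  simp only [one_mul, pow_one] at h1 h3
  rw [h1, key, ← H11.sqSign_eq_one_iff, ← H11.sqSign_eq_one_iff, neg_eq_neg_one_mul α,
    H11.sqSign_mul (by simp) hα0, H11.sqSign_eq_neg_one_iff.2 hα, mul_neg_one, neg_eq_iff_eq_neg]
  exact h3

end Cfsg.Agent.S0758
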