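import Cfsg.Statements.S0759
import Cfsg.Agent.H11.Orth2

set_option autoImplicit false
open Cfsg

namespace Cfsg.Agent.S0759

/-- Type of the orthonormal form: over a finite field of odd order q and for m ≥ 1, the quadratic form Σ_(i<2m) x_i² on F^(2m) admits an m-dimensional subspace on which it vanishes identically if and only if it is not the case that q ≡ 3 (mod 4) and m is odd. -/
theorem result {F : Type*} [Field F] [Fintype F] (h2 : (2 : F) ≠ 0) (m : ℕ) (hm : 1 ≤ m) : (∃ W : Submodule F (Fin (2 * m) → F), Module.finrank F W = m ∧ ∀ w ∈ W, ∑ i, w i ^ 2 = 0) ↔ ¬ (Fintype.card F % 4 = 3 ∧ Odd m) := by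
  let Q : QuadraticForm F (Fin (2 * m) → F) := QuadraticMap.weightedSumSquares F fun _ => (1 : F)
  have hQ : ∀ w, Q w = ∑ i, w i ^ 2 := fun w => by simp [Q, pow_two]
  have hh : ∀ i w, (H11.orthS Q).h (Pi.single i 1) w = 2 * w i := fun i w => by
    simp [QuadraticMap.polar, hQ, add_sq, Finset.sum_add_distrib, Pi.single_apply]; ring
  have hS : (H11.orthS Q).Nondeg := fun x hx => funext fun i => by
    simpa [hh, h2] using (hh i x).symm.trans ((H11.orthS Q).h_swap_zero (hx _))
  have h1 := (hS.disc_eq_prod h2 (Pi.basisFun F _) fun i j hij => by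
    rw [Pi.basisFun_apply, hh]; simp [hij]).2
  have h3 : hS.disc = 1 := by simpa [hQ, Pi.single_apply, H11.sqSign_one] using h1
  have h4 := hS.hasTS_iff_disc h2 (m := m) (by simp)
  rw [h3, eq_comm, (H11.sqSign_neg_one_pow h2 m).1] at h4
  refine Iff.trans (b := (H11.orthS Q).HasTS m) (exists_congr fun W => ?_) (h4.trans ?_)
  · simp [H11.PForm.orth_ts_iff, hQ, and_comm]
  · obtain ⟨k, hk⟩ := H11.two_ne_zero_iff_odd.1 h2
    rw [Nat.pow_mod]
    have : Fintype.card F % 4 = 1 ∨ Fintype.card F % 4 = 3 := by omega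
    rcases this with h | h <;> rw [h]
    · simp
    · rcases Nat.even_or_odd' m with ⟨m, rfl | rfl⟩
      · simp [pow_mul, Nat.pow_mod]
      · simp [pow_succ, pow_mul, Nat.pow_mod, Nat.mul_mod]

end Cfsg.Agent.S0759
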