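import Cfsg.Statements.S0760
import Cfsg.Agent.H11.Std

set_option autoImplicit false
open Cfsg

namespace Cfsg.Agent.S0760

/-- Witt index is well defined: if Q is a quadratic form on a finite-dimensional space V over a finite field with non-degenerate polar form, and W₁, W₂ are subspaces on which Q vanishes that are maximal with this property, then W₁ and W₂ have the same dimension, and twice this dimension is at most dim V. -/
theorem result {F V : Type*} [Field F] [Finite F] [AddCommGroup V] [Module F V] [FiniteDimensional F V] (Q : QuadraticForm F V) (hQ : (QuadraticMap.polarBilin Q).Nondegenerate) (W₁ W₂ : Submodule F V) (h₁ : ∀ w ∈ W₁, Q w = 0) (h₂ : ∀ w ∈ W₂, Q w = 0) (hmax₁ : ∀ W : Submodule F V, W₁ ≤ W → (∀ w ∈ W, Q w = 0) → W = W₁) (hmax₂ : ∀ W : Submodule F V, W₂ ≤ W → (∀ w ∈ W, Q w = 0) → W = W₂) : Module.finrank F W₁ = Module.finrank F W₂ ∧ 2 * Module.finrank F W₁ ≤ Module.finrank F V := by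
  have hS := H11.orthS_nondeg hQ
  have key : ∀ W : Submodule F V, (∀ w ∈ W, Q w = 0) →
      (∀ X : Submodule F V, W ≤ X → (∀ w ∈ X, Q w = 0) → X = W) →
      ∀ x ∈ (H11.orthS Q).perp W, (H11.orthS Q).Sing x → x ∈ W := fun W h hm x hx hs => by
    rw [← hm _ le_sup_left (H11.PForm.orth_ts_iff.1
      ((H11.PForm.orth_ts_iff (S := H11.orthS Q).2 h).sup_span hs hx))]
    exact Submodule.mem_sup_right (Submodule.mem_span_singleton_self x)
  have t₁ := (H11.PForm.orth_ts_iff (S := H11.orthS Q)).2 h₁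
  have t₂ := (H11.PForm.orth_ts_iff (S := H11.orthS Q)).2 h₂
  exact ⟨le_antisymm (t₂.finrank_le_of_maximal hS (key _ h₂ hmax₂) t₁)
    (t₁.finrank_le_of_maximal hS (key _ h₁ hmax₁) t₂), t₁.two_mul_finrank_le hS⟩

end Cfsg.Agent.S0760
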