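import Cfsg.Statements.S0763
import Cfsg.Agent.H11.Std

set_option autoImplicit false
open Cfsg

namespace Cfsg.Agent.S0763

/-- Binary quadratic forms in characteristic two over a finite field: if Q is a quadratic form on a 2-dimensional space whose polar form is non-degenerate, then either there are vectors v, w with Q v = Q w = 0 and polar value 1 (Q is xy in these coordinates), or there are v, w and μ with Q v = 1, Q w = μ, polar value 1 and x² + x + μ without roots in F (Q is x² + xy + μy²). -/
theorem result {F V : Type*} [Field F] [Finite F] [CharP F 2] [AddCommGroup V] [Module F V] (Q : QuadraticForm F V) (h2 : Module.finrank F V = 2) (hQ : (QuadraticMap.polarBilin Q).Nondegenerate) : (∃ v w : V, LinearIndependent F ![v, w] ∧ Q v = 0 ∧ Q w = 0 ∧ QuadraticMap.polar Q v w = 1) ∨ (∃ (v w : V) (μ : F), LinearIndependent F ![v, w] ∧ (∀ x : F, x ^ 2 + x + μ ≠ 0) ∧ Q v = 1 ∧ Q w = μ ∧ QuadraticMap.polar Q v w = 1) := by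
  have : FiniteDimensional F V := Module.finite_of_finrank_eq_succ h2
  have hS := H11.orthS_nondeg hQ
  by_cases h : (H11.orthS Q).HasTS 1
  · obtain ⟨e, f, H⟩ := h.exists_hyp hS
    exact Or.inl ⟨e, f, H.linearIndependent, H.orth_q_e, H.orth_q_f, H.h_ef⟩
  · obtain ⟨v, hv⟩ := hS.orth_exists_q_eq h2.ge 1
    obtain ⟨w, hw, hl⟩ := hS.exists_plane_basis h2 hv
    exact Or.inr ⟨v, w, _, hl,
      H11.PForm.aniso_poly (H11.PForm.not_hasTS_one_iff.1 h) hv hw hl, hv, rfl, hw⟩

end Cfsg.Agent.S0763
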