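import Cfsg.Statements.S0766
import Cfsg.Agent.H11.Symp
import Cfsg.Agent.S0765

set_option autoImplicit false
open Cfsg

namespace Cfsg.Agent.S0766

/-- The subgroup generated by the symplectic transvections acts transitively on ordered pairs (u, v) with f(u, v) = 1. -/
theorem result {F : Type*} [Field F] (m : ℕ) (u v u' v' : Fin m ⊕ Fin m → F) (h : Cfsg.sympForm m F u v = 1) (h' : Cfsg.sympForm m F u' v' = 1) : ∃ A ∈ Subgroup.closure {A : Matrix.symplecticGroup (Fin m) F | ∃ (w : Fin m ⊕ Fin m → F) (c : F), (A : Matrix (Fin m ⊕ Fin m) (Fin m ⊕ Fin m) F) = Cfsg.sympTransvection m w c}, (A : Matrix (Fin m ⊕ Fin m) (Fin m ⊕ Fin m) F).mulVec u = u' ∧ (A : Matrix (Fin m ⊕ Fin m) (Fin m ⊕ Fin m) F).mulVec v = v' := by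
  have H : (H11.stdSymp m F).IsHyp u v := ⟨trivial, trivial, by rw [H11.stdSymp_h, h]⟩
  have H' : (H11.stdSymp m F).IsHyp u' v' := ⟨trivial, trivial, by rw [H11.stdSymp_h, h']⟩
  obtain ⟨g, hg, hg'⟩ := (H11.stdSymp_nondeg (F := F) m).witt_hyp H H'
  refine ⟨(H11.spEquiv m F).symm g, by rw [Cfsg.Agent.S0765.result]; trivial, ?_, ?_⟩
  · rw [← H11.spEquiv_apply, MulEquiv.apply_symm_apply, hg]
  · rw [← H11.spEquiv_apply, MulEquiv.apply_symm_apply, hg']

end Cfsg.Agent.S0766
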