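import Cfsg.Statements.S0767
import Cfsg.Agent.H11.Symp

set_option autoImplicit false
open Cfsg

namespace Cfsg.Agent.S0767

/-- The root group of a point: T_v(c) T_v(d) = T_v(c + d), and for A in the symplectic group with A v = a v, the conjugate A T_v(c) A⁻¹ is again some T_v(d). -/
theorem result {F : Type*} [Field F] (m : ℕ) (v : Fin m ⊕ Fin m → F) : (∀ c d : F, Cfsg.sympTransvection m v c * Cfsg.sympTransvection m v d = Cfsg.sympTransvection m v (c + d)) ∧ ∀ (A : Matrix (Fin m ⊕ Fin m) (Fin m ⊕ Fin m) F) (a : F), A ∈ Matrix.symplecticGroup (Fin m) F → A.mulVec v = a • v → ∀ c : F, ∃ d : F, A * Cfsg.sympTransvection m v c * A⁻¹ = Cfsg.sympTransvection m v d := by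
  constructor
  · intro c d
    apply H11.matrix_ext_mulVec
    intro x
    rw [← Matrix.mulVec_mulVec, H11.sympTransvection_mulVec, H11.sympTransvection_mulVec,
      H11.sympTransvection_mulVec, ← H11.PForm.isom_mul_apply,
      H11.PForm.transv_mul (H11.PForm.symp_sing _ v) trivial trivial, neg_add]
  · intro A a hA hv c
    refine ⟨a * c * a, H11.matrix_ext_mulVec fun x => ?_⟩
    have h1 : A⁻¹ = (((⟨A, hA⟩ : Matrix.symplecticGroup (Fin m) F)⁻¹ :
      Matrix.symplecticGroup (Fin m) F) : Matrix _ _ F) := (SymplecticGroup.coe_inv' ⟨A, hA⟩).symm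
    have h2 := H11.PForm.conj_eich (H11.spEquiv m F ⟨A, hA⟩) v 0 (-c)
    rw [H11.spEquiv_apply, map_zero] at h2
    simp only [hv] at h2
    rw [H11.PForm.transv_smul (H11.PForm.symp_sing _ v) trivial] at h2
    rw [h1, ← Matrix.mulVec_mulVec, ← Matrix.mulVec_mulVec, H11.sympTransvection_mulVec,
      H11.sympTransvection_mulVec, ← H11.spEquiv_apply, map_inv,
      show -(a * c * a) = a * -c * (RingHom.id F) a by simp, ← h2]
    rfl

end Cfsg.Agent.S0767
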