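import Cfsg.Statements.S0768
import Cfsg.Agent.H11.Symp

set_option autoImplicit false
open scoped LinearAlgebra.Projectivization
open Cfsg

namespace Cfsg.Agent.S0768

/-- Primitivity: for m ≥ 1 and F finite, the symplectic group of the form sympForm (as a subgroup of the general linear group) acts primitively on the projective space of F^(2m). -/
theorem result {F : Type*} [Field F] [Finite F] (m : ℕ) (hm : 1 ≤ m) : MulAction.IsPreprimitive ↥(Cfsg.spGL m F) (ℙ F (Fin m ⊕ Fin m → F)) := by
  have h1 := (H11.stdSymp_nondeg (F := F) m).isPreprimitive_of_E_le (H11.PForm.symp_rich _ 3)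
    (fun _ _ _ _ _ _ _ => H11.PForm.symp_rich _ 5) (G := ⊤) le_top
  let φ : (⊤ : Subgroup (H11.stdSymp m F).Isom) → ↥(Cfsg.spGL m F) :=
    fun g => (H11.spGLEquiv m F).symm g.1
  let f : (H11.stdSymp m F).singPts →ₑ[φ] (ℙ F (Fin m ⊕ Fin m → F)) :=
    { toFun := fun p => p.1
      map_smul' := fun g p => by
        obtain ⟨v, hv, hs, rfl⟩ := H11.PForm.exists_pt p
        rw [H11.PForm.subgroup_smul_pt]
        simp only [H11.PForm.pt, Projectivization.smul_mk]
        congr 1
        have := H11.spGLEquiv_apply m (φ g) v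
        rw [MulEquiv.apply_symm_apply] at this
        exact this }
  exact MulAction.IsPreprimitive.of_surjective (f := f) fun p => ⟨⟨p, trivial⟩, rfl⟩

end Cfsg.Agent.S0768
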