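import Cfsg.Statements.S0769
import Cfsg.Agent.H10.GLPar
import Mathlib.LinearAlgebra.Matrix.Block

set_option autoImplicit false
open Cfsg

namespace Cfsg.Agent.S0769

/-- Order of the Borel subgroup of GL_n(q): the invertible lower-triangular n × n matrices over a field with q elements number q^(n(n-1)/2) (q-1)^n (unitriangular part times the diagonal torus). -/
theorem result {F : Type*} [Field F] [Fintype F] {q : ℕ} (hF : Fintype.card F = q) (n : ℕ) : Nat.card {g : Matrix.GeneralLinearGroup (Fin n) F // ∀ i j : Fin n, i < j → (g : Matrix (Fin n) (Fin n) F) i j = 0} = q ^ (n * (n - 1) / 2) * (q - 1) ^ n := by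
  have h1 := H10.card_GL_subtype (F := F) fun A : Matrix (Fin n) (Fin n) F =>
    ∀ i j : Fin n, i < j → A i j = 0
  rw [h1]
  have h2 : ∀ M : Matrix (Fin n) (Fin n) F, (M.det ≠ 0 ∧ ∀ i j : Fin n, i < j → M i j = 0) ↔
      ∀ i j, (i < j → M i j = 0) ∧ (i = j → M i j ≠ 0) := fun M => by
    constructor
    · rintro ⟨h, h'⟩ i j
      rw [Matrix.det_of_isLowerTriangular M fun i j hij => h' i j hij, Finset.prod_ne_zero_iff] at h
      exact ⟨h' i j, by rintro rfl; exact h i (Finset.mem_univ _)⟩
    · intro h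
      rw [Matrix.det_of_isLowerTriangular M fun i j hij => (h i j).1 hij, Finset.prod_ne_zero_iff]
      exact ⟨fun i _ => (h i i).2 rfl, fun i j => (h i j).1⟩
  rw [Nat.card_congr (Equiv.subtypeEquivRight h2)]
  have e : {M : Matrix (Fin n) (Fin n) F // ∀ i j, (i < j → M i j = 0) ∧ (i = j → M i j ≠ 0)} ≃
      ∀ i j : Fin n, {a : F // (i < j → a = 0) ∧ (i = j → a ≠ 0)} :=
    ⟨fun M i j => ⟨M.1 i j, M.2 i j⟩, fun f => ⟨fun i j => (f i j).1, fun i j => (f i j).2⟩,
      fun _ => rfl, fun _ => rfl⟩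
  have h3 : ∀ i j : Fin n, Nat.card {a : F // (i < j → a = 0) ∧ (i = j → a ≠ 0)} =
      (if j < i then q else 1) * (if i = j then q - 1 else 1) := fun i j => by
    classical
    rcases lt_trichotomy i j with h | h | h
    · simp [h, h.ne, h.not_gt]
    · simp [h, hF]
    · simp [h, h.ne', h.not_gt, hF]
  rw [Nat.card_congr e, Nat.card_pi]
  simp only [Nat.card_pi, h3, Finset.prod_mul_distrib, Finset.prod_ite_eq, Finset.mem_univ, if_true,
    Finset.prod_const, Finset.card_univ, Fintype.card_fin]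
  congr 1
  have h4 : ∀ i : Fin n, (∏ j : Fin n, if j < i then q else 1) = q ^ (i : ℕ) := fun i => by
    rw [← Finset.prod_filter, Finset.prod_const, Finset.filter_gt_eq_Iio, Fin.card_Iio]
  simp only [h4]
  rw [Finset.prod_pow_eq_pow_sum, Fin.sum_univ_eq_sum_range (fun i => i), Finset.sum_range_id]

end Cfsg.Agent.S0769
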