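import Cfsg.Statements.S0770
import Cfsg.Agent.H10.GLPar

set_option autoImplicit false
open Cfsg

namespace Cfsg.Agent.S0770

open Matrix

/-- For a field with at least 3 elements, an invertible matrix normalises the subgroup of invertible diagonal matrices of GL_n if and only if it is monomial (exactly one non-zero entry in each row). -/
theorem result {F : Type*} [Field F] (hF : ∃ a : F, a ≠ 0 ∧ a ≠ 1) (n : ℕ) (g : Matrix.GeneralLinearGroup (Fin n) F) : g ∈ Subgroup.normalizer ((Units.map (Matrix.diagonalRingHom (Fin n) F).toMonoidHom).range : Subgroup (Matrix.GeneralLinearGroup (Fin n) F)) ↔ ∀ i : Fin n, ∃! j : Fin n, (g : Matrix (Fin n) (Fin n) F) i j ≠ 0 := by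
  obtain ⟨a, ha0, ha1⟩ := hF
  set T := (Units.map (Matrix.diagonalRingHom (Fin n) F).toMonoidHom).range with hT
  have memT : ∀ x : GL (Fin n) F, x ∈ T ↔ ∃ d : Fin n → F, x.1 = diagonal d := fun x => by
    refine ⟨fun ⟨d, hd⟩ => ⟨d.1, hd ▸ rfl⟩, fun ⟨d, hd⟩ => ?_⟩
    have h0 := x.det_ne_zero
    rw [hd, det_diagonal, Finset.prod_ne_zero_iff] at h0
    exact ⟨⟨d, fun i => (d i)⁻¹, funext fun i => mul_inv_cancel₀ (h0 i (Finset.mem_univ _)),
      funext fun i => inv_mul_cancel₀ (h0 i (Finset.mem_univ _))⟩, Units.ext hd.symm⟩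
  have hrow : ∀ i, ∃ j, g.1 i j ≠ 0 := fun i => by
    by_contra h
    push Not at h
    exact g.det_ne_zero (det_eq_zero_of_row_eq_zero i h)
  have hcol : ∀ j, ∃ i, g.1 i j ≠ 0 := fun j => by
    by_contra h
    push Not at h
    exact g.det_ne_zero (det_eq_zero_of_column_eq_zero j h)
  constructor
  · intro h i
    obtain ⟨j, hj⟩ := hrow i
    refine ⟨j, hj, fun k hk => ?_⟩
    by_contra hne
    let d : GL (Fin n) F := GeneralLinearGroup.mkOfDetNeZero (diagonal (Function.update 1 j a)) (by
      rw [det_diagonal, Finset.prod_update_of_mem (Finset.mem_univ _)]; simp [ha0])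
    obtain ⟨e, he⟩ := (memT _).1 ((Subgroup.mem_normalizer_iff.1 h d).1 ((memT _).2 ⟨_, rfl⟩))
    have h1 : g.1 * diagonal (Function.update 1 j a) = diagonal e * g.1 := by
      rw [← he, ← Units.val_mul, inv_mul_cancel_right]; rfl
    have h2 := congrFun (congrFun h1 i) j
    have h3 := congrFun (congrFun h1 i) k
    simp only [mul_diagonal, diagonal_mul, Function.update_self, Function.update_of_ne hne,
      Pi.one_apply] at h2 h3
    rw [mul_comm] at h2 h3
    exact ha1 ((mul_right_cancel₀ hj h2).trans (mul_right_cancel₀ hk h3).symm)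
  · intro h
    choose σ hσ hσ' using h
    have hs : Function.Surjective σ := fun j => by
      obtain ⟨i, hi⟩ := hcol j
      exact ⟨i, (hσ' i j hi).symm⟩
    have key : ∀ d : Fin n → F, g.1 * diagonal d = diagonal (d ∘ σ) * g.1 := fun d => by
      ext i j
      rw [mul_diagonal, diagonal_mul, mul_comm]
      by_cases h0 : g.1 i j = 0
      · simp [h0]
      · rw [hσ' i j h0]; rfl
    refine Subgroup.mem_normalizer_iff.2 fun x => ?_
    rw [memT, memT]
    constructor
    · rintro ⟨d, hd⟩
      exact ⟨d ∘ σ, by rw [Units.val_mul, Units.val_mul, hd, key, Units.mul_inv_cancel_right]⟩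
    · rintro ⟨d, hd⟩
      obtain ⟨τ, hτ, -⟩ := Function.bijective_iff_has_inverse.1
        (Finite.surjective_iff_bijective.1 hs)
      refine ⟨d ∘ τ, ?_⟩
      have h1 := key (d ∘ τ)
      rw [Function.comp_assoc, hτ.comp_eq_id, Function.comp_id, ← hd, ← Units.val_mul,
        inv_mul_cancel_right, Units.val_mul] at h1
      exact ((Units.mul_right_inj g).1 h1).symm

end Cfsg.Agent.S0770
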