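import Cfsg.Statements.S0773
import Cfsg.Agent.H10.GLPar

set_option autoImplicit false
open Cfsg

namespace Cfsg.Agent.S0773

open Matrix

noncomputable def flip (F : Type*) [Field F] (n : ℕ) : GL (Fin n) F →* GL (Fin n) F where
  toFun g := ⟨reindex Fin.revPerm Fin.revPerm (g⁻¹).1ᵀ, reindex Fin.revPerm Fin.revPerm g.1ᵀ,
    by simp [← transpose_mul], by simp [← transpose_mul]⟩
  map_one' := Units.ext (by simp)
  map_mul' g h := Units.ext (by simp [← transpose_mul])

theorem flip_flip {F : Type*} [Field F] {n : ℕ} (g : GL (Fin n) F) : flip F n (flip F n g) = g :=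
  Units.ext (by
    ext i j
    change g.1 (Fin.rev (Fin.rev i)) (Fin.rev (Fin.rev j)) = _
    simp)

theorem flip_mem {F : Type*} [Field F] [Finite F] {n k l : ℕ} (h : k + l = n) {g : GL (Fin n) F}
    (hg : g ∈ H10.par F n k) : flip F n g ∈ H10.par F n l :=
  H10.mem_par_iff.2 fun i j hi hj => H10.mem_par_iff.1 (inv_mem hg) (Fin.rev j) (Fin.rev i)
    (by simp; omega) (by have := i.2; simp; omega)

/-- The stabilisers in GL_n(F), F finite, of the coordinate subspaces of dimensions k and n − k are isomorphic groups, but when 2k ≠ n (and 0 < k < n) no element of GL_n conjugates one onto the other. -/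
theorem result {F : Type*} [Field F] [Finite F] (n k : ℕ) (hk0 : 0 < k) (hkn : k < n) (h2 : 2 * k ≠ n) : Nonempty (↥(Cfsg.stabilizing (Cfsg.glToMat (Fin n) F) {v : Fin n → F | ∀ i : Fin n, k ≤ (i : ℕ) → v i = 0}) ≃* ↥(Cfsg.stabilizing (Cfsg.glToMat (Fin n) F) {v : Fin n → F | ∀ i : Fin n, n - k ≤ (i : ℕ) → v i = 0})) ∧ ∀ g : Matrix.GeneralLinearGroup (Fin n) F, (Cfsg.stabilizing (Cfsg.glToMat (Fin n) F) {v : Fin n → F | ∀ i : Fin n, k ≤ (i : ℕ) → v i = 0}).map (MulAut.conj g).toMonoidHom ≠ Cfsg.stabilizing (Cfsg.glToMat (Fin n) F) {v : Fin n → F | ∀ i : Fin n, n - k ≤ (i : ℕ) → v i = 0} := by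
  refine ⟨⟨MonoidHom.toMulEquiv
    (((flip F n).comp (H10.par F n k).subtype).codRestrict (H10.par F n (n - k)) fun g =>
      flip_mem (k := k) (l := n - k) (by omega) g.2)
    (((flip F n).comp (H10.par F n (n - k)).subtype).codRestrict (H10.par F n k) fun g =>
      flip_mem (k := n - k) (l := k) (by omega) g.2)
    (MonoidHom.ext fun g => Subtype.ext (flip_flip _))
    (MonoidHom.ext fun g => Subtype.ext (flip_flip _))⟩, fun g hg => ?_⟩
  set l := n - k with hl
  let U : Submodule F (Fin n → F) :=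
    { carrier := {v | (g⁻¹).1 *ᵥ v ∈ H10.stdSub F n k}
      add_mem' := fun {a b} ha hb i hi => by
        have h1 := ha i hi
        have h2 := hb i hi
        rw [mulVec_add, Pi.add_apply, h1, h2, add_zero]
      zero_mem' := fun i _ => by simp
      smul_mem' := fun c a ha i hi => by
        have h1 := ha i hi
        rw [mulVec_smul, Pi.smul_apply, h1, smul_zero] }
  have hU : ∀ x ∈ H10.par F n l, ∀ v ∈ U, x.1 *ᵥ v ∈ U := fun x hx v hv => by
    obtain ⟨y, hy, rfl⟩ := hg.ge hx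
    have := (hy _).1 hv
    change (g⁻¹).1 *ᵥ (g * y * g⁻¹).1 *ᵥ v ∈ H10.stdSub F n k
    rwa [mulVec_mulVec, ← Units.val_mul, ← mul_assoc, ← mul_assoc, inv_mul_cancel, one_mul,
      Units.val_mul, ← mulVec_mulVec]
  have hcard : Nat.card U = Nat.card F ^ k := by
    rw [← H10.card_stdSub hkn.le]
    refine Nat.card_congr ⟨fun v => ⟨(g⁻¹).1 *ᵥ v.1, v.2⟩, fun w => ⟨g.1 *ᵥ w.1, ?_⟩,
      fun v => Subtype.ext ?_, fun w => Subtype.ext ?_⟩
    · change (g⁻¹).1 *ᵥ g.1 *ᵥ w.1 ∈ H10.stdSub F n k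
      rw [mulVec_mulVec, ← Units.val_mul, inv_mul_cancel, Units.val_one, one_mulVec]
      exact w.2
    · change g.1 *ᵥ (g⁻¹).1 *ᵥ v.1 = _
      rw [mulVec_mulVec, ← Units.val_mul, mul_inv_cancel, Units.val_one, one_mulVec]
    · change (g⁻¹).1 *ᵥ g.1 *ᵥ w.1 = _
      rw [mulVec_mulVec, ← Units.val_mul, inv_mul_cancel, Units.val_one, one_mulVec]
  have hq : 1 < Nat.card F := Finite.one_lt_card
  have key : ∀ m ≤ n, ∀ v ∈ U, v ∈ H10.stdSub F n m → ∀ j : Fin n, v j ≠ 0 →
      (l ≤ (j : ℕ) ∨ m ≤ l) → H10.stdSub F n m ⊆ U := by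
    intro m hm v hv hvm j hj hjl
    have h1 : ∀ i : Fin n, (i : ℕ) < m → i ≠ j → Pi.single i (1 : F) ∈ U := fun i hi hij => by
      have h2 := hU _ (H10.tGL_mem_par (k := l) (u := Pi.single i 1) (φ := Pi.single j (v j)⁻¹)
        (by simp [hij]) (hjl.symm.imp
          (fun h a ha => Pi.single_eq_of_ne (by rintro rfl; omega) _)
          fun h a ha => Pi.single_eq_of_ne (by rintro rfl; omega) _)) v hv
      have h3 := U.sub_mem h2 hv
      simpa [H10.tGL, add_mulVec, vecMulVec_mulVec, hj] using h3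
    have h2 : ∀ w : Fin n → F, w ∈ H10.stdSub F n m → w j = 0 → w ∈ U := fun w hw hwj => by
      rw [← Finset.univ_sum_single w]
      refine U.sum_mem fun i _ => ?_
      by_cases h0 : w i = 0
      · simp [h0]
      · have := U.smul_mem (w i) (h1 i (not_le.1 fun h => h0 (hw i h)) (by rintro rfl; exact h0 hwj))
        rwa [← Pi.single_smul, smul_eq_mul, mul_one] at this
    intro w hw
    have h3 := U.add_mem (h2 (w - (w j / v j) • v) (fun i hi => by simp [hw i hi, hvm i hi])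
      (by simp [hj])) (U.smul_mem (w j / v j) hv)
    rwa [sub_add_cancel] at h3
  have hle : ∀ m ≤ n, H10.stdSub F n m ⊆ U → m ≤ k := fun m hm h => by
    have := Nat.card_mono (Set.toFinite _) h
    rw [H10.card_stdSub hm] at this
    exact (Nat.pow_le_pow_iff_right hq).1 (this.trans hcard.le)
  by_cases h : (U : Set (Fin n → F)) ⊆ H10.stdSub F n l
  · have h1 := Nat.card_mono (Set.toFinite _) h
    rw [H10.card_stdSub (by omega)] at h1
    have h3 : k ≤ l := (Nat.pow_le_pow_iff_right hq).1 (hcard.ge.trans h1)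
    have : Nontrivial U := Finite.one_lt_card_iff_nontrivial.1 (hcard ▸ Nat.one_lt_pow hk0.ne' hq)
    obtain ⟨v, hv⟩ := exists_ne (0 : U)
    obtain ⟨j, hj⟩ := Function.ne_iff.1 (show v.1 ≠ 0 from fun e => hv (Subtype.ext e))
    have := hle l (by omega) (key l (by omega) v v.2 (h v.2) j hj (.inr le_rfl))
    omega
  · obtain ⟨v, hv, hv'⟩ := Set.not_subset.1 h
    simp only [Set.mem_ofPred_eq, not_forall] at hv'
    obtain ⟨j, hj, hj'⟩ := hv'
    have := hle n le_rfl (key n le_rfl v hv (fun i hi => absurd i.2 (not_lt.2 hi)) j hj' (.inl hj))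
    omega

end Cfsg.Agent.S0773
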