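import Cfsg.Statements.S0774
import Cfsg.Agent.H11.Levi

set_option autoImplicit false
open Cfsg

namespace Cfsg.Agent.S0774

/-- Borel subgroup of the symplectic group: the elements of Sp_2m(q) stabilising each of the totally isotropic coordinate subspaces ⟨e_0, ..., e_k⟩ (k < m) form a subgroup of order q^(m²) (q − 1)^m. -/
theorem result {F : Type*} [Field F] [Fintype F] {q : ℕ} (hF : Fintype.card F = q) (m : ℕ) : Nat.card ↥(⨅ k : Fin m, Cfsg.stabilizing (Cfsg.spToMat m F) {v : Fin m ⊕ Fin m → F | (∀ i : Fin m, (k : ℕ) < (i : ℕ) → v (Sum.inl i) = 0) ∧ ∀ i : Fin m, v (Sum.inr i) = 0}) = q ^ (m ^ 2) * (q - 1) ^ m := by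
  classical
  let S := H11.stdSymp m F
  have hS : S.Nondeg := H11.stdSymp_nondeg m
  let W : Fin m → Submodule F (Fin m ⊕ Fin m → F) := fun k =>
    (⨅ i : Fin m, ⨅ _ : (k : ℕ) < i, LinearMap.ker (LinearMap.proj (Sum.inl i))) ⊓
      LinearMap.ker (LinearMap.funLeft F F Sum.inr)
  have hW : ∀ k v, v ∈ W k ↔ (∀ i : Fin m, (k : ℕ) < (i : ℕ) → v (Sum.inl i) = 0) ∧
      ∀ i : Fin m, v (Sum.inr i) = 0 := fun k v => by simp [W, H11.mem_ker_funLeft, -LinearMap.mem_ker]; simp
  let B : Subgroup S.Isom := ⨅ k, S.stab (W k)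
  rw [Nat.card_congr (H11.subgroupEquivOfIff (B := B) (H11.spEquiv m F) fun g => by
    simp only [B, Subgroup.mem_iInf, H11.PForm.mem_stab, hW]; rfl).toEquiv]
  let e : Fin m → Fin m ⊕ Fin m → F := fun k => Pi.single (Sum.inl k) 1
  have he : ∀ k, e k ∈ W k := fun k => (hW _ _).2 ⟨fun i hi => by
    simp [e, Pi.single_apply]; omega, fun i => by simp [e]⟩
  have hU := (H11.stdSymp_polar m F).ts1
  have hd := ((H11.stdSymp_polar m F).finrank_eq hS).2
  rw [H11.finrank_sum_fun] at hd
  have hs : Submodule.span F (Set.range e) = LinearMap.ker (LinearMap.funLeft F F Sum.inr) := by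
    refine le_antisymm (Submodule.span_le.2 (by rintro _ ⟨i, rfl⟩; exact (he i).2)) fun x hx => ?_
    rw [(Submodule.mem_span_range_iff_exists_fun F)]
    refine ⟨x ∘ Sum.inl, ?_⟩
    ext (i | i) <;> simp [e, Finset.sum_apply, Pi.single_apply, H11.mem_ker_funLeft.1 hx]
  rw [H11.card_eq_orbit_mul (G := B) e (fun v => ∀ k, v k ∈ W k ∧ v k (Sum.inl k) ≠ 0) fun v => ?_,
    Nat.card_congr (Equiv.subtypePiEquivPi (p := fun k v => v ∈ W k ∧ v (Sum.inl k) ≠ 0)),
    Nat.card_pi]
  · have h1 : Nat.card (MulAction.stabilizer B e) = q ^ (m * (m + 1) / 2) := by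
      have h2 := hU.symp_card_fix hS (H11.finrank_sum_fun m) (Nat.eq_of_mul_eq_mul_left two_pos hd)
      have h3 : S.fix (LinearMap.ker (LinearMap.funLeft F F Sum.inr)) ≤ B := le_iInf fun k =>
        (H11.PForm.fix_anti inf_le_right).trans (H11.PForm.fix_le_stab _)
      rw [← Nat.card_congr (Subgroup.subgroupOfEquivOfLe h3).toEquiv] at h2
      rw [show MulAction.stabilizer B e = (S.fix (LinearMap.ker (LinearMap.funLeft F F
        Sum.inr))).subgroupOf B from Subgroup.ext fun g => ?_, h2]
      · simp [hF]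
      · rw [Subgroup.mem_subgroupOf, ← hs, H11.PForm.mem_fix_span]
        simp only [MulAction.mem_stabilizer_iff, funext_iff (f := g • e), Set.forall_mem_range]
        rfl
    have h2 : ∀ k : Fin m, Nat.card {v // v ∈ W k ∧ v (Sum.inl k) ≠ 0} = q ^ (k : ℕ) * (q - 1) := by
      intro k
      have : Nat.card ((Fin k → F) × {c : F // c ≠ 0}) = q ^ (k : ℕ) * (q - 1) := by simp [hF]
      rw [← this]
      refine Nat.card_congr
        { toFun := fun v => (fun i => v.1 (Sum.inl (Fin.castLE k.2.le i)), ⟨_, v.2.2⟩)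
          invFun := fun p => ⟨Sum.elim (fun i => if h : (i : ℕ) < k then p.1 ⟨i, h⟩ else
            if i = k then p.2.1 else 0) 0, (hW _ _).2 ⟨fun i hi => by
              simp only [Sum.elim_inl, dif_neg hi.not_gt, if_neg (show i ≠ k by omega)], fun _ => rfl⟩, by simpa using p.2.2⟩
          left_inv := fun v => ?_
          right_inv := fun p => by
            ext i
            · exact dif_pos i.2
            · simp }
      obtain ⟨h1, h2⟩ := (hW _ _).1 v.2.1
      ext (i | i)
      · simp only [Sum.elim_inl]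
        split_ifs with h h'
        · rfl
        · rw [h']
        · exact (h1 i (by omega)).symm
      · exact (h2 i).symm
    simp only [h1, h2, Finset.prod_mul_distrib, Finset.prod_pow_eq_pow_sum, Finset.prod_const,
      Finset.card_fin, Fin.sum_univ_eq_sum_range (fun i => i), Finset.sum_range_id]
    rw [mul_right_comm, ← pow_add]
    congr 2
    obtain ⟨a, ha⟩ := Nat.even_mul_succ_self m
    obtain ⟨b, hb⟩ := Nat.even_mul_pred_self m
    cases m with
    | zero => rfl
    | succ n =>
      simp only [Nat.add_sub_cancel] at hb ⊢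
      rw [ha, hb, ← two_mul, ← two_mul, Nat.mul_div_cancel_left _ two_pos,
        Nat.mul_div_cancel_left _ two_pos]
      nlinarith
  · constructor
    · intro hv
      have hA : (Matrix.of fun i k => v k (Sum.inl i)).BlockTriangular id := fun i k h =>
        ((hW _ _).1 (hv k).1).1 i h
      let A := Matrix.GeneralLinearGroup.mkOfDetNeZero (Matrix.of fun i k => v k (Sum.inl i)) (by
        rw [Matrix.det_of_upperTriangular hA]
        exact Finset.prod_ne_zero_iff.2 fun k _ => (hv k).2)
      refine ⟨⟨H11.leviSp m F A, Subgroup.mem_iInf.2 fun k => H11.PForm.mem_stab_of_le fun x hx => ?_⟩,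
        funext fun k => ?_⟩
      · obtain ⟨h1, h2⟩ := (hW _ _).1 hx
        rw [H11.leviSp_apply, H11.leviGL_mulVec, show x ∘ Sum.inr = 0 from funext h2, hW]
        refine ⟨fun i hi => (Finset.sum_eq_zero fun j _ => ?_ :
          ∑ j, v j (Sum.inl i) * x (Sum.inl j) = 0), by simp⟩
        by_cases h : (k : ℕ) < j
        · exact mul_eq_zero_of_right _ (h1 j h)
        · exact mul_eq_zero_of_left (hA (show j < i by omega)) _
      · change (H11.leviSp m F A).1 (e k) = _
        rw [H11.leviSp_apply, H11.leviGL_mulVec, show e k ∘ Sum.inr = 0 by ext; simp [e],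
          show e k ∘ Sum.inl = Pi.single k 1 by ext; simp [e, Pi.single_apply]]
        ext (i | i)
        · simp [A]
        · simp [((hW _ _).1 (hv k).1).2]
    · rintro ⟨g, rfl⟩ k
      have hg := Subgroup.mem_iInf.1 g.2
      refine ⟨(hg k _).1 (he k), fun h0 => ?_⟩
      obtain ⟨h1, h2⟩ := (hW _ _).1 ((hg k _).1 (he k))
      rcases Nat.eq_zero_or_pos k with hk | hk
      · have : g.1.1 (e k) = 0 := by
          ext (i | i)
          · rcases eq_or_ne i k with rfl | h
            exacts [h0, h1 i (by omega)]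
          · exact h2 i
        simpa [e] using this
      · have := ((hW _ _).1 ((hg ⟨k - 1, by omega⟩ (e k)).2 ((hW _ _).2 ⟨fun i hi => ?_, h2⟩))).1 k
          (by simp; omega)
        · simp [e] at this
        · rcases eq_or_ne i k with rfl | h
          exacts [h0, h1 i (by simp at hi; omega)]

end Cfsg.Agent.S0774
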