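import Cfsg.Statements.S0776
import Cfsg.Agent.H11.Symp

set_option autoImplicit false
open Cfsg

namespace Cfsg.Agent.S0776

/-- If W ≤ F^(2m) is a 2k-dimensional subspace on which the symplectic form is non-degenerate, then the stabiliser of W in Sp_2m(F) is isomorphic to Sp_2k(F) × Sp_(2m−2k)(F). -/
theorem result {F : Type*} [Field F] (m k : ℕ) (hk : k ≤ m) (W : Submodule F (Fin m ⊕ Fin m → F)) (hWk : Module.finrank F W = 2 * k) (hW : ∀ u ∈ W, (∀ v ∈ W, Cfsg.sympForm m F u v = 0) → u = 0) : Nonempty (↥(Cfsg.stabilizing (Cfsg.spToMat m F) (W : Set (Fin m ⊕ Fin m → F))) ≃* Matrix.symplecticGroup (Fin k) F × Matrix.symplecticGroup (Fin (m - k)) F) := by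
  have hN : ((H11.stdSymp m F).restrict W).Nondeg := by
    rw [H11.PForm.restrict_nondeg_iff']
    intro x hx h
    exact hW x hx fun v hv => by rw [← H11.stdSymp_h, h v hv]
  have h1 := (H11.stdSymp_nondeg (F := F) m).finrank_perp W
  rw [H11.finrank_sum_fun] at h1
  obtain ⟨e1⟩ := (H11.PForm.symp_eqv (2 * k) hN (H11.stdSymp_nondeg k) hWk
    (H11.finrank_sum_fun k)).nonempty_mulEquiv
  obtain ⟨e2⟩ := (H11.PForm.symp_eqv (2 * (m - k)) ((H11.stdSymp_nondeg m).restrict_perp hN)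
    (H11.stdSymp_nondeg (m - k)) (by omega) (H11.finrank_sum_fun _)).nonempty_mulEquiv
  exact ⟨(H11.subgroupEquivOfIff (H11.spEquiv m F) (H11.mem_stabilizing_sp W)).trans
    ((H11.PForm.stabEquivProd hN).trans (MulEquiv.prodCongr (e1.trans (H11.spEquiv k F).symm)
      (e2.trans (H11.spEquiv (m - k) F).symm)))⟩

end Cfsg.Agent.S0776
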