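import Cfsg.Statements.S0777
import Cfsg.Agent.H11.Levi

set_option autoImplicit false
open Cfsg

namespace Cfsg.Agent.S0777

/-- Weyl group of type C_m: for q ≥ 4 the diagonal matrices of Sp_2m(q) form a torus T ≅ (C_(q−1))^m (the elements stabilising every coordinate axis), and the normaliser of T in Sp_2m(q) has order 2^m · m! · (q − 1)^m. -/
theorem result {F : Type*} [Field F] [Fintype F] {q : ℕ} (hF : Fintype.card F = q) (hq : 4 ≤ q) (m : ℕ) : Nat.card ↥(Subgroup.normalizer (⨅ i : Fin m ⊕ Fin m, Cfsg.stabilizing (Cfsg.spToMat m F) ((Submodule.span F {(Pi.single i (1 : F) : Fin m ⊕ Fin m → F)} : Submodule F (Fin m ⊕ Fin m → F)) : Set (Fin m ⊕ Fin m → F)) : Set (Matrix.symplecticGroup (Fin m) F))) = 2 ^ m * Nat.factorial m * (q - 1) ^ m := by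
  classical
  let S := H11.stdSymp m F
  have hS : S.Nondeg := H11.stdSymp_nondeg m
  let e : Fin m ⊕ Fin m → Fin m ⊕ Fin m → F := fun k => Pi.single k 1
  let ε : Fin m ⊕ Fin m → F := Sum.elim (fun _ => -1) fun _ => 1
  have hε : ∀ i, ε i * ε i = 1 := by rintro (i | i) <;> simp [ε]
  have hε' : ∀ i, ε i.swap = - ε i := by rintro (i | i) <;> simp [ε]
  have hh : ∀ i v, S.h (e i) v = ε i * v i.swap := by
    rintro (i | i) v <;> simp [S, e, ε, H11.stdSymp_single_inl, H11.stdSymp_single_inr]
  have hsw : ∀ i : Fin m ⊕ Fin m, i.swap ≠ i := by rintro (i | i) <;> simp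
  have hsw' : ∀ i j : Fin m ⊕ Fin m, i.swap = j ↔ i = j.swap := by
    rintro (i | i) (j | j) <;> simp
  let T : Subgroup S.Isom := ⨅ i, S.stab (F ∙ e i)
  have hT : ∀ t, t ∈ T ↔ ∀ i, ∃ c : F, c • e i = t.1 (e i) := fun t => by
    simp only [T, Subgroup.mem_iInf, ← Submodule.mem_span_singleton]
    refine forall_congr' fun i => ⟨fun h => (h _).1 (Submodule.mem_span_singleton_self _),
      fun h => H11.PForm.mem_stab_of_le fun x hx => ?_⟩
    obtain ⟨c, rfl⟩ := Submodule.mem_span_singleton.1 hx
    rw [map_smul]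
    exact Submodule.smul_mem _ _ h
  let M := Subgroup.normalizer (T : Set S.Isom)
  rw [Nat.card_congr (H11.subgroupEquivOfIff (B := M) (H11.spEquiv m F) fun g => by
    simp only [M, Subgroup.mem_set_normalizer_iff, T, Subgroup.mem_iInf, H11.mem_stabilizing_sp,
      map_mul, map_inv, Set.iInf_eq_iInter, Set.mem_iInter, SetLike.mem_coe]
    rw [(H11.spEquiv m F).surjective.forall]).toEquiv]
  have hinj : ∀ (g : S.Isom) {i i' j} {c c' : F}, g.1 (e i) = c • e j → g.1 (e i') = c' • e j →
      i = i' := fun g i i' j c c' h h' => by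
    by_contra hi
    have h1 : c' • e i = c • e i' := g.1.injective (by rw [map_smul, map_smul, h, h', smul_comm])
    have h2 : c' = 0 := by simpa [e, hi] using congrFun h1 i
    simp [h2, e] at h'
  have hM : ∀ g, g ∈ M ↔ ∀ i, ∃ j, ∃ c : F, g.1 (e i) = c • e j := fun g => by
    refine ⟨fun hg i => ?_, fun hg => Subgroup.mem_normalizer_fintype fun t ht => (hT _).2 fun j => ?_⟩
    · obtain ⟨j, hj⟩ : ∃ j, g.1 (e i) j ≠ 0 := Function.ne_iff.1 (show _ ≠ 0 by simp [e])
      obtain ⟨l, hl, hl'⟩ := H11.exists_sq_ne_one (F := F) (by simpa [hF] using hq)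
      have H : S.IsHyp (e j) (ε j • e j.swap) := ⟨trivial, trivial, by simp [hh, e, hε]⟩
      let w : Fin m ⊕ Fin m → F := fun k => if k = j then l else if k = j.swap then l⁻¹ else 1
      have hw : ∀ k, (H.tor (Units.mk0 l hl)).1 (e k) = w k • e k := fun k => by
        simp only [w]
        split_ifs with h h'
        · rw [h, H.tor_e]; rfl
        · have := congrArg (ε j • ·) (H.tor_f (Units.mk0 l hl))
          simpa [h', smul_smul, hε, mul_left_comm (ε j)] using this
        · rw [one_smul, H.tor_perp]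
          simp [H11.PForm.mem_perp_pair, hh, e, Ne.symm h, Ne.symm h']
      have hw' : ∀ v k, (H.tor (Units.mk0 l hl)).1 v k = w k * v k := fun v k => by
        conv_lhs => rw [show v = ∑ i, v i • e i from pi_eq_sum_univ' v, map_sum]
        simp only [map_smul, hw]
        simp [e, Finset.sum_apply, Pi.single_apply, mul_comm]
      obtain ⟨c, hc⟩ := (hT _).1 ((Subgroup.mem_normalizer_iff.1 (M.inv_mem hg) _).1
        ((hT _).2 fun k => ⟨_, (hw k).symm⟩)) i
      have h1 : ∀ k, c * g.1 (e i) k = w k * g.1 (e i) k := fun k => by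
        have := congrFun (congrArg g.1 hc) k
        simpa [hw'] using this
      have h2 : c = l := by simpa [w, hj] using h1 j
      refine ⟨j, g.1 (e i) j, funext fun k => ?_⟩
      rcases eq_or_ne k j with rfl | hk
      · simp [e]
      · have h3 : c ≠ w k := by
          simp only [w, h2, if_neg hk]
          split_ifs
          · exact fun h => hl' (by rw [pow_two]; exact (mul_eq_one_iff_eq_inv₀ hl).2 h)
          · exact fun h => hl' (by simp [h])
        simpa [e, hk, h3] using h1 k
    · choose π c hπ using hg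
      obtain ⟨i, rfl⟩ := Finite.surjective_of_injective (f := π)
        (fun i i' h => hinj g (hπ i) (h ▸ hπ i')) j
      obtain ⟨d, hd⟩ := (hT _).1 ht i
      have h0 : c i ≠ 0 := fun h => by simpa [h, e] using hπ i
      refine ⟨d, smul_right_injective _ h0 ?_⟩
      simp only [← map_smul, ← hπ, H11.PForm.isom_mul_apply, H11.PForm.isom_inv_apply_self, ← hd]
      rw [smul_comm, ← hπ, map_smul]
  let idx : Bool → Fin m → Fin m ⊕ Fin m := fun b i => cond b (.inl i) (.inr i)
  have hidx : ∀ b b' i i', idx b i = idx b' i' ↔ b = b' ∧ i = i' := by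
    rintro (_ | _) (_ | _) i i' <;> simp [idx]
  have hidx' : ∀ b i, (idx b i).swap = idx (!b) i := by rintro (_ | _) i <;> rfl
  let Ψ : (Fin m → Bool) × Equiv.Perm (Fin m) × (Fin m → Fˣ) → Fin m → Fin m ⊕ Fin m → F :=
    fun p i => (p.2.2 i : F) • e (idx (p.1 i) (p.2.1 i))
  have hΨ : Function.Injective Ψ := fun p p' h => by
    have : ∀ i, (p.1 i = p'.1 i ∧ p.2.1 i = p'.2.1 i) ∧ p.2.2 i = p'.2.2 i := fun i => by
      have h1 := congrFun (congrFun h i) (idx (p.1 i) (p.2.1 i))
      have h2 : idx (p.1 i) (p.2.1 i) = idx (p'.1 i) (p'.2.1 i) := by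
        by_contra h2
        simp [Ψ, e, h2] at h1
      exact ⟨(hidx ..).1 h2, Units.ext (by simpa [Ψ, e, h2] using h1)⟩
    exact Prod.ext (funext fun i => (this i).1.1)
      (Prod.ext (Equiv.ext fun i => (this i).1.2) (funext fun i => (this i).2))
  rw [H11.card_eq_orbit_mul (G := M) (fun i => e (.inl i)) (· ∈ Set.range Ψ) fun v => ?_]
  · rw [show MulAction.stabilizer M (fun i => e (.inl i)) = ⊥ from eq_bot_iff.2 fun g hg => ?_]
    · rw [Subgroup.card_bot, mul_one]
      refine (Nat.card_range_of_injective hΨ).trans ?_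
      simp [hF, mul_assoc, Fintype.card_perm, Fintype.card_units]
    · have h1 : ∀ i, g.1.1 (e (.inl i)) = e (.inl i) := congrFun hg
      refine Subtype.ext (H11.PForm.isom_ext (LinearMap.congr_fun (f := g.1.1.toLinearMap)
        (g := LinearMap.id) ((Pi.basisFun F _).ext ?_)))
      rintro (i | i)
      · simpa using h1 i
      · obtain ⟨j, c, h⟩ := (hM _).1 g.2 (.inr i)
        have h2 := H11.PForm.isom_h g.1 (e (.inl i)) (e (.inr i))
        rw [h1, h, hh, hh] at h2
        have h3 : Sum.inr i = j := by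
          by_contra h3
          simp [e, ε, h3] at h2
        subst h3
        have h4 : c = 1 := by simpa [e, ε] using h2
        simpa [h4] using h
  · constructor
    · rintro ⟨⟨s, π, c⟩, rfl⟩
      let b : Fin m ⊕ Fin m → Fin m ⊕ Fin m := Sum.elim (fun i => idx (s i) (π i))
        fun i => idx (!s i) (π i)
      have hb : Function.Injective b := by
        rintro (i | i) (j | j) h <;> simp only [b, Sum.elim_inl, Sum.elim_inr, hidx,
          EmbeddingLike.apply_eq_iff_eq] at h <;> obtain ⟨h, rfl⟩ := h <;> simp at h ⊢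
      let d : Fin m ⊕ Fin m → F := Sum.elim (fun i => c i) fun i => - ε (idx (s i) (π i)) * (c i : F)⁻¹
      have hd : ∀ i, d i ≠ 0 := by
        rintro (i | i)
        · simp [d]
        · simpa [d] using left_ne_zero_of_mul_eq_one (hε _)
      have he : LinearIndependent F e := Pi.linearIndependent_single_one _ _
      obtain ⟨g, hg⟩ := hS.witt_fam e (fun i => d i • e (b i)) he
        ((he.comp b hb).units_smul fun i => Units.mk0 _ (hd i)) (by
          rintro (i | i) (j | j) <;> simp only [map_smul, LinearMap.smul_apply, hh, b, d, hidx',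
            Sum.elim_inl, Sum.elim_inr] <;> rcases eq_or_ne i j with rfl | h <;>
            simp [e, Pi.single_apply, hidx, *] <;> cases s i <;> simp [idx, ε]) fun _ => trivial
      exact ⟨⟨g, (hM g).2 fun i => ⟨_, _, hg i⟩⟩, funext fun i => hg (.inl i)⟩
    · rintro ⟨g, rfl⟩
      choose π c hπ using (hM _).1 g.2
      have h0 : ∀ i, c i ≠ 0 := fun i h => by simpa [h, e] using hπ i
      obtain ⟨s, a, ha⟩ : ∃ (s : Fin m → Bool) (a : Fin m → Fin m), ∀ i, π (.inl i) = idx (s i) (a i) :=
        ⟨fun i => (π (.inl i)).isLeft, fun i => (π (.inl i)).elim id id, fun i => by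
          dsimp only
          cases π (.inl i) <;> rfl⟩
      have hi : Function.Injective a := fun i j h => by
        by_cases h1 : s i = s j
        · exact Sum.inl_injective (hinj g.1 (hπ _) (by rw [hπ, ha, ha, h, h1]))
        · have h2 := H11.PForm.isom_h g.1 (e (.inl i)) (e (.inl j))
          rw [hπ, hπ, ha, ha, h, Bool.eq_not_of_ne h1] at h2
          simpa [hh, hidx', e, h0, left_ne_zero_of_mul_eq_one (hε _)] using h2
      exact ⟨(s, Equiv.ofBijective a (Finite.injective_iff_bijective.1 hi),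
        fun i => Units.mk0 _ (h0 _)), funext fun i => ((hπ _).trans (by rw [ha]; rfl)).symm⟩

end Cfsg.Agent.S0777
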