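import Cfsg.Statements.S0778
import Cfsg.Agent.H11.Levi

set_option autoImplicit false
open Cfsg

namespace Cfsg.Agent.S0778

/-- The elements of Sp_2m(F) stabilising both W = ⟨e_1..e_m⟩ and U = ⟨f_1..f_m⟩ form a subgroup isomorphic to GL_m(F) (block-diagonal matrices diag(X, X^(−ᵀ)) up to the sign convention of J), for m ≥ 1 or m = 0 alike. -/
theorem result {F : Type*} [Field F] (m : ℕ) : Nonempty (↥(Cfsg.stabilizing (Cfsg.spToMat m F) {v : Fin m ⊕ Fin m → F | ∀ i : Fin m, v (Sum.inr i) = 0} ⊓ Cfsg.stabilizing (Cfsg.spToMat m F) {v : Fin m ⊕ Fin m → F | ∀ i : Fin m, v (Sum.inl i) = 0}) ≃* Matrix.GeneralLinearGroup (Fin m) F) := by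
  obtain ⟨e, -⟩ := (H11.stdSymp_polar m F).exists_equiv (H11.stdSymp_nondeg m)
  have := ((H11.stdSymp_polar m F).finrank_eq (H11.stdSymp_nondeg m)).2
  rw [H11.finrank_sum_fun] at this
  obtain ⟨e'⟩ := H11.nonempty_linearEquiv_equiv_GL (Nat.eq_of_mul_eq_mul_left two_pos this)
  refine ⟨((H11.subgroupEquivOfIff (H11.spEquiv m F) fun g => ?_).trans e).trans e'⟩
  simp only [Subgroup.mem_inf, H11.PForm.mem_stab, H11.mem_ker_funLeft]
  rfl

end Cfsg.Agent.S0778
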