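import Cfsg.Statements.S0779
import Cfsg.Agent.H11.Unit

set_option autoImplicit false
open Cfsg

namespace Cfsg.Agent.S0779

/-- Unitary transvections: let |F| = q², h the standard Hermitian form Σ x_i y_i^q and v ≠ 0 with h(v, v) = 0. The linear map x ↦ x + c h(x, v) v is an isometry of h if and only if c = 0 or c^(q−1) = −1. -/
theorem result {F : Type*} [Field F] [Fintype F] {q : ℕ} (hF : Fintype.card F = q ^ 2) (n : ℕ) (v : Fin n → F) (hv : v ≠ 0) (hv0 : Cfsg.hermForm n F q v v = 0) (c : F) : (∀ x y : Fin n → F, Cfsg.hermForm n F q ((Cfsg.unitaryTransvection n q v c).mulVec x) ((Cfsg.unitaryTransvection n q v c).mulVec y) = Cfsg.hermForm n F q x y) ↔ (c = 0 ∨ c ^ (q - 1) = -1) := by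
  obtain ⟨σ, hq, hσ, hne⟩ := H11.exists_frob hF
  have hF' : Nat.card F = q ^ 2 := by rw [Nat.card_eq_fintype_card, hF]
  have hq2 := H11.two_le_of_card_sq hF'
  have hN := H11.stdUnit_nondeg hσ hne (Fin n)
  set S := H11.stdUnit hσ hne (Fin n)
  have hvv : S.h v v = 0 := by rw [H11.stdUnit_h_eq hσ hne hq, hv0]
  have h1 : (c = 0 ∨ c ^ (q - 1) = -1) ↔ c + σ c = 0 := by
    rw [hq]
    have : c + c ^ q = c * (c ^ (q - 1) + 1) := by
      conv_lhs => rw [← Nat.sub_add_cancel (by omega : 1 ≤ q)]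
      ring
    rw [this, mul_eq_zero, add_eq_zero_iff_eq_neg]
  have h2 : ∀ x y, S.h (x + (c * S.h v x) • v) (y + (c * S.h v y) • v) =
      S.h x y + (c + σ c) * (S.h x v * S.h v y) := by
    intro x y
    simp only [map_add, map_smulₛₗ, LinearMap.add_apply, LinearMap.smul_apply, smul_eq_mul, hvv,
      RingHom.id_apply, map_mul, ← S.unit_symm]
    ring
  simp only [← H11.stdUnit_h_eq hσ hne hq, H11.unitaryTransvection_mulVec hσ hne hq]
  rw [h1]
  constructor
  · intro h
    obtain ⟨y, hy⟩ := hN.exists_h_eq_one hv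
    have := h y y
    rw [h2, S.unit_symm v y, hy] at this
    have h3 : S.h y y + (c + σ c) * (σ 1 * 1) = S.h y y := this
    simpa using h3
  · intro h x y
    rw [h2, h, zero_mul, add_zero]

end Cfsg.Agent.S0779
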