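import Cfsg.Statements.S0780
import Cfsg.Agent.H11.Unit

set_option autoImplicit false
open Cfsg

namespace Cfsg.Agent.S0780

/-- Generation of SU_n(q), n ≥ 3, (n, q) ≠ (3, 2), by unitary transvections: the subgroup generated by the elements whose matrix is x ↦ x + c h(x, v) v with v isotropic is all of SU_n(q). -/
theorem result {F : Type*} [Field F] [Fintype F] {q : ℕ} (hF : Fintype.card F = q ^ 2) (n : ℕ) (hn : 3 ≤ n) (h32 : ¬ (n = 3 ∧ q = 2)) : Subgroup.closure {A : ↥(Cfsg.SU n F q) | ∃ (v : Fin n → F) (c : F), Cfsg.hermForm n F q v v = 0 ∧ ((A : Matrix.SpecialLinearGroup (Fin n) F) : Matrix (Fin n) (Fin n) F) = Cfsg.unitaryTransvection n q v c} = ⊤ := by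
  obtain ⟨σ, hq, hσ, hne⟩ := H11.exists_frob hF
  have hF' : Nat.card F = q ^ 2 := by rw [Nat.card_eq_fintype_card, hF]
  have hN := H11.stdUnit_nondeg hσ hne (Fin n)
  apply H11.eq_top_of_map_equiv (H11.suEquiv hσ hne hq n)
  obtain ⟨e, f, H⟩ := hN.unit_exists_hyp hne (by simp; omega)
  have h1 := H.unit_SIsom_eq_E hne hN
  have h2 := hN.unit_T_eq_E hne hF' (by simpa using h32)
  apply Subgroup.map_injective (Subgroup.subtype_injective _)
  rw [← MonoidHom.range_eq_map, Subgroup.range_subtype]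
  refine le_antisymm (Subgroup.map_subtype_le _) ?_
  conv_lhs => rw [h1, ← h2]
  rw [H11.PForm.T_le_iff]
  intro u a hu _ ha
  refine ⟨⟨_, H11.PForm.eich_mem_SIsom _ u 0 a⟩, ?_, rfl⟩
  rw [SetLike.mem_coe, H11.mem_map_equiv']
  refine Subgroup.subset_closure ⟨u, -a, ?_, H11.matrix_ext_mulVec fun x => ?_⟩
  · rw [← H11.stdUnit_h_eq hσ hne hq]; exact hu.h_self
  rw [← H11.suEquiv_apply hσ hne hq, MulEquiv.apply_symm_apply,
    H11.unitaryTransvection_mulVec hσ hne hq, H11.PForm.transv_apply hu ha]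
  simp [sub_eq_add_neg]

end Cfsg.Agent.S0780
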