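import Cfsg.Statements.S0781
import Cfsg.Agent.H11.Unit
import Cfsg.Agent.S0779

set_option autoImplicit false
open Cfsg

namespace Cfsg.Agent.S0781

/-- In SU_n(q) with n ≥ 4, or n = 3 and q > 2, every element whose matrix is a unitary transvection x ↦ x + c h(x, v) v (v isotropic) is a commutator ⁅B, C⁆ of two elements of SU_n(q). -/
theorem result {F : Type*} [Field F] [Fintype F] {q : ℕ} (hF : Fintype.card F = q ^ 2) (n : ℕ) (hn : 4 ≤ n ∨ (n = 3 ∧ 3 ≤ q)) (A : ↥(Cfsg.SU n F q)) (v : Fin n → F) (c : F) (hv0 : Cfsg.hermForm n F q v v = 0) (hA : ((A : Matrix.SpecialLinearGroup (Fin n) F) : Matrix (Fin n) (Fin n) F) = Cfsg.unitaryTransvection n q v c) : A ∈ commutatorSet ↥(Cfsg.SU n F q) := by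
  obtain ⟨σ, hq, hσ, hne⟩ := H11.exists_frob hF
  have hF' : Nat.card F = q ^ 2 := by rw [Nat.card_eq_fintype_card, hF]
  have hN := H11.stdUnit_nondeg hσ hne (Fin n)
  have hq2 := H11.two_le_of_card_sq hF'
  rw [H11.mem_commutatorSet_iff_equiv (H11.suEquiv hσ hne hq n)]
  obtain ⟨g, hg, g', hg', h⟩ := hN.unit_transv_eq_commutator hne (by simp; omega) v (-c)
  refine ⟨⟨g, H11.PForm.E_le_SIsom hg⟩, ⟨g', H11.PForm.E_le_SIsom hg'⟩, Subtype.ext ?_⟩
  refine Eq.trans h.symm (H11.PForm.isom_ext fun x => ?_)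
  rw [H11.suEquiv_apply, hA, H11.unitaryTransvection_mulVec hσ hne hq]
  by_cases hv : v = 0
  · simp [hv, H11.PForm.eich_zero_left]
  have h1 := (Cfsg.Agent.S0779.result hF n v hv hv0 c).1 (by rw [← hA]; exact A.2)
  have h2 : -c ∈ (H11.unitP σ hσ).Λ := by
    rw [H11.mem_unitP_Λ, map_neg, hq]
    rcases h1 with h1 | h1
    · simp [h1, show q ≠ 0 by omega]
    · rw [← Nat.sub_add_cancel (by omega : 1 ≤ q), pow_succ, h1]; ring
  rw [H11.PForm.transv_apply ((H11.PForm.unit_sing _ _).2 (by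
    rw [H11.stdUnit_h_eq hσ hne hq, hv0])) h2]
  simp

end Cfsg.Agent.S0781
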