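import Cfsg.Statements.S0783
import Cfsg.Agent.H11.TSub

set_option autoImplicit false
open Cfsg

namespace Cfsg.Agent.S0783

/-- PGU_n(q)/PSU_n(q) is cyclic of order (n, q+1): for n ≥ 2 and |F| = q² there is a surjective homomorphism from GU_n(q) onto the cyclic group of order gcd(n, q + 1) whose kernel is generated by the determinant-one elements together with the centre. -/
theorem result {F : Type*} [Field F] [Fintype F] {q : ℕ} (hF : Fintype.card F = q ^ 2) (n : ℕ) (hn : 2 ≤ n) : ∃ φ : ↥(Cfsg.GU n F q) →* Multiplicative (ZMod (Nat.gcd n (q + 1))), Function.Surjective φ ∧ φ.ker = (Matrix.GeneralLinearGroup.det : Matrix.GeneralLinearGroup (Fin n) F →* Fˣ).ker.subgroupOf (Cfsg.GU n F q) ⊔ Subgroup.center ↥(Cfsg.GU n F q) := by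
  obtain ⟨σ, hq, hσ, hne⟩ := H11.exists_frob hF
  have hF' : Nat.card F = q ^ 2 := by rw [Nat.card_eq_fintype_card, hF]
  have hN := H11.stdUnit_nondeg hσ hne (Fin n)
  obtain ⟨e, f, H⟩ := hN.unit_exists_hyp hne (by simpa using hn)
  have hc := H11.card_normOne_unit hσ hne hF'
  let K := (powMonoidHom n : H11.normOne σ →* H11.normOne σ).range
  have hK : Nat.card (H11.normOne σ ⧸ K) = Nat.card (Multiplicative (ZMod (Nat.gcd n (q + 1)))) := by
    rw [← Subgroup.index, IsCyclic.index_powMonoidHom_range, hc, Nat.gcd_comm]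
    exact (Nat.card_zmod _).symm
  have : IsCyclic (H11.normOne σ ⧸ K) :=
    isCyclic_of_surjective (QuotientGroup.mk' K) (QuotientGroup.mk'_surjective K)
  let e1 := mulEquivOfCyclicCardEq hK
  let d : (H11.stdUnit hσ hne (Fin n)).Isom →* H11.normOne σ :=
    (H11.stdUnit hσ hne (Fin n)).detHom.codRestrict _ hN.det_mem_normOne
  have hd : Function.Surjective d := fun c => by
    have := H.nontrivial
    obtain ⟨v, hv⟩ := hN.unit_exists_h_ne hne
    obtain ⟨g, -, hg, -⟩ := H11.PForm.exists_det_eq_of_ne hv c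
    exact ⟨g, Subtype.ext hg⟩
  refine ⟨e1.toMonoidHom.comp ((QuotientGroup.mk' K).comp (d.comp (H11.guEquiv hσ hne hq n))),
    e1.surjective.comp ((QuotientGroup.mk'_surjective K).comp (hd.comp
      (H11.guEquiv hσ hne hq n).surjective)), ?_⟩
  have hs : ∀ c, d ((H11.stdUnit hσ hne (Fin n)).scal c) = c ^ n := fun c => Subtype.ext (by
    have := (H11.stdUnit hσ hne (Fin n)).detHom_scal c
    simp only [Module.finrank_fintype_fun_eq_card, Fintype.card_fin] at this
    exact this)
  have hker : ∀ g : Cfsg.GU n F q, g ∈ (e1.toMonoidHom.comp ((QuotientGroup.mk' K).comp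
      (d.comp (H11.guEquiv hσ hne hq n : _ →* _)))).ker ↔ d (H11.guEquiv hσ hne hq n g) ∈ K := by
    intro g
    simp [MonoidHom.mem_ker]
  have hdet : ∀ g : Cfsg.GU n F q, g ∈ (Matrix.GeneralLinearGroup.det :
      Matrix.GeneralLinearGroup (Fin n) F →* Fˣ).ker.subgroupOf (Cfsg.GU n F q) ↔
      d (H11.guEquiv hσ hne hq n g) = 1 := by
    intro g
    rw [Subgroup.mem_subgroupOf, MonoidHom.mem_ker, ← H11.det_guEquiv hσ hne hq, Subtype.ext_iff]
    rfl
  have hcen : ∀ g : Cfsg.GU n F q, g ∈ Subgroup.center (Cfsg.GU n F q) ↔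
      H11.guEquiv hσ hne hq n g ∈ (H11.stdUnit hσ hne (Fin n)).scal.range := by
    intro g
    rw [H11.mem_center_iff_equiv (H11.guEquiv hσ hne hq n),
      H.center_Isom hN (H11.PForm.unit_rich hne _ 3)]
  apply le_antisymm
  · intro g hg
    obtain ⟨c, hc⟩ := (hker g).1 hg
    let z := (H11.guEquiv hσ hne hq n).symm ((H11.stdUnit hσ hne (Fin n)).scal c)
    have : g = (g * z⁻¹) * z := by group
    rw [this]
    refine Subgroup.mul_mem_sup ((hdet _).2 ?_) ((hcen _).2 ⟨c, by simp [z]⟩)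
    simp [z, hs, ← hc]
  · refine sup_le (fun g hg => (hker g).2 ?_) fun g hg => (hker g).2 ?_
    · rw [(hdet g).1 hg]; exact K.one_mem
    · obtain ⟨c, hc⟩ := (hcen g).1 hg
      rw [← hc, hs]; exact ⟨c, rfl⟩

end Cfsg.Agent.S0783
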