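import Cfsg.Statements.S0784
import Cfsg.Agent.H11.Std

set_option autoImplicit false
open Cfsg

namespace Cfsg.Agent.S0784

/-- Reflections: if Q(v) ≠ 0 then the matrix R = 1 − Q(v)⁻¹ · v f(v, ·)ᵀ preserves Q, maps v to −v, fixes each x with f(v, x) = 0, and has determinant −1 (in characteristic two, −1 = 1 and R is the orthogonal transvection of v). -/
theorem result {F : Type*} [Field F] {n : ℕ} (Q : QuadraticForm F (Fin n → F)) (v : Fin n → F) (hv : Q v ≠ 0) : (∀ x, Q ((Cfsg.reflectionMatrix ⇑Q v).mulVec x) = Q x) ∧ (Cfsg.reflectionMatrix ⇑Q v).mulVec v = -v ∧ (∀ x, QuadraticMap.polar ⇑Q v x = 0 → (Cfsg.reflectionMatrix ⇑Q v).mulVec x = x) ∧ (Cfsg.reflectionMatrix ⇑Q v).det = -1 := by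
  refine ⟨fun x => ?_, ?_, fun x hx => ?_, ?_⟩
  · rw [← H11.refl_eq_mulVec]; exact H11.PForm.orth_isom_q (S := H11.orthS Q) _ x
  · rw [← H11.refl_eq_mulVec]; exact H11.PForm.refl_apply_self (S := H11.orthS Q) hv
  · rw [← H11.refl_eq_mulVec]; exact H11.PForm.refl_apply_of_perp (S := H11.orthS Q) hx
  · have h1 := H11.det_orthEquiv Q ((H11.orthEquiv Q).symm ((H11.orthS Q).refl v))
    rw [MulEquiv.apply_symm_apply, H11.PForm.det_refl (S := H11.orthS Q) hv] at h1
    have h2 := congrArg Units.val h1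
    rw [Matrix.GeneralLinearGroup.val_det_apply,
      (H11.coe_eq_refl_iff Q _ v).2 (MulEquiv.apply_symm_apply _ _)] at h2
    exact h2.symm

end Cfsg.Agent.S0784
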