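import Cfsg.Statements.S0790
import Cfsg.Agent.H11.Std

set_option autoImplicit false
open Cfsg

namespace Cfsg.Agent.S0790

/-- −1 ∈ Ω⁺_2m(q) iff q^m ≡ 1 (mod 4), for q odd and m ≥ 1 (so that in the other case SO⁺_2m(q) = 2 × Ω⁺_2m(q)). -/
theorem result {F : Type*} [Field F] [Fintype F] {q : ℕ} (hF : Fintype.card F = q) (hodd : Odd q) (m : ℕ) (hm : 1 ≤ m) : (∃ g : ↥(Cfsg.isometryGroup F (Cfsg.quadFormPlus m F)), g ∈ Cfsg.Omega F (Cfsg.quadFormPlus m F) ∧ ((g : Matrix.GeneralLinearGroup (Fin m ⊕ Fin m) F) : Matrix (Fin m ⊕ Fin m) (Fin m ⊕ Fin m) F) = -1) ↔ q ^ m % 4 = 1 := by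
  subst hF
  rw [← Nat.card_eq_fintype_card]
  refine (H11.exists_Omega_iff (H11.qPlus m F) (g₀ := H11.PForm.negOne _)
    fun x => by simp [Matrix.neg_mulVec]).trans ?_
  exact (H11.sPlus_nondeg m F).negOne_mem_plus (H11.two_ne_zero_iff_odd.2 hodd)
    (H11.finrank_sum_fun m) (H11.sPlus_hasTS m F)

end Cfsg.Agent.S0790
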