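import Cfsg.Statements.S0792
import Cfsg.Agent.H11.Orth2

set_option autoImplicit false
open Cfsg

namespace Cfsg.Agent.S0792

/-- For q odd and Q with non-degenerate polar form on F^n, the determinant-one isometries form the subgroup generated by all products r_u r_v of two reflections (Q(u), Q(v) ≠ 0). -/
theorem result {F : Type*} [Field F] [Fintype F] (h2 : (2 : F) ≠ 0) {n : ℕ} (Q : QuadraticForm F (Fin n → F)) (hQ : (QuadraticMap.polarBilin Q).Nondegenerate) : Cfsg.specialIsometryGroup F ⇑Q = Subgroup.closure {g : ↥(Cfsg.isometryGroup F ⇑Q) | ∃ u v : Fin n → F, Q u ≠ 0 ∧ Q v ≠ 0 ∧ ((g : Matrix.GeneralLinearGroup (Fin n) F) : Matrix (Fin n) (Fin n) F) = Cfsg.reflectionMatrix ⇑Q u * Cfsg.reflectionMatrix ⇑Q v} := by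
  have hS := H11.orthS_nondeg hQ
  ext g
  refine Iff.trans ?_ (H11.closure_eq_iff_equiv (H11.orthEquiv Q)
    (t := {g | ∃ u v, (H11.orthS Q).q u ≠ 0 ∧ (H11.orthS Q).q v ≠ 0 ∧
      g = (H11.orthS Q).refl u * (H11.orthS Q).refl v})
      (fun g => by simp [H11.coe_eq_refl_mul_iff]) g).symm
  rw [H11.mem_special_iff, hS.closure_refl_mul (H11.PForm.notO4_of_two_ne h2), hS.ker_dick h2]

end Cfsg.Agent.S0792
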