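import Cfsg.Statements.S0795
import Cfsg.Agent.H11.Std

set_option autoImplicit false
open Cfsg

namespace Cfsg.Agent.S0795

/-- Generation of Ω by root elements: for q odd, n ≥ 5 and Q with non-degenerate polar form on F^n, the commutator subgroup of the isometry group equals the subgroup generated by the isometries whose matrices are Siegel transformations T_(u,v)(c) with u, v singular and orthogonal. -/
theorem result {F : Type*} [Field F] [Fintype F] (h2 : (2 : F) ≠ 0) {n : ℕ} (hn : 5 ≤ n) (Q : QuadraticForm F (Fin n → F)) (hQ : (QuadraticMap.polarBilin Q).Nondegenerate) : Cfsg.Omega F ⇑Q = Subgroup.closure {g : ↥(Cfsg.isometryGroup F ⇑Q) | ∃ (u v : Fin n → F) (c : F), Q u = 0 ∧ Q v = 0 ∧ QuadraticMap.polar ⇑Q u v = 0 ∧ ((g : Matrix.GeneralLinearGroup (Fin n) F) : Matrix (Fin n) (Fin n) F) = Cfsg.siegelMatrix ⇑Q u v c} := by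
  have hS := H11.orthS_nondeg hQ
  ext g
  refine Iff.trans ?_ (H11.closure_eq_iff_equiv (H11.orthEquiv Q)
    (t := {g | ∃ (u v : Fin n → F) (c : F), Q u = 0 ∧
      Q v = 0 ∧ QuadraticMap.polar ⇑Q u v = 0 ∧ g = (H11.orthS Q).eich u (c • v) 0})
      (fun g => exists₃_congr fun u v c => and_congr_right fun hu => and_congr_right fun hv =>
        and_congr_right fun huv => H11.coe_eq_iff_eq Q g
          fun x => (H11.siegelMatrix_mulVec Q hu hv huv c x).symm) g).symm
  rw [H11.mem_Omega_iff, hS.orth_commutator_eq_E (H11.PForm.notO4_of_two_ne h2) (by simp; omega)]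
  refine ⟨fun h => hS.orth_E_le_of_siegel (hS.orth_hasTS (by simp; omega))
    (fun e f H v hv hq _ => ?_) h, fun h => (Subgroup.closure_le _).2 ?_ h⟩
  · exact Subgroup.subset_closure ⟨e, v, 1, H.orth_q_e, hq, ((H11.orthS Q).mem_perp_pair.1 hv).1,
      by rw [one_smul]⟩
  rintro _ ⟨u, v, c, -, -, -, rfl⟩
  exact H11.PForm.eich_mem_E _ _ _ _

end Cfsg.Agent.S0795
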