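import Cfsg.Statements.S0796
import Cfsg.Agent.H16.Basic
import Cfsg.Agent.H16.Regular

set_option autoImplicit false
open Cfsg

namespace Cfsg.Agent.S0796

/-- If G is finite and acts faithfully and primitively on X, H is the stabiliser of a point, A is a normal subgroup of H whose normal closure in G is G, then for every non-trivial normal subgroup K of G the quotient G ⧸ K is isomorphic to A ⧸ B for some normal subgroup B of A. -/
theorem result {G X : Type*} [Group G] [Finite G] [MulAction G X] [FaithfulSMul G X] (hprim : MulAction.IsPreprimitive G X) (x : X) (A : Subgroup G) (hA : A ≤ MulAction.stabilizer G x) (hAn : (A.subgroupOf (MulAction.stabilizer G x)).Normal) (hgen : Subgroup.normalClosure (A : Set G) = ⊤) (K : Subgroup G) [K.Normal] (hK : K ≠ ⊥) : ∃ (B : Subgroup A) (_ : B.Normal), Nonempty (G ⧸ K ≃* A ⧸ B) := by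
  have := H16.isPretransitive_of_normal (α := X) K hK
  let f : A →* G ⧸ K := (QuotientGroup.mk' K).comp A.subtype
  have hn : (K ⊔ A).Normal := by
    refine ⟨fun y hy g => ?_⟩
    obtain ⟨k, hk, e⟩ := H16.exists_mem_smul_eq K x (g • x)
    have hs : k⁻¹ * g ∈ MulAction.stabilizer G x := by
      rw [MulAction.mem_stabilizer_iff, mul_smul, ← e, inv_smul_smul]
    obtain ⟨a, ha, b, hb, rfl⟩ := Subgroup.mem_sup_of_normal_left.1 hy
    have h1 : (k⁻¹ * g) * b * (k⁻¹ * g)⁻¹ ∈ A := hAn.conj_mem ⟨b, hA hb⟩ hb ⟨_, hs⟩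
    have h2 := ‹K.Normal›.conj_mem a ha g
    have : g * (a * b) * g⁻¹ = (g * a * g⁻¹) * k * ((k⁻¹ * g) * b * (k⁻¹ * g)⁻¹) * k⁻¹ := by group
    rw [this]
    exact mul_mem (mul_mem (mul_mem (Subgroup.mem_sup_left h2) (Subgroup.mem_sup_left hk))
      (Subgroup.mem_sup_right h1)) (Subgroup.mem_sup_left (inv_mem hk))
  have htop : ⊤ ≤ K ⊔ A := hgen ▸ Subgroup.normalClosure_le_normal
    (le_sup_right : A ≤ K ⊔ A)
  have hf : Function.Surjective f := fun y => by
    obtain ⟨g, rfl⟩ := QuotientGroup.mk_surjective y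
    obtain ⟨a, ha, b, hb, rfl⟩ := Subgroup.mem_sup_of_normal_left.1 (htop (Subgroup.mem_top g))
    refine ⟨⟨b, hb⟩, ?_⟩
    rw [QuotientGroup.mk_mul, (QuotientGroup.eq_one_iff a).2 ha, one_mul]
    rfl
  exact ⟨f.ker, inferInstance, ⟨(QuotientGroup.quotientKerEquivOfSurjective f hf).symm⟩⟩

end Cfsg.Agent.S0796
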