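import Cfsg.Statements.S0797
import Cfsg.Agent.H11.Orth2

set_option autoImplicit false
open Cfsg

namespace Cfsg.Agent.S0797

/-- O^ε_2m(q) ≅ Ω.2² for q odd: if F is finite of odd characteristic, n ≥ 2 is even and Q has non-degenerate polar form on F^n, the isometry group of Q has exactly three subgroups of index 2. -/
theorem result {F : Type*} [Field F] [Fintype F] (h2 : (2 : F) ≠ 0) {n : ℕ} (hn : 2 ≤ n) (heven : Even n) (Q : QuadraticForm F (Fin n → F)) (hQ : (QuadraticMap.polarBilin Q).Nondegenerate) : Nat.card {H : Subgroup ↥(Cfsg.isometryGroup F ⇑Q) // H.index = 2} = 3 := by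
  have hS := H11.orthS_nondeg hQ
  refine H11.card_index_two_eq_three (hS.dick.comp (H11.orthEquiv Q).toMonoidHom)
    (hS.spin.comp (H11.orthEquiv Q).toMonoidHom) (fun s t => ?_) fun g h1 h3 => ?_
  · obtain ⟨g, hg⟩ := hS.exists_dick_spin_eq h2 (by simpa using hn) s t
    exact ⟨(H11.orthEquiv Q).symm g, by simpa using hg⟩
  · exact (H11.mem_Omega_iff Q g).2
      ((hS.mem_commutator_iff (H11.PForm.notO4_of_two_ne h2) _).2 ⟨h1, h3⟩)

end Cfsg.Agent.S0797
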