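import Cfsg.Statements.S0798
import Cfsg.Agent.H11.Orth2

set_option autoImplicit false
open Cfsg

namespace Cfsg.Agent.S0798

/-- For q odd, n ≥ 2 even, Q with non-degenerate polar form (n, |F|) ≠ (4, 3), and a fixed c ≠ 0: the subgroup of the isometry group generated by the reflections r_v with Q(v) ∈ c·(F^×)² has index 2. -/
theorem result {F : Type*} [Field F] [Fintype F] (h2 : (2 : F) ≠ 0) {n : ℕ} (hn : 2 ≤ n) (heven : Even n) (Q : QuadraticForm F (Fin n → F)) (hQ : (QuadraticMap.polarBilin Q).Nondegenerate) (h43 : ¬ (n = 4 ∧ Fintype.card F = 3)) (c : F) (hc : c ≠ 0) : (Subgroup.closure {g : ↥(Cfsg.isometryGroup F ⇑Q) | ∃ (v : Fin n → F) (t : F), t ≠ 0 ∧ Q v = c * t ^ 2 ∧ ((g : Matrix.GeneralLinearGroup (Fin n) F) : Matrix (Fin n) (Fin n) F) = Cfsg.reflectionMatrix ⇑Q v}).index = 2 := by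
  have hS := H11.orthS_nondeg hQ
  have h4 : (H11.orthS Q).NotO4 := H11.PForm.notO4_of_two_ne h2
  let s : Set (H11.orthS Q).Isom :=
    {g | ∃ v t, t ≠ 0 ∧ Q v = c * t ^ 2 ∧ g = (H11.orthS Q).refl v}
  rw [H11.index_eq_of_iff _ (H11.closure_eq_iff_equiv (H11.orthEquiv Q) (t := s)
    fun g => by simp [s, H11.coe_eq_refl_iff])]
  have hN : (Subgroup.closure s).Normal := H11.PForm.normal_closure_of_conj (by
    rintro g _ ⟨v, t, ht, hv, rfl⟩
    exact ⟨g.1 v, t, ht, (H11.PForm.orth_isom_q g v).trans hv, H11.PForm.conj_refl g v⟩)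
  have hK : ∀ v, Q v ≠ 0 → H11.sqSign (Q v) = H11.sqSign c →
      (H11.orthS Q).refl v ∈ Subgroup.closure s := fun v hv h => by
    obtain ⟨t, ht, h1⟩ := H11.exists_sq_mul_of_sqSign_eq hc hv h.symm
    exact Subgroup.subset_closure ⟨v, t, ht, by rw [h1, mul_comm], rfl⟩
  have h1 := hS.commutator_le_of_refl_class h2 (by
    obtain ⟨k, hk⟩ := H11.two_ne_zero_iff_odd.1 h2
    obtain ⟨l, hl⟩ := heven
    have : 1 < Fintype.card F := Fintype.one_lt_card
    simp only [Module.finrank_fin_fun, Nat.card_eq_fintype_card]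
    omega) hc hK
  obtain ⟨χ, hχ, hχ1, hχ2⟩ : ∃ χ : (H11.orthS Q).Isom →* ℤˣ,
      (∀ v, Q v ≠ 0 → H11.sqSign (Q v) = H11.sqSign c → χ ((H11.orthS Q).refl v) = 1) ∧
      (∃ g, χ g = -1) ∧ ∀ g, hS.dick g = 1 → χ g = hS.spin g := by
    obtain ⟨g, hg⟩ := hS.exists_dick_spin_eq h2 (by simpa using hn) 1 (-1)
    rcases Int.units_eq_one_or (H11.sqSign c) with h | h
    · exact ⟨hS.spin, fun v hv h' => by rw [hS.spin_refl hv]; exact h'.trans h, ⟨g, hg.2⟩,
        fun _ _ => rfl⟩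
    · exact ⟨hS.dick * hS.spin, fun v hv h' => by
        rw [MonoidHom.mul_apply, hS.spin_refl hv, hS.dick_refl hv, H11.orthS_q, h', h]; rfl,
        ⟨g, by simp [hg]⟩, fun g hg => by simp [hg]⟩
  have : Subgroup.closure s = χ.ker := by
    refine le_antisymm ((Subgroup.closure_le _).2 ?_) fun g hg => ?_
    · rintro _ ⟨v, t, ht, hv, rfl⟩
      exact hχ v (by simp [hv, hc, ht])
        (by rw [hv, H11.sqSign_mul hc (by simp [ht]), H11.sqSign_sq, mul_one])
    · rw [MonoidHom.mem_ker] at hg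
      rcases Int.units_eq_one_or (hS.dick g) with h | h
      · exact h1 ((hS.mem_commutator_iff h4 g).2 ⟨h, (hχ2 g h).symm.trans hg⟩)
      · obtain ⟨v, hv⟩ := hS.orth_exists_q_eq (by simpa using hn) c
        have hv0 : Q v ≠ 0 := fun h => hc (hv.symm.trans h)
        have h5 : hS.dick (g * (H11.orthS Q).refl v) = 1 := by simp [h, hS.dick_refl hv0]
        exact (Subgroup.mul_mem_cancel_right _ (hK v hv0 (congrArg _ hv))).1
          (h1 ((hS.mem_commutator_iff h4 _).2 ⟨h5, by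
            rw [← hχ2 _ h5, map_mul, hg, hχ v hv0 (congrArg _ hv), mul_one]⟩))
  obtain ⟨g, hg⟩ := hχ1
  rw [this, Subgroup.index_ker, MonoidHom.range_eq_top.2 fun s => by
    rcases Int.units_eq_one_or s with rfl | rfl
    exacts [⟨1, map_one _⟩, ⟨g, hg⟩]]
  simp

end Cfsg.Agent.S0798
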