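import Cfsg.Statements.S0799
import Cfsg.Agent.H10.PSL2Sub

set_option autoImplicit false
open Cfsg

namespace Cfsg.Agent.S0799

/-- Dickson's classification of the subgroups of PSL_2(q), q a power of the prime p, d = gcd(2, q − 1): every subgroup H is (a) cyclic or dihedral with k dividing (q+1)/d or (q−1)/d (cyclic of order k, or dihedral of order 2k), (b) isomorphic to a subgroup of the normaliser of a Sylow p-subgroup, (c) isomorphic to A_4, S_4 or A_5, or (d) isomorphic to PSL_2(K) or PGL_2(K) for a finite field K with |K|^m = q. -/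
theorem result {F : Type*} [Field F] [Fintype F] {q : ℕ} (hF : Fintype.card F = q) (p : ℕ) [Fact p.Prime] [CharP F p] (H : Subgroup (Matrix.ProjectiveSpecialLinearGroup (Fin 2) F)) : (∃ k : ℕ, (k ∣ (q + 1) / Nat.gcd 2 (q - 1) ∨ k ∣ (q - 1) / Nat.gcd 2 (q - 1)) ∧ ((IsCyclic H ∧ Nat.card H = k) ∨ Nonempty (H ≃* DihedralGroup k))) ∨ (∃ (P : Sylow p (Matrix.ProjectiveSpecialLinearGroup (Fin 2) F)) (K : Subgroup (Matrix.ProjectiveSpecialLinearGroup (Fin 2) F)), K ≤ Subgroup.normalizer ((P : Subgroup (Matrix.ProjectiveSpecialLinearGroup (Fin 2) F)) : Set (Matrix.ProjectiveSpecialLinearGroup (Fin 2) F)) ∧ Nonempty (H ≃* K)) ∨ Nonempty (H ≃* alternatingGroup (Fin 4)) ∨ Nonempty (H ≃* Equiv.Perm (Fin 4)) ∨ Nonempty (H ≃* alternatingGroup (Fin 5)) ∨ (∃ (K : Type) (_ : Field K) (_ : Fintype K) (m : ℕ), Fintype.card K ^ m = q ∧ (Nonempty (H ≃* Matrix.ProjectiveSpecialLinearGroup (Fin 2) K) ∨ Nonempty (H ≃* Matrix.ProjGenLinGroup (Fin 2) K))) :=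 by
  classical
  subst hF
  rcases H10.dickson_PSL H with ⟨x, hx⟩ | h | h | h | h | ⟨R, -, h⟩
  · have hc := H10.centralP'_of_injective p (H10.ι_injective (K := F))
    obtain ⟨P, hP⟩ := hc.exists_sylow (fun y => by
      obtain ⟨s, hs⟩ := H10.exists_SL2_smul_infty y
      exact ⟨H10.π F s, hs⟩) x
    refine Or.inr (Or.inl ⟨P, H, fun g hg => ?_, ⟨MulEquiv.refl _⟩⟩)
    rw [hP]
    exact hc.mem_normalizer_pAt (hx g hg)
  · exact Or.inl h
  · exact Or.inr (Or.inr (Or.inl h))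
  · exact Or.inr (Or.inr (Or.inr (Or.inl h)))
  · exact Or.inr (Or.inr (Or.inr (Or.inr (Or.inl h))))
  · have := Fintype.ofFinite R
    obtain ⟨n, -, hn⟩ := FiniteField.card R p
    have := Fintype.ofFinite (GaloisField p n)
    have hc : Fintype.card R = Fintype.card (GaloisField p n) := by
      rw [hn, ← Nat.card_eq_fintype_card, GaloisField.card p n n.ne_zero]
    have e := FiniteField.ringEquivOfCardEq hc
    obtain ⟨m, -, hm, -⟩ := H10.exists_card_pow_of_ringHom R.subtype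
    refine Or.inr (Or.inr (Or.inr (Or.inr (Or.inr ⟨GaloisField p n, inferInstance, this, m, ?_, ?_⟩))))
    · rw [← hc, ← Nat.card_eq_fintype_card, hm, Nat.card_eq_fintype_card]
    · obtain ⟨e1⟩ := H10.PSL2_congr e
      obtain ⟨e2⟩ := H10.PGL2_congr e
      rcases h with ⟨⟨h⟩⟩ | ⟨⟨h⟩⟩
      exacts [Or.inl ⟨h.trans e1⟩, Or.inr ⟨h.trans e2⟩]

end Cfsg.Agent.S0799
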