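import Cfsg.Statements.S0800
import Cfsg.Agent.H10.SL2Sylow

set_option autoImplicit false
open Cfsg

namespace Cfsg.Agent.S0800

/-- Tori of SL_2(q): if g ∈ SL_2(q) has order coprime to the characteristic p, then the order of g divides q − 1 or q + 1. -/
theorem result {F : Type*} [Field F] [Fintype F] {q : ℕ} (hF : Fintype.card F = q) (p : ℕ) [Fact p.Prime] [CharP F p] (g : Matrix.SpecialLinearGroup (Fin 2) F) (hg : Nat.Coprime (orderOf g) p) : orderOf g ∣ q - 1 ∨ orderOf g ∣ q + 1 := by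
  subst hF
  have hd : ∀ n, Nat.card (Subgroup.centralizer ({g} : Set (Matrix.SpecialLinearGroup (Fin 2) F))) = n →
      orderOf g ∣ n := fun n hn =>
    hn ▸ Subgroup.orderOf_dvd_natCard _ (Subgroup.mem_centralizer_singleton_iff.2 rfl)
  have key : ∀ a : F, a ≠ 0 → (g : H24.M2 F) ^ p = a ^ p • (1 : H24.M2 F) →
      orderOf g ∣ Fintype.card F - 1 := fun a ha h => by
    refine hg.dvd_of_dvd_mul_left (orderOf_dvd_of_pow_eq_one (Subtype.ext ?_))
    rw [Matrix.SpecialLinearGroup.coe_pow, pow_mul, h, smul_pow, one_pow, ← pow_mul, mul_comm, pow_mul,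
      FiniteField.pow_card_sub_one_eq_one a ha, one_pow, one_smul]
    rfl
  rcases H24.types (g : H24.M2 F) with h | ⟨-, a, ht, hd'⟩ | ⟨a, b, hab, ht, hd'⟩ | h
  · refine Or.inl (key (g 0 0) (fun h0 => ?_) (H24.pow_char_of_trace p h.trace_eq h.det_eq))
    have := h.det_eq
    rw [g.2, h0] at this
    simp at this
  · refine Or.inl (key a (fun h0 => ?_) (H24.pow_char_of_trace p ht hd'))
    rw [g.2, h0] at hd'
    simp at hd'
  · exact Or.inl (hd _ (H24.card_cent_SL_split hab ht (hd'.symm.trans g.2)))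
  · exact Or.inr (hd _ (H24.card_cent_SL_ell h))

end Cfsg.Agent.S0800
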