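import Cfsg.Statements.S0802
import Cfsg.Agent.H10.PSL2Sub

set_option autoImplicit false
open Cfsg

namespace Cfsg.Agent.S0802

/-- PSL_2(p^n) has a subgroup isomorphic to A_4 if and only if it is not the case that p = 2 and n is odd. -/
theorem result {F : Type*} [Field F] [Fintype F] (p n : ℕ) [Fact p.Prime] [CharP F p] (hF : Fintype.card F = p ^ n) : (∃ H : Subgroup (Matrix.ProjectiveSpecialLinearGroup (Fin 2) F), Nonempty (H ≃* alternatingGroup (Fin 4))) ↔ ¬ (p = 2 ∧ Odd n) := by
  classical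
  have hn : n ≠ 0 := by
    rintro rfl
    have := Fintype.one_lt_card (α := F)
    simp [hF] at this
  constructor
  · rintro ⟨H, ⟨e⟩⟩ ⟨rfl, k, rfl⟩
    let f := (H10.ι F).comp (H.subtype.comp e.symm.toMonoidHom)
    have hf : Function.Injective f :=
      H10.ι_injective.comp (H.subtype_injective.comp e.symm.injective)
    obtain ⟨x, hx⟩ := H10.exists_rational_fixed 2 (g := f H10.a4a)
      (by rw [← map_pow, show H10.a4a ^ 2 = 1 by decide, map_one])
    have hc := H10.centralP'_of_injective 2 hf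
    have ha : H10.a4a ∈ hc.pAt x := ⟨hx, 1, by decide⟩
    have hb := hc.conj_mem_pAt ha H10.a4b
    obtain ⟨μ', hμ', -⟩ := H10.exists_multiplier x
    have h1 : f (H10.a4b * H10.a4a * H10.a4b⁻¹) • x = x := by
      refine hc.eq_of_mem_pAt ha (by decide) ?_
      rw [← mul_smul, ← map_mul, show H10.a4a * (H10.a4b * H10.a4a * H10.a4b⁻¹) =
        (H10.a4b * H10.a4a * H10.a4b⁻¹) * H10.a4a by decide, map_mul, mul_smul, hx]
    have h2 : f H10.a4b • x = x := (hc.eq_of_mem_pAt hb (by decide) h1).symm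
    obtain ⟨μ, -, -, hμ⟩ := H10.exists_multiplier x
    have h3 : (⟨f H10.a4b, h2⟩ : MulAction.stabilizer _ x) ^ 3 = 1 := Subtype.ext (by
      change f H10.a4b ^ 3 = 1
      rw [← map_pow, show H10.a4b ^ 3 = 1 by decide, map_one])
    have h4 : orderOf (μ ⟨f H10.a4b, h2⟩) = 3 := by
      refine orderOf_eq_prime (by rw [← map_pow, h3, map_one]) fun h => ?_
      have := (hμ _ h (fun e' => absurd (hf ((congrArg Subtype.val e').trans (map_one f).symm))
        (by decide)) 3).1 h3
      rw [CharP.cast_eq_zero_iff F 2] at this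
      omega
    have h5 := orderOf_dvd_card (x := μ ⟨f H10.a4b, h2⟩)
    rw [h4, Fintype.card_units, hF, pow_succ, pow_mul] at h5
    have h6 : (2 ^ 2) ^ k % 3 = 1 := by rw [Nat.pow_mod]; simp
    omega
  · intro h
    by_cases h2 : (2 : F) = 0
    · obtain rfl : p = 2 := (Nat.prime_dvd_prime_iff_eq Fact.out Nat.prime_two).1
        ((CharP.cast_eq_zero_iff F p 2).1 (by exact_mod_cast h2))
      obtain ⟨k, rfl⟩ : Even n := Nat.not_odd_iff_even.1 fun ho => h ⟨rfl, ho⟩
      obtain ⟨u, hu⟩ := exists_prime_orderOf_dvd_card (G := Fˣ) 3 (by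
        rw [Fintype.card_units, hF, ← two_mul, pow_mul]
        have h6 : (2 ^ 2) ^ k % 3 = 1 := by rw [Nat.pow_mod]; simp
        omega)
      have h3 : (u : F) ^ 3 = 1 := by rw [← Units.val_pow_eq_pow_val, ← hu, pow_orderOf_eq_one]; rfl
      have h4 : (u : F) - 1 ≠ 0 := fun e => by
        rw [Units.ext (sub_eq_zero.1 e : (u : F) = (1 : Fˣ)), orderOf_one] at hu
        omega
      refine H10.exists_A4_of_root (a := (u : F)) (c := 0) (mul_left_cancel₀ h4 ?_)
      linear_combination h3 - (u - 1) * u * h2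
    · obtain ⟨a, c, hac⟩ := H10.exists_root_of_odd h2 1
      exact H10.exists_A4_of_root hac

end Cfsg.Agent.S0802
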