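import Cfsg.Statements.S0805
import Cfsg.Agent.H10.PSL2Sub

set_option autoImplicit false
open Cfsg

namespace Cfsg.Agent.S0805

/-- Subfield subgroups: let F be a finite field of odd order q and K a finite field with |K|^m = q, m ≥ 1. Then PSL_2(F) has a subgroup isomorphic to PSL_2(K), and has a subgroup isomorphic to PGL_2(K) if and only if m is even. -/
theorem result {F K : Type*} [Field F] [Fintype F] [Field K] [Fintype K] {q : ℕ} (hF : Fintype.card F = q) (hodd : Odd q) (m : ℕ) (hm : 1 ≤ m) (hK : Fintype.card K ^ m = q) : (∃ H : Subgroup (Matrix.ProjectiveSpecialLinearGroup (Fin 2) F), Nonempty (H ≃* Matrix.ProjectiveSpecialLinearGroup (Fin 2) K)) ∧ ((∃ H : Subgroup (Matrix.ProjectiveSpecialLinearGroup (Fin 2) F), Nonempty (H ≃* Matrix.ProjGenLinGroup (Fin 2) K)) ↔ Even m) := by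
  subst hF
  obtain ⟨f⟩ := H10.exists_ringHom_of_card (K := K) (L := F) (m := m)
    (by rwa [Nat.card_eq_fintype_card, Nat.card_eq_fintype_card])
  obtain ⟨φ, hφ, -⟩ := H10.exists_PSL_map f
  have hr : Odd (Fintype.card K) := by
    rw [← hK] at hodd
    exact (Nat.odd_pow_iff (by omega)).1 hodd
  have hr1 := Fintype.one_lt_card (α := K)
  refine ⟨⟨φ.range, ⟨(MonoidHom.ofInjective hφ).symm⟩⟩, ?_, ?_⟩
  · rintro ⟨H, ⟨e⟩⟩
    by_contra hm'
    rw [Nat.not_even_iff_odd] at hm'
    have h1 := H.card_subgroup_dvd_card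
    rw [Nat.card_congr e.toEquiv, H10.card_PGL2] at h1
    have h2 := H10.card_PSL2 (F := F)
    obtain ⟨k, hk⟩ := hodd
    have hg : Nat.gcd 2 (Fintype.card F - 1) = 2 := by
      rw [hk, Nat.add_sub_cancel, Nat.gcd_eq_left (Dvd.intro _ rfl)]
    rw [hg, mul_assoc, mul_comm (_ - 1), ← Nat.sq_sub_sq, one_pow] at h2
    rw [mul_assoc, mul_comm (_ - 1), ← Nat.sq_sub_sq, one_pow] at h1
    have h3 := Nat.mul_dvd_mul_left 2 h1
    have h4 : Fintype.card F ^ 2 - 1 =
        (∑ i ∈ Finset.range m, (Fintype.card K ^ 2) ^ i) * (Fintype.card K ^ 2 - 1) := by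
      rw [geom_sum_mul_of_one_le (Nat.one_le_pow _ _ (by omega)), ← hK, ← pow_mul, ← pow_mul,
        mul_comm]
    have h5 : Odd (∑ i ∈ Finset.range m, (Fintype.card K ^ 2) ^ i) := by
      rw [Finset.odd_sum_iff_odd_card_odd, Finset.filter_true_of_mem fun i _ => hr.pow.pow,
        Finset.card_range]
      exact hm'
    rw [h2, h4, ← mul_assoc, ← mul_assoc] at h3
    have h6 := Nat.dvd_of_mul_dvd_mul_right (by
      have : 1 < Fintype.card K ^ 2 := Nat.one_lt_pow two_ne_zero hr1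
      omega) h3
    have h7 : Odd (Fintype.card F * ∑ i ∈ Finset.range m, (Fintype.card K ^ 2) ^ i) :=
      Odd.mul ⟨k, hk⟩ h5
    exact h7.not_two_dvd_nat ((Dvd.intro _ rfl).trans h6)
  · rintro ⟨l, rfl⟩
    refine H10.exists_subgroup_PSL _ (H10.PGL2_map_injective f) ?_
    rintro _ ⟨g, rfl⟩
    obtain ⟨a, b, c, d, h, rfl⟩ := H10.mob_surj g
    rw [H10.map_mob, H10.mob_mem_PSL2_iff, ← map_mul, ← map_mul, ← map_sub,
      FiniteField.isSquare_iff (fun h2 => H24.two_ne_zero_of_odd hodd (by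
        have := ringChar.Nat.cast_ringChar (R := F)
        rw [h2] at this; exact_mod_cast this)) ((map_ne_zero f).2 h), ← map_pow]
    obtain ⟨s, hs⟩ := hr
    have h1 : Fintype.card K - 1 ∣ Fintype.card F / 2 := by
      obtain ⟨t, ht⟩ := Nat.sub_one_dvd_pow_sub_one (Fintype.card K ^ 2) l
      have : Fintype.card F = (Fintype.card K ^ 2) ^ l := by rw [← hK, ← pow_mul, two_mul]
      have h0 : 0 < (Fintype.card K ^ 2) ^ l := by positivity
      refine ⟨(s + 1) * t, ?_⟩
      have h2 : Fintype.card K ^ 2 - 1 = 2 * ((Fintype.card K - 1) * (s + 1)) := by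
        rw [hs, Nat.add_sub_cancel, Nat.sub_eq_iff_eq_add (Nat.one_le_pow _ _ (by omega))]; ring
      rw [h2, mul_assoc, mul_assoc] at ht
      omega
    obtain ⟨t, ht⟩ := h1
    rw [ht, pow_mul, FiniteField.pow_card_sub_one_eq_one _ h, one_pow, map_one]

end Cfsg.Agent.S0805
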