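import Cfsg.Statements.S0808
import Cfsg.Agent.H10.Klein
import Cfsg.Agent.S0276
import Mathlib.NumberTheory.LegendreSymbol.QuadraticChar.GaussSum

set_option autoImplicit false
open Cfsg

namespace Cfsg.Agent.S0808

open H10 Subgroup in
theorem exists_conj_of {F : Type*} [Field F] {x y x' y' : Matrix.ProjectiveSpecialLinearGroup (Fin 2) F}
    {t : Matrix.ProjGenLinGroup (Fin 2) F} (ht : t ∈ PSL2 F) (hx : t * ι F x * t⁻¹ = ι F x')
    (hy : t * ι F y * t⁻¹ = ι F y') :
    ∃ g : Matrix.ProjectiveSpecialLinearGroup (Fin 2) F,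
      closure {x', y'} = (closure {x, y}).map (MulAut.conj g).toMonoidHom := by
  obtain ⟨g, rfl⟩ := ht
  refine ⟨g, ?_⟩
  rw [MonoidHom.map_closure, Set.image_pair]
  congr 2
  · exact ι_injective (by simpa using hx.symm)
  · congr 1
    exact ι_injective (by simpa using hy.symm)

/-- Conjugacy classes of four-groups in PSL_2(q), q odd: if q ≡ 3 or 5 (mod 8) all Klein four-subgroups are conjugate; if q ≡ 1 or 7 (mod 8) there are two Klein four-subgroups which are not conjugate, and every Klein four-subgroup is conjugate to one of them. -/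
theorem result {F : Type*} [Field F] [Fintype F] {q : ℕ} (hF : Fintype.card F = q) (hodd : Odd q) : ((q % 8 = 3 ∨ q % 8 = 5) → ∀ V W : Subgroup (Matrix.ProjectiveSpecialLinearGroup (Fin 2) F), IsKleinFour V → IsKleinFour W → ∃ g : Matrix.ProjectiveSpecialLinearGroup (Fin 2) F, W = V.map (MulAut.conj g).toMonoidHom) ∧ ((q % 8 = 1 ∨ q % 8 = 7) → ∃ V₁ V₂ : Subgroup (Matrix.ProjectiveSpecialLinearGroup (Fin 2) F), IsKleinFour V₁ ∧ IsKleinFour V₂ ∧ (¬ ∃ g : Matrix.ProjectiveSpecialLinearGroup (Fin 2) F, V₂ = V₁.map (MulAut.conj g).toMonoidHom) ∧ ∀ W : Subgroup (Matrix.ProjectiveSpecialLinearGroup (Fin 2) F), IsKleinFour W → (∃ g : Matrix.ProjectiveSpecialLinearGroup (Fin 2) F, W = V₁.map (MulAut.conj g).toMonoidHom) ∨ (∃ g : Matrix.ProjectiveSpecialLinearGroup (Fin 2) F, W = V₂.map (MulAut.conj g).toMonoidHom)) := by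
  subst hF
  have h2 := H24.two_ne_zero_of_odd hodd
  constructor
  · intro hq V W hV hW
    have key : ∀ V : Subgroup (Matrix.ProjectiveSpecialLinearGroup (Fin 2) F), IsKleinFour V →
        ∃ P : Sylow 2 (Matrix.ProjectiveSpecialLinearGroup (Fin 2) F), V = P := fun V hV => by
      obtain ⟨P, hP⟩ := (IsPGroup.of_card (p := 2) (n := 2) hV.card_four).exists_le_sylow
      exact ⟨P, Subgroup.eq_of_le_of_card_ge hP (by
        rw [(Cfsg.Agent.S0276.result rfl hq P).card_four, hV.card_four])⟩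
    obtain ⟨P, rfl⟩ := key V hV
    obtain ⟨Q, rfl⟩ := key W hW
    obtain ⟨g, rfl⟩ := MulAction.exists_smul_eq (Matrix.ProjectiveSpecialLinearGroup (Fin 2) F) P Q
    exact ⟨g, rfl⟩
  · intro hq
    have hsq : IsSquare (2 : F) := FiniteField.isSquare_two_iff.2 (by omega)
    obtain ⟨a, b, hab⟩ := H10.exists_sq_add_sq_neg_one (F := F)
    obtain ⟨e, he⟩ := H24.exists_not_isSquare h2
    have he0 : e ≠ 0 := by rintro rfl; exact he ⟨0, by simp⟩
    have hk := H10.kPair_inv h2 hab
    have ht : H10.aff e he0 0 ∉ H10.PSL2 F := fun h => he ((H10.aff_mem_PSL2_iff _ _).1 h)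
    have hind : ∀ u, u ∉ H10.PSL2 F → u * (H10.aff e he0 0)⁻¹ ∈ H10.PSL2 F := fun u hu => by
      obtain ⟨p, q, r, s, hd, rfl⟩ := H10.mob_surj u
      rw [H10.aff, H10.mob_inv, H10.mob_mul, H10.mob_mem_PSL2_iff]
      rw [H10.mob_mem_PSL2_iff] at hu
      convert H24.isSquare_mul_of_not hu he using 1
      ring
    set t := H10.aff e he0 0
    obtain ⟨x, hx⟩ := H10.inv0_mem (F := F)
    obtain ⟨y, hy⟩ := H10.inv1_mem hab
    obtain ⟨x', hx'⟩ := H10.PSL2_normal.conj_mem _ H10.inv0_mem t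
    obtain ⟨y', hy'⟩ := H10.PSL2_normal.conj_mem _ (H10.inv1_mem hab) t
    refine ⟨Subgroup.closure {x, y}, Subgroup.closure {x', y'},
      (H10.KPair.of_map H10.ι_injective (hx ▸ hy ▸ hk)).isKleinFour,
      (H10.KPair.of_map H10.ι_injective (hx' ▸ hy' ▸ hk.conj t)).isKleinFour, ?_, fun W hW => ?_⟩
    · rintro ⟨g, hg⟩
      have key : ∀ z ∈ Subgroup.closure {x', y'}, (H10.ι F g)⁻¹ * H10.ι F z * H10.ι F g ∈
          Subgroup.closure {H10.inv0 F, H10.inv1 hab} := fun z hz => by
        rw [hg] at hz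
        obtain ⟨w, hw, rfl⟩ := hz
        rw [← hx, ← hy, ← Set.image_pair, ← MonoidHom.map_closure]
        exact ⟨w, hw, by simp [mul_assoc]⟩
      refine ht ((mul_mem_cancel_left (inv_mem (H10.ι_mem g))).1
        (H10.mem_PSL2_of_normalizes h2 hsq hab ?_ ?_))
      · have := key x' (Subgroup.subset_closure (by simp))
        rw [hx'] at this
        simpa [mul_assoc] using this
      · have := key y' (Subgroup.subset_closure (by simp))
        rw [hy'] at this
        simpa [mul_assoc] using this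
    · obtain ⟨v, w, hvw, rfl⟩ := H10.exists_kPair_of_klein hW
      obtain ⟨u, h3, h4⟩ := (hvw.map H10.ι_injective).exists_conj_std h2 hab (H10.ι_mem _) (H10.ι_mem _)
      by_cases hu : u ∈ H10.PSL2 F
      · exact Or.inl (exists_conj_of hu (hx ▸ h3) (hy ▸ h4))
      · refine Or.inr (exists_conj_of (hind u hu) ?_ ?_)
        · rw [← h3, show H10.ι F x' = _ from hx']; group
        · rw [← h4, show H10.ι F y' = _ from hy']; group

end Cfsg.Agent.S0808
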