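import Cfsg.Statements.S0809
import Cfsg.Agent.H10.Klein

set_option autoImplicit false
open Cfsg

namespace Cfsg.Agent.S0809

open H10 Subgroup in
theorem exists_gen {F : Type*} [Field F] [Fintype F] (h2 : (2 : F) ≠ 0)
    (A : Subgroup (Matrix.SpecialLinearGroup (Fin 2) F)) (hA : Nat.card A = 4) :
    ∃ a, a * a = -1 ∧ orderOf a = 4 ∧ zpowers a = A := by
  have ho : ∀ a : Matrix.SpecialLinearGroup (Fin 2) F, a * a = -1 → orderOf a = 4 := fun a ha =>
    orderOf_eq_prime_pow (p := 2) (n := 1) (by rw [pow_one, pow_two, ha]; exact SL2_neg_one_ne_one h2)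
      (by rw [show 2 ^ (1 + 1) = 2 * 2 from rfl, pow_mul, pow_two a, ha]; simp)
  obtain ⟨a, ha, h1⟩ : ∃ a ∈ A, ¬ (a = 1 ∨ a = -1) := by
    classical
    by_contra hc
    push Not at hc
    have : (A : Set (Matrix.SpecialLinearGroup (Fin 2) F)) ⊆ {1, -1} := fun a ha => hc a ha
    have h3 := (Set.ncard_le_ncard this).trans (Set.ncard_insert_le _ _)
    rw [← Nat.card_coe_set_eq, SetLike.coe_sort_coe, hA, Set.ncard_singleton] at h3
    omega
  have h4 : a ^ 4 = 1 := by
    rw [← hA]; exact congrArg Subtype.val (pow_card_eq_one' (x := (⟨a, ha⟩ : A)))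
  have h5 : a * a = -1 := (SL2_eq_of_mul_self h2 (g := a * a) (by rw [← h4]; simp [pow_succ, mul_assoc])).resolve_left
    fun e => h1 (SL2_eq_of_mul_self h2 e)
  exact ⟨a, h5, ho a h5, eq_of_le_of_card_ge (zpowers_le.2 ha) (by rw [Nat.card_zpowers, ho a h5, hA])⟩

open H10 Subgroup in
theorem card_normalizer {F : Type*} [Field F] [Fintype F] (h2 : (2 : F) ≠ 0)
    {a : Matrix.SpecialLinearGroup (Fin 2) F} (ha : a * a = -1) (ho : orderOf a = 4) :
    Nat.card (normalizer (zpowers a : Set (Matrix.SpecialLinearGroup (Fin 2) F))) =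
      2 * Nat.card (centralizer ({a} : Set (Matrix.SpecialLinearGroup (Fin 2) F))) := by
  classical
  have hai : a⁻¹ = -a := by rw [inv_eq_iff_mul_eq_one, mul_neg, ha, neg_neg]
  have hne : a ≠ -a := hai ▸ ne_inv_of_orderOf (by omega)
  obtain ⟨t, ht⟩ := isConj_iff.1 (isConj_SL2_of_mul_self h2 ha (t := -a) (by simpa using ha))
  have hN : ∀ g, g ∈ normalizer (zpowers a : Set (Matrix.SpecialLinearGroup (Fin 2) F)) ↔
      g * a * g⁻¹ = a ∨ g * a * g⁻¹ = -a := fun g => by
    constructor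
    · intro hg
      have h1 := (mem_normalizer_iff.1 hg a).1 (mem_zpowers a)
      have h3 : g * a * g⁻¹ * (g * a * g⁻¹) = -1 := by rw [conj_mul, ha]; simp
      rw [mem_zpowers_iff_mem_range_orderOf, ho] at h1
      obtain ⟨k, hk, e⟩ := Finset.mem_image.1 h1
      rw [← e] at h3 ⊢
      rw [Finset.mem_range] at hk
      interval_cases k
      · exact absurd (by simpa using h3.symm) (SL2_neg_one_ne_one h2)
      · simp
      · exact absurd (by simpa [pow_two, ha] using h3.symm) (SL2_neg_one_ne_one h2)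
      · right; simp [pow_succ, ha]
    · intro hg
      refine mem_normalizer_fintype fun x hx => ?_
      obtain ⟨k, rfl⟩ := hx
      simp only [← conj_zpow]
      refine zpow_mem ?_ k
      rcases hg with h | h <;> rw [h]
      exacts [mem_zpowers a, hai ▸ inv_mem (mem_zpowers a)]
  have hle : centralizer ({a} : Set (Matrix.SpecialLinearGroup (Fin 2) F)) ≤
      normalizer (zpowers a : Set (Matrix.SpecialLinearGroup (Fin 2) F)) := fun g hg =>
    (hN g).2 (Or.inl (by rw [mem_centralizer_singleton_iff.1 hg]; simp))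
  rw [← Nat.card_congr (subgroupOfEquivOfLe hle).toEquiv, ← index_mul_card (subgroupOf _ _)]
  congr 1
  refine index_eq_two_iff.2 ⟨⟨t, (hN t).2 (Or.inr ht)⟩, fun b => ?_⟩
  simp only [mem_subgroupOf, mem_centralizer_singleton_iff, ← mul_inv_eq_iff_eq_mul, coe_mul]
  have e : b.1 * t * a * (b.1 * t)⁻¹ = -(b.1 * a * b.1⁻¹) := by
    rw [← neg_mul, ← mul_neg, ← ht]; group
  rw [e]
  rcases (hN b).1 b.2 with h | h <;> rw [h]
  · exact Or.inr ⟨rfl, fun e => hne e.symm⟩
  · exact Or.inl ⟨neg_neg a, fun e => hne e.symm⟩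

/-- In SL_2(q), q odd: any two subgroups of order 4 are conjugate, and the normaliser of a subgroup of order 4 has order 2(q − 1) if q ≡ 1 (mod 4) and 2(q + 1) if q ≡ 3 (mod 4); consequently all involutions of PSL_2(q) are conjugate. -/
theorem result {F : Type*} [Field F] [Fintype F] {q : ℕ} (hF : Fintype.card F = q) (hodd : Odd q) (A : Subgroup (Matrix.SpecialLinearGroup (Fin 2) F)) (hA : Nat.card A = 4) : (∀ B : Subgroup (Matrix.SpecialLinearGroup (Fin 2) F), Nat.card B = 4 → ∃ g : Matrix.SpecialLinearGroup (Fin 2) F, B = A.map (MulAut.conj g).toMonoidHom) ∧ (q % 4 = 1 → Nat.card ↥(Subgroup.normalizer (A : Set (Matrix.SpecialLinearGroup (Fin 2) F))) = 2 * (q - 1)) ∧ (q % 4 = 3 → Nat.card ↥(Subgroup.normalizer (A : Set (Matrix.SpecialLinearGroup (Fin 2) F))) = 2 * (q + 1)) ∧ (∀ x y : Matrix.ProjectiveSpecialLinearGroup (Fin 2) F, orderOf x = 2 → orderOf y = 2 → IsConj x y) := by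
  subst hF
  have h2 := H24.two_ne_zero_of_odd hodd
  have hc : ringChar F ≠ 2 := H10.char_ne_two_of_two_ne_zero h2 _
  obtain ⟨a, ha, ho, rfl⟩ := exists_gen h2 A hA
  have ht := H10.trace_eq_zero_of_mul_self ha
  refine ⟨fun B hB => ?_, fun h => ?_, fun h => ?_, fun x y hx hy => ?_⟩
  · obtain ⟨b, hb, -, rfl⟩ := exists_gen h2 B hB
    obtain ⟨g, rfl⟩ := isConj_iff.1 (H10.isConj_SL2_of_mul_self h2 ha hb)
    exact ⟨g, by rw [MonoidHom.map_zpowers]; rfl⟩
  · obtain ⟨i, hi⟩ := FiniteField.isSquare_neg_one_iff.2 (show Fintype.card F % 4 ≠ 3 by omega)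
    have hi0 : i ≠ 0 := by rintro rfl; simp at hi
    rw [card_normalizer h2 ha ho, H24.card_cent_SL_split (a := i) (b := -i)
      (fun e => mul_ne_zero h2 hi0 (by linear_combination e)) (by rw [ht]; ring)
      (by linear_combination hi)]
  · rw [card_normalizer h2 ha ho, H24.card_cent_SL_ell]
    intro c hc
    rw [ht, a.2] at hc
    exact FiniteField.isSquare_neg_one_iff.1 ⟨c, by linear_combination -hc⟩ h
  · obtain ⟨x2, x1⟩ := H9.orderOf_eq_two.1 (orderOf_injective _ H10.ι_injective x ▸ hx)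
    obtain ⟨y2, y1⟩ := H9.orderOf_eq_two.1 (orderOf_injective _ H10.ι_injective y ▸ hy)
    obtain ⟨_, ⟨t, rfl⟩, ht⟩ := H10.exists_conj_involution h2 (H10.ι_mem x) x2 x1 (H10.ι_mem y) y2 y1
    exact isConj_iff.2 ⟨t, H10.ι_injective (by simpa using ht)⟩

end Cfsg.Agent.S0809
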