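import Cfsg.Statements.S0814
import Cfsg.Agent.H25.Sp4
-- import your own Cfsg.Agent.* helpers here

set_option autoImplicit false
open Cfsg

namespace Cfsg.Agent.S0814

/-- |Aut(PSp_2m(q))| = gcd(2, q−1) · f · |PSp_2m(q)| for q = p^f, m ≥ 2, (m, q) ≠ (2, 2), with an extra factor 2 exactly when m = 2 and p = 2. -/
theorem result {F : Type*} [Field F] [Fintype F] (p f : ℕ) [Fact p.Prime] (hf : 1 ≤ f) (hF : Fintype.card F = p ^ f) (m : ℕ) (hm : 2 ≤ m) (h22 : m = 2 → 3 ≤ p ^ f) : Nat.card (MulAut (Cfsg.PSp m F)) = (if m = 2 ∧ p = 2 then 2 else 1) * Nat.gcd 2 (p ^ f - 1) * f * Nat.card (Cfsg.PSp m F) := by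
  haveI := H25.charP_of_card hF
  split_ifs with h
  · obtain ⟨rfl, rfl⟩ := h
    obtain ⟨ψ, -⟩ := H25.exists_isoC2 (F := F)
    rw [← Nat.card_congr (MulAut.congr ψ).toEquiv, H25.card_mulAut_of_center H12.center_group, H25.card_out_B2 2,
      H25.card_ringAut hF, Nat.card_congr ψ.toEquiv, if_pos rfl, Nat.card_eq_fintype_card (α := F), hF]
  · have := H25.card_range_spPhi (F := F) hm
    rwa [MonoidHom.range_eq_top.2 (H25.spPhi_surj hm fun h2 => by
      have := (H25.two_eq_zero_iff hF).1 h2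
      omega), Subgroup.card_top, H25.card_ringAut hF, Nat.card_eq_fintype_card (α := F), hF, ← one_mul (Nat.gcd _ _)] at this

end Cfsg.Agent.S0814
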