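import Cfsg.Statements.S0816
import Cfsg.Agent.H25.OutO1
-- import your own Cfsg.Agent.* helpers here

set_option autoImplicit false
open Cfsg

namespace Cfsg.Agent.S0816

/-- |Aut(PΩ_(2m+1)(q))| = 2 f · |PΩ_(2m+1)(q)| for q = p^f odd and m ≥ 3 (for the form quadFormOdd). -/
theorem result {F : Type*} [Field F] [Fintype F] (p f : ℕ) [Fact p.Prime] (hf : 1 ≤ f) (hF : Fintype.card F = p ^ f) (hodd : Odd p) (m : ℕ) (hm : 3 ≤ m) : Nat.card (MulAut (Cfsg.POmega F (Cfsg.quadFormOdd m F))) = 2 * f * Nat.card (Cfsg.POmega F (Cfsg.quadFormOdd m F)) := by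
  have h2 : (2 : F) ≠ 0 := H11.two_ne_zero_iff_odd.2 (hF ▸ hodd.pow)
  have h5 := H25.odd_h5 (show 2 ≤ m by omega)
  have h := (H25.oCtx (Q := H11.qOdd m F) (H11.sOdd_nondeg m h2) h5).card_range_Phi (H25.oCtx_hE _ h5) (by omega)
    fun τ => ⟨H25.inrG (H25.sOdd_rat m τ), rfl⟩
  rw [H25.Ctx.card_od_odd _ _ h5 (H25.odd_odd m), H25.card_ringAut hF,
    MonoidHom.range_eq_top.2 (H25.odd_surj _ hm), Subgroup.card_top] at h
  exact h

end Cfsg.Agent.S0816
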