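import Cfsg.Statements.S0818
import Cfsg.Agent.H25.OutO1
-- import your own Cfsg.Agent.* helpers here

set_option autoImplicit false
open Cfsg

namespace Cfsg.Agent.S0818

/-- |Aut(PΩ⁻_2m(q))| for q = p^f, m ≥ 4 (form quadFormMinus (m−1) with anisotropic binary part): |PΩ⁻_2m(q)| times f, times 2 if p = 2, and times 4 or 8 if p is odd according as m(q−1)/2 is even or odd. -/
theorem result {F : Type*} [Field F] [Fintype F] (p f : ℕ) [Fact p.Prime] (hf : 1 ≤ f) (hF : Fintype.card F = p ^ f) (m : ℕ) (hm : 4 ≤ m) (a b : F) (hab : ∀ z₁ z₂ : F, z₁ ^ 2 + a * z₁ * z₂ + b * z₂ ^ 2 = 0 → z₁ = 0 ∧ z₂ = 0) : Nat.card (MulAut (Cfsg.POmega F (Cfsg.quadFormMinus (m - 1) F a b))) = (if p = 2 then 2 else (if Even (m * (p ^ f - 1) / 2) then 4 else 8)) * f * Nat.card (Cfsg.POmega F (Cfsg.quadFormMinus (m - 1) F a b)) := by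
  obtain ⟨m, rfl⟩ : ∃ n, m = n + 1 := ⟨m - 1, by omega⟩
  have h5 := H25.minus_h5 (show 2 ≤ m by omega)
  have h := (H25.oCtx (Q := H11.qMinus m F a b) (H11.sMinus_nondeg m hab) h5).card_range_Phi (H25.oCtx_hE _ h5)
    (by omega) (H25.minus_fld_surj hab)
  rw [H25.Ctx.card_od_even _ _ h5 (H25.minus_even m), H25.card_ringAut hF,
    MonoidHom.range_eq_top.2 (H25.minus_surj hab (by omega)), Subgroup.card_top] at h
  refine h.trans ?_
  congr 2
  by_cases hp : p = 2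
  · rw [if_pos hp, if_pos ((H25.two_eq_zero_iff hF).2 hp)]
  · have h2 := mt (H25.two_eq_zero_iff hF).1 hp
    have h3 := H25.pow_mod_four ((H25.odd_card_iff hF).1 hp) (m + 1)
    rw [if_neg hp, if_neg h2]
    simp only [H25.negOne_minus (show 2 ≤ m by omega) h2 hab, Nat.card_eq_fintype_card, hF, h3.1, h3.2.2, ite_not]

end Cfsg.Agent.S0818
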