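import Cfsg.Statements.S0820
import Cfsg.Agent.H10.GLPar
import Cfsg.Agent.H24.LinG

set_option autoImplicit false
open Cfsg

namespace Cfsg.Agent.S0820

open Matrix

theorem lift {F : Type*} [Field F] [Fintype F] (hF : Fintype.card F = 4)
    (x : Matrix.ProjectiveSpecialLinearGroup (Fin 3) F) (hx : orderOf x = 2) :
    ∃ a b : Fin 3 → F, a ≠ 0 ∧ b ≠ 0 ∧ b ⬝ᵥ a = 0 ∧ x = QuotientGroup.mk (H25.tv a b) := by
  have h2 : CharP F 2 := by
    obtain ⟨p, hp⟩ := CharP.exists F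
    obtain ⟨n, hn, h⟩ := FiniteField.card F p
    rw [hF] at h
    have : p = 2 := (Nat.prime_dvd_prime_iff_eq hn Nat.prime_two).1
      (hn.dvd_of_dvd_pow (n := 2) ((dvd_pow_self p n.ne_zero).trans h.symm.dvd))
    exact this ▸ hp
  obtain ⟨B, rfl⟩ := QuotientGroup.mk_surjective x
  have h1 := pow_orderOf_eq_one (QuotientGroup.mk B : Matrix.ProjectiveSpecialLinearGroup (Fin 3) F)
  rw [hx] at h1
  have h3 : (QuotientGroup.mk (B ^ 3) : Matrix.ProjectiveSpecialLinearGroup (Fin 3) F) =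
      QuotientGroup.mk B := by rw [QuotientGroup.mk_pow, pow_succ, h1, one_mul]
  rw [← QuotientGroup.mk_pow, QuotientGroup.eq_one_iff,
    Matrix.SpecialLinearGroup.mem_center_iff] at h1
  obtain ⟨r, hr, hr'⟩ := h1
  set A := B ^ 3 with hA
  have h4 : A.1 * A.1 = 1 := by
    have : A * A = (B ^ 2) ^ 3 := by rw [hA, ← pow_add, ← pow_mul]
    rw [← Matrix.SpecialLinearGroup.coe_mul, this, Matrix.SpecialLinearGroup.coe_pow, ← hr',
      ← map_pow, show r ^ 3 = 1 by simpa using hr, map_one]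
  have h5 : (A.1 - 1) * (A.1 - 1) = 0 := by
    rw [sub_mul, mul_sub, mul_sub, h4, mul_one, one_mul, mul_one]
    ext i j
    change _ - A.1 i j - (A.1 i j - _) = 0
    linear_combination (((1 : Matrix (Fin 3) (Fin 3) F) i j - A.1 i j)) * CharTwo.two_eq_zero (R := F)
  have h6 := rank_add_rank_le_card_of_mul_eq_zero h5
  have h7 : (A.1 - 1).rank ≠ 0 := fun e => by
    rw [rank, Submodule.finrank_eq_zero, LinearMap.range_eq_bot] at e
    have : A = 1 := Subtype.ext (sub_eq_zero.1 (toLin'.map_eq_zero_iff.1 e))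
    rw [← h3, this, QuotientGroup.mk_one, orderOf_one] at hx
    omega
  obtain ⟨a, b, ha, hb, h⟩ := H10.exists_vecMulVec_of_rank_one (A := A.1 - 1)
    (by simp at h6; omega)
  rw [h, vecMulVec_mul_vecMulVec, vecMulVec_eq_zero, smul_eq_zero] at h5
  have h8 : b ⬝ᵥ a = 0 := (h5.resolve_left ha).resolve_right hb
  refine ⟨a, b, ha, hb, h8, h3.symm.trans (congrArg _ (Subtype.ext ?_))⟩
  rw [H25.coe_tv h8, ← h]; abel

/-- Any two elements of order 2 of PSL_3(4) are conjugate. -/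
theorem result {F : Type*} [Field F] [Fintype F] (hF : Fintype.card F = 4) (x y : Matrix.ProjectiveSpecialLinearGroup (Fin 3) F) (hx : orderOf x = 2) (hy : orderOf y = 2) : IsConj x y := by
  obtain ⟨a, b, ha, hb, h, rfl⟩ := lift hF x hx
  obtain ⟨c, d, hc, hd, h', rfl⟩ := lift hF y hy
  obtain ⟨g, hg⟩ := H24.exists_SL_flag (by simp) ha hb h hc hd h'
  exact isConj_iff.2 ⟨QuotientGroup.mk g, by rw [← hg]; rfl⟩

end Cfsg.Agent.S0820
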