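import Cfsg.Statements.S2362
import Cfsg.Agent.H11.ThE

set_option autoImplicit false
open Cfsg

namespace Cfsg.Agent.S2362

/-- Let F be a finite field of odd order and n ≥ 3. The simple orthogonal group PΩ(2n+1, F) (type B_n) and the projective symplectic group PSp(2n, F) (type C_n), which have the same order, do not have the same set of element orders. -/
theorem result {F : Type*} [Field F] [Fintype F] (hodd : Odd (Fintype.card F)) (n : ℕ) (hn : 3 ≤ n) :
    Set.range (orderOf : Cfsg.POmega F (Cfsg.quadFormOdd n F) → ℕ) ≠ Set.range (orderOf : Cfsg.PSp n F → ℕ) := by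
  have h2 : (2 : F) ≠ 0 := mt (H11.two_eq_zero_iff_pow le_rfl).1 (by grind [Nat.card_eq_fintype_card])
  obtain ⟨N, h3, h4⟩ := H11.PForm.exists_symp_not_orth (H11.stdSymp_nondeg n) (H11.sOdd_nondeg n h2)
    (by simp [two_mul]) (H11.finrank_odd_fun n) h2 hn
  refine fun h => h4 ?_
  rw [← H11.PForm.exists_orderOf_pomega (H11.sOdd_nondeg n h2) (H11.finrank_odd_fun n) (by omega),
    ← H11.mem_range_orderOf_equiv (H11.pomegaEquiv (H11.qOdd n F))]
  exact h.ge ((H11.mem_range_orderOf_equiv (H11.centerQuotCongr (H11.spEquiv n F))).2 h3)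

end Cfsg.Agent.S2362
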