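import Cfsg.Statements.S0823
import Cfsg.Agent.H11.Perm

set_option autoImplicit false
open Cfsg

namespace Cfsg.Agent.S0823

/-- SO_3(3) ≅ S_4: the determinant-one isometries of the form x_0² + x_1y_1 over the field with 3 elements form a group isomorphic to the symmetric group on 4 letters. -/
theorem result {F : Type*} [Field F] [Fintype F] (hF : Fintype.card F = 3) : Nonempty (↥(Cfsg.specialIsometryGroup F (Cfsg.quadFormOdd 1 F)) ≃* Equiv.Perm (Fin 4)) := by
  have h3 : (3 : F) = 0 := by simpa [hF] using FiniteField.cast_card_eq_zero F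
  have h2 : (2 : F) ≠ 0 := fun h => one_ne_zero (α := F) (by linear_combination h3 - h)
  let T := (H11.orthS (H11.qEv F (Fin 4))).restrict (H11.sumZero _ _)
  have hT : T.Nondeg := H11.qEv_nondeg_sumZero (fun h => one_ne_zero (α := F) (by
    simp only [Fintype.card_fin, Nat.cast_ofNat] at h; linear_combination h - h3))
  have hd : Module.finrank F (H11.sumZero F (Fin 4)) = 2 * 1 + 1 := by
    simpa using H11.finrank_sumZero (F := F) (ι := Fin 4)
  obtain ⟨e, he⟩ := hT.exists_isom_equiv_odd (H11.sOdd_nondeg 1 h2) (by rw [hd]; decide)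
    (by rw [hd, H11.finrank_odd_fun])
  obtain ⟨ψ, hψ⟩ := H11.exists_perm_embed_sumZero (F := F) (ι := Fin 4) (by simp)
  let c : T.Isom →* H11.normOne (RingHom.id F) := T.detHom.codRestrict _ hT.det_mem_normOne
  let φ : Equiv.Perm (Fin 4) →* T.SIsom := MonoidHom.mk' (fun s => ⟨T.scal (c (ψ s)) * ψ s, by
    have : ((T.detHom (ψ s) : Fˣ) : F) * T.detHom (ψ s) = 1 := hT.det_mem_normOne (ψ s)
    rw [H11.PForm.SIsom, MonoidHom.mem_ker, map_mul, H11.PForm.detHom_scal, hd]
    ext
    change ((T.detHom (ψ s) : Fˣ) : F) ^ 3 * T.detHom (ψ s) = 1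
    linear_combination (((T.detHom (ψ s) : Fˣ) : F) ^ 2 + 1) * this⟩) fun s t => by
      refine Subtype.ext (H11.PForm.isom_ext fun x => ?_)
      change (T.scal _ * _).1 x = (T.scal _ * _ * (T.scal _ * _)).1 x
      simp only [map_mul, H11.PForm.isom_mul_apply, H11.PForm.scal_apply, map_smul]
  have := Module.nontrivial_of_finrank_pos (R := F) (M := H11.sumZero F (Fin 4)) (by omega)
  have h1 := H11.card_eq_of_surjective _ hT.dick_surjective
  rw [hT.ker_dick h2, H11.PForm.orth_card_odd 1 hT hd, Nat.card_eq_fintype_card (α := F), hF] at h1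
  have h4 : Nat.card T.SIsom = 24 := by simp at h1; omega
  have := H11.finite_of_card_eq (n := 23) h4
  obtain ⟨e'⟩ := H11.equiv_of_inj_card φ ((injective_iff_map_eq_one _).2 fun s hs =>
    hψ s ((c (ψ s)).1⁻¹ : Fˣ) fun x => by
      have : ((c (ψ s)).1 : F) • (ψ s).1 x = x := congrArg (fun g : T.SIsom => g.1.1 x) hs
      conv_rhs => rw [← this, smul_smul, Units.inv_mul, one_smul]) (by
    rw [h4, Nat.card_perm]; simp; decide)
  refine ⟨(H11.subgroupEquivOfIff ((H11.orthEquiv (H11.qOdd 1 F)).trans e.symm) fun g => ?_).trans e'⟩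
  refine (H11.mem_special_iff (H11.qOdd 1 F) g).trans ?_
  simp only [H11.PForm.SIsom, MonoidHom.mem_ker, ← he, MulEquiv.trans_apply,
    MulEquiv.apply_symm_apply]

end Cfsg.Agent.S0823
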