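import Cfsg.Statements.S0824
import Cfsg.Agent.H11.Perm

set_option autoImplicit false
open Cfsg

namespace Cfsg.Agent.S0824

/-- O⁻_4(2) ≅ S_5: the isometry group of the form x y + z_1² + z_1 z_2 + z_2² over the field with 2 elements is isomorphic to the symmetric group on 5 letters. -/
theorem result {F : Type*} [Field F] [Fintype F] (hF : Fintype.card F = 2) : Nonempty (↥(Cfsg.isometryGroup F (Cfsg.quadFormMinus 1 F 1 1)) ≃* Equiv.Perm (Fin 5)) := by
  obtain ⟨e⟩ := H11.isom_minus_two (H11.sMinus_nondeg 1 H11.aniso_two) (m := 2) (Or.inr rfl)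
    (H11.finrank_minus_fun 1) (H11.sMinus_not_hasTS 1 H11.aniso_two)
  let a := ZMod.ringEquivOfPrime F Nat.prime_two hF
  exact ⟨(H11.isometryGroupCongr a (Q := Cfsg.quadFormMinus 1 (ZMod 2) 1 1) (by
    simpa using H11.quadFormMinus_map (a : ZMod 2 →+* F) 1 1 1)).symm.trans
    ((H11.orthEquiv (H11.qMinus 1 (ZMod 2) 1 1)).trans e)⟩

end Cfsg.Agent.S0824
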