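import Cfsg.Statements.S0828
import Cfsg.Agent.H11.TSub

set_option autoImplicit false
open Cfsg

namespace Cfsg.Agent.S0828

/-- The symplectic generalised quadrangle over a field with q elements: the number of 2-dimensional subspaces of F^4 on which the symplectic form vanishes is (q + 1)(q² + 1), and every non-zero vector lies in exactly q + 1 of them. -/
theorem result {F : Type*} [Field F] [Fintype F] {q : ℕ} (hF : Fintype.card F = q) : Nat.card {W : Submodule F (Fin 2 ⊕ Fin 2 → F) // Module.finrank F W = 2 ∧ ∀ u ∈ W, ∀ v ∈ W, Cfsg.sympForm 2 F u v = 0} = (q + 1) * (q ^ 2 + 1) ∧ ∀ v : Fin 2 ⊕ Fin 2 → F, v ≠ 0 → Nat.card {W : Submodule F (Fin 2 ⊕ Fin 2 → F) // Module.finrank F W = 2 ∧ v ∈ W ∧ ∀ u ∈ W, ∀ w ∈ W, Cfsg.sympForm 2 F u w = 0} = q + 1 := by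
  have hF' : Nat.card F = q := by rw [Nat.card_eq_fintype_card, hF]
  have hN := H11.stdSymp_nondeg (F := F) 2
  have hq2 : 2 ≤ q := by rw [← hF]; exact Fintype.one_lt_card
  have h4 : (2 : ℤ) ≤ q := by omega
  have hts : ∀ W : Submodule F (Fin 2 ⊕ Fin 2 → F), (∀ u ∈ W, ∀ v ∈ W, Cfsg.sympForm 2 F u v = 0) ↔
      (H11.stdSymp 2 F).TS W := fun W =>
    ⟨fun h => H11.PForm.symp_ts fun x hx y hy => by rw [H11.stdSymp_h, h x hx y hy],
      fun h x hx y hy => by rw [← H11.stdSymp_h, h.h_eq hx hy]⟩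
  have h3 : ∀ n, 1 ≤ q ^ n := fun n => Nat.one_le_pow _ _ (by omega)
  simp only [hts]
  constructor
  · obtain ⟨W, hW, hk⟩ := hN.symp_exists_ts 2 (by simp)
    have h1 := hN.card_TS_mul_card_stab hW
    rw [hW.card_stab hN hk, hW.symp_card_fix hN (m := 2) (by simp) hk,
      H11.PForm.symp_card_Isom 2 hN (by simp), hk, hF'] at h1
    have h2 : q ≤ q ^ 2 := Nat.le_self_pow (by omega) _
    simp only [Finset.prod_range_succ, Fin.prod_univ_two] at h1
    norm_num at h1
    generalize Nat.card _ = N at h1 ⊢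
    zify [h2, h3] at h1 ⊢
    apply mul_right_cancel₀ (b := ((q : ℤ) ^ 2 - 1) * (q ^ 2 - q) * q ^ 3)
    · have h5 : (0 : ℤ) < q ^ 2 - 1 := by nlinarith
      have h6 : (0 : ℤ) < q ^ 2 - q := by nlinarith
      positivity
    · linear_combination h1
  · intro v hv
    have hW : (H11.stdSymp 2 F).TS (F ∙ v) := H11.PForm.ts_span (fun _ _ => trivial) (by
      rintro _ rfl _ rfl; exact H11.PForm.symp_h_self _ _)
    obtain ⟨X, h1, h2, h5, -, -⟩ := hW.exists_compl hN
    have h6 := hW.card_ext hN h1 h2 h5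
    rw [finrank_span_singleton hv] at h5 h6
    rw [H11.PForm.symp_cnt, H11.PForm.card_submodule, hF', H11.finrank_sum_fun] at *
    rw [show Module.finrank F X = 2 by omega] at h6
    rw [Nat.card_congr (Equiv.subtypeEquivRight (q := fun U : Submodule F (Fin 2 ⊕ Fin 2 → F) =>
      Module.finrank F U = 1 + 1 ∧ (H11.stdSymp 2 F).TS U ∧ (F ∙ v) ≤ U) fun U => by
        rw [Submodule.span_singleton_le_iff_mem]; tauto)]
    generalize Nat.card _ = N at h6 ⊢
    zify [h3, (by omega : 1 ≤ q)] at h6 ⊢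
    apply mul_right_cancel₀ (b := (q : ℤ) - 1) (by omega)
    linear_combination h6

end Cfsg.Agent.S0828
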