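import Cfsg.Statements.S0830
import Cfsg.Agent.H11.TSub

set_option autoImplicit false
open Cfsg

namespace Cfsg.Agent.S0830

/-- The unitary quadrangle of PSU_5(q): with |F| = q², the number of 2-dimensional subspaces of F^5 on which the Hermitian form vanishes is (q³ + 1)(q⁵ + 1). -/
theorem result {F : Type*} [Field F] [Fintype F] {q : ℕ} (hF : Fintype.card F = q ^ 2) : Nat.card {W : Submodule F (Fin 5 → F) // Module.finrank F W = 2 ∧ ∀ u ∈ W, ∀ v ∈ W, Cfsg.hermForm 5 F q u v = 0} = (q ^ 3 + 1) * (q ^ 5 + 1) := by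
  obtain ⟨σ, hq, hσ, hne⟩ := H11.exists_frob hF
  have hF' : Nat.card F = q ^ 2 := by rw [Nat.card_eq_fintype_card, hF]
  have hN := H11.stdUnit_nondeg hσ hne (Fin 5)
  have hq2 := H11.two_le_of_card_sq hF'
  obtain ⟨W, hW, hk⟩ := hN.unit_exists_ts hne 2 (by simp)
  have h1 := hN.card_TS_mul_card_stab hW
  rw [hW.unit_card_stab hne hN hF' (n := 5) (by simp) hk,
    H11.PForm.unit_card_Isom hne hF' 5 hN (by simp), hk] at h1
  rw [Nat.card_congr (Equiv.subtypeEquivRight (q := fun U : Submodule F (Fin 5 → F) => Module.finrank F U = 2 ∧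
    (H11.stdUnit hσ hne (Fin 5)).TS U) fun U => by
      rw [H11.PForm.unit_ts_iff]
      simp only [H11.stdUnit_h_eq hσ hne hq]
      exact and_congr_right fun _ => ⟨fun h x hx y hy => h y hy x hx, fun h x hx y hy => h y hy x hx⟩)]
  have h2 : q ^ 2 ≤ (q ^ 2) ^ 2 := Nat.le_self_pow (by omega) _
  have h3 : ∀ n, 1 ≤ q ^ n := fun n => Nat.one_le_pow _ _ (by omega)
  have h4 : (2 : ℤ) ≤ q := by omega
  simp only [H11.guOrd, Finset.prod_range_succ, Fin.prod_univ_two] at h1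
  norm_num [Nat.even_add_one] at h1
  generalize Nat.card _ = N at h1 ⊢
  zify [h2, h3, h3 4, Nat.one_le_pow _ _ (Nat.pos_of_ne_zero (by positivity) : 0 < q ^ 2)] at h1 ⊢
  apply mul_right_cancel₀ (b := (q : ℤ) ^ 8 * ((q ^ 4 - 1) * (q ^ 4 - q ^ 2)) * (q + 1))
  · have : (q : ℤ) ^ 4 - q ^ 2 = q ^ 2 * (q ^ 2 - 1) := by ring
    have h5 : (0 : ℤ) < q ^ 2 - 1 := by nlinarith
    have h6 : (0 : ℤ) < q ^ 4 - 1 := by nlinarith
    rw [this]; positivity
  · linear_combination h1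

end Cfsg.Agent.S0830
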