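import Cfsg.Statements.S0831
import Cfsg.Agent.H11.Orth2

set_option autoImplicit false
open Cfsg

namespace Cfsg.Agent.S0831

/-- The two families of maximal totally singular subspaces of the hyperbolic quadric: for the form Σ x_i y_i on F^(2m), m ≥ 1, and m-dimensional subspaces U, W, X on which it vanishes, the parities of m − dim(U ∩ W), m − dim(W ∩ X) and m − dim(U ∩ X) sum to an even number (so 'even codimension of the intersection' is an equivalence relation), and there exist two such subspaces meeting in codimension 1 (so there are exactly two classes). -/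
theorem result {F : Type*} [Field F] (m : ℕ) (hm : 1 ≤ m) : (∀ U W X : Submodule F (Fin m ⊕ Fin m → F), (Module.finrank F U = m ∧ ∀ w ∈ U, Cfsg.quadFormPlus m F w = 0) → (Module.finrank F W = m ∧ ∀ w ∈ W, Cfsg.quadFormPlus m F w = 0) → (Module.finrank F X = m ∧ ∀ w ∈ X, Cfsg.quadFormPlus m F w = 0) → Even ((m - Module.finrank F ↥(U ⊓ W)) + (m - Module.finrank F ↥(W ⊓ X)) + (m - Module.finrank F ↥(U ⊓ X)))) ∧ ∃ U W : Submodule F (Fin m ⊕ Fin m → F), (Module.finrank F U = m ∧ ∀ w ∈ U, Cfsg.quadFormPlus m F w = 0) ∧ (Module.finrank F W = m ∧ ∀ w ∈ W, Cfsg.quadFormPlus m F w = 0) ∧ Module.finrank F ↥(U ⊓ W) + 1 = m := by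
  have hS := H11.sPlus_nondeg m F
  refine ⟨fun U W X hU hW hX => ?_, ?_⟩
  · have h := H11.PForm.MaxTS.parity hS (H11.sPlus_maxTS_iff.2 hU) (H11.sPlus_maxTS_iff.2 hW)
      (H11.sPlus_maxTS_iff.2 hX)
    have h1 := Submodule.finrank_mono (inf_le_left (a := U) (b := W))
    have h2 := Submodule.finrank_mono (inf_le_left (a := W) (b := X))
    have h3 := Submodule.finrank_mono (inf_le_left (a := U) (b := X))
    rw [Nat.even_iff]
    omega
  · obtain ⟨U, hU, -, -, h⟩ := (H11.sPlus_maxTS_inr (F := F) m).exists_adj hS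
      (w := Pi.single (.inr ⟨0, hm⟩) 1) (by simp) (fun h => by simpa using H11.mem_ker_funLeft.1 h ⟨0, hm⟩)
    have h1 := H11.sPlus_maxTS_iff.1 (H11.sPlus_maxTS_inr (F := F) m)
    exact ⟨_, U, h1, H11.sPlus_maxTS_iff.1 hU, h.trans h1.1⟩

end Cfsg.Agent.S0831
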