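import Cfsg.Statements.S0832
import Cfsg.Agent.H11.Orth2

set_option autoImplicit false
open Cfsg

namespace Cfsg.Agent.S0832

/-- For the form Σ x_i y_i on F^(2m) over a finite field, m ≥ 1: an (m−1)-dimensional subspace on which the form vanishes is contained in exactly two m-dimensional subspaces on which it vanishes. -/
theorem result {F : Type*} [Field F] [Finite F] (m : ℕ) (hm : 1 ≤ m) (U : Submodule F (Fin m ⊕ Fin m → F)) (hU : Module.finrank F U + 1 = m ∧ ∀ u ∈ U, Cfsg.quadFormPlus m F u = 0) : Nat.card {W : Submodule F (Fin m ⊕ Fin m → F) // Module.finrank F W = m ∧ (∀ w ∈ W, Cfsg.quadFormPlus m F w = 0) ∧ U ≤ W} = 2 := by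
  have hS := H11.sPlus_nondeg m F
  have hT := (H11.PForm.orth_ts_iff (S := H11.sPlus m F)).2 hU.2
  obtain ⟨X, hX, h1, h2, h3, h4⟩ := hT.exists_compl hS
  have h5 := hT.card_ext hS hX h1 h2
  rw [H11.finrank_sum_fun] at h2
  have h6 := H11.PForm.orth_cnt_even 0 1 hX (by omega)
  rw [if_pos ((hT.hasTS_succ_iff hS h1 h3 h4).1 (by rw [hU.1]; exact H11.sPlus_hasTS m F)), if_pos rfl] at h6
  have hq : 1 < Nat.card F := Finite.one_lt_card
  have h7 : ((H11.sPlus m F).restrict X).cnt 0 + 1 = 2 * Nat.card F := by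
    zify
    exact mul_left_cancel₀ (a := (Nat.card F : ℤ)) (by omega) (by linear_combination h6)
  simp only [hU.1, H11.PForm.orth_ts_iff] at h5
  exact Nat.eq_of_mul_eq_mul_right (m := Nat.card F - 1) (by omega) (h5.trans (by omega))

end Cfsg.Agent.S0832
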