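import Cfsg.Statements.S0837
import Cfsg.Agent.H11.Unit

set_option autoImplicit false
open Cfsg

namespace Cfsg.Agent.S0837

/-- If W ≤ F^n (|F| = q²) is a k-dimensional subspace on which the Hermitian form Σ x_i y_i^q is non-degenerate, then the stabiliser of W in GU_n(q) is isomorphic to GU_k(q) × GU_(n−k)(q). -/
theorem result {F : Type*} [Field F] [Fintype F] {q : ℕ} (hF : Fintype.card F = q ^ 2) (n k : ℕ) (hk : k ≤ n) (W : Submodule F (Fin n → F)) (hWk : Module.finrank F W = k) (hW : ∀ u ∈ W, (∀ v ∈ W, Cfsg.hermForm n F q u v = 0) → u = 0) : Nonempty (↥((Cfsg.stabilizing (Cfsg.glToMat (Fin n) F) (W : Set (Fin n → F))).subgroupOf (Cfsg.GU n F q)) ≃* ↥(Cfsg.GU k F q) × ↥(Cfsg.GU (n - k) F q)) := by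
  obtain ⟨σ, hq, hσ, hne⟩ := H11.exists_frob hF
  have hF' : Nat.card F = q ^ 2 := by rw [Nat.card_eq_fintype_card, hF]
  have hN0 := H11.stdUnit_nondeg hσ hne (Fin n)
  have hN : ((H11.stdUnit hσ hne (Fin n)).restrict W).Nondeg := by
    rw [H11.PForm.restrict_nondeg_iff']
    intro x hx h
    exact hW x hx fun v hv => by
      rw [← H11.stdUnit_h_eq hσ hne hq, H11.PForm.h_swap_zero _ (h v hv)]
  have h1 := hN0.finrank_perp W
  simp only [Module.finrank_fintype_fun_eq_card, Fintype.card_fin] at h1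
  obtain ⟨e1⟩ := (H11.PForm.unit_eqv hne k hN (H11.stdUnit_nondeg hσ hne (Fin k)) hWk
    (by simp)).nonempty_mulEquiv
  obtain ⟨e2⟩ := (H11.PForm.unit_eqv hne (n - k) (hN0.restrict_perp hN)
    (H11.stdUnit_nondeg hσ hne (Fin (n - k))) (by omega) (by simp)).nonempty_mulEquiv
  exact ⟨(H11.subgroupEquivOfIff (H11.guEquiv hσ hne hq n) (fun g => Iff.rfl)).trans
    ((H11.PForm.stabEquivProd hN).trans (MulEquiv.prodCongr
      (e1.trans (H11.guEquiv hσ hne hq k).symm) (e2.trans (H11.guEquiv hσ hne hq (n - k)).symm)))⟩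

end Cfsg.Agent.S0837
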