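import Cfsg.Statements.S0839
import Cfsg.Agent.H10.GLPar
import Cfsg.Agent.H24.LinG

set_option autoImplicit false
open Cfsg

namespace Cfsg.Agent.S0839
open Matrix

/-- Every transvection t ∈ SL_(n+2)(F) (rank(t − 1) = 1, (t − 1)² = 0) is conjugate in SL_(n+2)(F) to 1 + v·e_0ᵀ for some column vector v with v_0 = 0 (the group A of matrices that are the identity except in the first column below the diagonal); the dimension is written n + 2 ≥ 2. -/
theorem result {F : Type*} [Field F] (n : ℕ) (t : Matrix.SpecialLinearGroup (Fin (n + 2)) F) (ht : Cfsg.IsTransvection (t : Matrix (Fin (n + 2)) (Fin (n + 2)) F)) : ∃ (g : Matrix.SpecialLinearGroup (Fin (n + 2)) F) (v : Fin (n + 2) → F), v 0 = 0 ∧ ((g⁻¹ * t * g : Matrix.SpecialLinearGroup (Fin (n + 2)) F) : Matrix (Fin (n + 2)) (Fin (n + 2)) F) = 1 + Matrix.vecMulVec v (Pi.single 0 1) := by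
  obtain ⟨a, b, ha, hb, h⟩ := H10.exists_vecMulVec_of_rank_one ht.1
  have h2 := ht.2
  rw [h, vecMulVec_mul_vecMulVec, vecMulVec_eq_zero, smul_eq_zero] at h2
  have h3 : b ⬝ᵥ a = 0 := (h2.resolve_left ha).resolve_right hb
  obtain ⟨g, hg⟩ := H24.exists_SL_mulVec (by simp) hb
    (show (Pi.single 0 1 : Fin (n + 2) → F) ≠ 0 by simp)
  have hg' : b ᵥ* (g.transpose : Matrix (Fin (n + 2)) (Fin (n + 2)) F) = Pi.single 0 1 :=
    (vecMul_transpose _ _).trans hg
  set s := g.transpose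
  have h4 : (t : Matrix (Fin (n + 2)) (Fin (n + 2)) F) = 1 + vecMulVec a b := by
    rw [← h]; abel
  have h5 : ((s⁻¹ : Matrix.SpecialLinearGroup _ F) : Matrix (Fin (n + 2)) (Fin (n + 2)) F) * s = 1 := by
    rw [← Matrix.SpecialLinearGroup.coe_mul, inv_mul_cancel, Matrix.SpecialLinearGroup.coe_one]
  refine ⟨s, (s⁻¹ : Matrix.SpecialLinearGroup _ F).1 *ᵥ a, ?_, ?_⟩
  · refine (single_one_dotProduct (0 : Fin (n + 2)) _).symm.trans ?_
    rw [← hg', ← dotProduct_mulVec, mulVec_mulVec,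
      mul_eq_one_comm.1 h5, one_mulVec, h3]
  · rw [Matrix.SpecialLinearGroup.coe_mul, Matrix.SpecialLinearGroup.coe_mul, h4, mul_add, add_mul, mul_one, h5,
      mul_vecMulVec, vecMulVec_mul, hg']

end Cfsg.Agent.S0839
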