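import Cfsg.Statements.S0841
import Mathlib


set_option autoImplicit false
open Cfsg


namespace Cfsg.Agent.S0841

/-- If the commutator subgroup of G lies in the centre, then for all x, y in G and every natural number n one has (x * y) ^ n = x ^ n * y ^ n * c ^ (n * (n - 1) / 2) with c = y⁻¹ * x⁻¹ * y * x. -/
theorem result {G : Type*} [Group G] (hG : commutator G ≤ Subgroup.center G) (x y : G) (n : ℕ) : (x * y) ^ n = x ^ n * y ^ n * (y⁻¹ * x⁻¹ * y * x) ^ (n * (n - 1) / 2) := by
  have hc : y⁻¹ * x⁻¹ * y * x ∈ Subgroup.center G := by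
    apply hG
    have := Subgroup.commutator_mem_commutator (Subgroup.mem_top y⁻¹) (Subgroup.mem_top x⁻¹)
    simpa [commutatorElement_def, commutator_def] using this
  set c := y⁻¹ * x⁻¹ * y * x with hcdef
  have hcc : ∀ (g : G) (k : ℕ), c ^ k * g = g * c ^ k := fun g k =>
    ((Subgroup.mem_center_iff.mp (Subgroup.pow_mem _ hc k)) g).symm
  have hyx : y * x = x * y * c := by rw [hcdef]; simp [mul_assoc]
  have h1 : ∀ k : ℕ, y ^ k * x = x * y ^ k * c ^ k := by
    intro k
    induction k with
    | zero => simp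
    | succ k ih =>
      rw [pow_succ' y, mul_assoc, ih, ← mul_assoc, ← mul_assoc, hyx, pow_succ' c]
      have := hcc (y ^ k) 1
      rw [pow_one] at this
      rw [mul_assoc (x * y), this]
      simp only [mul_assoc]
  induction n with
  | zero => simp
  | succ n ih =>
    have e : (n + 1) * (n + 1 - 1) / 2 = n * (n - 1) / 2 + n := by
      rw [← Nat.triangle_succ]
    rw [pow_succ, ih, e, pow_add c, mul_assoc, hcc, ← mul_assoc, ← mul_assoc, mul_assoc (x ^ n), h1,
      pow_succ x n, pow_succ y n]
    simp only [mul_assoc]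
    rw [← mul_assoc (c ^ n), hcc, mul_assoc, ← pow_add, ← pow_add, add_comm n]

end Cfsg.Agent.S0841
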