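import Cfsg.Statements.S0842
import Cfsg.Agent.H9.Hv3

set_option autoImplicit false
open Cfsg

namespace Cfsg.Agent.S0842

open H18 H9 Subgroup

/-- Suppose a Sylow 2-subgroup S of the finite group G is generalized quaternion of order at least 16, and let D be the commutator subgroup of S, C its centralizer and N its normalizer in G. Then there is a subgroup K of odd order, contained in C and normalized by N, with K ⊔ S = N and K ⊔ (S ⊓ C) = C, and C has index 2 in N. -/
theorem result {G : Type*} [Group G] [Finite G] (S : Sylow 2 G) (n : ℕ) (e : (S : Subgroup G) ≃* QuaternionGroup (2 ^ (n + 2))) (D : Subgroup G) (hD : D = ⁅(S : Subgroup G), (S : Subgroup G)⁆) : ∃ K : Subgroup G, Odd (Nat.card K) ∧ K ≤ Subgroup.centralizer (D : Set G) ∧ Subgroup.normalizer (D : Set G) ≤ Subgroup.normalizer (K : Set G) ∧ K ⊔ (S : Subgroup G) = Subgroup.normalizer (D : Set G) ∧ K ⊔ ((S : Subgroup G) ⊓ Subgroup.centralizer (D : Set G)) = Subgroup.centralizer (D : Set G) ∧ ((Subgroup.centralizer (D : Set G)).subgroupOf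 (Subgroup.normalizer (D : Set G))).index = 2 := by
  obtain ⟨x, y, h⟩ := exists_qData (by positivity) e
  have hN : 2 < 2 ^ (n + 2) := by have := Nat.one_le_two_pow (n := n); rw [pow_add]; omega
  obtain rfl : D = zpowers (x ^ 2) := hD.trans (QData.mc (k := n + 1) h).commutator_eq
  have s := h.hall_C hN
  have hx : Hall {2} (zpowers x) C(zpowers (x ^ 2)) := by
    rw [C_zpowers]; exact hall_of_isSyl ⟨s.le, s.isPGroup, s.not_dvd⟩
  have hS := hall_sylow_top Nat.prime_two S
  have nS : (S : Subgroup G) ≤ N(zpowers (x ^ 2)) := hD ▸ norm_comm_left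
  have e1 : (S : Subgroup G) ⊓ C(zpowers (x ^ 2)) = zpowers x :=
    hx.eq_of_le (le_inf h.zpowers_le hx.le) inf_le_right hS.pi.inf_left
  have e2 := (H22.cyc_nilp hx inferInstance).sup_compl (by rw [compl_compl]; exact hx)
  have e3 : (S : Subgroup G) ⊔ C(zpowers (x ^ 2)) = N(zpowers (x ^ 2)) :=
    (hS.of_le nS le_top).sup_of_idx C_le_N (PiNat.of_dvd (by
      rw [card_zpowers', (QData.mc (k := n + 1) h).orderOf_sq, Nat.totient_prime_pow_succ Nat.prime_two]
      simpa using piNat_pow_self Nat.prime_two _) (Cyc.relIndex_C_dvd inferInstance le_rfl))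
  refine ⟨_, odd_O, pcore_le, norm_pcore N_le_N_C, ?_, by rw [e1, e2], ?_⟩
  · rw [← e3, ← sup_eq_right.2 h.zpowers_le, ← sup_assoc, e2, sup_eq_right.2 h.zpowers_le, sup_comm]
  · change C(zpowers (x ^ 2)).relIndex _ = 2
    rw [← e3, relIndex_sup_of_norm (norm_C nS), ← inf_relIndex_left, e1, h.relIndex_eq]

end Cfsg.Agent.S0842
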