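import Cfsg.Statements.S0843
import Cfsg.Agent.H9.Hv3

set_option autoImplicit false
open Cfsg

namespace Cfsg.Agent.S0843

open H18 H9 Subgroup

/-- Suppose a Sylow 2-subgroup S of the finite group G is generalized quaternion of order at least 16; let D be the commutator subgroup of S and X the set of elements of the centralizer of D whose order is divisible by the order of D. Then D is contained in the cyclic subgroup generated by any element of X; an element of G conjugating some element of X into the centralizer of D normalizes D; and the normalizer of D maps X to itself under conjugation. -/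
theorem result {G : Type*} [Group G] [Finite G] (S : Sylow 2 G) (n : ℕ) (e : (S : Subgroup G) ≃* QuaternionGroup (2 ^ (n + 2))) (D : Subgroup G) (hD : D = ⁅(S : Subgroup G), (S : Subgroup G)⁆) : (∀ y : G, y ∈ Subgroup.centralizer (D : Set G) → Nat.card D ∣ orderOf y → D ≤ Subgroup.zpowers y) ∧ (∀ g y : G, y ∈ Subgroup.centralizer (D : Set G) → Nat.card D ∣ orderOf y → g * y * g⁻¹ ∈ Subgroup.centralizer (D : Set G) → g ∈ Subgroup.normalizer (D : Set G)) ∧ (∀ g y : G, g ∈ Subgroup.normalizer (D : Set G) → y ∈ Subgroup.centralizer (D : Set G) → Nat.card D ∣ orderOf y → g * y * g⁻¹ ∈ Subgroup.centralizer (D : Set G) ∧ Nat.card D ∣ orderOf (g * y * g⁻¹)) := by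
  obtain ⟨x, y, h⟩ := exists_qData (by positivity) e
  have hN : 2 < 2 ^ (n + 2) := by have := Nat.one_le_two_pow (n := n); rw [pow_add]; omega
  obtain rfl : D = zpowers (x ^ 2) := hD.trans (QData.mc (k := n + 1) h).commutator_eq
  have k : ∀ c : G, c ∈ C(zpowers (x ^ 2)) → Nat.card (zpowers (x ^ 2)) ∣ orderOf c → zpowers (x ^ 2) ≤ zpowers c :=
    fun c hc hd => zpowers_le.2 (mem_zpowers_of_isSylowIn (h.hall_C hN) (npow_mem_zpowers x 2)
      (fun _ h => mem_C1.1 h) (C_zpowers.le hc) (by rwa [card_zpowers'] at hd))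
  refine ⟨k, fun g c hc hd hg => mem_N_iff_cj.2 (Cyc.eq_of_card_eq (H := zpowers (g * c * g⁻¹)) inferInstance ?_
    (k _ hg (by rwa [orderOf_conj'])) card_cj), fun g c hg hc hd => ⟨conj_mem_N (N_le_N_C hg) hc, by rwa [orderOf_conj']⟩⟩
  rw [← cj_zpowers]; exact cj_mono (k c hc hd)

end Cfsg.Agent.S0843
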