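import Cfsg.Statements.S0844
import Cfsg.Agent.H9.Hv3

set_option autoImplicit false
open Cfsg

namespace Cfsg.Agent.S0844

open H5 H9 Subgroup

/-- Suppose a Sylow 2-subgroup S of the finite group G is generalized quaternion of order at least 16. Then G has two non-principal irreducible characters χ₁ and χ₂ with χ₁ 1 = χ₂ 1 + 1 such that χ₁ g - χ₂ g = 1 for every element g whose order is not divisible by 4. -/
theorem result {G : Type*} [Group G] [Fintype G] (S : Sylow 2 G) (n : ℕ) (e : (S : Subgroup G) ≃* QuaternionGroup (2 ^ (n + 2))) : ∃ χ₁ χ₂ : G → ℂ, Cfsg.IsIrrCharacter G χ₁ ∧ Cfsg.IsIrrCharacter G χ₂ ∧ χ₁ ≠ (fun _ => 1) ∧ χ₂ ≠ (fun _ => 1) ∧ χ₁ 1 = χ₂ 1 + 1 ∧ ∀ g : G, ¬ 4 ∣ orderOf g → χ₁ g - χ₂ g = 1 := by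
  obtain ⟨x, y, h⟩ := exists_qData (by positivity) e
  obtain ⟨θ, h1, h2, h3, h4⟩ := exists_theta16 h (Dvd.intro_left (2 ^ n) (by ring))
  obtain ⟨α, β, hα, hβ, -, a1, b1, rfl⟩ := exists_norm_three h1 h2 h3
  have ne : ∀ χ : G → ℂ, classInner χ (fun _ => 1) = 0 → χ ≠ (fun _ => 1) ∧ -χ ≠ fun _ => 1 := fun χ h0 =>
    ⟨fun e => by rw [e, isIrrCharacter_one.classInner_self] at h0; exact one_ne_zero h0, fun e => by
      rw [neg_eq_iff_eq_neg.1 e, classInner_neg_left, isIrrCharacter_one.classInner_self] at h0; simp at h0⟩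
  have v : ∀ g, ¬ 4 ∣ orderOf g → 1 + α g + β g = 0 := h4
  have v1 := v 1 (by simp)
  rcases hα with ha | ha <;> rcases hβ with hb | hb
  · obtain ⟨a, -, ea⟩ := ha.exists_apply_one
    obtain ⟨b, -, eb⟩ := hb.exists_apply_one
    rw [ea, eb] at v1; norm_cast at v1; omega
  · exact ⟨-β, α, hb, ha, (ne _ b1).2, (ne _ a1).1, by rw [Pi.neg_apply]; linear_combination -v1,
      fun g hg => by rw [Pi.neg_apply]; linear_combination -v g hg⟩
  · exact ⟨-α, β, ha, hb, (ne _ a1).2, (ne _ b1).1, by rw [Pi.neg_apply]; linear_combination -v1,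
      fun g hg => by rw [Pi.neg_apply]; linear_combination -v g hg⟩
  · obtain ⟨a, pa, ea⟩ := ha.exists_apply_one
    obtain ⟨b, pb, eb⟩ := hb.exists_apply_one
    have : (a + b : ℂ) = 1 := by rw [← ea, ← eb, Pi.neg_apply, Pi.neg_apply]; linear_combination -v1
    norm_cast at this; omega

end Cfsg.Agent.S0844
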