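import Cfsg.Statements.S0845
import Cfsg.Agent.H9.Hv3

set_option autoImplicit false
open Cfsg

namespace Cfsg.Agent.S0845

open H18 H9 Subgroup

/-- Suppose a Sylow 2-subgroup S of the finite group G is generalized quaternion of order at least 16. Then G has a normal subgroup M of even order such that G / M is non-abelian, that is, M does not contain the commutator subgroup of G. -/
theorem result {G : Type*} [Group G] [Finite G] (S : Sylow 2 G) (n : ℕ) (e : (S : Subgroup G) ≃* QuaternionGroup (2 ^ (n + 2))) : ∃ M : Subgroup G, M.Normal ∧ Even (Nat.card M) ∧ ¬ commutator G ≤ M := by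
  obtain ⟨x, y, h⟩ := exists_qData (by positivity) e
  have m := QData.mc (k := n + 1) h
  obtain ⟨n1, n2⟩ := core_sup h.isolated
  refine ⟨_, n1, even_card_of_involution_mem (mem_sup_right (mem_zpowers _)) h.orderOf_u, fun hc => ?_⟩
  have := n2.card_dvd ((m.commutator_eq.ge.trans (commutator_mono le_top le_top)).trans hc)
    ((hall_sylow_top Nat.prime_two S).pi.of_le (m.sq_le.trans m.zpowers_le))
  rw [card_zpowers', card_zpowers', h.orderOf_u, m.orderOf_sq] at this
  have := Nat.le_of_dvd two_pos this
  have := Nat.one_le_two_pow (n := n)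
  omega

end Cfsg.Agent.S0845
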