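import Cfsg.Statements.S0846
import Cfsg.Agent.H9.Hv3

set_option autoImplicit false
open Cfsg

namespace Cfsg.Agent.S0846

open H18 H9 Subgroup

/-- Suppose a Sylow 2-subgroup S of the finite group G is generalized quaternion of order at least 16. Then every Sylow 2-subgroup of the subgroup generated by the involutions of G is cyclic. -/
theorem result {G : Type*} [Group G] [Finite G] (S : Sylow 2 G) (n : ℕ) (e : (S : Subgroup G) ≃* QuaternionGroup (2 ^ (n + 2))) (Q : Sylow 2 ↥(Subgroup.closure {g : G | orderOf g = 2})) : IsCyclic Q := by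
  obtain ⟨x, y, h⟩ := exists_qData (by positivity) e
  obtain ⟨n1, n2⟩ := core_sup h.isolated
  have := n2.card_dvd ((map_subtype_le (Q : Subgroup (closure {g : G | orderOf g = 2}))).trans ((closure_le _).2
    fun g hg => by
      obtain ⟨c, rfl⟩ := isConj_iff.1 (h.isConj_u hg).symm
      exact n1.conj_mem _ (mem_sup_right (mem_zpowers _)) c)) (piGrp_of_isPGroup Nat.prime_two (Q.isPGroup'.map _))
  rw [card_zpowers', h.orderOf_u, card_map_subtype] at this
  exact isCyclic_of_card_dvd_prime this

end Cfsg.Agent.S0846
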