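import Cfsg.Statements.S0848
import Cfsg.Agent.H2.BSWCor
import Cfsg.Agent.H10.PSL2Max

set_option autoImplicit false
open Cfsg

namespace Cfsg.Agent.S0848

/-- If a finite group equals its own commutator subgroup and contains an involution whose centralizer is isomorphic to the dihedral group of order 8, then the group has order 168 or 360. -/
theorem result {G : Type*} [Group G] [Finite G] (hperf : commutator G = ⊤) (t : G) (ht : orderOf t = 2) (e : Subgroup.centralizer ({t} : Set G) ≃* DihedralGroup 4) : Nat.card G = 168 ∨ Nat.card G = 360 := by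
  obtain ⟨x, y, hx, h⟩ := H2.exists_dihC_eight ht e
  rcases H2.psl_of_eight h hx (fun M hM => by
    have h1 : commutator G ≤ M := Subgroup.commutator_le.2 fun a _ b _ => by
      rw [commutatorElement_def, Subgroup.mul_mem_iff_of_index_two hM, Subgroup.mul_mem_iff_of_index_two hM,
        Subgroup.mul_mem_iff_of_index_two hM, inv_mem_iff, inv_mem_iff]
      tauto
    rw [hperf, top_le_iff] at h1
    simp [h1] at hM) with ⟨⟨e⟩⟩ | ⟨F, _, _, hF, ⟨e⟩⟩
  · right; rw [Nat.card_congr e.toEquiv, nat_card_alternatingGroup]; simp; rfl
  · left; rw [Nat.card_congr e.toEquiv]; exact H10.card_PSL2_of 168 hF rfl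

end Cfsg.Agent.S0848
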