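import Cfsg.Statements.S0849
import Cfsg.Agent.H6.Ind

set_option autoImplicit false
open Cfsg


namespace Cfsg.Agent.S0849

open H5

/-- Let H be a subgroup of a finite group G and S a subset of H that is mapped to itself under conjugation by H, is disjoint from its conjugate by any element outside H, and is closed under inverses. Let φ be a class function of H vanishing on H away from S, and let u, v be involutions of G. Then the sum of the induced function of φ over all products a * b with a conjugate to u and b conjugate to v equals the index of H times the sum of φ (a * b) over such pairs with a and b in H. -/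
theorem result {G : Type*} [Group G] [Fintype G] (H : Subgroup G) (S : Set G) (hSH : S ⊆ H) (hHS : ∀ h ∈ H, ∀ s ∈ S, h * s * h⁻¹ ∈ S) (hTI : ∀ g : G, g ∉ H → ∀ s ∈ S, g * s * g⁻¹ ∉ S) (hinv : ∀ s ∈ S, s⁻¹ ∈ S) (φ : H → ℂ) (hφ : Cfsg.IsClassFunction H φ) (hφS : ∀ x : H, (x : G) ∉ S → φ x = 0) (u v : G) (hu : orderOf u = 2) (hv : orderOf v = 2) : ∑ᶠ p ∈ {p : G × G | IsConj u p.1 ∧ IsConj v p.2}, Cfsg.indFun H φ (p.1 * p.2) = (H.index : ℂ) * ∑ᶠ p ∈ {p : H × H | IsConj u (p.1 : G) ∧ IsConj v (p.2 : G)}, φ (p.1 * p.2) := by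
  classical
  have hu2 : ∀ {w a : G}, orderOf w = 2 → IsConj w a → a * a = 1 := fun {w a} hw h => by
    obtain ⟨c, rfl⟩ := isConj_iff.1 h
    rw [conj_mul, ← pow_two, ← hw, pow_orderOf_eq_one]; simp
  let T : Finset (G × G) := Finset.univ.filter fun p => IsConj u p.1 ∧ IsConj v p.2
  let T' : Finset (H × H) := Finset.univ.filter fun p => IsConj u (p.1 : G) ∧ IsConj v (p.2 : G)
  rw [finsum_mem_eq_finite_toFinset_sum _ (Set.toFinite _), finsum_mem_eq_finite_toFinset_sum _ (Set.toFinite _),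
    show (Set.toFinite {p : G × G | IsConj u p.1 ∧ IsConj v p.2}).toFinset = T by ext; simp [T],
    show (Set.toFinite {p : H × H | IsConj u (p.1 : G) ∧ IsConj v (p.2 : G)}).toFinset = T' by ext; simp [T']]
  have h1 : ∀ x : G, ∑ p ∈ T, extendByZero H φ (x * (p.1 * p.2) * x⁻¹) = ∑ p ∈ T, extendByZero H φ (p.1 * p.2) :=
    fun x => Finset.sum_equiv ((MulAut.conj x).toEquiv.prodCongr (MulAut.conj x).toEquiv) (fun p => by
      simp only [T, Finset.mem_filter, Finset.mem_univ, true_and]
      have k : ∀ w a : G, IsConj w a ↔ IsConj w (x * a * x⁻¹) := fun w a =>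
        ⟨fun h => h.trans (isConj_iff.2 ⟨x, rfl⟩), fun h => h.trans (isConj_iff.2 ⟨x, rfl⟩).symm⟩
      exact and_congr (k u p.1) (k v p.2)) fun p _ => by simp
  have h2 : ∑ p ∈ T, extendByZero H φ (p.1 * p.2) = ∑ p ∈ T', φ (p.1 * p.2) := by
    symm
    refine Finset.sum_of_injOn (fun p : H × H => ((p.1 : G), (p.2 : G))) (fun p _ q _ h => ?_) (fun p hp => ?_)
      (fun p hp hn => ?_) fun p _ => (H6.ebz_coe H φ _).symm
    · exact Prod.ext (Subtype.ext (congrArg Prod.fst h)) (Subtype.ext (congrArg Prod.snd h))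
    · simpa [T, T'] using hp
    · rw [H6.ebz_apply]
      split_ifs with k
      · refine hφS _ fun ks => hn ?_
        obtain ⟨a1, a2⟩ := (Finset.mem_filter.1 hp).2
        have m : p.1 ∈ H := by_contra fun m => hTI _ m _ ks (by
          have := hinv _ ks
          rwa [mul_inv_rev, inv_eq_of_mul_eq_one_right (hu2 hv a2), ← one_mul p.2, ← hu2 hu a1, mul_assoc p.1 p.1] at this)
        exact ⟨(⟨p.1, m⟩, ⟨p.2, (mul_mem_cancel_left m).1 k⟩), Finset.mem_coe.2 (Finset.mem_filter.2 ⟨Finset.mem_univ _, a1, a2⟩), rfl⟩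
      · rfl
  simp only [H6.ind_apply']
  rw [← Finset.mul_sum, Finset.sum_comm, Finset.sum_congr rfl fun x _ => h1 x, h2, Finset.sum_const, Finset.card_univ,
    ← Nat.card_eq_fintype_card, ← H.card_mul_index, nsmul_eq_mul, Nat.cast_mul, mul_assoc, ← mul_assoc,
    inv_mul_cancel₀ (H6.card_ne_zero H), one_mul]

end Cfsg.Agent.S0849
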