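import Cfsg.Statements.S0850
import Cfsg.Agent.S0588
import Cfsg.Agent.H5.TI

set_option autoImplicit false
open Cfsg

namespace Cfsg.Agent.S0850

open H18 H5 Subgroup

/-- Let K be a subgroup of the finite group G that meets each conjugate by an element outside its normalizer N trivially, is properly contained in N, and contains the centralizer of each of its non-identity elements (a T.I. subgroup with Frobenius normalizer). Then no element of N outside K is conjugate in G to an element of K, and for every class function ϑ of N that vanishes on N away from K and at the identity, the function induced from ϑ to G agrees with ϑ on all of N. -/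
theorem result {G : Type*} [Group G] [Fintype G] (K : Subgroup G) (hTI : ∀ g : G, g ∉ Subgroup.normalizer (K : Set G) → ∀ k ∈ K, g * k * g⁻¹ ∈ K → k = 1) (hlt : K < Subgroup.normalizer (K : Set G)) (hC : ∀ k ∈ K, k ≠ 1 → Subgroup.centralizer ({k} : Set G) ≤ K) : (∀ x ∈ Subgroup.normalizer (K : Set G), x ∉ K → ∀ g : G, g * x * g⁻¹ ∉ K) ∧ ∀ (ϑ : Subgroup.normalizer (K : Set G) → ℂ), Cfsg.IsClassFunction (Subgroup.normalizer (K : Set G)) ϑ → (∀ x : Subgroup.normalizer (K : Set G), (x : G) ∉ K → ϑ x = 0) → ϑ 1 = 0 → ∀ x : Subgroup.normalizer (K : Set G), Cfsg.indFun (Subgroup.normalizer (K : Set G)) ϑ x = ϑ x := by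
  have h1 : ∀ x ∈ N(K), x ∉ K → ∀ g : G, g * x * g⁻¹ ∉ K := fun x hx hK g hg => hK (by
    have h2 : (orderOf x).Coprime (K.relIndex N(K)) :=
      ((Cfsg.Agent.S0588.result K hC).coprime_dvd_left (by
        simpa using (MulAut.conj g).orderOf_eq x ▸ orderOf_dvd_natCard K hg)).coprime_dvd_right
        (relIndex_dvd_index_of_le le_N)
    have h3 : (⟨x, hx⟩ : N(K)) ^ K.relIndex N(K) ∈ K.subgroupOf N(K) := pow_index_mem _ _
    obtain ⟨m, hm⟩ := exists_pow_eq_self_of_coprime h2.symm
    exact hm ▸ pow_mem h3 m)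
  refine ⟨h1, fun ϑ hc h2 h3 x => ?_⟩
  have h4 : ∀ y : N(K), ϑ y ≠ 0 → (y : G) ∈ K ∧ (y : G) ≠ 1 := fun y hy =>
    ⟨by_contra fun e => hy (h2 y e), fun e => hy (h3 ▸ congrArg ϑ (Subtype.ext e))⟩
  refine indFun_apply_of_TI _ hc x fun g hg h5 => by_contra fun h6 => ?_
  have h7 : (x : G) ∈ K := by_contra fun e => h1 x x.2 e g (h4 _ h5).1
  exact (h4 _ h5).2 (by simp [hTI g h6 x h7 (h4 _ h5).1])

end Cfsg.Agent.S0850
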