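import Cfsg.Statements.S0851
import Cfsg.Agent.H23.TIF

set_option autoImplicit false
open Cfsg

namespace Cfsg.Agent.S0851

open H18 H19 H5 H23 Subgroup

/-- Let K be a subgroup of the finite group G that meets each conjugate by an element outside its normalizer N trivially, is properly contained in N, and contains the centralizer of each of its non-identity elements (a T.I. subgroup with Frobenius normalizer). Suppose K is abelian, let e be the index of K in N, and call an irreducible character of N relevant when it takes at some element of K a value different from its degree. Then either there is exactly one relevant character and K is an elementary abelian p-group of order e + 1 for some prime p, or there are a sign ε and an injective map f from the relevant characters to the irreducible characters of G such that inducing χ - ξ to G gives ε (f χ - f ξ) for all relevant χ and ξ. -/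
theorem result {G : Type*} [Group G] [Fintype G] (K : Subgroup G) (hTI : ∀ g : G, g ∉ Subgroup.normalizer (K : Set G) → ∀ k ∈ K, g * k * g⁻¹ ∈ K → k = 1) (hlt : K < Subgroup.normalizer (K : Set G)) (hC : ∀ k ∈ K, k ≠ 1 → Subgroup.centralizer ({k} : Set G) ≤ K) (hab : ∀ a ∈ K, ∀ b ∈ K, a * b = b * a) : (Nat.card {χ : Cfsg.IrrCharacter (Subgroup.normalizer (K : Set G)) // ∃ k : Subgroup.normalizer (K : Set G), (k : G) ∈ K ∧ (χ : ↥(Subgroup.normalizer (K : Set G)) → ℂ) k ≠ (χ : ↥(Subgroup.normalizer (K : Set G)) → ℂ) 1} = 1 ∧ ∃ p : ℕ, p.Prime ∧ Cfsg.IsElementaryAbelian p K ∧ Nat.card K = (K.subgroupOf (Subgroup.normalizer (K : Set G))).index + 1) ∨ ∃ (ε : ℂ) (f : {χ : Cfsg.IrrCharacter (Subgroup.normalizer (K : Set G)) // ∃ k : Subgroup.normalizer (K : Set G), (k : G) ∈ K ∧ (χ : ↥(Subgroup.normalizer (K : Set G)) → ℂ) k ≠ (χ : ↥(Subgroup.normalizer (K : Set G)) → ℂ) 1} → Cfsg.IrrCharacter G), (ε = 1 ∨ ε = -1) ∧ Function.Injective f ∧ ∀ χ ξ, Cfsg.indFun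 (Subgroup.normalizer (K : Set G)) ((χ.1 : ↥(Subgroup.normalizer (K : Set G)) → ℂ) - (ξ.1 : ↥(Subgroup.normalizer (K : Set G)) → ℂ)) = ε • ((f χ : G → ℂ) - (f ξ : G → ℂ)) := by
  have := Fintype.ofFinite N(K)
  refine .inr ?_
  generalize_proofs
  rcases isEmpty_or_nonempty {χ : IrrCharacter N(K) // ∃ k : N(K), (k : G) ∈ K ∧ (χ : N(K) → ℂ) k ≠ (χ : N(K) → ℂ) 1}
    with e | ⟨⟨i₀⟩⟩
  · exact ⟨1, isEmptyElim, .inl rfl, isEmptyElim, isEmptyElim⟩
  have h1 : ∀ i : {χ : IrrCharacter N(K) // ∃ k : N(K), (k : G) ∈ K ∧ (χ : N(K) → ℂ) k ≠ (χ : N(K) → ℂ) 1},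
      i.1.1 ∈ irrKerD ⊤ (K.subgroupOf N(K)) ⊥ := fun i => mem_irrKerD_top.2 ⟨i.1.2, i.2⟩
  have h2 : ∀ χ ∈ irrKerD ⊤ (K.subgroupOf N(K)) ⊥, χ 1 = (K.subgroupOf N(K)).relIndex ⊤ := fun χ h => by
    obtain ⟨θ, hθ, -, rfl⟩ := tif_ind hC h
    rw [ind_one le_top, irr_apply_one_of_comm hθ fun a ha b hb => Subtype.ext (hab a ha b hb), mul_one]
  have h3 := fun i j => sub_mem_zs1 (h1 i) (h1 j) ((h2 _ (h1 i)).trans (h2 _ (h1 j)).symm)
  obtain ⟨ε, h4, μ, h5, h6, h7⟩ := exists_exceptional i₀ (fun i => indFun N(K) (i.1.1 - i₀.1.1)) (by simp)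
    (fun i => (i.1.2.isGen.sub i₀.1.2.isGen).indFun) (fun i => by rw [indFun_apply_one, (h3 i i₀).2, mul_zero])
    fun i j hi hj => by
      have ne : ∀ {i j : {χ : IrrCharacter N(K) // ∃ k : N(K), (k : G) ∈ K ∧ (χ : N(K) → ℂ) k ≠ (χ : N(K) → ℂ) 1}},
          i ≠ j → ip ⊤ i.1.1 j.1.1 = 0 := fun {i j} h => ip_irr_ne (irrKerD_subset (h1 i)) (irrKerD_subset (h1 j))
        fun e => h (Subtype.ext (Subtype.ext e))
      rw [← ip_top, ip_indFun (mem_cf_top.2 (isClassFunction_indFun _ _)), tif_res hTI hlt hC (h3 i i₀), ip_sub_left,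
        ip_sub_right, ip_sub_right, ne hi, ne hj.symm, ip_irr_self (irrKerD_subset (h1 i₀))]
      split_ifs with e
      · rw [e, ip_irr_self (irrKerD_subset (h1 j))]; norm_num
      · rw [ne e]; norm_num
  refine ⟨ε, fun i => ⟨μ i, h5 i⟩, h4, fun i j e => h6 (congrArg Subtype.val e), fun i j => ?_⟩
  rw [← sub_sub_sub_cancel_right _ _ i₀.1.1, indFun_sub, h7, h7, ← smul_sub, sub_sub_sub_cancel_right]

end Cfsg.Agent.S0851
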