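import Cfsg.Statements.S0852
import Cfsg.Agent.H23.TIF

set_option autoImplicit false
open Cfsg

namespace Cfsg.Agent.S0852

open H18 H19 H5 H23 Subgroup

/-- Let K be a subgroup of the finite group G that meets each conjugate by an element outside its normalizer N trivially, is properly contained in N, and contains the centralizer of each of its non-identity elements (a T.I. subgroup with Frobenius normalizer). Let S be the set of irreducible characters of N taking at some element of K a value different from their degree, suppose S has at least two members, and let star be a linear isometry on the integer span of S into the generalized characters of G that agrees with induction on the members vanishing at the identity (so S is coherent, with star as the extending isometry). Then an irreducible character ψ of G is of the form star χ or -star χ for some χ in S if and only if ψ is not constant on the non-identity elements of K. -/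
theorem result {G : Type*} [Group G] [Fintype G] (K : Subgroup G) (hTI : ∀ g : G, g ∉ Subgroup.normalizer (K : Set G) → ∀ k ∈ K, g * k * g⁻¹ ∈ K → k = 1) (hlt : K < Subgroup.normalizer (K : Set G)) (hC : ∀ k ∈ K, k ≠ 1 → Subgroup.centralizer ({k} : Set G) ≤ K) [Fintype ↥(Subgroup.normalizer (K : Set G))] (S : Set (↥(Subgroup.normalizer (K : Set G)) → ℂ)) (hS : S = {χ : ↥(Subgroup.normalizer (K : Set G)) → ℂ | Cfsg.IsIrrCharacter ↥(Subgroup.normalizer (K : Set G)) χ ∧ ∃ k : ↥(Subgroup.normalizer (K : Set G)), (k : G) ∈ K ∧ χ k ≠ χ 1}) (htwo : ∃ χ ∈ S, ∃ ξ ∈ S, χ ≠ ξ) (star : (↥(Subgroup.normalizer (K : Set G)) → ℂ) → (G → ℂ)) (hstar : Cfsg.IsLinearIsometryOn (Cfsg.zspan S) star) (hext : ∀ α ∈ Cfsg.zspanOn S ({1}ᶜ : Set ↥(Subgroup.normalizer (K : Set G))), star α = Cfsg.indFun (Subgroup.normalizer (K : Set G)) α) (ψ : G → ℂ) (hψ : Cfsg.IsIrrCharacter G ψ) : (∃ χ ∈ S, ψ = star χ ∨ ψ = -star χ) ↔ ∃ a ∈ K, ∃ b ∈ K, a ≠ 1 ∧ b ≠ 1 ∧ ψ a ≠ ψ b := by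
  obtain ⟨rfl, ν, h1, h2⟩ := tif_setup hS hstar hext
  have hψ' := mem_irr_top.2 hψ
  have hc := cf_of_irr hψ'
  have hr : (fun x : N(K) => ψ x) ∈ cf ⊤ := mem_cf_top.2 fun x g => hc.2 g (mem_top _) x
  refine ⟨fun ⟨χ, hχ, e⟩ => by_contra fun h3 => ?_, fun ⟨a, ha, b, hb, a1, b1, e⟩ => by_contra fun h3 => e ?_⟩
  · obtain ⟨ξ, hξ, ne⟩ : ∃ ξ ∈ irrKerD ⊤ (K.subgroupOf N(K)) ⊥, χ ≠ ξ := by
      obtain ⟨a, ha, b, hb, ne⟩ := htwo
      by_cases e : χ = a
      · exact ⟨b, hb, e ▸ ne⟩
      · exact ⟨a, ha, e⟩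
    have i1 := irrKerD_subset hχ
    have i2 := irrKerD_subset hξ
    have h4 := cross_mem_zs1 (mem_zs_of_mem hχ) (mem_zs_of_mem hξ) (vchar_of_irr i1) (vchar_of_irr i2)
    have h5 := h1.isom.ip_eq _ (mem_zs_of_mem hχ) _ h4.1
    obtain ⟨k, hk, h6⟩ := (mem_irrKerD_top.1 hχ).2
    have h7 : ip ⊤ ψ (ν (ξ 1 • χ - χ 1 • ξ)) = 0 := by
      rw [h1.eq _ h4, indLin_apply, ip_indFun hc, ← ip_conj, ip_congr _ (ψ' := ψ k • triv ⊤) fun x hx => by
        simp only [Pi.smul_apply, triv_of_mem (mem_top _), smul_eq_mul, mul_one]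
        exact by_contra fun e => h3 ⟨x, by_contra fun e => hx (tif_supp hC h4.1 x e), k, hk,
          fun e => hx (by rw [show x = 1 from Subtype.ext e]; exact h4.2),
          fun e => h6 (by rw [show k = 1 from Subtype.ext e]), e⟩]
      rw [ip_smul_right, ip_sub_left, ip_smul_left, ip_smul_left,
        ip_irr_ne i1 (triv_mem_irr _) (ne_triv_of_mem_irrKerD le_top hχ),
        ip_irr_ne i2 (triv_mem_irr _) (ne_triv_of_mem_irrKerD le_top hξ)]
      simp
    rw [h2 _ (mem_zs_of_mem hχ), ip_sub_right, ip_smul_right, ip_smul_right, ip_irr_self i1, ip_irr_ne i1 i2 ne] at h5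
    refine irr_apply_one_ne_zero i2 ?_
    rcases e with e | e
    · rw [← e, h7] at h5; simpa using h5.symm
    · rw [← neg_eq_iff_eq_neg.2 e, ip_neg_left, h7] at h5; simpa using h5.symm
  obtain ⟨d, hd⟩ := tif_const hr fun α hα => by
    rw [← ip_indFun hc, ← indLin_apply, ← h1.eq _ hα]
    refine zs_induction (P := fun α => ip ⊤ ψ (ν α) = 0) hα.1 (fun χ hχ => by_contra fun e => h3 ⟨χ, hχ, ?_⟩) (by simp)
      (fun a b h1 h2 => by simp [h1, h2]) fun n a h => by rw [map_zsmul, ip_zsmul_right, h, mul_zero]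
    exact h2 _ (mem_zs_of_mem hχ) ▸ (dirr_of_irr hψ').eq_or_eq_neg (h1.dirr hχ (irrKerD_subset hχ)) e
  exact (hd ⟨a, le_N ha⟩ ha fun e => a1 (congrArg Subtype.val e)).trans
    (hd ⟨b, le_N hb⟩ hb fun e => b1 (congrArg Subtype.val e)).symm

end Cfsg.Agent.S0852
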