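import Cfsg.Statements.S0853
import Cfsg.Agent.H23.TIF
import Cfsg.Agent.H19.Arith

set_option autoImplicit false
open Cfsg

namespace Cfsg.Agent.S0853

open H18 H19 H5 H23 Subgroup

/-- Let K be a subgroup of the finite group G that meets each conjugate by an element outside its normalizer N trivially, is properly contained in N, and contains the centralizer of each of its non-identity elements (a T.I. subgroup with Frobenius normalizer). Let S be the set of irreducible characters of N taking at some element of K a value different from their degree, suppose S has at least two members, and let star be a linear isometry on the integer span of S into the generalized characters of G that agrees with induction on the members vanishing at the identity (so S is coherent, with star as the extending isometry). Then there is a single integer m such that star χ k - χ k = m * χ 1 / e for every χ in S and every non-identity element k of K, where e is the index of K in N. -/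
theorem result {G : Type*} [Group G] [Fintype G] (K : Subgroup G) (hTI : ∀ g : G, g ∉ Subgroup.normalizer (K : Set G) → ∀ k ∈ K, g * k * g⁻¹ ∈ K → k = 1) (hlt : K < Subgroup.normalizer (K : Set G)) (hC : ∀ k ∈ K, k ≠ 1 → Subgroup.centralizer ({k} : Set G) ≤ K) [Fintype ↥(Subgroup.normalizer (K : Set G))] (S : Set (↥(Subgroup.normalizer (K : Set G)) → ℂ)) (hS : S = {χ : ↥(Subgroup.normalizer (K : Set G)) → ℂ | Cfsg.IsIrrCharacter ↥(Subgroup.normalizer (K : Set G)) χ ∧ ∃ k : ↥(Subgroup.normalizer (K : Set G)), (k : G) ∈ K ∧ χ k ≠ χ 1}) (htwo : ∃ χ ∈ S, ∃ ξ ∈ S, χ ≠ ξ) (star : (↥(Subgroup.normalizer (K : Set G)) → ℂ) → (G → ℂ)) (hstar : Cfsg.IsLinearIsometryOn (Cfsg.zspan S) star) (hext : ∀ α ∈ Cfsg.zspanOn S ({1}ᶜ : Set ↥(Subgroup.normalizer (K : Set G))), star α = Cfsg.indFun (Subgroup.normalizer (K : Set G)) α) : ∃ m : ℤ, ∀ χ ∈ S, ∀ k : ↥(Subgroup.normalizer (K : Set G)), (k : G) ∈ K → k ≠ 1 → star χ k - χ k = (m : ℂ) * χ 1 / ((K.subgroupOf (Subgroup.normalizer (K : Set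 G))).index : ℂ) := by
  obtain ⟨rfl, ν, h1, h2⟩ := tif_setup hS hstar hext
  obtain ⟨χ₁, hχ₁, -⟩ := htwo
  obtain ⟨k₁, hk₁, h3⟩ := (mem_irrKerD_top.1 hχ₁).2
  have k1 : k₁ ≠ 1 := fun e => h3 (e ▸ rfl)
  have hN := nil_of_cent nml_sub (fun e => hlt.ne (le_antisymm le_N (subgroupOf_eq_top.1 e))) (tif_cent hC)
  obtain ⟨θ, hθ, -, t1, t2⟩ := exists_lin_irr (K := K.subgroupOf N(K)) (A := ⊥) ⟨bot_le, by simp⟩
    (by rw [sup_bot_eq]; exact hN.solv.der_lt (ne_bot_of_mem hk₁ k1))
  have h4 : ind (K.subgroupOf N(K)) ⊤ θ ∈ irrKerD ⊤ (K.subgroupOf N(K)) ⊥ :=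
    mem_irrKerD.2 ⟨ind_irr_of_cent nml_sub (tif_cent hC) hθ t1, bot_le, fun e => t1 ((irr_eq_triv_iff hθ).1
      ((sub_cfker_Ind_irr le_top nml_sub.norm le_rfl hθ).1 e))⟩
  set ξ := ind (K.subgroupOf N(K)) ⊤ θ with hξ
  have h5 : ξ 1 = (K.subgroupOf N(K)).index := by rw [hξ, ind_one le_top, t2, mul_one, relIndex_top_right]
  have i2 := irrKerD_subset h4
  have hv : ((fun x : N(K) => ν ξ x) - ξ) ∈ vchar ⊤ :=
    sub_mem (mem_vchar_top.2 ((mem_vchar_top.1 (h1.vchar h4)).restrict _)) (vchar_of_irr i2)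
  obtain ⟨d, hd⟩ := tif_const (cf_of_vchar hv) fun α hα => by
    rw [ip_sub_left, ← ip_indFun (cf_of_vchar (h1.vchar h4)), ← indLin_apply, ← h1.eq _ hα,
      h1.isom.ip_eq _ (mem_zs_of_mem h4) _ hα.1, sub_self]
  obtain ⟨m, hm⟩ := ip_int (sub_mem (triv_mem_vchar _) (vchar_of_irr hθ)) (res_mem_vchar le_top hv)
  rw [ip_congr _ (ψ' := d • triv (K.subgroupOf N(K))) (fun x hx => by
      have h6 : x ∈ K.subgroupOf N(K) := by_contra fun e => hx (by simp [e, irr_supp hθ x e])
      rw [res_of_mem _ h6, hd x h6 fun e => hx (by simp [e, t2])]; simp [h6]),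
    ip_smul_right, ip_sub_left, ip_triv_triv, ip_irr_ne hθ (triv_mem_irr _) t1, sub_zero, mul_one] at hm
  obtain rfl : d = m := by simpa using congrArg (starRingEnd ℂ) hm
  refine ⟨m, fun χ hχ k hk k1 => ?_⟩
  have i1 := irrKerD_subset hχ
  have h6 := cross_mem_zs1 (mem_zs_of_mem hχ) (mem_zs_of_mem h4) (vchar_of_irr i1) (vchar_of_irr i2)
  have h7 := congrFun (tif_res hTI hlt hC h6) k
  rw [← indLin_apply, ← h1.eq _ h6, map_sub, map_smul, map_smul, h2 _ (mem_zs_of_mem hχ)] at h7
  have h8 := hd k hk k1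
  simp only [Pi.sub_apply, Pi.smul_apply, smul_eq_mul] at h7 h8
  rw [← h5, eq_div_iff (irr_apply_one_ne_zero i2), ← h8]
  linear_combination h7

end Cfsg.Agent.S0853
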