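import Cfsg.Statements.S0855
import Cfsg.Agent.H6.Monomial

set_option autoImplicit false
open Cfsg

open H5 H6 Cfsg

namespace Cfsg.Agent.S0855

theorem aux.{u} (p : ℕ) (hp : p.Prime) (G : Type u) [Group G] [Finite G]
    (h : ∀ χ : IrrCharacter G, ∃ k : ℕ, (χ : G → ℂ) 1 = (p : ℂ) ^ k) :
    ∃ A : Subgroup G, A.Normal ∧ (∀ a ∈ A, ∀ b ∈ A, a * b = b * a) ∧
      Nat.Coprime (Nat.card A) p ∧ ∃ k : ℕ, A.index = p ^ k := by
  classical
  have := Fact.mk hp
  revert h
  refine H1.card_induction (P := fun G _ _ => (∀ χ : IrrCharacter G, ∃ k : ℕ, (χ : G → ℂ) 1 = (p : ℂ) ^ k) →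
    ∃ A : Subgroup G, A.Normal ∧ (∀ a ∈ A, ∀ b ∈ A, a * b = b * a) ∧
      Nat.Coprime (Nat.card A) p ∧ ∃ k : ℕ, A.index = p ^ k) ?_ G
  intro G _ _ ih h
  have := Fintype.ofFinite G
  choose k hk using h
  have hd : ∀ χ : IrrCharacter G, charDegree (χ : G → ℂ) = p ^ k χ := fun χ =>
    charDegree_eq_of_apply_one (by rw [hk]; simp)
  by_cases hG : p ∣ Nat.card G
  swap
  · refine ⟨⊤, inferInstance, fun a _ b _ => forall_irr_degree_one_iff.mp (fun χ => ?_) a b,
      by simpa using ((Nat.Prime.coprime_iff_not_dvd hp).mpr hG).symm, 0, by simp⟩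
    have h1 := χ.2.charDegree_dvd_card
    rw [hd] at h1
    rcases Nat.eq_zero_or_pos (k χ) with h2 | h2
    · rw [hk, h2, pow_zero]
    · exact absurd ((dvd_pow_self p h2.ne').trans h1) hG
  have h1 : p ∣ (commutator G).index := by
    have h2 := sum_sq_degrees (G := G)
    have h3 : ∑ χ : IrrCharacter G, (p ^ k χ) ^ 2 = Nat.card G := by
      simp only [hk] at h2; exact_mod_cast h2
    rw [← Finset.sum_filter_add_sum_filter_not _ (fun χ : IrrCharacter G => (χ : G → ℂ) 1 = 1)] at h3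
    have h4 : p ∣ ∑ χ ∈ Finset.univ.filter (fun χ : IrrCharacter G => ¬ (χ : G → ℂ) 1 = 1), (p ^ k χ) ^ 2 := by
      refine Finset.dvd_sum fun χ hχ => dvd_pow (dvd_pow_self p fun h0 => ?_) two_ne_zero
      exact (Finset.mem_filter.mp hχ).2 (by rw [hk, h0, pow_zero])
    rw [← h3, Nat.dvd_add_left h4] at hG
    rw [← card_linear_irr, Nat.card_eq_fintype_card, Fintype.card_subtype, Finset.card_eq_sum_ones]
    convert hG using 2 with χ hχ
    have h5 := (Finset.mem_filter.mp hχ).2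
    rw [← hd, χ.2.isCharacter.charDegree_eq_one_iff.mpr h5, one_pow]
  obtain ⟨x, hx⟩ := exists_prime_orderOf_dvd_card' (G := Abelianization G) p h1
  let R := (powMonoidHom p : Abelianization G →* Abelianization G).range
  let N := R.comap (Abelianization.of : G →* Abelianization G)
  have hsurj : Function.Surjective (Abelianization.of : G →* Abelianization G) :=
    QuotientGroup.mk_surjective
  have hN : N ≠ ⊤ := by
    intro hN
    have hR : R = ⊤ := by
      rw [← Subgroup.map_comap_eq_self_of_surjective hsurj R]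
      change N.map _ = ⊤
      rw [hN, Subgroup.map_top_of_surjective _ hsurj]
    have hinj := Finite.injective_iff_surjective.mpr (MonoidHom.range_eq_top.mp hR)
    have : x = 1 := hinj (by simp [← hx])
    rw [this, orderOf_one] at hx
    exact hp.one_lt.ne hx
  obtain ⟨j, hj⟩ : ∃ j, N.index = p ^ j := by
    rw [Subgroup.index_comap_of_surjective _ hsurj]
    refine (IsPGroup.iff_card (G := Abelianization G ⧸ R)).mp fun y => ⟨1, ?_⟩
    obtain ⟨y, rfl⟩ := QuotientGroup.mk_surjective y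
    rw [pow_one, ← QuotientGroup.mk_pow, QuotientGroup.eq_one_iff]
    exact ⟨y, rfl⟩
  obtain ⟨A, hA, hab, hcop, i, hi⟩ := ih N (H1.card_lt_of_ne_top hN) (fun θ => by
    obtain ⟨χ, hχ, hχθ⟩ := exists_irr_over θ.2
    obtain ⟨b, -, hb⟩ := degree_ratio_dvd θ.2 hχ hχθ
    rw [show χ 1 = _ from hk ⟨χ, hχ⟩, ← θ.2.coe_charDegree] at hb
    have h5 : charDegree (θ : N → ℂ) ∣ p ^ k ⟨χ, hχ⟩ := Dvd.intro_left b (by exact_mod_cast hb.symm)
    obtain ⟨l, -, hl⟩ := (Nat.dvd_prime_pow hp).mp h5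
    exact ⟨l, by rw [← θ.2.coe_charDegree, hl]; simp⟩)
  have hchar : A.Characteristic := by
    refine Subgroup.characteristic_iff_map_le.mpr fun φ => H1.le_of_coprime_index ?_
    rw [hi, Subgroup.card_map_of_injective φ.injective]
    exact hcop.pow_right i
  refine ⟨A.map N.subtype, inferInstance, ?_, ?_, i + j, ?_⟩
  · rintro _ ⟨a, ha, rfl⟩ _ ⟨b, hb, rfl⟩
    exact congrArg Subtype.val (hab a ha b hb)
  · rwa [Subgroup.card_map_of_injective N.subtype_injective]
  · rw [Subgroup.index_map_subtype, hi, hj, pow_add]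

/-- For a finite group G and a prime p: every irreducible character of G has degree a power of p if and only if G has an abelian normal subgroup whose order is prime to p and whose index is a power of p. -/
theorem result {G : Type*} [Group G] [Finite G] (p : ℕ) (hp : p.Prime) : (∀ χ : Cfsg.IrrCharacter G, ∃ k : ℕ, (χ : G → ℂ) 1 = (p : ℂ) ^ k) ↔ ∃ A : Subgroup G, A.Normal ∧ (∀ a ∈ A, ∀ b ∈ A, a * b = b * a) ∧ Nat.Coprime (Nat.card A) p ∧ ∃ k : ℕ, A.index = p ^ k := by
  refine ⟨aux p hp G, ?_⟩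
  rintro ⟨A, hA, hab, -, k, hk⟩ χ
  obtain ⟨l, -, hl⟩ := (Nat.dvd_prime_pow hp).mp (hk ▸ ito_degree_dvd A hab χ.2)
  exact ⟨l, by rw [← χ.2.coe_charDegree, hl]; simp⟩

end Cfsg.Agent.S0855
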