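import Cfsg.Statements.S0858
import Cfsg.Agent.H6.Monomial

set_option autoImplicit false
open Cfsg

open H5 H6 Cfsg

namespace Cfsg.Agent.S0858

theorem aux.{u} (G : Type u) [Group G] [Fintype G] (N : Subgroup G) [N.Normal] (hsolv : Group.IsSolvable (G ⧸ N)) (hchief : ∀ (H K L : Subgroup G), N ≤ L → L < K → K ≤ H → (∀ h ∈ H, ∀ k ∈ K, h * k * h⁻¹ ∈ K) → (∀ h ∈ H, ∀ l ∈ L, h * l * h⁻¹ ∈ L) → (∀ M : Subgroup G, L ≤ M → M ≤ K → (∀ h ∈ H, ∀ m ∈ M, h * m * h⁻¹ ∈ M) → M = L ∨ M = K) → ¬ IsSquare (L.relIndex K)) (χ : G → ℂ) (hχ : Cfsg.IsIrrCharacter G χ) : ∃ (H : Subgroup G) (hNH : N ≤ H) (ψ : H → ℂ), Cfsg.IsIrrCharacter H ψ ∧ Cfsg.indFun H ψ = χ ∧ Cfsg.IsIrrCharacter N (fun n : N => ψ ⟨(n : G), hNH n.2⟩) := by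
  classical
  induction' h : Nat.card G using Nat.strong_induction_on with n ih generalizing G
  have htop : IsIrrCharacter (⊤ : Subgroup G) (fun x => χ x) := hχ.comp_equiv Subgroup.topEquiv
  by_cases hN : IsIrrCharacter N (fun n : N => χ n)
  · exact ⟨⊤, le_top, fun x => χ x, htop, indFun_top hχ.isClassFunction, hN⟩
  obtain ⟨K, ⟨hK, hNK, hKirr⟩, hKmin⟩ := (wellFounded_lt (α := Subgroup G)).has_min
    {K | K.Normal ∧ N ≤ K ∧ IsIrrCharacter K (fun n : K => χ n)} ⟨⊤, inferInstance, le_top, htop⟩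
  have hNK' : N < K := lt_of_le_of_ne hNK (by rintro rfl; exact hN hKirr)
  obtain ⟨L, ⟨hL, hNL, hLK⟩, hLmax⟩ := (wellFounded_gt (α := Subgroup G)).has_min
    {L | L.Normal ∧ N ≤ L ∧ L < K} ⟨N, inferInstance, le_rfl, hNK'⟩
  have hch : ∀ M : Subgroup G, M.Normal → L ≤ M → M ≤ K → M = L ∨ M = K := by
    intro M hM h1 h2
    by_contra hne
    push Not at hne
    exact hLmax M ⟨hM, hNL.trans h1, lt_of_le_of_ne h2 hne.2⟩ (lt_of_le_of_ne h1 hne.1.symm)
  have hab : ⁅K, K⁆ ≤ L := by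
    rcases hch (⁅K, K⁆ ⊔ L) inferInstance le_sup_right
      (sup_le (Subgroup.commutator_le_left _ _) hLK.le) with h1 | h1
    · exact le_sup_left.trans h1.le
    · exfalso
      have : Group.IsSolvable (G ⧸ L) := Group.isSolvable_of_surjective
        (f := QuotientGroup.map N L (MonoidHom.id G) hNL)
        (fun y => by obtain ⟨y, rfl⟩ := QuotientGroup.mk_surjective y; exact ⟨y, rfl⟩)
      have h2 := H1.commutator_lt_of_isSolvable (H := K.map (QuotientGroup.mk' L))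
        (fun h => hLK.2 ((H1.map_mk'_eq_bot_iff L K).mp h))
      rw [← Subgroup.map_commutator] at h2
      have h3 := congrArg (Subgroup.map (QuotientGroup.mk' L)) h1
      rw [Subgroup.map_sup, (H1.map_mk'_eq_bot_iff L L).mpr le_rfl, sup_bot_eq] at h3
      exact h2.ne h3
  rcases going_down K L hLK.le hch hab hKirr (cj_res hχ.isClassFunction) with h1 | h1 | h1
  · exact absurd hLK (hKmin L ⟨hL, hNL, h1⟩)
  · obtain ⟨φ, e, -, -, he⟩ := h1
    exact absurd ⟨e, by rw [← he, sq]⟩ (hchief ⊤ K L hNL hLK le_top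
      (fun g _ k hk => hK.conj_mem k hk g) (fun g _ k hk => hL.conj_mem k hk g)
      (fun M h1 h2 h3 => hch M ⟨fun m hm g => h3 g trivial m hm⟩ h1 h2))
  obtain ⟨F, hF, hcard, hsum⟩ := h1
  have hnh : ¬ ∃ (θ : L → ℂ) (e : ℕ), IsIrrCharacter L θ ∧ (fun n : L => χ n) = (e : ℂ) • θ := by
    rintro ⟨θ, e, hθ, he⟩
    have h2 : ∀ φ ∈ F, φ = θ := by
      intro φ hφ
      have h3 : classInner (∑ ψ ∈ F, ψ) φ = 1 := by
        rw [classInner_sum_left, Finset.sum_eq_single φ, (hF φ hφ).classInner_self]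
        · exact fun ψ hψ hne => (hF ψ hψ).classInner_of_ne (hF φ hφ) hne
        · exact fun h => absurd hφ h
      rw [← hsum, show (fun x : L => χ x) = (e : ℂ) • θ from he, classInner_smul_left] at h3
      exact (hθ.eq_of_classInner_ne_zero (hF φ hφ)
        (right_ne_zero_of_mul (h3.trans_ne one_ne_zero))).symm
    have h3 : F.card ≤ 1 := Finset.card_le_one.mpr fun a ha b hb => (h2 a ha).trans (h2 b hb).symm
    have h4 := H1.relIndex_ne_zero L K
    have h5 : L.relIndex K ≠ 1 := fun h => hLK.2 (Subgroup.relIndex_eq_one.mp h)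
    omega
  obtain ⟨T, hLT, hT, ψ, hψ, rfl⟩ := exists_ind_of_not_homogeneous hχ hnh
  have hNT := hNL.trans hLT
  have hs : Group.IsSolvable (T ⧸ N.subgroupOf T) := Group.isSolvable_of_isSolvable_injective
    (f := QuotientGroup.map _ N T.subtype le_rfl) (by
      rw [injective_iff_map_eq_one]
      intro x hx
      obtain ⟨x, rfl⟩ := QuotientGroup.mk_surjective x
      exact (QuotientGroup.eq_one_iff x).mpr ((QuotientGroup.eq_one_iff (x : G)).mp hx))
  obtain ⟨U, hNU, η, hη, rfl, hηN⟩ := ih _ (h ▸ card_lt_of_ne_top hT) T (N.subgroupOf T) hs (by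
    intro H' K' L' h1 h2 h3 h4 h5 h6
    rw [← Subgroup.relIndex_map_map_of_injective L' K' T.subtype_injective]
    refine hchief (H'.map T.subtype) _ _ ?_ ?_ (Subgroup.map_mono h3) ?_ ?_ ?_
    · exact fun x hx => ⟨⟨x, hNT hx⟩, h1 hx, rfl⟩
    · exact (Subgroup.map_lt_map_iff_of_injective T.subtype_injective).mpr h2
    · rintro _ ⟨a, ha, rfl⟩ _ ⟨b, hb, rfl⟩
      exact ⟨_, h4 a ha b hb, rfl⟩
    · rintro _ ⟨a, ha, rfl⟩ _ ⟨b, hb, rfl⟩
      exact ⟨_, h5 a ha b hb, rfl⟩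
    · intro M h7 h8 h9
      have hMT : M ≤ T := h8.trans (Subgroup.map_subtype_le _)
      rw [← Subgroup.map_subgroupOf_eq_of_le hMT]
      refine (h6 (M.subgroupOf T) (Subgroup.map_le_iff_le_comap.mp h7) ?_ ?_).imp
        (congrArg _) (congrArg _)
      · intro x hx
        obtain ⟨y, hy, hxy⟩ := h8 hx
        rwa [← Subtype.ext hxy]
      · exact fun a ha m hm => h9 a ⟨a, ha, rfl⟩ m hm) ψ hψ rfl
  let e := U.equivMapOfInjective T.subtype T.subtype_injective
  refine ⟨U.map T.subtype, fun x hx => ⟨⟨x, hNT hx⟩, hNU hx, rfl⟩, _, hη.comp_equiv e.symm,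
    (ind_trans' T U η).symm, ?_⟩
  convert isIrr_of_sOf hNT hηN using 3 with n
  rw [MulEquiv.symm_apply_eq]
  rfl

/-- Let N be a normal subgroup of the finite group G with G / N solvable, and suppose that for every subgroup H containing N and all subgroups L < K between N and H that are normal in H with no subgroup normal in H strictly between them, the index of L in K is not a perfect square. Then every irreducible character χ of G is induced from an irreducible character ψ of some subgroup H containing N such that the restriction of ψ to N is irreducible. -/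
theorem result {G : Type*} [Group G] [Fintype G] (N : Subgroup G) [N.Normal] (hsolv : Group.IsSolvable (G ⧸ N)) (hchief : ∀ (H K L : Subgroup G), N ≤ L → L < K → K ≤ H → (∀ h ∈ H, ∀ k ∈ K, h * k * h⁻¹ ∈ K) → (∀ h ∈ H, ∀ l ∈ L, h * l * h⁻¹ ∈ L) → (∀ M : Subgroup G, L ≤ M → M ≤ K → (∀ h ∈ H, ∀ m ∈ M, h * m * h⁻¹ ∈ M) → M = L ∨ M = K) → ¬ IsSquare (L.relIndex K)) (χ : G → ℂ) (hχ : Cfsg.IsIrrCharacter G χ) : ∃ (H : Subgroup G) (hNH : N ≤ H) (ψ : H → ℂ), Cfsg.IsIrrCharacter H ψ ∧ Cfsg.indFun H ψ = χ ∧ Cfsg.IsIrrCharacter N (fun n : N => ψ ⟨(n : G), hNH n.2⟩) := by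
  exact aux G N hsolv hchief χ hχ

end Cfsg.Agent.S0858
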