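import Cfsg.Statements.S0859
import Cfsg.Agent.H6.Monomial

set_option autoImplicit false
open Cfsg

open H5 H6 Cfsg

namespace Cfsg.Agent.S0859

theorem irr_inf {H : Type*} [Group H] [Fintype H] (N U : Subgroup H) [N.Normal] {lam : U → ℂ}
    (hlam : IsCharacter U lam) (hN : IsIrrCharacter N (fun n : N => indFun U lam n)) :
    IsIrrCharacter (U.subgroupOf N) (sOf lam N) := by
  classical
  have hψc := isCharacter_ind U hlam
  have hψ : IsIrrCharacter H (indFun U lam) := irr_of_comp_irr N.subtype hψc hN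
  let W := N ⊔ U
  have hW : IsIrrCharacter W (fun w : W => indFun U lam w) :=
    irr_of_comp_irr (Subgroup.inclusion le_sup_left) (hψc.restrict W) hN
  have h1 := ind_trans U W le_sup_right lam
  have hμc := isCharacter_ind _ (isCharacter_sOf hlam W)
  have hμ := irr_of_ind_irr W hμc (h1 ▸ hψ)
  have h2 : (fun w : W => indFun U lam w) = indFun (U.subgroupOf W) (sOf lam W) := by
    refine hW.eq_of_classInner_ne_zero hμ ?_
    rw [← inner_ind_right W _ hψ.isClassFunction, h1, hψ.classInner_self]
    exact one_ne_zero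
  have h3 := congrFun h1 1
  rw [ind_one, ← h2] at h3
  have h4 : (W.index : ℂ) = 1 := mul_right_cancel₀ hψ.apply_one_ne_zero (h3.trans (one_mul _).symm)
  have h5 : W = ⊤ := Subgroup.index_eq_one.mp (by exact_mod_cast h4)
  have h6 := res_ind_of_mul_eq U N (fun g => by
    have : g ∈ U ⊔ N := by rw [sup_comm]; exact h5.ge trivial
    rw [← SetLike.mem_coe, Subgroup.mul_normal] at this
    obtain ⟨a, ha, b, hb, rfl⟩ := this
    exact ⟨a, ha, b, hb, rfl⟩) hlam.isClassFunction
  exact irr_of_ind_irr _ (isCharacter_sOf hlam N) (h6 ▸ hN)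

/-- Let G be a finite solvable group and N a normal subgroup such that for every prime p every Sylow p-subgroup of N is abelian. Suppose every irreducible character of G is induced from an irreducible character of some subgroup containing N whose restriction to N is irreducible. Then every irreducible character of G is induced from a character of degree 1 of some subgroup. -/
theorem result {G : Type*} [Group G] [Fintype G] [Group.IsSolvable G] (N : Subgroup G) [N.Normal] (hab : ∀ (p : ℕ) [Fact p.Prime] (P : Sylow p N), ∀ a ∈ P, ∀ b ∈ P, a * b = b * a) (hrel : ∀ χ : G → ℂ, Cfsg.IsIrrCharacter G χ → ∃ (H : Subgroup G) (hNH : N ≤ H) (ψ : H → ℂ), Cfsg.IsIrrCharacter H ψ ∧ Cfsg.indFun H ψ = χ ∧ Cfsg.IsIrrCharacter N (fun n : N => ψ ⟨(n : G), hNH n.2⟩)) (χ : G → ℂ) (hχ : Cfsg.IsIrrCharacter G χ) : ∃ (U : Subgroup G) (lam : U → ℂ), Cfsg.IsCharacter U lam ∧ lam 1 = 1 ∧ Cfsg.indFun U lam = χ := by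
  classical
  obtain ⟨H, hNH, ψ, hψ, rfl, hψN⟩ := hrel χ hχ
  obtain ⟨U, lam, hlam, hq, rfl⟩ := exists_qp_ind H hψ
  have h1 := irr_inf (N.subgroupOf H) U hlam.isCharacter (isIrr_sOf hNH hψN)
  have h2 := hq.le_charCenter_of_sylow hlam ((N.subgroupOf H).subgroupOf U) (by
    intro p P hp hP hPM
    have := Fact.mk hp
    let f : P →* N := (H.subtype.comp (U.subtype.comp P.subtype)).codRestrict N fun x => hPM x.2
    obtain ⟨S, hS⟩ := (hP.of_surjective _ f.rangeRestrict_surjective).exists_le_sylow
    refine ⟨⟨fun a b => ?_⟩⟩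
    have := hab p S (f a) (hS ⟨a, rfl⟩) (f b) (hS ⟨b, rfl⟩)
    exact Subtype.ext (Subtype.ext (Subtype.ext (congrArg (fun z : N => (z : G)) this))))
  have h3 : lam 1 = 1 := by
    refine apply_one_of_charCenter_eq_top (χ := sOf lam (N.subgroupOf H)) h1
      (eq_top_iff.mpr fun x _ => ?_)
    rw [h1.mem_charCenter]
    exact hlam.mem_charCenter.mp (h2 (x := ⟨x, x.2⟩) x.1.2)
  refine ⟨U.map H.subtype, _, (hlam.comp_equiv
    (U.equivMapOfInjective H.subtype H.subtype_injective).symm).isCharacter, ?_,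
    (ind_trans' H U lam).symm⟩
  simpa using h3

end Cfsg.Agent.S0859
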