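import Cfsg.Statements.S0861
import Cfsg.Agent.H6.Extension
import Cfsg.Agent.H8.KGV

set_option autoImplicit false
open Cfsg


namespace Cfsg.Agent.S0861

open H5

/-- Let P be a normal abelian Sylow p-subgroup of the finite group G and suppose some element g of P has centralizer exactly P. Then the number of irreducible characters of G is at most the order of P, and if equality holds then G / P is abelian (the commutator subgroup lies in P). -/
theorem result {G : Type*} [Group G] [Finite G] (p : ℕ) [Fact p.Prime] (P : Sylow p G) [(P : Subgroup G).Normal] (hab : ∀ a ∈ P, ∀ b ∈ P, a * b = b * a) (g : G) (hg : g ∈ P) (hC : Subgroup.centralizer ({g} : Set G) = P) : Nat.card (Cfsg.IrrCharacter G) ≤ Nat.card P ∧ (Nat.card (Cfsg.IrrCharacter G) = Nat.card P → commutator G ≤ P) := by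
  classical
  letI := Fintype.ofFinite G
  let S : Finset G := Finset.univ.filter fun s => s ∈ P ∧ Subgroup.centralizer ({s} : Set G) = P
  have gS : g ∈ S := Finset.mem_filter.2 ⟨Finset.mem_univ _, hg, hC⟩
  have pos : (0 : ℝ) < S.card := by exact_mod_cast Finset.card_pos.2 ⟨g, gS⟩
  have h1 : ∀ χ : Cfsg.IrrCharacter G, (S.card : ℝ) ≤ ∑ s ∈ S, ‖χ.1 s‖ ^ 2 := fun χ => by
    refine χ.2.isCharacter.card_le_sum_norm_sq S (fun s hs k hk => ?_) fun s hs => ?_
    · obtain ⟨-, a, b⟩ := Finset.mem_filter.1 hs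
      refine Finset.mem_filter.2 ⟨Finset.mem_univ _, pow_mem a k, ?_⟩
      obtain ⟨m, hm⟩ := exists_pow_eq_self_of_coprime (x := s) (hk.coprime_dvd_right (orderOf_dvd_natCard s))
      rw [← b]
      ext x
      simp only [Subgroup.mem_centralizer_singleton_iff]
      exact ⟨fun h => hm ▸ (Commute.pow_right h m :), fun h => (Commute.pow_right h k :)⟩
    · obtain ⟨k, hk⟩ := P.isPGroup' ⟨s, (Finset.mem_filter.1 hs).2.1⟩
      exact H8.ne_zero_of_pow_eq_one χ.2.isCharacter Fact.out
        (fun h => P.not_dvd_index (h.trans (H6.ito_degree_dvd (P : Subgroup G) hab χ.2))) (congrArg Subtype.val hk)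
  have h2 : ∑ χ : Cfsg.IrrCharacter G, ∑ s ∈ S, ‖χ.1 s‖ ^ 2 = ∑ _χ : Cfsg.IrrCharacter G, (S.card : ℝ) +
      S.card * ((Nat.card P : ℝ) - Nat.card (Cfsg.IrrCharacter G)) := by
    rw [Finset.sum_comm, Finset.sum_congr rfl (g := fun _ => (Nat.card P : ℝ)) fun s hs => by
      rw [sum_irr_normSq, (Finset.mem_filter.1 hs).2.2]]
    simp only [Finset.sum_const, nsmul_eq_mul, Finset.card_univ, Nat.card_eq_fintype_card]
    ring
  have h3 := Finset.sum_le_sum fun χ (_ : χ ∈ Finset.univ) => h1 χ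
  refine ⟨?_, fun e => ?_⟩
  · have : (0 : ℝ) ≤ (Nat.card P : ℝ) - Nat.card (Cfsg.IrrCharacter G) := nonneg_of_mul_nonneg_right (by linarith) pos
    exact_mod_cast sub_nonneg.1 this
  rw [e, sub_self, mul_zero, add_zero] at h2
  have h4 := (Finset.sum_eq_sum_iff_of_le fun χ _ => h1 χ).1 h2.symm
  intro x hx
  by_contra k
  obtain ⟨χ, hχ, a, b⟩ := exists_irr_le_charKer_not_mem (P : Subgroup G) k
  refine b (hχ.commutator_le_charKer_iff.2 ?_ hx)
  have h5 := h4 ⟨χ, hχ⟩ (Finset.mem_univ _)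
  rw [Finset.sum_congr rfl (g := fun _ => (charDegree χ : ℝ) ^ 2) fun s hs => by
    rw [← hχ.isCharacter.norm_apply_one]
    exact congrArg (fun z => ‖z‖ ^ 2) (apply_eq_of_mem_charKer (a (Finset.mem_filter.1 hs).2.1)),
    Finset.sum_const, nsmul_eq_mul] at h5
  have h6 : (charDegree χ : ℝ) ^ 2 = 1 := mul_left_cancel₀ pos.ne' (by rw [← h5, mul_one])
  exact hχ.isCharacter.charDegree_eq_one_iff.1 (by exact_mod_cast (pow_eq_one_iff_of_nonneg (by positivity) two_ne_zero).1 h6)

end Cfsg.Agent.S0861
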