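import Cfsg.Statements.S0865
import Cfsg.Agent.H6.Extension

set_option autoImplicit false
open Cfsg

open H5 H6 Cfsg

namespace Cfsg.Agent.S0865

/-- Let N be a normal subgroup of the finite group G and λ a character of N of degree 1, invariant under conjugation by G, whose order (under pointwise multiplication) is coprime to the index of N. Then there is a character μ of G of degree 1 restricting to λ with the same order as λ, and μ is the only degree-1 character of G restricting to λ whose order is coprime to the index of N. -/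
theorem result {G : Type*} [Group G] [Finite G] (N : Subgroup G) [hN : N.Normal] (lam : N → ℂ) (hlam : Cfsg.IsCharacter N lam ∧ lam 1 = 1) (hinv : ∀ (g : G) (n : N), lam ⟨g * n * g⁻¹, hN.conj_mem (n : G) n.2 g⟩ = lam n) (hcop : Nat.Coprime N.index (orderOf lam)) : ∃ μ : G → ℂ, (Cfsg.IsCharacter G μ ∧ μ 1 = 1 ∧ (∀ n : N, μ n = lam n) ∧ orderOf μ = orderOf lam) ∧ ∀ μ' : G → ℂ, Cfsg.IsCharacter G μ' ∧ μ' 1 = 1 → (∀ n : N, μ' n = lam n) → Nat.Coprime N.index (orderOf μ') → μ' = μ := by
  have hirr := hlam.1.isIrr_of_apply_one hlam.2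
  have hdet : ∀ {H : Type _} [Group H] [Finite H] {μ : H → ℂ}, IsCharacter H μ → μ 1 = 1 →
      detOrder μ = orderOf μ := fun h1 h2 => by rw [detOrder, detChar_of_apply_one h1 h2]
  obtain ⟨χ, ⟨h1, h2, h3⟩, h4⟩ := exists_canonical_ext hirr (fun g => funext (hinv g)) (d := 1)
    (by simpa using hlam.2) (by rwa [mul_one, hdet hlam.1 hlam.2])
  have h5 : χ 1 = 1 := by rw [← hlam.2, ← h2]; rfl
  refine ⟨χ, ⟨h1.isCharacter, h5, h2, ?_⟩, fun μ' h6 h7 h8 =>
    h4 μ' (h6.1.isIrr_of_apply_one h6.2) h7 (by rwa [hdet h6.1 h6.2])⟩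
  rw [← hdet h1.isCharacter h5, h3, hdet hlam.1 hlam.2]

end Cfsg.Agent.S0865
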