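import Cfsg.Statements.S0868
import Cfsg.Agent.H6.Monomial

set_option autoImplicit false
open scoped ComplexConjugate
open Cfsg

open H5 H6 Cfsg

namespace Cfsg.Agent.S0868

/-- Let N be a normal subgroup of the finite group G, χ an irreducible character of G whose restriction ϑ to N is irreducible, and ψ an irreducible character of G. Define η on G by η g = (1 / order of N) * Σ over n in N of ψ (n * g) * conj (χ (n * g)). Then: if the restriction of ψ to N has nonzero inner product with ϑ, η is an irreducible character of G; if that inner product is zero, η vanishes identically; and if ψ = χ then η is identically 1. -/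
theorem result {G : Type*} [Group G] [Fintype G] (N : Subgroup G) [N.Normal] [Fintype N] (χ : G → ℂ) (hχ : Cfsg.IsIrrCharacter G χ) (hχN : Cfsg.IsIrrCharacter N (fun n : N => χ n)) (ψ : G → ℂ) (hψ : Cfsg.IsIrrCharacter G ψ) (η : G → ℂ) (hη : η = fun g => (Nat.card N : ℂ)⁻¹ * ∑ n : N, ψ ((n : G) * g) * conj (χ ((n : G) * g))) : (Cfsg.classInner (fun n : N => ψ n) (fun n : N => χ n) ≠ 0 → Cfsg.IsIrrCharacter G η) ∧ (Cfsg.classInner (fun n : N => ψ n) (fun n : N => χ n) = 0 → η = 0) ∧ (ψ = χ → η = fun _ => 1) := by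
  classical
  have hα : IsClassFunction G (ψ * fun g => conj (χ g)) :=
    hψ.isClassFunction.mul hχ.isClassFunction.conj
  have h0 : ∀ g, η g = ∑ ξ : IrrCharacter G, if N ≤ charKer (ξ : G → ℂ) then
      classInner ψ ((ξ : G → ℂ) * χ) * (ξ : G → ℂ) g else 0 := by
    intro g
    simp only [inner_mul_right, hη]
    exact coset_avg hα g
  have hk : ∀ {β : G → ℂ}, IsIrrCharacter G β → (N ≤ charKer β ↔ ∀ n : N, β n = β 1) :=
    fun hβ => ⟨fun h n => hβ.mem_charKer.mp (h n.2), fun h n hn => hβ.mem_charKer.mpr (h ⟨n, hn⟩)⟩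
  have h1 : ∀ β, IsIrrCharacter G β → (∀ n : N, β n = β 1) → β * χ = ψ → η = β := by
    intro β hβ hβN h
    funext g
    rw [h0, Finset.sum_eq_single (⟨β, hβ⟩ : IrrCharacter G)]
    · rw [if_pos ((hk hβ).mpr hβN)]
      change classInner ψ (β * χ) * β g = β g
      rw [h, hψ.classInner_self, one_mul]
    · intro ξ _ hξ
      split_ifs with h2
      · rw [hψ.classInner_of_ne (gallagher_irr hχ.isCharacter hχN ξ.2 ((hk ξ.2).mp h2)), zero_mul]
        intro h3
        exact hξ (Subtype.ext (gallagher_inj hχ.isCharacter hχN ξ.2 ((hk ξ.2).mp h2) hβ hβN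
          (h3.symm.trans h.symm)))
      · rfl
    · simp
  refine ⟨fun h => ?_, fun h => ?_, fun h => ?_⟩
  · obtain ⟨β, hβ, hβN, h2⟩ := gallagher_surj hχ.isCharacter hχN hψ h
    rwa [h1 β hβ hβN h2]
  · funext g
    rw [h0]
    refine Finset.sum_eq_zero fun ξ _ => ?_
    split_ifs with h2
    · rw [hψ.classInner_of_ne (gallagher_irr hχ.isCharacter hχN ξ.2 ((hk ξ.2).mp h2)), zero_mul]
      intro h3
      have h4 : (fun n : N => ψ n) = (ξ : G → ℂ) 1 • fun n : N => χ n := by
        funext n
        rw [h3, Pi.mul_apply, (hk ξ.2).mp h2 n]; rfl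
      rw [h4, classInner_smul_left, hχN.classInner_self, mul_one] at h
      exact ξ.2.apply_one_ne_zero h
    · rfl
  · exact h1 _ isIrrCharacter_one (fun _ => rfl) (by rw [h]; ext; simp)

end Cfsg.Agent.S0868
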