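import Cfsg.Statements.S0869
import Cfsg.Agent.H6.Brauer

set_option autoImplicit false
open Cfsg

open H5 H6 Cfsg

namespace Cfsg.Agent.S0869

/-- Let S be a nonempty finite type and R an additive subgroup of the integer-valued functions on S that is closed under pointwise multiplication. If the constant function 1 is not in R, then there exist a point x of S and a prime p such that p divides f x for every f in R. -/
theorem result {S : Type*} [Finite S] [Nonempty S] (R : AddSubgroup (S → ℤ)) (hmul : ∀ f ∈ R, ∀ g ∈ R, f * g ∈ R) (h1 : (1 : S → ℤ) ∉ R) : ∃ (x : S) (p : ℕ), p.Prime ∧ ∀ f ∈ R, (p : ℤ) ∣ f x := by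
  have := Fintype.ofFinite S
  by_contra hc
  push Not at hc
  apply h1
  have := const_prod_mem (K := ℤ) (AddSubgroup.toIntSubmodule R) hmul (fun _ => 1) fun x => by
    obtain ⟨f, hf, hfx⟩ := one_mem_of_forall_prime
      ((AddSubgroup.toIntSubmodule R).map (LinearMap.proj x)) fun p hp => by
        obtain ⟨f, hf, h⟩ := hc x p hp
        exact ⟨f x, ⟨f, hf, rfl⟩, h⟩
    exact ⟨f, hf, hfx⟩
  simp only [Finset.prod_const_one, Int.cast_one] at this
  exact this

end Cfsg.Agent.S0869
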