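import Cfsg.Statements.S0872
import Cfsg.Agent.H6.Solomon

set_option autoImplicit false
open Cfsg

open H5 H6 Cfsg

namespace Cfsg.Agent.S0872

/-- For a finite group G and a prime p there are an integer m not divisible by p and a ℤ-linear combination of functions induced from the constant function 1 on subgroups H, each having a cyclic normal subgroup of order prime to p and p-power index in H, that equals the constant function m. -/
theorem result {G : Type*} [Group G] [Fintype G] (p : ℕ) (hp : p.Prime) : ∃ (m : ℤ) (a : Subgroup G → ℤ), ¬ (p : ℤ) ∣ m ∧ (∀ H, a H ≠ 0 → (∃ C : Subgroup G, C ≤ H ∧ H ≤ Subgroup.normalizer (C : Set G) ∧ IsCyclic C ∧ Nat.Coprime (Nat.card C) p ∧ ∃ k : ℕ, C.relIndex H = p ^ k)) ∧ (fun _ : G => (m : ℂ)) = ∑ H : Subgroup G, (a H : ℂ) • Cfsg.indFun H (fun _ => 1) := by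
  classical
  obtain ⟨m, hm, h⟩ := solomon (G := G) hp
  suffices ∀ f ∈ qeSpan p G, ∃ a : Subgroup G → ℤ, (∀ H, a H ≠ 0 → IsQE p H) ∧
      f = ∑ H : Subgroup G, (a H : ℂ) • Cfsg.indFun H (fun _ => 1) by
    obtain ⟨a, ha, e⟩ := this _ h
    exact ⟨m, a, hm, fun H hH => isQE_iff.1 (ha H hH), e⟩
  intro f hf
  induction hf using Submodule.span_induction with
  | mem f hf =>
    obtain ⟨H, hH, rfl⟩ := hf
    refine ⟨Pi.single H 1, fun K hK => ?_, ?_⟩
    · by_cases e : K = H
      · rwa [e]
      · exact absurd (Pi.single_eq_of_ne e _) hK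
    · rw [Finset.sum_eq_single H] <;> simp +contextual
  | zero => exact ⟨0, by simp, by simp⟩
  | add f g _ _ hf hg =>
    obtain ⟨a, ha, rfl⟩ := hf
    obtain ⟨b, hb, rfl⟩ := hg
    refine ⟨a + b, fun H hH => ?_, by simp [add_smul, Finset.sum_add_distrib]⟩
    by_cases e : a H = 0
    · exact hb H (by simpa [e] using hH)
    · exact ha H e
  | smul c f _ hf =>
    obtain ⟨a, ha, rfl⟩ := hf
    refine ⟨c • a, fun H hH => ha H (right_ne_zero_of_mul hH), ?_⟩
    rw [Finset.smul_sum]
    refine Finset.sum_congr rfl fun H _ => ?_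
    rw [← Int.cast_smul_eq_zsmul ℂ, smul_smul]; simp

end Cfsg.Agent.S0872
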