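import Cfsg.Statements.S0875
import Cfsg.Agent.H6.BrauerApp

set_option autoImplicit false
open Cfsg

open H5 H6 Cfsg

namespace Cfsg.Agent.S0875

/-- Let G be a finite group of order m * n with m and n coprime, and g an element whose order is coprime to m. Every x in G factors uniquely as x = u * v with u, v commuting, the order of u coprime to n and the order of v coprime to m; let ϑ be the function on G equal to n at those x whose factor v is conjugate to g and equal to 0 elsewhere. Then ϑ is a linear combination of the irreducible characters of G with algebraic-integer coefficients. -/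
theorem result {G : Type*} [Group G] [Fintype G] (m n : ℕ) (hmn : Nat.card G = m * n) (hcop : Nat.Coprime m n) (g : G) (hg : Nat.Coprime (orderOf g) m) (ϑ : G → ℂ) (hϑ1 : ∀ x : G, (∃ v : G, IsConj v g ∧ (∃ u : G, x = u * v ∧ Commute u v ∧ Nat.Coprime (orderOf u) n ∧ Nat.Coprime (orderOf v) m)) → ϑ x = n) (hϑ0 : ∀ x : G, (¬ ∃ v : G, IsConj v g ∧ (∃ u : G, x = u * v ∧ Commute u v ∧ Nat.Coprime (orderOf u) n ∧ Nat.Coprime (orderOf v) m)) → ϑ x = 0) : ∃ c : Cfsg.IrrCharacter G → ℂ, (∀ χ, c χ ∈ Cfsg.AlgInt) ∧ ϑ = ∑ᶠ χ : Cfsg.IrrCharacter G, c χ • (χ : G → ℂ) := by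
  classical
  obtain ⟨k, hk, hk'⟩ := Nat.chineseRemainder hcop 0 1
  have hmk : m ∣ k := (Nat.modEq_zero_iff_dvd).mp hk
  have key : ∀ u v : G, Commute u v → (orderOf u).Coprime n → (orderOf v).Coprime m →
      (u * v) ^ k = v := by
    intro u v hc hu hv
    have h1 : u ^ k = 1 := orderOf_dvd_iff_pow_eq_one.mp
      ((hu.dvd_of_dvd_mul_right (hmn ▸ orderOf_dvd_natCard u)).trans hmk)
    have h2 : orderOf v ∣ n := hv.dvd_of_dvd_mul_left (hmn ▸ orderOf_dvd_natCard v)
    rw [hc.mul_pow, h1, one_mul, pow_eq_pow_iff_modEq.mpr (hk'.of_dvd h2), pow_one]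
  have e : ϑ = fun x => if IsConj (x ^ k) g then (n : ℂ) else 0 := by
    funext x
    split_ifs with h
    · obtain ⟨u, v, -, -, rfl, hc, hu, hv⟩ := H22.exists_coprime_decomp x hcop
        (by rw [← hmn, pow_card_eq_one'])
      have hu' := Nat.Coprime.coprime_dvd_left (orderOf_dvd_of_pow_eq_one hu) hcop
      have hv' := Nat.Coprime.coprime_dvd_left (orderOf_dvd_of_pow_eq_one hv) hcop.symm
      exact hϑ1 _ ⟨v, by rwa [key u v hc hu' hv'] at h, u, rfl, hc, hu', hv'⟩
    · refine hϑ0 _ ?_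
      rintro ⟨v, hv, u, rfl, hc, hu', hv'⟩
      exact h (by rwa [key u v hc hu' hv'])
  have hcf : IsClassFunction G ϑ := by
    rw [e]
    refine isClassFunction_of_isConj fun x y hxy => ?_
    have : IsConj (x ^ k) g ↔ IsConj (y ^ k) g :=
      ⟨fun h => (hxy.pow k).symm.trans h, fun h => (hxy.pow k).trans h⟩
    simp only [this]
  refine ⟨fun χ => classInner ϑ χ, fun χ => ?_, ?_⟩
  · rw [e]
    exact isIntegral_inner_section hcop hmn.dvd hmk hk' g χ.2.isCharacter
  · rw [finsum_eq_sum_of_fintype]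
    exact hcf.eq_sum_irr

end Cfsg.Agent.S0875
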