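import Cfsg.Statements.S0876
import Cfsg.Agent.H6.BrauerApp
import Cfsg.Agent.H7.Vanish

set_option autoImplicit false
open Cfsg

open H5 H6 Cfsg

namespace Cfsg.Agent.S0876

/-- Let G be a finite group, p a prime and M a maximal ideal of the ring of algebraic integers containing p. Let x, y be elements with p-parts a and b (so a⁻¹ * x and b⁻¹ * y are their p-regular parts). Then a⁻¹ * x and b⁻¹ * y are conjugate in G if and only if, for every irreducible character χ, the difference χ x - χ y lies in the local ideal at M. -/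
theorem result {G : Type*} [Group G] [Finite G] (p : ℕ) (M : Ideal Cfsg.AlgInt) (hM : Cfsg.IsPModular p M) (x y a b : G) (ha : Cfsg.IsPPart p x a) (hb : Cfsg.IsPPart p y b) : IsConj (a⁻¹ * x) (b⁻¹ * y) ↔ ∀ χ : Cfsg.IrrCharacter G, Cfsg.MemLocalIdeal M ((χ : G → ℂ) x - (χ : G → ℂ) y) := by
  classical
  have := Fact.mk hM.1
  have : H7.PM p M := ⟨hM⟩
  have := Fintype.ofFinite G
  rw [H7.isPPart_iff.mp ha, H7.isPPart_iff.mp hb]
  change IsConj (H7.pr p x) (H7.pr p y) ↔ _
  have h0 : ∀ χ : IrrCharacter G, MemLocalIdeal M ((χ : G → ℂ) x - (χ : G → ℂ) y) ↔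
      (χ : G → ℂ) (H7.pr p x) - (χ : G → ℂ) (H7.pr p y) ∈ H7.mC M := by
    intro χ
    have hc := χ.2.isCharacter
    rw [← H7.mem_mC, ← H7.red_eq_iff (H7.char_mem_O hc _) (H7.char_mem_O hc _),
      ← H7.red_eq_iff (H7.char_mem_O hc _) (H7.char_mem_O hc _), ← H7.red_char_eq_red_pr hc,
      ← H7.red_char_eq_red_pr hc]
  simp only [h0]
  refine ⟨fun h χ => by rw [χ.2.isClassFunction.eq_of_isConj h, sub_self]; exact zero_mem _,
    fun h => ?_⟩
  obtain ⟨n, hn, hG⟩ := H7.exists_natCast_eq_pow_mul (p := p) (Nat.card_pos (α := G)).ne'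
  set m := p ^ (Nat.card G).factorization p
  have hcop : m.Coprime n := ((Nat.Prime.coprime_iff_not_dvd hM.1).mpr hn).pow_left _
  obtain ⟨k, hk, hk'⟩ := Nat.chineseRemainder hcop 0 1
  have hmk : m ∣ k := (Nat.modEq_zero_iff_dvd).mp hk
  have hpow : ∀ z : G, H7.pr p z ^ k = H7.pr p z := fun z => by
    have h1 : (orderOf (H7.pr p z)).Coprime m :=
      ((Nat.Prime.coprime_iff_not_dvd hM.1).mpr (H7.not_dvd_orderOf_pr z)).symm.pow_right _
    have h2 : orderOf (H7.pr p z) ∣ n := h1.dvd_of_dvd_mul_left (hG ▸ orderOf_dvd_natCard _)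
    rw [pow_eq_pow_iff_modEq.mpr (hk'.of_dvd h2), pow_one]
  let ϑ : G → ℂ := fun z => if IsConj (z ^ k) (H7.pr p y) then (n : ℂ) else 0
  have hcf : IsClassFunction G ϑ := isClassFunction_of_isConj fun x y' hxy => by
    have : IsConj (x ^ k) (H7.pr p y) ↔ IsConj (y' ^ k) (H7.pr p y) :=
      ⟨fun h => (hxy.pow k).symm.trans h, fun h => (hxy.pow k).trans h⟩
    simp only [ϑ, this]
  have h1 : ϑ (H7.pr p x) - ϑ (H7.pr p y) ∈ H7.mC M := by
    rw [hcf.apply_eq_sum_irr, hcf.apply_eq_sum_irr (H7.pr p y), ← Finset.sum_sub_distrib]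
    refine sum_mem fun χ _ => ?_
    rw [← mul_sub]
    exact H7.mul_mem_mC_left (H7.mem_O_of_isIntegral
      (isIntegral_inner_section hcop hG.dvd hmk hk' _ χ.2.isCharacter)) (h χ)
  by_contra hne
  simp only [ϑ, hpow, if_neg hne, if_pos (IsConj.refl _), zero_sub, neg_mem_iff] at h1
  exact hn ((H7.natCast_mem_mC_iff n).mp h1)

end Cfsg.Agent.S0876
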