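import Cfsg.Statements.S0884
import Cfsg.Agent.H23.Zass2

set_option autoImplicit false
open Cfsg

namespace Cfsg.Agent.S0884

open H18 H23 Subgroup

/-- Let G be a finite simple Zassenhaus group on Ω with h + 1 points whose two-point stabilizer E has odd order e with 2e < h - 1, and let H be the subgroup of the stabilizer of a consisting of the identity and the elements fixing no point other than a (given here as a subgroup of the stabilizer of order one less than the number of points whose non-identity elements fix only a; it is the Frobenius kernel of the stabilizer). Then at least e conjugacy classes of G contain no element of H. -/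
theorem result {G Ω : Type*} [Group G] [Finite G] [MulAction G Ω] [Fintype Ω] (hZ : Cfsg.IsZassenhausGroup G Ω) {a b : Ω} (hab : a ≠ b) [IsSimpleGroup G] (h e : ℕ) (hh : Fintype.card Ω = h + 1) (he : Nat.card ↥(MulAction.stabilizer G a ⊓ MulAction.stabilizer G b : Subgroup G) = e) (hodd : Odd e) (hlt : 2 * e < h - 1) (H : Subgroup G) (hHa : H ≤ MulAction.stabilizer G a) (hHcard : Nat.card H + 1 = Fintype.card Ω) (hHfix : ∀ u ∈ H, u ≠ 1 → ∀ c : Ω, u • c = c → c = a) : e ≤ Nat.card {C : ConjClasses G // ∀ g : G, ConjClasses.mk g = C → g ∉ H} := by
  obtain ⟨Q, hS⟩ := exists_ZS hZ hab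
  subst he
  obtain rfl := hS.eq_Q hHa (by rw [hHcard, Nat.card_eq_fintype_card]) hHfix
  obtain ⟨t, hD⟩ := hS.exists_ZD_of_simple hodd
  exact hD.le_card_classes (by omega)

end Cfsg.Agent.S0884
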