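import Cfsg.Statements.S0887
import Cfsg.Agent.H6.Extension

set_option autoImplicit false
open Cfsg

open H5 H6 Cfsg

namespace Cfsg.Agent.S0887

/-- Let N be a normal subgroup of the finite group G, χ an irreducible character of G and ϑ an irreducible character of N having nonzero inner product with the restriction of χ. If χ 1 = c and ϑ 1 = d as natural numbers, then d divides c and c / d divides the index of N. -/
theorem result {G : Type*} [Group G] [Fintype G] (N : Subgroup G) [N.Normal] [Fintype N] (χ : G → ℂ) (hχ : Cfsg.IsIrrCharacter G χ) (ϑ : N → ℂ) (hϑ : Cfsg.IsIrrCharacter N ϑ) (hcon : Cfsg.classInner (fun n : N => χ n) ϑ ≠ 0) (c d : ℕ) (hc : χ 1 = c) (hd : ϑ 1 = d) : d ∣ c ∧ c / d ∣ N.index := by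
  obtain ⟨b, hb, h⟩ := degree_ratio_dvd hϑ hχ hcon
  rw [hc, hd] at h
  obtain rfl : c = b * d := by exact_mod_cast h
  have : 0 < d := Nat.pos_of_ne_zero fun h0 => hϑ.apply_one_ne_zero (by rw [hd, h0]; simp)
  exact ⟨Dvd.intro_left _ rfl, by rwa [Nat.mul_div_cancel _ this]⟩

end Cfsg.Agent.S0887
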