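import Cfsg.Statements.S0891
import Cfsg.Agent.H23.Dbl

set_option autoImplicit false
open Cfsg

namespace Cfsg.Agent.S0891

open Subgroup Equiv Equiv.Perm H23.Dbl
open scoped commutatorElement

theorem lf_sq {Ω : Type} [Fintype Ω] [DecidableEq Ω] {i j k l : Ω} (h : i ≠ j) (h' : k ≠ l) (h1 : i ≠ k) (h2 : i ≠ l)
    (h3 : j ≠ k) (h4 : j ≠ l) : lf h h' * lf h h' = z Ω := by
  refine Subtype.ext (Prod.ext (Units.ext ?_) (Subtype.ext ?_))
  · change (u _ _ * u _ _) * (u _ _ * u _ _) = -1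
    rw [mul_assoc, ← mul_assoc (u k _), u_u h' h1 h2 h3 h4, neg_mul, mul_assoc, u_sq h']
    simp [u_sq h]
  · change (swap _ _ * swap _ _) * (swap _ _ * swap _ _) = 1
    rw [← sq, (disjoint_swap_swap (by simp [h, h', h1, h2, h3, h4])).commute.mul_pow]; simp [sq]

theorem z_sq {Ω : Type} [Fintype Ω] [DecidableEq Ω] : z Ω * z Ω = 1 := Subtype.ext (by simp [z])

theorem sw4 {Ω : Type} [DecidableEq Ω] {a b c d : Ω} (h1 : a ≠ b) (h2 : a ≠ c) (h3 : a ≠ d) (h4 : b ≠ c) (h5 : b ≠ d)
    (h6 : c ≠ d) : swap a d * swap b c = swap a b * swap c d * (swap a c * swap b d) := by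
  ext m
  simp only [Perm.mul_apply, swap_apply_def]
  grind

theorem z_comm {Ω : Type} [Fintype Ω] [DecidableEq Ω] (h4 : 4 ≤ Fintype.card Ω) : z Ω ∈ commutator (H Ω) := by
  obtain ⟨f⟩ : Nonempty (Fin 4 ↪ Ω) := Function.Embedding.nonempty_of_card_le (by simpa using h4)
  have b : ∀ a b : Fin 4, a ≠ b → f a ≠ f b := fun a b h => f.injective.ne h
  have b01 := b 0 1 (by decide)
  have b02 := b 0 2 (by decide)
  have b03 := b 0 3 (by decide)
  have b12 := b 1 2 (by decide)
  have b13 := b 1 3 (by decide)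
  have b23 := b 2 3 (by decide)
  have hx := lf_sq b01 b23 b02 b03 b12 b13
  have hy := lf_sq b02 b13 b01 b03 b12.symm b23
  have hw := lf_sq b03 b12 b01 b02 b13.symm b23.symm
  have hc : ∀ g : H Ω, g * z Ω = z Ω * g := mem_center_iff.1 z_mem
  have e : π Ω ((lf b03 b12)⁻¹ * (lf b01 b23 * lf b02 b13)) = 1 := by
    rw [map_mul, map_inv, inv_mul_eq_one, map_mul]
    exact Subtype.ext (sw4 b01 b02 b03 b12 b13 b23)
  generalize lf b01 b23 = x at *
  generalize lf b02 b13 = y at *
  generalize lf b03 b12 = w at *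
  have h1 : x * y * (x * y) = z Ω := by
    rcases ker_cases e with m | m
    · rw [inv_mul_eq_one] at m; rw [← m, hw]
    · rw [inv_mul_eq_iff_eq_mul] at m
      rw [m, mul_assoc, ← mul_assoc (z Ω), ← hc w, mul_assoc, z_sq, mul_one, hw]
  have hx' : x⁻¹ = z Ω * x := by
    rw [inv_eq_iff_mul_eq_one, ← mul_assoc, hc, mul_assoc, hx, z_sq]
  have hy' : y⁻¹ = z Ω * y := by
    rw [inv_eq_iff_mul_eq_one, ← mul_assoc, hc, mul_assoc, hy, z_sq]
  have h2 : ⁅x, y⁆ = z Ω := by
    rw [commutatorElement_def, hx', hy']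
    calc x * y * (z Ω * x) * (z Ω * y) = x * y * (z Ω * (x * z Ω) * y) := by simp only [mul_assoc]
      _ = z Ω := by rw [hc x, ← mul_assoc (z Ω), z_sq, one_mul, h1]
  rw [← h2]
  exact commutator_mem_commutator (mem_top _) (mem_top _)

/-- For every n ≥ 4 there are a finite group Γ and a central element z of Γ of order 2 lying in the commutator subgroup of Γ such that the quotient of Γ by the (normal) subgroup generated by z is isomorphic to the alternating group on n letters. -/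
theorem result (n : ℕ) (hn : 4 ≤ n) : ∃ (Γ : Type) (_ : Group Γ) (_ : Finite Γ) (z : Γ) (hz : z ∈ Subgroup.center Γ), orderOf z = 2 ∧ z ∈ commutator Γ ∧ ∃ _ : (Subgroup.zpowers z).Normal, Nonempty (Γ ⧸ Subgroup.zpowers z ≃* alternatingGroup (Fin n)) := by
  have ho : orderOf (z (Fin n)) = 2 := by
    have : Fact (Nat.Prime 2) := ⟨Nat.prime_two⟩
    exact orderOf_eq_prime (by rw [sq, z_sq]) z_ne
  have hk : zpowers (z (Fin n)) = (π (Fin n)).ker := by
    refine le_antisymm (zpowers_le.2 rfl) fun x hx => ?_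
    rcases ker_cases hx with rfl | rfl
    exacts [one_mem _, mem_zpowers _]
  have hN : (zpowers (z (Fin n))).Normal := hk ▸ inferInstance
  exact ⟨H (Fin n), inferInstance, inferInstance, z (Fin n), z_mem, ho, z_comm (by simpa using hn), hN,
    ⟨(QuotientGroup.quotientMulEquivOfEq hk).trans (QuotientGroup.quotientKerEquivOfSurjective _ π_surj)⟩⟩

end Cfsg.Agent.S0891
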