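import Cfsg.Statements.S0893
import Cfsg.Agent.H6.XS

set_option autoImplicit false
open Cfsg


namespace Cfsg.Agent.S0893
open H5

/-- Let P be an extraspecial p-group of order p ^ (2 * n + 1), A an abelian subgroup of order p ^ (n + 1), and λ a character of A of degree 1 that is not identically 1 on the elements of A lying in the centre of P. Then the function induced from λ to P is an irreducible character of P and vanishes at every element outside the centre. -/
theorem result {P : Type*} [Group P] [Fintype P] (p n : ℕ) [Fact p.Prime] (hP : Cfsg.IsExtraspecial p P) (hcard : Nat.card P = p ^ (2 * n + 1)) (A : Subgroup P) (hab : ∀ a ∈ A, ∀ b ∈ A, a * b = b * a) (hA : Nat.card A = p ^ (n + 1)) (lam : A → ℂ) (hlam : Cfsg.IsCharacter A lam ∧ lam 1 = 1) (hZ : ∃ a : A, (a : P) ∈ Subgroup.center P ∧ lam a ≠ 1) : Cfsg.IsIrrCharacter P (Cfsg.indFun A lam) ∧ ∀ x : P, x ∉ Subgroup.center P → Cfsg.indFun A lam x = 0 := by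
  classical
  obtain ⟨a, ha, h1⟩ := hZ
  have hc := H6.isCharacter_ind A hlam.1
  have d : Cfsg.indFun A lam 1 = (p : ℂ) ^ n := by
    have := A.card_mul_index
    rw [hA, hcard, two_mul, add_right_comm, pow_add p (n + 1)] at this
    rw [H6.ind_one, hlam.2, Nat.eq_of_mul_eq_mul_left (pow_pos (Fact.out : p.Prime).pos _) this]; simp
  obtain ⟨χ, hχ, h2⟩ := hc.exists_irr_constituent (H6.ind_ne_zero A (by rw [hlam.2]; exact one_ne_zero))
  have h3 : χ 1 ≠ 1 := fun k => by
    rw [H6.inner_ind_left A lam hχ.isClassFunction] at h2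
    have := (hlam.1.isIrr_of_apply_one hlam.2).eq_of_classInner_ne_zero
      ((hχ.isCharacter.restrict A).isIrr_of_apply_one k) h2
    refine h1 ?_
    rw [this, ← k]
    exact H5.apply_eq_of_mem_charKer (hχ.commutator_le_charKer_iff.2 k (hP.1.2.2 ▸ ha))
  have e := H6.eq_of_constituent_of_apply_one hc hχ h2 (by rw [d, ← hχ.coe_charDegree, H6.xs_deg hP hcard hχ h3]; simp)
  rw [e]
  exact ⟨hχ, fun x hx => H8.vanish_of_comm hχ (by rw [H6.xs_center hP hχ h3, hP.1.2.2]) (by rwa [H6.xs_center hP hχ h3])⟩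

end Cfsg.Agent.S0893
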