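import Cfsg.Statements.S0894
import Cfsg.Agent.H6.XS

set_option autoImplicit false
open Cfsg


namespace Cfsg.Agent.S0894
open H5

/-- Let P be an extraspecial p-group of order p ^ (2 * n + 1). Then every irreducible character of P has degree 1 or p ^ n, and exactly p - 1 of them have degree p ^ n. -/
theorem result {P : Type*} [Group P] [Finite P] (p n : ℕ) [Fact p.Prime] (hP : Cfsg.IsExtraspecial p P) (hcard : Nat.card P = p ^ (2 * n + 1)) : (∀ χ : Cfsg.IrrCharacter P, (χ : P → ℂ) 1 = 1 ∨ (χ : P → ℂ) 1 = (p : ℂ) ^ n) ∧ Nat.card {χ : Cfsg.IrrCharacter P // (χ : P → ℂ) 1 = (p : ℂ) ^ n} = p - 1 := by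
  classical
  have key : ∀ χ : Cfsg.IrrCharacter P, (χ : P → ℂ) 1 = (p : ℂ) ^ n ↔ charDegree χ.1 ≠ 1 := fun χ => by
    rw [← χ.2.coe_charDegree]
    refine ⟨fun h k => H6.xs_ne hP hcard ?_, fun h => ?_⟩
    · rw [k] at h; exact_mod_cast h.symm
    · rw [H6.xs_deg hP hcard χ.2 fun k => h (χ.2.isCharacter.charDegree_eq_one_iff.2 k)]; simp
  refine ⟨fun χ => or_iff_not_imp_left.2 fun h => (key χ).2 fun k => h (χ.2.isCharacter.charDegree_eq_one_iff.1 k), ?_⟩
  have h := H8.sum_nonlinear (G := P)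
  rw [Finset.sum_congr rfl (g := fun _ => (p ^ n) ^ 2) fun χ hχ => by
    rw [H6.xs_deg hP hcard χ.2 fun k => (Finset.mem_filter.1 hχ).2 (χ.2.isCharacter.charDegree_eq_one_iff.2 k)],
    hP.1.2.2, H6.xs_index hP hcard, hcard, Finset.sum_const, smul_eq_mul, pow_succ p, mul_comm 2, pow_mul] at h
  rw [Nat.card_congr (Equiv.subtypeEquivRight key), Nat.card_eq_fintype_card, Fintype.card_subtype]
  have pos : 0 < (p ^ n) ^ 2 := pow_pos (pow_pos (Fact.out : p.Prime).pos _) _
  generalize (p ^ n) ^ 2 = q at h pos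
  have : (Finset.univ.filter fun χ : Cfsg.IrrCharacter P => charDegree χ.1 ≠ 1).card + 1 = p :=
    Nat.eq_of_mul_eq_mul_right pos (by rw [add_mul, one_mul, h, mul_comm])
  omega

end Cfsg.Agent.S0894
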