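import Cfsg.Statements.S0895
import Cfsg.Agent.H8.Real3

set_option autoImplicit false
open Cfsg


namespace Cfsg.Agent.S0895
open H5

/-- Let χ be a real-valued irreducible character of a finite group G whose degree is an odd natural number. Then the average over s in G of χ (s * s) equals 1. -/
theorem result {G : Type*} [Group G] [Fintype G] (χ : G → ℂ) (hχ : Cfsg.IsIrrCharacter G χ) (hreal : ∀ g : G, (χ g).im = 0) (d : ℕ) (hd : χ 1 = d) (hodd : Odd d) : (Nat.card G : ℂ)⁻¹ * ∑ s : G, χ (s * s) = 1 := by
  rcases hχ.fsInd_spec with ⟨-, h | h⟩ | ⟨h, -⟩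
  · exact h
  · obtain ⟨r, hr, h1⟩ := H8.even_inner_one_of_fs hχ h (1 : Unit →* G)
    rw [H5.classInner_one_right] at h1
    simp only [MonoidHom.one_apply, hd] at h1
    have : d = r := by simpa using h1
    exact absurd (this ▸ hr) (Nat.not_even_iff_odd.2 hodd)
  · exact absurd (H5.conj_eq_self_iff_im.2 hreal) h

end Cfsg.Agent.S0895
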