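import Cfsg.Statements.S0897
import Cfsg.Agent.H6.Ch2

set_option autoImplicit false
open Cfsg


namespace Cfsg.Agent.S0897

open H5 H6 Subgroup Finset
open scoped commutatorElement

/-- Let N be a normal subgroup of the finite group G with the index of N a power of the prime p, and P a Sylow p-subgroup of G such that P ⊓ N lies in the centre of P and every character of degree 1 of P ⊓ N is the restriction of a character of degree 1 of P. Then every irreducible character of N invariant under conjugation by G is the restriction of an irreducible character of G. -/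
theorem result {G : Type*} [Group G] [Fintype G] (p : ℕ) [Fact p.Prime] (N : Subgroup G) [hN : N.Normal] (hind : ∃ k : ℕ, N.index = p ^ k) (P : Sylow p G) (hcent : ∀ x ∈ (P : Subgroup G) ⊓ N, ∀ y ∈ (P : Subgroup G), x * y = y * x) (hlin : ∀ lam : ↥((P : Subgroup G) ⊓ N) → ℂ, Cfsg.IsCharacter ↥((P : Subgroup G) ⊓ N) lam → lam 1 = 1 → ∃ μ : ↥(P : Subgroup G) → ℂ, Cfsg.IsCharacter ↥(P : Subgroup G) μ ∧ μ 1 = 1 ∧ ∀ x : ↥((P : Subgroup G) ⊓ N), μ ⟨(x : G), x.2.1⟩ = lam x) (ϑ : N → ℂ) (hϑ : Cfsg.IsIrrCharacter N ϑ) (hinv : ∀ (g : G) (n : N), ϑ ⟨g * n * g⁻¹, hN.conj_mem (n : G) n.2 g⟩ = ϑ n) : ∃ χ : G → ℂ, Cfsg.IsIrrCharacter G χ ∧ ∀ n : N, χ n = ϑ n := by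
    classical
    obtain ⟨k, hk⟩ := hind
    have hp : p.Prime := Fact.out
    have hi : ∀ g, cj ϑ g = ϑ := fun g => funext (hinv g)
    obtain ⟨E, φ, ⟨x, xc, xo, j, hj⟩, EN, hφ, -, m, hm, hφm⟩ := dade hp hk hϑ hi
    have c1 : ∀ a ∈ ⁅(P : Subgroup G), (P : Subgroup G)⁆, a ∈ N → a = 1 := fun a ha hn => by
      by_contra a1
      have aP : a ∈ (P : Subgroup G) := commutator_le.2 (fun u hu v hv => by
        rw [commutatorElement_def]; exact mul_mem (mul_mem (mul_mem hu hv) (inv_mem hu)) (inv_mem hv)) ha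
      letI : CommGroup ↥((P : Subgroup G) ⊓ N) := { (inferInstance : Group _) with
        mul_comm := fun x y => Subtype.ext (hcent x x.2 y y.2.1) }
      obtain ⟨f, hf⟩ := CommGroup.exists_apply_ne_one_of_hasEnoughRootsOfUnity ↥((P : Subgroup G) ⊓ N) ℂ
        (a := ⟨a, aP, hn⟩) fun e => a1 (congrArg Subtype.val e)
      obtain ⟨μ, h1, h2, h3⟩ := hlin _ (isCharacter_hom f) (by simp)
      obtain ⟨ν, rfl⟩ := h1.exists_hom_of_apply_one h2
      refine hf (Units.ext ((h3 ⟨a, aP, hn⟩).symm.trans (congrArg Units.val ?_)))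
      rw [← map_subtype_commutator] at ha
      obtain ⟨b, hb, rfl⟩ := ha
      exact Abelianization.commutator_subset_ker ν hb
    obtain ⟨Q⟩ : Nonempty (Sylow p E) := inferInstance
    obtain ⟨R, hR⟩ := (Q.isPGroup'.map E.subtype).exists_le_sylow
    obtain ⟨g, rfl⟩ := MulAction.exists_smul_eq G P R
    have hQ : ∀ q ∈ (Q : Subgroup E), g⁻¹ * q * g ∈ (P : Subgroup G) := fun q hq => by
      simpa using mem_pointwise_smul_iff_inv_smul_mem.1 (hR (mem_map_of_mem _ hq))
    have : (zpowers x).Normal := ⟨fun a ha g => by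
      rwa [mem_center_iff.1 (zpowers_le.2 xc ha) g, mul_inv_cancel_right]⟩
    have dec : ∀ e : E, ∃ a ∈ zpowers x, ∃ q ∈ (Q : Subgroup E), a * q = e := fun e => mem_sup_of_normal_left.1 (by
      rw [index_eq_one.1 (Nat.eq_one_of_dvd_coprimes (((hp.coprime_iff_not_dvd.2 Q.not_dvd_index).pow_left j))
        (hj ▸ index_dvd_of_le le_sup_left) (index_dvd_of_le le_sup_right))]; trivial)
    have zc : ∀ a ∈ zpowers x, ∀ b, b * a = a * b := fun a ha => mem_center_iff.1 (zpowers_le.2 xc ha)
    have xN : (x : G) ∈ N := by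
      rw [← QuotientGroup.eq_one_iff, ← orderOf_eq_one_iff]
      refine Nat.eq_one_of_dvd_coprimes (xo.pow_right k) ?_ (hk ▸ orderOf_dvd_natCard _)
      exact orderOf_map_dvd ((QuotientGroup.mk' N).comp E.subtype) x
    have c2 : ∀ a ∈ _root_.commutator E, (a : G) ∈ N → a = 1 := fun a ha hn => by
      have : _root_.commutator E ≤ (⁅(P : Subgroup G), (P : Subgroup G)⁆.comap (MulAut.conj g⁻¹).toMonoidHom).subgroupOf E :=
        commutator_le.2 fun u _ v _ => by
          obtain ⟨a, ha, q, hq, rfl⟩ := dec u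
          obtain ⟨b, hb, r, hr, rfl⟩ := dec v
          have : ⁅a * q, b * r⁆ = ⁅q, r⁆ := by
            have : ∀ a ∈ zpowers x, ∀ u v : E, ⁅a * u, v⁆ = ⁅u, v⁆ := fun a ha u v => by
              rw [commutatorElement_def, ← zc a ha u, mul_assoc u, ← zc a ha v, commutatorElement_def]; group
            rw [this a ha, ← commutatorElement_inv, this b hb, commutatorElement_inv]
          rw [this]
          have := commutator_mem_commutator (hQ q hq) (hQ r hr)
          simpa [mem_subgroupOf, commutatorElement_def, mul_assoc] using this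
      have := c1 _ (this ha) (by simpa using hN.conj_mem _ hn g⁻¹)
      exact Subtype.ext (conj_eq_one_iff.1 this)
    have inj : Function.Injective (Abelianization.of.comp (N.subgroupOf E).subtype) :=
      (injective_iff_map_eq_one _).2 fun a ha => Subtype.ext (c2 _ (Abelianization.ker_of E ▸ ha) a.2)
    obtain ⟨f, rfl⟩ := hφ.exists_hom_of_comm fun a b => inj (by rw [map_mul, map_mul, mul_comm])
    obtain ⟨μ, hμ⟩ := MonoidHom.domRestrict_surjective ℂ _ (f.comp (MonoidHom.ofInjective inj).symm.toMonoidHom)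
    have hμ : ∀ a : N.subgroupOf E, μ (Abelianization.of a.1) = f a := fun a => by
      exact (DFunLike.congr_fun hμ (MonoidHom.ofInjective inj a)).trans (by simp)
    have cμ := isCharacter_hom (μ.comp Abelianization.of)
    have e1 := res_ind_of_mul_eq N E (fun g => by
      obtain ⟨a, ha, b, hb, e⟩ := mem_sup_of_normal_left.1 (sup_comm E N ▸ EN ▸ mem_top g)
      exact ⟨a, ha, b, hb, e.symm⟩) hϑ.isClassFunction
    have e2 : classInner (fun e : E => indFun N ϑ e) (fun e => (μ.comp Abelianization.of e : ℂ)) = m := by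
      rw [e1, inner_ind_left _ _ cμ.isClassFunction, ← hφm]
      simp only [MonoidHom.comp_apply, hμ]
    obtain ⟨a, ha, e3⟩ := (isCharacter_ind N hϑ.isCharacter).exists_nat
    choose b hb using fun χ : IrrCharacter G => (χ.2.isCharacter.restrict E).exists_classInner_nat cμ
    have e4 : m = ∑ χ, a χ * b χ := by
      rw [e3] at e2
      rw [show (fun e : E => (∑ χ : IrrCharacter G, (a χ : ℂ) • (χ : G → ℂ)) e) =
        ∑ χ : IrrCharacter G, (a χ : ℂ) • fun e : E => (χ : G → ℂ) e by ext; simp, classInner_sum_left] at e2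
      simp only [classInner_smul_left, hb] at e2
      exact_mod_cast e2.symm
    obtain ⟨χ, hχ⟩ : ∃ χ, ¬ p ∣ a χ := by
      by_contra h
      push Not at h
      exact hm (e4 ▸ dvd_sum fun χ _ => (h χ).mul_right _)
    have e5 : classInner (fun n : N => (χ : G → ℂ) n) ϑ = a χ := by
      rw [(χ.2.isCharacter.restrict N).classInner_comm hϑ.isCharacter, ← inner_ind_left _ _ χ.2.isClassFunction, ha]
    obtain ⟨e, -, e6, e7⟩ := exists_res_eq_nsmul_of_invariant χ.2 hϑ hi (by
      rw [e5]; exact Nat.cast_ne_zero.2 fun k => hχ (k ▸ dvd_zero p))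
    obtain ⟨i, -, rfl⟩ := (Nat.dvd_prime_pow hp).1 (hk ▸ multiplicity_dvd hϑ χ.2 e7)
    obtain rfl : i = 0 := by_contra fun k => hχ (Nat.cast_injective (R := ℂ) (e6.symm.trans e5) ▸ dvd_pow_self p k)
    exact ⟨χ, χ.2, fun n => by simpa using congrFun e7 n⟩

end Cfsg.Agent.S0897
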