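import Cfsg.Statements.S0898
import Cfsg.Agent.H23.BL

set_option autoImplicit false
open Cfsg

namespace Cfsg.Agent.S0898

open H18 H19 H5 H23 Subgroup

theorem partA {G : Type*} [Group G] [Fintype G] {H : Subgroup G} (hZ : H ⊓ center G = ⊥) (hab : Abel H)
    (hone : ∀ g : G, g ∉ center G → ∀ a : G, C1(g) ⊓ H ≠ ⊥ → C1(g) ⊓ cj a H ≠ ⊥ → cj a H = H) {χ : G → ℂ}
    (hχ : χ ∈ irr ⊤) (hk : ¬ H ≤ cfker ⊤ χ) :
    (Nat.card H : ℝ) * ipr H (res H χ) (triv H) ^ 2 < (dg χ : ℝ) ^ 2 := by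
  classical
  have hc := chars_of_irr hχ
  have hH : H ⊴ N(H) := ⟨le_N, le_rfl⟩
  let X : Set G := {g | g ∉ center G ∧ C1(g) ⊓ H ≠ ⊥}
  have hX : ∀ g a, a ∈ X → g * a * g⁻¹ ∈ X → g ∈ N(H) := fun g a ha h => inv_mem_iff.1 (mem_N_iff_cj.2
    (hone a ha.1 g⁻¹ ha.2 fun e => h.2 (by rw [← cj_C1, ← cj_cj_inv (g := g) (H := H), ← cj_inf, e, cj_bot])))
  have hX' : ∀ g ∈ N(H), ∀ a ∈ X, g * a * g⁻¹ ∈ X := fun g hg a ha =>
    ⟨fun e => ha.1 (by simpa [mul_assoc] using Normal.conj_mem inferInstance _ e g⁻¹), fun e => ha.2 (by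
      rwa [← cj_C1, ← cj_eq_self hg, ← cj_inf, cj_eq_bot] at e)⟩
  have hn : NTI X ⊤ N(H) := ⟨le_top, fun a ha => hX a a ha (by simpa using ha), hX', fun g _ a => hX g a⟩
  have h1 := ipr_lt_of_nti (α := X.indicator χ) hn (fun e => e.1 (one_mem _)) (cf_of_irr hχ) (irr_apply_one_ne_zero hχ)
    (mem_cf_of (fun x hx => Set.indicator_of_notMem (fun e => hx (hn.subset e)) _) fun g hg x _ => by
      by_cases e : x ∈ X
      · rw [Set.indicator_of_mem e, Set.indicator_of_mem (hX' g hg x e), cf_conj (cf_of_irr hχ) (mem_top g)]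
      · rw [Set.indicator_of_notMem e, Set.indicator_of_notMem fun e' => e (by
          simpa [mul_assoc] using hX' g⁻¹ (inv_mem hg) _ e')])
    (fun x hx => Set.indicator_of_notMem hx _) fun x hx => Set.indicator_of_mem hx _
  obtain ⟨a, ha⟩ := exists_mult N(H) hc
  set α := ∑ η ∈ irrKer N(H) H, (a η : ℂ) • η with hα
  set β := ∑ η ∈ irr N(H) \ irrKer N(H) H, (a η : ℂ) • η with hβ
  have h2 : res N(H) χ = α + β := by rw [res_eq_sum hc ha, ← Finset.sum_sdiff (irrKer_subset (M := H)), add_comm]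
  have mβ : ∀ η ∈ irr N(H) \ irrKer N(H) H, η ∈ irr N(H) ∧ ¬ H ≤ cfker N(H) η := fun η h => by
    simpa [mem_irrKer, and_congr_right_iff] using Finset.mem_sdiff.1 h |>.imp_right fun e e' => e (mem_irrKer.2
      ⟨(Finset.mem_sdiff.1 h).1, e'⟩)
  have kα : H ≤ cfker N(H) α := le_cfker_sum le_N fun η h => (mem_irrKer.1 h).2.trans (le_cfker_smul _)
  have cβ : β ∈ chars N(H) := sum_mem fun η h => chars_smul_nat (chars_of_irr (mβ η h).1) _
  have cα : α ∈ chars N(H) := sum_mem fun η h => chars_smul_nat (chars_of_irr (irrKer_subset h)) _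
  have h3 : ip N(H) α β = 0 := by
    rw [hα, ip_sum_left]
    refine Finset.sum_eq_zero fun η h => ?_
    rw [ip_smul_left, ← ip_conj, ip_sum_irr_of_not_mem _ Finset.sdiff_subset (irrKer_subset h) (by simp [h])]; simp
  have h4 : 1 ≤ ipr N(H) β β := one_le_ipr_self (vchar_of_chars cβ) fun e => hk (by
    rw [e, add_zero] at h2
    exact (h2 ▸ kα).trans ((cfker_res_chars hc le_top).le.trans inf_le_right))
  have h5 : ∀ x ∈ N(H), Nat.card H * α x = ∑ h ∈ els H, χ (h * x) := fun x hx => by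
    rw [← sum_els_const, ← add_zero (∑ _ ∈ els H, _), ← show ∑ h ∈ els H, β (h * x) = 0 by
      simp only [hβ, Finset.sum_apply]
      rw [Finset.sum_comm]
      exact Finset.sum_eq_zero fun η h => by
        simp [← Finset.mul_sum, sum_coset_eq_zero hH (mβ η h).1 (mβ η h).2], ← Finset.sum_add_distrib]
    exact Finset.sum_congr rfl fun h hh => by
      rw [← cfker_mul (kα (mem_els.1 hh)) x, ← Pi.add_apply, ← h2, res_of_mem _ (mul_mem (le_N (mem_els.1 hh)) hx)]
  have hZN : center G ≤ N(H) := center_le_normalizer _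
  have h6 : ∀ z ∈ center G, ‖χ z‖ = ‖χ 1‖ := fun z hz =>
    (mem_irr_top.1 hχ).mem_charCenter.1 ((mem_irr_top.1 hχ).center_le_charCenter hz)
  have h7 : ∀ x ∈ H ⊔ center G, ‖α x‖ = ‖α 1‖ := fun x hx => by
    obtain ⟨h, hh, z, hz, rfl⟩ := (mem_sup_iff_of_le_normalizer hZN).1 hx
    obtain ⟨c, -, e⟩ := (mem_irr_top.1 hχ).center_le_charCenter hz
    have e1 := h6 z hz
    rw [← mul_one z, e, norm_mul, mul_eq_right₀ (norm_ne_zero_iff.2 (irr_apply_one_ne_zero hχ))] at e1
    have e2 := h5 z (hZN hz)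
    rw [Finset.sum_congr rfl (g := fun h => c * χ (h * 1)) fun h _ => by rw [mem_center_iff.1 hz h, e, mul_one],
      ← Finset.mul_sum,
      ← h5 1 (one_mem _), mul_left_comm, mul_right_inj' (H19.card_ne_zero H)] at e2
    rw [cfker_mul (kα hh), e2, norm_mul, e1, one_mul]
  have h8 : ∑ x, (‖res N(H) χ x‖ ^ 2 - ‖α x‖ ^ 2) ≤ ∑ x, (‖X.indicator χ x‖ ^ 2 +
      (if x ∈ els (center G) then ‖χ 1‖ ^ 2 else 0) - if x ∈ els (H ⊔ center G) then ‖α 1‖ ^ 2 else 0) := by
    refine Finset.sum_le_sum fun x _ => ?_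
    simp only [mem_els]
    by_cases e1 : x ∈ center G
    · rw [if_pos e1, if_pos (mem_sup_right e1), res_of_mem _ (hZN e1), h6 x e1, h7 x (mem_sup_right e1),
        Set.indicator_of_notMem fun e => e.1 e1]; simp
    by_cases e2 : x ∈ X
    · rw [if_neg e1, res_of_mem _ (hn.subset e2), Set.indicator_of_mem e2, add_zero, sub_le_sub_iff_left]
      split_ifs with e
      · rw [h7 x e]
      · positivity
    have e3 : H ⊓ C1(x) = ⊥ := by_contra fun e => e2 ⟨e1, by rwa [inf_comm]⟩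
    rw [if_neg e1, Set.indicator_of_notMem e2, if_neg fun e => hk (by
      rw [← inf_eq_left.2 (le_C1_iff.2 (sup_le hab (center_le_centralizer _) e)), e3]; exact bot_le), h2, Pi.add_apply,
      show β x = 0 from ?_]
    · simp
    by_cases e4 : x ∈ N(H)
    · simp only [hβ, Finset.sum_apply]
      exact Finset.sum_eq_zero fun η h => by simp [irr_reg_off_ker_0 hH (mβ η h).1 (mβ η h).2 e4 e3]
    · exact cβ.1 x e4
  have h9 := ipr_add_self_of_orth h3
  have h10 : ipr H (res H χ) (triv H) = dg α := by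
    have := h5 1 (one_mem _)
    refine ipr_of_ip ?_
    rw [ip_eq_sum_els (res_supp H χ), Finset.sum_congr rfl (g := fun h => χ (h * 1)) fun h hh => by
      simp [mem_els.1 hh], ← this, inv_mul_cancel_left₀ (H19.card_ne_zero H), chars_apply_one cα]; simp
  simp only [Finset.sum_sub_distrib, Finset.sum_add_distrib, Finset.sum_ite_mem, Finset.univ_inter, Finset.sum_const,
    card_els, nsmul_eq_mul, card_sup_of_le_normalizer hZN hZ, chars_apply_one cα, irr_apply_one hχ,
    Complex.norm_intCast, sq_abs, Nat.cast_mul] at h8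
  rw [← h2, ← sub_eq_iff_eq_add', ipr_self_eq, ipr_self_eq, ← mul_sub] at h9
  rw [ipr_irr_self hχ, ipr_self_eq, inv_mul_lt_iff₀ (card_posR _)] at h1
  rw [← h9, le_inv_mul_iff₀ (card_posR _)] at h4
  rw [h10]
  refine lt_of_mul_lt_mul_left ?_ (card_posR (center G)).le
  linarith

/-- Let H be an abelian subgroup of the finite group G meeting the centre of G trivially, such that for every non-central g the centralizer of g has nontrivial intersection with at most one conjugate of H. Let χ be an irreducible character of G with χ h ≠ χ 1 for some h in H, and let c be the inner product of the restriction of χ to H with the principal character. Then χ(1)² > (order of H)·c²; and if in addition χ 1 ≠ 1 and no proper normal subgroup of G contains H, then (1 + χ 1)² > order of H (both sides read as real numbers). -/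
theorem result {G : Type*} [Group G] [Fintype G] (H : Subgroup G) [Fintype H] (hab : ∀ a ∈ H, ∀ b ∈ H, a * b = b * a) (hZ : H ⊓ Subgroup.center G = ⊥) (hone : ∀ g : G, g ∉ Subgroup.center G → ∀ a b : G, Subgroup.centralizer ({g} : Set G) ⊓ H.map (MulAut.conj a).toMonoidHom ≠ ⊥ → Subgroup.centralizer ({g} : Set G) ⊓ H.map (MulAut.conj b).toMonoidHom ≠ ⊥ → H.map (MulAut.conj a).toMonoidHom = H.map (MulAut.conj b).toMonoidHom) (χ : G → ℂ) (hχ : Cfsg.IsIrrCharacter G χ) (hker : ∃ h ∈ H, χ h ≠ χ 1) : (χ 1).re ^ 2 > (Nat.card H : ℝ) * (Cfsg.classInner (fun h : H => χ h) (fun _ => 1)).re ^ 2 ∧ (χ 1 ≠ 1 → (∀ M : Subgroup G, M.Normal → H ≤ M → M = ⊤) → (1 + (χ 1).re) ^ 2 > (Nat.card H : ℝ)) := by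
  have hA : Abel H := cent_iff.2 hab
  have key := fun χ => @partA G _ _ H hZ hA (fun g hg a h1 h2 =>
    (hone g hg a 1 h2 (by rwa [← cj_one (H := H)] at h1)).trans cj_one) χ
  have hχ' := mem_irr_top.2 hχ
  have hc := chars_of_irr hχ'
  have hd : (χ 1).re = dg χ := by rw [irr_apply_one hχ']; simp
  refine ⟨?_, fun h1 hM => ?_⟩
  · rw [hd, show (fun _ : H => (1 : ℂ)) = fun h : H => triv H h from funext fun h => (triv_of_mem h.2).symm,
      classInner_comp]
    exact key χ hχ' fun e => let ⟨h, hh, e'⟩ := hker; e' (cfker_apply (e hh))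
  have t1 : ip ⊤ (χ * star χ) (triv ⊤) = 1 := by rw [ip_mul_left, star_star, mul_triv, res_top, ip_irr_self hχ']
  have hΘ := chars_sub_irr (chars_mul hc (chars_star hc)) (triv_mem_irr ⊤) (t1 ▸ one_ne_zero)
  set Θ := χ * star χ - triv ⊤ with hΘd
  obtain ⟨a, ha⟩ := exists_mult ⊤ hΘ
  obtain ⟨b, hb⟩ := exists_mult H hc
  have t2 : a (triv ⊤) = 0 := by
    have := ha _ (triv_mem_irr ⊤)
    rw [res_top, ip_sub_left, t1, ip_triv_triv, sub_self] at this
    exact_mod_cast this.symm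
  have t3 : ipr H (res H Θ) (triv H) = (∑ η ∈ irr H, b η ^ 2 : ℕ) - 1 := ipr_of_ip (by
    rw [map_sub, ip_sub_left, res_triv le_top, ip_triv_triv, res_mul, ip_mul_left, res_star, star_star, mul_triv,
      res_res le_rfl, ip_self_eq_ipr, ipr_res_eq hc hb]; simp)
  have t4 : Θ 1 = ((dg χ ^ 2 - 1 : ℤ) : ℂ) := by
    rw [hΘd, Pi.sub_apply, Pi.mul_apply, vchar_star_apply_one (vchar_of_irr hχ'), irr_apply_one hχ']; simp [sq]
  have t5 : (dg χ : ℝ) ≤ (∑ η ∈ irr H, b η ^ 2 : ℕ) := by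
    have := congrFun (res_eq_sum hc hb) 1
    rw [res_one, irr_apply_one hχ', Finset.sum_apply, Finset.sum_congr rfl (g := fun η => (b η : ℂ)) fun η h => by
      simp [irr_apply_one_of_abel hA h]] at this
    rw [show dg χ = (∑ η ∈ irr H, b η : ℕ) by exact_mod_cast this, Int.cast_natCast, Nat.cast_le]
    exact Finset.sum_le_sum fun η _ => Nat.le_self_pow two_ne_zero _
  have t6 : (1 : ℝ) < dg χ := by
    exact_mod_cast lt_of_le_of_ne (irr_dg_pos hχ') fun e => h1 (by rw [irr_apply_one hχ', ← e]; simp)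
  have e := res_eq_sum hΘ ha
  rw [res_top] at e
  have t7 : ∀ ψ ∈ irr ⊤, a ψ ≠ 0 → √(Nat.card H) * ipr H (res H ψ) (triv H) < dg ψ := fun ψ hψ h => by
    refine lt_of_pow_lt_pow_left₀ 2 (by exact_mod_cast (irr_dg_pos hψ).le) ?_
    rw [mul_pow, Real.sq_sqrt (Nat.cast_nonneg _)]
    exact key ψ hψ fun e => h ((irr_eq_triv_iff hψ).1 (hM _ (cfker_nml (cf_of_irr hψ)).normal e).ge ▸ t2)
  have t8 : √(Nat.card H) * ipr H (res H Θ) (triv H) < dg χ ^ 2 - 1 := by
    have e1 := congrFun e 1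
    rw [t4, Finset.sum_apply, Finset.sum_congr rfl (g := fun η => ((a η * dg η : ℤ) : ℂ)) fun η hη => by
      simp [irr_apply_one hη], ← Int.cast_sum, Int.cast_inj] at e1
    rw [show (dg χ : ℝ) ^ 2 - 1 = ∑ η ∈ irr ⊤, (a η : ℝ) * dg η by exact_mod_cast e1, e, map_sum, ipr_sum_left,
      Finset.mul_sum]
    simp only [map_smul, ipr_natCast_smul_left, mul_left_comm √_]
    refine Finset.sum_lt_sum (fun ψ hψ => ?_) ?_
    · by_cases h : a ψ = 0
      · simp [h]
      · exact mul_le_mul_of_nonneg_left (t7 ψ hψ h).le (Nat.cast_nonneg _)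
    obtain ⟨ψ, hψ, h⟩ := Finset.exists_ne_zero_of_sum_ne_zero (e1 ▸ (by
      have : 1 < dg χ := by exact_mod_cast t6
      nlinarith : dg χ ^ 2 - 1 ≠ 0))
    have h' : a ψ ≠ 0 := fun e => h (by simp [e])
    exact ⟨ψ, hψ, mul_lt_mul_of_pos_left (t7 ψ hψ h') (by positivity)⟩
  rw [hd, gt_iff_lt, ← Real.sqrt_lt' (by linarith)]
  rw [t3] at t8
  nlinarith [Real.sqrt_nonneg (Nat.card H : ℝ)]

end Cfsg.Agent.S0898
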