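import Cfsg.Statements.S0901
import Cfsg.Agent.H7.Local
import Mathlib.FieldTheory.Finite.Basic
import Mathlib.Algebra.Algebra.ZMod
import Mathlib.FieldTheory.IntermediateField.Adjoin.Basic
import Mathlib.RingTheory.Polynomial.Cyclotomic.Basic

set_option autoImplicit false
open Cfsg

namespace Cfsg.Agent.S0901

open H7

/-- Let M be a maximal ideal of the ring of algebraic integers containing the prime p, and let U be the set of complex roots of unity of order prime to p. Then reduction modulo M is injective on U, and every algebraic integer not in M is congruent modulo M to an element of U (so U maps bijectively onto the nonzero residues). -/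
theorem result (p : ℕ) [Fact p.Prime] (M : Ideal Cfsg.AlgInt) (hM : Cfsg.IsPModular p M) : (∀ ε₁ ε₂ : Cfsg.AlgInt, (∃ m : ℕ, ¬ p ∣ m ∧ (ε₁ : ℂ) ^ m = 1) → (∃ m : ℕ, ¬ p ∣ m ∧ (ε₂ : ℂ) ^ m = 1) → ε₁ - ε₂ ∈ M → ε₁ = ε₂) ∧ (∀ a : Cfsg.AlgInt, a ∉ M → ∃ ε : Cfsg.AlgInt, (∃ m : ℕ, ¬ p ∣ m ∧ (ε : ℂ) ^ m = 1) ∧ a - ε ∈ M) := by
  haveI : PM p M := ⟨hM⟩
  have hp : p.Prime := Fact.out
  refine ⟨fun ε₁ ε₂ ⟨m, hm, h1⟩ ⟨n, hn, h2⟩ h => ?_, fun a ha => ?_⟩
  · have hn0 : n ≠ 0 := by rintro rfl; simp at hn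
    have h3 : (ε₂ : ℂ) ≠ 0 := fun e => by simp [e, hn0] at h2
    have h4 : red M (ε₁ : ℂ) = red M ε₂ := (red_eq_iff (coe_mem_O _) (coe_mem_O _)).2
      ((coe_mem_mC_iff (ε₁ - ε₂)).2 h)
    have h5 : red M (ε₂ : ℂ) ≠ 0 := fun e => by
      have := congrArg (red M) h2
      rw [red_pow (coe_mem_O _), e, zero_pow hn0, red_one] at this
      exact zero_ne_one this
    have h6 := eq_one_of_red_eq_one (M := M) (z := ε₁ / ε₂) (n := m * n)
      (fun e => (hp.dvd_mul.1 e).elim hm hn)
      (by rw [div_pow, pow_mul, h1, mul_comm, pow_mul, h2]; simp)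
      (by rw [red_div (coe_mem_O _) h5, h4, div_self h5])
    exact Subtype.ext (by rwa [div_eq_one_iff_eq h3] at h6)
  · letI := ZMod.algebra (F M) p
    have h0 : red M (a : ℂ) ≠ 0 := (red_ne_zero_iff (coe_mem_O _)).2 (mt (coe_mem_mC_iff a).1 ha)
    have h1 : IsIntegral ℤ (red M (a : ℂ)) := by
      rw [red_of_mem (coe_mem_O a)]
      refine map_isIntegral_int (IsLocalRing.residue (O M)) ?_
      exact (isIntegral_algHom_iff (O M).subtype.toIntAlgHom Subtype.val_injective).1 a.2
    have h2 : IsIntegral (ZMod p) (red M (a : ℂ)) := h1.map_of_comp_eq (algebraMap ℤ (ZMod p)) (RingHom.id _)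
      (RingHom.ext_int _ _)
    have := IntermediateField.adjoin.finiteDimensional h2
    set K := IntermediateField.adjoin (ZMod p) {red M (a : ℂ)}
    have : Finite K := Module.finite_of_finite (ZMod p)
    have := Fintype.ofFinite K
    have h3 := congrArg Subtype.val (FiniteField.pow_card_sub_one_eq_one
      (⟨_, IntermediateField.mem_adjoin_simple_self _ _⟩ : K) fun e => h0 (congrArg Subtype.val e))
    have h4 : ¬ p ∣ Fintype.card K - 1 := fun e => by
      have h5 : p ∣ Fintype.card K := by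
        rw [Module.card_eq_pow_finrank (K := ZMod p), ZMod.card]
        exact dvd_pow_self p Module.finrank_pos.ne'
      have := Nat.dvd_sub h5 e
      rw [Nat.sub_sub_self Fintype.card_pos] at this
      exact hp.one_lt.ne' (Nat.dvd_one.1 this)
    set n := Fintype.card K - 1
    have hn : 0 < n := Nat.pos_of_ne_zero fun e => h4 (by simp [e])
    have h5 := congrArg (Polynomial.eval (a : ℂ))
      (Polynomial.X_pow_sub_one_eq_prod hn (Complex.isPrimitiveRoot_exp n hn.ne'))
    simp only [Polynomial.eval_sub, Polynomial.eval_pow, Polynomial.eval_X, Polynomial.eval_one,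
      Polynomial.eval_prod, Polynomial.eval_C] at h5
    have h6 : ∀ z ∈ Polynomial.nthRootsFinset n (1 : ℂ), z ^ n = 1 := fun z hz =>
      (Polynomial.mem_nthRootsFinset hn 1).1 hz
    have h7 := congrArg (red M) h5
    rw [red_sub (pow_mem (coe_mem_O _) _) (one_mem _), red_pow (coe_mem_O _), red_one,
      show red M (a : ℂ) ^ n = 1 from h3, sub_self, red_prod _ fun z hz =>
        sub_mem (coe_mem_O _) (mem_O_of_pow_eq_one hn.ne' (h6 z hz)), eq_comm,
      Finset.prod_eq_zero_iff] at h7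
    obtain ⟨z, hz, h8⟩ := h7
    refine ⟨⟨z, IsIntegral.of_pow hn (h6 z hz ▸ isIntegral_one)⟩, ⟨n, h4, h6 z hz⟩,
      (coe_mem_mC_iff _).1 ?_⟩
    exact (red_eq_zero_iff (sub_mem (coe_mem_O _) (mem_O_of_pow_eq_one hn.ne' (h6 z hz)))).1 h8

end Cfsg.Agent.S0901
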