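import Cfsg.Statements.S0903
import Cfsg.Agent.H7.Count

set_option autoImplicit false
open Cfsg

namespace Cfsg.Agent.S0903

open H5 H7

/-- Let P be a p-subgroup of the finite group G, let c centralize P and let g, h ∈ G. The number of pairs (x, y) with x conjugate to g, y conjugate to h and x * y = c is congruent modulo p to the number of such pairs in which x and y both centralize P. (This is why the Brauer map on class sums is multiplicative.) -/
theorem result {G : Type*} [Group G] [Finite G] (p : ℕ) [Fact p.Prime] (P : Subgroup G) (hP : IsPGroup p P) (c : G) (hc : c ∈ Subgroup.centralizer (P : Set G)) (g h : G) : Nat.card {xy : G × G // IsConj g xy.1 ∧ IsConj h xy.2 ∧ xy.1 * xy.2 = c} ≡ Nat.card {xy : G × G // IsConj g xy.1 ∧ IsConj h xy.2 ∧ xy.1 * xy.2 = c ∧ xy.1 ∈ Subgroup.centralizer (P : Set G) ∧ xy.2 ∈ Subgroup.centralizer (P : Set G)} [MOD p] := by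
  have h1 := congrArg (fun a => a.coeff c) (Br_mul (k := ZMod p) (ZMod.natCast_self p) hP
    (mem_Inv_of_mem_Z (cls_mem_Z g) P) (mem_Inv_of_mem_Z (cls_mem_Z h) P))
  have h2 : ∀ x : G, Br P (cls (ZMod p) x) =
      setSum (ZMod p) {y | IsConj x y ∧ y ∈ Subgroup.centralizer (P : Set G)} := fun x =>
    ga_ext fun y => by
      by_cases hy : y ∈ Subgroup.centralizer (P : Set G)
      · rw [coeff_Br_of_mem _ hy, coeff_cls, coeff_setSum]
        by_cases h : IsConj x y <;> simp only [h, hy, Set.mem_setOf_eq, and_self, false_and]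
      · rw [coeff_Br_of_notMem _ hy, coeff_setSum_of_notMem fun h => hy h.2]
  simp only [coeff_Br_of_mem _ hc, h2] at h1
  rw [cls, cls, coeff_setSum_mul, coeff_setSum_mul, ZMod.natCast_eq_natCast_iff] at h1
  refine h1.trans (Eq.subst (motive := fun n => _ ≡ n [MOD p]) ?_ (Nat.ModEq.refl _))
  refine Nat.card_congr (Equiv.subtypeEquivRight fun xy => ?_)
  simp only [Set.mem_setOf_eq]
  tauto

end Cfsg.Agent.S0903
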