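import Cfsg.Statements.S0905
import Cfsg.Agent.H7.Defect

set_option autoImplicit false
open Cfsg

namespace Cfsg.Agent.S0905

open H5 H7

/-- Let F be a field of characteristic p and let g be an element of the finite group G no conjugate of which centralizes O_p(G). Then the class sum of g is a nilpotent element of the group algebra F[G]. -/
theorem result {G : Type*} [Group G] [Finite G] (p : ℕ) [Fact p.Prime] (F : Type*) [Field F] [CharP F p] (g : G) (hg : ∀ x : G, IsConj g x → x ∉ Subgroup.centralizer (Cfsg.pCore p G : Set G)) : IsNilpotent (∑ᶠ x ∈ ConjClasses.carrier (ConjClasses.mk g), MonoidAlgebra.single x (1 : F) : MonoidAlgebra F G) := by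
  have e : (∑ᶠ x ∈ ConjClasses.carrier (ConjClasses.mk g), MonoidAlgebra.single x (1 : F) :
      MonoidAlgebra F G) = cls F g := by
    classical
    rw [finsum_mem_eq_finite_toFinset_sum _ (Set.toFinite _)]
    refine ga_ext fun y => ?_
    rw [coeff_sum', coeff_cls]
    simp only [MonoidAlgebra.coeff_single, Finsupp.single_apply, Finset.sum_ite_eq',
      Set.Finite.mem_toFinset, ConjClasses.mem_carrier_iff_mk_eq, ConjClasses.mk_eq_mk_iff_isConj]
    exact if_congr isConj_comm rfl rfl
  rw [e]
  refine isNilpotent_of_Br_eq_zero (isPGroup_pCore' (p := p)) (mem_Inv_of_mem_Z (cls_mem_Z g) _) ?_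
  rw [Br_eq_zero_iff]
  exact fun x hx => coeff_cls_of_not fun h => hg x h hx

end Cfsg.Agent.S0905
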