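import Cfsg.Statements.S0914
import Cfsg.Agent.H7.Height

set_option autoImplicit false
open Cfsg

namespace Cfsg.Agent.S0914

open H5 H7

/-- Let χ be an irreducible character of the finite group G, p a prime and M a maximal ideal of the algebraic integers containing p. Then p does not divide the integer (Nat.card G) / χ(1) if and only if the block of χ relative to M consists of χ alone. -/
theorem result {G : Type*} [Group G] [Finite G] (p : ℕ) [Fact p.Prime] (M : Ideal Cfsg.AlgInt) (hM : Cfsg.IsPModular p M) (χ : Cfsg.IrrCharacter G) : ¬ p ∣ Nat.card G / Cfsg.charDegree (χ : G → ℂ) ↔ Cfsg.blockOf M (χ : G → ℂ) = {χ} := by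
  haveI : PM p M := ⟨hM⟩
  have hp : p.Prime := Fact.out
  rw [block_eq_singleton_iff (isPBlock_blockOf χ) (mem_blockOf_self χ)]
  obtain ⟨m, hm⟩ := χ.2.charDegree_dvd_card
  have h0 := charDegree_ne_zero χ.2
  have hm0 : m ≠ 0 := by rintro rfl; exact Nat.card_pos.ne' hm
  rw [hm, Nat.mul_div_cancel_left _ (Nat.pos_of_ne_zero h0), Nat.factorization_mul h0 hm0,
    Finsupp.add_apply, hp.dvd_iff_one_le_factorization hm0]
  omega

end Cfsg.Agent.S0914
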