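import Cfsg.Statements.S0918
import Cfsg.Agent.H7.Induce

set_option autoImplicit false
open Cfsg

namespace Cfsg.Agent.S0918

open H5 H7

/-- Let P be a p-subgroup of the finite group G and H a subgroup with P·C_G(P) ≤ H ≤ N_G(P); let b be a block of H and B a block of G relative to a maximal ideal M of the algebraic integers containing p. Then b induces B if and only if, for every g ∈ G, every ξ ∈ b and every χ ∈ B, the central character of χ at g is congruent modulo the local ideal at M to the sum of ξ h / ξ 1 over the elements h of H conjugate in G to g and centralizing P. -/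
theorem result {G : Type*} [Group G] [Finite G] (p : ℕ) [Fact p.Prime] (M : Ideal Cfsg.AlgInt) (hM : Cfsg.IsPModular p M) (P H : Subgroup G) (hP : IsPGroup p P) (hPH : P ≤ H) (hCH : Subgroup.centralizer (P : Set G) ≤ H) (hHN : H ≤ Subgroup.normalizer (P : Set G)) (b : Set (Cfsg.IrrCharacter H)) (hb : Cfsg.IsPBlock M b) (B : Set (Cfsg.IrrCharacter G)) (hB : Cfsg.IsPBlock M B) : Cfsg.IsInducedBlock M H b B ↔ ∀ ξ ∈ b, ∀ χ ∈ B, ∀ g : G, Cfsg.MemLocalIdeal M (Cfsg.brauerCentralChar P H (ξ : H → ℂ) g - Cfsg.centralChar (χ : G → ℂ) g) := by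
  haveI : PM p M := ⟨hM⟩
  have L := locSet_subtype hP hPH hCH hHN
  rw [isInducedBlock_iff_indB, IndB, and_iff_right hb, and_iff_right hB]
  refine forall₂_congr fun ξ _ => forall₂_congr fun χ _ => ?_
  rw [ind_iff_cls]
  refine forall_congr' fun g => ?_
  have h1 : res H.subtype (Br P (cls ℂ g)) ∈ Z ℂ H := res_Br_mem_Z L.norm (cls_mem_Z g)
  have h2 : res H.subtype (Br P (cls ℂ g)) ∈ OG M H := res_mem_OG _ (Br_mem_OG _ (cls_mem_OG g))
  rw [← L.lam_res_Br ξ.2 (cls_mem_Z g), lam_cls χ.2.isClassFunction, ← redA_cls, ← redA_Br,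
    ← redA_res, lam_redA ξ.2 h1 h2, red_eq_iff (om_mem_O ξ.2 h1 h2) (centralChar_mem_O χ.2 g),
    om_res_Br_cls, mem_mC]

end Cfsg.Agent.S0918
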