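import Cfsg.Statements.S0920
import Cfsg.Agent.H7.Induce

set_option autoImplicit false
open Cfsg

namespace Cfsg.Agent.S0920

open H5 H7

/-- Brauer's First Main Theorem. Let D be a p-subgroup of the finite group G with normalizer N, and fix a maximal ideal M of the algebraic integers containing p. Then (i) every block b of N having D as a defect group induces some block B of G having D as a defect group; (ii) every block of G with defect group D is induced by exactly one block of N with defect group D. -/
theorem result {G : Type*} [Group G] [Finite G] (p : ℕ) [Fact p.Prime] (M : Ideal Cfsg.AlgInt) (hM : Cfsg.IsPModular p M) (D : Subgroup G) (hD : IsPGroup p D) : (∀ b : Set (Cfsg.IrrCharacter (Subgroup.normalizer (D : Set G))), Cfsg.IsPBlock M b → Cfsg.IsDefectGroup p M b (D.subgroupOf (Subgroup.normalizer (D : Set G))) → ∃ B : Set (Cfsg.IrrCharacter G), Cfsg.IsPBlock M B ∧ Cfsg.IsDefectGroup p M B D ∧ Cfsg.IsInducedBlock M (Subgroup.normalizer (D : Set G)) b B) ∧ (∀ B : Set (Cfsg.IrrCharacter G), Cfsg.IsPBlock M B → Cfsg.IsDefectGroup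 p M B D → ∃! b : Set (Cfsg.IrrCharacter (Subgroup.normalizer (D : Set G))), Cfsg.IsPBlock M b ∧ Cfsg.IsDefectGroup p M b (D.subgroupOf (Subgroup.normalizer (D : Set G))) ∧ Cfsg.IsInducedBlock M (Subgroup.normalizer (D : Set G)) b B) := by
  haveI : PM p M := ⟨hM⟩
  have L := locSet_normalizer hD
  have hN : Subgroup.normalizer (D : Set G) ≤ (Subgroup.normalizer (D : Set G)).subtype.range := by
    simp
  refine ⟨fun b hb hbD => ?_, fun B hB hBD => ?_⟩
  · obtain ⟨B, h⟩ := L.exists_indB hb
    exact ⟨B, h.2.1, first_main_defect L hN h hbD, isInducedBlock_iff_indB.2 h⟩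
  · obtain ⟨b, h, hb⟩ := first_main_exists L hB hBD
    exact ⟨b, ⟨h.1, hb, isInducedBlock_iff_indB.2 h⟩, fun b' ⟨_, h2, h3⟩ =>
      first_main_unique L hN (isInducedBlock_iff_indB.1 h3) h h2⟩

end Cfsg.Agent.S0920
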