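import Cfsg.Statements.S0926
import Cfsg.Agent.H7.Second

set_option autoImplicit false
open Cfsg

namespace Cfsg.Agent.S0926

open H5 H7

/-- Let B be a block of the finite group G with defect group D (relative to a maximal ideal M of the algebraic integers containing p), let χ ∈ B have height zero, and let x be a p-element. Then some conjugate of x lies in D if and only if χ does not vanish on the whole p-section of x (the elements whose p-part is conjugate to x). -/
theorem result {G : Type*} [Group G] [Finite G] (p : ℕ) [Fact p.Prime] (M : Ideal Cfsg.AlgInt) (hM : Cfsg.IsPModular p M) (B : Set (Cfsg.IrrCharacter G)) (hB : Cfsg.IsPBlock M B) (D : Subgroup G) (hD : Cfsg.IsDefectGroup p M B D) (χ : Cfsg.IrrCharacter G) (hχ : χ ∈ B) (h0 : Cfsg.blockHeight p B (χ : G → ℂ) = 0) (x : G) (hx : ∃ k : ℕ, orderOf x = p ^ k) : (∃ g : G, g * x * g⁻¹ ∈ D) ↔ ∃ u : G, (∃ z : G, Cfsg.IsPPart p u z ∧ IsConj x z) ∧ (χ : G → ℂ) u ≠ 0 := by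
  haveI : PM p M := ⟨hM⟩
  constructor
  · rintro ⟨g, hg⟩
    obtain ⟨y, hy, hS⟩ := isDefectGroup_iff.1 hD
    have hc : Commute (g * x * g⁻¹) y := Subgroup.mem_centralizer_singleton_iff.1 (hS.le hg)
    have hx' := IsPE.conj hx g
    refine ⟨g * x * g⁻¹ * y, ⟨g * x * g⁻¹, isPPart_iff.2
      (pp_mul_of hx' (IsDefectClass.not_dvd hB hy) hc).symm, isConj_iff.2 ⟨g, rfl⟩⟩, fun h => ?_⟩
    exact IsDefectClass.red_char_ne_zero hB hy hχ h0 hx' hc (by rw [h, red_zero])
  · rintro ⟨u, ⟨z, hz, hxz⟩, hu⟩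
    obtain ⟨a, ha⟩ := exists_conj_pp_mem hB hχ hu hD
    obtain ⟨c, rfl⟩ := isConj_iff.1 hxz
    rw [← isPPart_iff.1 hz] at ha
    exact ⟨a * c, by simpa [mul_assoc] using ha⟩

end Cfsg.Agent.S0926
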