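import Cfsg.Statements.S0928
import Cfsg.Agent.H7.Second

set_option autoImplicit false
open Cfsg

namespace Cfsg.Agent.S0928

open H5 H7

/-- Let χ be an irreducible character of the finite group G and p a prime. If χ g = 0 for every element g of order p, then the exponent of p in the degree χ(1) equals the exponent of p in the order of G (χ has p-defect zero). -/
theorem result {G : Type*} [Group G] [Finite G] (p : ℕ) [Fact p.Prime] (χ : Cfsg.IrrCharacter G) (hvan : ∀ g : G, orderOf g = p → (χ : G → ℂ) g = 0) : (Cfsg.charDegree (χ : G → ℂ)).factorization p = (Nat.card G).factorization p := by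
  obtain ⟨M, hM⟩ := exists_isPModular p
  haveI : PM p M := ⟨hM⟩
  have hp : p.Prime := Fact.out
  have h0 : blockDefect p (blockOf M (χ : G → ℂ)) = 0 := by
    by_contra h0
    have := lam_setSum_pow_eq_zero (isPBlock_blockOf χ) h0 (mem_blockOf_self χ)
    rw [← redA_setSum, lam_redA χ.2 (setSum_mem_Z fun h g => by simp [mul_inv_eq_one])
      (setSum_mem_OG _), om_setSum, finsum_mem_def, finsum_eq_single _ 1] at this
    · simp [χ.2.apply_one_ne_zero] at this
    · intro g hg
      by_cases h : g ^ p = 1
      · rw [Set.indicator_of_mem (show g ∈ {g : G | g ^ p = 1} from h),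
          hvan g (orderOf_eq_prime h hg), zero_div]
      · exact Set.indicator_of_notMem (show g ∉ {g : G | g ^ p = 1} from h) _
  have h1 := factorization_add_defect (M := M) (p := p) (mem_blockOf_self (M := M) χ)
  have h2 := factorization_charDegree_le' (M := M) (p := p) χ.2
  omega

end Cfsg.Agent.S0928
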