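import Cfsg.Statements.S0935
import Cfsg.Agent.H7.Height

set_option autoImplicit false
open Cfsg

namespace Cfsg.Agent.S0935

open H5 H7

/-- Let H be a subgroup of the finite group G and χ an irreducible character of G whose restriction to H is irreducible; fix a maximal ideal M of the algebraic integers containing the prime p and suppose χ and its restriction have height zero in their blocks B and b. If e is a block of H whose induced block is defined, then e induces B if and only if e = b. -/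
theorem result {G : Type*} [Group G] [Finite G] (p : ℕ) [Fact p.Prime] (M : Ideal Cfsg.AlgInt) (hM : Cfsg.IsPModular p M) (H : Subgroup G) (χ : Cfsg.IrrCharacter G) (hres : Cfsg.IsIrrCharacter H (fun h : H => (χ : G → ℂ) h)) (hχ0 : Cfsg.blockHeight p (Cfsg.blockOf M (χ : G → ℂ)) (χ : G → ℂ) = 0) (hψ0 : Cfsg.blockHeight p (Cfsg.blockOf M (fun h : H => (χ : G → ℂ) h)) (fun h : H => (χ : G → ℂ) h) = 0) (e : Set (Cfsg.IrrCharacter H)) (he : Cfsg.InducedBlockDefined M H e) : Cfsg.IsInducedBlock M H e (Cfsg.blockOf M (χ : G → ℂ)) ↔ e = Cfsg.blockOf M (fun h : H => (χ : G → ℂ) h) := by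
  haveI : PM p M := ⟨hM⟩
  obtain ⟨B, hB⟩ := he
  have h := isInducedBlock_iff_indB.1 hB
  obtain ⟨ξ, hξ⟩ := block_nonempty h.1
  obtain ⟨η, hη⟩ := block_nonempty h.2.1
  let ψ : IrrCharacter H := ⟨_, hres⟩
  have := (h.2.2 ξ hξ η hη).okuyama H.subtype_injective (isPBlock_blockOf χ) (isPBlock_blockOf ψ)
    (ψ := ψ) rfl (mem_blockOf_self χ) (mem_blockOf_self ψ) hχ0 hψ0
  rw [isInducedBlock_iff_indB]
  refine ⟨fun h' => block_eq_of_mem h.1 (isPBlock_blockOf ψ) hξ (this.1 (h.unique h' ▸ hη)),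
    fun e => ?_⟩
  exact block_eq_of_mem h.2.1 (isPBlock_blockOf χ) hη (this.2 (show ξ ∈ blockOf M _ from e ▸ hξ)) ▸ h

end Cfsg.Agent.S0935
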