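import Cfsg.Statements.S0938
import Cfsg.Agent.H7.Cover

set_option autoImplicit false
open Cfsg

namespace Cfsg.Agent.S0938

open H5 H7

/-- Let B be a block of the finite group G relative to a maximal ideal M of the algebraic integers containing the prime p, and let χ ∈ B. Then the kernel of B (the set of g with ψ g = ψ 1 for all ψ ∈ B) is a normal subgroup of order prime to p contained in the kernel of χ, and it contains every normal subgroup of order prime to p on which χ takes the value χ(1); that is, it is O_p' of the kernel of χ. -/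
theorem result {G : Type*} [Group G] [Finite G] (p : ℕ) [Fact p.Prime] (M : Ideal Cfsg.AlgInt) (hM : Cfsg.IsPModular p M) (B : Set (Cfsg.IrrCharacter G)) (hB : Cfsg.IsPBlock M B) (χ : Cfsg.IrrCharacter G) (hχ : χ ∈ B) : ∃ K : Subgroup G, K.Normal ∧ (K : Set G) = Cfsg.blockKer B ∧ ¬ p ∣ Nat.card K ∧ (∀ g ∈ K, (χ : G → ℂ) g = (χ : G → ℂ) 1) ∧ ∀ N : Subgroup G, N.Normal → ¬ p ∣ Nat.card N → (∀ g ∈ N, (χ : G → ℂ) g = (χ : G → ℂ) 1) → N ≤ K := by
  haveI : PM p M := ⟨hM⟩
  have hp : p.Prime := Fact.out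
  have key : ∀ g, g ∈ ⨅ ψ ∈ B, charKer ((ψ : IrrCharacter G) : G → ℂ) ↔ g ∈ blockKer B := fun g => by
    simp only [Subgroup.mem_iInf]
    exact forall₂_congr fun ψ _ => ψ.2.mem_charKer
  refine ⟨⨅ ψ ∈ B, charKer ((ψ : IrrCharacter G) : G → ℂ), ?_, Set.ext key, fun h => ?_,
    fun g hg => (key g).1 hg χ hχ, fun N _ hN h g hg => (key g).2 fun ψ hψ => ?_⟩
  · exact Subgroup.normal_iInf_normal fun ψ => Subgroup.normal_iInf_normal fun _ =>
      ψ.2.isCharacter.normal_charKer
  · obtain ⟨x, hx⟩ := exists_prime_orderOf_dvd_card' p h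
    exact not_dvd_of_forall_eq (p := p) (isSat_of_isPBlock hB) ⟨χ, hχ⟩ ((key x).1 x.2)
      (by rw [Subgroup.orderOf_coe, hx])
  · exact (isSat_kerSet hN).subset_of_mem hB (show χ ∈ kerSet N from h) hχ hψ g hg

end Cfsg.Agent.S0938
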