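import Cfsg.Statements.S0943
import Cfsg.Agent.H7.Block

set_option autoImplicit false
open Cfsg

namespace Cfsg.Agent.S0943

open H5 H7

/-- Let χ be an irreducible character of the finite group G and u, v ∈ G. If χ (x * y) = χ (u * v) whenever x is conjugate to u and y is conjugate to v, then χ u * χ v = χ 1 * χ (u * v). (Multiply the class sums of u and v and apply the central character of χ.) -/
theorem result {G : Type*} [Group G] [Finite G] (χ : Cfsg.IrrCharacter G) (u v : G) (hc : ∀ x y : G, IsConj u x → IsConj v y → (χ : G → ℂ) (x * y) = (χ : G → ℂ) (u * v)) : (χ : G → ℂ) u * (χ : G → ℂ) v = (χ : G → ℂ) 1 * (χ : G → ℂ) (u * v) := by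
  classical
  have := Fintype.ofFinite G
  have h1 := χ.2.apply_one_ne_zero
  have key := om_mul χ.2 (cls_mem_Z (k := ℂ) u) (cls ℂ v)
  rw [om_apply, om_apply, om_apply, ev_cls χ.2.isClassFunction, ev_cls χ.2.isClassFunction,
    ev_mul] at key
  have e : ∑ x, ∑ y, (cls ℂ u).coeff x * (cls ℂ v).coeff y * (χ : G → ℂ) (x * y) =
      (∑ x, (cls ℂ u).coeff x * 1) * (∑ y, (cls ℂ v).coeff y * 1) * (χ : G → ℂ) (u * v) := by
    rw [Finset.sum_mul_sum, Finset.sum_mul]
    refine Finset.sum_congr rfl fun x _ => ?_
    rw [Finset.sum_mul]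
    refine Finset.sum_congr rfl fun y _ => ?_
    by_cases hx : IsConj u x
    · by_cases hy : IsConj v y
      · rw [hc x y hx hy, mul_one, mul_one]
      · simp [coeff_cls_of_not hy]
    · simp [coeff_cls_of_not hx]
  rw [e, ← ev_apply (fun _ => (1 : ℂ)), ← ev_apply (fun _ => (1 : ℂ)),
    ev_cls (isClassFunction_const 1), ev_cls (isClassFunction_const 1)] at key
  have hu : ((Subgroup.centralizer ({u} : Set G)).index : ℂ) ≠ 0 := by
    exact_mod_cast Subgroup.index_ne_zero_of_finite
  have hv : ((Subgroup.centralizer ({v} : Set G)).index : ℂ) ≠ 0 := by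
    exact_mod_cast Subgroup.index_ne_zero_of_finite
  field_simp at key
  linear_combination -key

end Cfsg.Agent.S0943
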