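import Cfsg.Statements.S0946
import Cfsg.Agent.H7.Homo

set_option autoImplicit false
open Cfsg

namespace Cfsg.Agent.S0946

open H5 H7

/-- Let P be a Sylow 2-subgroup of the finite group G isomorphic to Z/2^m × Z/2^m with m ≥ 1. Then either P has a normal complement in G, or all involutions of G are conjugate. -/
theorem result {G : Type*} [Group G] [Finite G] (P : Sylow 2 G) (m : ℕ) (hm : 1 ≤ m) (e : (P : Subgroup G) ≃* Multiplicative (ZMod (2 ^ m) × ZMod (2 ^ m))) : (∃ N : Subgroup G, N.Normal ∧ Subgroup.IsComplement' N (P : Subgroup G)) ∨ ∀ s t : G, orderOf s = 2 → orderOf t = 2 → IsConj s t := by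
  have h := (r2_zmod hm).of_equiv e
  have F := h.fa (sylIn_top P)
  rcases h.card_eq (not_dvd_card_autN (sylIn_top P) F.ab) with e | e
  · exact .inl ⟨_, inferInstance, MonoidHom.ker_transferSylow_isComplement' P (le_of_card_autN e)⟩
  obtain ⟨V, h1, h2⟩ := h.kl
  have key : ∀ v w : (P : Subgroup G), v ≠ 1 → w ≠ 1 → v ∈ V → w ∈ V → IsConj (v : G) w :=
    fun v w v1 w1 hv hw => by
    have : Function.Bijective fun σ : autN (P : Subgroup G) => (⟨σ.1 v, (h2 _).2 (by
        rw [← map_mul, (h2 v).1 hv, map_one]), by simpa⟩ : ((V : Set (P : Subgroup G)) \ {1} : Set _)) :=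
      (Nat.bijective_iff_injective_and_card _).2 ⟨fun σ τ e => F.fr.inj v1 (congrArg Subtype.val e), by
        rw [e, Nat.card_coe_set_eq, Set.ncard_diff_singleton_of_mem V.one_mem,
          show (V : Set (P : Subgroup G)).ncard = 4 from h1.card_four]⟩
    obtain ⟨σ, hσ⟩ := this.2 ⟨w, hw, w1⟩
    exact F.isConj_iff'.2 ⟨σ.1, σ.2, congrArg Subtype.val hσ⟩
  have k : ∀ s : G, orderOf s = 2 → ∃ v : (P : Subgroup G), v ≠ 1 ∧ v ∈ V ∧ IsConj s v := fun s hs => by
    obtain ⟨v, v1, e⟩ := F.exists_conj hs.symm.dvd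
    rw [pp_of_isPE ⟨1, hs⟩] at e
    exact ⟨v, v1, (h2 v).2 (Subtype.ext (mul_self_of_isConj (by rw [← sq, ← hs, pow_orderOf_eq_one]) e)), e⟩
  refine .inr fun s t hs ht => ?_
  obtain ⟨v, v1, hv, e⟩ := k s hs
  obtain ⟨w, w1, hw, e'⟩ := k t ht
  exact (e.trans (key v w v1 w1 hv hw)).trans e'.symm

end Cfsg.Agent.S0946
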