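import Cfsg.Statements.S0950
import Cfsg.Agent.H7.TameG
import Cfsg.Agent.H9.MaxClass
import Cfsg.Agent.H3.Frobenius

set_option autoImplicit false
open Cfsg

namespace Cfsg.Agent.S0950

open H5 H7

/-- Let S be a Sylow 2-subgroup of the finite group G that is isomorphic to the quaternion group of order 8, and suppose S has no normal complement in G. Then any two subgroups of order 4 of S are conjugate by an element of the normalizer of S. -/
theorem result {G : Type*} [Group G] [Finite G] (S : Sylow 2 G) (e : (S : Subgroup G) ≃* QuaternionGroup 2) (hnc : ∀ N : Subgroup G, N.Normal → ¬ Subgroup.IsComplement' N (S : Subgroup G)) (A B : Subgroup G) (hA : A ≤ S) (hB : B ≤ S) (hA4 : Nat.card A = 4) (hB4 : Nat.card B = 4) : ∃ n ∈ Subgroup.normalizer ((S : Subgroup G) : Set G), B = A.map (MulAut.conj n).toMonoidHom := by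
    open Subgroup in
    obtain ⟨x, y, q⟩ := H9.exists_qData two_pos e
    have hn : ¬ HasNormalPComplement 2 G := fun h => by
      obtain ⟨N, h1, h2⟩ := (H3.hasNormalPComplement_iff_exists_isComplement' S).1 h
      exact hnc N h1 h2
    rw [H3.frobenius_iff S] at hn
    push Not at hn
    obtain ⟨Q, hQ, t, ht, ho, hc⟩ := hn
    rw [Nat.coprime_two_right] at ho
    have cyc : ∀ Q ≤ (S : Subgroup G), Q ≠ S → ∃ a, zpowers a = Q := fun Q hQ hne => by
      rcases H9.isCyclic_or_qData (S.2.to_le hQ) (fun v hv w hw h1 h2 =>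
        (q.eq_u (hQ hv) h1).trans (q.eq_u (hQ hw) h2).symm) with e | ⟨n, a, b, e⟩
      · exact (Subgroup.isCyclic_iff_exists_zpowers_eq_top Q).1 e
      · refine absurd (eq_of_le_of_card_ge hQ ?_) hne
        rw [q.card_eq, e.card_eq, pow_succ]
        have := Nat.one_le_two_pow (n := n)
        omega
    obtain rfl : Q = S := by
      by_contra hne
      obtain ⟨a, rfl⟩ := cyc Q hQ hne
      obtain ⟨k, hk⟩ := S.2 ⟨a, hQ (mem_zpowers a)⟩
      refine hc (mem_centralizer_iff.2 fun b hb => ?_)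
      obtain ⟨j, rfl⟩ := mem_zpowers_iff.1 hb
      exact ((H9.commute_of_odd_of_conj_mem (congrArg Subtype.val hk) ho
        ((mem_normalizer_iff.1 ht a).1 (mem_zpowers a))).zpow_right j).symm
    have four : ∀ A ≤ (S : Subgroup G), Nat.card A = 4 → ∃ a ∈ (S : Subgroup G), orderOf a = 4 ∧
        zpowers a = A := fun A hA h4 => by
      obtain ⟨a, rfl⟩ := cyc A hA fun e => by rw [e, q.card_eq] at h4; omega
      exact ⟨a, hA (mem_zpowers a), (Nat.card_zpowers a).symm.trans h4, rfl⟩
    obtain ⟨a, ha, a4, rfl⟩ := four A hA hA4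
    obtain ⟨c, hc', c4, rfl⟩ := four B hB hB4
    have key : ∀ s ∈ zpowers t, t ∈ zpowers s → ∀ a ∈ (S : Subgroup G), orderOf a = 4 →
        s * a * s⁻¹ ∉ zpowers a := fun s hs hs' a ha a4 e => by
      obtain ⟨b, q'⟩ := q.exists_q8 ha a4
      refine hc (mem_centralizer_iff.2 fun g hg => ?_)
      obtain ⟨j, hj⟩ := mem_zpowers_iff.1 hs'
      exact hj ▸ (((H9.QData.mc (k := 0) q').commute_of_odd (zpowers_le.2 ht hs)
        (ho.of_dvd_nat (orderOf_dvd_of_mem_zpowers hs)) e hg).symm.zpow_right j).eq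
    have fin : ∀ n ∈ zpowers t, c ∈ zpowers (n * a * n⁻¹) → ∃ n ∈ normalizer ((S : Subgroup G) : Set G),
        zpowers c = (zpowers a).map (MulAut.conj n).toMonoidHom := fun n hn e =>
      ⟨n, zpowers_le.2 ht hn, by
        rw [MonoidHom.map_zpowers]
        exact eq_of_le_of_card_ge (zpowers_le.2 e) (by
          simp [Nat.card_zpowers, c4, H9.orderOf_conj', a4])⟩
    have m1 : t * a * t⁻¹ ∈ (S : Subgroup G) := (mem_normalizer_iff.1 ht a).1 ha
    have m2 : t * t * a * (t * t)⁻¹ ∈ (S : Subgroup G) :=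
      (mem_normalizer_iff.1 (mul_mem ht ht) a).1 ha
    have n1 := key t (mem_zpowers t) (mem_zpowers t) a ha a4
    have n2 := key (t * t) (mul_mem (mem_zpowers t) (mem_zpowers t)) (by
      obtain ⟨m, hm⟩ := exists_pow_eq_self_of_coprime (n := 2) (x := t) (Nat.coprime_two_left.2 ho)
      exact ⟨m, by rw [← sq]; simpa using hm⟩) a ha a4
    have n3 := key t (mem_zpowers t) (mem_zpowers t) _ m1 (by rw [H9.orderOf_conj', a4])
    rw [show t * (t * a * t⁻¹) * t⁻¹ = t * t * a * (t * t)⁻¹ by group] at n3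
    by_cases e0 : c ∈ zpowers a
    · exact fin 1 (one_mem _) (by simpa using e0)
    obtain ⟨b, q'⟩ := q.exists_q8 ha a4
    have h := H9.QData.mc (k := 0) q'
    have sq : ∀ {u v : G}, v ∈ (S : Subgroup G) → v ∉ zpowers a → u * v⁻¹ ∈ zpowers (a ^ 2) →
        u ∈ zpowers v := fun {u v} hv hv' e => by
      rw [← q'.mul_self hv hv'] at e
      simpa using mul_mem (zpowers_le.2 (mul_mem (mem_zpowers v) (mem_zpowers v)) e) (mem_zpowers v)
    by_cases e1 : c * (t * a * t⁻¹)⁻¹ ∈ zpowers (a ^ 2)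
    · exact fin t (mem_zpowers t) (sq m1 n1 e1)
    refine fin (t * t) (mul_mem (mem_zpowers t) (mem_zpowers t)) (sq m2 n2 ?_)
    have := H9.mul_inv_mem_of_relIndex_two h.relIndex_sq (h.mul_inv_mem hc' m1 e0 n1)
      (h.mul_inv_mem m2 m1 n2 n1) e1 (mt (sq m1 n1) n3)
    convert this using 1
    group

end Cfsg.Agent.S0950
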