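import Cfsg.Statements.S0951
import Cfsg.Agent.H7.TameG
import Cfsg.Agent.H9.MaxClass
import Cfsg.Agent.S4646
import Cfsg.Agent.S4652

set_option autoImplicit false
open Cfsg

namespace Cfsg.Agent.S0951

open H5 H7

/-- Let S be a Sylow 2-subgroup of the finite group G isomorphic to the quaternion group of order 8. Suppose G has no nontrivial normal subgroup of odd order and G ≠ S. Then, relative to any maximal ideal M of the algebraic integers containing 2, the principal block of G consists of exactly 7 irreducible characters. -/
theorem result {G : Type*} [Group G] [Finite G] (M : Ideal Cfsg.AlgInt) (hM : Cfsg.IsPModular 2 M) (S : Sylow 2 G) (e : (S : Subgroup G) ≃* QuaternionGroup 2) (hO : ∀ N : Subgroup G, N.Normal → Odd (Nat.card N) → N = ⊥) (hG : (S : Subgroup G) ≠ ⊤) : Nat.card (Cfsg.principalBlock M G) = 7 := by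
    classical
    haveI : PM 2 M := ⟨hM⟩
    have := Fintype.ofFinite G
    obtain ⟨x, y, q, h⟩ := H9.exists_mc_of_quaternion (k := 0) e
    obtain ⟨m, z, g, n, T, E, ξ, t, s⟩ := exists_tame (isPBlock_principalBlock (M := M))
      ((S4652.result 2 M hM _).2 ⟨S, rfl⟩) h
    have e : ∀ i, ¬ (g i : G) * g i = 1 := fun i => (q.mul_self (g i).2 (t.out i)).trans_ne h.u_ne_one
    have c := s.cnt'
    simp only [e, false_or] at c
    have r := s.rank'
    have := s.num'
    have := s.ev
    have : blockRank 2 (principalBlock M G) ≠ 1 := fun e => by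
      obtain ⟨N, h1, h2⟩ := (H3.hasNormalPComplement_iff_exists_isComplement' S).1
        ((S4691.result 2 M hM).2 ((S4646.result 2 M hM).2 e))
      rw [hO N h1 (Nat.not_even_iff_odd.1 fun e => S.not_dvd_index (h2.index_eq_card ▸ e.two_dvd)),
        Subgroup.isComplement'_bot_left] at h2
      exact hG h2
    grind

end Cfsg.Agent.S0951
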