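import Cfsg.Statements.S0952
import Cfsg.Agent.H7.Height

set_option autoImplicit false
open scoped ComplexConjugate
open Cfsg

namespace Cfsg.Agent.S0952

open H5 H7

/-- Let χ and ψ be irreducible characters of the finite group G lying in different blocks relative to a maximal ideal M of the algebraic integers containing the prime p. Then the sum of χ x * conj (ψ x) over the elements x of order prime to p is zero. -/
theorem result {G : Type*} [Group G] [Finite G] (p : ℕ) [Fact p.Prime] (M : Ideal Cfsg.AlgInt) (hM : Cfsg.IsPModular p M) (χ ψ : Cfsg.IrrCharacter G) (h : ¬ Cfsg.SameBlock M (χ : G → ℂ) (ψ : G → ℂ)) : ∑ᶠ x ∈ {x : G | ¬ p ∣ orderOf x}, (χ : G → ℂ) x * conj ((ψ : G → ℂ) x) = 0 := by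
  haveI : PM p M := ⟨hM⟩
  have := Fintype.ofFinite G
  have h1 := classInner_reg_eq_zero (p := p) (isSat_of_isPBlock (isPBlock_blockOf (M := M) ψ))
    (χ := χ) (fun e => h (sameBlock_symm e)) (mem_blockOf_self ψ)
  rw [finsum_mem_def, finsum_eq_sum_of_fintype, ← mul_zero (Nat.card G : ℂ), ← h1,
    card_mul_classInner]
  refine Finset.sum_congr rfl fun g _ => ?_
  by_cases hg : p ∣ orderOf g
  · rw [reg_of_dvd _ hg, zero_mul, Set.indicator_of_notMem (by simpa using hg)]
  · rw [reg_of_not_dvd _ hg, Set.indicator_of_mem (by simpa using hg)]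

end Cfsg.Agent.S0952
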