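import Cfsg.Statements.S0953
import Cfsg.Agent.H7.Count

set_option autoImplicit false
open Cfsg

namespace Cfsg.Agent.S0953

open H5 H7

/-- Let P be a Sylow p-subgroup of the finite group G with normalizer N, and fix a maximal ideal M of the algebraic integers containing p. The number of blocks of G having P as a defect group equals the number of conjugacy classes of N consisting of elements of order prime to p that centralize P. -/
theorem result {G : Type*} [Group G] [Finite G] (p : ℕ) [Fact p.Prime] (M : Ideal Cfsg.AlgInt) (hM : Cfsg.IsPModular p M) (P : Sylow p G) : Nat.card {B : Set (Cfsg.IrrCharacter G) // Cfsg.IsPBlock M B ∧ Cfsg.IsDefectGroup p M B (P : Subgroup G)} = Nat.card {C : ConjClasses (Subgroup.normalizer ((P : Subgroup G) : Set G)) // ∀ n : Subgroup.normalizer ((P : Subgroup G) : Set G), ConjClasses.mk n = C → ¬ p ∣ orderOf n ∧ (n : G) ∈ Subgroup.centralizer ((P : Subgroup G) : Set G)} := by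
  haveI : PM p M := ⟨hM⟩
  rw [Nat.card_congr (Equiv.subtypeEquivRight fun B => and_congr_right fun hB =>
    isDefectGroup_sylow_iff hB P), le_antisymm (card_blocks_le _) card_classes_le]
  have hS : ∀ c ∈ Subgroup.centralizer ((P : Subgroup G) : Set G),
      SylIn p (P : Subgroup G) (Subgroup.centralizer ({c} : Set G)) := fun c hc =>
    (sylIn_top P).of_le (le_centralizer_singleton_iff.2 hc) le_top
  refine (Nat.card_eq_of_bijective (fun C => ⟨ConjClasses.map (Subgroup.subtype _) C.1,
    (rep C.1 : Subgroup.normalizer ((P : Subgroup G) : Set G)),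
    congrArg (ConjClasses.map (Subgroup.subtype _)) (mk_rep C.1),
    by simpa [IsPRegular] using (C.2 _ (mk_rep _)).1, by
      have := (hS _ (C.2 _ (mk_rep _)).2).card
      rw [P.card_eq_multiplicity, Nat.pow_right_inj (Fact.out : p.Prime).one_lt] at this
      exact this.le⟩) ⟨?_, ?_⟩).symm
  · rintro ⟨C, hC⟩ ⟨C', hC'⟩ e
    obtain ⟨x, rfl⟩ := ConjClasses.mk_surjective C
    obtain ⟨y, rfl⟩ := ConjClasses.mk_surjective C'
    obtain ⟨n, hn, h⟩ := exists_normalizer_conj (hS _ (hC x rfl).2)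
      (ConjClasses.mk_eq_mk_iff_isConj.1 (congrArg Subtype.val e)) (hC' y rfl).2
    exact Subtype.ext (ConjClasses.mk_eq_mk_iff_isConj.2 (isConj_iff.2 ⟨⟨n, hn⟩, Subtype.ext h⟩))
  · rintro ⟨_, g, rfl, h1, h2⟩
    obtain ⟨Q, hQ⟩ := exists_sylIn p (Subgroup.centralizer ({g} : Set G))
    obtain ⟨x, hx⟩ := ((sylIn_top P).cle hQ.isPGroup le_top).exists_eq (by
      rw [hQ.card, P.card_eq_multiplicity]
      exact Nat.pow_le_pow_right (Fact.out : p.Prime).pos h2)
    have h3 : x * g * x⁻¹ ∈ Subgroup.centralizer ((P : Subgroup G) : Set G) :=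
      hx ▸ conj_mem_centralizer_cj.2 (le_centralizer_singleton_iff.1 hQ.le)
    refine ⟨⟨ConjClasses.mk ⟨_, centralizer_le_normalizer' _ h3⟩, fun n hn => ?_⟩,
      Subtype.ext (ConjClasses.mk_eq_mk_iff_isConj.2 (isConj_iff.2 ⟨x, rfl⟩).symm)⟩
    obtain ⟨y, rfl⟩ := isConj_iff.1 (ConjClasses.mk_eq_mk_iff_isConj.1 hn).symm
    refine ⟨?_, (conj_mem_centralizer_iff y.2 _).2 h3⟩
    rw [orderOf_conj', ← Subgroup.orderOf_coe]
    simpa [orderOf_conj', IsPRegular] using h1

end Cfsg.Agent.S0953
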