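import Cfsg.Statements.S0957
import Cfsg.Agent.H7.Count

set_option autoImplicit false
open Cfsg

namespace Cfsg.Agent.S0957

open H5 H7

/-- Let P be a Sylow p-subgroup of the finite group G, let g, h ∈ G and let p ^ d be the order of a Sylow p-subgroup of the centralizer of g. Then the number of pairs (y, z) with y conjugate to g, z conjugate to h and z * y⁻¹ ∈ P is divisible by the order of P divided by p ^ d. -/
theorem result {G : Type*} [Group G] [Finite G] (p : ℕ) [Fact p.Prime] (P : Sylow p G) (g h : G) (S : Sylow p (Subgroup.centralizer ({g} : Set G))) : Nat.card P / Nat.card S ∣ Nat.card {yz : G × G // IsConj g yz.1 ∧ IsConj h yz.2 ∧ yz.2 * yz.1⁻¹ ∈ (P : Subgroup G)} := by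
  letI : MulAction (P : Subgroup G) {yz : G × G // IsConj g yz.1 ∧ IsConj h yz.2 ∧
      yz.2 * yz.1⁻¹ ∈ (P : Subgroup G)} :=
    { smul := fun u x => ⟨(u * x.1.1 * (u : G)⁻¹, u * x.1.2 * (u : G)⁻¹),
        (isConj_conj_iff _ _ _).2 x.2.1, (isConj_conj_iff _ _ _).2 x.2.2.1, by
          simpa [mul_assoc] using mul_mem (mul_mem u.2 x.2.2.2) (inv_mem u.2)⟩
      one_smul := fun x => Subtype.ext (Prod.ext (show (1 : G) * _ * 1⁻¹ = _ by simp)
        (show (1 : G) * _ * 1⁻¹ = _ by simp))
      mul_smul := fun u v x => Subtype.ext (Prod.ext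
        (show (u * v : G) * _ * (u * v : G)⁻¹ = u * (v * _ * (v : G)⁻¹) * (u : G)⁻¹ by group)
        (show (u * v : G) * _ * (u * v : G)⁻¹ = u * (v * _ * (v : G)⁻¹) * (u : G)⁻¹ by group)) }
  refine dvd_card_of_forall_index (P := (P : Subgroup G)) fun x => ?_
  set T := MulAction.stabilizer (P : Subgroup G) x
  have h1 : T.map (P : Subgroup G).subtype ≤ Subgroup.centralizer ({x.1.1} : Set G) := by
    rintro _ ⟨u, hu, rfl⟩
    exact Subgroup.mem_centralizer_singleton_iff.2
      (mul_inv_eq_iff_eq_mul.1 (congrArg (fun y => y.1.1) hu))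
  obtain ⟨Q, hQ⟩ := exists_sylIn p (Subgroup.centralizer ({x.1.1} : Set G))
  have h2 := hQ.card_le ((P.isPGroup'.to_subgroup T).map _) h1
  rw [Subgroup.card_map_of_injective (Subgroup.subtype_injective _), hQ.card,
    ← card_centralizer_eq_of_isConj x.2.1, ← S.card_eq_multiplicity] at h2
  obtain ⟨a, ha⟩ := IsPGroup.iff_card.1 (P.isPGroup'.to_subgroup T)
  obtain ⟨b, hb⟩ := IsPGroup.iff_card.1 S.isPGroup'
  have h3 : Nat.card T ∣ Nat.card S := by
    rw [ha, hb] at h2
    change _ ∣ Nat.card (S : Subgroup (Subgroup.centralizer ({g} : Set G)))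
    rw [ha, hb]
    exact pow_dvd_pow _ ((Nat.pow_le_pow_iff_right (Fact.out : p.Prime).one_lt).1 h2)
  have h4 : Nat.card S ∣ Nat.card P := by
    change Nat.card (S : Subgroup (Subgroup.centralizer ({g} : Set G))) ∣ Nat.card (P : Subgroup G)
    rw [P.card_eq_multiplicity, hb]
    exact pow_dvd_pow _ (((Fact.out : p.Prime).pow_dvd_iff_le_factorization Nat.card_pos.ne').1
      (hb ▸ (Subgroup.card_subgroup_dvd_card _).trans (Subgroup.card_subgroup_dvd_card _)))
  rw [show T.index = Nat.card P / Nat.card T from (Nat.div_eq_of_eq_mul_left Nat.card_pos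
    T.index_mul_card.symm).symm]
  exact Nat.div_dvd_div_left h4 h3

end Cfsg.Agent.S0957
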