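import Cfsg.Statements.S0963
import Cfsg.Agent.H7.Cover

set_option autoImplicit false
open Cfsg

namespace Cfsg.Agent.S0963

open H5 H7

/-- Let N be a normal subgroup of the finite group G, χ an irreducible character of G and θ an irreducible character of N. Then θ occurs in the restriction of χ to N if and only if, for every n ∈ N, the central character of χ at n (class size in G times χ n over χ 1) equals the sum of θ m / θ 1 over the elements m of N conjugate in G to n. -/
theorem result {G : Type*} [Group G] [Fintype G] (N : Subgroup G) [N.Normal] [Fintype N] (χ : Cfsg.IrrCharacter G) (θ : Cfsg.IrrCharacter N) : Cfsg.classInner (fun n : N => (χ : G → ℂ) n) (θ : N → ℂ) ≠ 0 ↔ ∀ n : N, Cfsg.centralChar (χ : G → ℂ) (n : G) = Cfsg.inducedCentralChar N (θ : N → ℂ) (n : G) := by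
  have h := ne_subtype N
  simp only [← om_res_cls, ← om_cls χ.2.isClassFunction]
  exact ⟨fun e n => (om_eq_of_over h.inj χ.2 θ.2 e (cls_mem_Z _)
    fun g hg => h.coeff_cls_of_notMem n hg).symm, fun e => h.over_of_om_eq χ.2 fun n => (e n).symm⟩

end Cfsg.Agent.S0963
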