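import Cfsg.Statements.S0965
import Cfsg.Agent.H7.Cover

set_option autoImplicit false
open Cfsg

namespace Cfsg.Agent.S0965

open H5 H7

/-- Let N be a normal subgroup of the finite group G and let B, b be blocks of G and of N relative to a maximal ideal M of the algebraic integers containing the prime p. Then some χ ∈ B has a constituent in b on restriction to N if and only if, for all χ ∈ B, θ ∈ b and n ∈ N, the central character of χ at n is congruent modulo the local ideal at M to the sum of θ m / θ 1 over the elements m ∈ N conjugate in G to n. -/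
theorem result {G : Type*} [Group G] [Fintype G] (p : ℕ) [Fact p.Prime] (M : Ideal Cfsg.AlgInt) (hM : Cfsg.IsPModular p M) (N : Subgroup G) [N.Normal] [Fintype N] (B : Set (Cfsg.IrrCharacter G)) (hB : Cfsg.IsPBlock M B) (b : Set (Cfsg.IrrCharacter N)) (hb : Cfsg.IsPBlock M b) : (∃ χ ∈ B, ∃ θ ∈ b, Cfsg.classInner (fun n : N => (χ : G → ℂ) n) (θ : N → ℂ) ≠ 0) ↔ ∀ χ ∈ B, ∀ θ ∈ b, ∀ n : N, Cfsg.MemLocalIdeal M (Cfsg.centralChar (χ : G → ℂ) (n : G) - Cfsg.inducedCentralChar N (θ : N → ℂ) (n : G)) := by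
  haveI : PM p M := ⟨hM⟩
  have h := ne_subtype N
  have key : ∀ (χ : IrrCharacter G) (θ : IrrCharacter N), Cov M N.subtype (θ : N → ℂ) (χ : G → ℂ) ↔
      ∀ n : N, MemLocalIdeal M
        (centralChar (χ : G → ℂ) (n : G) - inducedCentralChar N (θ : N → ℂ) (n : G)) := fun χ θ => by
    rw [h.cov_iff_cls]
    refine forall_congr' fun n => ?_
    rw [lam_cls χ.2.isClassFunction, ← redA_cls, lam_res_redA θ.2 (cls_mem_Z _) (cls_mem_OG _),
      eq_comm, red_eq_iff (centralChar_mem_O χ.2 _) (om_mem_O θ.2 (res_mem_Z _ (cls_mem_Z _))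
        (res_mem_OG _ (cls_mem_OG _))), om_res_cls, mem_mC]
    rfl
  refine ⟨fun e χ hχ θ hθ => (key χ θ).1 (cov_of_cover h.inj hb hB e hχ hθ), fun e => ?_⟩
  obtain ⟨χ, hχ⟩ := block_nonempty hB
  obtain ⟨θ, hθ⟩ := block_nonempty hb
  exact ⟨χ, hχ, h.exists_over_of_cov hb hθ ((key χ θ).2 (e χ hχ θ hθ))⟩

end Cfsg.Agent.S0965
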