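import Cfsg.Statements.S0966
import Cfsg.Agent.H7.Cover

set_option autoImplicit false
open Cfsg

namespace Cfsg.Agent.S0966

open H5 H7

/-- Let N be a normal subgroup of p-power index in the finite group G and b a block of N relative to a maximal ideal M of the algebraic integers containing p. Then there is exactly one block B of G containing a character whose restriction to N has a constituent in b. -/
theorem result {G : Type*} [Group G] [Fintype G] (p : ℕ) [Fact p.Prime] (M : Ideal Cfsg.AlgInt) (hM : Cfsg.IsPModular p M) (N : Subgroup G) [N.Normal] [Fintype N] (hidx : ∃ k : ℕ, N.index = p ^ k) (b : Set (Cfsg.IrrCharacter N)) (hb : Cfsg.IsPBlock M b) : ∃! B : Set (Cfsg.IrrCharacter G), Cfsg.IsPBlock M B ∧ ∃ χ ∈ B, ∃ θ ∈ b, Cfsg.classInner (fun n : N => (χ : G → ℂ) n) (θ : N → ℂ) ≠ 0 := by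
  haveI : PM p M := ⟨hM⟩
  obtain ⟨k, hk⟩ := hidx
  have h := ne_subtype N
  obtain ⟨θ, hθ⟩ := block_nonempty hb
  obtain ⟨χ, hχ⟩ := exists_over h.inj θ.2
  refine ⟨blockOf M (χ : G → ℂ), ⟨isPBlock_blockOf χ, χ, mem_blockOf_self χ, θ, hθ, hχ⟩,
    fun B ⟨hB, e⟩ => ?_⟩
  obtain ⟨ψ, hψ⟩ := block_nonempty hB
  exact eq_blockOf_of_mem hB (mem_of_sameBlock hB hψ (h.sameBlock_of_cov (p := p)
    (fun g hg => by simpa using mem_of_index_pow hk hg) ψ.2 χ.2 (cov_of_cover h.inj hb hB e hψ hθ)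
    (cov_of_over h.inj χ.2 θ.2 hχ)))

end Cfsg.Agent.S0966
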