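import Cfsg.Statements.S0970
import Cfsg.Agent.H7.Fong

set_option autoImplicit false
open Cfsg

namespace Cfsg.Agent.S0970

open H5 H7

/-- Let N be a normal subgroup of the finite group G and fix a maximal ideal M of the algebraic integers containing the prime p. Let b be a block of N that is invariant under conjugation by G, and B a block of G covering b (some χ ∈ B has a constituent in b) whose defect is at least that of every block covering b. If P is a defect group of B, then p does not divide the index of P ⊔ N, the subgroup P ∩ N of N is a defect group of b, and the defect of B equals the defect of b plus the exponent of p in the index of N. -/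
theorem result {G : Type*} [Group G] [Fintype G] (p : ℕ) [Fact p.Prime] (M : Ideal Cfsg.AlgInt) (hM : Cfsg.IsPModular p M) (N : Subgroup G) [hN : N.Normal] [Fintype N] (b : Set (Cfsg.IrrCharacter N)) (hb : Cfsg.IsPBlock M b) (hinv : ∀ g : G, ∀ θ ∈ b, ∀ θ' : Cfsg.IrrCharacter N, (∀ n : N, (θ' : N → ℂ) n = (θ : N → ℂ) ⟨g * n * g⁻¹, hN.conj_mem n n.2 g⟩) → θ' ∈ b) (B : Set (Cfsg.IrrCharacter G)) (hB : Cfsg.IsPBlock M B) (hcov : ∃ χ ∈ B, ∃ θ ∈ b, Cfsg.classInner (fun n : N => (χ : G → ℂ) n) (θ : N → ℂ) ≠ 0) (hmax : ∀ B' : Set (Cfsg.IrrCharacter G), Cfsg.IsPBlock M B' → (∃ χ ∈ B', ∃ θ ∈ b, Cfsg.classInner (fun n : N => (χ : G → ℂ) n) (θ : N → ℂ) ≠ 0) → Cfsg.blockDefect p B' ≤ Cfsg.blockDefect p B) (P : Subgroup G) (hP : Cfsg.IsDefectGroup p M B P) : ¬ p ∣ (P ⊔ N).index ∧ Cfsg.IsDefectGroup p M b ((P ⊓ N).subgroupOf N) ∧ Cfsg.blockDefect p B = Cfsg.blockDefect p b + N.index.factorization p := by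
  haveI : PM p M := ⟨hM⟩
  have h := ne_subtype N
  have hi : h.Invt b := fun g => (stab_iff g).1 (hinv g)
  have hs := hi.isSat_covSet (isSat_of_isPBlock hb)
  obtain ⟨χ, hχ, θ, hθ, e⟩ := hcov
  obtain ⟨h1, h2⟩ := h.fong hb hi hB (hs.subset_of_mem hB ⟨θ, hθ, e⟩ hχ) (fun B' hB' h1 => by
    obtain ⟨ψ, hψ⟩ := block_nonempty hB'
    exact hmax B' hB' ⟨ψ, hψ, h1 hψ⟩) hP
  rw [N.range_subtype] at h1 h2
  refine ⟨h1, ?_, h2⟩
  rw [Subgroup.inf_subgroupOf_right]
  exact h.isDefectGroup_comap hb hi hB hθ hχ (cov_of_over h.inj χ.2 θ.2 e) hP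

end Cfsg.Agent.S0970
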