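import Cfsg.Statements.S0971
import Cfsg.Agent.H7.Cover

set_option autoImplicit false
open Cfsg

namespace Cfsg.Agent.S0971

open H5 H7

/-- Let Q be a normal p-subgroup of the finite group G, let N = Q ⊔ C_G(Q) (a normal subgroup) and let b be a block of N relative to a maximal ideal M of the algebraic integers containing p. Then b induces some block of G, and every block B of G containing a character whose restriction to N has a constituent in b is induced by b. -/
theorem result {G : Type*} [Group G] [Fintype G] (p : ℕ) [Fact p.Prime] (M : Ideal Cfsg.AlgInt) (hM : Cfsg.IsPModular p M) (Q : Subgroup G) [Q.Normal] (hQ : IsPGroup p Q) [Fintype ↥(Q ⊔ Subgroup.centralizer (Q : Set G))] (b : Set (Cfsg.IrrCharacter ↥(Q ⊔ Subgroup.centralizer (Q : Set G)))) (hb : Cfsg.IsPBlock M b) : Cfsg.InducedBlockDefined M (Q ⊔ Subgroup.centralizer (Q : Set G)) b ∧ ∀ B : Set (Cfsg.IrrCharacter G), Cfsg.IsPBlock M B → (∃ χ ∈ B, ∃ θ ∈ b, Cfsg.classInner (fun n : ↥(Q ⊔ Subgroup.centralizer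 (Q : Set G)) => (χ : G → ℂ) n) (θ : ↥(Q ⊔ Subgroup.centralizer (Q : Set G)) → ℂ) ≠ 0) → Cfsg.IsInducedBlock M (Q ⊔ Subgroup.centralizer (Q : Set G)) b B := by
  haveI : PM p M := ⟨hM⟩
  have L := locSet_subtype (K := Q ⊔ Subgroup.centralizer (Q : Set G)) hQ le_sup_left le_sup_right
    (by rw [Subgroup.normalizer_eq_top]; exact le_top)
  refine ⟨(L.exists_indB hb).imp fun B h => isInducedBlock_iff_indB.2 h, fun B hB e => ?_⟩
  exact isInducedBlock_iff_indB.2 ⟨hb, hB, fun θ hθ χ hχ =>
    L.ind_of_cov θ.2 χ.2 (cov_of_cover L.inj hb hB e hχ hθ)⟩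

end Cfsg.Agent.S0971
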