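import Cfsg.Statements.S0972
import Cfsg.Agent.H7.Quot
import Cfsg.Agent.H6.Extension

set_option autoImplicit false
open Cfsg

namespace Cfsg.Agent.S0972

open H5 H7

/-- Let B be a block of the finite group G (relative to a maximal ideal M of the algebraic integers containing the prime p) with a defect group P that is normal in G. Then P is commutative if and only if every member of B has height zero. -/
theorem result {G : Type*} [Group G] [Finite G] (p : ℕ) [Fact p.Prime] (M : Ideal Cfsg.AlgInt) (hM : Cfsg.IsPModular p M) (B : Set (Cfsg.IrrCharacter G)) (hB : Cfsg.IsPBlock M B) (P : Subgroup G) [P.Normal] (hP : Cfsg.IsDefectGroup p M B P) : (∀ a ∈ P, ∀ c ∈ P, a * c = c * a) ↔ ∀ χ ∈ B, Cfsg.blockHeight p B (χ : G → ℂ) = 0 := by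
  haveI : PM p M := ⟨hM⟩
  refine ⟨fun h χ hχ => ?_, fun h a ha c hc => ?_⟩
  · have := Fintype.ofFinite G
    have h1 := (Nat.factorization_le_iff_dvd (charDegree_ne_zero χ.2)
      Subgroup.index_ne_zero_of_finite).2 (H6.ito_degree_dvd P h χ.2) p
    have h2 := factorization_add_defect (M := M) (p := p) hχ
    have h3 := factorization_index_add (p := p) P
    rw [IsDefectGroup.card hB hP, Nat.factorization_pow_self Fact.out] at h3
    omega
  · have h1 := Subgroup.commutator_mem_commutator ha hc
    exact commutatorElement_eq_one_iff_mul_comm.1 ((isPE_of_mem (IsDefectGroup.isPGroup hP)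
      (Subgroup.commutator_le_left P P h1)).eq_one (not_dvd_of_forall_eq (isSat_of_isPBlock hB)
        (block_nonempty hB) fun χ hχ => commutator_le_of_height_zero hB hP hχ (h χ hχ) _ h1))

end Cfsg.Agent.S0972
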