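import Cfsg.Statements.S0973
import Cfsg.Agent.H7.Fong

set_option autoImplicit false
open Cfsg

namespace Cfsg.Agent.S0973

open H5 H7

/-- Let B be a block of the finite group G with defect group P (relative to a maximal ideal M of the algebraic integers containing p), and let L = P ⊔ C_G(P). Then (i) some block b of L with defect group P (viewed in L) induces B, and (ii) if b and b' are blocks of L both inducing B, there is n ∈ N_G(P) carrying b to b': for every θ ∈ b there is θ' ∈ b' with θ' x = θ (n x n⁻¹) for all x ∈ L. -/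
theorem result {G : Type*} [Group G] [Finite G] (p : ℕ) [Fact p.Prime] (M : Ideal Cfsg.AlgInt) (hM : Cfsg.IsPModular p M) (B : Set (Cfsg.IrrCharacter G)) (hB : Cfsg.IsPBlock M B) (P : Subgroup G) (hP : Cfsg.IsDefectGroup p M B P) : (∃ b : Set (Cfsg.IrrCharacter ↥(P ⊔ Subgroup.centralizer (P : Set G))), Cfsg.IsDefectGroup p M b (P.subgroupOf (P ⊔ Subgroup.centralizer (P : Set G))) ∧ Cfsg.IsInducedBlock M (P ⊔ Subgroup.centralizer (P : Set G)) b B) ∧ ∀ b b' : Set (Cfsg.IrrCharacter ↥(P ⊔ Subgroup.centralizer (P : Set G))), Cfsg.IsInducedBlock M (P ⊔ Subgroup.centralizer (P : Set G)) b B → Cfsg.IsInducedBlock M (P ⊔ Subgroup.centralizer (P : Set G)) b' B → ∃ n ∈ Subgroup.normalizer (P : Set G), ∀ θ ∈ b, ∃ θ' ∈ b', ∀ x : ↥(P ⊔ Subgroup.centralizer (P : Set G)), ∀ hx : n * (x : G) * n⁻¹ ∈ P ⊔ Subgroup.centralizer (P : Set G), (θ' : ↥(P ⊔ Subgroup.centralizer (P : Set G)) → ℂ) x = (θ : ↥(P ⊔ Subgroup.centralizer (P : Set G)) → ℂ) ⟨n * (x :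 G) * n⁻¹, hx⟩ := by
  haveI : PM p M := ⟨hM⟩
  have hp := IsDefectGroup.isPGroup hP
  have hle := sup_centralizer_le_normalizer P
  have L := locSet_subtype hp le_sup_left le_sup_right hle
  have LN := locSet_normalizer hp
  refine ⟨?_, fun b b' hb hb' => ?_⟩
  · obtain ⟨b, h1, h2⟩ := first_main_exists L hB hP
    exact ⟨b, h2, isInducedBlock_iff_indB.2 h1⟩
  rw [isInducedBlock_iff_indB] at hb hb'
  have L' := locSet_inclusion hp hle le_sup_left le_sup_right hle
  have hne := ne_inclusion hle (normalizer_le_normalizer_sup P)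
  obtain ⟨c, hc⟩ := L'.exists_indB hb.1
  obtain ⟨c', hc'⟩ := L'.exists_indB hb'.1
  have h1 : IndB M _ c B := hc.of_comp (φ := (Subgroup.normalizer (P : Set G)).subtype) hb
  have h2 : IndB M _ c' B := hc'.of_comp (φ := (Subgroup.normalizer (P : Set G)).subtype) hb'
  obtain rfl := first_main_unique LN (by simp) h1 h2 (LN.isDefectGroup_comap h1 hP)
  obtain ⟨θ, hθ⟩ := block_nonempty hb.1
  obtain ⟨θ', hθ'⟩ := block_nonempty hb'.1
  obtain ⟨χ, hχ⟩ := block_nonempty hc.2.1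
  obtain ⟨g, hg⟩ := hne.exists_conj_of_cov hb'.1 hθ' (hc'.2.2 θ' hθ' χ hχ).cov
    (hc.2.2 θ hθ χ hχ).cov
  refine ⟨g, g.2, fun ξ hξ => ⟨ieq (hne.cjA g) ξ, mem_of_sameBlock hb'.1 hg
    ((sameBlock_equiv (hne.cjA g)).2 (sameBlock_of_mem hb.1 hθ hξ)), fun x hx => ?_⟩⟩
  exact congrArg ξ.1 (Subtype.ext (congrArg (fun y : Subgroup.normalizer (P : Set G) => (y : G)) (hne.map_cjA g x)))

end Cfsg.Agent.S0973
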