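import Cfsg.Statements.S0987
import Cfsg.Agent.H10.Syl2

set_option autoImplicit false
open Cfsg

namespace Cfsg.Agent.S0987

/-- If a finite group has order pqr for primes p < q < r, then its Sylow r-subgroups are normal. -/
theorem result {G : Type*} [Group G] [Finite G] (p q r : ℕ) (hp : p.Prime) (hq : q.Prime) [Fact r.Prime] (hpq : p < q) (hqr : q < r) (hG : Nat.card G = p * q * r) (R : Sylow r G) : (R : Subgroup G).Normal := by
  have hr : r.Prime := Fact.out
  have := Fact.mk hp
  obtain ⟨P⟩ : Nonempty (Sylow p G) := inferInstance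
  have hP : Nat.card (P : Subgroup G) = p := by
    have := H10.sylow_card_of (a := 1) (m := q * r) (by rw [hG]; ring) (fun h => by
      rcases (Nat.Prime.dvd_mul hp).1 h with h | h
      · exact hpq.ne ((Nat.prime_dvd_prime_iff_eq hp hq).1 h)
      · exact (hpq.trans hqr).ne ((Nat.prime_dvd_prime_iff_eq hp hr).1 h)) P
    rwa [pow_one] at this
  have hmin : p = (Nat.card G).minFac := by
    have h1 : (Nat.card G).minFac ≤ p := Nat.minFac_le_of_dvd hp.two_le ⟨q * r, by rw [hG]; ring⟩
    have h0 : Nat.card G ≠ 1 := fun e => hr.one_lt.ne' (Nat.eq_one_of_mul_eq_one_left (hG ▸ e))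
    have h2 := Nat.minFac_prime h0
    have h3 := Nat.minFac_dvd (Nat.card G)
    generalize (Nat.card G).minFac = s at *
    rw [hG] at h3
    rcases (Nat.Prime.dvd_mul h2).1 h3 with h | h
    · rcases (Nat.Prime.dvd_mul h2).1 h with h | h
      · exact ((Nat.prime_dvd_prime_iff_eq h2 hp).1 h).symm
      · have := (Nat.prime_dvd_prime_iff_eq h2 hq).1 h; omega
    · have := (Nat.prime_dvd_prime_iff_eq h2 hr).1 h; omega
  have hc := (isCyclic_of_prime_card hP).isComplement' hmin.symm
  set N := (MonoidHom.transferSylow P _).ker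
  have hN : Nat.card N = q * r := by
    have := hc.card_mul_card
    rw [hP, hG] at this
    exact Nat.eq_of_mul_eq_mul_right hp.pos (by rw [this]; ring)
  have hNi : N.index = p := hc.symm.index_eq_card.trans hP
  have hR : Nat.card (R : Subgroup G) = r := by
    have := H10.sylow_card_of (a := 1) (m := p * q) (by rw [hG]; ring) (fun h => by
      rcases (Nat.Prime.dvd_mul hr).1 h with h | h
      · exact (hpq.trans hqr).ne' ((Nat.prime_dvd_prime_iff_eq hr hp).1 h)
      · exact hqr.ne' ((Nat.prime_dvd_prime_iff_eq hr hq).1 h)) R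
    rwa [pow_one] at this
  have hRN : (R : Subgroup G) ≤ N := by
    rw [← Subgroup.relIndex_eq_one]
    have h1 := Subgroup.relIndex_dvd_index_of_normal N R
    have h2 := Subgroup.relIndex_dvd_card N R
    rw [hNi] at h1
    rw [hR] at h2
    exact Nat.eq_one_of_dvd_coprimes ((Nat.coprime_primes hp hr).2 (hpq.trans hqr).ne) h1 h2
  have h1 := H10.card_sylow_dvd_relIndex_of_normal N R hRN
  have h2 : (R : Subgroup G).relIndex N = q := by
    have := ((R : Subgroup G).subgroupOf N).card_mul_index
    rw [Nat.card_congr (Subgroup.subgroupOfEquivOfLe hRN).toEquiv, hR, hN, mul_comm q] at this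
    exact Nat.eq_of_mul_eq_mul_left hr.pos this
  rw [h2, Nat.dvd_prime hq] at h1
  rcases h1 with h1 | h1
  · have : Subsingleton (Sylow r G) := (Nat.card_eq_one_iff_unique.1 h1).1
    exact Sylow.normal_of_subsingleton R
  · have h3 := card_sylow_modEq_one r G
    rw [h1, Nat.ModEq, Nat.mod_eq_of_lt hqr, Nat.mod_eq_of_lt hr.one_lt] at h3
    exact absurd h3 hq.one_lt.ne'

end Cfsg.Agent.S0987
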