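import Cfsg.Statements.S0988
import Cfsg.Agent.H10.GW2
import Cfsg.Agent.S0499
import Cfsg.Agent.S0205

set_option autoImplicit false
open Cfsg

namespace Cfsg.Agent.S0988

open H10 Subgroup

/-- If a finite simple group has order p^2 * q * r with p, q and r prime, then its order is 60. -/
theorem result {G : Type*} [Group G] [Finite G] [IsSimpleGroup G] (p q r : ℕ) (hp : p.Prime) (hq : q.Prime) (hr : r.Prime) (hG : Nat.card G = p ^ 2 * q * r) : Nat.card G = 60 := by
  have h1 := not_comm_of_simple_of_not_prime (G := G) (by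
    rw [hG, mul_assoc, sq, mul_assoc]
    exact Nat.not_prime_mul hp.ne_one fun h => hp.ne_one (Nat.eq_one_of_mul_eq_one_right h))
  by_cases h2 : p = 2
  · exact a5_of_four_mul h1 (a := 1) (b := 1) hq hr (by simp [hG, h2])
  have h3 := S0499.result h1 (Nat.not_odd_iff_even.1 fun h =>
    h1 ⟨⟨IsSimpleGroup.comm_iff_isSolvable.2 (S0205.result h)⟩⟩)
  have h4 : 2 ^ 2 ∣ q * r := Nat.Coprime.dvd_of_dvd_mul_left (m := p ^ 2)
    (Nat.Coprime.pow _ _ ((Nat.coprime_primes Nat.prime_two hp).2 (Ne.symm h2)))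
    (by rw [← mul_assoc, ← hG]; omega)
  refine (not_dvd_two_primes h1 hp Nat.prime_two (a := 2) (b := 2) ?_).elim
  rcases hq.eq_two_or_odd' with rfl | ⟨k, rfl⟩ <;> rcases hr.eq_two_or_odd' with rfl | ⟨l, rfl⟩
  · rw [hG]; apply dvd_of_eq; ring
  · omega
  · omega
  · have : (2 * k + 1) * (2 * l + 1) = 2 * (2 * k * l + k + l) + 1 := by ring
    omega

end Cfsg.Agent.S0988
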