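import Cfsg.Statements.S0989
import Cfsg.Agent.H10.Syl2

set_option autoImplicit false
open Cfsg

namespace Cfsg.Agent.S0989

/-- In the symmetric group on p or p + 1 letters, p a prime, the normalizer of a Sylow p-subgroup has order p * (p - 1). -/
theorem result {α : Type*} [Fintype α] [DecidableEq α] (p : ℕ) [Fact p.Prime] (hα : Fintype.card α = p ∨ Fintype.card α = p + 1) (P : Sylow p (Equiv.Perm α)) : Nat.card ↥(Subgroup.normalizer ((P : Subgroup (Equiv.Perm α)) : Set (Equiv.Perm α))) = p * (p - 1) := by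
  have hp : p.Prime := Fact.out
  obtain ⟨m, hm, hm'⟩ : ∃ m, Nat.card (Equiv.Perm α) = p ^ 1 * m ∧ ¬ p ∣ m := by
    rw [Nat.card_perm, Nat.card_eq_fintype_card, pow_one]
    have h1 : ¬ p ∣ (p - 1).factorial := fun h => by
      have := hp.dvd_factorial.1 h; have := hp.pos; omega
    rcases hα with h | h
    · exact ⟨_, by rw [h, Nat.mul_factorial_pred hp.ne_zero], h1⟩
    · refine ⟨(p + 1) * (p - 1).factorial, by
        rw [h, Nat.factorial_succ, ← Nat.mul_factorial_pred hp.ne_zero]; ring, fun h2 => ?_⟩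
      rcases hp.dvd_mul.1 h2 with h2 | h2
      · exact hp.one_lt.ne' (Nat.dvd_one.1 ((Nat.dvd_add_right dvd_rfl).1 h2))
      · exact h1 h2
  have hP := (H10.sylow_card_of hm hm' P).trans (pow_one p)
  have hct : ∀ g : Equiv.Perm α, orderOf g = p → g.cycleType = {p} := fun g hg => by
    have hc : g.IsCycle := Equiv.Perm.isCycle_of_prime_order' (hg ▸ hp)
      (by have := hp.one_lt; omega)
    rw [hc.cycleType, ← hc.orderOf, hg]
  obtain ⟨z, -, hz⟩ := H10.exists_mem_orderOf_eq (P : Subgroup (Equiv.Perm α)) hp hP.symm.dvd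
  have h1 : Nat.card (Subgroup.centralizer ({z} : Set (Equiv.Perm α))) = p := by
    rw [Equiv.Perm.nat_card_centralizer, hct z hz]
    rcases hα with h | h <;> simp [h]
  have h2 : Nat.card {g : Equiv.Perm α // orderOf g = p} =
      (Subgroup.centralizer ({z} : Set (Equiv.Perm α))).index := by
    rw [← H5.card_isConj]
    refine Nat.card_congr (Equiv.subtypeEquivRight fun g => ⟨fun hg => ?_, fun hc => ?_⟩)
    · rw [Equiv.Perm.isConj_iff_cycleType_eq, hct z hz, hct g hg]
    · obtain ⟨c, rfl⟩ := isConj_iff.1 hc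
      rwa [← MulAut.conj_apply, MulEquiv.orderOf_eq]
  rw [H10.card_orderOf_eq_prime P hP] at h2
  have h3 := (Subgroup.centralizer ({z} : Set (Equiv.Perm α))).card_mul_index
  rw [h1, ← h2, ← H10.card_sylow_mul_card_normalizer P] at h3
  apply Nat.eq_of_mul_eq_mul_left (Nat.card_pos (α := Sylow p (Equiv.Perm α)))
  rw [← h3]; ring

end Cfsg.Agent.S0989
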