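import Cfsg.Statements.S0990
import Cfsg.Agent.H10.Syl2

set_option autoImplicit false
open Cfsg

namespace Cfsg.Agent.S0990

/-- Let p be an odd prime and P a Sylow p-subgroup of the symmetric group on a finite set with at least two elements. Then P is contained in the alternating group, and twice the order of the normalizer of P inside the alternating group equals the order of the normalizer of P in the symmetric group. -/
theorem result {α : Type*} [Fintype α] [DecidableEq α] (hα : 2 ≤ Fintype.card α) (p : ℕ) [Fact p.Prime] (hp : p ≠ 2) (P : Sylow p (Equiv.Perm α)) : (P : Subgroup (Equiv.Perm α)) ≤ alternatingGroup α ∧ 2 * Nat.card ↥(Subgroup.normalizer ((((P : Subgroup (Equiv.Perm α)).subgroupOf (alternatingGroup α) : Subgroup ↥(alternatingGroup α)) : Set ↥(alternatingGroup α)))) = Nat.card ↥(Subgroup.normalizer ((P : Subgroup (Equiv.Perm α)) : Set (Equiv.Perm α))) := by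
  have hle : (P : Subgroup (Equiv.Perm α)) ≤ alternatingGroup α := fun g hg => by
    obtain ⟨k, hk⟩ := P.2 ⟨g, hg⟩
    have h1 : g ^ p ^ k = 1 := congrArg Subtype.val hk
    have h2 := congrArg Equiv.Perm.sign h1
    rw [map_pow, map_one] at h2
    rcases Int.units_eq_one_or (Equiv.Perm.sign g) with h | h
    · exact h
    · rw [h, (((Fact.out : p.Prime).odd_of_ne_two hp).pow).neg_one_pow] at h2
      exact absurd h2 (by decide)
  refine ⟨hle, ?_⟩
  have : Nontrivial α := Fintype.one_lt_card_iff_nontrivial.1 hα
  set N := Subgroup.normalizer ((P : Subgroup (Equiv.Perm α)) : Set (Equiv.Perm α))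
  rw [← Subgroup.subgroupOf_normalizer_eq hle]
  have h1 := Subgroup.relIndex_dvd_index_of_normal (alternatingGroup α) N
  rw [alternatingGroup.index_eq_two, Nat.dvd_prime Nat.prime_two] at h1
  have h2 : (alternatingGroup α).relIndex N ≠ 1 := fun e => by
    have h3 : N ⊔ _ = ⊤ := Sylow.normalizer_sup_eq_top' P hle
    rw [sup_eq_right.2 (Subgroup.relIndex_eq_one.1 e)] at h3
    have := alternatingGroup.index_eq_two (α := α)
    rw [h3, Subgroup.index_top] at this
    omega
  have h3 := ((alternatingGroup α).subgroupOf N).card_mul_index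
  rw [show ((alternatingGroup α).subgroupOf N).index = 2 from h1.resolve_left h2] at h3
  rw [← h3, mul_comm, ← Subgroup.inf_subgroupOf_right, ← Subgroup.inf_subgroupOf_left (alternatingGroup α),
    Nat.card_congr (Subgroup.subgroupOfEquivOfLe inf_le_right).toEquiv,
    Nat.card_congr (Subgroup.subgroupOfEquivOfLe inf_le_left).toEquiv]

end Cfsg.Agent.S0990
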