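import Cfsg.Statements.S0995
import Cfsg.Agent.H10.Syl

set_option autoImplicit false
open Cfsg

namespace Cfsg.Agent.S0995

/-- Let G be a finite perfect group containing an element z of prime order p whose centralizer is the cyclic group it generates. Let t be the number of conjugacy classes of elements of order p. Then t divides p - 1, the number of Sylow p-subgroups has the form 1 + n * p, and |G| * t = (p - 1) * p * (1 + n * p). -/
theorem result {G : Type*} [Group G] [Finite G] (hperf : commutator G = ⊤) (p : ℕ) [Fact p.Prime] (z : G) (hz : orderOf z = p) (hC : Subgroup.centralizer ({z} : Set G) = Subgroup.zpowers z) : ∃ n t : ℕ, t = Nat.card {c : ConjClasses G // ∃ g : G, ConjClasses.mk g = c ∧ orderOf g = p} ∧ t ∣ p - 1 ∧ Nat.card (Sylow p G) = 1 + n * p ∧ Nat.card G * t = (p - 1) * p * (1 + n * p) := by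
  have hp : p.Prime := Fact.out
  obtain ⟨P, hP⟩ := H10.sylow_eq_zpowers_of_centralizer hz hC
  have hPc : Nat.card (P : Subgroup G) = p := by rw [hP, Nat.card_zpowers, hz]
  obtain ⟨n, hn⟩ : ∃ n, Nat.card (Sylow p G) = 1 + n * p := by
    obtain ⟨n, hn⟩ := (Nat.modEq_iff_dvd' Nat.card_pos).1 (card_sylow_modEq_one p G).symm
    have : 0 < Nat.card (Sylow p G) := Nat.card_pos
    exact ⟨n, by rw [mul_comm, ← hn]; omega⟩
  have h1 := H10.card_eq_card_classes_mul (fun g : G => orderOf g = p)
    (fun g h hc hg => by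
      obtain ⟨c, rfl⟩ := isConj_iff.1 hc
      rwa [← MulAut.conj_apply, MulEquiv.orderOf_eq]) (P : Subgroup G).index fun g hg => by
    obtain ⟨Q, hQ⟩ := H10.exists_sylow_eq_zpowers P hPc hg
    obtain ⟨c, rfl⟩ := MulAction.exists_smul_eq G P Q
    have h2 : c⁻¹ * g * c ∈ (P : Subgroup G) :=
      H3.mem_sylow_smul_iff.1 (hQ.ge (Subgroup.mem_zpowers g))
    have h3 : c⁻¹ * g * c ≠ 1 := fun e => by
      have : g = 1 := by rwa [← inv_inv c, inv_inv c⁻¹, conj_eq_one_iff] at e
      exact hp.one_lt.ne (orderOf_one.symm.trans (this ▸ hg))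
    have hz1 : z ≠ 1 := by rintro rfl; exact hp.one_lt.ne (orderOf_one.symm.trans hz)
    rw [H5.index_centralizer_eq_of_isConj (isConj_iff.2 ⟨c⁻¹, by rw [inv_inv]⟩),
      H10.centralizer_eq_of_card_prime hPc h2 h3,
      ← H10.centralizer_eq_of_card_prime hPc (hP.ge (Subgroup.mem_zpowers z)) hz1, hC, hP]
  rw [H10.card_orderOf_eq_prime P hPc] at h1
  generalize ht : Nat.card {c : ConjClasses G // ∃ g : G, ConjClasses.mk g = c ∧ orderOf g = p} = t at h1
  have h2 := Subgroup.relIndex_mul_index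
    (Subgroup.le_normalizer : (P : Subgroup G) ≤ Subgroup.normalizer _)
  rw [← H10.card_sylow_eq_index] at h2
  have h3 := (P : Subgroup G).card_mul_index
  refine ⟨n, t, rfl, ⟨(P : Subgroup G).relIndex (Subgroup.normalizer ((P : Subgroup G) : Set G)), ?_⟩, hn, ?_⟩
  · apply Nat.eq_of_mul_eq_mul_left (Nat.card_pos (α := Sylow p G))
    rw [h1, ← h2]; ring
  · rw [← h3, hPc, ← hn, mul_assoc, mul_comm _ t, ← h1]; ring

end Cfsg.Agent.S0995
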