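import Cfsg.Statements.S4496
import Cfsg.Agent.H8.SelfCent

set_option autoImplicit false
open Cfsg

namespace Cfsg.Agent.S4496



/-- Let the finite group G contain an element x of prime order p with C_G(x) = ⟨x⟩. Then: (a) every normal subgroup of order divisible by p contains the commutator subgroup; (b) every normal subgroup S of order prime to p has order dividing the number of subgroups of order p of G and congruent to 1 modulo p, and in G/S the image of x again has prime order p and commutes only with its own powers. -/
theorem result {G : Type*} [Group G] [Finite G] (p : ℕ) (hp : p.Prime) (x : G) (hx : orderOf x = p) (hC : Subgroup.centralizer ({x} : Set G) = Subgroup.zpowers x) (S : Subgroup G) [S.Normal] : (p ∣ Nat.card S → commutator G ≤ S) ∧ (¬ p ∣ Nat.card S → Nat.card S ∣ Nat.card {H : Subgroup G // Nat.card H = p} ∧ Nat.card S % p = 1 ∧ orderOf (QuotientGroup.mk x : G ⧸ S) = p ∧ Subgroup.centralizer ({(QuotientGroup.mk x : G ⧸ S)} : Set (G ⧸ S)) = Subgroup.zpowers (QuotientGroup.mk x : G ⧸ S)) := by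
  refine ⟨H8.SelfCent.commutator_le_of_dvd hp hx hC S, fun hd => ⟨?_, H8.SelfCent.card_mod hp hx hC S hd,
    H8.SelfCent.quotient_orderOf hp hx S hd, H8.SelfCent.quotient_centralizer hp hx hC S hd⟩⟩
  rw [H8.SelfCent.card_subgroups hp hx hC]
  have h1 := H8.SelfCent.inf_normalizer_eq_bot hp hx hC S hd
  have h2 := H1.card_sup_of_disjoint (N := S) (H := Subgroup.normalizer (Subgroup.zpowers x : Set G))
    Subgroup.le_normalizer_of_normal h1
  have h3 := Subgroup.card_subgroup_dvd_card (S ⊔ Subgroup.normalizer (Subgroup.zpowers x : Set G))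
  rw [h2, ← Subgroup.index_mul_card (Subgroup.normalizer (Subgroup.zpowers x : Set G))] at h3
  exact Nat.dvd_of_mul_dvd_mul_right Nat.card_pos h3

end Cfsg.Agent.S4496
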