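import Cfsg.Statements.S0996
import Cfsg.Agent.H10.BR4
import Cfsg.Agent.S4496

set_option autoImplicit false
open Cfsg

namespace Cfsg.Agent.S0996

/-- Let G be a finite perfect group containing an element z of prime order p whose centralizer is the cyclic group it generates, and suppose the number 1 + n * p of Sylow p-subgroups satisfies n < (p + 3) / 2. Then p > 3 and G is isomorphic to the projective special linear group of dimension 2 over the field with p elements, or p - 1 is a power of 2 and G is isomorphic to that group over the field with p - 1 elements. -/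
theorem result {G : Type*} [Group G] [Finite G] (hperf : commutator G = ⊤) (p : ℕ) [Fact p.Prime] (z : G) (hz : orderOf z = p) (hC : Subgroup.centralizer ({z} : Set G) = Subgroup.zpowers z) (hn : 2 * Nat.card (Sylow p G) < (p + 1) * (p + 2)) : (∃ (F : Type) (_ : Field F) (_ : Fintype F), Fintype.card F = p ∧ 3 < p ∧ Nonempty (G ≃* Matrix.ProjectiveSpecialLinearGroup (Fin 2) F)) ∨ (∃ (m : ℕ) (F : Type) (_ : Field F) (_ : Fintype F), Fintype.card F = 2 ^ m ∧ p = 2 ^ m + 1 ∧ 3 < p ∧ Nonempty (G ≃* Matrix.ProjectiveSpecialLinearGroup (Fin 2) F)) := by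
  have hp : p.Prime := Fact.out
  obtain ⟨P, hPz⟩ := H10.sylow_eq_zpowers_of_centralizer hz hC
  have hP : Nat.card (P : Subgroup G) = p := by rw [hPz, Nat.card_zpowers, hz]
  obtain ⟨n, hn'⟩ := H10.exists_card_sylow_eq p G
  have hlt : 2 * n < p + 3 := by
    rw [hn'] at hn
    by_contra h
    nlinarith [Nat.mul_le_mul_right p (show p + 3 ≤ 2 * n by omega)]
  have hO : pPrimeCore p G = ⊥ := by
    have h1 := ((Cfsg.Agent.S4496.result p hp z hz hC (pPrimeCore p G)).2
      H7.not_dvd_card_pPrimeCore).2.1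
    obtain ⟨n', e, c, h3, h4, -, h5, -, h6, -, -⟩ := H10.prime_data hperf P hP
    have hz1 : z ≠ 1 := by rintro rfl; exact hp.one_lt.ne (by simpa using hz)
    rw [← H10.centralizer_eq_of_card_prime hP (hPz ▸ Subgroup.mem_zpowers z) hz1, hC,
      Nat.card_zpowers, hz] at h4
    rw [hn'] at h3
    subst h3 h4
    have he : e ≤ p - 1 := Nat.le_of_dvd (by have := hp.two_le; omega) h6
    have hq := Subgroup.card_eq_card_quotient_mul_card_subgroup (pPrimeCore p G)
    rw [← Subgroup.card_eq_one]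
    by_contra h9
    have h10 : p + 1 ≤ Nat.card (pPrimeCore p G) := by
      have := Nat.mod_add_div (Nat.card (pPrimeCore p G)) p
      rcases h : Nat.card (pPrimeCore p G) / p with _ | k
      · rw [h] at this; omega
      · rw [h] at this; nlinarith
    have h12 := Nat.mul_le_mul_left (Nat.card (G ⧸ pPrimeCore p G)) h10
    rw [← hq, ← h5] at h12
    obtain ⟨h3, ⟨rfl, h11, -⟩ | ⟨h13, h11, -⟩⟩ := H10.br_quot hperf P hP hn' (H10.nonRep_of_lt hlt)
    · obtain ⟨k, rfl⟩ : ∃ k, p = k + 4 := ⟨p - 4, by omega⟩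
      rw [show (k + 4) ^ 2 - 1 = (k + 3) * (k + 5) from Nat.sub_eq_of_eq_add (by ring)] at h11
      have : (1 + 1 * (k + 4)) * (e * (k + 4)) ≤ (1 + 1 * (k + 4)) * ((k + 3) * (k + 4)) := by
        gcongr; omega
      nlinarith [Nat.zero_le (k ^ 3), Nat.zero_le (k ^ 2), Nat.zero_le (k ^ 4)]
    · subst h13
      rw [show 2 * n + 3 - 1 = 2 * n + 2 by omega, show 2 * n + 3 - 2 = 2 * n + 1 by omega] at h11
      have : (1 + n * (2 * n + 3)) * (e * (2 * n + 3)) ≤
          (1 + n * (2 * n + 3)) * ((2 * n + 2) * (2 * n + 3)) := by gcongr; omega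
      rw [h11] at h12
      nlinarith [Nat.zero_le (n ^ 3), Nat.zero_le (n ^ 2), Nat.zero_le (n ^ 4)]
  obtain ⟨h3, e | ⟨m, F, _, _, hF, hp, e, -⟩⟩ := H10.bConcl_of_lt hperf hO P hP hn' hlt
  · exact Or.inl ⟨ZMod p, inferInstance, inferInstance, ZMod.card p, h3, e⟩
  · exact Or.inr ⟨m, F, inferInstance, inferInstance, hF, hp, h3, e⟩

end Cfsg.Agent.S0996
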