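import Cfsg.Statements.S1002
import Cfsg.Agent.H16.OddOrder
import Cfsg.Agent.H10.Small

set_option autoImplicit false
open Cfsg

namespace Cfsg.Agent.S1002

/-- No finite simple group has order 1004913 = 3^3 * 7 * 13 * 409. -/
theorem result {G : Type*} [Group G] [Finite G] [IsSimpleGroup G] : Nat.card G ≠ 1004913 := by
  intro h
  have := H16.odd_order G (by rw [h]; decide)
  exact H10.not_comm_of_simple_of_not_prime (G := G) (by rw [h]; norm_num)
    ⟨⟨IsSimpleGroup.comm_iff_isSolvable.2 this⟩⟩

end Cfsg.Agent.S1002
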