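import Cfsg.Statements.S1006
import Cfsg.Agent.H10.G168
import Cfsg.Agent.S0241

set_option autoImplicit false
open Cfsg

namespace Cfsg.Agent.S1006

/-- In a simple group of order 168 there are 56 elements of order 3, all conjugate; 42 elements of order 4, all conjugate; and 48 elements of order 7 falling into two conjugacy classes of size 24, an element of order 7 not being conjugate to its inverse. -/
theorem result {G : Type*} [Group G] [Finite G] [IsSimpleGroup G] (h : Nat.card G = 168) : Nat.card {g : G // orderOf g = 3} = 56 ∧ (∀ s t : G, orderOf s = 3 → orderOf t = 3 → IsConj s t) ∧ Nat.card {g : G // orderOf g = 4} = 42 ∧ (∀ s t : G, orderOf s = 4 → orderOf t = 4 → IsConj s t) ∧ Nat.card {g : G // orderOf g = 7} = 48 ∧ ∀ x : G, orderOf x = 7 → Nat.card {g : G // IsConj x g} = 24 ∧ ¬ IsConj x x⁻¹ := by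
  refine ⟨H10.G168.c3 h, fun s t hs ht => H10.isConj_of_card_le (ht.trans hs.symm) ?_,
    (H10.G168.c24 h).2, fun s t hs ht => H10.isConj_of_card_le (ht.trans hs.symm) ?_,
    H10.G168.c7 h, fun x hx => ?_⟩
  · rw [H10.index_eq_of_card (n := 56) h
      (H10.G168.card_centralizer_prime h Nat.prime_three hs (by norm_num)), hs, H10.G168.c3 h]
  · rw [H10.index_eq_of_card (n := 42) h (H10.G168.card_centralizer_four h hs), hs,
      (H10.G168.c24 h).2]
  have h7 := H10.G168.card_centralizer_prime h (by norm_num) hx (by norm_num)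
  refine ⟨by rw [H5.card_isConj, H10.index_eq_of_card (n := 24) h h7], fun hc => ?_⟩
  obtain ⟨t, ht, e⟩ := S0241.result x (by rintro rfl; simp at hx) hc (by rw [h7]; decide)
  obtain ⟨P⟩ : Nonempty (Sylow 7 G) := inferInstance
  obtain ⟨Q, hQ⟩ := H10.exists_sylow_eq_zpowers P (H10.G168.card_sylow_seven h P) hx
  have h1 : t ∈ Subgroup.normalizer ((Q : Subgroup G) : Set G) := by
    rw [hQ]
    refine H3.mem_normalizer_of_forall_conj_mem ?_
    rintro _ ⟨k, rfl⟩
    rw [← conj_zpow, e]
    exact Subgroup.zpow_mem _ (inv_mem (Subgroup.mem_zpowers x)) k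
  have h2 := orderOf_dvd_natCard (⟨t, h1⟩ : Subgroup.normalizer ((Q : Subgroup G) : Set G))
  have h3 := H10.card_sylow_mul_card_normalizer Q
  rw [Subgroup.orderOf_mk, ht] at h2
  rw [H10.G168.n7 h, h] at h3
  omega

end Cfsg.Agent.S1006
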