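import Cfsg.Statements.S1008
import Cfsg.Agent.H10.G168
import Cfsg.Agent.H1.Basic
import Cfsg.Agent.H5.Central

set_option autoImplicit false
open Cfsg

namespace Cfsg.Agent.S1008

open H10 H10.G168 Subgroup
open scoped Pointwise

variable {G : Type*} [Group G] [Finite G] [IsSimpleGroup G] (h : Nat.card G = 168)
include h

theorem coatom {M : Subgroup G} (hM : Nat.card M = 24) : IsCoatom M := by
  have hi := index_eq_of_card (n := 7) h hM
  refine ⟨fun e => by rw [e, index_top] at hi; omega, fun H hH => ?_⟩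
  by_contra hne
  have h1 := seven_le_index h hne
  have h2 := card_lt_card_of_lt hH
  have h3 := H.card_mul_index
  rw [h] at h3
  nlinarith

theorem klein_conj {U : Subgroup G} (hU : IsKleinFour U) (g : G) :
    IsKleinFour (U.map (MulAut.conj g).toMonoidHom) := by
  have e := U.equivMapOfInjective (MulAut.conj g).toMonoidHom (MulAut.conj g).injective
  exact ⟨(Nat.card_congr e.symm.toEquiv).trans hU.1,
    (Monoid.exponent_eq_of_mulEquiv e.symm).trans hU.2⟩

theorem klein_pg {U : Subgroup G} (hU : IsKleinFour U) : IsPGroup 2 U :=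
  IsPGroup.of_card (n := 2) hU.card_four

theorem klein_uniq {U W : Subgroup G} (hU : IsKleinFour U) (hW : IsKleinFour W)
    (e : normalizer (U : Set G) = normalizer (W : Set G)) : U = W := by
  by_contra hne
  have h1 : IsPGroup 2 ↥(U ⊔ W) :=
    IsPGroup.to_sup_of_normal_left' (klein_pg h hU) (klein_pg h hW) (e ▸ le_normalizer)
  obtain ⟨T, hT⟩ := h1.exists_le_sylow
  have h2 : U < U ⊔ W := left_lt_sup.2 fun hle =>
    hne (eq_of_le_of_card_ge hle (by rw [hU.card_four, hW.card_four])).symm
  have h3 := card_lt_card_of_lt h2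
  have h4 := card_dvd_of_le hT
  rw [card_sylow_two h] at h4
  rw [hU.card_four] at h3
  have h5 : Nat.card ↥(U ⊔ W) = 8 := by
    have := Nat.le_of_dvd (by norm_num) h4
    generalize Nat.card ↥(U ⊔ W) = n at *
    interval_cases n <;> omega
  have h6 := eq_of_le_of_card_ge hT (by rw [h5, card_sylow_two h])
  have h7 := normalizer_inf_normalizer_le_normalizer_sup U W
  rw [← e, inf_idem, h6, normalizer_two h] at h7
  have := card_le_of_le h7
  rw [card_normalizer_klein h hU, card_sylow_two h] at this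
  omega

theorem exists_klein (T : Sylow 2 G) : ∃ U W : Subgroup G, U ≠ W ∧ U ≤ T ∧ W ≤ T ∧ IsKleinFour U ∧
    IsKleinFour W ∧ ∀ V : Subgroup G, V ≤ T → IsKleinFour V → V = U ∨ V = W := by
  obtain ⟨U, W, hne, e⟩ := Nat.card_eq_two_iff.1 (card_klein h T)
  refine ⟨U, W, fun e => hne (Subtype.ext e), U.2.1, W.2.1, U.2.2, W.2.2, fun V h1 h2 => ?_⟩
  exact (e.ge (Set.mem_univ ⟨V, h1, h2⟩)).imp (congrArg Subtype.val) (congrArg Subtype.val)

theorem classify {M : Subgroup G} (hM : IsCoatom M) :
    (∃ U : Subgroup G, IsKleinFour U ∧ M = normalizer (U : Set G)) ∨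
      ∃ P : Sylow 7 G, M = normalizer ((P : Subgroup G) : Set G) := by
  have big : ∀ U : Subgroup G, IsKleinFour U → M ≤ normalizer (U : Set G) →
      M = normalizer (U : Set G) := fun U hU hle =>
    ((hM.le_iff.1 hle).resolve_left (coatom h (card_normalizer_klein h hU)).1).symm
  have two : ∀ T : Sylow 2 G, M ≤ T → ∃ U : Subgroup G, IsKleinFour U ∧
      M = normalizer (U : Set G) := fun T hT => by
    obtain ⟨U, -, -, h1, -, h2, -⟩ := exists_klein h T
    exact ⟨U, h2, big U h2 (hT.trans (le_normalizer_of_card_four h T h1 h2.card_four))⟩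
  by_cases hb : M = ⊥
  · obtain ⟨T⟩ : Nonempty (Sylow 2 G) := inferInstance
    exact .inl (two T (hb ▸ bot_le))
  have h1 := seven_le_index h hM.1
  have h2 := M.card_mul_index
  rw [h] at h2
  have hs : Group.IsSolvable M := by
    have h3 : Nat.card M ∣ 168 := Dvd.intro _ h2
    have h4 : Nat.card M ≤ 24 := by nlinarith
    have : Nat.card M ∣ 2 ^ 3 * 3 ^ 1 ∨ Nat.card M ∣ 2 ^ 1 * 7 ^ 1 ∨ Nat.card M ∣ 3 ^ 1 * 7 ^ 1 := by
      generalize Nat.card M = n at *
      interval_cases n <;> omega
    rcases this with h | h | h <;> exact H5.burnside_paqb_dvd (by norm_num) (by norm_num) h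
  have := (nontrivial_iff_ne_bot M).2 hb
  obtain ⟨A', p, hn, hA', hp, hc, hexp, hpg, -⟩ := H1.exists_normal_elementary M
  set A := A'.map M.subtype
  have e := A'.equivMapOfInjective _ M.subtype_injective
  have hA : A ≠ ⊥ := fun e => hA' ((map_eq_bot_iff_of_injective _ M.subtype_injective).1 e)
  have hAM : A ≤ M := map_subtype_le _
  have hMA : M = normalizer (A : Set G) := by
    refine ((hM.le_iff.1 ?_).resolve_left (normalizer_ne_top hA (ne_top_of_le_ne_top hM.1 hAM))).symm
    rw [← normal_subgroupOf_iff_le_normalizer hAM]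
    rwa [subgroupOf, comap_map_eq_self_of_injective M.subtype_injective]
  have := Fact.mk hp
  have hpA : IsPGroup p A := hpg.map _
  obtain ⟨P, hP⟩ := hpA.exists_le_sylow
  have hA1 : Nat.card A ≠ 1 := fun e => hA (card_eq_one.1 e)
  have hpd : p ∣ 168 := by
    obtain ⟨k, hk⟩ := hpA.exists_card_eq
    rcases k with _ | k
    · exact absurd hk hA1
    · exact ((dvd_pow_self p k.succ_ne_zero).trans hk.symm.dvd).trans (h ▸ card_subgroup_dvd_card A)
  have hd := card_dvd_of_le hP
  have : p = 2 ∨ p = 3 ∨ p = 7 := by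
    have : p ∣ 2 ^ 3 * 3 * 7 := hpd
    rw [hp.dvd_mul, hp.dvd_mul] at this
    rcases this with (h | h) | h
    · exact .inl ((Nat.prime_dvd_prime_iff_eq hp Nat.prime_two).1 (hp.dvd_of_dvd_pow h))
    · exact .inr (.inl ((Nat.prime_dvd_prime_iff_eq hp Nat.prime_three).1 h))
    · exact .inr (.inr ((Nat.prime_dvd_prime_iff_eq hp (by norm_num)).1 h))
  rcases this with rfl | rfl | rfl
  · left
    have hsq : ∀ x ∈ A, x ^ 2 = 1 := by
      rintro _ ⟨x, hx, rfl⟩
      exact congrArg Subtype.val (hexp x hx)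
    rw [card_sylow_two h] at hd
    have : Nat.card A = 2 ∨ Nat.card A = 4 ∨ Nat.card A = 8 := by
      have := Nat.le_of_dvd (by norm_num) hd
      generalize Nat.card A = n at *
      interval_cases n <;> omega
    rcases this with h3 | h3 | h3
    · obtain ⟨z, hz, hz2⟩ := exists_mem_orderOf_eq A Nat.prime_two h3.symm.dvd
      obtain ⟨T, hT⟩ := exists_sylow_centralizer h hz2
      exact two T (hT ▸ fun g hg => mem_centralizer_singleton_iff.2 (commute_of_card_two h3
        (fun a ha s hs => H3.conj_mem_of_mem_normalizer (hMA.le ha) hs) hz hg))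
    · have : Nontrivial A := (nontrivial_iff_ne_bot A).2 hA
      exact ⟨A, ⟨h3, (Monoid.exponent_eq_prime_iff Nat.prime_two).2 fun g hg =>
        orderOf_eq_prime (Subtype.ext (hsq g g.2)) hg⟩, hMA⟩
    · exact two P (by rw [hMA, eq_of_le_of_card_ge hP (by rw [h3, card_sylow_two h]),
        normalizer_two h])
  · left
    rw [card_sylow_three h, Nat.dvd_prime Nat.prime_three] at hd
    have hAP := eq_of_le_of_card_ge hP (by rw [hd.resolve_left hA1, card_sylow_three h])
    obtain ⟨T⟩ : Nonempty (Sylow 2 G) := inferInstance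
    obtain ⟨U₀, -, -, -, -, hU₀, -⟩ := exists_klein h T
    obtain ⟨x, hx, hx3⟩ := exists_mem_orderOf_eq (normalizer (U₀ : Set G)) Nat.prime_three
      (by rw [card_normalizer_klein h hU₀]; norm_num)
    obtain ⟨Q, hQ⟩ := exists_sylow_eq_zpowers P (card_sylow_three h P) hx3
    obtain ⟨g, rfl⟩ := MulAction.exists_smul_eq G Q P
    have hU := klein_conj h hU₀ g
    set U := U₀.map (MulAut.conj g).toMonoidHom
    have hle : ((g • Q : Sylow 3 G) : Subgroup G) ≤ normalizer (U : Set G) := fun y hy => by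
      rw [show U = MulAut.conj g • U₀ from rfl, H3.normalizer_conj_smul, H3.mem_conj_smul_iff]
      exact zpowers_le.2 hx (hQ.le (H3.mem_sylow_smul_iff.1 hy))
    refine ⟨U, hU, big U hU ?_⟩
    have h3 := card_sylow_mul_card_normalizer ((g • Q).subtype hle)
    have h4 := card_sylow_modEq_one 3 (normalizer (U : Set G))
    have h5 := card_sylow_mul_card_normalizer (g • Q)
    rw [n3 h, h, ← hAP, ← hMA] at h5
    rw [Sylow.coe_subtype, ← subgroupOf_normalizer_eq hle, card_normalizer_klein h hU, ← hAP, ← hMA,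
      ← inf_subgroupOf_right, Nat.card_congr (subgroupOfEquivOfLe inf_le_right).toEquiv] at h3
    have h6 := card_dvd_of_le (le_inf hAM (hAP ▸ hle))
    rw [hd.resolve_left hA1] at h6
    refine inf_eq_left.1 (eq_of_le_of_card_ge inf_le_left ?_)
    have h7 := card_le_of_le (inf_le_left : M ⊓ normalizer (U : Set G) ≤ M)
    unfold Nat.ModEq at h4
    generalize Nat.card ↥(M ⊓ normalizer (U : Set G)) = a at *
    have : a ≤ 6 := by omega
    interval_cases a <;> omega
  · right
    rw [card_sylow_seven h, Nat.dvd_prime (by norm_num)] at hd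
    exact ⟨P, by rw [hMA, eq_of_le_of_card_ge hP (by rw [hd.resolve_left hA1, card_sylow_seven h])]⟩

theorem card21 (P : Sylow 7 G) : Nat.card (normalizer ((P : Subgroup G) : Set G)) = 21 := by
  have h5 := card_sylow_mul_card_normalizer P
  rw [n7 h, h] at h5
  omega

omit h

/-- In a simple group of order 168 every maximal subgroup is either isomorphic to the symmetric group of degree 4 or non-abelian of order 21; the maximal subgroups of order 21 form one conjugacy class and those isomorphic to the symmetric group of degree 4 form exactly two conjugacy classes. -/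
theorem result {G : Type*} [Group G] [Finite G] [IsSimpleGroup G] (h : Nat.card G = 168) : (∀ M : Subgroup G, IsCoatom M → Nonempty (↥M ≃* Equiv.Perm (Fin 4)) ∨ (Nat.card ↥M = 21 ∧ ¬ IsMulCommutative ↥M)) ∧ (∀ M M' : Subgroup G, IsCoatom M → IsCoatom M' → Nat.card ↥M = 21 → Nat.card ↥M' = 21 → ∃ g : G, M' = M.map (MulAut.conj g).toMonoidHom) ∧ ∃ M₁ M₂ : Subgroup G, IsCoatom M₁ ∧ IsCoatom M₂ ∧ Nonempty (↥M₁ ≃* Equiv.Perm (Fin 4)) ∧ Nonempty (↥M₂ ≃* Equiv.Perm (Fin 4)) ∧ (∀ g : G, M₂ ≠ M₁.map (MulAut.conj g).toMonoidHom) ∧ ∀ M : Subgroup G, IsCoatom M → Nonempty (↥M ≃* Equiv.Perm (Fin 4)) → ∃ g : G, M = M₁.map (MulAut.conj g).toMonoidHom ∨ M = M₂.map (MulAut.conj g).toMonoidHom := by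
  refine ⟨fun M hM => ?_, fun M M' hM hM' h1 h2 => ?_, ?_⟩
  · rcases classify h hM with ⟨U, hU, rfl⟩ | ⟨P, rfl⟩
    · exact .inl (equiv_S4 h (card_normalizer_klein h hU))
    · refine .inr ⟨card21 h P, fun hc => not_normalizer_le_centralizer_of_perfect (perf h) P
        (by rw [h]; norm_num) fun g hg x hx => ?_⟩
      exact congrArg Subtype.val (hc.is_comm.comm ⟨x, le_normalizer hx⟩ ⟨g, hg⟩)
  · rcases classify h hM with ⟨U, hU, rfl⟩ | ⟨P, rfl⟩
    · rw [card_normalizer_klein h hU] at h1; omega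
    rcases classify h hM' with ⟨U, hU, rfl⟩ | ⟨Q, rfl⟩
    · rw [card_normalizer_klein h hU] at h2; omega
    obtain ⟨g, rfl⟩ := MulAction.exists_smul_eq G P Q
    exact ⟨g, H3.normalizer_conj_smul _ g⟩
  obtain ⟨T⟩ : Nonempty (Sylow 2 G) := inferInstance
  obtain ⟨U, W, hne, hU, hW, kU, kW, hu⟩ := exists_klein h T
  refine ⟨normalizer U, normalizer W, coatom h (card_normalizer_klein h kU),
    coatom h (card_normalizer_klein h kW), equiv_S4 h (card_normalizer_klein h kU),
    equiv_S4 h (card_normalizer_klein h kW), fun g e => ?_, fun M hM ⟨e⟩ => ?_⟩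
  · exact not_conj_klein h T hU hW kU kW hne g
      (klein_uniq h (klein_conj h kU g) kW ((H3.normalizer_conj_smul U g).trans e.symm))
  rcases classify h hM with ⟨V, hV, rfl⟩ | ⟨P, rfl⟩
  · obtain ⟨g, hg⟩ := H3.exists_conj_mem_sylow T (klein_pg h hV)
    have key : V = (V.map (MulAut.conj g⁻¹).toMonoidHom).map (MulAut.conj g).toMonoidHom := by
      rw [H3.map_conj_eq_smul, H3.map_conj_eq_smul, map_inv, smul_inv_smul]
    refine ⟨g, (hu _ ?_ (klein_conj h hV g⁻¹)).imp (fun e => ?_) fun e => ?_⟩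
    · rintro _ ⟨x, hx, rfl⟩
      have := hg x hx
      rwa [← inv_inv g, inv_inv g⁻¹] at this
    · rw [key, e]; exact H3.normalizer_conj_smul _ g
    · rw [key, e]; exact H3.normalizer_conj_smul _ g
  · have := Nat.card_congr e.toEquiv
    rw [card21 h, card_perm_four] at this
    omega

end Cfsg.Agent.S1008
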