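import Cfsg.Statements.S1013
import Cfsg.Agent.H10.Syl2
import Cfsg.Agent.H16.Basic
import Cfsg.Agent.H3.PNilpotent
import Cfsg.Agent.H3.Frobenius

set_option autoImplicit false
open Cfsg

namespace Cfsg.Agent.S1013

/-- Let G be a transitive permutation group of prime degree p having more than one Sylow p-subgroup, and suppose a Sylow p-subgroup P has prime index in its normalizer. Then G is simple. -/
theorem result {α : Type*} [Fintype α] [DecidableEq α] {p : ℕ} [Fact p.Prime] (hα : Fintype.card α = p) (G : Subgroup (Equiv.Perm α)) [MulAction.IsPretransitive ↥G α] (P : Sylow p ↥G) (hn : 1 < Nat.card (Sylow p ↥G)) (ht : (((P : Subgroup ↥G).subgroupOf (Subgroup.normalizer ((P : Subgroup ↥G) : Set ↥G))).index).Prime) : IsSimpleGroup ↥G := by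
  have hp : p.Prime := Fact.out
  have hα' : Nat.card α = p := Nat.card_eq_fintype_card.trans hα
  have := MulAction.IsPreprimitive.of_prime_card (G := G) (hα' ▸ hp : (Nat.card α).Prime)
  obtain ⟨a⟩ : Nonempty α := Fintype.card_pos_iff.1 (hα ▸ hp.pos)
  have hdvd : ∀ K : Subgroup G, K.Normal → K ≠ ⊥ → p ∣ Nat.card K := fun K _ hK => by
    have := H16.isPretransitive_of_normal (α := α) K hK
    exact ⟨_, by rw [← H16.card_mul_card_stabilizer a, hα']⟩
  have hP : Nat.card (P : Subgroup G) ∣ p := by
    obtain ⟨k, hk⟩ := P.2.exists_card_eq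
    have h1 := (Subgroup.card_subgroup_dvd_card (P : Subgroup G)).trans
      (Subgroup.card_subgroup_dvd_card G)
    rw [hk, Nat.card_perm, hα'] at h1
    rw [hk]
    rcases k with _ | _ | k
    · simp
    · simp
    · exfalso
      rw [← Nat.mul_factorial_pred hp.ne_zero, pow_succ', Nat.mul_dvd_mul_iff_left hp.pos] at h1
      have := hp.dvd_factorial.1 ((dvd_pow_self p k.succ_ne_zero).trans h1)
      have := hp.pos
      omega
  have hnn : ¬ (P : Subgroup G).Normal := fun h => by
    have := Sylow.unique_of_normal P h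
    rw [Nat.card_unique] at hn
    omega
  have : Nontrivial G := by
    by_contra h
    have := not_nontrivial_iff_subsingleton.1 h
    exact hnn inferInstance
  refine ⟨fun K hK => ?_⟩
  by_contra h
  push Not at h
  have hPK : (P : Subgroup G) ≤ K := by
    have h1 := H3.isSylowIn_inf_normal P K
    rcases (Nat.dvd_prime hp).1 ((Subgroup.card_dvd_of_le
      (inf_le_left : (P : Subgroup G) ⊓ K ≤ P)).trans hP) with h2 | h2
    · rw [Subgroup.card_eq_one.1 h2] at h1
      exact absurd (hdvd K hK h.1) h1.not_dvd_card_of_eq_bot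
    · exact inf_eq_left.1 (Subgroup.eq_of_le_of_card_ge inf_le_left
        (h2.symm ▸ Nat.le_of_dvd hp.pos hP))
  set N := Subgroup.normalizer ((P : Subgroup G) : Set G)
  have h1 := Subgroup.relIndex_mul_relIndex (P : Subgroup G) (K ⊓ N) N
    (le_inf hPK Subgroup.le_normalizer) inf_le_right
  rcases (Nat.dvd_prime ht).1 (Dvd.intro _ h1) with h2 | h2
  · have h3 : Cfsg.HasNormalPComplement p K := by
      have : IsCyclic (P : Subgroup G) := isCyclic_of_card_dvd_prime hP
      refine H3.burnside_hasNormalPComplement (P.subtype hPK) fun x hx y hy => Subtype.ext ?_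
      have h4 : x ∈ Subgroup.normalizer (((P : Subgroup G).subgroupOf K : Subgroup K) : Set K) := hx
      rw [← Subgroup.subgroupOf_normalizer_eq hPK] at h4
      have h5 := Subgroup.relIndex_eq_one.1 h2 ⟨x.2, h4⟩
      have h6 := congrArg Subtype.val (this.isMulCommutative.is_comm.comm
        (⟨y, hy⟩ : (P : Subgroup G)) ⟨x, h5⟩)
      exact h6
    have h4 := H3.hasNormalPComplement_subgroup_iff_not_dvd.1 h3
    have h5 : (Cfsg.pResidual p K).map K.subtype = ⊥ := by
      by_contra h5
      exact h4 (hdvd _ inferInstance h5)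
    rw [Subgroup.map_eq_bot_iff_of_injective _ K.subtype_injective, H3.pResidual_eq_bot_iff] at h5
    exact hnn (P.3 h5 hPK ▸ hK)
  · have h3 : (K ⊓ N).relIndex N = 1 := by
      apply Nat.eq_of_mul_eq_mul_left ht.pos
      rw [mul_one]
      exact (congrArg (· * _) h2).symm.trans h1
    have h4 : N ⊔ K = ⊤ := Sylow.normalizer_sup_eq_top' P hPK
    rw [sup_eq_right.2 ((Subgroup.relIndex_eq_one.1 h3).trans inf_le_left)] at h4
    exact h.2 h4

end Cfsg.Agent.S1013
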