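import Cfsg.Statements.S1022
import Cfsg.Agent.H10.Sieve3

set_option autoImplicit false
open Cfsg

namespace Cfsg.Agent.S1022

open H5 H10 Subgroup

/-- No finite simple group has order 459648 = 2^7 * 3^3 * 7 * 19. -/
theorem result {G : Type*} [Group G] [Finite G] [IsSimpleGroup G] : Nat.card G ≠ 459648 := by
  intro h
  classical
  have : Fact (Nat.Prime 19) := ⟨by norm_num⟩
  have := Fintype.ofFinite G
  have hG := not_comm_of_simple_of_not_prime (G := G) (by rw [h]; norm_num)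
  have hG' := commutator_eq_top_of_simple hG
  obtain ⟨P⟩ : Nonempty (Sylow 19 G) := inferInstance
  have hP := card_sylow_eq_prime (m := 24192) h (by norm_num) P
  obtain ⟨e, t, he, ⟨D⟩⟩ := exists_PB_of_perfect hG' P hP
  have h1 := sylow_cases D hG (B := 680) (L := [(1008, 6)]) (by rw [h]; norm_num)
    (by rw [h]; decide +kernel) he
  simp only [List.mem_cons, Prod.mk.injEq, List.not_mem_nil, or_false] at h1
  obtain ⟨h1, rfl⟩ := h1
  obtain ⟨l, h2, -, h3⟩ := D.exists_sol hG (B := 680) (Q := fun l => decide (2 ≤ l.count (-56)))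
    (by rw [h]; norm_num) (by rw [h, h1]; decide +kernel)
  have h4 := card_sylow_mul_eq P
  rw [D.he, h1, h] at h4
  obtain ⟨⟨y, hy⟩, hy1⟩ := exists_prime_orderOf_dvd_card' (G := 𝐂[(P : Subgroup G)]) 2 (by omega)
  replace hy1 : orderOf y = 2 := (orderOf_coe _).trans hy1
  have key : ∀ χ ∈ D.X, D.δ χ * charDegree (χ : G → ℂ) = -56 →
      (χ : G → ℂ) y = -20 ∧ 𝐍[(P : Subgroup G)] ≤ 𝐂(y) := fun χ hχ e1 => by
    obtain ⟨e2, e3⟩ : D.δ χ = -1 ∧ charDegree (χ : G → ℂ) = 56 := by
      rcases D.δ_sign χ hχ with e | e <;> rw [e] at e1 ⊢ <;> omega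
    have e4 : ∀ g ∈ 𝐂[(P : Subgroup G)], ¬ 19 ∣ orderOf g →
        19 * avg P (χ : G → ℂ) g = (χ : G → ℂ) g - 18 := fun g hg hg' => by
      have := card_mul_avg (P : Subgroup G) (χ : G → ℂ) g
      rw [sum_eq_of_const _ (fun k => (χ : G → ℂ) (k * g)) (D.δ χ) fun x hx hx1 =>
        (D.val_mul (.inl hχ) hx hx1 hg hg').trans (D.valX χ hχ x hx hx1), one_mul, hP, e2] at this
      push_cast at this
      linear_combination this
    have e5 := isCharacter_avg_restrict (P : Subgroup G) _ le_rfl χ.2.isCharacter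
    have e6 : (χ : G → ℂ) 1 = 56 := by rw [← χ.2.coe_charDegree, e3]; rfl
    have e7 : avg P (χ : G → ℂ) 1 = 2 := by
      have := e4 1 (one_mem _) (by simp)
      linear_combination (this + e6) / 19
    have e8 : ∀ g, (χ : G → ℂ) g = 56 → g = 1 := fun g hg => by
      have := χ.2.mem_charKer.2 (hg.trans e6.symm)
      rwa [χ.2.charKer_eq_bot_of_isSimpleGroup fun e => by
        rw [e] at e6; norm_num at e6, mem_bot] at this
    have e9 : ∀ z (hz : z ∈ 𝐂[(P : Subgroup G)]), orderOf z = 2 →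
        (χ : G → ℂ) z = -20 ∧ avg P (χ : G → ℂ) z = -2 := fun z hz hz1 => by
      obtain ⟨k, a1, a2, -⟩ := invol_val e5 (g := ⟨z, centralizer_le_normalizer _ hz⟩)
        (Subtype.ext (hz1 ▸ pow_orderOf_eq_one z))
      obtain ⟨j, -, a3, a4⟩ := invol_val χ.2.isCharacter (hz1 ▸ pow_orderOf_eq_one z)
      rw [H7.charDegree_eq (n := 2) (χ := fun g : 𝐍[(P : Subgroup G)] => avg P (χ : G → ℂ) g)
        (by simp only [OneMemClass.coe_one, e7, Nat.cast_ofNat])] at a1 a2
      rw [detChar_eq_one_of_perfect hG', eq_comm, neg_one_pow_eq_one_iff_even (by norm_num)] at a4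
      have a5 := e4 z hz (by rw [hz1]; norm_num)
      simp only at a2
      rw [a2, a3, e3] at a5
      have a6 : (19 * (2 - 2 * k) : ℤ) = 56 - 2 * j - 18 := by exact_mod_cast a5
      obtain ⟨i, rfl⟩ := a4
      have a7 : i ≠ 0 := by
        rintro rfl
        rw [e8 z (by simpa [e3] using a3)] at hz1
        simp at hz1
      obtain ⟨rfl, rfl⟩ : k = 2 ∧ i = 19 := by omega
      rw [a2, a3, e3]; norm_num
    refine ⟨(e9 y hy hy1).1, fun n hn => ?_⟩
    have a1 : n * y * n⁻¹ ∈ 𝐂[(P : Subgroup G)] := by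
      have := Normal.conj_mem (normal_subgroupOf_centralizer_normalizer ((P : Subgroup G) : Set G))
        ⟨y, centralizer_le_normalizer _ hy⟩ hy ⟨n, hn⟩
      exact this
    have a2 := ord_isConj (isConj_iff.2 ⟨n, rfl⟩ : IsConj y _)
    obtain ⟨c, -, a3⟩ := (e5.mem_charCenter (g := ⟨y, centralizer_le_normalizer _ hy⟩)).2 (by
      simp [(e9 y hy hy1).2, e7])
    have a4 := a3 1
    have a5 := a3 ⟨_, centralizer_le_normalizer _ a1⟩
    simp only [mul_one, OneMemClass.coe_one, coe_mul, (e9 y hy hy1).2, e7,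
      (e9 _ a1 (a2.trans hy1)).2] at a4 a5
    have a6 : (⟨y * (n * y * n⁻¹), centralizer_le_normalizer _ (mul_mem hy a1)⟩ :
        𝐍[(P : Subgroup G)]) ∈ charKer _ := e5.mem_charKer.2 (by
      simp only [OneMemClass.coe_one, e7]; linear_combination a5 + a4)
    have a7 := e4 _ (H7.pr_mem (p := 19) (mul_mem hy a1)) (H7.not_dvd_orderOf_pr _)
    have a8 := apply_eq_of_mem_charKer (H7.pr_mem (p := 19) a6)
    simp only [← H7.pr_coe, OneMemClass.coe_one, e7] at a8
    rw [a8] at a7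
    have a9 := H7.pp_mul_pr (p := 19) (y * (n * y * n⁻¹))
    rw [e8 (H7.pr 19 (y * (n * y * n⁻¹))) (by linear_combination -a7), mul_one] at a9
    obtain ⟨k, hk⟩ := H7.isPE_pp (p := 19) (y * (n * y * n⁻¹))
    rw [a9] at hk
    have b1 := (((IsPGroup.of_card (n := k) (by rwa [Nat.card_zpowers]) : IsPGroup 19 (zpowers
      (y * (n * y * n⁻¹)))).inf_normalizer_sylow P).le ⟨mem_zpowers _,
        centralizer_le_normalizer _ (mul_mem hy a1)⟩).2
    have b2 := mem_CC.1 hy _ b1
    have b3 := mul_self_of_ord hy1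
    have b4 := eq_one_of_mem_of_not_dvd hP b1 fun hd => absurd (hd.trans
      (orderOf_dvd_of_pow_eq_one (n := 2) (by
        calc _ = (y * (n * y * n⁻¹) * y) * (n * y * n⁻¹) := by rw [sq]; group
          _ = _ := by rw [b2, ← mul_assoc y y, b3, one_mul, conj_mul, b3]; simp))) (by norm_num)
    rw [mem_C, ← mul_inv_eq_iff_eq_mul, eq_inv_of_mul_eq_one_right b4, inv_eq_of_mul_eq_one_right b3]
  rw [decide_eq_true_eq, ← Multiset.coe_count, h2, Multiset.count_map, ← Finset.filter_val,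
    Finset.card_val] at h3
  obtain ⟨a, ha, b, hb, hab⟩ := Finset.one_lt_card.1 h3
  simp only [Finset.mem_filter, Finset.mem_erase] at ha hb
  obtain ⟨h5, h6⟩ := key a ha.1.2 ha.2.symm
  have h7 := Finset.sum_le_univ_sum_of_nonneg (s := {a, b})
    (f := fun χ : IrrCharacter G => ‖(χ : G → ℂ) y‖ ^ 2) fun _ => by positivity
  rw [sum_irr_normSq, Finset.sum_pair hab, h5, (key b hb.1.2 hb.2.symm).1] at h7
  have h8 : 800 ≤ Nat.card 𝐂(y) := by
    have : (800 : ℝ) ≤ Nat.card 𝐂(y) := by refine le_trans ?_ h7; norm_num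
    exact_mod_cast this
  have h9 := relIndex_normalizer_modEq (H3.isSylowIn_of_le P (le_normalizer.trans h6))
  have h10 := relIndex_mul_index h6
  have h11 := card_mul_relIndex h6
  have h12 := card_sylow_mul_card_normalizer P
  rw [← card_sylow_eq_index, h1] at h10
  rw [h1, h] at h12
  have h13 : ∀ m ∈ Nat.divisors 1008, m ≡ 1 [MOD 19] → m = 1 ∨ m = 1008 := by decide +kernel
  rcases h13 _ (Nat.mem_divisors.2 ⟨Dvd.intro _ h10, by norm_num⟩) h9 with h14 | h14 <;>
    rw [h14] at h10 h11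
  · omega
  · exact C_ne_top hG (x := y) (by rintro rfl; simp at hy1) (index_eq_one.1 (by omega))

end Cfsg.Agent.S1022
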