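import Cfsg.Statements.S1026
import Cfsg.Agent.H12.All
import Cfsg.Agent.H12.Ad

set_option autoImplicit false
open Cfsg

namespace Cfsg.Agent.S1026
open H12 H13 Cfsg.Lie

/-- Every element of `U` has a unique expression `∏_{r ∈ Φ⁺} x_r(t_r)`, the product over the positive roots in increasing index order (the coefficient family `t`, supported on the positive roots, exists and is unique); and conversely every such ordered product is the matrix of an element of `U`. -/
theorem result {F : Type*} [Field F] (D : Cfsg.Lie.ChevalleyDatum) (hD : D ∈ [Cfsg.Lie.chevG2, Cfsg.Lie.chevB2, Cfsg.Lie.chevD4, Cfsg.Lie.chevF4, Cfsg.Lie.chevE6, Cfsg.Lie.chevE7, Cfsg.Lie.chevE8]) :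
    (∀ g : GL D.Idx F, g ∈ D.posUnipotent F →
      ∃! t : ℕ → F, (∀ r, ¬ D.IsPosRoot r → t r = 0) ∧
        (g : Matrix D.Idx D.Idx F) = D.wordMat F (D.posRoots.map fun r => (r, t r))) ∧
    (∀ t : ℕ → F, ∃ g : GL D.Idx F, g ∈ D.posUnipotent F ∧
      (g : Matrix D.Idx D.Idx F) = D.wordMat F (D.posRoots.map fun r => (r, t r))) := by
  obtain ⟨G⟩ := good_of_mem hD
  let L : List (Φ D) := (List.finRange D.nroots).filter fun r => IsPos r
  have hL : L.Nodup := (List.nodup_finRange _).filter _
  have hLP : ∀ r, r ∈ L ↔ r ∈ {r : Φ D | IsPos r} := fun r => by simp [L]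
  have e0 : D.posRoots = L.map Fin.val := by
    rw [ChevalleyDatum.posRoots, ← List.map_coe_finRange_eq_range, List.filter_map]
    simp [L, Function.comp_def, isPosRoot_iff]
  have e : ∀ t : ℕ → F, D.wordMat F (D.posRoots.map fun r => (r, t r)) = prodR L fun r => t r := by
    intro t
    rw [wordMat_eq, e0, prodR]
    congr 1
    generalize L = L
    induction L with
    | nil => rfl
    | cons a L ih => simpa using ih
  simp only [e, posUnipotent_eq]
  constructor
  · intro g hg
    obtain ⟨t, rfl⟩ := (adS D F).exists_prod closed_isPos pos_fl hL hLP hg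
    refine ⟨fun r => if h : D.IsPosRoot r then t ⟨r, h.1⟩ else 0, ⟨fun r hr => dif_neg hr, ?_⟩, ?_⟩
    · rw [← coe_adS_prod]; congr 1
      exact StSys.prod_congr _ fun r hr => by simp only [dif_pos ((isPosRoot_iff r).2 ((hLP r).1 hr))]
    · rintro t' ⟨h1, h2⟩
      rw [coe_adS_prod] at h2
      funext r
      by_cases h : D.IsPosRoot r
      · rw [dif_pos h]
        exact (prodR_inj hL (fun r hr => pos_fl r ((hLP r).1 hr)) h2 ⟨r, h.1⟩ ((hLP _).2 ((isPosRoot_iff ⟨r, h.1⟩).1 h))).symm
      · rw [dif_neg h, h1 r h]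
  · intro t
    exact ⟨_, (adS D F).prod_mem_gen (fun r => (hLP r).1) _, coe_adS_prod _ _⟩

end Cfsg.Agent.S1026
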