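import Cfsg.Statements.S1028
import Cfsg.Agent.H12.All
import Cfsg.Agent.H12.Ad

set_option autoImplicit false
open Cfsg

namespace Cfsg.Agent.S1028
open H12 H13 Cfsg.Lie

/-- Elements of `U` (the subgroup generated by the root elements of the positive roots) are unipotent linear maps: `(u - 1)^n = 0` with `n = rank + nroots` the dimension of the module. -/
theorem result {F : Type*} [Field F] (D : Cfsg.Lie.ChevalleyDatum) (hD : D ∈ [Cfsg.Lie.chevG2, Cfsg.Lie.chevB2, Cfsg.Lie.chevD4, Cfsg.Lie.chevF4, Cfsg.Lie.chevE6, Cfsg.Lie.chevE7, Cfsg.Lie.chevE8]) (g : GL D.Idx F) (hg : g ∈ D.posUnipotent F) :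
    ((g : Matrix D.Idx D.Idx F) - 1) ^ (D.rank + D.nroots) = 0 := by
  obtain ⟨G⟩ := good_of_mem hD
  rw [posUnipotent_eq] at hg
  have h := cov_ad.deg_gen zero_le_one pos_fl hg
  have hn : IsNilpotent ((g : Matrix D.Idx D.Idx F) - 1) := by
    obtain ⟨b, hb⟩ := (Set.finite_range fun p : D.Idx × D.Idx => fl (wtI p.1) - fl (wtI p.2)).bddAbove
    refine ⟨b.toNat + 1, ?_⟩
    ext i j
    have : fl (wtI i) - fl (wtI j) ≤ b := hb ⟨(i, j), rfl⟩
    exact h.pow _ i j (by push_cast; omega)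
  have h2 := Matrix.aeval_self_charpoly ((g : Matrix D.Idx D.Idx F) - 1)
  have h3 := Matrix.isNilpotent_charpoly_sub_pow_of_isNilpotent hn
  rw [isNilpotent_iff_eq_zero, sub_eq_zero] at h3
  rw [h3] at h2
  simpa using h2

end Cfsg.Agent.S1028
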