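import Cfsg.Statements.S1037
import Cfsg.Agent.H12.All
import Cfsg.Agent.H12.Ad

set_option autoImplicit false
open Cfsg

namespace Cfsg.Agent.S1037
open H12 H13 Cfsg.Lie

/-- `UH ∩ V = 1` and `UH ∩ VH = H`. -/
theorem result {F : Type*} [Field F] (D : Cfsg.Lie.ChevalleyDatum) (hD : D ∈ [Cfsg.Lie.chevG2, Cfsg.Lie.chevB2, Cfsg.Lie.chevD4, Cfsg.Lie.chevF4, Cfsg.Lie.chevE6, Cfsg.Lie.chevE7, Cfsg.Lie.chevE8]) :
    D.borelSubgroup F ⊓ D.negUnipotent F = ⊥ ∧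
      D.borelSubgroup F ⊓ (D.negUnipotent F ⊔ D.diagonalSubgroup F) = D.diagonalSubgroup F := by
  obtain ⟨G⟩ := good_of_mem hD
  rw [negUnipotent_eq, diagonalSubgroup_eq, borelSubgroup_eq]
  exact ⟨eq_bot_iff.2 fun g hg => cov_ad.eq_one_of_V_B hg.2 hg.1,
    le_antisymm (fun g hg => cov_ad.mem_H_of_B_VH hg.1 hg.2) (le_inf (StSys.H_le_B _) le_sup_right)⟩

end Cfsg.Agent.S1037
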