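import Cfsg.Statements.S1044
import Cfsg.Agent.H12.All
import Cfsg.Agent.H12.Ad

set_option autoImplicit false
open Cfsg

namespace Cfsg.Agent.S1044
open H12 H13 Cfsg.Lie

/-- For a fundamental root `p` the set `B ∪ B n_p B` is (the carrier of) a subgroup of the general linear group. -/
theorem result {F : Type*} [Field F] (D : Cfsg.Lie.ChevalleyDatum) (hD : D ∈ [Cfsg.Lie.chevG2, Cfsg.Lie.chevB2, Cfsg.Lie.chevD4, Cfsg.Lie.chevF4, Cfsg.Lie.chevE6, Cfsg.Lie.chevE7, Cfsg.Lie.chevE8]) (i : ℕ) (hi : i < D.rank) (n : GL D.Idx F)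
    (hn : (n : Matrix D.Idx D.Idx F) = D.nMat F (D.simple i) 1) :
    ∃ P : Subgroup (GL D.Idx F), (P : Set (GL D.Idx F)) =
      (D.borelSubgroup F : Set (GL D.Idx F)) ∪ DoubleCoset.doubleCoset n (D.borelSubgroup F : Set (GL D.Idx F)) (D.borelSubgroup F) := by
  obtain ⟨G⟩ := good_of_mem hD
  lift i to I D using hi
  rw [borelSubgroup_eq, (coe_eq_n_one (r := sim i)).1 hn]
  refine ⟨(adS D F).P {i}, Set.ext fun g => ?_⟩
  rw [SetLike.mem_coe, StSys.mem_P, Set.mem_union, DoubleCoset.mem_doubleCoset]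
  constructor
  · rintro ⟨w, hw, h⟩
    have : w = 1 ∨ w = sW i := by
      refine WJ_induction (P := fun w => w = 1 ∨ w = sW i) (Or.inl rfl) ?_ hw
      rintro j rfl w _ (rfl | rfl) <;> simp
    rcases this with rfl | rfl
    · exact Or.inl (StSys.cell_one.1 h)
    · exact Or.inr (h.exists_bnb (StSys.rep_n_sim i 1))
  · rintro (h | ⟨b, hb, b', hb', rfl⟩)
    · exact ⟨1, one_mem _, StSys.cell_one.2 h⟩
    · exact ⟨_, sW_mem_WJ rfl, b, hb, _, StSys.rep_n_sim i 1, b', hb', rfl⟩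

end Cfsg.Agent.S1044
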