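import Cfsg.Statements.S1045
import Cfsg.Agent.H12.All
import Cfsg.Agent.H12.Ad

set_option autoImplicit false
open Cfsg

namespace Cfsg.Agent.S1045
open H12 H13 Cfsg.Lie

/-- For a fundamental root `p`, the subgroup `U_p` generated by the `X_s`, `s` positive and `s ≠ p`, is normalised by `X_p` and `X_{-p}`, and `U = U_p ⊔ X_p`. -/
theorem result {F : Type*} [Field F] (D : Cfsg.Lie.ChevalleyDatum) (hD : D ∈ [Cfsg.Lie.chevG2, Cfsg.Lie.chevB2, Cfsg.Lie.chevD4, Cfsg.Lie.chevF4, Cfsg.Lie.chevE6, Cfsg.Lie.chevE7, Cfsg.Lie.chevE8]) (i : ℕ) (hi : i < D.rank) :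
    D.rootSubgroup F (D.simple i) ⊔ D.rootSubgroup F (D.neg (D.simple i)) ≤
        Subgroup.normalizer (Subgroup.closure {g : GL D.Idx F | ∃ (s : ℕ) (t : F), D.IsPosRoot s ∧ s ≠ D.simple i ∧
          (g : Matrix D.Idx D.Idx F) = D.x F s t} : Set (GL D.Idx F)) ∧
      Subgroup.closure {g : GL D.Idx F | ∃ (s : ℕ) (t : F), D.IsPosRoot s ∧ s ≠ D.simple i ∧
          (g : Matrix D.Idx D.Idx F) = D.x F s t} ⊔ D.rootSubgroup F (D.simple i) = D.posUnipotent F := by
  obtain ⟨G⟩ := good_of_mem hD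
  lift i to I D using hi
  have := closure_x_eq (D := D) (F := F) (fun r => D.IsPosRoot r ∧ r ≠ D.simple i) fun _ h => h.1.1
  simp only [and_assoc] at this
  have e : {r : Φ D | D.IsPosRoot r ∧ (r : ℕ) ≠ D.simple i} = {r | IsPos r ∧ ¬ InJ {i} r} := by
    ext r
    simp only [Set.mem_setOf_eq, isPosRoot_iff, ← sim_val, Ne, Fin.val_inj]
    refine and_congr_right fun hr => not_congr ⟨fun h => h ▸ inJ_sim.2 rfl, fun h => ?_⟩
    by_contra hne
    obtain ⟨w, hw, j, rfl, rfl⟩ := h.exists_smul_sim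
    have : w = 1 ∨ w = sW j := by
      refine WJ_induction (P := fun w => w = 1 ∨ w = sW j) (Or.inl rfl) ?_ hw
      rintro k rfl w _ (rfl | rfl) <;> simp
    rcases this with rfl | rfl
    · simp at hne
    · exact absurd (by simpa using hr) (not_isPos_ng_sim j)
  rw [this, e, ← sim_val, ← ng_val, rootSubgroup_eq, rootSubgroup_eq, posUnipotent_eq]
  refine ⟨le_trans ?_ (StSys.P_le_normalizer {i}), ?_⟩
  · refine sup_le ((StSys.gen_le _).2 ?_) ((StSys.gen_le _).2 ?_) <;> rintro _ rfl t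
    exacts [StSys.x_mem_P (Or.inl (isPos_sim i)) t, StSys.x_mem_P (Or.inr (inJ_ng.2 (inJ_sim.2 (Set.mem_singleton i)))) t]
  · rw [← e, ← StSys.gen_union, StSys.U]; congr 1; ext r
    simp only [Set.mem_union, Set.mem_setOf_eq, isPosRoot_iff, ← sim_val, Ne, Fin.val_inj, Set.mem_singleton_iff]
    by_cases h : r = sim i <;> simp [h, isPos_sim]

end Cfsg.Agent.S1045
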