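import Cfsg.Statements.S1051
import Cfsg.Agent.H12.All
import Cfsg.Agent.H12.Ad

set_option autoImplicit false
open Cfsg

namespace Cfsg.Agent.S1051
open H12 H13 Cfsg.Lie

/-- `⋂_g g B g⁻¹ = 1`: the normal core of `B` in the Chevalley group is trivial. -/
theorem result {F : Type*} [Field F] (D : Cfsg.Lie.ChevalleyDatum) (hD : D ∈ [Cfsg.Lie.chevG2, Cfsg.Lie.chevB2, Cfsg.Lie.chevD4, Cfsg.Lie.chevF4, Cfsg.Lie.chevE6, Cfsg.Lie.chevE7, Cfsg.Lie.chevE8]) : ((D.borelSubgroup F).subgroupOf (D.group F)).normalCore = ⊥ := by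
  obtain ⟨G⟩ := good_of_mem hD
  rw [borelSubgroup_eq, group_eq]
  refine eq_bot_iff.2 fun k hk => Subtype.ext ?_
  refine cov_ad.ker_of_normal_le_B (K := cov_ad.bn.B.normalCore.map (adS D F).T.subtype) ?_ ?_ ⟨k, hk, rfl⟩
  · rintro g hg _ ⟨k, hk, rfl⟩
    exact ⟨_, (Subgroup.normalCore_normal _).conj_mem k hk ⟨g, hg⟩, rfl⟩
  · rintro _ ⟨k, hk, rfl⟩; exact Subgroup.normalCore_le cov_ad.bn.B hk

end Cfsg.Agent.S1051
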