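import Cfsg.Statements.S1057
import Cfsg.Agent.H22.U33c
import Cfsg.Agent.H15.Std4
import Cfsg.Agent.S1059

set_option autoImplicit false
open Cfsg

namespace Cfsg.Agent.S1057

open H15 H22 Cfsg.Lie

theorem hom_u33 {G : Type*} [Group G] {gen : ℕ → G} (h : ∀ w ∈ TU33a.rels, ev gen w = 1) {F : Type*} [Field F]
    [Fintype F] (hF : Fintype.card F = 9) : Nat.card (PSU 3 F 3) = 6048 ∧ ∃ f : PSU 3 F 3 →* G, gen 0 ∈ f.range := by
  obtain ⟨S⟩ := StdU33.std hF
  have := S.faithful
  let ws : List H14.Word := [[0, 4], [4, 0], [0], [6, 2, 10], [0, 2, 6, 4]]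
  have hK : Kl (lw S.M.gen ws) (List.range 10) = ⊤ := by
    let v : ℕ → List ℕ := ([[4], [8, 1, 9, 4], [5, 2]].getD · [])
    have := S.M.rels_of_chk (StdU33.sep S.M) (l := (List.range 3).map fun l => ([2 * l], H14.flat ws (v l).reverse))
      (by decide +kernel)
    refine top_le_iff.1 (S.top.ge.trans (StdU33.gen_mem S.rels fun l hl => ?_))
    rw [← H14.ev_single S.M.gen, this _ (List.mem_map_of_mem (List.mem_range.2 hl)), ev_flat]
    exact ev_mem_Kl _ (by revert l; decide)
  obtain ⟨f, hf, -⟩ := hom_of_Kl (bd_u33 (rel_pair (rels_lw S (by decide +kernel)) h)) hK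
    fun _ => by rw [Subgroup.card_top, S.card]
  obtain ⟨g, hg⟩ := hf.ge (gen_mem_Kl _ (x := 0) (by decide))
  exact ⟨S.card, f.comp (Subgroup.topEquiv (G := PSU 3 F 3)).symm.toMonoidHom, g.1, hg⟩

noncomputable def As : List (ℕ × ℕ) := [7, 6, 4, 5].map fun r => (c2.xN 1 chevG2 r 1, c2.xN 1 chevG2 r 1)

def ws : List H14.Word :=
  [[0, 2, 0, 2], [4, 2, 0, 2, 0, 4], [0, 4], [4, 6, 2, 0, 2, 6, 0, 2, 0], [6, 4, 6, 2, 0, 4, 6, 0, 2, 0, 2, 0]]

theorem gens {F : Type*} [Field F] [Fintype F] (hF : Fintype.card F = 2) :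
    ∃ gen : ℕ → chevG2.group F, gen 0 ≠ 1 ∧ ∀ w ∈ TU33a.rels, ev gen w = 1 := by
  obtain ⟨a, ha⟩ := ar_2 (F := F) hF
  have hi : c2.invM (chevG2.rank + chevG2.nroots) As = true := by decide +kernel
  obtain ⟨M⟩ := (mem_chev ha (m := 1) (by decide +kernel) (D := chevG2) (rt := [(7, 1), (6, 1), (4, 1), (5, 1)])
    (L := As) hi (by decide +kernel)).mm ha.1 hi
  have hρ : Function.Injective (glM (chevG2.group F)) := Units.val_injective.comp Subtype.val_injective
  refine ⟨lw M.gen ws, fun e => ?_, fun w hw => (ev_flat ..).symm.trans (M.rels' ha.1 hρ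
    (l := TU33a.rels.map fun w => (H14.flat ws w.reverse, [])) (by decide +kernel) _ (List.mem_map_of_mem hw))⟩
  have h1 := M.toM_ev [0, 2, 0, 2]
  rw [show H14.ev M.gen [0, 2, 0, 2] = 1 from e, map_one] at h1
  have h2 := congrFun (congrFun h1 (.inl (0 : Fin 2))) (.inr (1 : Fin 12))
  have h3 : fld c2.W (c2.evM (chevG2.rank + chevG2.nroots) As [0, 2, 0, 2]) (14 * 0 + 3) = 1 := by decide +kernel
  rw [← ha.1] at h3
  rw [Matrix.one_apply_ne (by simp)] at h2
  exact one_ne_zero (a.v_one.symm.trans ((congrArg a.v h3).symm.trans h2))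

/-- G₂(2)′ ≅ PSU₃(3). -/
theorem result {F K : Type*} [Field F] [Fintype F] [Field K] [Fintype K] (hF : Fintype.card F = 2) (hK : Fintype.card K = 9) :
    Nonempty (↥(commutator ↥(Cfsg.Lie.chevG2.group F)) ≃* Cfsg.PSU 3 K 3) := by
  obtain ⟨gen, h0, h1⟩ := gens hF
  obtain ⟨hc, f, g, hg⟩ := hom_u33 h1 hK
  have := Cfsg.Agent.S0283.result (F := K) (q := 3) hK 3 le_rfl (by decide)
  have hf := inj_of_simple f (g := g) (hg ▸ h0)
  have hG : Nat.card (chevG2.group F) = 12096 := S1059.result hF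
  have hi : f.range.index = 2 := by
    have := f.range.card_mul_index
    rw [← Nat.card_congr (MonoidHom.ofInjective hf).toEquiv, hc, hG] at this
    omega
  have := Subgroup.normal_of_index_eq_two hi
  have e : commutator (chevG2.group F) = f.range := by
    refine le_antisymm ?_ ?_
    · have : Fact (Nat.Prime 2) := ⟨Nat.prime_two⟩
      have : IsCyclic (chevG2.group F ⧸ f.range) := isCyclic_of_prime_card (p := 2) hi
      exact Subgroup.Normal.quotient_commutative_iff_commutator_le.1 inferInstance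
    · rcases IsSimpleGroup.eq_bot_or_eq_top_of_normal (commutator (PSU 3 K 3)) inferInstance with h | h
      · rw [commutator_eq_bot_iff_center_eq_top, center_eq_bot_of_simple hc (by norm_num)] at h
        exact absurd h bot_ne_top
      · rw [MonoidHom.range_eq_map, ← h, commutator_def, Subgroup.map_commutator]
        exact Subgroup.commutator_mono le_top le_top
  exact ⟨(MulEquiv.subgroupCongr e).trans (MonoidHom.ofInjective hf).symm⟩

end Cfsg.Agent.S1057
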