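import Cfsg.Statements.S1058
import Cfsg.Agent.H25.Sp4
import Cfsg.Agent.S0247

set_option autoImplicit false
open Cfsg

namespace Cfsg.Agent.S1058

open Equiv Equiv.Perm Subgroup

/-- B₂(2) ≅ S₆. -/
theorem result {F : Type*} [Field F] [Fintype F] (hF : Fintype.card F = 2) :
    Nonempty (↥(Cfsg.Lie.chevB2.group F) ≃* Equiv.Perm (Fin 6)) := by
  obtain ⟨ψ, -⟩ := H25.exists_isoC2 (F := F)
  obtain ⟨e⟩ := S0247.result hF
  have h : center (Matrix.symplecticGroup (Fin 2) F) = ⊥ := eq_bot_iff.2 fun x hx => by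
    have h1 : ∀ σ, σ * e x = e x * σ := fun σ => by
      obtain ⟨y, rfl⟩ := e.surjective σ
      rw [← map_mul, ← map_mul, mem_center_iff.1 hx]
    have h2 : ∀ σ : Perm (Fin 6), (∀ i j, swap i j * σ = σ * swap i j) → σ = 1 := fun σ h => by
      ext i
      by_contra hi
      obtain ⟨j, h1, h2⟩ : ∃ j, j ≠ i ∧ j ≠ σ i := by
        have : ∀ a b : Fin 6, ∃ j, j ≠ a ∧ j ≠ b := by decide
        exact this _ _
      have := congrArg (· i) (h (σ i) j)
      have hi' : i ≠ σ i := fun e => hi (by rw [← e]; rfl)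
      simp only [mul_apply, swap_apply_left, swap_apply_of_ne_of_ne hi' h1.symm] at this
      exact h2 this
    exact e.injective ((h2 _ fun i j => h1 _).trans (map_one e).symm)
  exact ⟨ψ.trans (((QuotientGroup.quotientMulEquivOfEq h).trans QuotientGroup.quotientBot).trans e)⟩

end Cfsg.Agent.S1058
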