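import Cfsg.Statements.S1061
import Cfsg.Agent.H12.Ord

set_option autoImplicit false
open Cfsg

namespace Cfsg.Agent.S1061
open H12 H13 Cfsg.Lie

/-- `gcd(2, q-1)² · |D₄(q)| = q¹² (q² - 1)(q⁴ - 1)(q⁴ - 1)(q⁶ - 1)`. -/
theorem result {F : Type*} [Field F] [Fintype F] {q : ℕ} (hq : Fintype.card F = q) : Nat.gcd 2 (q - 1) ^ 2 * Nat.card ↥(Cfsg.Lie.chevD4.group F) = q ^ 12 * (q ^ 2 - 1) * (q ^ 4 - 1) * (q ^ 4 - 1) * (q ^ 6 - 1) := by
  have h := card_group (D := chevD4) (F := F)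
  rw [smithD4.card_ker, Nat.card_eq_fintype_card, hq] at h
  have h1 : 1 ≤ q := hq ▸ Fintype.card_pos
  replace h : Nat.gcd 2 (q - 1) ^ 2 * Nat.card (chevD4.group F) = q ^ 12 * ((q - 1) ^ 4 * poin (Set.univ : Set (I chevD4)) q) := by
    refine Eq.trans ?_ h; congr 1; exact (Fin.prod_univ_four _).trans (by simp [sq]) |>.symm
  rw [h]
  zify [h1, fun k => Nat.one_le_pow k q h1]
  rw [poinD4]; ring

end Cfsg.Agent.S1061
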