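import Cfsg.Statements.S1073
import Cfsg.Agent.H13.ReeGroup

set_option autoImplicit false
open Cfsg

namespace Cfsg.Agent.S1073

/-- ²G₂(3^(2m+1)) is simple for `m ≥ 1`. -/
theorem result {K : Type*} [Field K] [Fintype K] {m : ℕ} (hm : 1 ≤ m) (hK : Fintype.card K = 3 ^ (2 * m + 1)) :
    IsSimpleGroup ↥(Cfsg.Lie.twistedG2 K (3 ^ m)) ∧ ¬ IsMulCommutative ↥(Cfsg.Lie.twistedG2 K (3 ^ m)) := by
  haveI : H13.Ree.IsRee K m := ⟨hK⟩
  refine ⟨H13.Ree.isSimpleGroup hm, fun h => ?_⟩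
  have h1 := H13.Ree.commutator_eq_top (K := K) hm
  rw [commutator_def, (Subgroup.commutator_eq_bot_iff_le_centralizer).2 (fun a _ b _ => h.1.1 b a)] at h1
  exact bot_ne_top h1

end Cfsg.Agent.S1073
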