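import Cfsg.Statements.S1074
import Cfsg.Agent.H15.TitsS

set_option autoImplicit false
open Cfsg

namespace Cfsg.Agent.S1074

/-- ²F₄(2)′ has index 2 in ²F₄(2), is simple, and has order `2¹¹ · 3³ · 5² · 13`. -/
theorem result : (commutator ↥(Cfsg.Lie.twistedF4 (ZMod 2) 1)).index = 2 ∧ IsSimpleGroup Cfsg.Lie.TitsGroup ∧ ¬ IsMulCommutative Cfsg.Lie.TitsGroup ∧
    Nat.card Cfsg.Lie.TitsGroup = 2 ^ 11 * 3 ^ 3 * 5 ^ 2 * 13 := by
  obtain ⟨S⟩ := H15.StdTits.std
  obtain ⟨S'⟩ := H15.StdF42.std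
  have := S.simple
  have h := (commutator (Cfsg.Lie.twistedF4 (ZMod 2) 1)).index_mul_card
  rw [S.card, S'.card] at h
  refine ⟨Nat.eq_of_mul_eq_mul_right (by norm_num : 0 < 17971200) (h.trans (by norm_num)), this, fun c => ?_, S.card⟩
  let _ : CommGroup Cfsg.Lie.TitsGroup := { (inferInstance : Group Cfsg.Lie.TitsGroup) with mul_comm := c.is_comm.comm }
  have := S.finite
  have h2 := IsSimpleGroup.prime_card (α := Cfsg.Lie.TitsGroup)
  rw [S.card] at h2
  exact absurd h2 (by norm_num)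

end Cfsg.Agent.S1074
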