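import Cfsg.Statements.S1078
import Cfsg.Agent.H12.Ord

set_option autoImplicit false
open Cfsg

namespace Cfsg.Agent.S1078
open H12 H13 Cfsg.Lie

/-- For G₂, F₄, E₈ the presented group has trivial centre (the universal and adjoint groups coincide). -/
theorem result {K : Type*} [Field K] (D : Cfsg.Lie.ChevalleyDatum) (hD : D ∈ [Cfsg.Lie.chevG2, Cfsg.Lie.chevF4, Cfsg.Lie.chevE8]) :
    Subgroup.center (D.SteinbergGroup K) = ⊥ := by
  have key : ∀ (D : ChevalleyDatum) [Good D], (actM (M := Kˣ) (CA D)).ker = ⊥ → Subgroup.center (D.SteinbergGroup K) = ⊥ := by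
    intro D _ h
    rw [← cov_st.ker_eq_center stS_T, eq_bot_iff]
    intro g hg
    obtain ⟨c, hc, rfl⟩ := (cov_st.mem_ker_iff r3_st (by simp [stS_T])).1 hg
    rw [h, Subgroup.mem_bot] at hc
    rw [hc]; exact r3_st.hprod.map_one
  simp only [List.mem_cons, List.not_mem_nil, or_false] at hD
  rcases hD with rfl | rfl | rfl
  exacts [key _ (smithG2.ker_eq_bot (by decide) _), key _ (smithF4.ker_eq_bot (by decide) _), key _ (smithE8.ker_eq_bot (by decide) _)]

end Cfsg.Agent.S1078
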