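import Cfsg.Statements.S1080
import Cfsg.Agent.H12.All
import Cfsg.Agent.H12.Ad

set_option autoImplicit false
open Cfsg

namespace Cfsg.Agent.S1080
open H12 H13 Cfsg.Lie

/-- Field automorphisms: for every field automorphism `f` there is a group automorphism sending each `x_r(t)` to `x_r(f t)`. -/
theorem result {F : Type*} [Field F] (D : Cfsg.Lie.ChevalleyDatum) (hD : D ∈ [Cfsg.Lie.chevG2, Cfsg.Lie.chevB2, Cfsg.Lie.chevD4, Cfsg.Lie.chevF4, Cfsg.Lie.chevE6, Cfsg.Lie.chevE7, Cfsg.Lie.chevE8]) (f : F ≃+* F) :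
    ∃ α : ↥(D.group F) ≃* ↥(D.group F), ∀ (g : ↥(D.group F)) (r : ℕ) (t : F), r < D.nroots →
      ((g : GL D.Idx F) : Matrix D.Idx D.Idx F) = D.x F r t → ((α g : GL D.Idx F) : Matrix D.Idx D.Idx F) = D.x F r (f t) := by
  obtain ⟨G⟩ := good_of_mem hD
  let e : GL D.Idx F ≃* GL D.Idx F := Units.mapEquiv (f.mapMatrix (m := D.Idx)).toMulEquiv
  have he : ∀ r t, e (xG F r t) = xG F r (f t) := fun r t => Units.ext (map_xR f.toRingHom r t)
  have h : (D.group F).map e.toMonoidHom = D.group F := by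
    rw [group_eq, StSys.T, StSys.map_gen]
    refine le_antisymm ((StSys.gen_le _).2 fun r _ t => ?_) ((StSys.gen_le _).2 fun r _ t => ?_)
    · rw [show ((adS D F).map e.toMonoidHom).x r _ = _ from he r _]; exact (adS D F).x_mem_T _ _
    · have := ((adS D F).map e.toMonoidHom).x_mem (Set.mem_univ r) (f.symm t)
      rwa [show ((adS D F).map e.toMonoidHom).x r _ = _ from he r _, f.apply_symm_apply] at this
  refine ⟨(e.subgroupMap _).trans (MulEquiv.subgroupCongr h), fun g r t hr hg => ?_⟩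
  lift r to Φ D using hr
  rw [coe_eq_x] at hg ⊢
  rw [← he, ← hg]; rfl

end Cfsg.Agent.S1080
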