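import Cfsg.Statements.S1081
import Cfsg.Agent.H12.Univ

set_option autoImplicit false
open Cfsg

namespace Cfsg.Agent.S1081
open H12 H13 Cfsg.Lie

/-- Graph automorphisms: for E₆ with ρ = (p₁ p₆)(p₃ p₅) and for D₄ with ρ the 3-cycle on the outer nodes there is a group automorphism sending `x_p(t) ↦ x_{ρ(p)}(t)` and `x_{-p}(t) ↦ x_{-ρ(p)}(t)` for every fundamental root `p`. -/
theorem result {F : Type*} [Field F] (p : Cfsg.Lie.ChevalleyDatum × List ℕ)
    (hp : p ∈ [(Cfsg.Lie.chevE6, [5, 1, 4, 3, 2, 0]), (Cfsg.Lie.chevD4, [2, 1, 3, 0]), (Cfsg.Lie.chevD4, [3, 1, 0, 2])]) :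
    ∃ α : ↥(p.1.group F) ≃* ↥(p.1.group F), ∀ (g : ↥(p.1.group F)) (i : ℕ) (t : F), i < p.1.rank →
      (((g : GL p.1.Idx F) : Matrix p.1.Idx p.1.Idx F) = p.1.x F (p.1.simple i) t →
        ((α g : GL p.1.Idx F) : Matrix p.1.Idx p.1.Idx F) = p.1.x F (p.1.simple (p.2.getD i 0)) t) ∧
      (((g : GL p.1.Idx F) : Matrix p.1.Idx p.1.Idx F) = p.1.x F (p.1.neg (p.1.simple i)) t →
        ((α g : GL p.1.Idx F) : Matrix p.1.Idx p.1.Idx F) = p.1.x F (p.1.neg (p.1.simple (p.2.getD i 0))) t) := by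
  have key : ∀ {D : ChevalleyDatum} [Good D] {g : GData} {π lams : List ℕ} (h : GChk (tab D) (tab D) g) (k : GSim (tab D) (tab D) g π lams)
      (hp : g.p = 0) (hl : ∀ i < D.rank, lams.getD i 1 = 1), ∃ α : D.group F ≃* D.group F, ∀ (g : D.group F) (i : ℕ) (t : F), i < D.rank →
      (((g : GL D.Idx F) : Matrix D.Idx D.Idx F) = D.x F (D.simple i) t →
        ((α g : GL D.Idx F) : Matrix D.Idx D.Idx F) = D.x F (D.simple (π.getD i 0)) t) ∧
      (((g : GL D.Idx F) : Matrix D.Idx D.Idx F) = D.x F (D.neg (D.simple i)) t →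
        ((α g : GL D.Idx F) : Matrix D.Idx D.Idx F) = D.x F (D.neg (D.simple (π.getD i 0))) t) := by
    intro D _ g π lams h k hp hl
    refine ⟨gfAut h k (Or.inl hp) (RingHom.id F) fun r t => ⟨t, ?_⟩, fun a i t hi => ?_⟩
    · simp [gfψ, (h.lam_cases r).resolve_right fun e => e.1 hp]
    · simpa only [hl i hi, pow_one, RingHom.id_apply] using gfAut_spec h k (Or.inl hp) (RingHom.id F) _ a i t hi
  simp only [List.mem_cons, List.not_mem_nil, or_false] at hp
  rcases hp with rfl | rfl | rfl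
  exacts [key chk_gE6 sim_gE6 rfl (by decide), key chk_gD4a sim_gD4a rfl (by decide), key chk_gD4b sim_gD4b rfl (by decide)]

end Cfsg.Agent.S1081
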