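import Cfsg.Statements.S1084
import Cfsg.Agent.H12.E27b

set_option autoImplicit false
open Cfsg

namespace Cfsg.Agent.S1084

/-- E₆ via the 27-dimensional cubic form: for a finite field with at least three elements, (isometries of the cubic form) / centre ≅ the Chevalley group E₆(F). -/
theorem result {F : Type*} [Field F] [Fintype F] (hF : 3 ≤ Fintype.card F) : Nonempty (Cfsg.Lie.E6 F ≃* ↥(Cfsg.Lie.chevE6.group F)) := by
  classical
  obtain ⟨a, h⟩ : ∃ a : F, a ≠ 0 ∧ a ≠ 1 := by
    by_contra! h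
    have := Finset.card_le_card (show Finset.univ ⊆ ({0, 1} : Finset F) from fun a _ => by by_cases e : a = 0 <;> simp [e, h a])
    have := Finset.card_le_two (a := (0 : F)) (b := 1)
    simp_all; omega
  let S := (H12.E27.rep.sys F).restrict (Lie.E6univ F) fun r t => H12.E27.T_le (H12.StSys.x_mem_T _ r t)
  have hT : S.T = ⊤ := (H12.StSys.restrict_gen _ _ _ _).trans (Subgroup.subgroupOf_eq_top.2 (H12.E27.T_eq ⟨a, h⟩).ge)
  have : Nontrivial (Lie.E6univ F) := ⟨⟨S.x ⟨0, by decide⟩ 1, 1, fun e => by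
    have := congrArg (fun g : Lie.E6univ F => g.1.1 (1, 0, 2) (0, 1, 2)) e
    change H12.repX H12.E27.mat (fun _ => []) F 0 1 _ _ = _ at this
    simp [H12.repX, H12.E27.mat, H12.E27.en, H12.spM, Matrix.single_apply] at this⟩⟩
  have hp := H12.perfect_of_mem (D := Lie.chevE6) (by simp) (fun _ => ⟨a, h⟩) S
  obtain ⟨e, -⟩ := S.exists_iso_quot hT (H12.simple_of_mem (by simp) fun _ => ⟨a, h⟩).1 (by
    have := congrArg (Subgroup.map S.T.subtype) hp
    rwa [commutator_def, Subgroup.map_commutator, ← MonoidHom.range_eq_map, Subgroup.range_subtype, hT] at this)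
  exact ⟨e.symm⟩

end Cfsg.Agent.S1084
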