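import Cfsg.Statements.S1091
import Cfsg.Agent.H13.ReeGroup
import Cfsg.Agent.S0323

set_option autoImplicit false
open Cfsg
open scoped Pointwise

namespace Cfsg.Agent.S1091

/-- ²G₂(3^(2m+1)) has a (B,N)-pair: B¹ = G¹ ∩ B and N¹ = G¹ ∩ N, intersections with the ambient Chevalley group's B = UH and N. -/
theorem result {K : Type*} [Field K] [Fintype K] {m : ℕ} (hK : Fintype.card K = 3 ^ (2 * m + 1)) :
    ∃ P : Cfsg.BNPair ↥(Cfsg.Lie.twistedG2 K (3 ^ m)),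
      P.B = (Cfsg.Lie.chevG2.borelSubgroup K ⊓ Cfsg.Lie.twistedG2 K (3 ^ m)).subgroupOf (Cfsg.Lie.twistedG2 K (3 ^ m)) ∧
      P.N = (Cfsg.Lie.chevG2.monomialSubgroup K ⊓ Cfsg.Lie.twistedG2 K (3 ^ m)).subgroupOf (Cfsg.Lie.twistedG2 K (3 ^ m)) := by
  haveI : H13.Ree.IsRee K m := ⟨hK⟩
  open H13.Ree in
  obtain ⟨P, h1, h2, -⟩ := Cfsg.Agent.S0323.result (G := R K m) (Ω := Ω K m) inferInstance
    (x := ptInf K m) (y := pt m 0 0 0) (z := pt m 1 0 0) (pt_ne_ptInf _ _ _).symm (by simp [pt_inj])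
    (pt_ne_ptInf _ _ _).symm
  open H13.Ree in
  refine ⟨P, by rw [h1, stabilizer_ptInf, B_eq], ?_⟩
  open H13.Ree in
  rw [h2, N_eq]
  ext n
  rw [MulAction.mem_stabilizer_iff, Set.smul_set_insert, Set.smul_set_singleton, Set.pair_eq_pair_iff]
  open H13.Ree in
  constructor
  · open H13.Ree in
    rintro (h | h)
    · exact H13.Ree.H_le_N (H13.Ree.mem_H_iff.2 h)
    · open H13.Ree in
      have : n * w K m ∈ H K m :=
        mem_H_iff.2 ⟨by rw [mul_smul, w_smul_ptInf, h.2], by rw [mul_smul, w_smul_zero, h.1]⟩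
      exact ((H13.Ree.N K m).mul_mem_cancel_right H13.Ree.w_mem_N).1 (H13.Ree.H_le_N this)
  · intro hn
    obtain ⟨s, rfl | rfl⟩ := H13.Ree.mem_N.1 hn
    · exact Or.inl (H13.Ree.mem_H_iff.1 (H13.Ree.h_mem_H s))
    · open H13.Ree in
      exact Or.inr ⟨by rw [mul_smul, w_smul_ptInf, (mem_H_iff.1 (h_mem_H s)).2],
        by rw [mul_smul, w_smul_zero, h_smul_ptInf]⟩

end Cfsg.Agent.S1091
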