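import Cfsg.Statements.S1092
import Cfsg.Agent.H12.Ord

set_option autoImplicit false
open Cfsg

namespace Cfsg.Agent.S1092
open H12 H13 Cfsg.Lie
theorem aux {D : ChevalleyDatum} [Good D] (M : CoxeterMatrix (I D)) (h : ∀ i j, M i j = (tab D).cm i j) :
    Nat.card M.Group = Nat.card (W D) := by
  obtain ⟨e, -⟩ := exists_equiv_cox M h
  exact (Nat.card_congr e.toEquiv).symm

/-- `|W(B₂)| = 8`, `|W(G₂)| = 12`, `|W(D₄)| = 192`, `|W(F₄)| = 1152` for the groups presented by the Coxeter matrices (the product of the degrees of the basic invariants). -/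
theorem result (p : (Σ n : ℕ, CoxeterMatrix (Fin n)) × ℕ)
    (hp : p ∈ [(⟨2, CoxeterMatrix.B 2⟩, 8), (⟨2, CoxeterMatrix.G₂⟩, 12), (⟨4, Cfsg.Lie.coxeterD4⟩, 192), (⟨4, CoxeterMatrix.F₄⟩, 1152)]) :
    Nat.card p.1.2.Group = p.2 := by
  simp only [List.mem_cons, List.not_mem_nil, or_false] at hp
  rcases hp with rfl | rfl | rfl | rfl
  · exact (aux _ coxB2).trans cardW_B2
  · exact (aux _ coxG2).trans cardW_G2
  · exact (aux _ coxD4).trans cardW_D4
  · exact (aux _ coxF4).trans cardW_F4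

end Cfsg.Agent.S1092
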