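import Cfsg.Statements.S1093
import Cfsg.Agent.H12.Ord

set_option autoImplicit false
open Cfsg

namespace Cfsg.Agent.S1093
open H12 H13 Cfsg.Lie
theorem aux {D : ChevalleyDatum} [Good D] (M : CoxeterMatrix (I D)) (h : ∀ i j, M i j = (tab D).cm i j) :
    Nat.card M.Group = Nat.card (W D) := by
  obtain ⟨e, -⟩ := exists_equiv_cox M h
  exact (Nat.card_congr e.toEquiv).symm

/-- `|W(E₆)| = 51840`, `|W(E₇)| = 2903040`, `|W(E₈)| = 696729600` for Mathlib's presented Coxeter groups. -/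
theorem result (p : (Σ n : ℕ, CoxeterMatrix (Fin n)) × ℕ)
    (hp : p ∈ [(⟨6, CoxeterMatrix.E₆⟩, 51840), (⟨7, CoxeterMatrix.E₇⟩, 2903040), (⟨8, CoxeterMatrix.E₈⟩, 696729600)]) :
    Nat.card p.1.2.Group = p.2 := by
  simp only [List.mem_cons, List.not_mem_nil, or_false] at hp
  rcases hp with rfl | rfl | rfl
  · exact (aux _ coxE6).trans cardW_E6
  · exact (aux _ coxE7).trans cardW_E7
  · exact (aux _ coxE8).trans cardW_E8

end Cfsg.Agent.S1093
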