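import Cfsg.Statements.S1094
import Cfsg.Agent.H12.Ord

set_option autoImplicit false
open Cfsg

namespace Cfsg.Agent.S1094
open H12 H13 Cfsg.Lie
theorem aux {D : ChevalleyDatum} [Good D] (M : CoxeterMatrix (I D)) (h : ∀ i j, M i j = (tab D).cm i j) :
    orderOf ((List.finRange D.rank).map M.simple).prod = orderOf ((List.finRange D.rank).map sW).prod := by
  obtain ⟨e, he⟩ := exists_equiv_cox M h
  rw [← e.orderOf_eq, map_list_prod, List.map_map]
  congr 3; funext i; exact (he i).symm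

/-- The Coxeter element `s₁ s₂ ⋯ s_l` of the Coxeter group of type B₂, G₂, D₄, F₄, E₆, E₇, E₈ has order `h = 2N/l` = 4, 6, 6, 12, 12, 18, 30. -/
theorem result (p : (Σ n : ℕ, CoxeterMatrix (Fin n)) × ℕ)
    (hp : p ∈ [(⟨2, CoxeterMatrix.B 2⟩, 4), (⟨2, CoxeterMatrix.G₂⟩, 6), (⟨4, Cfsg.Lie.coxeterD4⟩, 6), (⟨4, CoxeterMatrix.F₄⟩, 12),
      (⟨6, CoxeterMatrix.E₆⟩, 12), (⟨7, CoxeterMatrix.E₇⟩, 18), (⟨8, CoxeterMatrix.E₈⟩, 30)]) :
    orderOf ((List.finRange p.1.1).map p.1.2.simple).prod = p.2 := by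
  simp only [List.mem_cons, List.not_mem_nil, or_false] at hp
  rcases hp with rfl | rfl | rfl | rfl | rfl | rfl | rfl
  exacts [(aux _ coxB2).trans coxElt_B2, (aux _ coxG2).trans coxElt_G2, (aux _ coxD4).trans coxElt_D4, (aux _ coxF4).trans coxElt_F4,
    (aux _ coxE6).trans coxElt_E6, (aux _ coxE7).trans coxElt_E7, (aux _ coxE8).trans coxElt_E8]

end Cfsg.Agent.S1094
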