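import Cfsg.Statements.S1095
import Cfsg.Agent.H12.All
import Cfsg.Agent.H12.Ad

set_option autoImplicit false
open Cfsg

namespace Cfsg.Agent.S1095
open H12 H13 Cfsg.Lie

/-- `n_p` (p = p_{i+1} fundamental) is the signed monomial matrix `h_{p_j} ↦ h_{p_j} - A_{p_j,p} h_p`, `e_s ↦ η_s e_{w_p(s)}`, with `η_s = ±1`, `η_p = η_{-p} = -1`, `η_s η_{w_p(s)} = (-1)^{A_{p,s}}`, `η_s η_{-s} = 1`. -/
theorem result {F : Type*} [Field F] (D : Cfsg.Lie.ChevalleyDatum) (hD : D ∈ [Cfsg.Lie.chevG2, Cfsg.Lie.chevB2, Cfsg.Lie.chevD4, Cfsg.Lie.chevF4, Cfsg.Lie.chevE6, Cfsg.Lie.chevE7, Cfsg.Lie.chevE8]) (i : ℕ) (hi : i < D.rank) :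
    ∃ η : ℕ → ℤ, (∀ s < D.nroots, η s = 1 ∨ η s = -1) ∧ η (D.simple i) = -1 ∧ η (D.neg (D.simple i)) = -1 ∧
      (∀ s < D.nroots, η s * η (D.reflectRoot i s) = (-1) ^ (D.cartan i s).natAbs ∧ η s * η (D.neg s) = 1) ∧
      D.nMat F (D.simple i) 1 = Matrix.of (fun (row col : D.Idx) =>
        Sum.elim
          (fun j' : Fin D.rank => Sum.elim
            (fun j : Fin D.rank => (if j' = j then (1 : F) else 0) - (if (j' : ℕ) = i then ((D.cartan j (D.simple i) : ℤ) : F) else 0))
            (fun _ => (0 : F)) col)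
          (fun s' : Fin D.nroots => Sum.elim
            (fun _ => (0 : F))
            (fun s : Fin D.nroots => if (s' : ℕ) = D.reflectRoot i s then ((η s : ℤ) : F) else 0) col)
          row) := by
  obtain ⟨G⟩ := good_of_mem hD
  lift i to I D using hi
  refine ⟨fun s => if h : s < D.nroots then η (sim i) ⟨s, h⟩ else 0, fun s hs => ?_, ?_, ?_, fun s hs => ?_, ?_⟩
  · simp only [dif_pos hs]; exact η_pm _ _
  · exact (dif_pos (sim i).2).trans (η_self (sim i))
  · exact (dif_pos (ng (sim i)).2).trans ((η_ng (sim i) (sim i)).trans (η_self _))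
  · lift s to Φ D using hs
    rw [← sref_val, ← ng_val]
    simp only [Fin.is_lt, dif_pos, Fin.eta]
    refine ⟨?_, η_mul_ng _ _⟩
    rw [← rf_sim, η_mul_rf, pr_sim]
    change _ = (-1) ^ (wt s i).natAbs
    rcases Int.natAbs_eq (wt s i) with h | h <;> generalize (wt s i).natAbs = k at * <;> simp [h]
  · rw [← sim_val, nMat_one]
    ext row (j | s)
    · have := congrFun (nR_hv (R := F) (sim i) 1 (Pi.single j 1)) row
      rw [hv_single, mulVec_hh] at this
      refine this.trans ?_
      rcases row with k | u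
      · simp [hv, co_sim, Pi.single_apply, wt, Fin.ext_iff]
      · simp [hv]
    · have := congrFun (nR_one_ee (R := F) (sim i) s) row
      rw [mulVec_ee] at this
      refine this.trans ?_
      rcases row with k | u
      · simp [ee]
      · simp [ee, Pi.single_apply, Fin.ext_iff]

end Cfsg.Agent.S1095
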