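import Cfsg.Statements.S1096
import Cfsg.Agent.H12.All
import Cfsg.Agent.H12.Ad

set_option autoImplicit false
open Cfsg

namespace Cfsg.Agent.S1096
open H12 H13 Cfsg.Lie

/-- `n_p h_{p_j}(t) n_p⁻¹ = h_{w_p(p_j)}(t)` for fundamental `p`, `p_j` and `t ≠ 0`, stated as `n_p h_{p_j}(t) = h_{w_p(p_j)}(t) n_p`. -/
theorem result {F : Type*} [Field F] (D : Cfsg.Lie.ChevalleyDatum) (hD : D ∈ [Cfsg.Lie.chevG2, Cfsg.Lie.chevB2, Cfsg.Lie.chevD4, Cfsg.Lie.chevF4, Cfsg.Lie.chevE6, Cfsg.Lie.chevE7, Cfsg.Lie.chevE8]) (i j : ℕ) (hi : i < D.rank) (hj : j < D.rank) (t : F) (ht : t ≠ 0) :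
    D.nMat F (D.simple i) 1 * D.hMat F (D.simple j) t = D.hMat F (D.reflectRoot i (D.simple j)) t * D.nMat F (D.simple i) 1 := by
  obtain ⟨G⟩ := good_of_mem hD
  lift i to I D using hi
  lift j to I D using hj
  lift t to Fˣ using ht.isUnit
  rw [← sim_val, ← sim_val, ← sref_val, nMat_one, hMat_eq, hMat_eq]
  apply mat_ext
  · intro k
    rw [← Matrix.mulVec_mulVec, ← Matrix.mulVec_mulVec, dg_hh, ← hv_single, nR_hv, dg_hv]
  · intro s
    simp only [← Matrix.mulVec_mulVec, dg_ee, nR_one_ee, Matrix.mulVec_smul, hChar_rc, rf_sim, pr_sref]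
    rw [smul_comm]

end Cfsg.Agent.S1096
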