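import Cfsg.Statements.S1098
import Cfsg.Agent.H12.Univ

set_option autoImplicit false
open Cfsg

namespace Cfsg.Agent.S1098
open H12 H13 Cfsg.Lie

/-- Graph automorphisms in characteristic 2 (K perfect): for B₂ (a short, b long) `x_a(t) ↦ x_b(t²)`, `x_b(t) ↦ x_a(t)`, and for F₄ (p₁, p₂ short, p₃, p₄ long) `x_{p₁}(t) ↦ x_{p₄}(t²)`, `x_{p₂}(t) ↦ x_{p₃}(t²)`, `x_{p₃}(t) ↦ x_{p₂}(t)`, `x_{p₄}(t) ↦ x_{p₁}(t)`, likewise on the negatives, extend to an automorphism of the group. -/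
theorem result {K : Type*} [Field K] [CharP K 2] (hperf : ∀ x : K, ∃ y : K, y ^ 2 = x)
    (p : Cfsg.Lie.ChevalleyDatum × List (ℕ × ℕ))
    (hp : p ∈ [(Cfsg.Lie.chevB2, [(1, 2), (0, 1)]), (Cfsg.Lie.chevF4, [(3, 2), (2, 2), (1, 1), (0, 1)])]) :
    ∃ α : ↥(p.1.group K) ≃* ↥(p.1.group K), ∀ (g : ↥(p.1.group K)) (i : ℕ) (t : K), i < p.1.rank →
      (((g : GL p.1.Idx K) : Matrix p.1.Idx p.1.Idx K) = p.1.x K (p.1.simple i) t →
        ((α g : GL p.1.Idx K) : Matrix p.1.Idx p.1.Idx K) = p.1.x K (p.1.simple (p.2.getD i (0, 1)).1) (t ^ (p.2.getD i (0, 1)).2)) ∧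
      (((g : GL p.1.Idx K) : Matrix p.1.Idx p.1.Idx K) = p.1.x K (p.1.neg (p.1.simple i)) t →
        ((α g : GL p.1.Idx K) : Matrix p.1.Idx p.1.Idx K) = p.1.x K (p.1.neg (p.1.simple (p.2.getD i (0, 1)).1)) (t ^ (p.2.getD i (0, 1)).2)) := by
  have key : ∀ {D : ChevalleyDatum} [Good D] {g : GData} {π lams : List ℕ} (h : GChk (tab D) (tab D) g) (k : GSim (tab D) (tab D) g π lams)
      (hp : g.p = 2) (L : List (ℕ × ℕ)) (hl : ∀ i < D.rank, lams.getD i 1 = (L.getD i (0, 1)).2 ∧ π.getD i 0 = (L.getD i (0, 1)).1),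
      ∃ α : D.group K ≃* D.group K, ∀ (g : D.group K) (i : ℕ) (t : K), i < D.rank →
      (((g : GL D.Idx K) : Matrix D.Idx D.Idx K) = D.x K (D.simple i) t →
        ((α g : GL D.Idx K) : Matrix D.Idx D.Idx K) = D.x K (D.simple (L.getD i (0, 1)).1) (t ^ (L.getD i (0, 1)).2)) ∧
      (((g : GL D.Idx K) : Matrix D.Idx D.Idx K) = D.x K (D.neg (D.simple i)) t →
        ((α g : GL D.Idx K) : Matrix D.Idx D.Idx K) = D.x K (D.neg (D.simple (L.getD i (0, 1)).1)) (t ^ (L.getD i (0, 1)).2)) := by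
    intro D _ g π lams h k hp L hl
    have hF : CharOK K g.p := Or.inr (hp ▸ ⟨Nat.prime_two, inferInstance⟩)
    refine ⟨gfAut h k hF (RingHom.id K) fun r t => ?_, fun a i t hi => ?_⟩
    · rcases h.lam_cases r with e | ⟨-, e⟩
      · exact ⟨t, by simp [gfψ, e]⟩
      · simpa [gfψ, e, hp] using hperf t
    · simpa only [hl i hi, RingHom.id_apply] using gfAut_spec h k hF (RingHom.id K) _ a i t hi
  simp only [List.mem_cons, List.not_mem_nil, or_false] at hp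
  rcases hp with rfl | rfl
  exacts [key chk_gB2 sim_gB2 rfl _ (by decide), key chk_gF4 sim_gF4 rfl _ (by decide)]

end Cfsg.Agent.S1098
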