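import Cfsg.Statements.S1099
import Cfsg.Agent.H12.Univ

set_option autoImplicit false
open Cfsg

namespace Cfsg.Agent.S1099
open H12 H13 Cfsg.Lie

/-- Graph automorphism of G₂ in characteristic 3 (K perfect): `x_a(t) ↦ x_b(t³)`, `x_b(t) ↦ x_a(t)`, `x_{-a}(t) ↦ x_{-b}(t³)`, `x_{-b}(t) ↦ x_{-a}(t)` extend to an automorphism of the group. -/
theorem result {K : Type*} [Field K] [CharP K 3] (hperf : ∀ x : K, ∃ y : K, y ^ 3 = x) :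
    ∃ α : ↥(Cfsg.Lie.chevG2.group K) ≃* ↥(Cfsg.Lie.chevG2.group K), ∀ (g : ↥(Cfsg.Lie.chevG2.group K)) (t : K),
      (((g : GL Cfsg.Lie.chevG2.Idx K) : Matrix _ _ K) = Cfsg.Lie.chevG2.x K Cfsg.Lie.g2a t →
        ((α g : GL Cfsg.Lie.chevG2.Idx K) : Matrix _ _ K) = Cfsg.Lie.chevG2.x K Cfsg.Lie.g2b (t ^ 3)) ∧
      (((g : GL Cfsg.Lie.chevG2.Idx K) : Matrix _ _ K) = Cfsg.Lie.chevG2.x K Cfsg.Lie.g2b t →
        ((α g : GL Cfsg.Lie.chevG2.Idx K) : Matrix _ _ K) = Cfsg.Lie.chevG2.x K Cfsg.Lie.g2a t) ∧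
      (((g : GL Cfsg.Lie.chevG2.Idx K) : Matrix _ _ K) = Cfsg.Lie.chevG2.x K Cfsg.Lie.g2ma t →
        ((α g : GL Cfsg.Lie.chevG2.Idx K) : Matrix _ _ K) = Cfsg.Lie.chevG2.x K Cfsg.Lie.g2mb (t ^ 3)) ∧
      (((g : GL Cfsg.Lie.chevG2.Idx K) : Matrix _ _ K) = Cfsg.Lie.chevG2.x K Cfsg.Lie.g2mb t →
        ((α g : GL Cfsg.Lie.chevG2.Idx K) : Matrix _ _ K) = Cfsg.Lie.chevG2.x K Cfsg.Lie.g2ma t) := by
  have hF : CharOK K gG2.p := Or.inr ⟨Nat.prime_three, ‹_›⟩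
  have hs : ∀ r, Function.Surjective (gfψ chk_gG2 hF (RingHom.id K) r) := fun r t => by
    rcases chk_gG2.lam_cases r with e | ⟨-, e⟩
    · exact ⟨t, by simp [gfψ, e]⟩
    · simpa [gfψ, e, show gG2.p = 3 from rfl] using hperf t
  refine ⟨gfAut chk_gG2 sim_gG2 hF _ hs, fun a t => ?_⟩
  have h0 := gfAut_spec chk_gG2 sim_gG2 hF _ hs a 0 t (by decide)
  have h1 := gfAut_spec chk_gG2 sim_gG2 hF _ hs a 1 t (by decide)
  rw [show [3, 1].getD 1 1 = 1 from rfl, pow_one] at h1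
  exact ⟨h0.1, h1.1, h0.2, h1.2⟩

end Cfsg.Agent.S1099
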