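import Cfsg.Statements.S1100
import Cfsg.Agent.H12.All
import Cfsg.Agent.H12.Ad

set_option autoImplicit false
open Cfsg

namespace Cfsg.Agent.S1100
open H12 H13 Cfsg.Lie

/-- Canonical form `g = b n_w u` (`b ∈ B`, `u ∈ U_w⁻ = ⟨X_r : r > 0, n_w X_r n_w⁻¹ ≤ V⟩`): such a decomposition exists for every element of the group; the coset `n_w H` is determined by `g`; and for a fixed representative `n_w` the factors `b`, `u` are unique. -/
theorem result {F : Type*} [Field F] (D : Cfsg.Lie.ChevalleyDatum) (hD : D ∈ [Cfsg.Lie.chevG2, Cfsg.Lie.chevB2, Cfsg.Lie.chevD4, Cfsg.Lie.chevF4, Cfsg.Lie.chevE6, Cfsg.Lie.chevE7, Cfsg.Lie.chevE8]) :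
    (∀ g ∈ D.group F, ∃ b ∈ D.borelSubgroup F, ∃ n ∈ D.monomialSubgroup F,
      ∃ u ∈ Subgroup.closure {x : GL D.Idx F | ∃ (r : ℕ) (t : F), D.IsPosRoot r ∧
            (D.rootSubgroup F r).map (MulAut.conj n).toMonoidHom ≤ D.negUnipotent F ∧ (x : Matrix D.Idx D.Idx F) = D.x F r t},
        g = b * n * u) ∧
    (∀ (b b' n n' u u' : GL D.Idx F), b ∈ D.borelSubgroup F → b' ∈ D.borelSubgroup F →
      n ∈ D.monomialSubgroup F → n' ∈ D.monomialSubgroup F →
      u ∈ Subgroup.closure {x : GL D.Idx F | ∃ (r : ℕ) (t : F), D.IsPosRoot r ∧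
            (D.rootSubgroup F r).map (MulAut.conj n).toMonoidHom ≤ D.negUnipotent F ∧ (x : Matrix D.Idx D.Idx F) = D.x F r t} →
      u' ∈ Subgroup.closure {x : GL D.Idx F | ∃ (r : ℕ) (t : F), D.IsPosRoot r ∧
            (D.rootSubgroup F r).map (MulAut.conj n').toMonoidHom ≤ D.negUnipotent F ∧ (x : Matrix D.Idx D.Idx F) = D.x F r t} →
      b * n * u = b' * n' * u' → n⁻¹ * n' ∈ D.diagonalSubgroup F ∧ (n = n' → b = b' ∧ u = u')) := by
  obtain ⟨G⟩ := good_of_mem hD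
  have key : ∀ n w, (adS D F).Rep n w → Subgroup.closure {x : GL D.Idx F | ∃ (r : ℕ) (t : F), D.IsPosRoot r ∧
      (D.rootSubgroup F r).map (MulAut.conj n).toMonoidHom ≤ D.negUnipotent F ∧ (x : Matrix D.Idx D.Idx F) = D.x F r t} =
      (adS D F).Um w := by
    intro n w hn
    have := closure_x_eq (D := D) (F := F) (fun r => D.IsPosRoot r ∧
      (D.rootSubgroup F r).map (MulAut.conj n).toMonoidHom ≤ D.negUnipotent F) fun _ h => h.1.1
    simp only [and_assoc] at this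
    rw [this, StSys.Um]; congr 1; ext r
    simp only [Set.mem_setOf_eq, isPosRoot_iff, rootSubgroup_eq, negUnipotent_eq, hn.act.map_gen, Finset.mem_coe, mem_inv]
    refine and_congr_right fun _ => ⟨fun h => cov_ad.not_isPos_of_x_mem_V one_ne_zero (h (StSys.x_mem _ (by simp) 1)), fun h => ?_⟩
    refine StSys.gen_mono _ fun s hs => ?_
    obtain rfl : r = w⁻¹ • s := Eq.symm hs
    simpa using h
  rw [borelSubgroup_eq, monomialSubgroup_eq, group_eq]
  constructor
  · intro g hg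
    obtain ⟨w, hw⟩ := StSys.exists_cell hg
    obtain ⟨n, hn⟩ := StSys.exists_rep (S := adS D F) w
    obtain ⟨b, hb, u, hu, e⟩ := hw.exists_bnu hn
    exact ⟨b, hb, n, hn.mem_N, u, by rwa [key n w hn], e⟩
  · intro b b' n n' u u' hb hb' hn hn' hu hu' e
    obtain ⟨w, hw⟩ := StSys.exists_rep_of_mem_N hn
    obtain ⟨w', hw'⟩ := StSys.exists_rep_of_mem_N hn'
    rw [key _ _ hw] at hu
    rw [key _ _ hw'] at hu'
    obtain rfl : w = w' := cov_ad.cell_unique ⟨b, hb, _, hw, u, StSys.U_le_B _ (StSys.Um_le_U _ _ hu), rfl⟩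
      ⟨b', hb', _, hw', u', StSys.U_le_B _ (StSys.Um_le_U _ _ hu'), e⟩
    rw [diagonalSubgroup_eq]
    refine ⟨hw.inv_mul_mem hw', ?_⟩
    rintro rfl
    exact cov_ad.bnu_unique hw hb hb' hu hu' e

end Cfsg.Agent.S1100
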