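import Cfsg.Statements.S1101
import Cfsg.Agent.H13.ReeGroup

set_option autoImplicit false
open Cfsg

namespace Cfsg.Agent.S1101

/-- For ²G₂ over `K` with `|K| = 3^(2m+1)`, `θ = 3^m`: `U¹ = G¹ ∩ U` consists exactly of the elements `x_a(t^θ) x_b(t) x_{a+b}(t^{θ+1}+u^θ) x_{2a+b}(t^{2θ+1}+v^θ) x_{3a+b}(u) x_{3a+2b}(v)`, `t, u, v ∈ K`, and it has `|K|³` elements. -/
theorem result {K : Type*} [Field K] [Fintype K] {m : ℕ} (hK : Fintype.card K = 3 ^ (2 * m + 1)) :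
    (∀ g : GL Cfsg.Lie.chevG2.Idx K, g ∈ Cfsg.Lie.chevG2.posUnipotent K ⊓ Cfsg.Lie.twistedG2 K (3 ^ m) ↔
      ∃ t u v : K, (g : Matrix Cfsg.Lie.chevG2.Idx Cfsg.Lie.chevG2.Idx K) = Cfsg.Lie.chevG2.wordMat K (Cfsg.Lie.reeWordU (3 ^ m) t u v)) ∧
    Nat.card ↥(Cfsg.Lie.chevG2.posUnipotent K ⊓ Cfsg.Lie.twistedG2 K (3 ^ m)) = (3 ^ (2 * m + 1)) ^ 3 := by
  haveI : H13.Ree.IsRee K m := ⟨hK⟩
  open H13.Ree in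
  refine ⟨fun g => ⟨fun hg => ?_, ?_⟩, ?_⟩
  · obtain ⟨t, a, b, e⟩ := H13.Ree.mem_U.1 ((H13.Ree.mem_U_iff' (g := ⟨g, hg.2⟩)).2 hg.1)
    refine ⟨t, a, b, ?_⟩
    rw [H13.Ree.wordMat_U, ← H13.Ree.ι_u, ← e]
    rfl
  · rintro ⟨t, a, b, e⟩
    rw [H13.Ree.wordMat_U, ← H13.Ree.ι_u] at e
    obtain rfl : g = (H13.Ree.u m t a b).1 := Units.ext e
    exact ⟨H13.Ree.mem_U_iff'.1 (H13.Ree.u_mem_U t a b), (H13.Ree.u m t a b).2⟩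
  · rw [← Nat.card_congr (H13.Ree.equivInf fun _ => H13.Ree.mem_U_iff').toEquiv, H13.Ree.card_U, hK]

end Cfsg.Agent.S1101
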