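import Cfsg.Statements.S1113
import Cfsg.Agent.H12.TwF4

set_option autoImplicit false
open Cfsg

namespace Cfsg.Agent.S1113
open H12 H13 Cfsg.Lie

/-- The normal core of `B¹ = G¹ ∩ B` in ²F₄(2^(2m+1)) is trivial. -/
theorem result {K : Type*} [Field K] [Fintype K] {m : ℕ} (hK : Fintype.card K = 2 ^ (2 * m + 1)) :
    ((Cfsg.Lie.chevF4.borelSubgroup K ⊓ Cfsg.Lie.twistedF4 K (2 ^ m)).subgroupOf (Cfsg.Lie.twistedF4 K (2 ^ m))).normalCore = ⊥ := by
  obtain ⟨_, φ, hφ, h2⟩ := exists_frob2 hK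
  rw [borelSubgroup_eq, Subgroup.inf_subgroupOf_right]
  exact (admF h2 hφ).normalCore (admF' h2 hφ).2

end Cfsg.Agent.S1113
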