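import Cfsg.Statements.S1115
import Cfsg.Agent.H13.ReeGroup

set_option autoImplicit false
open Cfsg

namespace Cfsg.Agent.S1115

/-- `N¹/H¹ ≅ W¹`: a surjective homomorphism from `N¹ = G¹ ∩ N` onto the group of order 2 with kernel `H¹`. -/
theorem result {K : Type*} [Field K] [Fintype K] {m : ℕ} (hK : Fintype.card K = 3 ^ (2 * m + 1)) :
    ∃ φ : ↥(Cfsg.Lie.chevG2.monomialSubgroup K ⊓ Cfsg.Lie.twistedG2 K (3 ^ m)) →* Multiplicative (ZMod 2), Function.Surjective φ ∧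
      φ.ker = (Cfsg.Lie.chevG2.diagonalSubgroup K ⊓ Cfsg.Lie.twistedG2 K (3 ^ m)).subgroupOf (Cfsg.Lie.chevG2.monomialSubgroup K ⊓ Cfsg.Lie.twistedG2 K (3 ^ m)) := by
  haveI : H13.Ree.IsRee K m := ⟨hK⟩
  let e := H13.Ree.equivInf (K := K) (m := m) fun _ => H13.Ree.mem_N_iff'
  set A := (Cfsg.Lie.chevG2.diagonalSubgroup K ⊓ Cfsg.Lie.twistedG2 K (3 ^ m)).subgroupOf
    (Cfsg.Lie.chevG2.monomialSubgroup K ⊓ Cfsg.Lie.twistedG2 K (3 ^ m)) with hA
  have hle : Cfsg.Lie.chevG2.diagonalSubgroup K ⊓ Cfsg.Lie.twistedG2 K (3 ^ m) ≤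
      Cfsg.Lie.chevG2.monomialSubgroup K ⊓ Cfsg.Lie.twistedG2 K (3 ^ m) := inf_le_inf_right _ le_sup_left
  have hi : A.index = 2 := by
    have h1 := A.index_mul_card
    rw [Nat.card_congr (Subgroup.subgroupOfEquivOfLe hle).toEquiv,
      ← Nat.card_congr (H13.Ree.equivInf fun _ => H13.Ree.mem_H_iff').toEquiv, ← Nat.card_congr e.toEquiv,
      H13.Ree.card_H, H13.Ree.card_N] at h1
    have := Fintype.one_lt_card (α := K)
    exact Nat.eq_of_mul_eq_mul_right (by omega) h1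
  have := Subgroup.normal_of_index_eq_two hi
  haveI : Fact (Nat.Prime 2) := ⟨Nat.prime_two⟩
  let f := mulEquivOfPrimeCardEq (p := 2) (G := _ ⧸ A) (G' := Multiplicative (ZMod 2)) hi (by simp)
  refine ⟨f.toMonoidHom.comp (QuotientGroup.mk' A), f.surjective.comp (QuotientGroup.mk'_surjective A), ?_⟩
  rw [← MonoidHom.comap_ker, (MonoidHom.ker_eq_bot_iff _).2 f.injective, MonoidHom.comap_bot, QuotientGroup.ker_mk']

end Cfsg.Agent.S1115
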