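import Cfsg.Statements.S1119
import Cfsg.Agent.H5.SuzA

set_option autoImplicit false
open Cfsg

namespace Cfsg.Agent.S1119
open H5
open H18 Subgroup MulAction

/-- In the rank-one set-up (`G` finite and doubly transitive on `Ω`, `t` an involution moving `a`, `Q` normal in `G_a` with `G_a = Q D`, `Q ⊓ D = 1` for the two-point stabiliser `D = G_a ⊓ G_{t • a}`, `|Q|` even, `|D|` odd): `Q` acts regularly on `Ω` minus `a`; hence `|Ω| = |Q| + 1`, `|G| = |Q| |D| (|Q| + 1)`, some Sylow 2-subgroup of `G` lies in `Q`, and each `g ∉ G_a` is uniquely `x t y` with `x ∈ G_a`, `y ∈ Q` (canonical form). -/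
theorem result {G Ω : Type*} [Group G] [Finite G] [MulAction G Ω] {a : Ω} {t : G} {Q : Subgroup G}
    (hS : Cfsg.IsRankOneSetup G Ω a t Q) :
    (∀ b c : Ω, b ≠ a → c ≠ a → ∃! x : Q, (x : G) • b = c) ∧
      Nat.card Ω = Nat.card Q + 1 ∧
      Nat.card G = Nat.card Q * Nat.card ↥(MulAction.stabilizer G a ⊓ MulAction.stabilizer G (t • a)) * (Nat.card Q + 1) ∧
      (∃ P : Sylow 2 G, (P : Subgroup G) ≤ Q) ∧
      ∀ g : G, g ∉ MulAction.stabilizer G a → ∃! p : G × G, p.1 ∈ MulAction.stabilizer G a ∧ p.2 ∈ Q ∧ g = p.1 * t * p.2 := by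
  have h := A1.of_setup hS
  have c := h.card
  rw [h.cardH, Subgroup.card_top] at c
  refine ⟨fun b c hb hc => ?_, ?_, c, ?_, fun g hg => ?_⟩
  · obtain ⟨y, hy, rfl⟩ := exists_Q_smul hS hb
    obtain ⟨z, hz, rfl⟩ := exists_Q_smul hS hc
    refine ⟨⟨z * y⁻¹, mul_mem hz (inv_mem hy)⟩, by simp [mul_smul], fun x e => Subtype.ext ?_⟩
    have := h.Qt (mul_mem (mul_mem (inv_mem hz) x.2) hy) (by
      rw [mem_stabilizer_iff, ← h.ti, mul_smul, mul_smul, mul_smul, mul_smul, inv_smul_eq_iff, inv_smul_eq_iff,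
        h.ti, ← mul_smul y, e, mul_smul])
    rw [show (x : G) = z * (z⁻¹ * x * y) * y⁻¹ by group, this, mul_one]
  · have : IsPretransitive G Ω := ⟨fun b c => by
      obtain ⟨g, rfl⟩ := exists_smul_of_setup hS b
      obtain ⟨g', rfl⟩ := exists_smul_of_setup hS c
      exact ⟨g' * g⁻¹, by simp [mul_smul]⟩⟩
    rw [← h.relIndex_H, relIndex_top_right, index_stabilizer_of_transitive]
  · obtain ⟨S, hS'⟩ := exists_sylow Nat.prime_two Q
    obtain ⟨P, e⟩ := (h.sylow hS').exists_sylow_top Nat.prime_two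
    exact ⟨P, e ▸ hS'.le⟩
  · obtain ⟨x, hx, y, hy, e⟩ := h.bruhat g (mem_top g) hg
    exact ⟨(x, y), ⟨hx, hy, e⟩, fun p hp => Prod.ext (h.uniq hp.1 hp.2.1 hx hy (hp.2.2.symm.trans e)).1
      (h.uniq hp.1 hp.2.1 hx hy (hp.2.2.symm.trans e)).2⟩

end Cfsg.Agent.S1119
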