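import Cfsg.Statements.S1120
import Cfsg.Agent.H5.SuzA

set_option autoImplicit false
open Cfsg

namespace Cfsg.Agent.S1120
open H5
open H18 Subgroup

/-- In the rank-one set-up (`G` finite and doubly transitive on `Ω`, `t` an involution moving `a`, `Q` normal in `G_a` with `G_a = Q D`, `Q ⊓ D = 1` for the two-point stabiliser `D = G_a ⊓ G_{t • a}`, `|Q|` even, `|D|` odd), if `G` has 2-rank at least 2 then `O_{2'}(G)` equals the normal core of `G_a`. -/
theorem result {G Ω : Type*} [Group G] [Finite G] [MulAction G Ω] {a : Ω} {t : G} {Q : Subgroup G}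
    (hS : Cfsg.IsRankOneSetup G Ω a t Q)
    (h2 : ∃ x y : G, x ≠ 1 ∧ y ≠ 1 ∧ x ≠ y ∧ x * x = 1 ∧ y * y = 1 ∧ x * y = y * x) :
    Cfsg.pPrimeCore 2 G = (MulAction.stabilizer G a).normalCore := by
  have h := A1.of_setup hS
  rw [pPrimeCore_eq Nat.prime_two]
  apply le_antisymm
  · have := (pcore_nml (π := {2}ᶜ) (H := (⊤ : Subgroup G))).normal
    exact normal_le_normalCore.2 ((h.odd_le_ker (prank_of_setup h2) pcore_nml (piNat_two_compl.1 pcore_pi)).trans
      (inf_le_left.trans h.leD))
  · exact le_pcore nml_top (piNat_two_compl.2 (odd_card_of_le h.odd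
      ((h.le_ker norm_of_normal (normalCore_le _)).trans inf_le_left)))

end Cfsg.Agent.S1120
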