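import Cfsg.Statements.S1124
import Cfsg.Agent.H5.SuzA

set_option autoImplicit false
open scoped Pointwise
open Cfsg

namespace Cfsg.Agent.S1124
open H5
open H18 Subgroup

/-- Let `t` be an element of order 2 of a finite group normalising a subgroup `X` of odd order, `Y = C_X(t)` and `Z` the set of elements of `X` inverted by `t`. Then `(y, z) ↦ y z` is a bijection `Y × Z → X`, so `|X| = |Y| |Z|`, and the subgroup generated by `Z` is normal in `X`. -/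
theorem result {M : Type*} [Group M] [Finite M]
    (t : M) (ht : orderOf t = 2) (X : Subgroup M) (hodd : Odd (Nat.card X))
    (hnorm : ∀ x ∈ X, t * x * t⁻¹ ∈ X) :
    (∀ x ∈ X, ∃! p : M × M, p.1 ∈ X ⊓ Subgroup.centralizer {t} ∧ p.2 ∈ Cfsg.invertedBy X t ∧ x = p.1 * p.2) ∧
      Nat.card X = Nat.card ↥(X ⊓ Subgroup.centralizer {t}) * Nat.card (Cfsg.invertedBy X t) ∧
      ∀ x ∈ X, MulAut.conj x • Subgroup.closure (Cfsg.invertedBy X t) = Subgroup.closure (Cfsg.invertedBy X t) := by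
  have tt := (H9.orderOf_eq_two.1 ht).1
  have ti := H9.inv_eq_of_mul_self tt
  have c1 : ∀ {x : M}, x ∈ C1(t) ↔ t * x * t = x := fun {x} => by
    rw [mem_C1]
    exact ⟨fun e => by rw [mul_assoc, e, ← mul_assoc, tt, one_mul],
      fun e => by nth_rewrite 1 [← e]; rw [mul_assoc, tt, mul_one]⟩
  have mi : ∀ {x : M}, x ∈ invertedBy X t ↔ x ∈ X ∧ t * x * t = x⁻¹ := fun {x} => by rw [invertedBy, ti]; rfl
  rw [ti] at hnorm
  have key : ∀ x ∈ X, ∃! p : M × M, p.1 ∈ X ⊓ C1(t) ∧ p.2 ∈ invertedBy X t ∧ x = p.1 * p.2 := fun x hx => by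
    obtain ⟨v, hv, k, hk, iv, ik, e⟩ := exists_cent_mul_inv tt hodd hnorm hx
    refine ⟨(v, k), ⟨⟨hv, c1.2 iv⟩, mi.2 ⟨hk, ik⟩, e⟩, fun p hp => ?_⟩
    obtain ⟨e1, e2⟩ := cent_mul_inv_unique tt (odd_order_of_mem hodd (mi.1 hp.2.1).1) (odd_order_of_mem hodd hk)
      (c1.1 hp.1.2) (mi.1 hp.2.1).2 iv ik (hp.2.2.symm.trans e)
    exact Prod.ext e1 e2
  refine ⟨key, ?_, fun x hx => ?_⟩
  · rw [← Nat.card_prod]
    refine (Nat.card_eq_of_bijective (fun p => (⟨p.1 * p.2, mul_mem p.1.2.1 p.2.2.1⟩ : X)) ⟨fun p q e => ?_,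
      fun x => ?_⟩).symm
    · have := (key _ (mul_mem p.1.2.1 p.2.2.1)).unique (y₁ := (p.1, p.2)) (y₂ := (q.1, q.2))
        ⟨p.1.2, p.2.2, rfl⟩ ⟨q.1.2, q.2.2, congrArg Subtype.val e⟩
      exact Prod.ext (Subtype.ext (congrArg Prod.fst this)) (Subtype.ext (congrArg Prod.snd this))
    · obtain ⟨p, hp, -⟩ := key x x.2
      exact ⟨(⟨p.1, hp.1⟩, ⟨p.2, hp.2.1⟩), Subtype.ext hp.2.2.symm⟩
  · obtain ⟨v, hv, k, hk, iv, ik, rfl⟩ := exists_cent_mul_inv tt hodd hnorm hx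
    refine mem_N_iff_cj.1 (mul_mem (norm_closure (H := X ⊓ C1(t)) (fun a ha b hb => mi.2
      ⟨mul_mem (mul_mem ha.1 hb.1) (inv_mem ha.1), ?_⟩) ⟨hv, c1.2 iv⟩) (le_N (subset_closure (mi.2 ⟨hk, ik⟩))))
    have c := mem_C1.1 ha.2
    rw [show t * (a * b * a⁻¹) * t = (t * a) * b * t * (t⁻¹ * a⁻¹ * t) by group, ← mul_inv_rev, ← c,
      show a * t * b * t * ((a * t)⁻¹ * t) = a * (t * b * t) * ((a * t)⁻¹ * t) by group, c, (mi.1 hb).2]; group

end Cfsg.Agent.S1124
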