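import Cfsg.Statements.S1125
import Cfsg.Agent.H5.SuzA

set_option autoImplicit false
open Cfsg

namespace Cfsg.Agent.S1125
open H5
open H18 Subgroup MulAction

/-- In the rank-one set-up (`G` finite and doubly transitive on `Ω`, `t` an involution moving `a`, `Q` normal in `G_a` with `G_a = Q D`, `Q ⊓ D = 1` for the two-point stabiliser `D = G_a ⊓ G_{t • a}`, `|Q|` even, `|D|` odd), let `X ⊆ D` fix at least three points of `Ω`. Then `C_G(X)` is doubly transitive on the fixed-point set of `X`, `|C_Q(X)|` is even, and `C_{G_a}(X) = C_Q(X) C_D(X)`. -/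
theorem result {G Ω : Type*} [Group G] [Finite G] [MulAction G Ω] {a : Ω} {t : G} {Q : Subgroup G}
    (hS : Cfsg.IsRankOneSetup G Ω a t Q)
    (X : Set G) (hX : X ⊆ ((MulAction.stabilizer G a ⊓ MulAction.stabilizer G (t • a)) : Set G))
    (h3 : ∃ b c d : Ω, b ≠ c ∧ b ≠ d ∧ c ≠ d ∧ ∀ x ∈ X, x • b = b ∧ x • c = c ∧ x • d = d) :
    (∀ b₁ b₂ c₁ c₂ : Ω, (∀ x ∈ X, x • b₁ = b₁ ∧ x • b₂ = b₂ ∧ x • c₁ = c₁ ∧ x • c₂ = c₂) →
        b₁ ≠ b₂ → c₁ ≠ c₂ → ∃ g ∈ Subgroup.centralizer X, g • b₁ = c₁ ∧ g • b₂ = c₂) ∧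
      Even (Nat.card ↥(Subgroup.centralizer X ⊓ Q)) ∧
      (Subgroup.centralizer X ⊓ Q) ⊔ (Subgroup.centralizer X ⊓ (MulAction.stabilizer G a ⊓ MulAction.stabilizer G (t • a))) = Subgroup.centralizer X ⊓ MulAction.stabilizer G a := by
  have h := A1.of_setup hS
  obtain ⟨y, hy, y1, hc⟩ : ∃ y ∈ Q, y ≠ 1 ∧ ∀ x ∈ X, x * y = y * x := by
    obtain ⟨b, c, d, h1, h2, h3, e⟩ := h3
    obtain ⟨b, e1, e2, e⟩ : ∃ b, b ≠ a ∧ b ≠ t • a ∧ ∀ x ∈ X, x • b = b := by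
      by_contra hn
      push Not at hn
      have k : ∀ b, (∀ x ∈ X, x • b = b) → b = a ∨ b = t • a := fun b hb => by
        by_contra h'
        push Not at h'
        obtain ⟨x, hx, e⟩ := hn b h'.1 h'.2
        exact e (hb x hx)
      rcases k b (fun x hx => (e x hx).1) with rfl | rfl <;> rcases k c (fun x hx => (e x hx).2.1) with rfl | rfl <;>
        rcases k d (fun x hx => (e x hx).2.2) with rfl | rfl <;> simp_all
    obtain ⟨y, hy, rfl⟩ := exists_Q_smul hS e1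
    refine ⟨y, hy, fun e => e2 (by rw [e, one_mul]), fun x hx => h.comm_of_fix (hX hx) hy ?_⟩
    rw [mem_stabilizer_iff, ← h.ti, mul_smul, mul_smul, mul_smul, mul_smul, inv_smul_eq_iff, inv_smul_eq_iff,
      h.ti, ← mul_smul y, e x hx, mul_smul]
  obtain ⟨k, hk, ik, e⟩ := h.exists_swap hy y1
  have h0 := h.change hk ik
  have h' := h0.cent (S := X) fun x hx => ⟨hX hx, mem_C1.2 (e x (hX hx) (hc x hx))⟩
  refine ⟨fun b₁ b₂ c₁ c₂ hf hb hc => ?_, inf_comm Q _ ▸ h'.even, ?_⟩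
  · have pt : ∀ b, (∀ x ∈ X, x • b = b) → b ≠ a → ∃ y ∈ Q ⊓ centralizer X, (y * (k * t)) • a = b := fun b hb e => by
      obtain ⟨y, hy, rfl⟩ := exists_Q_smul hS e
      refine ⟨y, ⟨hy, fun x hx => h.comm_of_fix (hX hx) hy ?_⟩, ?_⟩
      · rw [mem_stabilizer_iff, ← h.ti, mul_smul, mul_smul, mul_smul, mul_smul, inv_smul_eq_iff, inv_smul_eq_iff,
          h.ti, ← mul_smul y, hb x hx, mul_smul]
      · rw [mul_smul, mul_smul, mul_smul, mem_stabilizer_iff.1 hk.2]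
    have key : ∀ b₁ b₂, (∀ x ∈ X, x • b₁ = b₁) → (∀ x ∈ X, x • b₂ = b₂) → b₁ ≠ b₂ →
        ∃ g ∈ centralizer X, g • a = b₁ ∧ g • (k * t) • a = b₂ := fun b₁ b₂ h1 h2 e => by
      obtain ⟨g, hg, rfl⟩ : ∃ g ∈ centralizer X, g • a = b₁ := by
        by_cases e : b₁ = a
        · exact ⟨1, one_mem _, by rw [e, one_smul]⟩
        · obtain ⟨y, hy, e'⟩ := pt _ h1 e
          exact ⟨_, mul_mem hy.2 h'.tL.2, e'⟩
      obtain ⟨y, hy, e'⟩ := pt (g⁻¹ • b₂) (fun x hx => by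
        rw [← mul_smul, inv_mem hg x hx, mul_smul, h2 x hx]) fun e' => e (by rw [← e', smul_inv_smul])
      exact ⟨g * y, mul_mem hg hy.2, by rw [mul_smul, mem_stabilizer_iff.1 (h.leQ hy.1)], by
        rw [mul_smul, ← mul_smul y, e', smul_inv_smul]⟩
    obtain ⟨g, hg, rfl, rfl⟩ := key b₁ b₂ (fun x hx => (hf x hx).1) (fun x hx => (hf x hx).2.1) hb
    obtain ⟨g', hg', rfl, rfl⟩ := key c₁ c₂ (fun x hx => (hf x hx).2.2.1) (fun x hx => (hf x hx).2.2.2) hc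
    exact ⟨g' * g⁻¹, mul_mem hg' (inv_mem hg), by simp [mul_smul], by simp [mul_smul]⟩
  · rw [inf_comm _ Q, inf_comm (centralizer X), inf_comm (centralizer X), h'.sd.sup]

end Cfsg.Agent.S1125
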