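import Cfsg.Statements.S1126
import Cfsg.Agent.H5.SuzA

set_option autoImplicit false
open Cfsg

namespace Cfsg.Agent.S1126
open H5
open H18 Subgroup MulAction

/-- In the rank-one set-up (`G` finite and doubly transitive on `Ω`, `t` an involution moving `a`, `Q` normal in `G_a` with `G_a = Q D`, `Q ⊓ D = 1` for the two-point stabiliser `D = G_a ⊓ G_{t • a}`, `|Q|` even, `|D|` odd), a subset `X ⊆ D` fixing at least three points of `Ω` is conjugate by an element of `D` into `V = C_D(t)`. -/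
theorem result {G Ω : Type*} [Group G] [Finite G] [MulAction G Ω] {a : Ω} {t : G} {Q : Subgroup G}
    (hS : Cfsg.IsRankOneSetup G Ω a t Q)
    (X : Set G) (hX : X ⊆ ((MulAction.stabilizer G a ⊓ MulAction.stabilizer G (t • a)) : Set G))
    (h3 : ∃ b c d : Ω, b ≠ c ∧ b ≠ d ∧ c ≠ d ∧ ∀ x ∈ X, x • b = b ∧ x • c = c ∧ x • d = d) :
    ∃ k ∈ (MulAction.stabilizer G a ⊓ MulAction.stabilizer G (t • a)), ∀ x ∈ X, (k * x * k⁻¹) * t = t * (k * x * k⁻¹) := by
  have h := A1.of_setup hS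
  obtain ⟨y, hy, y1, hc⟩ : ∃ y ∈ Q, y ≠ 1 ∧ ∀ x ∈ X, x * y = y * x := by
    obtain ⟨b, c, d, h1, h2, h3, e⟩ := h3
    obtain ⟨b, e1, e2, e⟩ : ∃ b, b ≠ a ∧ b ≠ t • a ∧ ∀ x ∈ X, x • b = b := by
      by_contra hn
      push Not at hn
      have k : ∀ b, (∀ x ∈ X, x • b = b) → b = a ∨ b = t • a := fun b hb => by
        by_contra h'
        push Not at h'
        obtain ⟨x, hx, e⟩ := hn b h'.1 h'.2
        exact e (hb x hx)
      rcases k b (fun x hx => (e x hx).1) with rfl | rfl <;> rcases k c (fun x hx => (e x hx).2.1) with rfl | rfl <;>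
        rcases k d (fun x hx => (e x hx).2.2) with rfl | rfl <;> simp_all
    obtain ⟨y, hy, rfl⟩ := exists_Q_smul hS e1
    refine ⟨y, hy, fun e => e2 (by rw [e, one_mul]), fun x hx => h.comm_of_fix (hX hx) hy ?_⟩
    rw [mem_stabilizer_iff, ← h.ti, mul_smul, mul_smul, mul_smul, mul_smul, inv_smul_eq_iff, inv_smul_eq_iff,
      h.ti, ← mul_smul y, e x hx, mul_smul]
  obtain ⟨k, hk, -, e⟩ := h.exists_conj_V hy y1
  exact ⟨k, hk, fun x hx => mem_C1.1 (h.mem_C1t.2 (e x (hX hx) (hc x hx)))⟩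

end Cfsg.Agent.S1126
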