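import Cfsg.Statements.S1132
import Cfsg.Agent.H5.SuzB

set_option autoImplicit false
open Cfsg

namespace Cfsg.Agent.S1132
open H5
open H18 Subgroup

/-- In the rank-one set-up (`G` finite and doubly transitive on `Ω`, `t` an involution moving `a`, `Q` normal in `G_a` with `G_a = Q D`, `Q ⊓ D = 1` for the two-point stabiliser `D = G_a ⊓ G_{t • a}`, `|Q|` even, `|D|` odd), with the action faithful and `G` containing two distinct commuting involutions: a Sylow 2-subgroup of `Q` is abelian or a Suzuki 2-group. -/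
theorem result {G Ω : Type*} [Group G] [Finite G] [MulAction G Ω] [FaithfulSMul G Ω] {a : Ω} {t : G} {Q : Subgroup G}
    (hS : Cfsg.IsRankOneSetup G Ω a t Q)
    (h2 : ∃ x y : G, x ≠ 1 ∧ y ≠ 1 ∧ x ≠ y ∧ x * x = 1 ∧ y * y = 1 ∧ x * y = y * x)
    (S : Sylow 2 ↥Q) : IsMulCommutative (S : Subgroup ↥Q) ∨ Cfsg.IsSuzukiTwoGroup ↥(S : Subgroup ↥Q) := by
  obtain ⟨K, V, W, Q₀, s, h⟩ := (A1.of_setup hS).exists_suz
  have e := (equivMapOfInjective (S : Subgroup Q) Q.subtype Q.subtype_injective).symm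
  by_cases ha : Abel ((S : Subgroup Q).map Q.subtype)
  · exact Or.inl ⟨⟨fun a b => e.symm.injective (by
      rw [map_mul, map_mul]; exact Subtype.ext (comm_of_cent ha (e.symm a).2 (e.symm b).2))⟩⟩
  obtain ⟨-, h1, ⟨x, y, h3⟩, ⟨a, b, h4, h5, h6, h7, h8⟩, K, h9, h10⟩ :=
    h.isSuzuki (h.rank_iff.1 (prank_of_setup h2)) (hall_map_sylow Nat.prime_two S) ha
  refine Or.inr ⟨inferInstance, h1.of_equiv e, ⟨e x, e y, by simpa [← map_mul] using h3⟩,
    ⟨e a, e b, by simpa using h4, by simpa using h5, by rw [← map_mul, h6, map_one], by simpa using h7,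
      by rw [← map_mul, h8, map_one]⟩, K.map (MulAut.congr e).toMonoidHom,
    (MulEquiv.isCyclic (equivMapOfInjective K _ (MulAut.congr e).injective)).1 h9, fun x y x1 x2 y1 y2 => ?_⟩
  obtain ⟨k, hk, hu⟩ := h10 (e.symm x) (e.symm y) (by simpa using x1) (by rw [← map_mul, x2, map_one])
    (by simpa using y1) (by rw [← map_mul, y2, map_one])
  refine ⟨⟨_, k, k.2, rfl⟩, by simp [hk], ?_⟩
  rintro ⟨_, l, hl, rfl⟩ el
  rw [← hu ⟨l, hl⟩ (by simp [← el])]

end Cfsg.Agent.S1132
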