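import Cfsg.Statements.S1147
import Cfsg.Agent.H23.ZassSuz
import Cfsg.Agent.S1139

set_option autoImplicit false
open Cfsg

namespace Cfsg.Agent.S1147

open H18 H23 Subgroup

/-- Let a finite simple Zassenhaus group `G` on `Ω` have a normal subgroup `U` of `G_a`, regular on `Ω` minus `a`, which is a non-abelian 2-group. Then `|Ω| = 2^(2n) + 1` with `n` odd, `n > 1`, a two-point stabiliser `G_a ⊓ G_b` is cyclic of order `2^n - 1`, and `U` is isomorphic to the type-A group over a field with `2^n` elements for some field automorphism `φ`. -/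
theorem result {G Ω : Type*} [Group G] [Finite G] [MulAction G Ω] [Finite Ω]
    (hZ : Cfsg.IsZassenhausGroup G Ω) [IsSimpleGroup G] {a b : Ω} (hab : a ≠ b)
    (U : Subgroup G) (hUle : U ≤ MulAction.stabilizer G a)
    (hUn : ∀ h ∈ MulAction.stabilizer G a, ∀ u ∈ U, h * u * h⁻¹ ∈ U)
    (hreg : ∀ c d : Ω, c ≠ a → d ≠ a → ∃! u : U, (u : G) • c = d)
    (hU2 : IsPGroup 2 U) (hUna : ∃ u ∈ U, ∃ v ∈ U, u * v ≠ v * u) :
    ∃ n : ℕ, Odd n ∧ 1 < n ∧ Nat.card Ω = 2 ^ (2 * n) + 1 ∧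
      IsCyclic ↥(MulAction.stabilizer G a ⊓ MulAction.stabilizer G b) ∧
      Nat.card ↥(MulAction.stabilizer G a ⊓ MulAction.stabilizer G b) = 2 ^ n - 1 ∧
      ∃ (F : Type) (_ : Field F) (_ : Fintype F) (φ : F ≃+* F), Fintype.card F = 2 ^ n ∧
        Nonempty (U ≃* Cfsg.suzukiTypeA F (φ : F →+* F)) := by
  have := Fintype.ofFinite G
  obtain ⟨Q, h⟩ := exists_ZS hZ hab
  obtain rfl := h.eq_Q' hUle hreg
  have h2 := (piGrp_iff_isPGroup Nat.prime_two).2 hU2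
  obtain ⟨t, hD⟩ := h.exists_ZD_of_even (Nat.not_odd_iff_even.1 fun e =>
    h.Q_ne (card_eq_one.1 (h2.eq_one (H5.piNat_two_compl.2 e))))
  obtain ⟨u, hu, v, hv, e⟩ := hUna
  obtain ⟨Z, hQ⟩ := hD.exists_ZQ h2 fun hA => e (comm_of_cent hA hu hv)
  obtain ⟨m, h1, e1⟩ := hQ.exists_odd
  have e2 : Nat.card (center U) = 2 ^ (2 * m + 1) := by rw [← e1, ← hQ.cardZ, ← hQ.center, card_map_subtype]
  obtain ⟨F, _, _, φ, e3, -, -, e4⟩ := S1139.result hQ.suz (by rw [e2, ← e1, hQ.card_sq])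
  exact ⟨2 * m + 1, odd_two_mul_add_one m, by omega, by rw [h.cardΩ, hQ.card_sq, e1, ← pow_mul, mul_comm],
    hD.cyc, Nat.eq_sub_of_add_eq e1, F, _, _, φ, e3.trans e2, e4⟩

end Cfsg.Agent.S1147
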