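import Cfsg.Statements.S1151
import Cfsg.Agent.H13.ReeTori2

set_option autoImplicit false
open Cfsg

namespace Cfsg.Agent.S1151

open H13 H13.Ree

/-- In the small Ree group ²G₂(q), q = 3^(2m+1), realised as G¹ inside the Chevalley group G₂ over the field with q elements (θ the 3^m-th power map), with H¹ = G¹ ∩ H and U¹ = G¹ ∩ U the intersections with the ambient diagonal and positive unipotent subgroups: `H¹` has exactly `(q - 1)/2` elements of odd order, and each non-identity one centralises no non-identity element of `U¹`. -/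
theorem result {K : Type*} [Field K] [Fintype K] {m : ℕ} (hK : Fintype.card K = 3 ^ (2 * m + 1)) :
    2 * Nat.card {h : ↥(Cfsg.Lie.chevG2.diagonalSubgroup K ⊓ Cfsg.Lie.twistedG2 K (3 ^ m)) // Odd (orderOf h)} = 3 ^ (2 * m + 1) - 1 ∧
      ∀ h ∈ (Cfsg.Lie.chevG2.diagonalSubgroup K ⊓ Cfsg.Lie.twistedG2 K (3 ^ m)), h ≠ 1 → Odd (orderOf h) →
        (Cfsg.Lie.chevG2.posUnipotent K ⊓ Cfsg.Lie.twistedG2 K (3 ^ m)) ⊓ Subgroup.centralizer {h} = ⊥ := by
  haveI : H13.Ree.IsRee K m := ⟨hK⟩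
  rw [← hK]
  have h8 := card_mod_eight (K := K)
  constructor
  · let e := (hEquiv K m).trans (equivInf (K := K) (m := m) fun _ => mem_H_iff')
    have h1 := IsCyclic.card_powMonoidHom_ker Kˣ ((Fintype.card K - 1) / 2)
    rw [Nat.card_units, Nat.card_eq_fintype_card (α := K), Nat.gcd_eq_right (Nat.div_dvd_of_dvd (by omega))] at h1
    rw [← Nat.card_congr (e.toEquiv.subtypeEquiv (p := (· ∈ (powMonoidHom ((Fintype.card K - 1) / 2)).ker)) fun s => ?_), h1]
    · omega
    · rw [MonoidHom.mem_ker, powMonoidHom_apply, ← orderOf_dvd_iff_pow_eq_one, MulEquiv.toEquiv_eq_coe, EquivLike.coe_coe,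
        MulEquiv.orderOf_eq]
      refine ⟨odd_half.of_dvd_nat, fun h => h.coprime_two_right.dvd_of_dvd_mul_left ?_⟩
      rw [show 2 * ((Fintype.card K - 1) / 2) = Fintype.card K - 1 by omega, ← Nat.card_eq_fintype_card,
        ← Nat.card_units]
      exact orderOf_dvd_natCard s
  · rintro x ⟨h1, h2⟩ h3 h4
    obtain ⟨s, hs⟩ := mem_H.1 ((mem_H_iff' (g := ⟨x, h2⟩)).2 h1)
    obtain rfl : (h m s).1 = x := congrArg Subtype.val hs
    rw [Subgroup.orderOf_coe] at h4
    rw [eq_bot_iff]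
    rintro y ⟨⟨h5, h6⟩, h7⟩
    have h9 : (⟨y, h6⟩ : R K m) ∈ H K m := by
      rw [← centralizer_h (s := s) (by rintro rfl; simp at h3) (by rintro rfl; simp [orderOf_j] at h4; contradiction),
        Subgroup.mem_centralizer_singleton_iff]
      exact Subtype.ext (Subgroup.mem_centralizer_singleton_iff.1 h7)
    obtain ⟨t, ht⟩ := mem_H.1 h9
    have := h_mem_U.1 (ht ▸ (mem_U_iff' (g := ⟨y, h6⟩)).2 h5)
    rw [this, h_one] at ht
    exact (congrArg Subtype.val ht).symm

end Cfsg.Agent.S1151
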