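import Cfsg.Statements.S1160
import Cfsg.Agent.H5.Hupp

set_option autoImplicit false
open Cfsg

namespace Cfsg.Agent.S1160
open H5
open H18 Subgroup

/-- Let `p ≠ 2` be prime and `P` a finite `p`-group acting faithfully by additive automorphisms on a finite elementary abelian `q`-group `E` (`q` prime), such that `|P_a|` is the same for all `a ≠ 0`. Then `P` is cyclic and every non-identity element of `P` fixes only `0`. -/
theorem result {P E : Type*} [Group P] [Finite P]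
    [AddCommGroup E] [Finite E] [DistribMulAction P E] [FaithfulSMul P E]
    {p q : ℕ} [Fact p.Prime] (hp2 : p ≠ 2) (hP : IsPGroup p P) (hq : q.Prime) (hE : ∀ e : E, q • e = 0)
    (hconst : ∀ a b : E, a ≠ 0 → b ≠ 0 →
      Nat.card (MulAction.stabilizer P a) = Nat.card (MulAction.stabilizer P b)) :
    IsCyclic P ∧ ∀ g : P, g ≠ 1 → ∀ a : E, g • a = a → a = 0 := by
  obtain ⟨X, _, _, i, j, hi, hj, hn, e⟩ := exists_ambient P E
  have hp : p.Prime := Fact.out
  have eq := MonoidHom.ofInjective hj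
  have cj : Nat.card j.range = Nat.card P := (Nat.card_congr eq.toEquiv).symm
  have pj : PiGrp {p} j.range := piGrp_of_isPGroup hp (hP.of_equiv eq)
  have fx : ∀ g a, j g ∈ C1(i (Multiplicative.ofAdd a)) ↔ g • a = a := fun g a => by
    rw [mem_C1, ← mul_inv_eq_iff_eq_mul, e, hi.eq_iff, Multiplicative.ofAdd.injective.eq_iff]
  have st : ∀ a, j.range ⊓ C1(i (Multiplicative.ofAdd a)) = (MulAction.stabilizer P a).map j := fun a => by
    ext x
    constructor
    · rintro ⟨⟨g, rfl⟩, h⟩; exact ⟨g, (fx g a).1 h, rfl⟩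
    · rintro ⟨g, h, rfl⟩; exact ⟨⟨g, rfl⟩, (fx g a).2 h⟩
  obtain ⟨h1, h2⟩ := huppert_p (P := j.range) (E := i.range) hp (by
      obtain ⟨k, hk⟩ := pj.card_eq_pow
      exact hk ▸ (hp.odd_of_ne_two hp2).pow) pj hq
    ⟨by rintro _ ⟨x, rfl⟩ _ ⟨y, rfl⟩; rw [← map_mul, ← map_mul, mul_comm], by
      rintro _ ⟨x, rfl⟩; rw [← map_pow, show x ^ q = 1 from hE x.toAdd, map_one]⟩ hn
    (eq_bot_iff.2 (by
      rintro _ ⟨⟨g, rfl⟩, h⟩
      rw [mem_bot, show g = 1 from eq_of_smul_eq_smul (α := E) fun a => by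
        rw [(fx g a).1 (C_le_C1 (H := i.range) ⟨_, rfl⟩ h), one_smul], map_one]))
    (by
      rintro _ ⟨a, rfl⟩ _ ⟨b, rfl⟩ a1 b1
      have := hconst a.toAdd b.toAdd (fun e => a1 (by rw [show a = 1 from e, map_one]))
        fun e => b1 (by rw [show b = 1 from e, map_one])
      erw [st a.toAdd, st b.toAdd]
      rwa [card_map_of_injective hj, card_map_of_injective hj])
  refine ⟨(MulEquiv.isCyclic eq).2 h1, fun g g1 a ha => hi (?_ : i (Multiplicative.ofAdd a) = i 1)⟩
  rw [map_one]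
  exact mem_bot.1 (h2 (j g) ⟨g, rfl⟩ (fun e => g1 (hj (e.trans (map_one j).symm))) ▸
    ⟨⟨_, rfl⟩, mem_C1_comm.1 ((fx g a).2 ha)⟩)

end Cfsg.Agent.S1160
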