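import Cfsg.Statements.S1161
import Cfsg.Agent.H5.Hupp
import Cfsg.Agent.H16.OddOrder

set_option autoImplicit false
open Cfsg

namespace Cfsg.Agent.S1161
open H5
open H18 Subgroup

/-- Let `D` be a finite group of odd order acting faithfully by additive automorphisms on a finite elementary abelian `q`-group `E ≠ 0` (`q` prime), transitively on `E ∖ {0}`. Then the Fitting subgroup `F(D)` is cyclic, its non-identity elements fix only `0`, and `D/F(D)` is abelian (the derived subgroup lies in `F(D)`). -/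
theorem result {D E : Type*} [Group D] [Finite D]
    [AddCommGroup E] [Finite E] [Nontrivial E] [DistribMulAction D E] [FaithfulSMul D E]
    (hodd : Odd (Nat.card D)) {q : ℕ} (hq : q.Prime) (hE : ∀ e : E, q • e = 0)
    (htrans : ∀ a b : E, a ≠ 0 → b ≠ 0 → ∃ d : D, d • a = b) :
    IsCyclic ↥(Cfsg.fittingSubgroup D) ∧
      (∀ g ∈ Cfsg.fittingSubgroup D, g ≠ 1 → ∀ a : E, g • a = a → a = 0) ∧
      commutator D ≤ Cfsg.fittingSubgroup D := by
  obtain ⟨X, _, _, i, j, hi, hj, hn, e⟩ := exists_ambient D E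
  have eq := MonoidHom.ofInjective hj
  have cj : Nat.card j.range = Nat.card D := (Nat.card_congr eq.toEquiv).symm
  have fx : ∀ g a, j g ∈ C1(i (Multiplicative.ofAdd a)) ↔ g • a = a := fun g a => by
    rw [mem_C1, ← mul_inv_eq_iff_eq_mul, e, hi.eq_iff, Multiplicative.ofAdd.injective.eq_iff]
  obtain ⟨h1, h2, h3⟩ := huppert (D := j.range) (E := i.range) (H16.odd_order _ (cj ▸ hodd)) (cj ▸ hodd) hq
    ⟨by rintro _ ⟨x, rfl⟩ _ ⟨y, rfl⟩; rw [← map_mul, ← map_mul, mul_comm], by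
      rintro _ ⟨x, rfl⟩; rw [← map_pow, show x ^ q = 1 from hE x.toAdd, map_one]⟩ hn
    (eq_bot_iff.2 (by
      rintro _ ⟨⟨g, rfl⟩, h⟩
      rw [mem_bot, show g = 1 from eq_of_smul_eq_smul (α := E) fun a => by
        rw [(fx g a).1 (C_le_C1 (H := i.range) ⟨_, rfl⟩ h), one_smul], map_one]))
    (by
      rintro _ ⟨a, rfl⟩ _ ⟨b, rfl⟩ a1 b1
      obtain ⟨d, hd⟩ := htrans a.toAdd b.toAdd (fun e => a1 (by rw [show a = 1 from e, map_one]))
        fun e => b1 (by rw [show b = 1 from e, map_one])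
      exact ⟨_, ⟨d, rfl⟩, (e d a.toAdd).trans (by rw [hd]; rfl)⟩)
  let f : (⊤ : Subgroup D) →* X := j.comp (⊤ : Subgroup D).subtype
  have mf : ∀ A : Subgroup D, mim f A = A.map j := fun A => by
    ext x
    simp [mim, f, mem_subgroupOf]
  have kf : mker f = ⊥ := (mim_eq_bot_iff le_top).2 le_rfl |> fun h => by
    rwa [mf, map_eq_bot_iff_of_injective _ hj] at h
  have ef : F(j.range) = (fittingSubgroup D).map j := by
    rw [← fit_top, ← mf, mim_fit le_rfl (by simp [kf]), mf, MonoidHom.range_eq_map]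
  rw [ef] at h1 h2 h3
  refine ⟨(MulEquiv.isCyclic (equivMapOfInjective _ j hj)).2 h1,
    fun g hg g1 a ha => hi (?_ : i (Multiplicative.ofAdd a) = i 1), ?_⟩
  · rw [map_one]
    exact mem_bot.1 (h2 (j g) ⟨g, hg, rfl⟩ (fun e => g1 (hj (e.trans (map_one j).symm))) ▸
      ⟨⟨_, rfl⟩, mem_C1_comm.1 ((fx g a).2 ha)⟩)
  · rwa [MonoidHom.range_eq_map, ← map_commutator, map_le_map_iff_of_injective hj] at h3

end Cfsg.Agent.S1161
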