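import Cfsg.Statements.S1167
import Cfsg.Agent.H23.Zass3

set_option autoImplicit false
open Cfsg

namespace Cfsg.Agent.S1167

open H18 H23 Subgroup

/-- Let `G` be a finite simple Zassenhaus group on `Ω`, `U` a normal subgroup of `G_a` regular on `Ω` minus `a` which is an abelian 2-group, and `v` an involution with `v • a ≠ a`. Then there is a unique `u₀ ∈ U`, `u₀ ≠ 1`, with `v u₀ v = u₀ v u₀`. -/
theorem result {G Ω : Type*} [Group G] [Finite G] [MulAction G Ω] [Finite Ω]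
    (hZ : Cfsg.IsZassenhausGroup G Ω) [IsSimpleGroup G] {a : Ω}
    (U : Subgroup G) (hUle : U ≤ MulAction.stabilizer G a)
    (hUn : ∀ h ∈ MulAction.stabilizer G a, ∀ u ∈ U, h * u * h⁻¹ ∈ U)
    (hreg : ∀ c d : Ω, c ≠ a → d ≠ a → ∃! u : U, (u : G) • c = d)
    (hU2 : IsPGroup 2 U) (hUab : ∀ u ∈ U, ∀ u' ∈ U, u * u' = u' * u)
    (v : G) (hv1 : v ≠ 1) (hv2 : v * v = 1) (hva : v • a ≠ a) :
    ∃! u₀ : G, u₀ ∈ U ∧ u₀ ≠ 1 ∧ v * u₀ * v = u₀ * v * u₀ := by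
  obtain ⟨Q, hS⟩ := exists_ZS hZ hva.symm
  obtain rfl := hS.eq_Q' hUle hreg
  obtain ⟨-, p, hp, hd, hE⟩ := hS.elem_of_le (hS.le_of_abel hZ.2.2.2.2 (cent_iff.2 hUab))
  obtain rfl := ((piGrp_iff_isPGroup Nat.prime_two).2 hU2).eq_of_dvd hp hd
  have hA := hS.A1 (even_iff_two_dvd.2 hd) rfl (by rw [← mul_smul, hv2, one_smul])
  have sq' : ∀ u ∈ U, u * u = 1 := fun u hu => by rw [← sq, hE.pow u hu]
  have iv : ∀ u ∈ U, u⁻¹ = u := fun u hu => inv_eq_of_mul_eq_one_right (sq' u hu)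
  obtain ⟨s, hs, s2, s1, r, hr, e⟩ := hA.exists_struct
  have e1 : v * r * v = r * v * s := by
    have : s = v * (r⁻¹ * v * r) * v := by rw [← e]; simp [mul_assoc, hA.tt', hv2]
    rw [this, iv r hr]; simp [mul_assoc, hA.tt', ← mul_assoc r r, sq' r hr]
  obtain rfl : s = r := by
    have e2 : v * (s * r) * v = r * s := by
      have : r * v * s * (r * v * s) = 1 := by rw [← e1]; simp [mul_assoc, hA.tt', ← mul_assoc r r, sq' r hr, hv2]
      calc _ = r⁻¹ * (r * v * s * (r * v * s)) * s⁻¹ := by group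
        _ = _ := by rw [this, mul_one, iv r hr, iv s hs]
    have := hA.Qt (mul_mem hs hr) (e2 ▸ hUle (mul_mem hr hs))
    rw [← iv r hr]; exact eq_inv_of_mul_eq_one_left this
  refine ⟨s, ⟨hs, s1, e1⟩, fun u ⟨hu, u1, eu⟩ => ?_⟩
  exact (hA.struct_unique (hUle hu) (sq' u hu) u1 hu (by rw [iv u hu, eu]) (hUle hs) s2 s1 hs e).1

end Cfsg.Agent.S1167
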