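import Cfsg.Statements.S1172
import Cfsg.Agent.H4.PF2
import Cfsg.Agent.H21.RED

set_option autoImplicit false
open Cfsg

namespace Cfsg.Agent.S1172

/-- Let G be a finite group with no nontrivial normal subgroup of odd order and no proper normal subgroup of odd index, whose Sylow 2-subgroup S is not commutative and is the internal direct product of two subgroups each isomorphic to a dihedral group of order at least 4 and each strongly closed in S with respect to G (product fusion). Then G is the internal direct product of two normal subgroups G₁, G₂, and S is the internal direct product of dihedral subgroups R₁ ≤ G₁ and R₂ ≤ G₂ of odd index in G₁ and G₂ respectively (so R_i is a Sylow 2-subgroup of G_i). -/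
theorem result {G : Type*} [Group G] [Finite G] (hO : Cfsg.oddCore G = ⊥) (hO' : ∀ N : Subgroup G, N.Normal → Odd N.index → N = ⊤) (S : Sylow 2 G) (hS : ¬ IsMulCommutative (S : Subgroup G)) (S₁ S₂ : Subgroup G) (hprod : Cfsg.IsInternalDirectProduct S₁ S₂ (S : Subgroup G)) (m₁ m₂ : ℕ) (hm₁ : 2 ≤ m₁) (hm₂ : 2 ≤ m₂) (e₁ : S₁ ≃* DihedralGroup m₁) (e₂ : S₂ ≃* DihedralGroup m₂) (hcl₁ : Cfsg.IsStronglyClosed S₁ (S : Subgroup G)) (hcl₂ : Cfsg.IsStronglyClosed S₂ (S : Subgroup G)) : ∃ G₁ G₂ : Subgroup G, G₁.Normal ∧ G₂.Normal ∧ Cfsg.IsInternalDirectProduct G₁ G₂ ⊤ ∧ ∃ R₁ R₂ : Subgroup G, Cfsg.IsInternalDirectProduct R₁ R₂ (S : Subgroup G) ∧ (∃ n₁, 2 ≤ n₁ ∧ Nonempty (R₁ ≃* DihedralGroup n₁)) ∧ (∃ n₂, 2 ≤ n₂ ∧ Nonempty (R₂ ≃* DihedralGroup n₂)) ∧ R₁ ≤ G₁ ∧ R₂ ≤ G₂ ∧ Odd (R₁.relIndex G₁) ∧ Odd (R₂.relIndex G₂) := by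
  exact H4.Gs.s1172 hO hO' S hprod m₁ m₂ hm₁ hm₂ e₁ e₂ hcl₁ hcl₂

end Cfsg.Agent.S1172
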