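import Cfsg.Statements.S1175
import Cfsg.Agent.H21.RED

set_option autoImplicit false
open Cfsg

namespace Cfsg.Agent.S1175

/-- Aschbacher's criterion for strong embedding. Let G be a finite simple group, M a proper subgroup and z an involution of M such that: z is central in some Sylow 2-subgroup of G; every g with g z g⁻¹ ∈ M lies in M; and C_G(z · g z g⁻¹) ≤ M whenever g z g⁻¹ ≠ z commutes with z. Then G has a strongly embedded subgroup. -/
theorem result {G : Type*} [Group G] [Finite G] [IsSimpleGroup G] (M : Subgroup G) (hM : M ≠ ⊤) (z : G) (hz : orderOf z = 2) (hzM : z ∈ M) (h1 : ∃ S : Sylow 2 G, z ∈ S ∧ ∀ s ∈ S, Commute s z) (h2 : ∀ g : G, g * z * g⁻¹ ∈ M → g ∈ M) (h3 : ∀ g : G, Commute z (g * z * g⁻¹) → g * z * g⁻¹ ≠ z → Subgroup.centralizer ({z * (g * z * g⁻¹)} : Set G) ≤ M) : ∃ H : Subgroup G, Cfsg.IsStronglyEmbedded H := by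
  exact H21.zdZD.zd M hM z hz hzM h1 h2 h3

end Cfsg.Agent.S1175
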