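import Cfsg.Statements.S1176
import Cfsg.Agent.H9.Hv2

set_option autoImplicit false
open Cfsg

namespace Cfsg.Agent.S1176

open H18 H9 Subgroup
open scoped commutatorElement

/-- Let x₀ be an involution of the finite group G and D its conjugacy class. Assume (a) for each x ∈ D the subgroup W(x) generated by the members of D commuting with x is a 2-group of nilpotency class at most 2, and (b) the product of two distinct commuting members of D again lies in D. Then for all x, y ∈ D, if xy has even order greater than 2, its order is 4. -/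
theorem result {G : Type*} [Group G] [Finite G] (x₀ : G) (hx₀ : orderOf x₀ = 2) (ha : ∀ x : G, IsConj x₀ x → IsPGroup 2 ↥(Subgroup.closure {y : G | IsConj x₀ y ∧ Commute y x}) ∧ ⁅⁅Subgroup.closure {y : G | IsConj x₀ y ∧ Commute y x}, Subgroup.closure {y : G | IsConj x₀ y ∧ Commute y x}⁆, Subgroup.closure {y : G | IsConj x₀ y ∧ Commute y x}⁆ = ⊥) (hb : ∀ x y : G, IsConj x₀ x → IsConj x₀ y → x ≠ y → Commute x y → IsConj x₀ (x * y)) (x y : G) (hx : IsConj x₀ x) (hy : IsConj x₀ y) (heven : Even (orderOf (x * y))) (hgt : 2 < orderOf (x * y)) : orderOf (x * y) = 4 := by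
  have ox := (IsConj.orderOf_eq' hx).symm.trans hx₀
  obtain ⟨x2, x1⟩ := ord2.1 ox
  obtain ⟨y2, y1⟩ := ord2.1 ((IsConj.orderOf_eq' hy).symm.trans hx₀)
  obtain ⟨oz, c1, c2⟩ := central_involution x2 y2 heven
  have h1 : IsConj x₀ (x * (x * y) ^ (orderOf (x * y) / 2)) := by
    rcases Nat.even_or_odd (orderOf (x * y) / 2) with e | e
    exacts [hx.trans (isConj_refl_of_even x2 y2 e), hy.trans (isConj_refl_of_odd x2 y2 e)]
  have h2 := hb x _ hx h1 (fun e => (ord2.1 oz).2 (left_eq_mul.1 e)) ((Commute.refl x).mul_right c1.symm)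
  rw [tt' x2] at h2
  have mx := subset_closure (k := {y' : G | IsConj x₀ y' ∧ Commute y' ((x * y) ^ (orderOf (x * y) / 2))}) ⟨hx, c1.symm⟩
  have my := subset_closure (k := {y' : G | IsConj x₀ y' ∧ Commute y' ((x * y) ^ (orderOf (x * y) / 2))}) ⟨hy, c2.symm⟩
  have h3 := comm_of_cent (comm_eq_bot_iff.1 (ha _ h2).2) (commutator_mem_commutator mx my) mx
  rw [commutatorElement_def, inv_eq_of_mul_self x2, inv_eq_of_mul_self y2] at h3
  have h4 : (x * y) ^ 2 ^ 2 = 1 := by
    calc (x * y) ^ 2 ^ 2 = x * y * x * y * x * y * x * y := by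
          simp only [show 2 ^ 2 = 4 from rfl, pow_succ, pow_zero, one_mul, mul_assoc]
      _ = 1 := by rw [h3]; simp only [← mul_assoc, x2, one_mul, tt'' y2, tt'' x2, y2]
  obtain ⟨i, hi, e⟩ := (Nat.dvd_prime_pow Nat.prime_two).1 (orderOf_dvd_of_pow_eq_one h4)
  interval_cases i <;> omega

end Cfsg.Agent.S1176
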