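import Cfsg.Statements.S1177
import Cfsg.Agent.H9.Hv2

set_option autoImplicit false
open Cfsg

namespace Cfsg.Agent.S1177

open H18 H9 Subgroup

/-- Let A be a nontrivial elementary abelian 2-subgroup of a finite group G which is a T.I. set (each conjugate of A meets A trivially or equals A) and which does not commute elementwise with any conjugate of A other than A itself. Then for every a ∈ A, a ≠ 1, every conjugate of A contained in C_G(a) is equal to A (A is weakly closed in C_G(a)). -/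
theorem result {G : Type*} [Group G] [Finite G] (A : Subgroup G) (hA : Cfsg.IsElementaryAbelian 2 A) (hA1 : A ≠ ⊥) (hTI : ∀ g : G, A.map (MulAut.conj g).toMonoidHom ⊓ A = ⊥ ∨ A.map (MulAut.conj g).toMonoidHom = A) (hb : ∀ g : G, (∀ a ∈ A, ∀ b ∈ A.map (MulAut.conj g).toMonoidHom, a * b = b * a) → A.map (MulAut.conj g).toMonoidHom = A) (a : G) (ha : a ∈ A) (ha1 : a ≠ 1) (g : G) (hg : A.map (MulAut.conj g).toMonoidHom ≤ Subgroup.centralizer ({a} : Set G)) : A.map (MulAut.conj g).toMonoidHom = A := by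
  have hAb := abel_of_comm hA.1
  change cj g A ≤ _ at hg
  change ∀ g : G, cj g A ⊓ A = ⊥ ∨ cj g A = A at hTI
  have h1 : ∀ y x : G, x ∈ cj y A → x ≠ 1 → C1(x) ≤ N(cj y A) := fun y x hx x1 c hc => by
    refine mem_N_iff_cj.2 ?_
    have := (hTI (y⁻¹ * c * y)).resolve_left (ne_bot_of_mem (x := y⁻¹ * x * y) (mem_inf.2 ⟨?_, mem_cj.1 hx⟩) (conj_ne' x1 y))
    · rw [cj_cj, eq_cj_iff, cj_cj, ← mul_assoc, this]
    · rw [mem_cj, show (y⁻¹ * c * y)⁻¹ * (y⁻¹ * x * y) * (y⁻¹ * c * y) = y⁻¹ * (c⁻¹ * x * c) * y by group,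
        mul_assoc c⁻¹, ← mem_C1.1 hc, inv_mul_cancel_left]
      exact mem_cj.1 hx
  have h2 : cj g A ≤ N(A) := hg.trans (by simpa using h1 1 a (by simpa using ha) ha1)
  refine (hTI g).resolve_left fun hd => hA1 ?_
  suffices cj g A = A by rwa [this, inf_idem] at hd
  refine hb g fun x hx => by_contra fun e => ?_
  have inj : Function.Injective fun b : cj g A => (⟨b * x * b⁻¹, conj_mem h2 b.2 hx⟩ : A) := fun b c e' => by
    by_contra ne
    have h3 : x ∈ N(cj g A) := h1 g ((c : G)⁻¹ * b) (mul_mem (inv_mem c.2) b.2)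
      (fun e => ne (Subtype.ext (inv_mul_eq_one.1 e).symm)) (mem_C1.2 (by
        have : (b : G) * x * (b : G)⁻¹ = c * x * (c : G)⁻¹ := congrArg Subtype.val e'
        calc x * ((c : G)⁻¹ * b) = (c : G)⁻¹ * (c * x * (c : G)⁻¹) * b := by group
          _ = _ := by rw [← this]; group))
    refine e fun b hb => ?_
    have : x * b * x⁻¹ * b⁻¹ = 1 := eq_one_of_eq_bot hd (mem_inf.2 ⟨mul_mem (conj_mem_N h3 hb) (inv_mem hb), by
      simpa [mul_assoc] using mul_mem hx (conj_mem h2 hb (inv_mem hx))⟩)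
    rwa [mul_inv_eq_one, mul_inv_eq_iff_eq_mul] at this
  obtain ⟨b, e'⟩ := (inj.bijective_of_nat_card_le card_cj.ge).2 1
  refine e fun b _ => ?_
  rw [conj_eq_one_iff'.1 (congrArg Subtype.val e'), one_mul, mul_one]

end Cfsg.Agent.S1177
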