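import Cfsg.Statements.S1181
import Cfsg.Agent.H9.Isolated

set_option autoImplicit false
open Cfsg

namespace Cfsg.Agent.S1181

/-- Let z be an isolated involution of the finite group G and N a normal subgroup with z ∉ N. Then the centralizer of zN in G/N is the image of C_G(z), and zN is an isolated involution of G/N. -/
theorem result {G : Type*} [Group G] [Finite G] (z : G) (hz : Cfsg.IsIsolatedInvolution z) (N : Subgroup G) [N.Normal] (hzN : z ∉ N) : Subgroup.centralizer ({(QuotientGroup.mk z : G ⧸ N)} : Set (G ⧸ N)) = (Subgroup.centralizer ({z} : Set G)).map (QuotientGroup.mk' N) ∧ Cfsg.IsIsolatedInvolution (QuotientGroup.mk z : G ⧸ N) := by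
  refine ⟨le_antisymm ?_ ?_, H9.isolated_quotient hz N hzN⟩
  · intro g hg
    obtain ⟨g, rfl⟩ := QuotientGroup.mk_surjective g
    obtain ⟨n, hn, h⟩ := H9.isolated_centralizer_quotient hz N
      (H9.mem_centralizer_singleton_iff_commute.1 hg)
    refine ⟨n⁻¹ * g, H9.mem_centralizer_singleton_iff_commute.2 h, ?_⟩
    rw [map_mul, QuotientGroup.mk'_apply, (QuotientGroup.eq_one_iff _).2 (N.inv_mem hn), one_mul]
    rfl
  · rintro _ ⟨g, hg, rfl⟩
    exact H9.mem_centralizer_singleton_iff_commute.2
      ((H9.mem_centralizer_singleton_iff_commute.1 hg).map (QuotientGroup.mk' N))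

end Cfsg.Agent.S1181
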