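import Cfsg.Statements.S1183
import Cfsg.Agent.H9.IsoP

set_option autoImplicit false
open Cfsg

namespace Cfsg.Agent.S1183

/-- Let z be an isolated involution of the finite group G and C = C_G(z). Then the subgroup of G generated by its elements of odd order is all of G if and only if the subgroup of C generated by its elements of odd order is all of C. -/
theorem result {G : Type*} [Group G] [Finite G] (z : G) (hz : Cfsg.IsIsolatedInvolution z) : Cfsg.pResidual 2 G = ⊤ ↔ Cfsg.pResidual 2 ↥(Subgroup.centralizer ({z} : Set G)) = ⊤ := by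
  obtain ⟨P, hP⟩ := (H9.isPGroup_zpowers_of_mul_self (H9.mul_self_of_orderOf hz.1)).exists_le_sylow
  have hzP : z ∈ (P : Subgroup G) := hP (Subgroup.mem_zpowers z)
  have hPC := H9.isolated_sylow_le hz P.isPGroup' hzP
  have h := H3.pResidual_inf_eq_of_controls P hPC fun x hx g hg => by
    obtain ⟨c, hc, e⟩ := H9.isolated_fusion_elem hz
      (H9.mem_centralizer_singleton_iff_commute.1 (hPC hx))
      (H9.mem_centralizer_singleton_iff_commute.1 (hPC hg)) (isConj_iff.2 ⟨g, rfl⟩)
    exact ⟨c, H9.mem_centralizer_singleton_iff_commute.2 hc, e⟩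
  constructor
  · intro h1
    rw [h1, top_inf_eq] at h
    apply Subgroup.map_injective (Subgroup.subtype_injective _)
    rw [← h, ← MonoidHom.range_eq_map, Subgroup.range_subtype]
  · intro h1
    rw [h1, ← MonoidHom.range_eq_map, Subgroup.range_subtype] at h
    have h2 := H3.pResidual_sup_sylow P
    rwa [sup_eq_left.2 (hPC.trans (inf_eq_right.1 h))] at h2

end Cfsg.Agent.S1183
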