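import Cfsg.Statements.S1184
import Cfsg.Agent.H9.Isolated

set_option autoImplicit false
open Cfsg

namespace Cfsg.Agent.S1184

/-- Let z be an isolated involution of the finite group G. If s and t are distinct conjugates of z, then st does not commute with z. -/
theorem result {G : Type*} [Group G] [Finite G] (z : G) (hz : Cfsg.IsIsolatedInvolution z) (g h : G) (hne : g * z * g⁻¹ ≠ h * z * h⁻¹) : ¬ Commute (g * z * g⁻¹ * (h * z * h⁻¹)) z := by
  intro hc
  set a := g * z * g⁻¹ with ha
  set b := h * z * h⁻¹ with hb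
  have hza : IsConj z a := isConj_iff.2 ⟨g, rfl⟩
  have hzb : IsConj z b := isConj_iff.2 ⟨h, rfl⟩
  have ha' := H9.isolated_conj hz g
  have ha2 : a * a = 1 := H9.mul_self_of_orderOf ha'.1
  have hb2 : b * b = 1 := H9.mul_self_of_orderOf (H9.isolated_conj hz h).1
  have hodd : Odd (orderOf (a * b)) := H9.isolated_odd ha' (hza.symm.trans hzb)
  have hinv := H9.left_inverts ha2 hb2
  have hzm : z ∈ H9.extCentralizer (a * b) := Or.inl (by rw [← hc.eq]; group)
  have ham : a ∈ H9.extCentralizer (a * b) := Or.inr hinv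
  obtain ⟨k, hk, hk'⟩ := H9.isolated_conj_in hz hza (Subgroup.mul_mem _ hzm ham)
  have hcomm : Commute (k * (a * b) * k⁻¹) a := by
    rw [← hk']
    have := hc.map (MulAut.conj k).toMonoidHom
    simpa [← hk', mul_assoc] using this
  have hcomm' : Commute (a * b) a := by
    rcases hk with hk | hk
    · rwa [hk] at hcomm
    · rw [hk] at hcomm; simpa using hcomm.inv_left
  have h1 : a * b = 1 := by
    apply H9.eq_one_of_odd_of_mul_self hodd
    rw [← hcomm'.eq, mul_inv_cancel_right] at hinv
    nth_rewrite 2 [hinv]; exact mul_inv_cancel _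
  apply hne
  rw [← H9.inv_eq_of_mul_self ha2]
  exact inv_eq_of_mul_eq_one_right h1

end Cfsg.Agent.S1184
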