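import Cfsg.Statements.S1186
import Cfsg.Agent.H9.Isolated

set_option autoImplicit false
open Cfsg

namespace Cfsg.Agent.S1186

/-- Let z be an isolated involution of the finite group G, C = C_G(z), K the set of elements of odd order inverted by z, and s an involution of C. Then |G| = |C| · |C_K(sz)| · |C_K(s)|. -/
theorem result {G : Type*} [Group G] [Finite G] (z : G) (hz : Cfsg.IsIsolatedInvolution z) (s : G) (hs : orderOf s = 2) (hsz : Commute s z) : Nat.card G = Nat.card (Subgroup.centralizer ({z} : Set G)) * Nat.card {k : G // Odd (orderOf k) ∧ z * k * z⁻¹ = k⁻¹ ∧ Commute k (s * z)} * Nat.card {k : G // Odd (orderOf k) ∧ z * k * z⁻¹ = k⁻¹ ∧ Commute k s} := by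
  rw [← H9.card_conj_mul_card_centralizer z, mul_comm, mul_assoc]
  congr 1
  rw [← Nat.card_prod]
  symm
  have hz2 := H9.mul_self_of_orderOf hz.1
  have hs2 := H9.mul_self_of_orderOf hs
  have hsz2 : (s * z) * (s * z) = 1 := by
    rw [← pow_two, hsz.mul_pow, pow_two, pow_two, hs2, hz2, one_mul]
  refine Nat.card_congr (Equiv.ofBijective
    (fun p => ⟨p.2.1 * p.1.1 * z * (p.2.1 * p.1.1)⁻¹, isConj_iff.2 ⟨_, rfl⟩⟩) ⟨?_, ?_⟩)
  · rintro ⟨⟨b, hb1, hb2, hb3⟩, ⟨a, ha1, ha2, ha3⟩⟩ ⟨⟨b', hb1', hb2', hb3'⟩, ⟨a', ha1', ha2', ha3'⟩⟩ hab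
    have hab' : a * b * z * (a * b)⁻¹ = a' * b' * z * (a' * b')⁻¹ := congrArg Subtype.val hab
    have key : ∀ a b : G, z * b * z⁻¹ = b⁻¹ → Commute b (s * z) → Commute a s → ∀ m : ℕ, Odd m →
        b ^ m = 1 → (s * (a * b * z * (a * b)⁻¹)) ^ m = s * (a * z * a⁻¹) := by
      intro a b hb2 hb3 ha3 m hm hbm
      have e1 : s * (a * b * z * (a * b)⁻¹) = a * ((s * z) * (b⁻¹ * b⁻¹)) * a⁻¹ := by
        have : b * z = z * b⁻¹ := by
          rw [← hb2, H9.inv_eq_of_mul_self hz2]
          calc b * z = (z * z) * b * z := by rw [hz2, one_mul]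
            _ = z * (z * b * z) := by group
        calc s * (a * b * z * (a * b)⁻¹) = (s * a) * (b * z) * b⁻¹ * a⁻¹ := by group
          _ = _ := by rw [← ha3.eq, this]; group
      rw [e1, conj_pow, (hb3.symm.inv_right.mul_right hb3.symm.inv_right).mul_pow,
        (Commute.refl b⁻¹).mul_pow, inv_pow, hbm]
      obtain ⟨j, rfl⟩ := hm
      rw [pow_succ, pow_mul, pow_two, hsz2]
      simp only [one_pow, one_mul, inv_one, mul_one]
      rw [← mul_assoc, ha3.eq]; group
    have h1 := key a b hb2 hb3 ha3 _ (hb1.mul hb1') (by rw [pow_mul, pow_orderOf_eq_one, one_pow])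
    have h2 := key a' b' hb2' hb3' ha3' _ (hb1.mul hb1')
      (by rw [mul_comm, pow_mul, pow_orderOf_eq_one, one_pow])
    rw [hab', h2] at h1
    have haa : a = a' := H9.inverted_unique ha1 ha1' ha2 ha2' (mul_left_cancel h1).symm
    subst haa
    have hbb : b = b' := by
      refine H9.inverted_unique hb1 hb1' hb2 hb2' ?_
      calc b * z * b⁻¹ = a⁻¹ * (a * b * z * (a * b)⁻¹) * a := by group
        _ = _ := by rw [hab']; group
    subst hbb
    rfl
  · rintro ⟨u, hu⟩
    have hu' := H9.isolated_isConj hz hu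
    have hu2 := H9.mul_self_of_orderOf hu'.1
    obtain ⟨m, hm, hc⟩ : ∃ m : ℕ, Odd m ∧ (s * u) ^ m * (s * u) ^ m = 1 := by
      have h4 := H9.isolated_not_four_dvd hu' hs2
      have h5 : orderOf (u * s) = orderOf (s * u) := by
        rw [← H9.orderOf_conj' s (u * s)]; congr 1; group
      rw [h5] at h4
      rcases Nat.even_or_odd (orderOf (s * u)) with he | ho
      · refine ⟨orderOf (s * u) / 2, by rw [Nat.even_iff] at he; rw [Nat.odd_iff]; omega, ?_⟩
        exact H9.mul_self_of_orderOf (H9.orderOf_pow_half he)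
      · exact ⟨_, ho, by rw [pow_orderOf_eq_one, one_mul]⟩
    set c := (s * u) ^ m with hcdef
    have hcs : Commute c s := H9.commute_of_inverts_of_mul_self
      (H9.conj_pow_of_inverts (H9.left_inverts hs2 hu2) m) hc
    have hcu : Commute c u := H9.commute_of_inverts_of_mul_self
      (H9.conj_pow_of_inverts (H9.right_inverts hs2 hu2) m) hc
    have hconj : IsConj z (s * c) := hu.trans (H9.isConj_refl_of_odd hs2 hu2 hm)
    obtain ⟨a, ha0, ha1, ha2, ha3⟩ := H9.isolated_exists_inverted hz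
      (H := Subgroup.centralizer ({s} : Set G)) hconj
      (H9.mem_centralizer_singleton_iff_commute.2 (hsz.symm.mul_left ((Commute.refl s).mul_left hcs)))
    have ha0' := H9.mem_centralizer_singleton_iff_commute.1 ha0
    have hc' : a⁻¹ * c * a = s * z := by
      calc a⁻¹ * c * a = a⁻¹ * (s * (s * c)) * a := by rw [← mul_assoc s, hs2, one_mul]
        _ = (a⁻¹ * s) * (a * z * a⁻¹) * a := by rw [ha3]; group
        _ = s * z := by rw [ha0'.inv_left.eq]; group
    obtain ⟨b, hb0, hb1, hb2, hb3⟩ := H9.isolated_exists_inverted hz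
      (H := Subgroup.centralizer ({s * z} : Set G)) (y := a⁻¹ * u * a)
      (hu.trans (isConj_iff.2 ⟨a⁻¹, by simp⟩))
      (H9.mem_centralizer_singleton_iff_commute.2 (Commute.mul_left
        (hsz.symm.mul_right (Commute.refl z)) (by
          rw [← hc']
          have := hcu.symm.map (MulAut.conj a⁻¹).toMonoidHom
          simpa using this)))
    refine ⟨⟨⟨b, hb1, hb2, H9.mem_centralizer_singleton_iff_commute.1 hb0⟩, ⟨a, ha1, ha2, ha0'⟩⟩,
      Subtype.ext ?_⟩
    calc a * b * z * (a * b)⁻¹ = a * (b * z * b⁻¹) * a⁻¹ := by group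
      _ = u := by rw [hb3]; group

end Cfsg.Agent.S1186
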