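import Cfsg.Statements.S1187
import Cfsg.Agent.H9.Hv2

set_option autoImplicit false
open Cfsg

namespace Cfsg.Agent.S1187

open H18 H9 Subgroup

/-- Let z be an isolated involution of the finite group G and p a prime. If Q is a p-subgroup normalized by z that is maximal among p-subgroups normalized by z, then Q is a Sylow p-subgroup of G. -/
theorem result {G : Type*} [Group G] [Finite G] (z : G) (hz : Cfsg.IsIsolatedInvolution z) {p : ℕ} [Fact p.Prime] (Q : Subgroup G) (hQ : IsPGroup p Q) (hzQ : z ∈ Subgroup.normalizer (Q : Set G)) (hmax : ∀ R : Subgroup G, IsPGroup p R → z ∈ Subgroup.normalizer (R : Set G) → Q ≤ R → R = Q) : ∃ P : Sylow p G, (P : Subgroup G) = Q := by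
  have hp : p.Prime := Fact.out
  have h1 := piGrp_of_isPGroup hp hQ
  refine Hall.exists_sylow_top hp ?_
  by_cases h2 : p = 2
  · subst h2
    obtain ⟨S, hS, le⟩ := exists_sylow_le hp (h1.sup_norm' (two_zpowers (ord2.1 hz.1).1) (zpowers_le.2 hzQ)) le_top
    exact hmax S hS.pi.isPGroup (le_N (le (mem_sup_right (mem_zpowers z)))) (le_sup_left.trans le) ▸ hS
  obtain ⟨P, hP, le⟩ := exists_sylow_le hp h1 le_top
  obtain ⟨R, hR, l2, hn⟩ := (iso_L hz (hP.pi.p'_of_ne h2)).1.exists_sylow_ge hp (le.trans le_sup_left) h1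
    (zpowers_le.2 hzQ)
  exact hmax R hR.pi.isPGroup (hn (mem_zpowers z)) l2 ▸
    hP.of_card le_top (hR.card_eq (hP.of_le le_sup_left le_top))

end Cfsg.Agent.S1187
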