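import Cfsg.Statements.S1222
import Cfsg.Agent.H19.SuzV

set_option autoImplicit false
open Cfsg

namespace Cfsg.Agent.S1222

/-- Let G be a finite simple group with a strongly embedded subgroup H such that H permutes transitively the cosets gH with g ∉ H, and H has a normal subgroup Q acting regularly on those cosets (transitively, with only the identity fixing any of them). Then G is isomorphic to PSL(2,F) with F of characteristic 2 and at least 4 elements, or is simple with the order of a Suzuki group, or is isomorphic to PSU(3) over a field with q² elements, q ≥ 4 a power of 2. -/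
theorem result {G : Type*} [Group G] [Finite G] [IsSimpleGroup G] (H : Subgroup G) (hH : Cfsg.IsStronglyEmbedded H) (Q : Subgroup G) (hQH : Q ≤ H) (hQn : (Q.subgroupOf H).Normal) (htrans : ∀ g₁ g₂ : G, g₁ ∉ H → g₂ ∉ H → ∃ u ∈ Q, g₂⁻¹ * (u * g₁) ∈ H) (hreg : ∀ g : G, g ∉ H → ∀ u ∈ Q, g⁻¹ * (u * g) ∈ H → u = 1) : (∃ (F : Type) (_ : Field F) (_ : Fintype F), CharP F 2 ∧ 4 ≤ Fintype.card F ∧ Nonempty (G ≃* Matrix.ProjectiveSpecialLinearGroup (Fin 2) F)) ∨ Cfsg.IsSuzuki G ∨ (∃ (F : Type) (_ : Field F) (_ : Fintype F) (q : ℕ), Fintype.card F = q ^ 2 ∧ Even q ∧ 4 ≤ q ∧ Nonempty (G ≃* Cfsg.PSU 3 F q)) := by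
  obtain ⟨t, tt, tH⟩ := H19.exists_inv_not_mem hH.1 (hH.2.1.trans_dvd H.card_subgroup_dvd_card)
  obtain ⟨F, _, _, ⟨n, h1, h2⟩, f⟩ | h | ⟨F, _, _, n, h1, h2, f⟩ := H19.suzuki_simple (H19.A1_of_regular hH tt tH
    ⟨hQH, Subgroup.le_normalizer_of_normal_subgroupOf hQH⟩ htrans (hreg t tH))
  · exact Or.inl ⟨F, _, _, H19.charP_of_card h2, h2 ▸ Nat.pow_le_pow_right two_pos h1, f⟩
  · exact Or.inr (Or.inl (H19.isSuzuki_of_iso h))
  · exact Or.inr (Or.inr ⟨F, _, _, 2 ^ n, h2, even_two.pow_of_ne_zero (by omega), Nat.pow_le_pow_right two_pos h1, f⟩)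

end Cfsg.Agent.S1222
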