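import Cfsg.Statements.S1223
import Cfsg.Agent.H9.Hv1

set_option autoImplicit false
open Cfsg

namespace Cfsg.Agent.S1223

open H18 H9 Subgroup

/-- Let H be a strongly embedded subgroup of the finite group G containing no nontrivial normal subgroup of G (so G acts faithfully on the cosets of H), u an involution of G outside H, and j ≠ 1 an element of H ∩ uHu⁻¹ with u j u⁻¹ = j⁻¹. Then C_G(j) has odd order. -/
theorem result {G : Type*} [Group G] [Finite G] (H : Subgroup G) (hH : Cfsg.IsStronglyEmbedded H) (hcore : H.normalCore = ⊥) (u : G) (hu : orderOf u = 2) (huH : u ∉ H) (j : G) (hj : j ∈ (H ⊓ H.map (MulAut.conj u).toMonoidHom)) (hj1 : j ≠ 1) (hinv : u * j * u⁻¹ = j⁻¹) : Odd (Nat.card (Subgroup.centralizer ({j} : Set G))) := by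
  have u2 := (ord2.1 hu).1
  refine (SA.of_se hH).odd_cent (fun g hg => ?_) u2 smul_one' (one_ne_mk huH) (fix_one.2 hj.1)
    (by rwa [inv_eq_of_mul_eq_one_right u2] at hinv) hj1
  refine eq_one_of_eq_bot hcore fun b => ?_
  simpa using fix_mk.1 (hg (b⁻¹ : G))

end Cfsg.Agent.S1223
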