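import Cfsg.Statements.S1224
import Cfsg.Agent.H9.Hv1

set_option autoImplicit false
open Cfsg

namespace Cfsg.Agent.S1224

open H18 H9 Subgroup

/-- Let H be a strongly embedded subgroup of the finite group G and x ≠ y two cosets in G/H. Then the number of involutions i of G with i • x = y equals the number of involutions lying in H. -/
theorem result {G : Type*} [Group G] [Finite G] (H : Subgroup G) (hH : Cfsg.IsStronglyEmbedded H) (x y : G ⧸ H) (hxy : x ≠ y) : Nat.card {i : G // orderOf i = 2 ∧ i • x = y} = Nat.card {t : G // orderOf t = 2 ∧ t ∈ H} := by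
  refine (Nat.card_coe_set_eq _).trans (((SA.of_se hH).ncard_swap (c := ((1 : G) : G ⧸ H)) hxy).trans
    (Eq.trans ?_ (Nat.card_coe_set_eq {t : G | orderOf t = 2 ∧ t ∈ H}).symm))
  congr 1
  exact Set.ext fun t => ⟨fun h => ⟨ord2.2 ⟨h.1, h.2.1⟩, fix_one.1 h.2.2⟩, fun h => ⟨(ord2.1 h.1).1, (ord2.1 h.1).2,
    fix_one.2 h.2⟩⟩

end Cfsg.Agent.S1224
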