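import Cfsg.Statements.S1227
import Cfsg.Agent.H9.Hv1

set_option autoImplicit false
open Cfsg

namespace Cfsg.Agent.S1227

open H18 H9 Subgroup

/-- Let G be a finite group with a Sylow 2-subgroup T that is neither cyclic nor normal, such that the centralizer of every involution is an elementary abelian 2-group; put H = N_G(T), let u be an involution outside H and D = H ∩ uHu⁻¹. Then u inverts every element of D, |H| = |T|·(|T| − 1), and D is a complement to T in H. -/
theorem result {G : Type*} [Group G] [Finite G] (T : Sylow 2 G) (hnc : ¬ IsCyclic (T : Subgroup G)) (hnn : ¬ (T : Subgroup G).Normal) (hC : ∀ t : G, orderOf t = 2 → IsMulCommutative (Subgroup.centralizer ({t} : Set G)) ∧ ∀ c ∈ Subgroup.centralizer ({t} : Set G), c ^ 2 = 1) (u : G) (hu : orderOf u = 2) (huH : u ∉ Subgroup.normalizer ((T : Subgroup G) : Set G)) : (∀ d ∈ Subgroup.normalizer ((T : Subgroup G) : Set G) ⊓ (Subgroup.normalizer ((T : Subgroup G) : Set G)).map (MulAut.conj u).toMonoidHom, u * d * u⁻¹ = d⁻¹)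 ∧ Nat.card (Subgroup.normalizer ((T : Subgroup G) : Set G)) = Nat.card T * (Nat.card T - 1) ∧ Subgroup.IsComplement' ((Subgroup.normalizer ((T : Subgroup G) : Set G) ⊓ (Subgroup.normalizer ((T : Subgroup G) : Set G)).map (MulAut.conj u).toMonoidHom).subgroupOf (Subgroup.normalizer ((T : Subgroup G) : Set G))) ((T : Subgroup G).subgroupOf (Subgroup.normalizer ((T : Subgroup G) : Set G))) := by
  have h := EA.of T hnc hnn hC
  have u2 := (ord2.1 hu).1
  have hab := one_ne_mk huH
  have hD := h.act.card_D (c := ((1 : G) : G ⧸ N((T : Subgroup G)))) hab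
  have ho := h.act.odd_D hab
  rw [h.ncard_Inv, St_D] at hD
  rw [St_D] at ho
  obtain ⟨s, hs, s1⟩ := exists_mem_ne_one' h.ne_bot
  have sd : SD (T : Subgroup G) (N((T : Subgroup G)) ⊓ cj u N((T : Subgroup G))) N((T : Subgroup G)) := by
    refine sd_of_nml nml_N inf_le_left (h.syl.pi.inf_eq_bot (H5.piNat_two_compl.2 ho)) fun g hg => ?_
    have hs' := conj_mem_N' hg hs
    obtain ⟨k, -, hk, -, e⟩ := h.act.exists_K (M := ⊤) u2 smul_one' hab (h.sq' hs) s1 (fix_one.2 (le_N hs))
      (h.sq' hs') (conj_ne' s1 g) (fix_one.2 (le_N hs')) (mem_top _) (mem_top _) (mem_top _)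
    rw [St_D] at hk
    have : g * k⁻¹ ∈ (T : Subgroup G) := h.C1_eq hs s1 ▸ mem_C1.2 (by
      calc g * k⁻¹ * s = g * (k⁻¹ * s * k) * k⁻¹ := by group
        _ = s * (g * k⁻¹) := by rw [e]; group)
    simpa using mul_mem_sup' this hk
  refine ⟨fun d hd => ?_, ?_, ?_⟩
  · rw [inv_eq_of_mul_eq_one_right u2]
    exact h.act.inverts u2 smul_one' hab (St_D (g := u) ▸ hd)
  · rw [← hD]; exact sd.card
  · refine isComplement'_of_card_mul_and_disjoint ?_ ?_
    · rw [card_subgroupOf inf_le_left, card_subgroupOf le_N, mul_comm]; exact sd.card.symm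
    · exact disjoint_def.2 fun h1 h2 => Subtype.ext (eq_one_of_eq_bot sd.inf ⟨h2, h1⟩)

end Cfsg.Agent.S1227
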