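import Cfsg.Statements.S1228
import Cfsg.Agent.H9.Hv1

set_option autoImplicit false
open Cfsg

namespace Cfsg.Agent.S1228

open H18 H9 Subgroup

/-- Let G be a finite group with a Sylow 2-subgroup T that is neither cyclic nor normal, such that the centralizer of every involution is an elementary abelian 2-group; put H = N_G(T), let u be an involution outside H and D = H ∩ uHu⁻¹. Then N_G(D) = D ⊔ ⟨u⟩, and a coset gH is fixed by every element of D exactly when gH = H or gH = uH. -/
theorem result {G : Type*} [Group G] [Finite G] (T : Sylow 2 G) (hnc : ¬ IsCyclic (T : Subgroup G)) (hnn : ¬ (T : Subgroup G).Normal) (hC : ∀ t : G, orderOf t = 2 → IsMulCommutative (Subgroup.centralizer ({t} : Set G)) ∧ ∀ c ∈ Subgroup.centralizer ({t} : Set G), c ^ 2 = 1) (u : G) (hu : orderOf u = 2) (huH : u ∉ Subgroup.normalizer ((T : Subgroup G) : Set G)) : Subgroup.normalizer ((Subgroup.normalizer ((T : Subgroup G) : Set G) ⊓ (Subgroup.normalizer ((T : Subgroup G) : Set G)).map (MulAut.conj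 u).toMonoidHom : Subgroup G) : Set G) = (Subgroup.normalizer ((T : Subgroup G) : Set G) ⊓ (Subgroup.normalizer ((T : Subgroup G) : Set G)).map (MulAut.conj u).toMonoidHom) ⊔ Subgroup.zpowers u ∧ ∀ g : G, ((∀ d ∈ Subgroup.normalizer ((T : Subgroup G) : Set G) ⊓ (Subgroup.normalizer ((T : Subgroup G) : Set G)).map (MulAut.conj u).toMonoidHom, d • (QuotientGroup.mk g : G ⧸ Subgroup.normalizer ((T : Subgroup G) : Set G)) = QuotientGroup.mk g) ↔ (QuotientGroup.mk g : G ⧸ Subgroup.normalizer ((T : Subgroup G) : Set G)) = QuotientGroup.mk 1 ∨ (QuotientGroup.mk g : G ⧸ Subgroup.normalizer ((T : Subgroup G) : Set G)) = QuotientGroup.mk u) := by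
  have h := EA.of T hnc hnn hC
  have u2 := (ord2.1 hu).1
  have hab := one_ne_mk huH
  obtain ⟨d, hd, d1⟩ := exists_mem_ne_one' (h.D_ne hab)
  have key : ∀ c : G ⧸ N((T : Subgroup G)), d • c = c → c = (1 : G) ∨ c = u := fun c hc => by
    by_contra! e
    exact d1 (h.act.three hab.symm e.1 e.2.symm hd.1 hd.2 hc)
  change N(N((T : Subgroup G)) ⊓ cj u N((T : Subgroup G))) = N((T : Subgroup G)) ⊓ cj u N((T : Subgroup G)) ⊔ _ ∧
    ∀ g : G, (∀ d ∈ N((T : Subgroup G)) ⊓ cj u N((T : Subgroup G)), _) ↔ _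
  rw [← St_D]
  refine ⟨le_antisymm (fun g hg => ?_) (sup_le le_N (zpowers_le.2 (swap_N u2 smul_one'))),
    fun g => ⟨fun e => key _ (e d hd), fun e x hx => by rcases e with e | e <;> rw [e]; exacts [hx.1, hx.2]⟩⟩
  have h1 := key _ (norm_fix hg inf_le_left hd)
  have h2 := key _ (norm_fix hg inf_le_right hd)
  have h3 : g • ((1 : G) : G ⧸ N((T : Subgroup G))) ≠ g • (u : G ⧸ N((T : Subgroup G))) :=
    fun e => hab (MulAction.injective g e)
  rcases h1 with h1 | h1
  · exact mem_sup_left (mem_D.2 ⟨h1, h2.resolve_left fun e => h3 (h1.trans e.symm)⟩)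
  · have h4 := h2.resolve_right fun e => h3 (h1.trans e.symm)
    have := mul_mem_sup (mem_D.2 ⟨show (g * u) • ((1 : G) : G ⧸ N((T : Subgroup G))) = (1 : G) by
      rw [mul_smul, smul_one', h4], show (g * u) • (u : G ⧸ N((T : Subgroup G))) = u by
      rw [mul_smul, swap_back u2 smul_one', h1]⟩) (mem_zpowers u)
    rwa [tt'' u2] at this

end Cfsg.Agent.S1228
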