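import Cfsg.Statements.S1232
import Cfsg.Agent.H2.Hd4
import Cfsg.Agent.S0501

set_option autoImplicit false
open Cfsg

open Subgroup

namespace Cfsg.Agent.S1232

/-- Let S be a finite 2-group containing an elementary abelian subgroup A of order 8 with C_S(A) = A. Then every section of S has 2-rank at most 4. -/
theorem result {S : Type*} [Group S] [Finite S] (hS : IsPGroup 2 S) (A : Subgroup S) (hA : Cfsg.IsElementaryAbelian 2 A) (hA8 : Nat.card A = 8) (hC : Subgroup.centralizer (A : Set S) = A) : Cfsg.SectionalPRankLE 2 4 S := by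
  haveI : Fact (Nat.Prime 2) := Nat.fact_prime_two
  by_cases h : ∀ B : Subgroup S, B.Normal → IsMulCommutative B → (∀ a ∈ B, a ^ 2 = 1) → Nat.card B ≤ 4
  · exact Cfsg.Agent.S0501.result hS h
  push Not at h
  obtain ⟨B, b1, b2, b3, b4⟩ := h
  have A2 : ∀ x ∈ A, x * x = 1 := fun x hx => by rw [← pow_two]; exact hA.2 x hx
  obtain ⟨W, hBW, hW⟩ := Finite.exists_le_maximal
    (p := fun B : Subgroup S => B.Normal ∧ IsMulCommutative B ∧ ∀ b ∈ B, b ^ 2 ^ 2 = 1) (a := B)
    ⟨b1, b2, fun b hb => by rw [pow_two, pow_mul, b3 b hb, one_pow]⟩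
  obtain ⟨hn, hc, he⟩ := hW.prop
  have hcc : ∀ x ∈ W, ∀ y ∈ W, x * y = y * x := fun x hx y hy =>
    congrArg Subtype.val (hc.is_comm.comm ⟨x, hx⟩ ⟨y, hy⟩)
  let V : Subgroup S :=
    { carrier := {b | b ∈ W ∧ b * b = 1}
      one_mem' := ⟨one_mem _, mul_one _⟩
      mul_mem' := fun {a b} ha hb => ⟨mul_mem ha.1 hb.1, by
        calc a * b * (a * b) = a * (b * a) * b := by group
          _ = a * (a * b) * b := by rw [hcc _ hb.1 _ ha.1]
          _ = (a * a) * (b * b) := by group
          _ = 1 := by rw [ha.2, hb.2, mul_one]⟩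
      inv_mem' := fun {a} ha => ⟨inv_mem ha.1, by rw [← mul_inv_rev, ha.2, inv_one]⟩ }
  haveI hV : V.Normal := ⟨fun a ha g => ⟨hn.conj_mem a ha.1 g, by
    calc g * a * g⁻¹ * (g * a * g⁻¹) = g * (a * a) * g⁻¹ := by group
      _ = 1 := by rw [ha.2]; group⟩⟩
  have key : ∀ H M : Subgroup S, M ≤ H → (∀ x ∈ H, x * x ∈ M) → Nat.card H ≤ 16 * Nat.card M := by
    intro H M hMH hM
    have h1 : Nat.card B ≤ Nat.card V := card_le_of_le fun b hb => ⟨hBW hb, by rw [← pow_two, b3 b hb]⟩
    obtain ⟨n, hn'⟩ := IsPGroup.iff_card.1 (hS.to_subgroup V)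
    by_cases h8 : Nat.card V = 8
    · exact H2.Hd.Sw.bound (W := W) (V := V) ⟨hS, hn, hcc, he, fun c hc' h4 =>
        Cfsg.Agent.S0130.result hS 2 (by norm_num) W hc he
          (fun B h1 h2 h3 h4 => le_antisymm (hW.le_of_ge ⟨h1, h2, h3⟩ h4) h4) c hc' h4, fun _ => Iff.rfl, h8⟩
        A2 hA8 hC H M hMH hM
    · refine H2.Hd.bound16 hS (V := V) A2 hA8 hC (fun x hx => hx.2) ?_ H M hM
      rcases n with _ | _ | _ | _ | n
      · omega
      · omega
      · omega
      · omega
      · rw [hn', pow_succ, pow_succ, pow_succ, pow_succ]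
        have := Nat.one_le_two_pow (n := n)
        omega
  intro H N _ A _ hA
  have := key ((A.comap (QuotientGroup.mk' N)).map H.subtype) (N.map H.subtype)
    (map_mono fun x hx => by
      rw [mem_comap, QuotientGroup.mk'_apply, (QuotientGroup.eq_one_iff x).2 hx]; exact one_mem _) (by
      rintro _ ⟨x, hx, rfl⟩
      refine ⟨x * x, ?_, rfl⟩
      rw [SetLike.mem_coe, ← QuotientGroup.eq_one_iff, QuotientGroup.mk_mul, ← pow_two]
      exact hA _ hx)
  rw [card_map_of_injective H.subtype_injective, card_map_of_injective H.subtype_injective,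
    H2.card_comap_mk'] at this
  exact Nat.le_of_mul_le_mul_right this (H2.card_pos' N)

end Cfsg.Agent.S1232
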