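import Cfsg.Statements.S1233
import Cfsg.Agent.S1232

set_option autoImplicit false
open Cfsg

open Subgroup QuaternionGroup

namespace Cfsg.Agent.S1233

/-- quaternion group -/
abbrev Q8 := QuaternionGroup 2
/-- the centre element -/
def zz : Q8 := a 2
/-- the diagonal modulo the centre -/
def dl : Subgroup (Q8 × Q8) where
  carrier := {x | x.2 = x.1 ∨ x.2 = x.1 * zz}
  one_mem' := Or.inl rfl
  mul_mem' := fun {x y} hx hy => by
    have : ∀ x1 x2 y1 y2 : Q8, (x2 = x1 ∨ x2 = x1 * zz) → (y2 = y1 ∨ y2 = y1 * zz) →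
      x2 * y2 = x1 * y1 ∨ x2 * y2 = x1 * y1 * zz := by
      rintro x1 _ y1 _ (rfl | rfl) (rfl | rfl) <;> decide +kernel +revert
    exact this _ _ _ _ hx hy
  inv_mem' := fun {x} hx => by
    have : ∀ x1 x2 : Q8, (x2 = x1 ∨ x2 = x1 * zz) → x2⁻¹ = x1⁻¹ ∨ x2⁻¹ = x1⁻¹ * zz := by decide +kernel
    exact this _ _ hx

/-- an automorphism of order three -/
def sg : Q8 →* Q8 := MonoidHom.mk' (fun x => match x with
  | a n => xa 0 ^ n.val
  | xa n => xa 3 * xa 0 ^ n.val) (by decide +kernel)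

theorem gen (P : Subgroup Q8) (h1 : a 1 ∈ P) (h2 : xa 0 ∈ P) (x : Q8) : x ∈ P := by
  have : ∀ x : Q8, ∃ n : Fin 4, x = a 1 ^ n.1 ∨ x = xa 0 * a 1 ^ n.1 := by decide +kernel
  obtain ⟨n, rfl | rfl⟩ := this x
  · exact pow_mem h1 _
  · exact mul_mem h2 (pow_mem h1 _)

set_option synthInstance.maxSize 4000 in
theorem sieg {S : Type*} [Group S] [Finite S] (hS : IsPGroup 2 S) (f : Q8 × Q8 →* S)
    (hk : ∀ x, f x = 1 ↔ x = 1 ∨ x = (zz, zz)) (hC : centralizer (f.range : Set S) ≤ f.range) :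
    Cfsg.SectionalPRankLE 2 4 S ∨ ∃ y : S, ∀ x, (∃ c, (c = 1 ∨ c = zz) ∧ y * f (x, 1) * y⁻¹ = f (1, x * c)) := by
  have he : ∀ x x', f x = f x' ↔ x * x'⁻¹ = 1 ∨ x * x'⁻¹ = (zz, zz) := fun x x' => by
    rw [← hk, map_mul, map_inv, mul_inv_eq_one]
  have hdl : ∀ x : Q8 × Q8, x ∈ dl ↔ ∃ u c, (c = 1 ∨ c = zz) ∧ x = (u, u * c) := fun x =>
    ⟨fun h => h.elim (fun h => ⟨x.1, 1, Or.inl rfl, Prod.ext rfl (by simpa using h)⟩)
      (fun h => ⟨x.1, zz, Or.inr rfl, Prod.ext rfl h⟩), by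
        rintro ⟨u, c, rfl | rfl, rfl⟩
        · exact Or.inl (mul_one _)
        · exact Or.inr rfl⟩
  set E := dl.map f with hE
  have E2 : ∀ x ∈ E, x * x = 1 := by
    rintro _ ⟨x, hx, rfl⟩
    obtain ⟨u, c, hc, rfl⟩ := (hdl x).1 hx
    rw [← map_mul, hk]
    clear hx
    revert u c; decide +kernel
  have Ec := H2.Hd.comm_of_sq E2
  have E8 : Nat.card E = 8 := by
    have h1 := H2.card_map_mul_card_inf_ker f dl
    have h2 : f.ker ⊓ dl = zpowers (zz, zz) := by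
      ext x
      rw [mem_inf, MonoidHom.mem_ker, hk]
      constructor
      · rintro ⟨rfl | rfl, -⟩
        exacts [one_mem _, mem_zpowers _]
      · intro h
        rcases H2.Kf.mem_zpowers_invol (by decide +kernel) h with rfl | rfl
        · exact ⟨Or.inl rfl, one_mem _⟩
        · exact ⟨Or.inr rfl, Or.inl rfl⟩
    have h3 : Nat.card dl = 16 := by
      have : Nat.card dl = Nat.card {x : Q8 × Q8 // x.2 = x.1 ∨ x.2 = x.1 * zz} := rfl
      rw [this, Nat.card_eq_fintype_card, Fintype.card_subtype]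
      decide +kernel
    rw [h2, h3, Nat.card_zpowers, orderOf_eq_prime (p := 2) (by decide +kernel) (by decide +kernel), ← hE] at h1
    omega
  by_cases hc : centralizer (E : Set S) ≤ E
  · exact Or.inl (Cfsg.Agent.S1232.result hS E ⟨⟨⟨fun a b => Subtype.ext (Ec _ a.2 _ b.2)⟩⟩,
      fun a ha => by rw [pow_two, E2 a ha]⟩ E8 (le_antisymm hc fun x hx y hy => Ec y hy x hx))
  right
  obtain ⟨⟨y, hyN⟩, hy, hyE, -, hyc⟩ := H2.Kf.step (hS.to_subgroup (normalizer (E : Set S)))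
    (E.subgroupOf _) ((centralizer (E : Set S)).subgroupOf _) (fun h => hc fun x hx =>
      h (x := ⟨x, centralizer_le_normalizer _ hx⟩) hx)
  have hy' : ∀ e ∈ E, e * y = y * e := hy
  have hN : ∀ x, f x ∈ normalizer (E : Set S) := fun x => by
    refine mem_normalizer_fintype ?_
    rintro _ ⟨d, hd, rfl⟩
    refine ⟨x * d * x⁻¹, ?_, by simp⟩
    obtain ⟨u, c, hc, rfl⟩ := (hdl d).1 hd
    obtain ⟨x1, x2⟩ := x
    show x2 * (u * c) * x2⁻¹ = x1 * u * x1⁻¹ ∨ x2 * (u * c) * x2⁻¹ = x1 * u * x1⁻¹ * zz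
    clear hd
    revert x1 x2 u c; decide +kernel
  have hp : ∀ x, ∃ u c, (c = 1 ∨ c = zz) ∧ y * f x * y⁻¹ = f ((u, u * c) * x) := fun x => by
    obtain ⟨d, hd, e⟩ : (f x * y * (f x)⁻¹ * y⁻¹)⁻¹ ∈ E := E.inv_mem (hyc ⟨_, hN x⟩)
    obtain ⟨u, c, hc, rfl⟩ := (hdl d).1 hd
    exact ⟨u, c, hc, by rw [map_mul, e]; group⟩
  obtain ⟨u, c, hc1, e1⟩ := hp (a 1, 1)
  obtain ⟨v, c', hc2, e2⟩ := hp (xa 0, 1)
  have hz : ∀ x : Q8 × Q8, x * x = (zz, 1) → ∀ x', y * f x * y⁻¹ = f x' →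
      x' * x' * (zz, 1)⁻¹ = 1 ∨ x' * x' * (zz, 1)⁻¹ = (zz, zz) := fun x hx x' h => by
    rw [← he, map_mul, ← h]
    calc y * f x * y⁻¹ * (y * f x * y⁻¹) = y * f (x * x) * y⁻¹ := by rw [map_mul]; group
      _ = _ := by rw [hx, ← hy' _ ⟨(zz, 1), Or.inr (by decide +kernel), rfl⟩]; group
  have k1 := hz _ (by decide +kernel) _ e1
  have k2 := hz _ (by decide +kernel) _ e2
  have k3 := hz ((a 1, 1) * (xa 0, 1)) (by decide +kernel) (((u, u * c) * (a 1, 1)) * ((v, v * c') * (xa 0, 1)))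
    (by rw [map_mul, map_mul f (_ * _), ← e1, ← e2]; group)
  have key : ∀ u c v c' : Q8, (c = 1 ∨ c = zz) → (c' = 1 ∨ c' = zz) → ∀ p q : Q8 × Q8,
      p = (u, u * c) * (a 1, 1) → q = (v, v * c') * (xa 0, 1) →
      (p * p * (zz, 1)⁻¹ = 1 ∨ p * p * (zz, 1)⁻¹ = (zz, zz)) →
      (q * q * (zz, 1)⁻¹ = 1 ∨ q * q * (zz, 1)⁻¹ = (zz, zz)) →
      (p * q * (p * q) * (zz, 1)⁻¹ = 1 ∨ p * q * (p * q) * (zz, 1)⁻¹ = (zz, zz)) →
      (∃ w : Q8, (p * ((w, w) * (a 1, 1) * (w, w)⁻¹)⁻¹ = 1 ∨ p * ((w, w) * (a 1, 1) * (w, w)⁻¹)⁻¹ = (zz, zz)) ∧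
        (q * ((w, w) * (xa 0, 1) * (w, w)⁻¹)⁻¹ = 1 ∨ q * ((w, w) * (xa 0, 1) * (w, w)⁻¹)⁻¹ = (zz, zz))) ∨
      ((∃ c, (c = 1 ∨ c = zz) ∧ (p * (1, a 1 * c)⁻¹ = 1 ∨ p * (1, a 1 * c)⁻¹ = (zz, zz))) ∧
        ∃ c, (c = 1 ∨ c = zz) ∧ (q * (1, xa 0 * c)⁻¹ = 1 ∨ q * (1, xa 0 * c)⁻¹ = (zz, zz))) := by
    intro u c v c' hc hc' p q hp hq
    subst hp hq
    rcases hc with rfl | rfl <;> rcases hc' with rfl | rfl <;> revert u v <;> decide +kernel
  rcases key u c v c' hc1 hc2 _ _ rfl rfl k1 k2 k3 with ⟨w, w1, w2⟩ | ⟨⟨d1, hd1, w1⟩, d2, hd2, w2⟩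
  · exfalso
    rw [← he, ← e1, map_mul, map_mul, map_inv] at w1
    rw [← he, ← e2, map_mul, map_mul, map_inv] at w2
    have hw : f (w, w) ∈ E := ⟨_, Or.inl rfl, rfl⟩
    have k : ∀ x, y * x * y⁻¹ = f (w, w) * x * (f (w, w))⁻¹ → x ∈ centralizer {(f (w, w))⁻¹ * y} := fun x h =>
      mem_centralizer_singleton_iff.2 (by
        calc x * ((f (w, w))⁻¹ * y) = (f (w, w))⁻¹ * (f (w, w) * x * (f (w, w))⁻¹) * y := by group
          _ = _ := by rw [← h]; group)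
    have h1 := gen ((centralizer {(f (w, w))⁻¹ * y}).comap (f.comp (MonoidHom.inl _ _))) (k _ w1) (k _ w2)
    obtain ⟨x, hx⟩ : (f (w, w))⁻¹ * y ∈ f.range := hC (by
      rintro _ ⟨⟨x1, x2⟩, rfl⟩
      have h2 : f (x2, x2) ∈ E := ⟨_, Or.inl rfl, rfl⟩
      have h3 := mul_mem (show f (x1 * x2⁻¹, 1) ∈ centralizer {(f (w, w))⁻¹ * y} from h1 _)
        (k (f (x2, x2)) (by rw [← hy' _ h2, Ec _ hw _ h2]; group))
      rw [← map_mul] at h3
      simpa using mem_centralizer_singleton_iff.1 h3)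
    have hy2 : y = f ((w, w) * x) := by rw [map_mul, hx]; group
    generalize (w, w) * x = x' at hy2
    have h4 : ∀ t : Q8, (t, t) * x' * (x' * (t, t))⁻¹ = 1 ∨ (t, t) * x' * (x' * (t, t))⁻¹ = (zz, zz) := fun t => by
      rw [← he, map_mul, map_mul, ← hy2]
      exact hy' _ ⟨_, Or.inl rfl, rfl⟩
    refine hyE ⟨x', ?_, hy2.symm⟩
    obtain ⟨x1, x2⟩ := x'
    show x2 = x1 ∨ x2 = x1 * zz
    clear hy2
    revert x1 x2; decide +kernel
  rw [← he, ← e1] at w1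
  rw [← he, ← e2] at w2
  let P : Subgroup Q8 :=
    { carrier := {x | ∃ c, (c = 1 ∨ c = zz) ∧ y * f (x, 1) * y⁻¹ = f (1, x * c)}
      one_mem' := ⟨1, Or.inl rfl, by rw [mul_one, Prod.mk_one_one, map_one]; group⟩
      mul_mem' := by
        rintro x x' ⟨c, hc, h⟩ ⟨c', hc', h'⟩
        refine ⟨c * c', by clear h h'; revert c c'; decide +kernel, ?_⟩
        calc y * f (x * x', 1) * y⁻¹ = (y * f (x, 1) * y⁻¹) * (y * f (x', 1) * y⁻¹) := by
              rw [show ((x * x', 1) : Q8 × Q8) = (x, 1) * (x', 1) by simp, map_mul]; group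
          _ = _ := by
              rw [h, h', ← map_mul, Prod.mk_mul_mk, mul_one, show x * c * (x' * c') = x * x' * (c * c') by
                clear h h'; revert x x' c c'; decide +kernel]
      inv_mem' := by
        rintro x ⟨c, hc, h⟩
        refine ⟨c, hc, ?_⟩
        calc y * f (x⁻¹, 1) * y⁻¹ = (y * f (x, 1) * y⁻¹)⁻¹ := by
              rw [show ((x⁻¹, 1) : Q8 × Q8) = (x, 1)⁻¹ by simp, map_inv]; group
          _ = _ := by
              rw [h, ← map_inv, Prod.inv_mk, inv_one, show (x * c)⁻¹ = x⁻¹ * c by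
                clear h; revert x c; decide +kernel] }
  exact ⟨y, gen P ⟨d1, hd1, w1⟩ ⟨d2, hd2, w2⟩⟩

/-- Let S be a finite 2-group and Q a subgroup of order 32 generated by two elementwise-commuting subgroups Q₁, Q₂ each isomorphic to the quaternion group of order 8 (so Q = Q₁ ∗ Q₂). If C_S(Q) ≤ Q, then every section of S has 2-rank at most 4. -/
theorem result {S : Type*} [Group S] [Finite S] (hS : IsPGroup 2 S) (Q Q₁ Q₂ : Subgroup S) (e₁ : Q₁ ≃* QuaternionGroup 2) (e₂ : Q₂ ≃* QuaternionGroup 2) (hcomm : ∀ a ∈ Q₁, ∀ b ∈ Q₂, a * b = b * a) (hQ : Q₁ ⊔ Q₂ = Q) (hQ32 : Nat.card Q = 32) (hC : Subgroup.centralizer (Q : Set S) ≤ Q) : Cfsg.SectionalPRankLE 2 4 S := by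
  let f₁ : Q8 →* S := Q₁.subtype.comp e₁.symm.toMonoidHom
  let f₂ : Q8 →* S := Q₂.subtype.comp e₂.symm.toMonoidHom
  have i₁ : Function.Injective f₁ := Q₁.subtype_injective.comp e₁.symm.injective
  have i₂ : Function.Injective f₂ := Q₂.subtype_injective.comp e₂.symm.injective
  have hc : ∀ x y, Commute (f₁ x) (f₂ y) := fun x y => hcomm _ (e₁.symm x).2 _ (e₂.symm y).2
  let f := f₁.noncommCoprod f₂ hc
  have hf : ∀ x, f x = f₁ x.1 * f₂ x.2 := fun _ => rfl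
  have hr : f.range = Q := by
    rw [← hQ]
    refine le_antisymm ?_ (sup_le (fun x hx => ⟨(e₁ ⟨x, hx⟩, 1), by simp [hf, f₁]⟩)
      fun x hx => ⟨(1, e₂ ⟨x, hx⟩), by simp [hf, f₂]⟩)
    rintro _ ⟨x, rfl⟩
    exact mul_mem (mem_sup_left (e₁.symm x.1).2) (mem_sup_right (e₂.symm x.2).2)
  have hk1 : ∀ x, f x = 1 → x = 1 ∨ x = (zz, zz) := by
    rintro ⟨x, y⟩ h
    rw [hf] at h
    have h1 : ∀ t, t * x = x * t := fun t => i₁ (by
      rw [map_mul, map_mul, eq_inv_of_mul_eq_one_left h]; exact (hc t y).inv_right)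
    have h2 : ∀ t, t * y = y * t := fun t => i₂ (by
      rw [map_mul, map_mul, eq_inv_of_mul_eq_one_right h]; exact (hc x t).inv_left.symm)
    have h3 : x = 1 → y = 1 := fun e => i₂ (by simpa [e] using h)
    have h4 : y = 1 → x = 1 := fun e => i₁ (by simpa [e] using h)
    clear h
    revert x y; decide +kernel
  have hk : ∀ x, f x = 1 ↔ x = 1 ∨ x = (zz, zz) := by
    refine fun x => ⟨hk1 x, ?_⟩
    rintro (rfl | rfl)
    · exact map_one _
    by_contra hne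
    have hi : Function.Injective f := (injective_iff_map_eq_one f).2 fun x hx =>
      (hk1 x hx).resolve_right fun e => hne (e ▸ hx)
    rw [← hr, ← Nat.card_congr (MonoidHom.ofInjective hi).toEquiv, Nat.card_prod, Nat.card_eq_fintype_card,
      QuaternionGroup.card] at hQ32
    omega
  rcases sieg hS f hk (hr ▸ hC) with h | ⟨y₁, h₁⟩
  · exact h
  have hr' : (f.comp ((MonoidHom.id Q8).prodMap sg)).range = Q := by
    rw [← hr]
    refine le_antisymm (by rintro _ ⟨x, rfl⟩; exact ⟨_, rfl⟩) ?_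
    rintro _ ⟨⟨x, y⟩, rfl⟩
    obtain ⟨y', rfl⟩ : ∃ y', sg y' = y := by revert y; decide +kernel
    exact ⟨(x, y'), rfl⟩
  rcases sieg hS (f.comp ((MonoidHom.id Q8).prodMap sg)) (fun x => by
    rw [MonoidHom.comp_apply, hk]
    obtain ⟨x, y⟩ := x
    show ((x, sg y) = 1 ∨ (x, sg y) = (zz, zz)) ↔ _
    revert x y; decide +kernel) (hr' ▸ hC) with h | ⟨y₂, h₂⟩
  · exact h
  exfalso
  let R : S → (Q8 → Q8) → Prop := fun g τ => ∀ x, ∃ c, (c = 1 ∨ c = zz) ∧ g * f (x, 1) * g⁻¹ = f (τ x * c, 1)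
  have r0 : R (y₁⁻¹ * y₂) sg := fun x => by
    obtain ⟨c, hc, e⟩ := h₂ x
    obtain ⟨c', hc', e'⟩ := h₁ (sg (x * c))
    have e2 : y₂ * f (x, 1) * y₂⁻¹ = f (1, sg (x * c)) := by simpa using e
    have e3 : y₁ * f (c', 1) * y₁⁻¹ = f (1, c') := by
      rcases hc' with rfl | rfl
      · rw [Prod.mk_one_one, map_one]; group
      obtain ⟨d, rfl | rfl, e⟩ := h₁ zz
      · rw [e, mul_one]
      · rw [show ((1, zz * zz) : Q8 × Q8) = 1 by decide +kernel, map_one, conj_eq_one_iff, hk] at e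
        exact absurd e (by decide +kernel)
    refine ⟨c * c', by clear e e' e2 e3; revert c c'; decide +kernel, ?_⟩
    have e4 : ((sg x * (c * c'), 1) : Q8 × Q8) = (sg (x * c), 1) * (c', 1) := by
      clear e e' e2 e3; revert x c c'; decide +kernel
    have e5 : ((1, sg (x * c)) : Q8 × Q8) = (1, sg (x * c) * c') * (1, c') := by
      clear e e' e2 e3 e4; revert x c c'; decide +kernel
    calc y₁⁻¹ * y₂ * f (x, 1) * (y₁⁻¹ * y₂)⁻¹ = y₁⁻¹ * (y₂ * f (x, 1) * y₂⁻¹) * y₁ := by group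
      _ = _ := by rw [e2, e4, e5, map_mul f, map_mul f, ← e', ← e3]; group
  have r1 : ∀ g τ τ', (∀ x c c', (c = 1 ∨ c = zz) → (c' = 1 ∨ c' = zz) → ∃ d, (d = 1 ∨ d = zz) ∧
      τ (τ x * c) * c' = τ' x * d) → R g τ → R (g * g) τ' := by
    intro g τ τ' h hr x
    obtain ⟨c, hc, e⟩ := hr x
    obtain ⟨c', hc', e'⟩ := hr (τ x * c)
    obtain ⟨d, hd, e''⟩ := h x c c' hc hc'
    exact ⟨d, hd, by rw [← e'', ← e', ← e]; group⟩
  have r2 : ∀ n, R ((y₁⁻¹ * y₂) ^ 2 ^ n) sg ∨ R ((y₁⁻¹ * y₂) ^ 2 ^ n) (fun x => sg (sg x)) := by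
    intro n
    induction n with
    | zero => left; simpa using r0
    | succ n ih =>
      rw [pow_succ, pow_mul, pow_two]
      exact ih.symm.imp (r1 _ _ _ (by decide +kernel)) (r1 _ _ _ (by decide +kernel))
  obtain ⟨n, hn⟩ := hS (y₁⁻¹ * y₂)
  have := r2 n
  rw [hn] at this
  rcases this with h | h <;>
  · obtain ⟨c, hc, e⟩ := h (a 1)
    rw [one_mul, inv_one, mul_one, ← mul_inv_eq_one, ← map_inv, ← map_mul, hk] at e
    revert c; decide +kernel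

end Cfsg.Agent.S1233
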