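import Cfsg.Statements.S1234
import Cfsg.Agent.S1232

set_option autoImplicit false
open Cfsg

open Subgroup

namespace Cfsg.Agent.S1234

/-- Let S be a finite 2-group and Q ≤ S a subgroup of order 32 having an elementary abelian subgroup E of order 16 and an involution s ∉ E whose centralizer in E has order 4 (so Q ≅ (Z₂ × Z₂) ≀ Z₂). If C_S(Z(Q)) = Q, then every section of S has 2-rank at most 4. -/
theorem result {S : Type*} [Group S] [Finite S] (hS : IsPGroup 2 S) (Q E : Subgroup S) (hEQ : E ≤ Q) (hE : Cfsg.IsElementaryAbelian 2 E) (hE16 : Nat.card E = 16) (hQ32 : Nat.card Q = 32) (s : S) (hsQ : s ∈ Q) (hsE : s ∉ E) (hs : orderOf s = 2) (hfix : Nat.card ↥(E ⊓ Subgroup.centralizer ({s} : Set S)) = 4) (hC : Subgroup.centralizer (((Subgroup.center Q).map Q.subtype : Subgroup S) : Set S) = Q) : Cfsg.SectionalPRankLE 2 4 S := by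
  have ss : s * s = 1 := by rw [← pow_two, ← hs, pow_orderOf_eq_one]
  have E2 : ∀ x ∈ E, x * x = 1 := fun x hx => by rw [← pow_two]; exact hE.2 x hx
  have Ec := H2.Hd.comm_of_sq E2
  have i1 : E.relIndex Q = 2 := by
    have := H2.card_mul_relIndex hEQ
    rw [hE16] at this
    omega
  have hQ : ∀ x ∈ Q, x ∈ E ∨ x * s⁻¹ ∈ E := fun x hx => by
    by_cases h : x ∈ E
    · exact Or.inl h
    · exact Or.inr (H9.mul_inv_mem_of_relIndex_two i1 hx hsQ h hsE)
  have hsA : s ∈ Q ⊓ centralizer {s} := ⟨hsQ, mem_centralizer_singleton_iff.2 rfl⟩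
  have hA : ∀ x ∈ Q ⊓ centralizer {s}, x ∈ E ⊓ centralizer {s} ∨ x * s⁻¹ ∈ E ⊓ centralizer {s} :=
    fun x hx => (hQ x hx.1).imp (fun h => ⟨h, hx.2⟩) fun h => ⟨h, (mul_mem hx (inv_mem hsA)).2⟩
  have A2 : ∀ x ∈ Q ⊓ centralizer {s}, x * x = 1 := fun x hx => by
    rcases hA x hx with h | h
    · exact E2 x h.1
    · have h1 : x * s = s * x := mem_centralizer_singleton_iff.1 hx.2
      calc x * x = x * s⁻¹ * (s * x) * s⁻¹ * s⁻¹ * (s * s) := by group
        _ = x * s⁻¹ * (x * s⁻¹) := by rw [← h1, ss]; group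
        _ = 1 := E2 _ h.1
  have Ac := H2.Hd.comm_of_sq A2
  refine Cfsg.Agent.S1232.result hS (Q ⊓ centralizer {s})
    ⟨⟨⟨fun a b => Subtype.ext (Ac _ a.2 _ b.2)⟩⟩, fun a ha => by rw [pow_two, A2 a ha]⟩ ?_
    (le_antisymm (fun x hx => ⟨?_, mem_centralizer_singleton_iff.2 (hx s hsA).symm⟩) fun x hx y hy => Ac y hy x hx)
  · rw [← H2.card_mul_relIndex (inf_le_inf_right _ hEQ), hfix,
      H9.relIndex_eq_two_of (A := E ⊓ centralizer {s}) hsA (fun h => hsE h.1) hA]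
  rw [← hC]
  rintro _ ⟨z, hz, rfl⟩
  have hz' : ∀ g ∈ Q, g * z = z * g := fun g hg => congrArg Subtype.val (mem_center_iff.1 hz ⟨g, hg⟩)
  exact hx z ⟨z.2, mem_centralizer_singleton_iff.2 (hz' s hsQ).symm⟩

end Cfsg.Agent.S1234
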