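import Cfsg.Statements.S1236
import Cfsg.Agent.H9.Hv3

set_option autoImplicit false
open Cfsg

namespace Cfsg.Agent.S1236

open H18 H9 Subgroup
open H22 (V4 Dih)

/-- Let R be a finite group, t a central involution of R such that R ⧸ ⟨t⟩ is dihedral (of order ≥ 4) or quasi-dihedral, and A ≤ R an elementary abelian subgroup of order 8 containing t. Then C_R(A) = A. -/
theorem result {R : Type*} [Group R] [Finite R] (t : R) (ht : orderOf t = 2) (htz : t ∈ Subgroup.center R) [(Subgroup.zpowers t).Normal] (hq : (∃ m : ℕ, 2 ≤ m ∧ Nonempty (R ⧸ Subgroup.zpowers t ≃* DihedralGroup m)) ∨ Cfsg.IsQuasiDihedral (R ⧸ Subgroup.zpowers t)) (A : Subgroup R) (hA : Cfsg.IsElementaryAbelian 2 A) (hA8 : Nat.card A = 8) (htA : t ∈ A) : Subgroup.centralizer (A : Set R) = A := by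
  have sq : ∀ a ∈ A, a * a = 1 := fun a ha => by rw [← _root_.sq]; exact hA.2 a ha
  refine le_antisymm (fun c hc => ?_) (GT.elem2 sq).abel
  set f := QuotientGroup.mk' (zpowers t)
  have h4 : Nat.card (A.map f) = 4 := by
    have := card_mul_relIndex (zpowers_le.2 htA)
    have e := relIndex_ker A f
    rw [QuotientGroup.ker_mk'] at e
    rw [card_zpowers', ht, hA8, e] at this
    omega
  have : C(A.map f) ≤ A.map f := by
    have sq' : ∀ a ∈ A.map f, a * a = 1 := by rintro _ ⟨a, ha, rfl⟩; rw [← map_mul, sq a ha, map_one]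
    rcases hq with ⟨m, -, ⟨e⟩⟩ | h
    · obtain ⟨x, -, h⟩ := H22.cd_of_dihedral (Q := ⊤) (topEquiv.trans e)
      refine four_selfcent (fun g hg g' hg' => (h g (mem_top g) hg).2 g' (mem_top _) hg') (fun g hg a ha c => ?_) h4 sq'
      have := (h (g * a) (mem_top _) fun e => hg ((mul_mem_cancel_right ha).1 e)).1
      rwa [c.symm.mul_mul_mul_comm, (h g (mem_top g) hg).1, one_mul] at this
    · obtain ⟨k, x, h, -⟩ := exists_mc_of_isQuasiDihedral_top h
      exact four_selfcent (fun g hg g' hg' => h.mul_mem_out (mem_top _) (mem_top _) hg hg') (fun g hg a ha c =>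
        by_contra fun e => hg (h.mem_zpowers_of_commute (mem_top g) ha e c)) h4 sq'
  obtain ⟨a, ha, e⟩ := this (show f c ∈ _ from mem_C.2 (by
    rintro _ ⟨a, ha, rfl⟩; rw [← map_mul, mem_C.1 hc a ha, map_mul]))
  exact (mul_mem_cancel_left (inv_mem ha)).1 (zpowers_le.2 htA (QuotientGroup.eq.1 e))

end Cfsg.Agent.S1236
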