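import Cfsg.Statements.S1237
import Cfsg.Agent.H3.Rank2b

set_option autoImplicit false
open Cfsg

namespace Cfsg.Agent.S1237

/-- Let T be a finite 2-group of 2-rank exactly 2 (it has a Klein four-subgroup but no elementary abelian subgroup of order 8) admitting an automorphism φ such that any two involutions of T are carried to one another by a power of φ. Then T ≅ Z_{2^n} × Z_{2^n} for some n ≥ 1, or T is isomorphic to a Sylow 2-subgroup of PSU(3) over the field with 16 elements. -/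
theorem result {T : Type*} [Group T] [Finite T] (hT : IsPGroup 2 T) (h2 : Cfsg.PRankLE 2 2 T) (h1 : ¬ Cfsg.PRankLE 2 1 T) (φ : MulAut T) (htrans : ∀ s t : T, orderOf s = 2 → orderOf t = 2 → ∃ k : ℕ, (φ ^ k) s = t) {F : Type*} [Field F] [Fintype F] (hF : Fintype.card F = 16) (P : Sylow 2 (Cfsg.PSU 3 F 4)) : (∃ n : ℕ, 1 ≤ n ∧ Nonempty (T ≃* Multiplicative (ZMod (2 ^ n) × ZMod (2 ^ n)))) ∨ Nonempty (T ≃* (P : Subgroup (Cfsg.PSU 3 F 4))) := by
  have inv : ∀ {x : T}, x ≠ 1 → x * x = 1 → orderOf x = 2 := fun h1 h2 => H9.orderOf_eq_two.2 ⟨h2, h1⟩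
  obtain ⟨Z, memZ, cent⟩ := H3.exists_Z_of_trans hT fun x y x1 x2 y1 y2 =>
    (htrans x y (inv x1 x2) (inv y1 y2)).elim fun k hk => ⟨_, hk⟩
  have two := fun x => (memZ x).1
  have hZ : Nat.card Z = 4 := by
    obtain ⟨n, hn⟩ := (hT.to_subgroup Z).exists_card_eq
    have h3 := H3.card_le_of_rank h2 two
    have h4 : ¬Nat.card Z ≤ 2 ^ 1 := fun h => h1 fun A _ hA =>
      (Subgroup.card_le_of_le fun a ha => (memZ a).2 ((pow_two a).symm.trans (hA a ha))).trans h
    rw [hn, Nat.pow_le_pow_iff_right one_lt_two] at h3 h4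
    rw [hn, show n = 2 by omega]; rfl
  obtain ⟨a, ha, a1⟩ := (Z.bot_or_exists_ne_one).resolve_left (by rintro rfl; simp at hZ)
  have h : φ (φ a) ≠ a := fun e => by
    have h3 : ∀ k : ℕ, (φ ^ k) a = a ∨ (φ ^ k) a = φ a := fun k => by
      induction k with
      | zero => exact Or.inl rfl
      | succ k ih => rw [pow_succ', MulAut.mul_apply]; exact ih.symm.imp (fun h => by rw [h, e]) fun h => by rw [h]
    have h4 : (Z : Set T) ⊆ {1, a, φ a} := fun x hx => by
      by_cases x1 : x = 1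
      · exact Or.inl x1
      · obtain ⟨k, rfl⟩ := htrans a x (inv a1 (two a ha)) (inv x1 (two x hx))
        exact Or.inr (h3 k)
    have h5 := (Set.ncard_le_ncard h4).trans ((Set.ncard_insert_le _ _).trans
      (Nat.succ_le_succ ((Set.ncard_insert_le _ _).trans_eq (by rw [Set.ncard_singleton]))))
    rw [← Nat.card_coe_set_eq] at h5
    exact absurd (hZ.symm.le.trans h5) (by norm_num)
  exact (H3.rank_two_trans hT memZ cent hZ φ ha h hF P).imp
    (fun ⟨e, h⟩ => ⟨e + 1, by omega, h.2.2.2.2⟩) And.right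

end Cfsg.Agent.S1237
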