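import Cfsg.Statements.S1240
import Cfsg.Agent.H3.ABG4

set_option autoImplicit false
open Cfsg

namespace Cfsg.Agent.S1240

/-- Let G be a finite group with quasi-dihedral or wreathed Sylow 2-subgroups with no subgroup of index 2 and in which all involutions are conjugate, t an involution, C = C_G(t) and C̄ = C/O(C). Then the commutator subgroup of C̄ is isomorphic to SL(2,F) for some finite field F of odd order. -/
theorem result {G : Type*} [Group G] [Finite G] (S : Sylow 2 G) (hS : Cfsg.IsQuasiDihedral (S : Subgroup G) ∨ Cfsg.IsWreathed (S : Subgroup G)) (hG : ∀ H : Subgroup G, H.index ≠ 2) (hone : ∀ a b : G, orderOf a = 2 → orderOf b = 2 → IsConj a b) (t : G) (ht : orderOf t = 2) : ∃ (F : Type) (_ : Field F) (_ : Fintype F), Odd (Fintype.card F) ∧ Nonempty (↥(commutator (↥(Subgroup.centralizer ({t} : Set G)) ⧸ Cfsg.oddCore ↥(Subgroup.centralizer ({t} : Set G)))) ≃* Matrix.SpecialLinearGroup (Fin 2) F) := by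
  open Subgroup H18 H3 in
  obtain ⟨-, T, ⟨e⟩, h1, h2, h3⟩ := abg_cent (H20.syl_top S) hS (res_eq_top hG) ht
  exact qc_sl2 (h1.mono (fun s hs => mem_C1.2 (h2.2 s hs)) le_top) (qw_equiv e hS) h3

end Cfsg.Agent.S1240
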