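import Cfsg.Statements.S1242
import Cfsg.Agent.H9.Hv2

set_option autoImplicit false
open Cfsg

namespace Cfsg.Agent.S1242

open H18 H9 Subgroup

/-- Let G be a finite group, p a prime and H a subgroup of index prime to p such that any two elements of H of p-power order that are conjugate in G are conjugate in H. Then (O^p(G)·G') ∩ H = O^p(H)·H', where O^p denotes the subgroup generated by the elements of order prime to p. -/
theorem result {G : Type*} [Group G] [Finite G] {p : ℕ} [Fact p.Prime] (H : Subgroup G) (hidx : Nat.Coprime p H.index) (hfus : ∀ g ∈ H, (∃ k : ℕ, orderOf g = p ^ k) → ∀ a : G, a * g * a⁻¹ ∈ H → ∃ h ∈ H, h * g * h⁻¹ = a * g * a⁻¹) : (Cfsg.pResidual p G ⊔ commutator G) ⊓ H = (Cfsg.pResidual p ↥H ⊔ commutator ↥H).map H.subtype := by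
  have hp : p.Prime := Fact.out
  have hi := (piNat_compl_iff hp).2 ((Nat.Prime.coprime_iff_not_dvd hp).1 hidx)
  set K := (pResidual p H ⊔ commutator H).map H.subtype with hK
  have h1 : ∀ x ∈ H, PiElt {p}ᶜ x → x ∈ K := fun x hx h => ⟨⟨x, hx⟩, mem_sup_left (subset_closure
    ((piNat_compl_iff_coprime hp).1 (orderOf_mk x hx ▸ h))), rfl⟩
  have h2 : ⁅H, H⁆ ≤ K := (map_subtype_commutator H).ge.trans (map_mono le_sup_right)
  refine le_antisymm (fun x hx => mem_of_parts ?_ (h1 _ (piPart_mem hx.2) piElt_piPart)) (le_inf ?_ (map_subtype_le _))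
  · obtain ⟨A, _, _, φ, hs, hφ⟩ := exists_comm_hom h2
    have hA : ∀ a : A, PiElt {p} a := fun a => by
      obtain ⟨a, rfl⟩ := hs a
      rw [← piPart_mul_compl (π := {p}) (x := a), map_mul, (hφ (piPart {p}ᶜ a)).2 (h1 _ (SetLike.coe_mem _)
        (by rw [PiElt, orderOf_coe]; exact piElt_piPart)), mul_one]
      exact piElt_piPart.of_dvd (orderOf_map_dvd φ _)
    have hy := piPart_mem (π := {p}) hx
    have hy' : PiElt {p} (piPart {p} x) := piElt_piPart
    generalize piPart {p} x = y at hy hy'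
    have h3 : pResidual p G ⊔ commutator G ≤ (MonoidHom.transfer φ).ker := sup_le ((closure_le _).2 fun g hg =>
      (hA _).eq_one' (((piNat_compl_iff_coprime hp).2 hg).of_dvd (orderOf_map_dvd _ g)))
      (Abelianization.commutator_subset_ker _)
    have h4 := H3.transfer_eq_pow_of_conj φ y (φ ⟨y, hy.2⟩) fun k t hk => by
      obtain ⟨h, hh, e⟩ := hfus (y ^ k) (pow_mem hy.2 k) ((hy'.pow' k).eq_pow (orderOf_pos _).ne') t⁻¹
        (by simpa using hk)
      have : (⟨t⁻¹ * y ^ k * t, hk⟩ : H) = ⟨h, hh⟩ * ⟨y, hy.2⟩ ^ k * (⟨h, hh⟩ : H)⁻¹ := Subtype.ext (by simpa using e.symm)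
      rw [this, map_mul, map_mul, map_inv, mul_inv_cancel_comm, map_pow]
    exact (hφ ⟨y, hy.2⟩).1 ((hA _).eq_one' (hi.of_dvd (orderOf_dvd_of_pow_eq_one (h4.symm.trans (h3 hy.1)))))
  · rw [hK, Subgroup.map_sup, map_subtype_commutator]
    refine sup_le_sup (map_le_iff_le_comap.2 ((closure_le _).2 fun g hg => subset_closure ?_))
      (commutator_mono le_top le_top)
    simpa using hg

end Cfsg.Agent.S1242
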