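import Cfsg.Statements.S1244
import Cfsg.Agent.H9.Hv2

set_option autoImplicit false
open Cfsg

namespace Cfsg.Agent.S1244

open H18 H9 Subgroup

/-- Let G be a finite group with no subgroup of index 2 whose Sylow 2-subgroup S is commutative, and let R ≤ S be a subgroup whose 2-rank is exactly one less than the 2-rank r of S. Then every involution of S is conjugate, by an element of N_G(S), to an element of R. -/
theorem result {G : Type*} [Group G] [Finite G] (hG : ∀ H : Subgroup G, H.index ≠ 2) (S : Sylow 2 G) (hS : IsMulCommutative (S : Subgroup G)) (r : ℕ) (hr1 : 1 ≤ r) (hSr : Cfsg.PRankLE 2 r (S : Subgroup G) ∧ ¬ Cfsg.PRankLE 2 (r - 1) (S : Subgroup G)) (R : Subgroup G) (hRS : R ≤ S) (hRr : Cfsg.PRankLE 2 (r - 1) R ∧ (r = 1 ∨ ¬ Cfsg.PRankLE 2 (r - 2) R)) (t : G) (ht : orderOf t = 2) (htS : t ∈ S) : ∃ n ∈ Subgroup.normalizer ((S : Subgroup G) : Set G), n * t * n⁻¹ ∈ R := by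
  have hp := Nat.prime_two
  have hT := hall_sylow_top hp S
  have hA := abel_of_comm hS
  by_contra! h
  have t2 := (ord2.1 ht).1
  simp only [← prank_le_iff hp, not_le] at hSr hRr
  have idx : Ω[2](R).relIndex Ω[2]((S : Subgroup G)) = 2 := relIndex_eq_of_mul (omega_mono hRS) (by
    rw [hA.card_omega hp, (hA.mono hRS).card_omega hp, ← pow_succ]; congr 1; omega)
  refine not_mem_der hp (hA.der.le.trans bot_le) S.not_dvd_index htS (by simpa using h 1 (one_mem _))
    (two_zpowers t2 |>.elt (mem_zpowers t)) (fun m a ha => ?_) (mem_der_of_two hG (hT.pi.elt htS))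
  rcases eq_one_or_eq_of_mem_zpowers t2 (npow_mem_zpowers t m) with e | e <;> rw [e] at ha ⊢
  · simp
  obtain ⟨n, hn, -, e⟩ := abel_fusion hp hT hA htS ha (isConj_iff.2 ⟨a, rfl⟩)
  exact omega_le (mul_inv_mem_of_relIndex_two idx (mem_omega ha (by rw [sq]; exact conj_sq t2 a))
    (mem_omega htS (by rw [sq]; exact t2)) (fun e' => h n hn (e ▸ omega_le e')) fun e' => h 1 (one_mem _)
      (by simpa using omega_le e'))

end Cfsg.Agent.S1244
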