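import Cfsg.Statements.S1245
import Cfsg.Agent.H1.Wg
import Cfsg.Agent.S0251

set_option autoImplicit false
open Cfsg

namespace Cfsg.Agent.S1245

open H18 H1 H22 Subgroup

theorem a4 : (∀ x y : alternatingGroup (Fin 4), x * x = 1 → y * y = 1 → x * y * (x * y) = 1) ∧
    (∀ x : alternatingGroup (Fin 4), (∀ y, y * y = 1 → y * x = x * y) → x * x = 1) ∧
    (Finset.univ.filter fun x : alternatingGroup (Fin 4) => x * x = 1).card = 4 ∧
    ∃ x : alternatingGroup (Fin 4), x * x ≠ 1 := by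
  refine ⟨?_, ?_, ?_, ?_⟩ <;> decide +kernel

theorem not_a4 {G : Type*} [Group G] [Finite G] [IsSimpleGroup G] (hG : ¬ IsMulCommutative G)
    {S E K : Subgroup G} {t : G} (h : AbS S ⊤) (tS : t ∈ S) (ht : orderOf t = 2)
    (hE : IsInternalDirectProduct (zpowers t) E C1(t)) (hK : K ⊴ E) (hc : E ⊓ C(K) = ⊥)
    (e : K ≃* alternatingGroup (Fin 4)) : False := by
  classical
  obtain ⟨f1, f2, f3, x, f4⟩ := a4
  have sq : ∀ {y : K}, e y * e y = 1 ↔ (y : G) * y = 1 := by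
    intro y; rw [← map_mul, map_eq_one_iff _ e.injective, Subtype.ext_iff]; rfl
  obtain ⟨V, mem⟩ : ∃ V : Subgroup G, ∀ y, y ∈ V ↔ y ∈ K ∧ y * y = 1 :=
    ⟨⟨⟨⟨{y | y ∈ K ∧ y * y = 1}, fun {a b} ha hb => ⟨K.mul_mem ha.1 hb.1, (sq (y := ⟨a, ha.1⟩ * ⟨b, hb.1⟩)).1
      (by rw [map_mul]; exact f1 _ _ (sq.2 ha.2) (sq.2 hb.2))⟩⟩, K.one_mem, mul_one 1⟩,
      fun {a} ha => ⟨K.inv_mem ha.1, by rw [← mul_inv_rev, ha.2, inv_one]⟩⟩, fun _ => Iff.rfl⟩
  have c4 : Nat.card V = 4 := by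
    rw [← f3, ← Fintype.card_subtype, ← Nat.card_eq_fintype_card]
    exact Nat.card_congr ⟨fun y => ⟨e ⟨y, ((mem _).1 y.2).1⟩, sq.2 ((mem _).1 y.2).2⟩,
      fun y => ⟨e.symm y, (mem _).2 ⟨(e.symm y).2, sq.1 (by simpa using y.2)⟩⟩, fun y => by simp, fun y => by simp⟩
  have cV : K ⊓ C(V) ≤ V := fun y hy => (mem _).2 ⟨hy.1, (sq (y := ⟨y, hy.1⟩)).1 (f2 _ fun z hz => by
    obtain ⟨z, rfl⟩ := e.surjective z
    rw [← map_mul, ← map_mul]
    exact congrArg e (Subtype.ext (mem_C.1 hy.2 z ((mem _).2 ⟨z.2, sq.1 hz⟩))))⟩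
  have VK : V ≤ K := fun y hy => ((mem y).1 hy).1
  have ct : zpowers t ≤ C(E) := cent_iff.2 hE.2.2.1
  have nE : E ⊴ C1(t) := hE.2.2.2.2 ▸ nml_sup_right (cent_norm ct)
  have nV : V ⊴ E := ⟨VK.trans hK.le, norm_iff.2 fun a ha b hb => (mem _).2 ⟨conj_mem hK.norm ha (VK hb), by
    calc _ = a * (b * b) * a⁻¹ := by group
      _ = 1 := by rw [((mem b).1 hb).2]; group⟩⟩
  have pV : PiGrp {2} V := piGrp_of_card_pow Nat.prime_two (n := 2) c4
  have hC := h.sub (h.le_C1 tS) le_top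
  have h1 := hC.inf_nml nE
  have VS := h1.syl.nml_le nV pV
  have oK : O'(K) = ⊥ := (pV.of_le (le_trans (le_inf pcore_le (pcore_cent_nml (nV.of_le VK hK.le)
    pV.compl_compl)) cV)).eq_bot O_odd
  have eV : S ⊓ E = V := le_antisymm (fun a ha => by
    obtain ⟨q, hq, e⟩ := h1.inner hK ha
    have : q⁻¹ * a ∈ E ⊓ C(K) := ⟨E.mul_mem (E.inv_mem hq.1.2) ha.2, mem_C.2 fun g hg =>
      (commutatorElement_eq_one_iff_mul_comm.1 (mem_bot.1 (oK ▸ e g hg))).symm⟩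
    rw [hc, mem_bot, inv_mul_eq_one] at this
    exact cV ⟨this ▸ hq.2, C_anti VS (h1.abel ha)⟩) VS
  have eS : zpowers t ⊔ V = S := by
    rw [← eV, ← Nrm2.modular_left (Or.inl (cent_norm ct)) (zpowers_le.2 tS), hE.2.2.2.2]
    exact inf_eq_left.2 hC.le
  have c : zpowers t ≤ C(V) := ct.trans (C_anti nV.le)
  have h8 : E8 S ⊤ := ⟨h, fun y hy => by
    obtain ⟨a, ha, b, hb, rfl⟩ := (mem_sup_of_cent c).1 (eS.ge hy)
    refine sq_mul ?_ ((mem b).1 hb).2 (comm_of_cent c ha hb)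
    rcases (mem_zp_sq (sq1 ht)).1 ha with rfl | rfl
    exacts [mul_one 1, sq1 ht], by
    rw [← eS, card_sup_of_cent c (eq_bot_iff.2 (hE.2.2.2.1 ▸ inf_le_inf_left _ nV.le)), card_zpowers', ht, c4]⟩
  obtain ⟨M, hM⟩ := h8.se_of_solv' hG tS (ne1 ht) (hC.solv_of_nml (eS ▸ norm_sup C1_le_N_zpowers
    (hE.2.2.2.2 ▸ sup_le (cent_norm c) nV.norm)))
  exact f4 (e.apply_symm_apply x ▸ sq.2 (h8.sq _ ((h.pe hM).cen t tS (ne1 ht) ▸ nE.le (hK.le (e.symm x).2))))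

/-- Let G be a non-abelian finite simple group with commutative Sylow 2-subgroups, and t an involution whose centralizer is the internal direct product of ⟨t⟩ and a subgroup E which has a normal subgroup E₀ ≅ PSL(2,F), |F| odd, with C_E(E₀) = 1 (so PSL(2,q) ≤ E ≤ Aut PSL(2,q)). Then C_G(t) is a maximal subgroup of G. -/
theorem result {G : Type*} [Group G] [Finite G] [IsSimpleGroup G] (hna : ¬ IsMulCommutative G) (S : Sylow 2 G) (hS : IsMulCommutative (S : Subgroup G)) (t : G) (ht : orderOf t = 2) (E E₀ : Subgroup G) (hprod : Cfsg.IsInternalDirectProduct (Subgroup.zpowers t) E (Subgroup.centralizer ({t} : Set G))) (hE₀E : E₀ ≤ E) (hE₀n : (E₀.subgroupOf E).Normal) (hE₀ : ∃ (F : Type) (_ : Field F) (_ : Fintype F), Odd (Fintype.card F) ∧ Nonempty (E₀ ≃* Matrix.ProjectiveSpecialLinearGroup (Fin 2) F)) (hCE : E ⊓ Subgroup.centralizer (E₀ : Set G) = ⊥) : IsCoatom (Subgroup.centralizer ({t}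 : Set G)) := by
  obtain ⟨F, _, _, ho, ⟨f⟩⟩ := hE₀
  obtain ⟨T, h, tS⟩ := (abS_sylow S hS).exists_mem (mem_top t) (pi2_of_sq (sq1 ht))
  have hK : E₀ ⊴ E := ⟨hE₀E, (normal_subgroupOf_iff_le_normalizer hE₀E).1 hE₀n⟩
  by_cases h3 : 3 < Fintype.card F
  · have j := jr_of ht hprod hK hCE (smp_psl h3 f) (ds_psl ho f)
    refine ((j.e8 h tS).wm hna fun M hM => j.not_solv ?_).coatom tS (ne1 ht)
    rw [(h.pe hM).cen t tS (ne1 ht)]
    exact h.abel.solv.of_le inf_le_right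
  · have := Fintype.one_lt_card (α := F)
    obtain ⟨g⟩ := S0251.result (F := F) (by obtain ⟨k, hk⟩ := ho; omega)
    exact (not_a4 hna h tS ht hprod hK hCE (f.trans g)).elim

end Cfsg.Agent.S1245
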