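import Cfsg.Statements.S1253
import Cfsg.Agent.H9.Hv2

set_option autoImplicit false
open Cfsg

namespace Cfsg.Agent.S1253

open H18 H9 Subgroup

/-- Let z be an isolated involution of the finite group G with centralizer C, p an odd prime and P a Sylow p-subgroup of G normalized by z. Then P ∩ C has p-power-free index in C (it is a Sylow p-subgroup of C), and |P : C_P(z)| equals the number of elements x ∈ P with z x z⁻¹ = x⁻¹. -/
theorem result {G : Type*} [Group G] [Finite G] (z : G) (hz : Cfsg.IsIsolatedInvolution z) {p : ℕ} [Fact p.Prime] (hp : p ≠ 2) (P : Sylow p G) (hzP : z ∈ Subgroup.normalizer ((P : Subgroup G) : Set G)) : ¬ p ∣ ((P : Subgroup G) ⊓ Subgroup.centralizer ({z} : Set G)).relIndex (Subgroup.centralizer ({z} : Set G)) ∧ ((P : Subgroup G) ⊓ Subgroup.centralizer ({z} : Set G)).relIndex (P : Subgroup G) = Nat.card {x : G // x ∈ P ∧ z * x * z⁻¹ = x⁻¹} := by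
  have hp' : p.Prime := Fact.out
  have hP := hall_sylow_top hp' P
  have z2 := (ord2.1 hz.1).1
  obtain ⟨h1, h2⟩ := iso_L hz (hP.pi.p'_of_ne hp)
  have h3 := h1.sylow_inf_cent hp' (hP.of_le le_sup_left le_top) (zpowers_le.2 hzP)
  rw [C_zpowers] at h3
  refine ⟨(piNat_compl_iff hp').1 (h3.of_idx inf_le_right ?_).idx, ?_⟩
  · rw [relIndex_inf_right, h2, ← relIndex_top_right]
    exact hP.idx_of_le le_sup_left
  · rw [relIndex_inf_left, relIndex_C1_eq z2 (H5.piNat_two_compl.1 (hP.pi.p'_of_ne hp)) hzP, inv_eq_of_mul_self z2]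
    exact (Nat.card_coe_set_eq _).symm

end Cfsg.Agent.S1253
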