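import Cfsg.Statements.S1254
import Cfsg.Agent.H9.Hv3

set_option autoImplicit false
open Cfsg

namespace Cfsg.Agent.S1254

open H18 H9 Subgroup
open H22 (V4 Dih)

/-- Let X be a finite group whose Sylow 2-subgroup S is dihedral (of order at least 4). Then X has a normal 2-complement if and only if, for every Klein four-subgroup U ≤ S, the normalizer N_X(U) is generated by C_X(U) and N_S(U). -/
theorem result {X : Type*} [Group X] [Finite X] (S : Sylow 2 X) (m : ℕ) (hm : 2 ≤ m) (eS : (S : Subgroup X) ≃* DihedralGroup m) : Cfsg.HasNormalPComplement 2 X ↔ ∀ U : Subgroup X, U ≤ S → IsKleinFour U → Subgroup.normalizer (U : Set X) = Subgroup.centralizer (U : Set X) ⊔ ((S : Subgroup X) ⊓ Subgroup.normalizer (U : Set X)) := by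
  obtain ⟨t, x, v, k, h⟩ := exists_dih_top S hm eS
  rw [hasNormalPComplement_top_iff' Nat.prime_two]
  refine ⟨fun c U hU _ => le_antisymm ?_ (sup_le C_le_N inf_le_right), fun c => H22.nilp_of_frob Nat.prime_two
    fun Q _ hQ g _ hg o => by_contra fun e => ?_⟩
  · exact (le_inf le_top le_rfl).trans (((H22.nilp_sd c h.syl).inf_norm hU).le.trans (sup_le_sup_right inf_le_right _))
  obtain ⟨a, b, d, rfl⟩ := (h.ds Q le_top hQ).four_of_not_cent hQ o.zpowers (zpowers_le.2 hg) (mt zpowers_le.1 e)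
  obtain ⟨y, -, hy⟩ := sylow_le_cj Nat.prime_two h.syl hQ le_top
  have := c _ hy (by
    rw [H22.cj_V4]
    exact klein_V4 (H22.ord2_conj d.ht y) (H22.ord2_conj d.hv y) (by rw [conj_mul, d.tv, conj_mul])
      (by simpa using d.vt))
  refine e (conj_mem_cj_iff.1 (cj_C.ge (zpowers_le.1 (PiGrp.le_of_nml (PiElt.zpowers (π := {2}ᶜ) (x := y * g * y⁻¹) (by
    rwa [PiElt, orderOf_conj'])) (zpowers_le.2 (cj_N.le (conj_mem_cj hg))) ⟨C_le_N, N_le_N_C⟩ ?_))))
  rw [compl_compl, this, Nrm2.relIndex_sup' (.inr (norm_C inf_le_right))]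
  exact h.pi.inf_left.relIndex

end Cfsg.Agent.S1254
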