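import Cfsg.Statements.S1255
import Cfsg.Agent.H9.Hv3

set_option autoImplicit false
open Cfsg

namespace Cfsg.Agent.S1255

open H18 H9 Subgroup
open H22 (V4 Dih)

/-- Let X be a finite group whose Sylow 2-subgroup S is dihedral of order 2m ≥ 4. Then X has no subgroup of index 2 and no isolated involution if and only if either all involutions of X are conjugate, or for every Klein four-subgroup U ≤ S the index |N_X(U) : C_X(U)| equals 3 when |S| = 4 and equals 6 when |S| > 4. -/
theorem result {X : Type*} [Group X] [Finite X] (S : Sylow 2 X) (m : ℕ) (hm : 2 ≤ m) (eS : (S : Subgroup X) ≃* DihedralGroup m) : ((∀ H : Subgroup X, H.index ≠ 2) ∧ (∀ z : X, ¬ Cfsg.IsIsolatedInvolution z)) ↔ ((∀ a b : X, orderOf a = 2 → orderOf b = 2 → IsConj a b) ∨ (∀ U : Subgroup X, U ≤ S → IsKleinFour U → (Subgroup.centralizer (U : Set X)).relIndex (Subgroup.normalizer (U : Set X)) = (if Nat.card S = 4 then 3 else 6))) := by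
  obtain ⟨t, x, v, k, h⟩ := exists_dih_top S hm eS
  refine ⟨fun c => .inl fun a b ha => (h.one fun M _ e => c.1 M (by rwa [relIndex_top_right] at e)).isConj ha b,
    fun c => ?_⟩
  have one : ∀ a b : X, orderOf a = 2 → orderOf b = 2 → IsConj a b := c.elim id fun c => by
    have k : ∀ a : X, orderOf a = 2 → IsConj t a := fun a ha => by
      obtain ⟨g, hg⟩ := exists_conj_mem_sylow_two (ord2.1 ha).1 S
      refine IsConj.trans ?_ (isConj_iff.2 ⟨g, rfl⟩).symm
      by_cases e : g * a * g⁻¹ = t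
      · rw [e]
      have d := h.change hg (h.not_mem_of_ord (H22.ord2_conj ha g) e)
      refine fuse_of_odd h.ht d.hv d.tv d.vt ?_
      rw [c _ d.V4_le (klein_V4 h.ht d.hv d.tv d.vt)]
      split_ifs <;> norm_num
    exact fun a b ha hb => (k a ha).symm.trans (k b hb)
  refine ⟨fun H hH => ?_, fun z hz => h.vt (isolated_eq (isolated_isConj hz (one _ _ hz.1 h.ht)) (one _ _ h.ht h.hv) h.tv)⟩
  have n := normal_of_index_eq_two hH
  have k : ∀ a b : X, orderOf a = 2 → orderOf b = 2 → a ∈ H → b ∈ H := fun a b ha hb e => by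
    obtain ⟨g, rfl⟩ := isConj_iff.1 (one a b ha hb); exact n.conj_mem a e g
  have tH : t ∈ H := by_contra fun e => e (k _ _ h.htv h.ht ((mul_mem_iff_of_index_two hH).2
    (iff_of_false e fun e' => e (k _ _ h.hv h.ht e'))))
  have hv := k _ _ h.ht h.hv tH
  refine (piNat_compl_iff Nat.prime_two).1 (h.syl.idx_of_le (K := H) ?_) (by rw [relIndex_top_right, hH])
  rw [← h.sup_eq]
  exact sup_le (zpowers_le.2 ((mul_mem_cancel_right hv).1 (k _ _ h.ht h.xv.hv tH))) (zpowers_le.2 hv)

end Cfsg.Agent.S1255
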