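import Cfsg.Statements.S1256
import Cfsg.Agent.H9.Hv3

set_option autoImplicit false
open Cfsg

namespace Cfsg.Agent.S1256

open H18 H9 Subgroup
open H22 (V4 Dih)

/-- Let X be a finite group whose Sylow 2-subgroup S is dihedral of order 2m ≥ 4. If |S| = 4, any two Klein four-subgroups of X are conjugate; if |S| > 4, there are Klein four-subgroups U₁, U₂ of X that are not conjugate, and every Klein four-subgroup of X is conjugate to U₁ or to U₂. -/
theorem result {X : Type*} [Group X] [Finite X] (S : Sylow 2 X) (m : ℕ) (hm : 2 ≤ m) (eS : (S : Subgroup X) ≃* DihedralGroup m) : (Nat.card S = 4 → ∀ U V : Subgroup X, IsKleinFour U → IsKleinFour V → (∃ x : X, U.map (MulAut.conj x).toMonoidHom = V)) ∧ (4 < Nat.card S → ∃ U₁ U₂ : Subgroup X, IsKleinFour U₁ ∧ IsKleinFour U₂ ∧ ¬ (∃ x : X, U₁.map (MulAut.conj x).toMonoidHom = U₂) ∧ ∀ V : Subgroup X, IsKleinFour V → (∃ x : X, V.map (MulAut.conj x).toMonoidHom = U₁) ∨ (∃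 x : X, V.map (MulAut.conj x).toMonoidHom = U₂)) := by
  obtain ⟨t, x, v, k, h⟩ := exists_dih_top S hm eS
  have pi : ∀ U : Subgroup X, IsKleinFour U → PiGrp {2} U := fun U hU => (GT.elem2 (klein_iff.1 hU).2).two
  refine ⟨fun h4 U V hU hV => ?_, fun h4 => ?_⟩
  · obtain ⟨g, -, e⟩ := sylow_conj Nat.prime_two (h.syl.of_card le_top (hU.card_four.trans h4.symm))
      (h.syl.of_card le_top (hV.card_four.trans h4.symm))
    exact ⟨g, e.symm⟩
  have k4 : 4 ≤ k := h.two_or'.resolve_left fun e => by have := h.card; omega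
  refine ⟨V4 t v, V4 t (x * v), klein_V4 h.ht h.hv h.tv h.vt, klein_V4 h.ht h.xv.hv h.xv.tv h.xv.vt, ?_, fun V hV => ?_⟩
  · rintro ⟨g, e⟩
    change cj g _ = _ at e
    obtain ⟨y, hy, yy, e1⟩ := h.exists_four k4
    obtain ⟨z, hz, zz, e2⟩ := h.xv.exists_four k4
    have c1 := conj_eq_self_of_C1 (h.cent (h.zp_le hy))
    have c2 := h.cent (h.zp_le hz)
    have e3 : z * (t * (x * v)) * z⁻¹ = x * v := by
      rw [← conj_mul, conj_eq_self_of_C1 c2, e2, ← mul_assoc, h.tt, one_mul]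
    have key : ∀ g, cj g (V4 t v) = V4 t (x * v) → g * t * g⁻¹ ≠ t := fun g e e' => by
      have gc := mem_C1.2 (mul_inv_eq_iff_eq_mul.1 e')
      rcases h.xv.mem_V4.1 (e.le (conj_mem_cj H22.right_mem_V4)) with f | f | f | f
      · exact conj_ne h.v1 g f
      · exact h.vt (by simpa using f.trans e'.symm)
      · exact h.not_conj ⟨mem_top g, gc⟩ f
      · exact h.not_conj ⟨mem_top _, mul_mem c2 gc⟩ (by rw [← e3, ← f]; group)
    have ny : y ∈ N(V4 t v) := H22.mem_N_V4 (c1.symm ▸ H22.left_mem_V4) (e1 ▸ H22.mul_mem_V4)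
    have nz : z ∈ N(V4 t (x * v)) := H22.mem_N_V4 ((conj_eq_self_of_C1 c2).symm ▸ H22.left_mem_V4) (e2 ▸ H22.mul_mem_V4)
    have fin : ∀ a ∈ V4 t v, g * a * g⁻¹ = t → z * (g * t * g⁻¹) * z⁻¹ = g * (y * a * y⁻¹) * g⁻¹ → False :=
      fun a ha f f' => key (g * y⁻¹ * g⁻¹ * z * g) (by
        rw [← cj_cj, ← cj_cj, e, cj_eq_self nz, ← e, cj_cj, inv_mul_cancel_right, ← cj_cj, cj_eq_self (inv_mem ny)]) (by
        calc _ = g * y⁻¹ * g⁻¹ * (z * (g * t * g⁻¹) * z⁻¹) * g * y * g⁻¹ := by group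
          _ = _ := by rw [f']; nth_rewrite 1 [← f]; group)
    have inj : ∀ a b : X, g * a * g⁻¹ = g * b * g⁻¹ → a = b := fun a b e => by simpa using e
    have e4 : y * (t * v) * y⁻¹ = v := by rw [← conj_mul, c1, e1, ← mul_assoc, h.tt, one_mul]
    have tw : t * (t * (x * v)) = x * v := by rw [← mul_assoc, h.tt, one_mul]
    have wt : x * v * (t * (x * v)) = t := by rw [h.xv.tv, ← mul_assoc, H22.sq1 h.xv.hv, one_mul]
    rcases h.xv.mem_V4.1 (e.le (conj_mem_cj H22.left_mem_V4)) with f | f | f | f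
    · exact conj_ne h.t1 g f
    · exact key g e f
    all_goals rcases h.xv.mem_V4.1 (e.le (conj_mem_cj H22.right_mem_V4)) with f' | f' | f' | f'
    · exact conj_ne h.v1 g f'
    · exact fin v H22.right_mem_V4 f' (by rw [f, e2, e1, ← conj_mul (b := g), f, f', h.xv.tv])
    · exact h.vt (inj _ _ (f'.trans f.symm))
    · exact fin _ H22.mul_mem_V4 (by rw [← conj_mul, f, f', wt]) (by rw [f, e2, e4, f'])
    · exact conj_ne h.v1 g f'
    · exact fin v H22.right_mem_V4 f' (by rw [f, e3, e1, ← conj_mul (b := g), f, f', mul_assoc, ← h.xv.tv, tw])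
    · exact fin _ H22.mul_mem_V4 (by rw [← conj_mul, f, f', mul_assoc, H22.sq1 h.xv.hv, mul_one]) (by rw [f, e3, e4, f'])
    · exact h.vt (inj _ _ (f'.trans f.symm))
  obtain ⟨g, -, hg⟩ := sylow_le_cj Nat.prime_two h.syl (pi V hV) le_top
  have h4 : Nat.card (cj g V) = 4 := card_cj.trans hV.card_four
  have sq : ∀ a ∈ cj g V, a * a = 1 := fun a ha => by
    obtain ⟨b, hb, rfl⟩ := mem_cj'.1 ha; exact conj_sq ((klein_iff.1 hV).2 b hb) g
  obtain ⟨w, hw, w1, wt⟩ : ∃ w ∈ cj g V, w ≠ 1 ∧ w ≠ t := by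
    obtain ⟨a, ha, b, hb, a1, b1, ab⟩ := GT.exists_two h4
    exact (em (a = t)).elim (fun e => ⟨b, hb, b1, e ▸ ab.symm⟩) fun e => ⟨a, ha, a1, e⟩
  have wx := h.not_mem_of_ord (ord2.2 ⟨sq w hw, w1⟩) wt
  have d := h.change (hg hw) wx
  have e : cj g V = V4 t w := eq_of_card_eq (fun a ha => d.cent_refl (hg ha) ((GT.elem2 sq).com ha hw))
    (h4.trans d.card_V4.symm)
  obtain ⟨a, ha, f⟩ := h.refl_cases (hg hw) wx
  have c := conj_eq_self_of_C1 (h.cent (h.zp_le ha))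
  refine f.imp (fun f => ⟨a⁻¹ * g, ?_⟩) fun f => ⟨a⁻¹ * g, ?_⟩ <;>
  · change cj _ _ = _
    rw [← cj_cj, e, f, ← c, ← H22.cj_V4, cj_inv_cj, c]

end Cfsg.Agent.S1256
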