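import Cfsg.Statements.S1258
import Cfsg.Agent.H17.Comp

set_option autoImplicit false
open Cfsg

namespace Cfsg.Agent.S1258

/-- If the central quotient of a finite group X is non-abelian simple, then X = X' Z(X) and the commutator subgroup X' is quasisimple. -/
theorem result {X : Type*} [Group X] [Finite X] (hs : IsSimpleGroup (X ⧸ Subgroup.center X)) (hna : ¬ IsMulCommutative (X ⧸ Subgroup.center X)) : commutator X ⊔ Subgroup.center X = ⊤ ∧ Cfsg.IsQuasisimple ↥(commutator X) := by
  open H17 Subgroup in
  have h1 : _root_.commutator X ⊔ center X = ⊤ := by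
    rw [eq_top_iff, ← map_mk'_le_map_mk'_iff, map_mk'_top, top_le_iff, _root_.commutator_def,
      map_commutator, map_mk'_top]
    exact (isQuasisimple_of_simple hna).1.commutator_eq_top
  have hc : ⁅(QuotientGroup.mk' (center X)).ker ⊓ ⊤, (⊤ : Subgroup X)⁆ = ⊥ := by
    rw [QuotientGroup.ker_mk', inf_top_eq, commutator_top_right_eq_bot_iff_le_center]
  obtain ⟨L, hL, hL2⟩ := H17.exists_isComp_map_eq (QuotientGroup.mk' (Subgroup.center X)) (H := ⊤) (K := ⊤)
    (by rw [H17.map_mk'_top]; exact .self (H17.qs_top_iff.mpr (H17.isQuasisimple_of_simple hna)))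
    (H17.commutator_eq_bot_mono hc le_rfl le_top)
  refine ⟨h1, ?_⟩
  have h2 : L ⊔ Subgroup.center X = ⊤ := by
    rw [eq_top_iff, ← H17.map_mk'_le_map_mk'_iff, hL2]; exact le_top
  have hn : L.Normal := by
    rw [← Subgroup.normalizer_eq_top_iff, eq_top_iff, ← h2]
    exact sup_le Subgroup.le_normalizer (Subgroup.center_le_normalizer _)
  have h3 : commutator X = L :=
    le_antisymm (Subgroup.Normal.commutator_le_of_self_sup_commutative_eq_top h2 inferInstance)
      (hL.perfect.symm.trans_le (Subgroup.commutator_mono le_top le_top))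
  rw [h3]; exact hL.qs

end Cfsg.Agent.S1258
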