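import Cfsg.Statements.S1263
import Cfsg.Agent.H17.Comp

set_option autoImplicit false
open Cfsg

namespace Cfsg.Agent.S1263

/-- For a finite group G, Z(E(G)) is the subgroup generated by the centres Z(L) of the components L of G (all viewed as subgroups of G). -/
theorem result {G : Type*} [Group G] [Finite G] : (Subgroup.center ↥(Cfsg.layer G)).map (Cfsg.layer G).subtype = ⨆ L : {K : Subgroup G // Cfsg.IsComponent K}, (Subgroup.center ↥(L : Subgroup G)).map (L : Subgroup G).subtype := by
  simp only [H17.map_subtype_center]
  apply le_antisymm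
  · have := H17.sSup_inf_centralizer_le (H := (⊤ : Subgroup G)) (𝒮 := {K | Cfsg.IsComponent K})
      fun K hK => H17.isComp_top_iff.mpr hK
    rw [H17.lay_top] at this
    refine this.trans (iSup₂_le fun K hK => ?_)
    exact le_iSup (fun L : {K : Subgroup G // Cfsg.IsComponent K} =>
      (L : Subgroup G) ⊓ Subgroup.centralizer ((L : Subgroup G) : Set G)) ⟨K, hK⟩
  · refine iSup_le fun L => ?_
    have hL := H17.isComp_top_iff.mpr L.2
    rw [← H17.lay_top]
    exact le_inf (inf_le_left.trans hL.le_lay) (hL.subn.inf_centralizer_le_fit.trans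
      ((H17.subn_fit ⊤).le_centralizer_lay (H17.fit_solvable ⊤)))

end Cfsg.Agent.S1263
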