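import Cfsg.Statements.S1264
import Cfsg.Agent.H17.Comp

set_option autoImplicit false
open Cfsg

namespace Cfsg.Agent.S1264

/-- Let G be finite, C = C_G(F(G)) the centralizer of the Fitting subgroup, and N a solvable subgroup of C normalized by C. Then N ≤ Z(F(G)). -/
theorem result {G : Type*} [Group G] [Finite G] (N : Subgroup G) (hN : N ≤ Subgroup.centralizer (Cfsg.fittingSubgroup G : Set G)) (hnorm : Subgroup.centralizer (Cfsg.fittingSubgroup G : Set G) ≤ Subgroup.normalizer (N : Set G)) (hsolv : Group.IsSolvable ↥N) : N ≤ (Subgroup.center ↥(Cfsg.fittingSubgroup G)).map (Cfsg.fittingSubgroup G).subtype := by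
  rw [H17.map_subtype_center]
  refine le_inf ?_ hN
  have sn : H17.Subn ⊤ N := .step hN hnorm (H17.Subn.of_normal_top _)
  have h1 : N ≤ H17.gfit ⊤ := by
    refine le_trans (le_inf le_top ?_) (H17.centralizer_gfit_le ⊤)
    rw [Subgroup.le_centralizer_iff, H17.gfit_eq, H17.fit_top]
    exact sup_le (Subgroup.le_centralizer_iff.mp (sn.le_centralizer_lay hsolv))
      (Subgroup.le_centralizer_iff.mp hN)
  rw [← H17.fit_top, ← H17.sol_inf_gfit]
  exact le_inf (sn.le_sol hsolv) h1

end Cfsg.Agent.S1264
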