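import Cfsg.Statements.S1272
import Cfsg.Agent.H17.Local

set_option autoImplicit false
open Cfsg

namespace Cfsg.Agent.S1272

/-- Let X be finite and Q = X / O_{p'}(X). For every component Kbar of Q there is a unique p-component K of X whose image in Q is Kbar; and the image of the p-layer L_{p'}(X) in Q is E(Q). -/
theorem result {X : Type*} [Group X] [Finite X] (p : ℕ) [Fact p.Prime] : (∀ Kbar : Subgroup (X ⧸ Cfsg.pPrimeCore p X), Cfsg.IsComponent Kbar → ∃! K : Subgroup X, Cfsg.IsPComponent p K ∧ K.map (QuotientGroup.mk' (Cfsg.pPrimeCore p X)) = Kbar) ∧ (Cfsg.pLayer p X).map (QuotientGroup.mk' (Cfsg.pPrimeCore p X)) = Cfsg.layer (X ⧸ Cfsg.pPrimeCore p X) := by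
  refine ⟨fun Kbar hK => ?_, H17.map_pLayer_quotient X p⟩
  have h1 : H17.IsPComp p Kbar ((⊤ : Subgroup X).map (QuotientGroup.mk' (Cfsg.pPrimeCore p X))) := by
    rw [H17.map_mk'_top]
    exact (H17.isPComp_iff_isComp (H17.oQ_top_quotient X p)).mpr (H17.isComp_top_iff.mpr hK)
  obtain ⟨L, hL, e⟩ := H17.exists_isPComp_map_eq _ h1 (H17.not_dvd_ker_mk'_inf X p ⊤)
  refine ⟨L, ⟨H17.isPComp_top_iff.mp hL, e⟩, ?_⟩
  rintro K ⟨hK', e'⟩
  have hK2 := H17.isPComp_top_iff.mpr hK'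
  symm
  refine hL.mem_of_le_sSup (𝒮 := {K}) (fun M hM => by rw [Set.mem_singleton_iff.mp hM]; exact hK2) ?_
  rw [sSup_singleton, H17.oQ_top, ← H17.map_mk'_le_map_mk'_iff, e, e']

end Cfsg.Agent.S1272
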