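import Cfsg.Statements.S1273
import Cfsg.Agent.H17.Local

set_option autoImplicit false
open Cfsg

namespace Cfsg.Agent.S1273

/-- Let K be a p-component of the finite group X and N a normal subgroup of K whose index in K is prime to p. Then N = K. -/
theorem result {X : Type*} [Group X] [Finite X] (p : ℕ) [Fact p.Prime] (K : Subgroup X) (hK : Cfsg.IsPComponent p K) (N : Subgroup ↥K) [N.Normal] (hidx : (N.index).Coprime p) : N = ⊤ := by
  have hK' := (H17.isPComp_top_iff.mpr hK).pqs
  have h1 : H17.Subn K (N.map K.subtype) := H17.subn_map_subtype_iff.mpr (Subgroup.Normal.isSubnormal ‹_›)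
  have h2 := hK'.eq_of_subn_of_not_dvd h1 (by
    rw [Subgroup.relIndex, ← Subgroup.comap_subtype, Subgroup.comap_map_eq_self_of_injective K.subtype_injective]
    exact H17.coprime_iff_not_dvd.mp hidx)
  apply Subgroup.map_injective K.subtype_injective
  rw [h2, H17.map_subtype_top]

end Cfsg.Agent.S1273
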