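import Cfsg.Statements.S1275
import Cfsg.Agent.H17.Bal

set_option autoImplicit false
open Cfsg

namespace Cfsg.Agent.S1275

/-- For a 2-component K of a finite group X, the quotient of K by its core O(K) is quasisimple. -/
theorem result {X : Type*} [Group X] [Finite X] (K : Subgroup X) (hK : Cfsg.IsPComponent 2 K) : Cfsg.IsQuasisimple (↥K ⧸ Cfsg.oddCore ↥K) := by
  have hK' := (H17.isPComp_top_iff.mpr hK).pqs
  have h1 : H17.PQS 2 (⊤ : Subgroup K) :=
    (H17.pqs_map_injective_iff K.subtype_injective).mp (by rwa [H17.map_subtype_top])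
  have h2 := h1.qs_map (QuotientGroup.mk' (Cfsg.oddCore K)) (by rw [H17.oQ_top, QuotientGroup.ker_mk'])
    (by rw [QuotientGroup.ker_mk', Cfsg.oddCore, ← H17.oQ_top]; exact h1.not_le_oQ _)
  rwa [H17.map_mk'_top, H17.qs_top_iff] at h2

end Cfsg.Agent.S1275
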