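import Cfsg.Statements.S1277
import Cfsg.Agent.H17.Bal

set_option autoImplicit false
open Cfsg

namespace Cfsg.Agent.S1277

/-- For a finite group X with core O(X): the image of E(X) in X / O(X) is all of E(X / O(X)) if and only if every 2-component of X is a component, i.e. L_{2'}(X) ≤ E(X). -/
theorem result {X : Type*} [Group X] [Finite X] : (Cfsg.layer X).map (QuotientGroup.mk' (Cfsg.oddCore X)) = Cfsg.layer (X ⧸ Cfsg.oddCore X) ↔ Cfsg.pLayer 2 X ≤ Cfsg.layer X := by
  rw [← H17.map_pLayer_quotient X 2]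
  constructor
  · intro h
    have h1 := H17.map_mk'_le_map_mk'_iff.mp h.ge
    rw [← H17.pLay_top, ← H17.lay_top]
    apply H17.pLay_le_lay_of_le
    rwa [H17.pLay_top, H17.lay_top, H17.oQ_top]
  · intro h
    refine le_antisymm ?_ (Subgroup.map_mono h)
    rw [H17.map_pLayer_quotient, ← H17.lay_top, ← H17.lay_top, ← H17.map_mk'_top]
    exact H17.map_lay_le _ _

end Cfsg.Agent.S1277
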