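import Cfsg.Statements.S1279
import Cfsg.Agent.H17.Bal

set_option autoImplicit false
open Cfsg

namespace Cfsg.Agent.S1279

/-- Let A be a noncyclic elementary abelian p-subgroup of the finite group G such that C_G(a) is solvable for every non-identity a ∈ A. Then a ↦ O_{p'}(C_G(a)) is a solvable A-signalizer functor on G. -/
theorem result {G : Type*} [Group G] [Finite G] (p : ℕ) [Fact p.Prime] (A : Subgroup G) (hA : Cfsg.IsElementaryAbelian p A) (hA2 : p ^ 2 ≤ Nat.card ↥A) (hsolv : ∀ a ∈ A, a ≠ 1 → Group.IsSolvable ↥(Subgroup.centralizer ({a} : Set G))) : Cfsg.IsSolvableSignalizerFunctor p A (fun a => Cfsg.centralizerPPrimeCore p a) := by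
  have hAa : ∀ a ∈ A, A ≤ Subgroup.centralizer {a} := fun a ha =>
    (H17.elem_le_centralizer hA).trans (H17.centralizer_le_centralizer_singleton ha)
  refine ⟨⟨fun a _ _ => H17.oQ_le p _, fun a _ _ => H17.oQ_not_dvd p _, fun a ha _ b hb x hx => ?_,
    fun a ha ha1 b hb hb1 => ?_⟩, fun a ha ha1 => H17.solvable_of_le (H17.oQ_le p _) (hsolv a ha ha1)⟩
  · exact (Subgroup.mem_normalizer_iff.mp (H17.le_normalizer_oQ p _ (hAa a ha hb)) x).mp hx
  · have h1 := H17.oQ_centralizer_le_of_solvable (hsolv b hb hb1)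
      (H17.isPGroup_zpowers_of_orderOf (H17.orderOf_eq_of_elem hA ha ha1)) (Subgroup.zpowers_le.mpr (hAa b hb ha))
    rw [← H17.centralizer_singleton_eq_zpowers] at h1
    refine le_trans ?_ h1
    exact le_trans (le_inf inf_le_left (le_inf inf_le_right (inf_le_left.trans (H17.oQ_le p _))))
      (H17.oQ_inf_le inf_le_right)

end Cfsg.Agent.S1279
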