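import Cfsg.Statements.S1282
import Cfsg.Agent.H17.SF

set_option autoImplicit false
open Cfsg

namespace Cfsg.Agent.S1282

/-- Let A be an elementary abelian p-subgroup of rank at least 3 of the finite group G, q ≠ p a prime, and Q₁, Q₂ q-subgroups normalized by A with D = Q₁ ∩ Q₂ different from both. Then there is a non-identity a ∈ A such that, for i = 1 and i = 2, N_{Q_i}(D) ∩ C_G(a) is not contained in D. -/
theorem result {G : Type*} [Group G] [Finite G] (p : ℕ) [Fact p.Prime] (A : Subgroup G) (hA : Cfsg.IsElementaryAbelian p A) (hA3 : p ^ 3 ≤ Nat.card ↥A) (q : ℕ) [Fact q.Prime] (hqp : q ≠ p) (Q₁ Q₂ : Subgroup G) (h₁ : IsPGroup q ↥Q₁) (h₂ : IsPGroup q ↥Q₂) (hA₁ : A ≤ Subgroup.normalizer (Q₁ : Set G)) (hA₂ : A ≤ Subgroup.normalizer (Q₂ : Set G)) (hD₁ : Q₁ ⊓ Q₂ ≠ Q₁) (hD₂ : Q₁ ⊓ Q₂ ≠ Q₂) : ∃ a ∈ A, a ≠ 1 ∧ ¬ (Subgroup.normalizer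 ((Q₁ ⊓ Q₂ : Subgroup G) : Set G) ⊓ Q₁ ⊓ Subgroup.centralizer {a} ≤ Q₁ ⊓ Q₂) ∧ ¬ (Subgroup.normalizer ((Q₁ ⊓ Q₂ : Subgroup G) : Set G) ⊓ Q₂ ⊓ Subgroup.centralizer {a} ≤ Q₁ ⊓ Q₂) := by
  have hp : p.Prime := Fact.out
  have hq : q.Prime := Fact.out
  have hE := H18.elem_iff.2 hA
  have p1 := H18.piGrp_of_isPGroup hq h₁
  have p2 := H18.piGrp_of_isPGroup hq h₂
  have := H17.exists_elt_norm hp hE hA3 (H1.cop_of_pi hA₁ (hE.pi hp) (p1.p'_of_ne hqp) (Or.inr p1.solv))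
    (H1.cop_of_pi hA₂ (hE.pi hp) (p2.p'_of_ne hqp) (Or.inr p2.solv)) p1.nil p2.nil hD₁ hD₂
  rwa [inf_comm Q₁ (Subgroup.normalizer _), inf_comm Q₂ (Subgroup.normalizer _)] at this

end Cfsg.Agent.S1282
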