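import Cfsg.Statements.S1286
import Cfsg.Agent.H17.Bal

set_option autoImplicit false
open Cfsg

namespace Cfsg.Agent.S1286

open Subgroup Equiv

abbrev X := Perm (Fin 5)
def s : X := swap 0 1
def t : X := swap 3 4
def c : X := swap 0 1 * swap 1 2
def d : X := swap 2 3 * swap 3 4

def sub (S : Finset X) (h1 : 1 ∈ S) (h2 : ∀ x ∈ S, ∀ y ∈ S, x * y ∈ S) (h3 : ∀ x ∈ S, x⁻¹ ∈ S) : Subgroup X where
  carrier := S
  one_mem' := h1
  mul_mem' := fun a b => h2 _ a _ b
  inv_mem' := fun a => h3 _ a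

def A : Subgroup X := sub {1, s, t, s * t} (by decide +kernel) (by decide +kernel) (by decide +kernel)
def T (a : X) : Finset X := if a = t then {1, c, c⁻¹} else if a = s then {1, d, d⁻¹} else {1}
def θ (a : X) : Subgroup X := sub (T a) (by unfold T; split_ifs <;> decide +kernel) (by unfold T; split_ifs <;> decide +kernel)
  (by unfold T; split_ifs <;> decide +kernel)

theorem mA {x : X} : x ∈ A ↔ x ∈ ({1, s, t, s * t} : Finset X) := Iff.rfl
theorem mθ {a x : X} : x ∈ θ a ↔ x ∈ T a := Iff.rfl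
theorem cθ (a : X) : Nat.card (θ a) = (T a).card := Nat.card_eq_finsetCard _

theorem comm (a : X) : ∀ x ∈ T a, ∀ y ∈ T a, x * y = y * x := by unfold T; split_ifs <;> decide +kernel

theorem sf : IsSignalizerFunctor 2 A θ := by
  refine ⟨fun a ha _ x hx => mem_centralizer_singleton_iff.2 ?_, fun a ha _ => ?_, fun a ha _ b hb x hx => ?_,
    fun a ha a1 b hb b1 x hx => ?_⟩
  · exact (by decide +kernel : ∀ a ∈ ({1, s, t, s * t} : Finset X), ∀ x ∈ T a, x * a = a * x) a ha x hx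
  · rw [cθ]
    exact (by decide +kernel : ∀ a ∈ ({1, s, t, s * t} : Finset X), ¬ 2 ∣ (T a).card) a ha
  · exact (by decide +kernel : ∀ a ∈ ({1, s, t, s * t} : Finset X), ∀ b ∈ ({1, s, t, s * t} : Finset X), ∀ x ∈ T a,
      b * x * b⁻¹ ∈ T a) a ha b hb x hx
  · exact (by decide +kernel : ∀ a ∈ ({1, s, t, s * t} : Finset X), ∀ b ∈ ({1, s, t, s * t} : Finset X), b ≠ 1 → ∀ x ∈ T a,
      x * b = b * x → x ∈ T b) a ha b hb b1 x hx.1 (mem_centralizer_singleton_iff.1 hx.2)

/-- There exist a finite group X, an elementary abelian subgroup A of order 4 and a solvable A-signalizer functor θ on X for the prime 2 which is not complete. -/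
theorem result : ∃ (X : Type) (_ : Group X) (_ : Finite X) (A : Subgroup X) (θ : X → Subgroup X), Cfsg.IsElementaryAbelian 2 A ∧ Nat.card ↥A = 4 ∧ Cfsg.IsSolvableSignalizerFunctor 2 A θ ∧ ¬ Cfsg.IsCompleteSignalizerFunctor 2 A θ := by
  refine ⟨X, inferInstance, inferInstance, A, θ, ⟨⟨⟨fun x y => Subtype.ext ?_⟩⟩, fun a ha => ?_⟩, ?_, ⟨sf, fun a _ _ => ?_⟩,
    fun ⟨_, Y, _, h2, h3⟩ => h2 ?_⟩
  · exact (by decide +kernel : ∀ a ∈ ({1, s, t, s * t} : Finset X), ∀ b ∈ ({1, s, t, s * t} : Finset X), a * b = b * a) _ x.2 _ y.2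
  · exact (by decide +kernel : ∀ a ∈ ({1, s, t, s * t} : Finset X), a ^ 2 = 1) a ha
  · exact (Nat.card_eq_finsetCard ({1, s, t, s * t} : Finset X)).trans (by decide +kernel)
  · exact Group.isSolvable_of_comm fun x y => Subtype.ext (comm a _ x.2 _ y.2)
  · have hc : c ∈ Y := ((h3 t (mA.2 (by decide +kernel)) (by decide +kernel)).ge (mθ.2 (by decide +kernel))).1
    have hd : d ∈ Y := ((h3 s (mA.2 (by decide +kernel)) (by decide +kernel)).ge (mθ.2 (by decide +kernel))).1
    have : orderOf (c * (d * c * d⁻¹)) = 2 := orderOf_eq_prime (by decide +kernel) (by decide +kernel)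
    exact this ▸ Y.orderOf_dvd_natCard (mul_mem hc (mul_mem (mul_mem hd hc) (inv_mem hd)))

end Cfsg.Agent.S1286
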