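import Cfsg.Statements.S1289
import Cfsg.Agent.H17.Local

set_option autoImplicit false
open Cfsg

namespace Cfsg.Agent.S1289

/-- A p-component K of the finite group X is subnormal, perfect, of order divisible by p, and minimal among the subnormal perfect subgroups of X of order divisible by p. -/
theorem result {X : Type*} [Group X] [Finite X] (p : ℕ) [Fact p.Prime] (K : Subgroup X) (hK : Cfsg.IsPComponent p K) : K.IsSubnormal ∧ ⁅K, K⁆ = K ∧ p ∣ Nat.card ↥K ∧ ∀ H : Subgroup X, H ≤ K → H.IsSubnormal → ⁅H, H⁆ = H → p ∣ Nat.card ↥H → H = K := by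
  have hK' := H17.isPComp_top_iff.mpr hK
  refine ⟨hK.1, hK'.perfect, hK'.pqs.dvd, fun H hH hs hp hd => ?_⟩
  rcases hK'.pqs.subn ((H17.subn_top_iff.mpr hs).mono hH le_top) with h | h
  · exact h
  · exact absurd hd (H17.not_dvd_card_of_le (hp.ge.trans ((Subgroup.commutator_mono le_rfl hH).trans h))
      (H17.oQ_not_dvd p K))

end Cfsg.Agent.S1289
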