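import Cfsg.Statements.S1299
import Cfsg.Agent.H17.KBal

set_option autoImplicit false
open Cfsg

namespace Cfsg.Agent.S1299

open H17 H18 Subgroup

/-- Let G be finite and k-balanced for the prime p (k ≥ 1), A an elementary abelian p-subgroup of order at least p^(k+2) such that O_{p'}(C_G(a)) is solvable for every non-identity a ∈ A. For a ∈ A put θ a = the subgroup generated by the Δ_G(D) ∩ C_G(a) over the subgroups D ≤ A of order p^k. Then θ is an A-signalizer functor. -/
theorem result {G : Type*} [Group G] [Finite G] (p k : ℕ) [Fact p.Prime] (hk : 1 ≤ k) (hbal : Cfsg.IsKBalanced p k G) (A : Subgroup G) (hA : Cfsg.IsElementaryAbelian p A) (hAk : p ^ (k + 2) ≤ Nat.card ↥A) (hsolv : ∀ a ∈ A, a ≠ 1 → Group.IsSolvable ↥(Cfsg.centralizerPPrimeCore p a)) : Cfsg.IsSignalizerFunctor p A (fun a => ⨆ D : {D : Subgroup G // D ≤ A ∧ Nat.card ↥D = p ^ k}, Cfsg.signalizerDelta p (D : Subgroup G) ⊓ Subgroup.centralizer {a}) := by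
  have hp : p.Prime := Fact.out
  have he := H18.elem_iff.2 hA
  have h : IsKBalancedWrt p k A := fun B hB eB c a ha a1 => by
    obtain ⟨D, l, e⟩ := exists_sub_pow hp (he.of_le hB) c
    exact (inf_le_inf_right _ (delta_anti l)).trans (hbal D (he.of_le (l.trans hB)).isElem e a (he.orderOf hp ha a1)
      fun d hd => comm_of_cent he.abel (hB (l hd)) ha)
  have e : (fun a => ⨆ D : {D : Subgroup G // D ≤ A ∧ Nat.card ↥D = p ^ k}, signalizerDelta p (D : Subgroup G) ⊓ C1(a)) =
      kBalancedTheta p k A := funext fun a => by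
    refine le_antisymm (iSup_le fun D => le_iSup_of_le ⟨D, D.2.1, (he.of_le D.2.1).isElem, D.2.2.ge⟩ le_rfl)
      (iSup_le fun B => ?_)
    obtain ⟨D, l, e⟩ := exists_sub_pow hp (he.of_le B.2.1) B.2.2.2
    exact le_iSup_of_le ⟨D, l.trans B.2.1, e⟩ (inf_le_inf_right _ (delta_anti l))
  rw [e]
  exact (kTheta_sf h hk he hAk fun a ha a1 => Solv.of_le (hsolv a ha a1) (kTheta_le h ha a1)).isSF

end Cfsg.Agent.S1299
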