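import Cfsg.Statements.S1304
import Mathlib.Tactic.Group

set_option autoImplicit false
open Cfsg

namespace Cfsg.Agent.S1304

open scoped commutatorElement

/-- Let X be a perfect group and α an automorphism of X with α(x) x⁻¹ central for every x. Then α is the identity. -/
theorem result {X : Type*} [Group X] (hperf : commutator X = ⊤) (α : X ≃* X) (h : ∀ x : X, α x * x⁻¹ ∈ Subgroup.center X) : ∀ x : X, α x = x := by
  have key : ∀ a b : X, α ⁅a, b⁆ = ⁅a, b⁆ := by
    intro a b
    have ha := Subgroup.mem_center_iff.mp (h a)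
    have hb := Subgroup.mem_center_iff.mp (h b)
    obtain ⟨z, hz⟩ : ∃ z, α a = z * a := ⟨α a * a⁻¹, by group⟩
    obtain ⟨w, hw⟩ : ∃ w, α b = w * b := ⟨α b * b⁻¹, by group⟩
    rw [hz, mul_inv_cancel_right] at ha
    rw [hw, mul_inv_cancel_right] at hb
    rw [map_commutatorElement, hz, hw, commutatorElement_def, commutatorElement_def]
    calc z * a * (w * b) * (z * a)⁻¹ * (w * b)⁻¹
        = z * (a * w * (b * a⁻¹)) * z⁻¹ * b⁻¹ * w⁻¹ := by group
      _ = (a * w * (b * a⁻¹)) * z * z⁻¹ * b⁻¹ * w⁻¹ := by rw [← ha]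
      _ = (a * w) * (b * a⁻¹ * b⁻¹) * w⁻¹ := by group
      _ = w * (a * (b * a⁻¹ * b⁻¹)) * w⁻¹ := by rw [hb a]; group
      _ = (a * (b * a⁻¹ * b⁻¹)) * w * w⁻¹ := by rw [← hb]
      _ = _ := by group
  intro x
  have hx : x ∈ commutator X := hperf ▸ Subgroup.mem_top x
  have : commutator X ≤ (α : X →* X).eqLocus (MonoidHom.id X) :=
    Subgroup.commutator_le.mpr fun a _ b _ => key a b
  exact this hx

end Cfsg.Agent.S1304
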