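import Cfsg.Statements.S1306
import Cfsg.Agent.H17.Bal

set_option autoImplicit false
open Cfsg

namespace Cfsg.Agent.S1306

/-- Let G be finite, x an involution and L ≤ C_G(x) a component of C_G(x). Suppose L is a component of C_G(y) for every involution y ∈ C_G(L), and ⁅L, g L g⁻¹⁆ ≠ 1 whenever g L g⁻¹ ≠ L. Then L is a standard subgroup of G. -/
theorem result {G : Type*} [Group G] [Finite G] (x : G) (hx : orderOf x = 2) (L : Subgroup G) (hLx : L ≤ Subgroup.centralizer ({x} : Set G)) (hL : Cfsg.IsComponent (L.subgroupOf (Subgroup.centralizer ({x} : Set G)))) (hne : ∀ y : G, orderOf y = 2 → y ∈ Subgroup.centralizer (L : Set G) → L ≤ Subgroup.centralizer ({y} : Set G) ∧ Cfsg.IsComponent (L.subgroupOf (Subgroup.centralizer ({y} : Set G)))) (hnc : ∀ g : G, L.map (MulAut.conj g).toMonoidHom ≠ L → ⁅L, L.map (MulAut.conj g).toMonoidHom⁆ ≠ ⊥) : Cfsg.IsStandardSubgroup L := by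
  have key : ∀ g y : G, orderOf y = 2 → y ∈ Subgroup.centralizer (L : Set G) →
      y ∈ H17.cj g (Subgroup.centralizer (L : Set G)) → g ∈ Subgroup.normalizer (L : Set G) := by
    intro g y hy h1 h2
    have c1 := H17.isComp_iff.mpr (hne y hy h1)
    have hy' : orderOf (g⁻¹ * y * g) = 2 := by
      rw [← hy]; simpa using (MulAut.conj g⁻¹).orderOf_eq y
    have c2 := (H17.isComp_iff.mpr (hne _ hy' (H17.mem_cj.mp h2))).cj g
    rw [H17.cj_centralizer_singleton, show g * (g⁻¹ * y * g) * g⁻¹ = y by group] at c2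
    rw [H17.mem_normalizer_iff_cj]
    by_contra hn
    exact hnc g hn ((c1.eq_or_commutator c2).resolve_left (Ne.symm hn))
  have hxL : x ∈ Subgroup.centralizer (L : Set G) := fun l hl =>
    Subgroup.mem_centralizer_singleton_iff.mp (hLx hl)
  refine ⟨(H17.isComp_iff.mpr ⟨hLx, hL⟩).qs, ⟨?_, fun g hg => ?_⟩, hnc, ?_⟩
  · exact even_iff_two_dvd.mpr (hx ▸ H17.orderOf_dvd_card_of_mem hxL)
  · rw [← Nat.not_even_iff_odd, even_iff_two_dvd]
    intro h
    obtain ⟨y, hy, hy2⟩ := H17.exists_orderOf_eq_of_dvd h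
    exact hg (H17.normalizer_le_normalizer_centralizer L (key g y hy2 hy.1 hy.2))
  · refine le_antisymm (H17.normalizer_le_normalizer_centralizer L) fun g hg => key g x hx hxL ?_
    rwa [H17.mem_normalizer_iff_cj.mp hg]

end Cfsg.Agent.S1306
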