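import Cfsg.Statements.S1315
import Cfsg.Agent.H23.IS2

set_option autoImplicit false
open Cfsg

namespace Cfsg.Agent.S1315

open H17 H17.IS23 Subgroup
open scoped commutatorElement

theorem sl_cen {F : Type} [Field F] (x : Matrix.SpecialLinearGroup (Fin 2) F) (hx : x ∈ center _) : x * x = 1 := by
  obtain ⟨r, hr, e⟩ := Matrix.SpecialLinearGroup.mem_center_iff.1 hx
  apply Subtype.ext
  rw [Matrix.SpecialLinearGroup.coe_mul, ← e, ← map_mul, ← sq, show r ^ 2 = 1 by simpa using hr, map_one]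
  rfl

theorem cen_of_equiv {X Y : Type*} [Group X] [Group Y] (e : X ≃* Y) (h : ∀ y ∈ center Y, y * y = 1) :
    ∀ x ∈ center X, x * x = 1 := fun x hx => e.injective (by
  rw [map_mul, map_one]
  refine h _ (mem_center_iff.2 fun y => ?_)
  obtain ⟨y, rfl⟩ := e.surjective y
  rw [← map_mul, mem_center_iff.1 hx, map_mul])

theorem cen_of_card {X : Type*} [Group X] (h : Nat.card (center X) = 2) : ∀ x ∈ center X, x * x = 1 := fun x hx => by
  have := pow_card_eq_one' (G := center X) (x := ⟨x, hx⟩)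
  rw [h, sq] at this
  exact congrArg Subtype.val this

theorem fc {G : Type*} [Group G] [Finite G] {J : Subgroup G} {t : G}
    (hz : t ∈ J ∧ orderOf t = 2 ∧ ∀ s ∈ J, orderOf s = 2 → s = t)
    (hJ : J ≤ centralizer ({t} : Set G) ∧ IsPComponent 2 (J.subgroupOf (centralizer ({t} : Set G))))
    (h : ∀ x ∈ center (J ⧸ oddCore J), x * x = 1) : FC J t := by
  have c := isPComp_iff.2 hJ
  refine ⟨⟨c.pqs, hz.1, hz.2.1, fun s hs e => (em _).imp_right fun n => hz.2.2 s hs (ord_two e n), fun b hb e => ?_⟩, c.subn⟩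
  have := h (QuotientGroup.mk ⟨b, hb⟩) (mem_center_iff.2 fun y => by
    obtain ⟨y, rfl⟩ := QuotientGroup.mk_surjective y
    rw [eq_comm, ← commutatorElement_eq_one_iff_mul_comm, ← QuotientGroup.mk'_apply, ← QuotientGroup.mk'_apply,
      ← map_commutatorElement, QuotientGroup.mk'_apply, QuotientGroup.eq_one_iff, oddCore, ← oQ_subgroupOf, mem_subgroupOf]
    exact e (commutator_mem_commutator (mem_zpowers b) y.2))
  rw [← QuotientGroup.mk_mul, QuotientGroup.eq_one_iff, oddCore, ← oQ_subgroupOf, mem_subgroupOf] at this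
  exact this

/-- Let G be finite and J ≠ K subgroups, each containing exactly one involution, z(J) resp. z(K), each a 2-component of the centralizer of its involution, with J / O(J) and K / O(K) both isomorphic to SL(2, F) for one finite field F of odd order, or both non-split double covers of A7. Then (i) every 2-element of K of order at least 4 centralizing z(J) normalizes J; (ii) if z(J) normalizes K then z(K) normalizes J. -/
theorem result {G : Type*} [Group G] [Finite G] (J K : Subgroup G) (hJK : J ≠ K) (zJ zK : G) (hzJ : zJ ∈ J ∧ orderOf zJ = 2 ∧ ∀ t ∈ J, orderOf t = 2 → t = zJ) (hzK : zK ∈ K ∧ orderOf zK = 2 ∧ ∀ t ∈ K, orderOf t = 2 → t = zK) (hJ : J ≤ Subgroup.centralizer ({zJ} : Set G) ∧ Cfsg.IsPComponent 2 (J.subgroupOf (Subgroup.centralizer ({zJ} : Set G)))) (hK : K ≤ Subgroup.centralizer ({zK} : Set G) ∧ Cfsg.IsPComponent 2 (K.subgroupOf (Subgroup.centralizer ({zK} : Set G)))) (htype : (∃ (F : Type) (_ : Field F) (_ : Fintype F),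 Odd (Fintype.card F) ∧ Nonempty (↥J ⧸ Cfsg.oddCore ↥J ≃* Matrix.SpecialLinearGroup (Fin 2) F) ∧ Nonempty (↥K ⧸ Cfsg.oddCore ↥K ≃* Matrix.SpecialLinearGroup (Fin 2) F)) ∨ (Cfsg.IsNonsplitDoubleCover (↥J ⧸ Cfsg.oddCore ↥J) ↥(alternatingGroup (Fin 7)) ∧ Cfsg.IsNonsplitDoubleCover (↥K ⧸ Cfsg.oddCore ↥K) ↥(alternatingGroup (Fin 7)))) : (∀ y ∈ K, IsPGroup 2 ↥(Subgroup.zpowers y) → 4 ≤ orderOf y → y * zJ = zJ * y → y ∈ Subgroup.normalizer (J : Set G)) ∧ (zJ ∈ Subgroup.normalizer (K : Set G) → zK ∈ Subgroup.normalizer (J : Set G)) := by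
  have : FC J zJ ∧ FC K zK := by
    rcases htype with ⟨F, _, _, -, ⟨e1⟩, ⟨e2⟩⟩ | ⟨h1, h2⟩
    · exact ⟨fc hzJ hJ (cen_of_equiv e1 sl_cen), fc hzK hK (cen_of_equiv e2 sl_cen)⟩
    · exact ⟨fc hzJ hJ (cen_of_card h1.1), fc hzK hK (cen_of_card h2.1)⟩
  refine ⟨fun y hy e o c => main1 this.1 this.2 hy (E2.of_mem e (mem_zpowers y)) (fun h => ?_)
    (mem_centralizer_singleton_iff.2 c), main2 this.1 this.2⟩
  have := orderOf_le_of_pow_eq_one two_pos ((sq y).trans h)
  omega

end Cfsg.Agent.S1315
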