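import Cfsg.Statements.S1316
import Cfsg.Agent.H17.Comp

set_option autoImplicit false
open Cfsg

namespace Cfsg.Agent.S1316

/-- For a finite group X, E(X) equals the intersection of the derived series of F*(X) (its last term). -/
theorem result {X : Type*} [Group X] [Finite X] : (⨅ n : ℕ, (derivedSeries ↥(Cfsg.generalizedFittingSubgroup X) n).map (Cfsg.generalizedFittingSubgroup X).subtype) = Cfsg.layer X := by
  set F := Cfsg.generalizedFittingSubgroup X with hF
  have hE : Cfsg.layer X ≤ F := le_sup_left
  apply le_antisymm
  · have hs : Group.IsSolvable (F.map (QuotientGroup.mk' (Cfsg.layer X))) := by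
      rw [hF, Cfsg.generalizedFittingSubgroup, Subgroup.map_sup, H17.map_mk'_eq_bot_iff.mpr le_rfl, bot_sup_eq]
      exact H17.solvable_map _ (H17.solvable_of_nilpotent (H17.fittingSubgroup_nilpotent X))
    obtain ⟨n, hn⟩ := hs.solvable
    refine (iInf_le _ n).trans ?_
    have := map_derivedSeries_le_derivedSeries ((QuotientGroup.mk' (Cfsg.layer X)).subgroupMap F) n
    rw [hn, le_bot_iff, Subgroup.map_eq_bot_iff] at this
    rintro _ ⟨x, hx, rfl⟩
    have h2 := congrArg Subtype.val (MonoidHom.mem_ker.mp (this hx))
    exact (QuotientGroup.eq_one_iff _).mp h2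
  · refine le_iInf fun n => ?_
    induction n with
    | zero => rw [derivedSeries_zero, ← MonoidHom.range_eq_map, Subgroup.range_subtype]; exact hE
    | succ n ih =>
      rw [derivedSeries_succ, Subgroup.map_commutator]
      have := H17.lay_perfect (⊤ : Subgroup X)
      rw [H17.lay_top] at this
      exact this.symm.trans_le (Subgroup.commutator_mono ih ih)

end Cfsg.Agent.S1316
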