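import Cfsg.Statements.S1319
import Cfsg.Agent.H17.Comp

set_option autoImplicit false
open Cfsg

namespace Cfsg.Agent.S1319

/-- Let A be a subnormal subgroup of the finite group X with E(A) = A. Then A ≤ E(X) and A is normal in E(X). -/
theorem result {X : Type*} [Group X] [Finite X] (A : Subgroup X) (hsn : A.IsSubnormal) (hA : Cfsg.layer ↥A = ⊤) : A ≤ Cfsg.layer X ∧ (A.subgroupOf (Cfsg.layer X)).Normal := by
  have sn := H17.subn_top_iff.mpr hsn
  have h1 : H17.lay A = A := by rw [H17.lay, hA, ← MonoidHom.range_eq_map, Subgroup.range_subtype]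
  rw [← H17.lay_top]
  exact ⟨h1 ▸ sn.lay_le_lay, Subgroup.normal_subgroupOf_of_le_normalizer (H17.lay_le_normalizer_subn sn)⟩

end Cfsg.Agent.S1319
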