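import Cfsg.Statements.S1321
import Cfsg.Agent.H17.Comp

set_option autoImplicit false
open Cfsg

namespace Cfsg.Agent.S1321

/-- Let X be finite and U ≤ X. Then E(X) is generated by C_{E(X)}(U) together with ⁅E(X), U⁆ (indeed it is their product, ⁅E(X), U⁆ being normal in E(X)). -/
theorem result {X : Type*} [Group X] [Finite X] (U : Subgroup X) : Cfsg.layer X = (Cfsg.layer X ⊓ Subgroup.centralizer (U : Set X)) ⊔ ⁅Cfsg.layer X, U⁆ ∧ ⁅Cfsg.layer X, U⁆ ≤ Cfsg.layer X := by
  have h0 : ⁅Cfsg.layer X, U⁆ ≤ Cfsg.layer X := Subgroup.commutator_le_left _ _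
  refine ⟨le_antisymm ?_ (sup_le inf_le_left h0), h0⟩
  rw [← H17.lay_top] at *
  refine H17.lay_le_iff.mpr fun K hK => ?_
  rcases hK.le_or_commutator le_top (hK.le_lay.trans (Subgroup.normalizer_commutator_ge_left _ U)) with h | h
  · exact le_sup_of_le_right h
  · refine le_sup_of_le_left (le_inf hK.le_lay ?_)
    rw [← Subgroup.commutator_eq_bot_iff_le_centralizer, Subgroup.commutator_comm]
    refine H17.commutator_eq_bot_of_perfect hK.perfect (H17.commutator_eq_bot_mono h ?_ le_rfl)
    rw [Subgroup.commutator_comm]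
    exact Subgroup.commutator_mono hK.le_lay le_rfl

end Cfsg.Agent.S1321
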