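import Cfsg.Statements.S1325
import Cfsg.Agent.H17.Comp

set_option autoImplicit false
open Cfsg

namespace Cfsg.Agent.S1325

/-- Let X be finite and Y a normal subgroup containing F(X) with C_X(Y) ≤ Y. Then F*(X) ≤ Y. -/
theorem result {X : Type*} [Group X] [Finite X] (Y : Subgroup X) [Y.Normal] (hF : Cfsg.fittingSubgroup X ≤ Y) (hC : Subgroup.centralizer (Y : Set X) ≤ Y) : Cfsg.generalizedFittingSubgroup X ≤ Y := by
  refine sup_le ?_ hF
  rw [← H17.lay_top]
  refine H17.lay_le_iff.mpr fun K hK => ?_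
  refine (hK.le_or_commutator_subn (H17.Subn.of_normal_top Y)).elim id fun h => le_trans ?_ hC
  exact Subgroup.le_centralizer_iff.mp (Subgroup.commutator_eq_bot_iff_le_centralizer.mp h)

end Cfsg.Agent.S1325
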