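import Cfsg.Statements.S1326
import Cfsg.Agent.H17.Comp

set_option autoImplicit false
open Cfsg

namespace Cfsg.Agent.S1326

/-- For a finite group X: the Fitting subgroup contains its centralizer if and only if the layer of X is trivial. -/
theorem result {X : Type*} [Group X] [Finite X] : Subgroup.centralizer (Cfsg.fittingSubgroup X : Set X) ≤ Cfsg.fittingSubgroup X ↔ Cfsg.layer X = ⊥ := by
  rw [← H17.lay_top, ← H17.fit_top]
  refine ⟨fun h => ?_, fun h => le_trans (le_inf le_top le_rfl) (H17.centralizer_fit_le_of_lay_eq_bot h)⟩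
  refine H17.eq_bot_of_perfect_of_solvable (H17.solvable_of_le ?_ (H17.fit_solvable ⊤)) (H17.lay_perfect ⊤)
  exact (Subgroup.commutator_eq_bot_iff_le_centralizer.mp (H17.commutator_lay_fit ⊤)).trans h

end Cfsg.Agent.S1326
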