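import Cfsg.Statements.S1328
import Cfsg.Agent.H17.FStar

set_option autoImplicit false
open Cfsg

namespace Cfsg.Agent.S1328

/-- Let G be finite, H ≤ G with O(H) = 1, t an involution of G normalizing H, and Y a nontrivial subgroup of O(C_H(t)). Then some component E of H is normalized by t and by Y and centralized by neither t nor Y. -/
theorem result {G : Type*} [Group G] [Finite G] (H : Subgroup G) (hO : Cfsg.oddCore ↥H = ⊥) (t : G) (ht : orderOf t = 2) (htH : t ∈ Subgroup.normalizer (H : Set G)) (Y : Subgroup G) (hY1 : Y ≠ ⊥) (hY : Y ≤ (Cfsg.oddCore ↥(H ⊓ Subgroup.centralizer ({t} : Set G))).map (H ⊓ Subgroup.centralizer ({t} : Set G)).subtype) : ∃ E : Subgroup ↥H, Cfsg.IsComponent E ∧ (E.map H.subtype).map (MulAut.conj t).toMonoidHom = E.map H.subtype ∧ Y ≤ Subgroup.normalizer ((E.map H.subtype : Subgroup G) : Set G) ∧ ¬ (t ∈ Subgroup.centralizer ((E.map H.subtype : Subgroup G) : Set G)) ∧ ¬ (Y ≤ Subgroup.centralizer ((E.map H.subtype : Subgroup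 G) : Set G)) := by
  set M := H ⊔ Subgroup.zpowers t with hM
  have hn : Subgroup.zpowers t ≤ Subgroup.normalizer (H : Set G) := Subgroup.zpowers_le.mpr htH
  have hMH : M ≤ Subgroup.normalizer (H : Set G) := sup_le Subgroup.le_normalizer hn
  have hs : H17.Subn M H := .of_normal le_sup_left hMH
  have hO1 : H17.oQ 2 H = ⊥ := (congrArg (Subgroup.map H.subtype) hO).trans (Subgroup.map_bot _)
  have hO2 : H17.oQ 2 M = ⊥ := by
    rw [← inf_eq_left.mpr (H17.le_of_le_sup_pgroup (H17.oQ_not_dvd 2 M) (H17.isPGroup_zpowers_of_orderOf ht)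
      (H17.oQ_le 2 M) hn), ← hs.oQ_eq, hO1]
  have htM : t ∈ M := Subgroup.mem_sup_right (Subgroup.mem_zpowers t)
  have hY2 : Y ≤ H17.oQ 2 (M ⊓ Subgroup.centralizer {t}) := hY.trans (H17.Subn.oQ_le_oQ (.of_normal
    (inf_le_inf_right _ le_sup_left) (H17.le_normalizer_inf (inf_le_left.trans hMH)
      (inf_le_right.trans Subgroup.le_normalizer))))
  obtain ⟨L, hL, hLY⟩ : ∃ L, H17.IsComp L H ∧ ⁅L, Y⁆ ≠ ⊥ := by
    by_contra! hc
    exact hY1 (H17.eq_bot_of_centralizes_comps hO1 (hY.trans ((H17.oQ_le 2 _).trans inf_le_left))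
      (H17.not_dvd_card_of_le hY (H17.oQ_not_dvd 2 _)) (hY.trans (H17.oQ_centralizer_le_centralizer_oP ht htH)) hc)
  have hLM := hL.of_subn hs
  have h1 : ⁅L, Subgroup.zpowers t⁆ = L := by
    by_contra hc
    exact hLY (H17.commutator_eq_bot_mono (hLM.commutator_oQ_centralizer hO2 htM ht hc) le_rfl hY2)
  refine ⟨L.subgroupOf H, (H17.isComp_iff.mp hL).2, ?_⟩
  rw [Subgroup.map_subgroupOf_eq_of_le hL.le]
  refine ⟨H17.mem_normalizer_iff_cj.mp (H17.mem_normalizer_of_commutator_eq h1),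
    hY2.trans (H17.oQ_centralizer_le_normalizer_comp hO2 hLM ht htM), fun h => hL.ne_bot (h1.symm.trans ?_),
    fun h => hLY (H17.commutator_eq_bot_of_le_centralizer' h)⟩
  exact H17.commutator_eq_bot_of_le_centralizer' (Subgroup.zpowers_le.mpr h)

end Cfsg.Agent.S1328
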