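import Cfsg.Statements.S1329
import Cfsg.Agent.H4.FN

set_option autoImplicit false
open Cfsg

namespace Cfsg.Agent.S1329

/-- Let A be an abelian 2-subgroup of the finite group G, B ≤ A, and Y a subgroup of odd order normalized by A with ⁅Y, A⁆ = Y. Then Y ∩ C_G(B) is generated by the subgroups Y ∩ C_G(B) ∩ ⁅Y ∩ C_G(B₀), A⁆, B₀ ranging over the subgroups of B with B / B₀ cyclic. -/
theorem result {G : Type*} [Group G] [Finite G] (A B Y : Subgroup G) (hA2 : IsPGroup 2 ↥A) (hAc : IsMulCommutative ↥A) (hB : B ≤ A) (hYodd : Odd (Nat.card ↥Y)) (hAY : A ≤ Subgroup.normalizer (Y : Set G)) (hYA : ⁅Y, A⁆ = Y) : Y ⊓ Subgroup.centralizer (B : Set G) = ⨆ B₀ : {B₀ : Subgroup G // B₀ ≤ B ∧ ∀ [(B₀.subgroupOf B).Normal], IsCyclic (↥B ⧸ B₀.subgroupOf B)}, Y ⊓ Subgroup.centralizer (B : Set G) ⊓ ⁅Y ⊓ Subgroup.centralizer ((B₀ : Subgroup G) : Set G), A⁆ := by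
  refine le_antisymm ?_ (iSup_le fun _ => inf_le_left)
  refine (inf_le_inf_right _ hYA.ge).trans (H4.Gs.cent_comm_cyc hA2 (H18.abel_of_comm hAc) hB Y hYodd.not_two_dvd_nat hAY
    fun D hD => le_iSup_of_le ⟨D, hD.1, ?_⟩ (le_inf (le_inf (inf_le_left.trans ((H18.comm_mono inf_le_left le_rfl).trans
      hYA.le)) inf_le_right) inf_le_left))
  intro _
  obtain ⟨h, x, hx, e⟩ := hD
  refine ⟨⟨(⟨x, hx⟩ : B), fun y => ?_⟩⟩
  obtain ⟨y, rfl⟩ := QuotientGroup.mk_surjective y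
  obtain ⟨_, ⟨n, rfl⟩, d, hd, e⟩ := (H18.mem_sup_of_norm ((Subgroup.zpowers_le.2 (hB hx)).trans
    ((H18.abel_of_comm hAc).norm (h.trans hB)))).1 (e y.2)
  refine ⟨n, ?_⟩
  show ((⟨x, hx⟩ : B) : B ⧸ D.subgroupOf B) ^ n = _
  rw [← QuotientGroup.mk_zpow, QuotientGroup.eq, Subgroup.mem_subgroupOf]
  simpa [e] using hd

end Cfsg.Agent.S1329
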