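import Cfsg.Statements.S1330
import Cfsg.Agent.H4.FN

set_option autoImplicit false
open Cfsg

namespace Cfsg.Agent.S1330

/-- Let A₁, A₂ be core-separated four-subgroups of the finite group G and A = A₁A₂. For a ∈ G put O_a = O(C_G(a)) and θ a = ⋂_{i=1,2} ( ⁅O_a, A_i⁆ · (O_a ∩ O(C_G(A_i))) ). Then θ is an A-signalizer functor for the prime 2. -/
theorem result {G : Type*} [Group G] [Finite G] (A₁ A₂ : Subgroup G) (hcs : Cfsg.IsCoreSeparated A₁ A₂) : Cfsg.IsSignalizerFunctor 2 (A₁ ⊔ A₂) (fun a => (⁅Cfsg.centralizerPPrimeCore 2 a, A₁⁆ ⊔ (Cfsg.centralizerPPrimeCore 2 a ⊓ ((Cfsg.oddCore ↥(Subgroup.centralizer ((A₁ : Subgroup G) : Set G))).map (Subgroup.centralizer ((A₁ : Subgroup G) : Set G)).subtype))) ⊓ (⁅Cfsg.centralizerPPrimeCore 2 a, A₂⁆ ⊔ (Cfsg.centralizerPPrimeCore 2 a ⊓ ((Cfsg.oddCore ↥(Subgroup.centralizer ((A₂ : Subgroup G) : Set G))).map (Subgroup.centralizer ((A₂ : Subgroup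 G) : Set G)).subtype)))) := by
  obtain ⟨h1, h2, c1, c2, -, -, hc, sep⟩ := hcs
  have hA := (H18.elem_iff.2 h1).sup (H18.elem_iff.2 h2) (H18.cent_iff.2 hc)
  refine (H4.Gs.sf_sep hA c1 c2 fun a ha a1 J hJ => ?_).isSF
  have n : A₁ ⊔ A₂ ≤ _ := H18.le_norm (hA.abel.trans (H18.C_le_C1 ha))
  have := sep a ha a1 _ (H17.isPComp_iff.1 hJ).2
  rw [Subgroup.map_subgroupOf_eq_of_le hJ.le] at this
  exact this.imp (fun h => (H4.Gs.le_kr_iff hJ (le_sup_left.trans n)).2 (H18.comm_comm.le.trans h))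
    fun h => (H4.Gs.le_kr_iff hJ (le_sup_right.trans n)).2 (H18.comm_comm.le.trans h)

end Cfsg.Agent.S1330
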