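import Cfsg.Statements.S1335
import Cfsg.Agent.H17.Bal

set_option autoImplicit false
open Cfsg

namespace Cfsg.Agent.S1335

/-- Let H be a subgroup of the finite group G, p a prime, k ≥ 1, P a Sylow p-subgroup of H of p-rank at least k, and suppose N_G(X) ≤ H for every subgroup X ≤ P of p-rank at least k. Then P is a Sylow p-subgroup of G. -/
theorem result {G : Type*} [Group G] [Finite G] {p : ℕ} [Fact p.Prime] (k : ℕ) (hk : 1 ≤ k) (H : Subgroup G) (P : Sylow p ↥H) (hP : ¬ Cfsg.PRankLE p (k - 1) ↥(P : Subgroup ↥H)) (hΓ : (∀ X : Subgroup G, X ≤ (P : Subgroup ↥H).map H.subtype → ¬ Cfsg.PRankLE p (k - 1) ↥X → Subgroup.normalizer (X : Set G) ≤ H)) : ∃ Q : Sylow p G, (Q : Subgroup G) = (P : Subgroup ↥H).map H.subtype := by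
  have h1 := H17.isSyl_map_sylow P
  set P' := (P : Subgroup H).map H.subtype with hP'
  have h2 : Subgroup.normalizer (P' : Set G) ≤ H := by
    refine hΓ P' le_rfl fun h => hP fun A hA hA2 => ?_
    let e := (P : Subgroup H).equivMapOfInjective H.subtype H.subtype_injective
    have h3 := H17.elem_map (p := p) ⟨hA, hA2⟩ e.toMonoidHom
    have h4 := h _ h3.1 h3.2
    rwa [Subgroup.card_map_of_injective e.injective] at h4
  obtain ⟨S, hS, hle⟩ := H17.exists_isSyl_ge h1.pgroup (le_top (a := P'))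
  suffices S = P' from this ▸ hS.exists_sylow_top
  by_contra hn
  have h3 := H17.lt_normalizer_of_pgroup hS.pgroup (lt_of_le_of_ne hle (Ne.symm hn))
  exact h3.ne' (h1.eq_of_le hS.pgroup.to_inf_left h3.le (inf_le_right.trans h2))

end Cfsg.Agent.S1335
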