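import Cfsg.Statements.S1337
import Cfsg.Agent.H17.Four

set_option autoImplicit false
open Cfsg

namespace Cfsg.Agent.S1337

open H17 H18 Subgroup

/-- Let P be a finite p-group of p-rank greater than 2. Then P has a normal elementary abelian subgroup U of order p², and for every elementary abelian X ≤ P with |X| ≥ p²: X is joined to U by a chain of pairwise commuting elementary abelian subgroups of order ≥ p² if and only if C_P(X) has p-rank greater than 2. -/
theorem result {P : Type*} [Group P] [Finite P] (p : ℕ) [Fact p.Prime] (hP : IsPGroup p P) (hrk : ¬ Cfsg.PRankLE p 2 P) : ∃ U : Subgroup P, U.Normal ∧ Cfsg.IsElementaryAbelian p U ∧ Nat.card ↥U = p ^ 2 ∧ ∀ X : Subgroup P, Cfsg.IsElementaryAbelian p X → p ^ 2 ≤ Nat.card ↥X → (Relation.ReflTransGen (fun A B : Subgroup P => Cfsg.IsElementaryAbelian p A ∧ p ^ 2 ≤ Nat.card ↥A ∧ Cfsg.IsElementaryAbelian p B ∧ p ^ 2 ≤ Nat.card ↥B ∧ ∀ a ∈ A, ∀ b ∈ B, a * b = b * a) X U ↔ ¬ Cfsg.PRankLE p 2 ↥(Subgroup.centralizer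 (X : Set P))) := by
  have hp : p.Prime := Fact.out
  have hP' : PiGrp {p} (⊤ : Subgroup P) := piGrp_of_isPGroup hp (hP.to_subgroup ⊤)
  have r : 2 < prank p (⊤ : Subgroup P) := (lt_prank_iff hp).2 (mt prankLE_top.1 hrk)
  obtain ⟨U, hU, he⟩ := exists_nml_sq hp hP' r
  have bU := big_of_norm hp hP' le_top hU.norm he.elem he.card ((big_bot_iff hp).2 r)
  refine ⟨U, hU.normal, he.elem.isElem, he.card, fun X hX c => ?_⟩
  rw [← lt_prank_iff hp, ← top_inf_eq C(X), ← big_iff hp le_top (H18.elem_iff.2 hX)]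
  refine ⟨fun h => ?_, fun ⟨E, a, _, b, d⟩ => ?_⟩
  · induction h using Relation.ReflTransGen.head_induction_on with
    | refl => exact bU
    | head e _ ih =>
      exact big_of_comm hp le_top (H18.elem_iff.2 e.1) e.2.1 (ih e.2.2.1 e.2.2.2.1) e.2.2.2.1
        (cent_symm (cent_iff.2 e.2.2.2.2))
  · have f := pow_le_inf_C hP' hp hU.norm he.card le_top d
    exact .head ⟨hX, c, (b.inf_left (B := C(U))).isElem, f, cent_iff.1 (cent_mono b.abel a inf_le_left)⟩
      (.single ⟨b.inf_left.isElem, f, he.elem.isElem, he.card.ge, cent_iff.1 inf_le_right⟩)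

end Cfsg.Agent.S1337
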