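import Cfsg.Statements.S1338
import Cfsg.Agent.H17.E4
import Cfsg.Agent.S1337

set_option autoImplicit false
open Cfsg

namespace Cfsg.Agent.S1338

open H17 H18 Subgroup

/-- A finite 3-group of 3-rank at least 4 is 2-connected for the prime 3: its commuting graph on elementary abelian subgroups of order ≥ 9 is connected. -/
theorem result {P : Type*} [Group P] [Finite P] (hP : IsPGroup 3 P) (hrk : ¬ Cfsg.PRankLE 3 3 P) : Cfsg.IsKConnected 3 2 P := by
  have hp := Nat.prime_three
  have := Fact.mk hp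
  have hP' : PiGrp {3} (⊤ : Subgroup P) := piGrp_of_isPGroup hp (hP.to_subgroup ⊤)
  have r : 3 < prank 3 (⊤ : Subgroup P) := (lt_prank_iff hp).2 (mt prankLE_top.1 hrk)
  obtain ⟨U, -, -, -, h⟩ := Cfsg.Agent.S1337.result 3 hP (mt prankLE_top.2 ((lt_prank_iff hp).1 (by omega)))
  have k := fun X hX c => (h X hX c).2 ((lt_prank_iff hp).1 (by
    rw [← top_inf_eq C(X), ← big_iff hp le_top (H18.elem_iff.2 hX)]
    exact big_of_rank_four hP' r (H18.elem_iff.2 hX) c))
  intro E F a b c d
  refine (k E a b).trans (Relation.ReflTransGen.mono (fun A B e => ?_) _ _ (k F c d).swap)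
  exact ⟨e.2.2.1, e.2.2.2.1, e.1, e.2.1, fun a ha b hb => (e.2.2.2.2 b hb a ha).symm⟩

end Cfsg.Agent.S1338
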