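import Cfsg.Statements.S1343
import Cfsg.Agent.H17.XLay

set_option autoImplicit false
open Cfsg

namespace Cfsg.Agent.S1343

open H17 H18 Subgroup

/-- Let X be finite. Then L*_{2'}(X) = L_{2'}(X) ⊔ F for some subgroup F of odd order normalized by a Sylow 2-subgroup of X. -/
theorem result {X : Type*} [Group X] [Finite X] : ∃ F : Subgroup X, Odd (Nat.card ↥F) ∧ (∃ S : Sylow 2 X, (S : Subgroup X) ≤ Subgroup.normalizer (F : Set X)) ∧ Cfsg.extendedTwoLayer X = Cfsg.pLayer 2 X ⊔ F := by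
  obtain ⟨S⟩ : Nonempty (Sylow 2 X) := inferInstance
  have hT := (isSyl_sylow S).inf_normal (K := xB X) le_top norm_of_normal
  refine ⟨oQ 2 C((S : Subgroup X) ⊓ xB X) ⊔ Cfsg.pPrimeCore 2 X, Nat.not_even_iff_odd.1 fun h => ?_, ⟨S, norm_sup
    ((norm_C (norm_inf le_N norm_of_normal)).trans (normalizer_le_oQ 2 _)) norm_of_normal⟩, ?_⟩
  · exact not_dvd_card_sup norm_of_normal (oQ_not_dvd 2 _) (pPrimeCore_not_dvd X 2) h.two_dvd
  · rw [xl_eq hT, sup_assoc, sup_comm (Cfsg.pPrimeCore 2 X)]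

end Cfsg.Agent.S1343
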