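import Cfsg.Statements.S1344
import Cfsg.Agent.H17.XLay

set_option autoImplicit false
open Cfsg

namespace Cfsg.Agent.S1344

open H17 H18 Subgroup

/-- Let K be a 2-component of the finite group X. Then K ≤ L*_{2'}(X) and K is normal in L*_{2'}(X). -/
theorem result {X : Type*} [Group X] [Finite X] (K : Subgroup X) (hK : Cfsg.IsPComponent 2 K) : K ≤ Cfsg.extendedTwoLayer X ∧ (K.subgroupOf (Cfsg.extendedTwoLayer X)).Normal := by
  have h := isPComp_top_iff.2 hK
  have l : K ≤ Cfsg.extendedTwoLayer X := (h.le_pLay.trans pLay_top.le).trans (le_sup_left.trans le_xl_left)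
  refine ⟨l, Nml.subgroupOf_normal ⟨l, xl_le (pLay_top.ge.trans h.pLay_le_normalizer)
    ((oQ_top 2).ge.trans h.oQ_le_normalizer) fun T hT g hg => ?_⟩⟩
  exact h.mem_N_of_cent (hT.inf_subn (h.subn.mono ((h.le_pLay.trans pLay_top.le).trans le_sup_left) le_top)) (by simp)
    (C_anti inf_le_left (oQ_le 2 _ hg))

end Cfsg.Agent.S1344
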