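import Cfsg.Statements.S1348
import Cfsg.Agent.H17.Sm3

set_option autoImplicit false
open Cfsg

namespace Cfsg.Agent.S1348

open H17 H24 Subgroup Matrix

theorem range_comp {X Y Z : Type*} [Group X] [Group Y] [Group Z] (φ : X →* Y) (e : Y ≃* Z) {t : Y}
    (h : φ.range = centralizer {t}) : (e.toMonoidHom.comp φ).range = centralizer {e t} := by
  ext z
  obtain ⟨y, rfl⟩ := e.surjective z
  rw [mem_centralizer_singleton_iff, ← map_mul, ← map_mul, e.apply_eq_iff_eq, ← mem_centralizer_singleton_iff, ← h]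
  exact ⟨fun ⟨x, k⟩ => ⟨x, e.injective k⟩, fun ⟨x, k⟩ => ⟨x, congrArg e k⟩⟩

/-- Let F be a finite field of odd order, n ≥ 7 odd, and t ∈ SL(n, F) the diagonal matrix with entries −1, …, −1, 1. Then E(C(t)) is a standard subgroup of SL(n, F). -/
theorem result {F : Type*} [Field F] [Fintype F] [DecidableEq F] (hF : Odd (Fintype.card F)) (n : ℕ) (hn : 7 ≤ n) (hodd : Odd n) (t : Matrix.SpecialLinearGroup (Fin n) F) (ht : (t : Matrix (Fin n) (Fin n) F) = Matrix.diagonal (fun i : Fin n => if (i : ℕ) + 1 = n then (1 : F) else -1)) : Cfsg.IsStandardSubgroup ((Cfsg.layer ↥(Subgroup.centralizer ({t} : Set (Matrix.SpecialLinearGroup (Fin n) F)))).map (Subgroup.centralizer ({t} : Set (Matrix.SpecialLinearGroup (Fin n) F))).subtype) := by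
  obtain ⟨m, rfl⟩ : ∃ m, n = m + 1 := ⟨n - 1, by omega⟩
  have h2 := two_ne_of_odd hF
  have hs : (-1 : GL (Fin m) F) ∈ SS (Fin m) F := mem_SS.2 (by
    rw [Units.val_neg, Units.val_one, det_neg, det_one, mul_one, Fintype.card_fin]
    exact Even.neg_one_pow (by rwa [Nat.odd_add_one, Nat.not_odd_iff_even] at hodd))
  let e : Unit ⊕ Fin m ≃ Fin (m + 1) :=
    (Equiv.sumComm _ _).trans ((Equiv.sumCongr (Equiv.refl _) finOneEquiv.symm).trans finSumFinEquiv)
  have e1 : ∀ a, (e (Sum.inl a) : ℕ) = m := fun _ => rfl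
  have e2 : ∀ a, (e (Sum.inr a) : ℕ) = a := fun _ => rfl
  have et : slReindex e (emb (-1 : GL (Fin m) F)) = t := by
    refine Subtype.ext (Matrix.ext fun i j => ?_)
    obtain ⟨a, rfl⟩ := e.surjective i
    obtain ⟨b, rfl⟩ := e.surjective j
    have := congrArg Units.val (toGL_emb_neg hs)
    rw [coe_toGL', coe_blk] at this
    rw [ht, coe_slReindex, this, diagonal_apply]
    rcases a with a | a <;> rcases b with b | b <;> simp [e1, e2, one_apply]
    split_ifs with c d
    · exact absurd d a.2.ne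
    all_goals simp
  have : Nonempty (Fin m) := ⟨⟨0, by omega⟩⟩
  exact std_of_hom h2 ((slReindex e).toMonoidHom.comp emb) ((slReindex e).injective.comp emb_inj)
    (et ▸ range_comp emb (slReindex e) (range_emb h2 hs)) et hs (qs_SL (Or.inl (by omega)))

end Cfsg.Agent.S1348
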