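import Cfsg.Statements.S1386
import Cfsg.Agent.H22.Fcore
import Cfsg.Agent.H18.Prod
import Cfsg.Agent.H18.Cyc

set_option autoImplicit false
open Cfsg

namespace Cfsg.Agent.S1386
open H18 H22 Subgroup

/-- Let G be a finite group, W₁, W₂ subgroups forming a self-normalizing cyclic pair, S a subgroup with W₂ ≤ S and W₁ a complement to S' in S, and (W₁, U, W₂') type-P data for S. Then W₂' = W₂ (that is, C_{S'}(W₁) = W₂). -/
theorem result {G : Type*} [Group G] [Finite G] (W₁ W₂ S U W₂' : Subgroup G) (hW : Cfsg.IsSelfNormalizingCyclic W₁ W₂)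
    (hSW : Cfsg.IsComplIn ⁅S, S⁆ W₁ S) (hW₂S : W₂ ≤ S) (hP : Cfsg.IsTypePWith S W₁ U W₂') :
    W₂' = W₂ := by
  obtain ⟨n1, n2, i, c, cy, hX⟩ := hW
  obtain ⟨-, -, i', c', cy', -⟩ := hP.selfNormalizing
  have hW : W₁ ≤ S := sup_of_isComplIn hSW ▸ le_sup_right
  have sd := sd_of_isComplIn hSW (hW.trans nml_der.norm)
  obtain ⟨a, ha, a1⟩ := exists_mem_ne_one' n1
  obtain ⟨b, hb, b1⟩ := exists_mem_ne_one' n2
  have h1 : W₂ ≤ W₁ ⊔ W₂' := by
    have := sd.inf_cent (zpowers_le.2 ha)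
    rw [C_zpowers, hP.W₂_centralizer a ha a1] at this
    exact (le_inf hW₂S fun x hx => mem_C1.2 (c a ha x hx).symm).trans
      (this.le.trans (sup_le le_sup_right (inf_le_left.trans le_sup_left)))
  have h2 : W₁ ⊔ W₂' ≤ W₁ ⊔ W₂ := by
    rw [← hX {a * b} (Set.singleton_subset_iff.2 ⟨mul_mem_sup' ha hb, ?_⟩) (Set.singleton_nonempty _)]
    · intro g hg x
      have := comm_of_cent (Cyc.abel cy') hg (mul_mem (mem_sup_left ha) (h1 hb))
      simp only [Set.mem_singleton_iff, mul_inv_eq_iff_eq_mul, ← this, mul_right_inj]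
    · rintro (h | h)
      · exact b1 (mem_bot.1 (i ▸ ⟨by simpa using mul_mem (inv_mem ha) h, hb⟩))
      · exact a1 (mem_bot.1 (i ▸ ⟨ha, by simpa using mul_mem h (inv_mem hb)⟩))
  have e := le_antisymm h2 (sup_le le_sup_left h1)
  refine Cyc.eq_of_card_eq cy (le_sup_right.trans h2) le_sup_right
    (Nat.eq_of_mul_eq_mul_left (card_pos' (H := W₁)) ?_)
  rw [← card_sup_of_cent (cent_iff.2 c) i, ← card_sup_of_cent (cent_iff.2 c') i', e]

end Cfsg.Agent.S1386
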