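import Cfsg.Statements.S1387
import Cfsg.Agent.H22.Fcore
import Cfsg.Agent.H18.Prod

set_option autoImplicit false
open Cfsg

namespace Cfsg.Agent.S1387
open H18 H22 Subgroup

/-- Let M be a subgroup of a finite group G with type-P data (W₁, U, W₂) and H = M_F. Then the Fitting subgroup F(M) is generated by H and the centralizer of H in U. -/
theorem result {G : Type*} [Group G] [Finite G] (M W₁ U W₂ : Subgroup G) (hP : Cfsg.IsTypePWith M W₁ U W₂) :
    Cfsg.fittingOf M = Cfsg.fittingHallOf M ⊔ (U ⊓ Subgroup.centralizer (Cfsg.fittingHallOf M : Set G)) := by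
  have hUM : U ≤ M := (sup_of_isComplIn hP.U_compl ▸ le_sup_right : U ≤ ⁅M, M⁆).trans der_le
  have sd := sd_of_isComplIn hP.U_compl (hUM.trans Fcore_norm)
  have h1 := (sd.inf_right Fcore_le_fit hP.fitting_le).sup
  have h2 : U ⊓ F(M) ≤ C(MF(M)) := fit_nil.cent_coprime inf_le_right Fcore_le_fit
    (coprime_mono (Fcore_coprime_of_disj hUM sd.inf) le_rfl inf_le_left).symm
  refine le_antisymm (h1.ge.trans (sup_le_sup_left (le_inf inf_le_left h2) _)) (sup_le Fcore_le_fit ?_)
  exact ((inf_le_inf_right _ hUM).trans le_sup_right).trans hP.fitting_eq.le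

end Cfsg.Agent.S1387
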