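import Cfsg.Statements.S1388
import Cfsg.Agent.H22.Fcore
import Cfsg.Agent.H18.Prod

set_option autoImplicit false
open Cfsg

namespace Cfsg.Agent.S1388
open H18 H22 Subgroup

/-- Let M be a subgroup of a finite group G with type-P data (W₁, U, W₂) and H = M_F. Then the derived subgroup of U centralizes H, and if U ≠ 1 then U does not centralize H. -/
theorem result {G : Type*} [Group G] [Finite G] (M W₁ U W₂ : Subgroup G) (hP : Cfsg.IsTypePWith M W₁ U W₂) :
    ⁅U, U⁆ ≤ Subgroup.centralizer (Cfsg.fittingHallOf M : Set G) ∧ (U ≠ ⊥ → ¬ U ≤ Subgroup.centralizer (Cfsg.fittingHallOf M : Set G)) := by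
  have hU' : U ≤ ⁅M, M⁆ := sup_of_isComplIn hP.U_compl ▸ le_sup_right
  have hUM : U ≤ M := hU'.trans der_le
  have sd := sd_of_isComplIn hP.U_compl (hUM.trans Fcore_norm)
  have h2 : U ⊓ F(M) ≤ C(MF(M)) := fit_nil.cent_coprime inf_le_right Fcore_le_fit
    (coprime_mono (Fcore_coprime_of_disj hUM sd.inf) le_rfl inf_le_left).symm
  refine ⟨(le_inf der_le (((der_mono hU').trans hP.derived_two_le).trans hP.fitting_eq.le)).trans h2,
    fun hU hc => ?_⟩
  have hW : W₁ ≤ M := sup_of_isComplIn hP.W₁_compl ▸ le_sup_right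
  have sd1 := sd_of_isComplIn hP.W₁_compl (hW.trans nml_der.norm)
  have hn : Nil ⁅M, M⁆ := (sd.dp (cent_symm hc)).nil Fcore_nil hP.U_nilpotent
  have : ⁅M, M⁆ ≤ MF(M) := Fcore_max' nml_der hn (by
    rw [sd1.relIndex, ← sd1.relIndex']; exact hP.W₁_hall.symm)
  exact hU (eq_bot_iff.2 ((le_inf (hU'.trans this) le_rfl).trans sd.inf.le))

end Cfsg.Agent.S1388
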