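import Cfsg.Statements.S1396
import Cfsg.Agent.H18.BG7

set_option autoImplicit false
open Cfsg

namespace Cfsg.Agent.S1396

/-- Let G be a minimal simple group of odd order, p a prime dividing the order of G and A an abelian p-subgroup. Suppose either (1) A consists exactly of the elements x of C_G(A) with x^p = 1, and every proper subgroup of G has p-length at most one, or (2) A is normal and self-centralizing in some Sylow p-subgroup of G and has rank at least 2. Then A satisfies the transitivity hypothesis. -/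
theorem result {G : Type*} [Group G] [Finite G] (hG : Cfsg.IsMinSimpleOddOrder G)
    (p : ℕ) [Fact p.Prime] (hp : p ∣ Nat.card G) (A : Subgroup G) (hAp : IsPGroup p A) (hAc : IsMulCommutative A)
    (h : (∀ x ∈ Subgroup.centralizer (A : Set G), x ^ p = 1 ↔ x ∈ A) ∧ (∀ H : Subgroup G, H ≠ ⊤ → Cfsg.PLengthLE p 1 H) ∨
      ∃ P : Sylow p G, Cfsg.IsSCN (P : Subgroup G) A ∧ ¬ Cfsg.PRankLE p 1 A) :
    Cfsg.TransitivityHypothesis A := by
  open H18 in
  haveI : FT G := ⟨hG⟩
  have hp' : p.Prime := Fact.out
  have ab := abel_of_comm hAc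
  rw [normedCons_iff]
  rcases h with ⟨h1, h2⟩ | ⟨P, h1, h2⟩
  · have hA : MaxElem p A ⊤ := maxElem_of_mem le_top ⟨ab, fun a ha => (h1 a (ab ha)).2 ha⟩
      fun x _ hx e => (h1 x hx).1 e
    exact plength_1_normed_constrained hp' (hA.ne_bot hp' (by rwa [Subgroup.card_top])) hA
      fun M hM => (pl1_iff hp').2 (h2 M hM)
  · exact SCN_normed_constrained hp' (hall_sylow_top hp' P) (scn_iff.2 h1) ((lt_prank_iff hp').2 h2)

end Cfsg.Agent.S1396
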