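import Cfsg.Statements.S1403
import Cfsg.Agent.H18.BG9

set_option autoImplicit false
open Cfsg

namespace Cfsg.Agent.S1403

/-- Let G be a minimal simple group of odd order and K a proper subgroup having an elementary abelian subgroup of order p ^ 2 for some prime p. If K, or its centralizer C_G(K), has an elementary abelian subgroup of order q ^ 3 for some prime q, then K lies in exactly one maximal subgroup of G. -/
theorem result {G : Type*} [Group G] [Finite G] (hG : Cfsg.IsMinSimpleOddOrder G)
    (K : Subgroup G) (hK : K ≠ ⊤) (hK2 : ¬ Cfsg.RankLE 1 K)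
    (hK3 : ¬ Cfsg.RankLE 2 K ∨ ¬ Cfsg.RankLE 2 (Subgroup.centralizer (K : Set G))) :
    Cfsg.InUniqueMaximal K := by
  open H18 in
  haveI : FT G := ⟨hG⟩
  exact hK3.elim (fun h => rank3_Uniqueness hK (lt_rank_iff_RankLE.2 h))
    fun h => cent_rank3_Uniqueness (lt_rank_iff_RankLE.2 hK2) (lt_rank_iff_RankLE.2 h)

end Cfsg.Agent.S1403
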