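import Cfsg.Statements.S1447
import Cfsg.Agent.H3.Br

set_option autoImplicit false
open Cfsg

namespace Cfsg.Agent.S1447

/-- Let G be a finite group, p an odd prime, R a metacyclic p-subgroup and A a subgroup of order coprime to p normalizing R. Then [R, A] is abelian; R is generated by [R, A] and R ∩ C_G(A), which meet trivially; and if R is non-abelian and A does not centralize R, then [R, A] and R ∩ C_G(A) are nontrivial cyclic groups and [R, R] ≤ [R, A]. -/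
theorem result {G : Type*} [Group G] [Finite G] (p : ℕ) [Fact p.Prime] (hp : p ≠ 2) (R A : Subgroup G) (hR : IsPGroup p R) (hRm : Cfsg.IsMetacyclic R)
    (hA : (A ≤ Subgroup.normalizer (R : Set G))) (hcop : (Nat.card A).Coprime p) :
    IsMulCommutative ↥⁅R, A⁆ ∧ ⁅R, A⁆ ⊔ (R ⊓ Subgroup.centralizer (A : Set G)) = R ∧ ⁅R, A⁆ ⊓ (R ⊓ Subgroup.centralizer (A : Set G)) = ⊥ ∧
      (¬ IsMulCommutative R → ¬ A ≤ Subgroup.centralizer (R : Set G) →
        ⁅R, A⁆ ≠ ⊥ ∧ IsCyclic ↥⁅R, A⁆ ∧ (R ⊓ Subgroup.centralizer (A : Set G)) ≠ ⊥ ∧ IsCyclic ↥(R ⊓ Subgroup.centralizer (A : Set G)) ∧ ⁅R, R⁆ ≤ ⁅R, A⁆) := by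
  open Subgroup H18 in
  have hp' : p.Prime := Fact.out
  have hR' := piGrp_of_isPGroup hp' hR
  obtain ⟨h1, h2, h3⟩ := H3.coprime_metacyclic_cent_sdprod hp' hR' (H3.odd_of_piGrp hp' hp hR')
    ((H3.piGrp_compl_iff hp').2 hcop) hA (H3.metacyc_iff.2 hRm)
  refine ⟨h1.comm, h2.sup, h2.inf, fun h4 h5 => ?_⟩
  obtain ⟨a, b, c, d, e⟩ := h3 (mt Abel.comm h4) h5
  exact ⟨c, a, d, b, e⟩

end Cfsg.Agent.S1447
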