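import Cfsg.Statements.S1449
import Cfsg.Agent.H3.Br

set_option autoImplicit false
open Cfsg

namespace Cfsg.Agent.S1449

/-- Let G be a finite group, p an odd prime, R a p-subgroup with no elementary abelian subgroup of order p ^ 3, and A a solvable subgroup of odd order normalizing R with A ∩ C_G(R) = 1. Then the derived subgroup [A, A] is a p-group. -/
theorem result {G : Type*} [Group G] [Finite G] (p : ℕ) [Fact p.Prime] (hp : p ≠ 2) (R A : Subgroup G) (hR : IsPGroup p R) (hr : Cfsg.PRankLE p 2 R)
    (hA : (A ≤ Subgroup.normalizer (R : Set G))) (hAs : Group.IsSolvable A) (hAodd : Odd (Nat.card A)) (hfaith : A ⊓ Subgroup.centralizer (R : Set G) = ⊥) :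
    IsPGroup p ↥⁅A, A⁆ := by
  open Subgroup H18 in
  have hp' : p.Prime := Fact.out
  have hR' := piGrp_of_isPGroup hp' hR
  have := H3.der1_Aut_rank2_pgroup hp' hR' (H3.odd_of_piGrp hp' hp hR') ((H3.prank_le_iff_PRankLE hp').2 hr)
    hA hAodd
  rw [← relIndex_inf_left, le_bot_iff.1 ((inf_le_inf_right _ der_le).trans hfaith.le), relIndex_bot_left] at this
  exact PiGrp.isPGroup this

end Cfsg.Agent.S1449
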