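import Cfsg.Statements.S1451
import Cfsg.Agent.H3.Br

set_option autoImplicit false
open Cfsg

namespace Cfsg.Agent.S1451

/-- Let G be a solvable group of odd order such that G, or its Fitting subgroup, has no elementary abelian subgroup of order q ^ 3 for any prime q. Then G' is nilpotent; for every Sylow subgroup S of G, every characteristic subgroup T of S with T ≤ [S, S] is normal in G; and for every prime p, G has a characteristic subgroup that is a Hall subgroup for the set of primes greater than p. -/
theorem result {G : Type*} [Group G] [Finite G] [Group.IsSolvable G] (hodd : Odd (Nat.card G)) (hr : Cfsg.RankLE 2 G ∨ Cfsg.RankLE 2 (Cfsg.fittingSubgroup G)) :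
    Group.IsNilpotent ↥(commutator G) ∧
      (∀ (q : ℕ) [Fact q.Prime] (S : Sylow q G) (T : Subgroup ↥(S : Subgroup G)), T.Characteristic → T.map (S : Subgroup G).subtype ≤ ⁅(S : Subgroup G), (S : Subgroup G)⁆ →
        (T.map (S : Subgroup G).subtype).Normal) ∧
      ∀ p : ℕ, ∃ N : Subgroup G, N.Characteristic ∧ Cfsg.IsPiHall {q | q.Prime ∧ p < q} N := by
  open Subgroup H18 in
  have ho : Odd (Nat.card (⊤ : Subgroup G)) := by rwa [card_top]
  have hr' : rank F((⊤ : Subgroup G)) ≤ 2 := hr.elim (fun h => (H3.rank_mono le_top).trans (rank_top_le_iff.2 h))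
    fun h => fit_top (G := G) ▸ H3.rank_le_iff_RankLE.2 h
  have h1 := H3.rank2_der1_sub_Fitting ho solv_of_solv hr'
  refine ⟨nil_of_le_fit h1, fun q hq S T hT h => norm_top_iff.1 (H3.char_Sylow_normal_of hq.out h1
    (hall_sylow_top hq.out S) (inf_le_right.trans (H3.characteristic_of_norm hT)) h), fun p => ?_⟩
  have h2 := H3.pcore_hall_congr (ρ := {q | q.Prime ∧ p < q})
    (H3.rank2_ge_pcore_Hall (m := p + 1) ho solv_of_solv hr') fun q hq _ => by simp [hq, Nat.succ_le_iff]
  refine ⟨_, characteristic_iff_map_le.2 fun φ => ?_, hall_top_iff.1 h2⟩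
  exact h2.le_pcore le_top (by
    rw [PiGrp, card_map_of_injective φ.injective]; exact pcore_pi)

end Cfsg.Agent.S1451
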