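import Cfsg.Statements.S1452
import Cfsg.Agent.H3.Br

set_option autoImplicit false
open Cfsg

namespace Cfsg.Agent.S1452

/-- Let p be an odd prime and R a finite p-group containing an elementary abelian subgroup of order p ^ 3. If E is a normal elementary abelian subgroup of R of order p ^ 2, then E ≤ A for some normal subgroup A of R with C_R(A) = A that contains an elementary abelian subgroup of order p ^ 3. -/
theorem result {R : Type*} [Group R] [Finite R] (p : ℕ) [Fact p.Prime] (hp : p ≠ 2) (hR : IsPGroup p R) (hr : ¬ Cfsg.PRankLE p 2 R)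
    (E : Subgroup R) [E.Normal] (hE : Cfsg.IsElementaryAbelian p E) (hE2 : Nat.card E = p ^ 2) :
    ∃ A : Subgroup R, E ≤ A ∧ A.Normal ∧ Subgroup.centralizer (A : Set R) = A ∧ ¬ Cfsg.PRankLE p 2 A := by
  open Subgroup H18 in
  have hp' : p.Prime := Fact.out
  obtain ⟨B, h1, h2, h3⟩ := H3.normal_elem_SCN3 hp' (H3.piTop hp' hR) (H3.oddTop hp' hp hR)
    (not_le.1 (mt (H3.prank_top_le_iff hp').1 hr)) (H3.elem_iff.2 hE) nml_top
  exact ⟨B, h3, h1.nml.normal, by simpa using h1.cent, mt (H3.prank_le_iff_PRankLE hp').2 h2.not_ge⟩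

end Cfsg.Agent.S1452
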