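import Cfsg.Statements.S1454
import Cfsg.Agent.H3.Br

set_option autoImplicit false
open Cfsg

namespace Cfsg.Agent.S1454

/-- Let G be a finite group, p an odd prime, R a narrow p-subgroup and A a solvable subgroup of odd order normalizing R with A ∩ C_G(R) = 1. Then [A, A] ≤ O_p(A) and the index of O_p(A) in A is coprime to p; if R has an elementary abelian subgroup of order p ^ 3 then the order of every element of A of order coprime to p divides p − 1; and if the order of A is a prime not dividing p(p − 1), then 2·#A divides p + 1, and if in addition [R, A] = R and R is non-abelian then #R = p ^ 3. -/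
theorem result {G : Type*} [Group G] [Finite G] (p : ℕ) [Fact p.Prime] (hp : p ≠ 2) (R A : Subgroup G) (hR : IsPGroup p R) (hRn : Cfsg.IsNarrow p R)
    (hA : (A ≤ Subgroup.normalizer (R : Set G))) (hAs : Group.IsSolvable A) (hAodd : Odd (Nat.card A)) (hfaith : A ⊓ Subgroup.centralizer (R : Set G) = ⊥) :
    (commutator ↥A ≤ Cfsg.pCore p ↥A ∧ ((Cfsg.pCore p ↥A).index).Coprime p) ∧
      (¬ Cfsg.PRankLE p 2 R → ∀ a ∈ A, (orderOf a).Coprime p → orderOf a ∣ p - 1) ∧
      ((Nat.card A).Prime → ¬ Nat.card A ∣ p * (p - 1) →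
        2 * Nat.card A ∣ p + 1 ∧ (⁅R, A⁆ = R → ¬ IsMulCommutative R → Nat.card R = p ^ 3)) := by
  open Subgroup H18 in
  have hp' : p.Prime := Fact.out
  have hR' := piGrp_of_isPGroup hp' hR
  have ho := H3.odd_of_piGrp hp' hp hR'
  have hn := H3.narrow_of_isNarrow hp' hR' hRn
  have hi : ∀ {P}, P ≤ A → C(R).relIndex P = Nat.card P := fun h => by
    rw [← relIndex_inf_left, le_bot_iff.1 ((inf_le_inf_right _ h).trans hfaith.le), relIndex_bot_left]
  obtain ⟨⟨P, h1, -, h2, h3, h4⟩, h5⟩ := H3.Aut_narrow hp' hR' ho hn hA hAodd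
  rw [hi h1.le] at h2
  have h6 := le_pcore h1 h2
  have h7 : ¬ PRankLE p 2 R → ∀ a ∈ A, (orderOf a).Coprime p → orderOf a ∣ p - 1 := fun hr a ha hc =>
    orderOf_dvd_of_pow_eq_one (mem_bot.1 (hfaith.le ⟨pow_mem ha _, h5 (not_le.1 (mt
      (H3.prank_le_iff_PRankLE hp').1 hr)) a ha ((piNat_compl_iff_coprime hp').2 hc)⟩))
  refine ⟨⟨?_, ?_⟩, h7, fun hq hd => ?_⟩
  · rw [← map_le_map_iff_of_injective A.subtype_injective, pCore_map hp', map_subtype_commutator]
    exact h4.trans h6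
  · rw [← relIndex_top_right, ← relIndex_map_map_of_injective _ _ A.subtype_injective, pCore_map hp',
      H3.map_top_subtype]
    exact (piNat_compl_iff_coprime hp').1 (h3.of_dvd (relIndex_dvd_left h6))
  have hqp : Nat.card A ≠ p := fun e => hd (e ▸ dvd_mul_right _ _)
  have hq1 : ¬ Nat.card A ∣ p - 1 := fun e => hd (e.mul_left _)
  have hA' : PiGrp {p}ᶜ A := (piNat_prime hq).2 hqp
  have hr : prank p R ≤ 2 := not_lt.1 fun hr =>
    hq1 (H3.dvd_sub_one_of_narrow hp' hq hR' ho hr hn hA (hi le_rfl).symm.dvd hqp)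
  obtain ⟨m, hm⟩ := hp'.odd_of_ne_two hp
  refine ⟨?_, fun e hab => ?_⟩
  · rcases (H3.pi_Aut_rank2_pgroup hp' hq hR' ho hr hA (hi le_rfl).symm.dvd hqp).2.2 with h | h
    · rw [show p + 1 = 2 * ((p + 1) / 2) by omega]; exact Nat.mul_dvd_mul_left 2 h
    · exact absurd (h.trans (Nat.div_dvd_of_dvd ⟨m, by omega⟩)) hq1
  obtain ⟨-, h8, -, h9, h10, -⟩ := (H3.rank2_coprime_comm_cprod' hp' hR' ho (ne_bot_of_not_abel
    (mt Abel.comm hab)) hr hA e hA' hAodd).2.resolve_left (mt Abel.comm hab)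
  have n1 := H3.norm_ohm (p := p) hA
  have h11 : A ≤ C(R ⊓ C(Ω[p](R))) := by
    by_contra hc
    rcases h10.prime_dvd_relIndex_C hp' hR'.inf_left (norm_inf hA (norm_C n1)) hq (by
      rw [← relIndex_inf_left, prime_TI hq hc, relIndex_bot_left]) with h | h
    exacts [hqp h, hq1 h]
  rw [← h8]; congr 3
  refine le_antisymm (e.ge.trans ?_) H3.ohm_le
  conv_lhs => rw [← h9.sup]
  exact comm_sup_le (comm_le_left n1) ((comm_eq_bot_iff.2 (cent_symm h11)).le.trans bot_le) le_N
    (inf_le_right.trans C_le_N)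

end Cfsg.Agent.S1454
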