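import Cfsg.Statements.S1458
import Cfsg.Agent.H4.PSol2

set_option autoImplicit false
open Cfsg

namespace Cfsg.Agent.S1458

open Subgroup H26 H4


/-- Let G be a solvable group of odd order, p a prime and S a Sylow p-subgroup of G. Then the subgroup generated by the centre of the Thompson subgroup of S and O_{p'}(G) is normal in G. -/
theorem result {G : Type*} [Group G] [Finite G] [Group.IsSolvable G] (hodd : Odd (Nat.card G)) (p : ℕ) [Fact p.Prime] (S : Sylow p G) :
    (Cfsg.centerThompsonOf p (S : Subgroup G) ⊔ Cfsg.pPrimeCore p G).Normal := by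
  by_cases hp : p = 2
  · subst hp
    have h : (S : Subgroup G) = ⊥ := (isSyl_top S).eq_bot_iff.2 (by rw [card_top]; exact hodd.not_two_dvd_nat)
    rw [le_bot_iff.1 ((centerThompsonOf_le 2 _).trans h.le), bot_sup_eq]
    infer_instance
  have := zj_mod hp (Or.inr rfl) pSol_top_of_solvable.isPConstrained (pStab_of_odd (by
    rw [card_top]; exact hodd.of_dvd_nat (card_quotient_dvd_card _))) S
  rw [← H1.comap_map_mk']
  infer_instance

end Cfsg.Agent.S1458
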