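import Cfsg.Statements.S1463
import Cfsg.Agent.H24.GL2Class
import Cfsg.Agent.H1.FTCor
import Cfsg.Agent.H26.Core

set_option autoImplicit false
open scoped MatrixGroups
open Cfsg

namespace Cfsg.Agent.S1463

open Subgroup H24 Matrix

theorem line {F : Type*} [Field F] (h2 : (2 : F) ≠ 0) {g : M2 F} (hg : ¬ IsScal g) (h : g.trace ^ 2 = 4 * g.det) :
    ∃ v : Fin 2 → F, v ≠ 0 ∧ Qf g v = 0 ∧ ∀ w, Qf g w = 0 → w ∈ Submodule.span F {v} := by
  rw [trace_fin_two, det_fin_two] at h
  by_cases hc : g 1 0 = 0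
  · have hd : g 0 0 = g 1 1 := by
      rw [hc] at h
      exact sub_eq_zero.1 (pow_eq_zero_iff two_ne_zero |>.1 (by linear_combination h))
    have hb : g 0 1 ≠ 0 := fun hb => hg ⟨hb, hc, hd⟩
    refine ⟨![1, 0], fun e => by simpa using congrFun e 0, by simp [Qf, hc], fun w hw => ?_⟩
    have : w 1 = 0 := by simpa [Qf, hc, hd, hb] using hw
    refine Submodule.mem_span_singleton.2 ⟨w 0, ?_⟩
    ext i; fin_cases i <;> simp [this]
  · refine ⟨![g 0 0 - g 1 1, 2 * g 1 0], fun e => by simpa [h2, hc] using congrFun e 1, ?_, fun w hw => ?_⟩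
    · simp only [Qf, cons_val_zero, cons_val_one]
      linear_combination g 1 0 * (-h)
    · have : 2 * g 1 0 * w 0 + (g 1 1 - g 0 0) * w 1 = 0 := pow_eq_zero_iff two_ne_zero |>.1 (by
        simp only [Qf] at hw
        linear_combination 4 * g 1 0 * hw + w 1 ^ 2 * h)
      refine Submodule.mem_span_singleton.2 ⟨w 1 / (2 * g 1 0), ?_⟩
      ext i; fin_cases i
      · simp only [Fin.zero_eta, Pi.smul_apply, cons_val_zero, smul_eq_mul]
        field_simp
        linear_combination -this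
      · simp only [Fin.mk_one, Pi.smul_apply, cons_val_one, cons_val_zero, smul_eq_mul]
        field_simp


/-- Let F be a field of odd characteristic p and H a finite subgroup of odd order of GL(2, F) that leaves no 1-dimensional subspace of F² invariant. Then p does not divide the order of H. -/
theorem result {F : Type*} [Field F] (p : ℕ) [Fact p.Prime] [CharP F p] (hp : p ≠ 2)
    (H : Subgroup (GL (Fin 2) F)) [Finite H] (hodd : Odd (Nat.card H))
    (hirr : ∀ v : Fin 2 → F, v ≠ 0 → ∃ g ∈ H, (g : Matrix (Fin 2) (Fin 2) F).mulVec v ∉ Submodule.span F {v}) :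
    ¬ p ∣ Nat.card H := by
  intro hd
  have hp' : p.Prime := Fact.out
  have h2 : (2 : F) ≠ 0 := fun h => hp ((Nat.prime_dvd_prime_iff_eq hp' Nat.prime_two).1
    ((CharP.cast_eq_zero_iff F p 2).1 (by exact_mod_cast h)))
  have key : ∀ n : GL (Fin 2) F, ¬ IsScal (n : M2 F) → (∀ g ∈ H, g * n * g⁻¹ ∈ centralizer {n}) →
      (n : M2 F).trace ^ 2 ≠ 4 * (n : M2 F).det := by
    intro n hn h e
    obtain ⟨v, hv, h1, h3⟩ := line h2 hn e
    obtain ⟨g, hg, hgv⟩ := hirr v hv
    obtain ⟨a, b, hab⟩ := (mem_cent_GL_iff hn _).1 (h g hg)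
    have h4 := Qf_conj (g := (n : M2 F)) (h := ((g * n * g⁻¹ : GL (Fin 2) F) : M2 F)) (m := (g : M2 F))
      (by rw [← Units.val_mul, ← Units.val_mul, inv_mul_cancel_right]) v
    have hb : b ≠ 0 := by
      rintro rfl
      refine hn ((IsConj.isScal_iff_GL (isConj_iff.2 ⟨g, rfl⟩)).2 ?_)
      rw [hab, zero_smul, add_zero]; exact isScal_smul_one a
    rw [h1, mul_zero, hab] at h4
    refine hgv (h3 _ (mul_left_cancel₀ hb ?_))
    rw [mul_zero, ← h4]; simp [Qf]; ring
  obtain ⟨x, hx⟩ := exists_prime_orderOf_dvd_card' p hd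
  obtain ⟨x1, x2, x3⟩ := unip_of_orderOf_GL p (g := (x : GL (Fin 2) F)) (by rw [orderOf_coe, hx])
  let K : Subgroup H := (GeneralLinearGroup.det.comp H.subtype).ker
  have hxK : x ∈ K := Units.ext (by simpa using x3)
  have hK : K ≠ ⊥ := fun e => by
    rw [e, mem_bot] at hxK
    rw [hxK, orderOf_one] at hx
    exact hp'.one_lt.ne hx
  obtain ⟨q, M, -, hMK, hM, hE, hn, -⟩ := (H1.solv_of_odd (H := K)
    (hodd.of_dvd_nat (card_subgroup_dvd_card K))).exists_elem_norm hK (A := ⊤) (by rw [normalizer_eq_top])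
  obtain ⟨⟨n, hnM⟩, hn1⟩ := ne_bot_iff_exists_ne_one.1 hM
  have hn1 : n ≠ 1 := fun e => hn1 (Subtype.ext e)
  have odd2 : ∀ y : H, y ^ 2 = 1 → y = 1 := fun y hy => H26.eq_one_of_pow_coprime
    (hodd.of_dvd_nat (orderOf_dvd_natCard y)).coprime_two_right (pow_orderOf_eq_one y) hy
  have hdet : ((n : GL (Fin 2) F) : M2 F).det = 1 := by simpa using congrArg Units.val (hMK hnM)
  have hns : ¬ IsScal ((n : GL (Fin 2) F) : M2 F) := fun h => hn1 (odd2 n (Subtype.ext (Units.ext (by
    rw [h.det_eq] at hdet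
    simp only [coe_pow, Units.val_pow_eq_pow_val, coe_one, Units.val_one]
    rw [h.eq_smul, smul_pow, one_pow, sq, hdet, one_smul]))))
  have hc : ∀ g ∈ H, g * n * g⁻¹ ∈ centralizer {(n : GL (Fin 2) F)} := fun g hg =>
    mem_centralizer_singleton_iff.2 (congrArg Subtype.val (mem_centralizer_iff.1 (hE.abel hnM) _
      ((mem_normalizer_iff.1 (hn (mem_top (⟨g, hg⟩ : H))) n).1 hnM)))
  have ht := key n hns hc
  obtain ⟨a, b, hab⟩ := (mem_cent_GL_iff hns _).1 (hc x x.2)
  have c1 := IsConj.trace_GL (isConj_iff.2 ⟨(x : GL (Fin 2) F), rfl⟩ : IsConj (n : GL (Fin 2) F) _)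
  have c2 := IsConj.det_GL (isConj_iff.2 ⟨(x : GL (Fin 2) F), rfl⟩ : IsConj (n : GL (Fin 2) F) _)
  rw [hab] at c1 c2
  simp only [trace_fin_two, det_fin_two, Matrix.add_apply, Matrix.smul_apply, one_apply_eq, smul_eq_mul, mul_one, ne_eq,
    zero_ne_one, not_false_eq_true, one_apply_ne, mul_zero, zero_add, one_ne_zero] at c1 c2 ht hdet
  have hb : (b - 1) * (b + 1) = 0 := by
    refine mul_left_cancel₀ (sub_ne_zero.2 ht) ?_
    linear_combination 4 * c2 - (2 * a + (1 + b) * (((n : GL (Fin 2) F) : M2 F) 0 0 + ((n : GL (Fin 2) F) : M2 F) 1 1)) * c1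
  have hxn : x * n * x⁻¹ = n := by
    rcases mul_eq_zero.1 hb with h | h
    · have hb1 : b = 1 := sub_eq_zero.1 h
      have ha : a = 0 := mul_left_cancel₀ h2 (by rw [hb1] at c1; linear_combination -c1)
      exact Subtype.ext (Units.ext (by rw [hb1, ha] at hab; simpa using hab))
    · have hb1 : b = -1 := eq_neg_of_add_eq_zero_left h
      have ha : a = ((n : GL (Fin 2) F) : M2 F) 0 0 + ((n : GL (Fin 2) F) : M2 F) 1 1 :=
        mul_left_cancel₀ h2 (by rw [hb1] at c1; linear_combination -c1)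
      have e1 : x * n * x⁻¹ = n⁻¹ := eq_inv_of_mul_eq_one_left (Subtype.ext (Units.ext (by
        simp only [coe_mul, coe_inv, coe_one, Units.val_one]
        rw [Units.val_mul, hab, ha, hb1]
        refine ext2 ?_ ?_ ?_ ?_ <;> simp [mul_apply2] <;> first | linear_combination hdet | ring)))
      have e2 : x ^ 2 ∈ centralizer {n} := mem_centralizer_singleton_iff.2 (by
        calc x ^ 2 * n = x * (x * n * x⁻¹) * x := by rw [sq]; group
          _ = (x * n * x⁻¹)⁻¹ * x * x := by conv_lhs => rw [e1]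
                                            group
          _ = _ := by rw [e1, inv_inv, sq, mul_assoc])
      have e3 := mem_centralizer_singleton_iff.1 (H26.mem_of_pow_mem_coprime_orderOf
        (hodd.of_dvd_nat (orderOf_dvd_natCard x)).coprime_two_right e2)
      rw [e3, mul_inv_cancel_right]
  obtain ⟨c, d, hcd⟩ := (mem_cent_GL_iff x1 (n : GL (Fin 2) F)).1 (mem_centralizer_singleton_iff.2
    (congrArg Subtype.val (mul_inv_eq_iff_eq_mul.1 hxn)).symm)
  rw [hcd] at ht
  simp only [trace_fin_two, det_fin_two, Matrix.add_apply, Matrix.smul_apply, one_apply_eq, smul_eq_mul, mul_one, ne_eq,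
    zero_ne_one, not_false_eq_true, one_apply_ne, mul_zero, zero_add, one_ne_zero] at x2 x3 ht
  exact ht (by linear_combination d ^ 2 * (((x : GL (Fin 2) F) : M2 F) 0 0 + ((x : GL (Fin 2) F) : M2 F) 1 1 + 2) * x2 - 4 * d ^ 2 * x3)

end Cfsg.Agent.S1463
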