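import Cfsg.Statements.S1466
import Cfsg.Agent.H18.Puig

set_option autoImplicit false
open Cfsg

namespace Cfsg.Agent.S1466

/-- Let p be a prime and R a nontrivial finite p-group. Then for every i > 0, Z(R) ≤ C_R(L_i(R)) ≤ L_i(R); likewise Z(R) ≤ C_R(L_*(R)) ≤ L_*(R) and Z(R) ≤ C_R(L(R)) ≤ L(R); and L(R) ≠ 1, L_*(R) ≠ 1. -/
theorem result {R : Type*} [Group R] [Finite R] (p : ℕ) [Fact p.Prime] (hR : IsPGroup p R) [Nontrivial R] :
    (∀ i : ℕ, 0 < i → Subgroup.center R ≤ Subgroup.centralizer ((Cfsg.puigSeq R i : Subgroup R) : Set R) ∧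
        Subgroup.centralizer ((Cfsg.puigSeq R i : Subgroup R) : Set R) ≤ Cfsg.puigSeq R i) ∧
      (Subgroup.center R ≤ Subgroup.centralizer ((Cfsg.puigLower R : Subgroup R) : Set R) ∧ Subgroup.centralizer ((Cfsg.puigLower R : Subgroup R) : Set R) ≤ Cfsg.puigLower R) ∧
      (Subgroup.center R ≤ Subgroup.centralizer ((Cfsg.puigSubgroup R : Subgroup R) : Set R) ∧ Subgroup.centralizer ((Cfsg.puigSubgroup R : Subgroup R) : Set R) ≤ Cfsg.puigSubgroup R) ∧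
      Cfsg.puigSubgroup R ≠ ⊥ ∧ Cfsg.puigLower R ≠ ⊥ := by
  open H18 in
  have hp : p.Prime := Fact.out
  have hT : PiGrp {p} (⊤ : Subgroup R) := piGrp_of_isPGroup hp (hR.to_subgroup ⊤)
  have hz : ∀ X : Subgroup R, Subgroup.center R ≤ C(X) := fun X x hx =>
    mem_C.2 fun h _ => Subgroup.mem_center_iff.1 hx h
  have h1 : C(pLs (⊤ : Subgroup R)) ≤ pLs ⊤ := (le_inf le_top le_rfl).trans (cent_pLs_le hp hT)
  have h2 : pLs (⊤ : Subgroup R) ≠ ⊥ := fun e => by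
    rw [e, C_bot] at h1
    exact top_ne_bot (le_bot_iff.1 h1)
  rw [← pL_top, ← pLs_top]
  refine ⟨fun i hi => ⟨hz _, ?_⟩, ⟨hz _, h1⟩, ⟨hz _, (le_inf le_top le_rfl).trans (cent_pL_le hp hT)⟩,
    fun e => h2 (le_bot_iff.1 (e ▸ pLs_le_pL)), h2⟩
  rw [← pseq_top]
  exact (le_inf le_top le_rfl).trans (cent_pseq_le hp hT hi)

end Cfsg.Agent.S1466
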