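import Cfsg.Statements.S1474
import Cfsg.Agent.H16.CN

set_option autoImplicit false
open Cfsg

namespace Cfsg.Agent.S1474

open H18 H22 Subgroup

/-- Let G be a finite group in which every non-identity element has nilpotent centralizer, not itself nilpotent, and having a nontrivial normal Sylow p-subgroup for some prime p. Let H be the largest normal nilpotent Hall subgroup of G. Then H is a nontrivial proper normal subgroup with a complement E that is a Frobenius complement in G (no non-identity element of E centralizes a non-identity element of H), and G/H is nilpotent. -/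
theorem result {G : Type*} [Group G] [Finite G] (hCN : Cfsg.IsCNGroup G) (hnn : ¬ Group.IsNilpotent G) (p : ℕ) [Fact p.Prime] (P : Sylow p G)
    (hP1 : (P : Subgroup G) ≠ ⊥) (hPn : (P : Subgroup G).Normal) :
    Cfsg.fittingHall G ≠ ⊥ ∧ Cfsg.fittingHall G ≠ ⊤ ∧
      (∃ E : Subgroup G, Subgroup.IsComplement' (Cfsg.fittingHall G) E ∧ Cfsg.IsFrobeniusComplement E ∧
        ∀ e ∈ E, e ≠ 1 → Cfsg.fittingHall G ⊓ Subgroup.centralizer ({e} : Set G) = ⊥) ∧
      Group.IsNilpotent (G ⧸ Cfsg.fittingHall G) := by
  have hp : p.Prime := Fact.out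
  have e : MF((⊤ : Subgroup G)) = fittingHall G := by
    refine le_antisymm ?_ (sSup_le fun N h => Fcore_max' (nml_top_iff.2 h.1) h.2.1 (by simpa using h.2.2))
    exact le_sSup ⟨nml_top_iff.1 Fcore_nml, Fcore_nil, by simpa using Fcore_coprime (M := (⊤ : Subgroup G))⟩
  obtain ⟨E, f, n⟩ := H16.CN.frob hCN (by rwa [nil_top_iff]) (ne_bot_of_le_ne_bot hP1
    (le_Fcore_of_sylow (hall_sylow_top hp P) (nml_top_iff.2 hPn).norm))
  rw [e] at f
  refine ⟨f.ker_ne, fun c => f.compl_ne (f.sd.eq_left_iff.1 c), ⟨E, f.sd.isComplement',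
    (H21.isFrobeniusComplement_of_frob f).1, f.reg⟩, ?_⟩
  exact Group.nilpotent_of_mulEquiv f.sd.isComplement'.symm.QuotientMulEquiv.symm

end Cfsg.Agent.S1474
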