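import Cfsg.Statements.S1476
import Cfsg.Agent.H16.CN

set_option autoImplicit false
open Cfsg

namespace Cfsg.Agent.S1476

open H18 H22 Subgroup

/-- Let G be a finite solvable group in which every non-identity element has nilpotent centralizer. Then either G is nilpotent; or G has a normal subgroup K with a Frobenius complement E (K E = G, K ∩ E = 1, E meets its conjugates by outside elements trivially) such that E is cyclic or E is generated by two elementwise-commuting subgroups, one cyclic of odd order and one isomorphic to a generalized quaternion group; or G is a three-step group with respect to some prime p. -/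
theorem result {G : Type*} [Group G] [Finite G] [Group.IsSolvable G] (hCN : Cfsg.IsCNGroup G) :
    Group.IsNilpotent G ∨
      (∃ K E : Subgroup G, K.Normal ∧ Subgroup.IsComplement' K E ∧ Cfsg.IsFrobeniusComplement E ∧
        (IsCyclic E ∨ ∃ C Q : Subgroup G, C ⊔ Q = E ∧ (∀ a ∈ C, ∀ b ∈ Q, a * b = b * a) ∧ IsCyclic C ∧ Odd (Nat.card C) ∧
          ∃ n : ℕ, Nonempty (↥Q ≃* QuaternionGroup (2 ^ n)))) ∨
      ∃ p : ℕ, p.Prime ∧ Cfsg.IsThreeStepGroup p G := by
  by_cases hn : Nil (⊤ : Subgroup G)
  · exact Or.inl (nil_top_iff.1 hn)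
  refine Or.inr ((H16.CN.solv hCN solv_of_solv hn).imp_left fun ⟨K, E, f, n⟩ => ⟨K, E, nml_top_iff.1 f.nml,
    f.sd.isComplement', (H21.isFrobeniusComplement_of_frob f).1, (H16.nil_compl f n).imp_right ?_⟩)
  rintro ⟨C, Q, h1, h2, h3⟩
  exact ⟨C, Q, h1, cent_iff.1 h2, h3⟩

end Cfsg.Agent.S1476
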