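import Cfsg.Statements.S1477
import Cfsg.Agent.H16.CN

set_option autoImplicit false
open Cfsg

namespace Cfsg.Agent.S1477

open H18 H22 Subgroup

/-- Let G be a finite group in which every non-identity element has nilpotent centralizer, and H a nilpotent subgroup not properly contained in any nilpotent subgroup. Then the order of H is coprime to its index; if the order of H is not a prime power then H ∩ gHg⁻¹ = 1 whenever gHg⁻¹ ≠ H; and if H ∩ gHg⁻¹ = 1 whenever gHg⁻¹ ≠ H, then C_G(x) ≤ H for every non-identity x ∈ H. -/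
theorem result {G : Type*} [Group G] [Finite G] (hCN : Cfsg.IsCNGroup G) (H : Subgroup G) (hH : Group.IsNilpotent H)
    (hmax : ∀ L : Subgroup G, Group.IsNilpotent L → H ≤ L → L = H) :
    (Nat.card H).Coprime H.index ∧
      (¬ IsPrimePow (Nat.card H) → Nat.card H ≠ 1 → ∀ g : G, H.map (MulAut.conj g).toMonoidHom ≠ H → H ⊓ H.map (MulAut.conj g).toMonoidHom = ⊥) ∧
      ((∀ g : G, H.map (MulAut.conj g).toMonoidHom ≠ H → H ⊓ H.map (MulAut.conj g).toMonoidHom = ⊥) → ∀ x ∈ H, x ≠ 1 → Subgroup.centralizer ({x} : Set G) ≤ H) := by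
  have h : H16.CN G := hCN
  refine ⟨by simpa using (h.hall hH hmax).coprime, fun h1 h2 g => h.ti hH hmax (Nil.cj hH g) (fun L n e => ?_)
    fun p hp e => h1 ?_, fun ti x hx x1 => h.cent_le hH hmax ti hx x1⟩
  · exact eq_cj_iff.2 (hmax _ (n.cj _) (by rwa [le_cj_iff, inv_inv]))
  · obtain ⟨k, hk⟩ := PiNat.eq_pow e Nat.card_pos.ne'
    exact ⟨p, k, hp.prime, Nat.pos_of_ne_zero fun c => h2 (by rw [hk, c, pow_zero]), hk.symm⟩

end Cfsg.Agent.S1477
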