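import Cfsg.Statements.S1480
import Cfsg.Agent.H17.Misc
import Cfsg.Agent.H18.BG7
import Cfsg.Agent.H3.Petrescu

set_option autoImplicit false
open Cfsg

namespace Cfsg.Agent.S1480

open H18 H1 Subgroup
open H17 (oP_eq_pcore charP_quo isPConstrained_iff_pLay)
open scoped commutatorElement

section
variable {G : Type*} [Group G] [Finite G] {A H Q Q₁ Q₂ : Subgroup G} {p q : ℕ} [hp : Fact p.Prime]

theorem two_case (h : H17.CharP p H) (hA : PiGrp {p} A) (hAH : A ≤ H) (hΩ : ∀ x ∈ H ⊓ C(A), PiElt {p} x → x ∈ A)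
    (hc : ⁅O[{p}](H), A⁆ ≤ C(A) ⊓ C(O[{p}](H))) (hQ : PiGrp {p}ᶜ Q) (hQH : Q ≤ H) (hAQ : A ≤ N(Q)) : Q = ⊥ := by
  rw [H17.CharP, oP_eq_pcore] at h
  set P := O[{p}](H)
  have hP : PiGrp {p} P := pcore_pi
  have nP : P ⊴ H := pcore_nml
  have nA := hAH.trans nP.norm
  have nQ := hQH.trans nP.norm
  have k : ∀ Y ≤ Q, Y ≤ C(P) → Y = ⊥ := fun Y h1 h2 =>
    (hP.of_le ((le_inf (h1.trans hQH) h2).trans h)).eq_bot (hQ.of_le h1)
  have hW : P ⊓ C(A) ≤ C(Q) := cent_of_comm_le_inf inf_le_left nQ le_rfl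
    (fun x hx => hAQ (hΩ x ⟨nP.le hx.1, hx.2⟩ (hP.elt hx.1))) (hP.inf_eq_bot hQ)
  have h1 : ⁅P, A⁆ ≤ P ⊓ C(P) ⊓ C(Q) := le_inf (le_inf (comm_le_left nA) (hc.trans inf_le_right))
    ((le_inf (comm_le_left nA) (hc.trans inf_le_left)).trans hW)
  have h2 : ⁅⁅A, Q⁆, P⁆ ≤ P ⊓ C(P) ⊓ C(Q) := H3.three_subgroup_mod (norm_inf (norm_inf nA (norm_C nA)) (norm_C hAQ))
    (norm_inf (norm_inf nQ (norm_C nQ)) (norm_C le_N)) (cent_norm (cent_symm (inf_le_left.trans inf_le_right)))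
    ((comm_mono (comm_le_right nQ) le_rfl).trans h1) ((comm_eq_bot_iff.2 (h1.trans inf_le_right)).le.trans bot_le)
  have h3 : ⁅A, Q⁆ = ⊥ := k _ (comm_le_right hAQ) (cent_symm (cent_of_comm_le (H18.comm_comm.le.trans h2)
    (inf_le_right.trans (C_anti (comm_le_right hAQ))) ((hQ.of_le (comm_le_right hAQ)).coprime' hP.inf_left.inf_left)))
  exact k _ le_rfl (PxQ hA hQ hP (comm_eq_bot_iff.1 h3) nA nQ hW)

theorem tb (h : IsPConstrained p H) (hA : PiGrp {p} A) (hAH : A ≤ H) (hΩ : ∀ x ∈ C(A), PiElt {p} x → x ∈ A)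
    (h2 : p = 2 → ∀ T : Subgroup G, PiGrp {p} T → ⁅T, T⁆ ≤ C(T)) (hQ : PiGrp {p}ᶜ Q) (hQH : Q ≤ H) (hAQ : A ≤ N(Q)) :
    Q ≤ O[{p}ᶜ](H) := by
  have n : H ≤ N(O[{p}ᶜ](H)) := pcore_nml.norm
  have c := charP_quo (isPConstrained_iff_pLay.1 h)
  have k : ∀ x ∈ H ⫽ O[{p}ᶜ](H) ⊓ C(A ⫽ O[{p}ᶜ](H)), PiElt {p} x → x ∈ A ⫽ O[{p}ᶜ](H) := fun x hx e => by
    rw [← quo_inf_cent' (cop_p'core hAH hA) pcore_nml] at hx
    obtain ⟨y, hy, h1, rfl⟩ := mem_mim.1 hx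
    rw [← piPart_eq_self e, ← mfun_piPart h1]
    exact mfun_mem_mim (hΩ _ (piPart_mem hy.2) piElt_piPart)
  refine (quo_eq_bot_iff (hQH.trans n)).1 ?_
  by_cases e : p = 2
  · obtain ⟨S, hS, h3⟩ := exists_sylow_le hp.out hA hAH
    have h4 := (hS.mim (f := coset O[{p}ᶜ](H)) n).pcore_le
    have h5 := mim_cent (f := coset O[{p}ᶜ](H)) (h2 e S hS.pi)
    rw [mim_comm (hS.le.trans n) (hS.le.trans n)] at h5
    exact two_case c hA.mim (mim_mono hAH) k ((comm_mono h4 (mim_mono h3)).trans (h5.trans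
      (le_inf (C_anti (mim_mono h3)) (C_anti h4)))) hQ.mim (mim_mono hQH) (mim_norm hAQ)
  · exact c.eq_bot_of_omega e hA.mim (mim_mono hAH) (fun x hx e => k x hx (piElt_of_pow_eq_one hp.out e)) hQ.mim
      (mim_mono hQH) (mim_norm hAQ)

theorem trans (hA : PiGrp {p} A) (ab : Abel A) (hr : 2 < prank p A) (hq : q.Prime) (hqp : q ≠ p)
    (h : ∀ T : Subgroup G, PiGrp {p} T → T ≠ ⊥ → A ≤ N(T) → ∀ Q ≤ N(T), PiGrp {p}ᶜ Q → A ≤ N(Q) → Q ≤ O[{p}ᶜ](N(T)))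
    (h1 : MaxNormed A q Q₁) (h2 : MaxNormed A q Q₂) : ∃ k ∈ O[{p}ᶜ](C(A)), Q₂ = cj k Q₁ := by
  induction hn : Nat.card G - Nat.card ↥(Q₁ ⊓ Q₂) using Nat.strong_induction_on generalizing Q₁ Q₂ with
  | _ n ih => ?_
  by_cases e : Q₁ = Q₂
  · exact ⟨1, one_mem _, by rw [e, cj_one]⟩
  set D := Q₁ ⊓ Q₂
  have nD : A ≤ N(D) := norm_inf h1.norm h2.norm
  have nN : ∀ {Q}, MaxNormed A q Q → A ≤ N(Q ⊓ N(D)) := fun h => norm_inf h.norm (le_norm nD)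
  obtain ⟨B, hB⟩ := exists_pelem_of_lt hp.out hr
  obtain ⟨C, hC, n1⟩ : ∃ C, PElem p 2 C B ∧ ¬ Q₁ ⊓ N(D) ⊓ C(C) ≤ D := by
    by_contra! c
    exact (h1.pi.nil.lt_norm (h1.inf_lt h2 e)).not_ge
      (coprime_elem_gen_cent hp.out hB (hB.le.trans (nN h1)) (h1.pi.inf_left.p'_of_ne hqp) c)
  obtain ⟨z, hz, z1, n2⟩ := exists_cent1_not_le hC.abel (hC.not_cyc hp.out le_rfl) ((hC.le.trans hB.le).trans (nN h2))
    ((hC.pi hp.out).coprime (h2.pi.inf_left.p'_of_ne hqp))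
    (h2.pi.nil.lt_norm ((inf_comm Q₁ Q₂).trans_lt (h2.inf_lt h1 (Ne.symm e)))).not_ge
  have zA := hB.le (hC.le hz)
  have cz : A ≤ C1(z) := ab.trans (C_le_C1 zA)
  have nz : C1(z) ≤ N(zpowers z) := cent_norm (zpowers_le_C_iff.2 le_rfl |> cent_symm)
  have pD : PiGrp {p}ᶜ D := h1.pi.inf_left.p'_of_ne hqp
  have hc : Cop A (D ⊔ O[{p}ᶜ](N(zpowers z)) ⊓ N(D)) := cop_of_pi (norm_sup nD (norm_inf (norm_pcore (le_norm (cz.trans nz)))
    (le_norm nD))) hA (pD.sup pcore_pi.inf_left (Or.inr inf_le_right)) (Or.inl hA.solv)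
  have key : ∀ Q, MaxNormed A q Q → D ≤ Q → ¬ Q ⊓ N(D) ⊓ C1(z) ≤ D → ∃ R, Hall {q} R (D ⊔ O[{p}ᶜ](N(zpowers z)) ⊓ N(D)) ∧
      A ≤ N(R) ∧ Nat.card D < Nat.card ↥(Q ⊓ R) := fun Q hQ hD hl => by
    have m : A ≤ N(Q ⊓ N(D) ⊓ C1(z)) := norm_inf (nN hQ) (le_norm cz)
    have l : D ⊔ Q ⊓ N(D) ⊓ C1(z) ≤ Q := sup_le hD (inf_le_left.trans inf_le_left)
    obtain ⟨R, s, l', m'⟩ := hc.exists_sylow_ge hq (sup_le_sup_left (le_inf (h _ (hA.elt zA).zpowers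
      (by simpa using z1) (cz.trans nz) _ (inf_le_right.trans nz) (hQ.pi.inf_left.inf_left.p'_of_ne hqp) m)
      (inf_le_left.trans inf_le_right)) D) (hQ.pi.of_le l) (norm_sup nD m)
    exact ⟨R, s, m', card_lt ((left_lt_sup.2 hl).trans_le (le_inf l l'))⟩
  obtain ⟨R₁, s1, m1, l1⟩ := key _ h1 inf_le_left fun c => n1 ((inf_le_inf_left _ (C_le_C1 hz)).trans c)
  obtain ⟨R₂, s2, m2, l2⟩ := key _ h2 inf_le_right n2
  obtain ⟨c, hc', rfl⟩ := coprime_Sylow_trans hc hq s1 s2 m1 m2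
  have hcK : c ∈ O[{p}ᶜ](C(A)) := inf_pcore_le C_le_N ⟨hc'.2, h A hA (ne_bot_of_lt_prank hp.out hr) le_N _
    (inf_le_right.trans C_le_N) (pD.sup pcore_pi.inf_left (Or.inr inf_le_right)).inf_left
    (cent_norm (cent_symm inf_le_right)) hc'⟩
  obtain ⟨Q₃, h3, l3⟩ := exists_maxNormed s2.pi m2
  have lt : ∀ {X Y : Subgroup G}, Nat.card X < Nat.card Y → Nat.card G - Nat.card Y < Nat.card G - Nat.card X :=
    fun h => Nat.sub_lt_sub_left (h.trans_le (card_le_card_group _)) h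
  obtain ⟨k₁, hk₁, e1⟩ := ih _ (hn ▸ lt (l1.trans_le (card_cj.ge.trans (card_le
    (le_inf (cj_mono inf_le_left) ((cj_mono inf_le_right).trans l3)))))) (h1.cj_N (C_le_N hc'.2)) h3 rfl
  obtain ⟨k₂, hk₂, e2⟩ := ih _ (hn ▸ lt (l2.trans_le (card_le (le_inf (inf_le_right.trans l3) inf_le_left)))) h3 h2 rfl
  exact ⟨k₂ * (k₁ * c), mul_mem hk₂ (mul_mem hk₁ hcK), by rw [e2, e1, cj_cj, cj_cj, mul_assoc]⟩

end

/-- Let G be a finite group and p a prime such that the normalizer of every nontrivial p-subgroup of G is p-constrained; if p = 2 assume also that the Sylow 2-subgroups of G have nilpotency class at most 2. Let E be an abelian p-subgroup containing an elementary abelian subgroup of order p ^ 3 and containing every element of p-power order of C_G(E). Then for every prime q ≠ p, any two maximal E-invariant q-subgroups of G are conjugate by an element of O_{p'}(C_G(E)).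 -/
theorem result {G : Type*} [Group G] [Finite G] (p : ℕ) [Fact p.Prime]
    (hloc : ∀ T : Subgroup G, IsPGroup p T → T ≠ ⊥ → Cfsg.IsPConstrained p ↥(Subgroup.normalizer (T : Set G)))
    (h2 : p = 2 → ∀ S : Sylow p G, Group.IsNilpotent (S : Subgroup G) ∧ Group.nilpotencyClass (S : Subgroup G) ≤ 2)
    (E : Subgroup G) (hEp : IsPGroup p E) (hEc : IsMulCommutative E) (hE3 : ¬ Cfsg.PRankLE p 2 E)
    (hEfull : ∀ x ∈ Subgroup.centralizer (E : Set G), IsPGroup p (Subgroup.zpowers x) → x ∈ E)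
    (q : ℕ) [Fact q.Prime] (hqp : q ≠ p) :
    ∀ Q₁ ∈ Cfsg.maxInvSubgroups ⊤ E {q}, ∀ Q₂ ∈ Cfsg.maxInvSubgroups ⊤ E {q},
        ∃ k ∈ Cfsg.piCoreOf (Cfsg.primesNotDvd p) (Subgroup.centralizer (E : Set G)), Q₂ = Q₁.map (MulAut.conj k).toMonoidHom := by
  have hp : p.Prime := Fact.out
  have hE := piGrp_of_isPGroup hp hEp
  rw [pcore_primesNotDvd, transOn_iff, show primes p = {p} from Set.ext fun r => mem_primes.trans
    ⟨fun h => (Nat.prime_dvd_prime_iff_eq h.1 hp).1 h.2, fun (h : r = p) => h.symm ▸ ⟨hp, dvd_rfl⟩⟩]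
  refine fun Q₁ Q₂ => trans hE (abel_iff.2 hEc) ((lt_prank_iff hp).2 hE3) Fact.out hqp fun T hT T1 n Q h1 h3 h4 =>
    tb (hloc T hT.isPGroup T1) hE n (fun x hx e => hEfull x hx e.zpowers.isPGroup) (fun e U hU => ?_) h3 h1 h4
  obtain ⟨S, hS⟩ := hU.isPGroup.exists_le_sylow
  obtain ⟨k1, k2⟩ := h2 e S
  have := congrArg (map (S : Subgroup G).subtype) (Subgroup.lowerCentralSeries_eq_bot_iff_nilpotencyClass_le.2 k2)
  rw [top_subtype_lowerCentralSeries, Subgroup.map_bot] at this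
  exact ((comm_mono hS hS).trans (comm_eq_bot_iff.1 this)).trans (C_anti hS)

end Cfsg.Agent.S1480
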