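import Cfsg.Statements.S1481
import Cfsg.Agent.H18.BG7
import Cfsg.Agent.H1.FTCor

set_option autoImplicit false
open Cfsg

namespace Cfsg.Agent.S1481

open H18 H1 Subgroup
open scoped commutatorElement

/-- Let G be a finite group and H a local subgroup (the normalizer of a nontrivial subgroup of prime-power order) not properly contained in any local subgroup; let F = F(H), suppose at least two primes divide #F, put X = H ∩ C_G(F), let M ≤ F with F ∩ C_G(M) ≤ M, and let R be a solvable subgroup normalized by M and by X. Then for every prime q not dividing #F there is exactly one maximal M-invariant q-subgroup of R, and it is a Sylow q-subgroup of the largest normal subgroup of R of order coprime to #F. -/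
theorem result {G : Type*} [Group G] [Finite G] (H : Subgroup G) (hH : Cfsg.IsLocalSubgroup H) (hHmax : ∀ L : Subgroup G, Cfsg.IsLocalSubgroup L → H ≤ L → L = H)
    (hF2 : 2 ≤ (Nat.card (Cfsg.fittingOf H)).primeFactors.card)
    (M : Subgroup G) (hM : M ≤ Cfsg.fittingOf H) (hCM : Cfsg.fittingOf H ⊓ Subgroup.centralizer (M : Set G) ≤ M)
    (R : Subgroup G) (hR : Group.IsSolvable R) (hMR : M ≤ Subgroup.normalizer (R : Set G))
    (hXR : H ⊓ Subgroup.centralizer (Cfsg.fittingOf H : Set G) ≤ Subgroup.normalizer (R : Set G))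
    (q : ℕ) [Fact q.Prime] (hq : ¬ q ∣ Nat.card (Cfsg.fittingOf H)) :
    ∃! Q : Subgroup G, Q ∈ Cfsg.maxInvSubgroups R M {q} ∧
      (∀ Q' : Subgroup G, Q' ∈ Cfsg.maxInvSubgroups R M {q} →
        Q' ≤ Cfsg.piCoreOf (Cfsg.primesNotDvd (Nat.card (Cfsg.fittingOf H))) R ∧
        ¬ q ∣ Q'.relIndex (Cfsg.piCoreOf (Cfsg.primesNotDvd (Nat.card (Cfsg.fittingOf H))) R)) := by
  have hq' : q.Prime := Fact.out
  rw [pcore_primesNotDvd]
  set π := primes (Nat.card F(H))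
  set K := O[πᶜ](R)
  have pF : PiGrp π F(H) := piNat_primes
  have nF : F(H) ⊴ H := fit_nml
  have ZM : Z(F(H)) ≤ M := (inf_le_inf_left _ (C_anti hM)).trans hCM
  have nZ : ∀ p, O[{p}](Z(F(H))) ⊴ H := fun p => nF.Z.pcore
  have cZ : ∀ p ∈ π, C(O[{p}](Z(F(H)))) ≤ H := fun p hp => C_le_N.trans (hHmax _ ⟨p, _, hp.1,
    pcore_pi.isPGroup, fit_nil.pcore_Z_ne_bot hp.1 hp.2, rfl⟩ (nZ p).norm).le
  have k0 : R ⊓ (H ⊓ C(F(H))) ≤ F(H) := by
    have h1 : R ⊓ (H ⊓ C(F(H))) ⊴ H ⊓ C(F(H)) := ⟨inf_le_right, norm_inf hXR le_N⟩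
    have h2 : F(R ⊓ (H ⊓ C(F(H)))) ≤ F(H) := h1.fit_le_fit.trans (nml_cent nF.norm).fit_le_fit
    exact (le_inf le_rfl ((inf_le_right.trans inf_le_right).trans (C_anti h2))).trans
      ((cent_sub_Fitting (Solv.of_le hR inf_le_left)).trans h2)
  have k1 : ∀ Y ≤ R, Y ≤ H → PiGrp πᶜ Y → M ≤ N(Y) → Y = ⊥ := fun Y h1 h2 h3 h4 => by
    have h5 : M ≤ C(Y) := cent_of_comm_le_inf hM (h2.trans nF.norm) le_rfl h4 (pF.inf_eq_bot h3)
    exact (pF.of_le ((le_inf h1 (le_inf h2 (coprime_nil_faithful_cent_stab (h2.trans nF.norm) (h3.coprime' pF) fit_nil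
      (((inf_le_inf_left _ (C_anti (le_inf hM h5))).trans hCM).trans h5)))).trans k0)).eq_bot h3
  have k2 : ∀ p ∈ π, ∃ r ∈ π, r ≠ p := fun p _ => by
    obtain ⟨r, h1, h2⟩ := Finset.exists_mem_ne hF2 p
    exact ⟨r, mem_primes.2 ⟨Nat.prime_of_mem_primeFactors h1, Nat.dvd_of_mem_primeFactors h1⟩, h2⟩
  have sL : Solv (M ⊔ R) := (fit_nil.of_le hM).solv.sup_norm hR hMR
  have k3 : ∀ Q ∈ invSubgroups R M {q}, Q ≤ K := fun Q ⟨h1, h2, h3⟩ => by
    have pQ : PiGrp πᶜ Q := PiGrp.primes_compl h2 hq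
    obtain ⟨W, -, ⟨w1, w2⟩, w3⟩ := exists_minimal_sub (fun W => W ⊴ R ∧ Q ≤ W) ⟨⟨le_rfl, le_N⟩, h1⟩
    refine w2.trans (le_pcore w1 fun p hp hd e => ?_)
    obtain ⟨r, hr, ne⟩ := k2 p e
    have l : ∀ p, O[{p}](Z(F(H))) ≤ M := fun p => pcore_le.trans ZM
    have h4 : O[{r}](Z(F(H))) ≤ O[{p}ᶜ](M ⊔ R) := (le_pcore (⟨le_inf ((l r).trans le_sup_left)
      ((pcore_le.trans abel_Z).trans (C_anti pcore_le)), (inf_le_right.trans (cZ p e)).trans (nZ r).norm⟩ : _ ⊴ (M ⊔ R) ⊓ C(_))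
      (pcore_pi.p'_of_ne ne)).trans (p'core_cent_pgroup sL ((l p).trans le_sup_left) pcore_pi)
    have h5 := (cop_pi ((l r).trans h3) (pF.of_le ((l r).trans hM)) pQ).comm_sup
    rw [k1 (Q ⊓ C(O[{r}](Z(F(H))))) (inf_le_left.trans h1) (inf_le_right.trans (cZ r hr)) pQ.inf_left
      (norm_inf h3 (norm_C ((hM.trans nF.le).trans (nZ r).norm))), sup_bot_eq] at h5
    have h6 : Q ≤ O[{p}ᶜ](R) := (le_inf h1 (h5.ge.trans ((comm_mono le_rfl h4).trans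
      (comm_le_right ((h1.trans le_sup_right).trans pcore_nml.norm))))).trans (inf_pcore_le le_sup_right)
    exact (w3 _ ⟨w1.inf pcore_nml, le_inf w2 h6⟩ inf_le_left ▸ pcore_pi.inf_right : PiGrp {p}ᶜ W) p hp hd rfl
  have c : Cop M K := cop_pi (norm_pcore hMR) (pF.of_le hM) pcore_pi
  obtain ⟨p, hp⟩ : ∃ p, p ∈ π := by
    obtain ⟨r, h1, -⟩ := Finset.exists_mem_ne hF2 0
    exact ⟨r, mem_primes.2 ⟨Nat.prime_of_mem_primeFactors h1, Nat.dvd_of_mem_primeFactors h1⟩⟩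
  have c0 := k1 (K ⊓ C(M)) (inf_le_left.trans pcore_le) (inf_le_right.trans ((C_anti (pcore_le.trans ZM)).trans
    (cZ p hp))) pcore_pi.inf_left (cent_norm (cent_symm inf_le_right))
  obtain ⟨Q, hQ, nQ⟩ := c.exists_sylow hq'
  have m : Q ∈ invSubgroups R M {q} := ⟨hQ.le.trans pcore_le, hQ.pi, nQ⟩
  have k4 : ∀ Y ∈ invSubgroups R M {q}, Y ≤ Q := fun Y hY => by
    obtain ⟨S, h1, h2, h3⟩ := c.exists_sylow_ge hq' (k3 Y hY) hY.2.1 hY.2.2
    obtain ⟨x, hx, e⟩ := coprime_Sylow_trans c hq' h1 hQ h3 nQ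
    rwa [e, mem_bot.1 (c0.le hx), cj_one]
  have k5 : ∀ Y ∈ maxInvSubgroups R M {q}, Y = Q := fun Y hY => (hY.2 Q m (k4 Y hY.1)).symm
  exact ⟨Q, ⟨⟨m, fun Y hY e => (k4 Y hY).antisymm e⟩, fun Y hY => k5 Y hY ▸
    ⟨hQ.le, (piNat_compl_iff hq').1 hQ.idx⟩⟩, fun Y hY => k5 Y hY.1⟩

end Cfsg.Agent.S1481
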