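import Cfsg.Statements.S1485
import Cfsg.Agent.H19.Bridge

set_option autoImplicit false
open Cfsg

namespace Cfsg.Agent.S1485

/-- Let H be a normal subgroup of the finite group G and θ an irreducible character of H. On H, the function induced from θ equals r times the sum of the distinct G-conjugates of θ, where r is the number of elements of G fixing θ under conjugation divided by the order of H (the index of H in the inertia group). -/
theorem result {G : Type*} [Group G] [Fintype G] (H : Subgroup G) [hN : H.Normal] (θ : H → ℂ) (hθ : Cfsg.IsIrrCharacter H θ) : (fun h : H => Cfsg.indFun H θ h) = ((Nat.card {g : G // ∀ h : H, θ ⟨g * h * g⁻¹, hN.conj_mem h h.2 g⟩ = θ h} : ℂ) / (Nat.card H : ℂ)) • ∑ᶠ ψ ∈ {ψ : H → ℂ | ∃ g : G, ψ = fun h : H => θ ⟨g * h * g⁻¹, hN.conj_mem h h.2 g⟩}, ψ := by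
  open H19 H18 H5 Subgroup in
  classical
  have hn : H ⊴ ⊤ := nml_top_iff.2 hN
  have hi := extendByZero_mem_irr.2 hθ
  have e1 : Nat.card {g : G // ∀ h : H, θ ⟨g * h * g⁻¹, hN.conj_mem h h.2 g⟩ = θ h} =
      Nat.card ↥(⊤ ⊓ inertia H (extendByZero H θ)) := Nat.card_congr (Equiv.subtypeEquivRight fun g => by
    rw [← funext_iff, conj_eq_iff_cfcj, top_inf_eq, ← inv_mem_iff, mem_inertia]
    exact (and_iff_right (hn.norm trivial)).symm)
  have e2 : {ψ : H → ℂ | ∃ g : G, ψ = fun h : H => θ ⟨g * h * g⁻¹, hN.conj_mem h h.2 g⟩} =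
      ((cfclass ⊤ (extendByZero H θ)).image fun φ => fun h : H => φ h : Finset (H → ℂ)) := by
    ext ψ
    simp only [Set.mem_setOf_eq, Finset.coe_image, Set.mem_image, Finset.mem_coe, mem_cfclass]
    refine ⟨fun ⟨g, e⟩ => ⟨_, ⟨g⁻¹, trivial, rfl⟩, ?_⟩, fun ⟨_, ⟨g, _, rfl⟩, e⟩ => ⟨g⁻¹, ?_⟩⟩
    · rw [conj_eq_iff_cfcj.1 e.symm, comp_extendByZero]
    · rw [← e, eq_comm, conj_eq_iff_cfcj, inv_inv,
        extendByZero_comp_of_supp (irr_supp (cfcj_mem_irr_N hi (hn.norm trivial)))]
  rw [e1, e2, finsum_mem_coe_finset, Finset.sum_image fun a ha b hb e => by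
    rw [← extendByZero_comp_of_supp (irr_supp (cfclass_subset_irr hn.norm hi ha)), e,
      extendByZero_comp_of_supp (irr_supp (cfclass_subset_irr hn.norm hi hb))],
    indFun_eq, ind_eq_sum_cfclass hn (cf_of_irr hi),
    card_eq_relIndex_mul (le_inf le_top (le_inertia (cf_of_irr hi)))]
  ext h
  simp [card_ne_zero H]

end Cfsg.Agent.S1485
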