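import Cfsg.Statements.S1486
import Cfsg.Agent.H19.Bridge

set_option autoImplicit false
open Cfsg

namespace Cfsg.Agent.S1486

/-- Let H be a normal subgroup of the finite group G and θ, φ irreducible characters of H. If φ is a G-conjugate of θ then the functions induced from θ and φ coincide; if φ is not a G-conjugate of θ then the induced functions are orthogonal. -/
theorem result {G : Type*} [Group G] [Fintype G] (H : Subgroup G) [hN : H.Normal] (θ φ : H → ℂ) (hθ : Cfsg.IsIrrCharacter H θ) (hφ : Cfsg.IsIrrCharacter H φ) : ((∃ g : G, φ = fun h : H => θ ⟨g * h * g⁻¹, hN.conj_mem h h.2 g⟩) → Cfsg.indFun H φ = Cfsg.indFun H θ) ∧ ((¬ ∃ g : G, φ = fun h : H => θ ⟨g * h * g⁻¹, hN.conj_mem h h.2 g⟩) → Cfsg.classInner (Cfsg.indFun H φ) (Cfsg.indFun H θ) = 0) := by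
  open H19 H18 H5 Subgroup in
  have hn : H ⊴ ⊤ := nml_top_iff.2 hN
  have hi := extendByZero_mem_irr.2 hθ
  have hj := extendByZero_mem_irr.2 hφ
  have e : (∃ g : G, φ = fun h : H => θ ⟨g * h * g⁻¹, hN.conj_mem h h.2 g⟩) ↔
      extendByZero H φ ∈ cfclass ⊤ (extendByZero H θ) := by
    rw [mem_cfclass]
    exact ⟨fun ⟨g, e⟩ => ⟨g⁻¹, trivial, conj_eq_iff_cfcj.1 e.symm⟩,
      fun ⟨g, _, e⟩ => ⟨g⁻¹, (conj_eq_iff_cfcj.2 (by rwa [inv_inv])).symm⟩⟩
  rw [e, indFun_eq, indFun_eq, ← ip_top]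
  exact ⟨ind_eq_of_mem_cfclass, not_cfclass_Ind_ortho hn hi hj⟩

end Cfsg.Agent.S1486
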