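import Cfsg.Statements.S1488
import Cfsg.Agent.H19.Bridge

set_option autoImplicit false
open Cfsg

namespace Cfsg.Agent.S1488

/-- Let A be a normal subgroup of the finite group G contained in the subgroup H, let θ be a function on H and θ₁ a function on the image of H in G ⧸ A whose composite with the projection is θ. Then the function induced from θ₁ to G ⧸ A, composed with the projection G → G ⧸ A, equals the function induced from θ to G. -/
theorem result {G : Type*} [Group G] [Fintype G] (A H : Subgroup G) [A.Normal] (hAH : A ≤ H) [Fintype (G ⧸ A)] [Fintype ↥(H.map (QuotientGroup.mk' A))] (θ : H → ℂ) (θ₁ : ↥(H.map (QuotientGroup.mk' A)) → ℂ) (hθ : ∀ x : H, θ₁ ⟨QuotientGroup.mk' A x, Subgroup.mem_map_of_mem _ x.2⟩ = θ x) (g : G) : Cfsg.indFun (H.map (QuotientGroup.mk' A)) θ₁ (QuotientGroup.mk' A g) = Cfsg.indFun H θ g := by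
  classical
  have hs := QuotientGroup.mk'_surjective A
  have he : ∀ x : G, extendByZero (H.map (QuotientGroup.mk' A)) θ₁ (QuotientGroup.mk' A x) =
      extendByZero H θ x := fun x => by
    by_cases hx : x ∈ H
    · rw [H19.extendByZero_of_mem _ hx, ← hθ, H19.extendByZero_of_mem]
    · rw [H19.extendByZero_of_not_mem _ hx, H19.extendByZero_of_not_mem]
      rwa [← Subgroup.mem_comap, Subgroup.comap_map_eq, QuotientGroup.ker_mk', sup_eq_left.2 hAH]
  have h1 : (H.map (QuotientGroup.mk' A)).index = H.index :=
    Subgroup.index_map_eq _ hs (by rwa [QuotientGroup.ker_mk'])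
  have h2 : Nat.card H = Nat.card A * Nat.card (H.map (QuotientGroup.mk' A)) := by
    have := (H.map (QuotientGroup.mk' A)).card_mul_index
    have h3 := H.card_mul_index
    rw [Subgroup.card_eq_card_quotient_mul_card_subgroup A, ← this, h1] at h3
    exact Nat.eq_of_mul_eq_mul_right (Nat.pos_of_ne_zero H.index_ne_zero_of_finite) (by rw [h3]; ring)
  have h4 : ∀ q : G ⧸ A, (Finset.univ.filter fun x : G => QuotientGroup.mk' A x = q).card = Nat.card A := fun q => by
    obtain ⟨y, rfl⟩ := hs q
    rw [MonoidHom.card_fiber_eq_of_mem_range (QuotientGroup.mk' A) ⟨y, rfl⟩ ⟨1, rfl⟩, ← H19.card_els]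
    congr 1; ext x; simp
  unfold indFun
  rw [h2, ← Finset.sum_fiberwise (s := Finset.univ) (g := fun x : G => QuotientGroup.mk' A x),
    Finset.sum_congr rfl (f := fun q => ∑ x with QuotientGroup.mk' A x = q, _) fun q _ => by
      rw [Finset.sum_congr rfl fun x hx => by
        rw [← he, map_mul, map_mul, map_inv, (Finset.mem_filter.1 hx).2], Finset.sum_const, h4, nsmul_eq_mul],
    ← Finset.mul_sum]
  have := H19.card_ne_zero A
  push_cast
  field_simp

end Cfsg.Agent.S1488
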