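import Cfsg.Statements.S1492
import Cfsg.Agent.H19.Bridge

set_option autoImplicit false
open Cfsg

namespace Cfsg.Agent.S1492

/-- Let ψ be an irreducible character of the finite group G and B ≤ D ≤ C subgroups with B normal in C, every commutator of an element of D with an element of C lying in B (so D/B is central in C/B), and ψ constant equal to ψ 1 on B. Then ψ(1) ^ 2 * |C| * |D| ≤ |G| ^ 2. -/
theorem result {G : Type*} [Group G] [Finite G] (ψ : G → ℂ) (hψ : Cfsg.IsIrrCharacter G ψ) (B C D : Subgroup G) (hBD : B ≤ D) (hDC : D ≤ C) (hBn : ∀ c ∈ C, ∀ b ∈ B, c * b * c⁻¹ ∈ B) (hcent : ∀ d ∈ D, ∀ c ∈ C, d * c * d⁻¹ * c⁻¹ ∈ B) (hker : ∀ b ∈ B, ψ b = ψ 1) : ‖ψ 1‖ ^ 2 * (Nat.card C : ℝ) * (Nat.card D : ℝ) ≤ (Nat.card G : ℝ) ^ 2 := by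
  open H19 H18 H5 Subgroup in
  have := Fintype.ofFinite G
  have hi := mem_irr_top.2 hψ
  have h1 := irr1_bound_quo hi le_top hDC (le_trans (commutator_le.2 fun d hd c hc => hcent d hd c hc)
    ((le_cfker_iff (chars_of_irr hi) le_top).2 hker))
  have h2 : (0 : ℝ) ≤ dg ψ := by exact_mod_cast (irr_dg_pos hi).le
  have h3 := pow_le_pow_left₀ h2 h1 2
  rw [mul_pow, Real.sq_sqrt (Nat.cast_nonneg _)] at h3
  rw [irr_apply_one hi, Complex.norm_intCast, sq_abs, ← card_top (G := G), card_eq_relIndex_mul (le_top : C ≤ ⊤),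
    card_eq_relIndex_mul hDC]
  push_cast
  have := mul_le_mul_of_nonneg_right h3 (by positivity : (0 : ℝ) ≤ D.relIndex C * (Nat.card D : ℝ) ^ 2)
  nlinarith

end Cfsg.Agent.S1492
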