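import Cfsg.Statements.S1493
import Cfsg.Agent.H19.Bridge

set_option autoImplicit false
open Cfsg

namespace Cfsg.Agent.S1493

/-- Let G be a finite group of order a * b with a and b coprime, let k be coprime to a, and let χ be a character of G. Then there is a character χ' of G such that χ'(g) = χ(g ^ k) whenever the order of g divides a and χ'(g) = χ(g) whenever the order of g is coprime to a; moreover χ' is irreducible if χ is. -/
theorem result {G : Type*} [Group G] [Finite G] (a b k : ℕ) (hab : Nat.card G = a * b) (hcop : Nat.Coprime a b) (hk : Nat.Coprime k a) (χ : G → ℂ) (hχ : Cfsg.IsCharacter G χ) : ∃ χ' : G → ℂ, Cfsg.IsCharacter G χ' ∧ (Cfsg.IsIrrCharacter G χ → Cfsg.IsIrrCharacter G χ') ∧ (∀ g : G, orderOf g ∣ a → χ' g = χ (g ^ k)) ∧ (∀ g : G, Nat.Coprime (orderOf g) a → χ' g = χ g) := by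
  open H19 H18 H5 Subgroup in
  have := Fintype.ofFinite G
  obtain ⟨σ, -, h⟩ := make_pi_cfAut G (Nat.pos_of_ne_zero fun e => by
    rw [e, zero_mul] at hab; exact Nat.card_pos.ne' hab) hk
  have hc := mem_chars_top.2 hχ
  exact ⟨σ ∘ χ, mem_chars_top.1 (aut_mem_chars σ hc), fun e => mem_irr_top.1 (aut_mem_irr σ (mem_irr_top.2 e)),
    fun g => (h ⊤ χ (vchar_of_chars hc) g).1, fun g => (h ⊤ χ (vchar_of_chars hc) g).2⟩

end Cfsg.Agent.S1493
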