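import Cfsg.Statements.S1502
import Cfsg.Agent.H19.Bridge

set_option autoImplicit false
open Cfsg

namespace Cfsg.Agent.S1502

/-- Let W₁, W₂ be nontrivial subgroups of the finite group G generating a cyclic subgroup W = W₁ ⊔ W₂ of odd order that is the normaliser of every nonempty set of its elements outside W₁ ∪ W₂. Then there is a family attaching to each linear character ω of W an irreducible character of G up to sign, orthonormal, sending the trivial character to the principal character, with χ ω = ω on W outside W₁ ∪ W₂, and such that inducing (1 − φ)(1 − ψ) to G gives 1 − χ φ − χ ψ + χ (φψ) whenever φ ≠ 1 is trivial on W₂ and ψ ≠ 1 is trivial on W₁. -/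
theorem result {G : Type*} [Group G] [Fintype G] (W₁ W₂ : Subgroup G) (hW : Cfsg.IsSelfNormalizingCyclic W₁ W₂) (hodd : Odd (Nat.card ↥(W₁ ⊔ W₂))) : ∃ χ : (↥(W₁ ⊔ W₂) →* ℂˣ) → (G → ℂ), Cfsg.IsCyclicTIFamily W₁ W₂ χ := by
  open H19 H18 H5 Subgroup in
  have h := cycTI_of_selfNormalizing hW hodd
  refine ⟨fun ω => H19.sigma ⊤ W₁ W₂ (lch ω), fun ω => (h.cycTIiso_dirr (lch_irr ω)).imp mem_irr_top.1 mem_irr_top.1,
    fun ω ω' => ?_, ?_, fun ω w h1 h2 => ?_, fun φ ψ _ _ h1 h2 => ?_⟩
  · rw [← ip_top, h.cfdot_cycTIiso (cf_of_irr (lch_irr _)) (cf_of_irr (lch_irr _)), ip_irr (lch_irr _) (lch_irr _)]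
    by_cases e : ω = ω' <;> simp [e, lch_inj]
  · rw [lch_one, h.cycTIiso1, triv_top]; rfl
  · rw [h.cycTIiso_restrict (cf_of_irr (lch_irr _)) ⟨w.2, h1, h2⟩, lch_coe]
  · rw [indFun_eq, alpha_eq h.cent h.inf h1 h2, h.cfInd_alpha (triv_mem_irr _) (triv_mem_irr _)
      (res_lch_irr le_sup_left _) (res_lch_irr le_sup_right _), h.eta00, triv_top, eta, eta, eta,
      ← lch_left h.cent h.inf h1, ← lch_right h.cent h.inf h2, ← lch_mul_eq h.cent h.inf h1 h2]
    rfl

end Cfsg.Agent.S1502
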