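import Cfsg.Statements.S1504
import Cfsg.Agent.H19.Bridge

set_option autoImplicit false
open Cfsg

namespace Cfsg.Agent.S1504

/-- Let W₁, W₂ be subgroups of a finite group with W₁ ⊓ W₂ = ⊥ whose elements commute, and W = W₁ ⊔ W₂. For linear characters φ, ψ of W with φ trivial on W₂ and ψ trivial on W₁, the function (1 − φ)(1 − ψ) vanishes on W₁ ∪ W₂; and the family of these functions, indexed by pairs (φ, ψ) with φ ≠ 1 ≠ ψ, is linearly independent over ℂ. -/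
theorem result {G : Type*} [Group G] [Finite G] (W₁ W₂ : Subgroup G) (hdisj : W₁ ⊓ W₂ = ⊥) (hcomm : ∀ a ∈ W₁, ∀ b ∈ W₂, a * b = b * a) : (∀ φ ψ : ↥(W₁ ⊔ W₂) →* ℂˣ, (∀ w : ↥(W₁ ⊔ W₂), (w : G) ∈ W₂ → φ w = 1) → (∀ w : ↥(W₁ ⊔ W₂), (w : G) ∈ W₁ → ψ w = 1) → ∀ w : ↥(W₁ ⊔ W₂), ((w : G) ∈ W₁ ∨ (w : G) ∈ W₂) → (1 - (φ w : ℂ) - (ψ w : ℂ) + (φ w : ℂ) * (ψ w : ℂ)) = 0) ∧ LinearIndependent ℂ (fun p : {p : (↥(W₁ ⊔ W₂) →* ℂˣ) × (↥(W₁ ⊔ W₂) →* ℂˣ) // p.1 ≠ 1 ∧ p.2 ≠ 1 ∧ (∀ w : ↥(W₁ ⊔ W₂), (w : G) ∈ W₂ → p.1 w = 1) ∧ (∀ w : ↥(W₁ ⊔ W₂), (w : G) ∈ W₁ → p.2 w = 1)} => fun w : ↥(W₁ ⊔ W₂) => 1 - (p.1.1 w : ℂ) - (p.1.2 w : ℂ) + (p.1.1 w : ℂ) * (p.1.2 w : ℂ)) := by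
  refine ⟨fun φ ψ h1 h2 w hw => ?_, linearIndependent_iff'.2 fun s g hg p hp => ?_⟩
  · rcases hw with hw | hw
    · simp [h2 w hw]
    · simp [h1 w hw]
  open H19 H18 H5 Subgroup in
  classical
  have := Fintype.ofFinite G
  have hc : W₁ ≤ C(W₂) := fun a ha => mem_centralizer_iff.2 fun b hb => (hcomm a ha b hb).symm
  have h1 := congrArg (fun f => ip (W₁ ⊔ W₂) (ext0 _ f)
    (cfDprod W₁ W₂ (res W₁ (lch p.1.1)) (res W₂ (lch p.1.2)))) hg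
  simp only [map_sum, map_smul, map_zero, ip_sum_left, ip_smul_left, ip_zero_left, ext0_apply] at h1
  have t1 := triv_mem_irr W₁
  have t2 := triv_mem_irr W₂
  have n1 : triv W₁ ≠ res W₁ (lch p.1.1) := fun e => p.2.1 ((res_left_inj hc hdisj p.2.2.2.1 fun _ _ => rfl).1
    (by rw [← e, lch_one, res_triv le_sup_left]))
  have n2 : triv W₂ ≠ res W₂ (lch p.1.2) := fun e => p.2.2.1 ((res_right_inj hc hdisj p.2.2.2.2 fun _ _ => rfl).1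
    (by rw [← e, lch_one, res_triv le_sup_right]))
  have l1 := fun ω => res_lch_irr (W := W₁ ⊔ W₂) le_sup_left ω
  have l2 := fun ω => res_lch_irr (W := W₁ ⊔ W₂) le_sup_right ω
  rw [Finset.sum_congr rfl (g := fun q => if q = p then g q else 0) fun q _ => by
    rw [alpha_eq hc hdisj q.2.2.2.1 q.2.2.2.2]
    simp only [cfDprod_sub_left, cfDprod_sub_right, ip_sub_left, ip_cfDprod_irr hc hdisj, t1, t2, l1, l2, n1, n2,
      res_left_inj hc hdisj q.2.2.2.1 p.2.2.2.1, res_right_inj hc hdisj q.2.2.2.2 p.2.2.2.2]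
    simp [Subtype.ext_iff, Prod.ext_iff]] at h1
  simpa [hp] using h1

end Cfsg.Agent.S1504
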