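import Cfsg.Statements.S1505
import Cfsg.Agent.H19.Bridge

set_option autoImplicit false
open Cfsg

namespace Cfsg.Agent.S1505

open Classical in
/-- Let W₁, W₂ ≤ G form a self-normalising cyclic subgroup W = W₁ ⊔ W₂. For nontrivial linear characters φ, φ' of W trivial on W₂ and ψ, ψ' trivial on W₁, put α = (1 − φ)(1 − ψ) and α' = (1 − φ')(1 − ψ'). Then the function induced from α to G has inner product 1 with the principal character, and the inner product of the functions induced from α and α' is 1 + a + b + ab where a = 1 if φ = φ' (else 0) and b = 1 if ψ = ψ' (else 0). -/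
theorem result {G : Type*} [Group G] [Fintype G] (W₁ W₂ : Subgroup G) (hW : Cfsg.IsSelfNormalizingCyclic W₁ W₂) (φ φ' ψ ψ' : ↥(W₁ ⊔ W₂) →* ℂˣ) (hφ : φ ≠ 1) (hφ' : φ' ≠ 1) (hψ : ψ ≠ 1) (hψ' : ψ' ≠ 1) (hφ₂ : ∀ w : ↥(W₁ ⊔ W₂), (w : G) ∈ W₂ → φ w = 1 ∧ φ' w = 1) (hψ₁ : ∀ w : ↥(W₁ ⊔ W₂), (w : G) ∈ W₁ → ψ w = 1 ∧ ψ' w = 1) : Cfsg.classInner (Cfsg.indFun (W₁ ⊔ W₂) (fun w => 1 - (φ w : ℂ) - (ψ w : ℂ) + (φ w : ℂ) * (ψ w : ℂ))) (fun _ => 1) = 1 ∧ Cfsg.classInner (Cfsg.indFun (W₁ ⊔ W₂) (fun w => 1 - (φ w : ℂ) - (ψ w : ℂ) + (φ w : ℂ) * (ψ w : ℂ))) (Cfsg.indFun (W₁ ⊔ W₂) (fun w => 1 - (φ' w : ℂ) - (ψ' w : ℂ) + (φ' w : ℂ) * (ψ' w : ℂ))) = 1 + (if φ = φ' then 1 else 0) + (if ψ = ψ' then 1 else 0) + (if φ = φ' then 1 else 0) * (if ψ = ψ' then 1 else 0) := by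
  open H19 H18 H5 Subgroup in
  have hc := snc_cent hW
  have hd := hW.2.2.1
  have t1 := triv_mem_irr W₁
  have t2 := triv_mem_irr W₂
  have l1 := fun ω => res_lch_irr (W := W₁ ⊔ W₂) le_sup_left ω
  have l2 := fun ω => res_lch_irr (W := W₁ ⊔ W₂) le_sup_right ω
  have n1 : ∀ φ : ↥(W₁ ⊔ W₂) →* ℂˣ, φ ≠ 1 → (∀ w : ↥(W₁ ⊔ W₂), (w : G) ∈ W₂ → φ w = 1) →
      res W₁ (lch φ) ≠ triv W₁ := fun φ h h' e => h ((res_left_inj hc hd h' fun _ _ => rfl).1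
    (by rw [e, lch_one, res_triv le_sup_left]))
  have n2 : ∀ φ : ↥(W₁ ⊔ W₂) →* ℂˣ, φ ≠ 1 → (∀ w : ↥(W₁ ⊔ W₂), (w : G) ∈ W₁ → φ w = 1) →
      res W₂ (lch φ) ≠ triv W₂ := fun φ h h' e => h ((res_right_inj hc hd h' fun _ _ => rfl).1
    (by rw [e, lch_one, res_triv le_sup_right]))
  have a1 := fun w h => (hφ₂ w h).1
  have a2 := fun w h => (hφ₂ w h).2
  have b1 := fun w h => (hψ₁ w h).1
  have b2 := fun w h => (hψ₁ w h).2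
  have on : ∀ φ ψ : ↥(W₁ ⊔ W₂) →* ℂˣ, cfDprod W₁ W₂ (triv W₁ - res W₁ (lch φ)) (triv W₂ - res W₂ (lch ψ)) ∈
      cfOn (W₁ ⊔ W₂) (cycV W₁ W₂) := fun φ ψ => cfDprod_mem_cfOn hc hd (sub_mem (cf_of_irr t1) (cf_of_irr (l1 _)))
        (sub_mem (cf_of_irr t2) (cf_of_irr (l2 _))) (by simp [lch_one']) (by simp [lch_one'])
  rw [indFun_eq, indFun_eq, alpha_eq hc hd a1 b1, alpha_eq hc hd a2 b2, ← ip_top, ← ip_top,
    ip_ind_left _ _ (by simp), ip_ind_ind_of_nti (nti_of_selfNormalizing hW) (on _ _).2 (on _ _).1 (on _ _).2,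
    ← ip_res_right (on _ _).1.1, show res (W₁ ⊔ W₂) (fun _ => 1) = triv (W₁ ⊔ W₂) from rfl, ← cfDprod_triv hc hd]
  simp only [cfDprod_sub_left, cfDprod_sub_right, ip_sub_left, ip_sub_right, ip_cfDprod_irr hc hd, t1, t2, l1, l2,
    n1 _ hφ a1, n1 _ hφ' a2, n2 _ hψ b1, n2 _ hψ' b2, (n1 _ hφ' a2).symm, (n2 _ hψ' b2).symm,
    res_left_inj hc hd a1 a2, res_right_inj hc hd b1 b2]
  by_cases e : φ = φ' <;> by_cases e' : ψ = ψ' <;> simp [e, e'] <;> norm_num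

end Cfsg.Agent.S1505
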