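import Cfsg.Statements.S1507
import Cfsg.Agent.H19.Bridge

set_option autoImplicit false
open Cfsg

namespace Cfsg.Agent.S1507

open Classical in
/-- Let W₁, W₂ ≤ G form a self-normalising cyclic subgroup W = W₁ ⊔ W₂ of odd order with Nat.card W₁ < Nat.card W₂, and χ an orthonormal family of irreducible characters of G up to sign, indexed by the linear characters ω of W, with χ_1 = 1, χ_ω = ω on W outside W₁ ∪ W₂, and the induction identity for (1 − φ)(1 − ψ). Let θ be a class function of G vanishing on W outside W₁ ∪ W₂, and suppose fewer than 2 · Nat.card W₁ linear characters ω of W have ⟨θ, χ ω⟩ ≠ 0. Then one of: all ⟨θ, χ ω⟩ vanish; or there are ψ₀ and a with ⟨θ, χ ω⟩ = a when ω ψ₀⁻¹ is trivial on W₂ and 0 otherwise; or there are φ₀ and a with ⟨θ, χ ω⟩ = a when ω φ₀⁻¹ is trivial on W₁ and 0 otherwise. -/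
theorem result {G : Type*} [Group G] [Fintype G] (W₁ W₂ : Subgroup G) (hW : Cfsg.IsSelfNormalizingCyclic W₁ W₂) (hodd : Odd (Nat.card ↥(W₁ ⊔ W₂))) (χ : (↥(W₁ ⊔ W₂) →* ℂˣ) → (G → ℂ)) (hχ : Cfsg.IsCyclicTIFamily W₁ W₂ χ) (hlt : Nat.card W₁ < Nat.card W₂) (θ : G → ℂ) (hθ : Cfsg.IsClassFunction G θ) (hθV : ∀ w : ↥(W₁ ⊔ W₂), (w : G) ∉ W₁ → (w : G) ∉ W₂ → θ w = 0) (hfew : Nat.card {ω : ↥(W₁ ⊔ W₂) →* ℂˣ // Cfsg.classInner θ (χ ω) ≠ 0} < 2 * Nat.card W₁) : (∀ ω, Cfsg.classInner θ (χ ω) = 0) ∨ (∃ (ψ₀ : ↥(W₁ ⊔ W₂) →* ℂˣ) (a : ℂ), ∀ ω, Cfsg.classInner θ (χ ω) = if (∀ w : ↥(W₁ ⊔ W₂), (w : G) ∈ W₂ → (ω * ψ₀⁻¹) w = 1) then a else 0) ∨ (∃ (φ₀ : ↥(W₁ ⊔ W₂) →* ℂˣ) (a : ℂ), ∀ ω, Cfsg.classInner θ (χ ω) = if (∀ w : ↥(W₁ ⊔ W₂), (w : G) ∈ W₁ → (ω * φ₀⁻¹) w = 1) then a else 0) := by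
  open H19 H18 H5 Subgroup in
  classical
  obtain ⟨σ, h1, h2⟩ := exists_sigma_of_family hW hχ
  have h := cycTI_of_selfNormalizing hW hodd
  have l1 := fun ω => res_lch_irr (W := W₁ ⊔ W₂) le_sup_left ω
  have l2 := fun ω => res_lch_irr (W := W₁ ⊔ W₂) le_sup_right ω
  have e : ∀ ω, χ ω = eta ⊤ W₁ W₂ (res W₁ (lch ω)) (res W₂ (lch ω)) := fun ω => by
    rw [← h2, h.eq_sigma h1 (cf_of_irr (lch_irr ω)), eta, ← lch_eq_cfDprod h.cent h.inf]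
  by_cases h0 : ∀ ω, classInner θ (χ ω) = 0
  · exact Or.inl h0
  obtain ⟨ω₀, h0⟩ := not_forall.1 h0
  have hN : NC ⊤ W₁ W₂ θ = Nat.card {ω : ↥(W₁ ⊔ W₂) →* ℂˣ // classInner θ (χ ω) ≠ 0} := by
    rw [NC, ← Nat.card_eq_finsetCard]
    refine (Nat.card_eq_of_bijective (fun ω => ⟨(res W₁ (lch ω.1), res W₂ (lch ω.1)), Finset.mem_filter.2
      ⟨Finset.mem_product.2 ⟨l1 _, l2 _⟩, by rw [← e, ip_top]; exact ω.2⟩⟩) ⟨fun a b e => ?_, fun p => ?_⟩).symm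
    · obtain ⟨a1, a2⟩ := Prod.ext_iff.1 (congrArg Subtype.val e)
      exact Subtype.ext (lch_inj.1 (by
        rw [lch_eq_cfDprod h.cent h.inf, show res W₁ _ = _ from a1, show res W₂ _ = _ from a2,
          ← lch_eq_cfDprod h.cent h.inf]))
    · obtain ⟨hp, hp'⟩ := Finset.mem_filter.1 p.2
      obtain ⟨hi, hj⟩ := Finset.mem_product.1 hp
      obtain ⟨ω, e'⟩ := exists_lch h.abel (h.omega_irr hi hj)
      obtain ⟨a, b⟩ := res_of_lch_eq h.cent h.inf hi hj e'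
      exact ⟨⟨ω, by rwa [e, a, b, ← ip_top]⟩, Subtype.ext (Prod.ext a b)⟩
  have := h.small_NC (mem_cf_top.2 hθ) (fun x hx => hθV ⟨x, hx.1⟩ hx.2.1 hx.2.2)
    (by rwa [hN, min_eq_left hlt.le]) (l1 ω₀) (l2 ω₀) (by rwa [← e, ip_top])
  refine Or.inr (this.imp (fun H => ⟨ω₀, ip ⊤ θ (eta ⊤ W₁ W₂ (res W₁ (lch ω₀)) (res W₂ (lch ω₀))), fun ω => ?_⟩)
    fun H => ⟨ω₀, ip ⊤ θ (eta ⊤ W₁ W₂ (res W₁ (lch ω₀)) (res W₂ (lch ω₀))), fun ω => ?_⟩)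
  · rw [← ip_top, e, H _ (l1 _) _ (l2 _)]
    simp only [res_lch_eq_iff le_sup_right, MonoidHom.mul_apply, MonoidHom.inv_apply, mul_inv_eq_one]
  · rw [← ip_top, e, H _ (l1 _) _ (l2 _)]
    simp only [res_lch_eq_iff le_sup_left, MonoidHom.mul_apply, MonoidHom.inv_apply, mul_inv_eq_one]

end Cfsg.Agent.S1507
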