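import Cfsg.Statements.S1511
import Cfsg.Agent.H19.Bridge

set_option autoImplicit false
open Cfsg

namespace Cfsg.Agent.S1511

/-- Let L be a finite group with K normal with complement W₁ ≠ 1 a cyclic Hall subgroup, and W₂ ≠ 1 a cyclic subgroup of K equal to C_K(x) for every non-identity x ∈ W₁, with W₁W₂ of odd order. Then there are a map μ from the linear characters of W = W₁ ⊔ W₂ to irreducible characters of L, injective, and a sign δ(ω) ∈ {1, −1} depending only on the values of ω on W₂, such that: for ω, ω' agreeing on W₂, the function induced to L from ω − ω' equals δ(ω) • (μ ω − μ ω'); μ ω x = δ(ω) ω x for x ∈ W outside W₂; every irreducible character of L not of the form μ ω vanishes on W outside W₂; and μ ω 1 − δ(ω) is an integer multiple of Nat.card W₁. -/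
theorem result {L : Type*} [Group L] [Fintype L] (K W₁ W₂ : Subgroup L) [hK : K.Normal] (hKW₁ : K ⊓ W₁ = ⊥) (hKW₁' : K ⊔ W₁ = ⊤) (hW₁ : W₁ ≠ ⊥) (hW₁c : IsCyclic W₁) (hHall : Nat.Coprime (Nat.card W₁) W₁.index) (hW₂ : W₂ ≠ ⊥) (hW₂c : IsCyclic W₂) (hW₂K : W₂ ≤ K) (hC : ∀ x ∈ W₁, x ≠ 1 → K ⊓ Subgroup.centralizer ({x} : Set L) = W₂) (hodd : Odd (Nat.card ↥(W₁ ⊔ W₂))) : ∃ (μ : (↥(W₁ ⊔ W₂) →* ℂˣ) → (L → ℂ)) (δ : (↥(W₁ ⊔ W₂) →* ℂˣ) → ℂ), Function.Injective μ ∧ (∀ ω, Cfsg.IsIrrCharacter L (μ ω)) ∧ (∀ ω, δ ω = 1 ∨ δ ω = -1) ∧ (∀ ω ω' : ↥(W₁ ⊔ W₂) →* ℂˣ, (∀ w : ↥(W₁ ⊔ W₂), (w : L) ∈ W₂ → ω w = ω' w) → δ ω = δ ω' ∧ Cfsg.indFun (W₁ ⊔ W₂) (fun w => (ω w : ℂ) - (ω' w : ℂ)) = δ ω • (μ ω - μ ω')) ∧ (∀ ω, ∀ w : ↥(W₁ ⊔ W₂), (w : L) ∉ W₂ → μ ω w = δ ω * (ω w : ℂ)) ∧ (∀ θ : L → ℂ, Cfsg.IsIrrCharacter L θ → (∀ ω, θ ≠ μ ω) → ∀ w : ↥(W₁ ⊔ W₂), (w :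 L) ∉ W₂ → θ w = 0) ∧ (∀ ω, ∃ n : ℤ, μ ω 1 - δ ω = n * (Nat.card W₁ : ℂ)) := by
  open H19 H18 H5 Subgroup in
  have h := primeTI_of_frozen hKW₁ hKW₁' hW₁ hW₁c hHall hW₂ hW₂c hW₂K hC hodd
  have hc := h.cycTI.cent
  have hd := h.cycTI.inf
  have l1 := fun ω => res_lch_irr (W := W₁ ⊔ W₂) le_sup_left ω
  have l2 := fun ω => res_lch_irr (W := W₁ ⊔ W₂) le_sup_right ω
  refine ⟨fun ω => mu2 ⊤ W₁ W₂ (res W₁ (lch ω)) (res W₂ (lch ω)), fun ω => delta ⊤ W₁ W₂ (res W₂ (lch ω)),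
    fun ω ω' e => ?_, fun ω => mem_irr_top.1 (h.mu2_irr (l1 _) (l2 _)), fun ω => ?_, fun ω ω' e => ?_,
    fun ω w hw => ?_, fun θ hθ hne w hw => ?_, fun ω => ?_⟩
  · obtain ⟨a, b⟩ := h.prTIirr_inj (l1 _) (l2 _) (l1 _) (l2 _) e
    exact lch_inj.1 (by rw [lch_eq_cfDprod hc hd, a, b, ← lch_eq_cfDprod hc hd])
  · rcases delta_sign ⊤ W₁ W₂ (res W₂ (lch ω)) with e | e <;> simp [e]
  · have e' := (res_lch_eq_iff le_sup_right ω ω').2 e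
    refine ⟨by simp only [e'], ?_⟩
    have := h.cfInd_sub_prTIirr (l1 ω) (l1 ω') (l2 ω)
    rw [← lch_eq_cfDprod hc hd] at this
    nth_rw 1 [e'] at this
    rw [← lch_eq_cfDprod hc hd] at this
    simp only [← e', Int.cast_smul_eq_zsmul, ← this, indFun_eq]
    exact congrArg _ (map_sub (ext0 _) (fun w => (ω w : ℂ)) fun w => (ω' w : ℂ))
  · beta_reduce
    rw [h.prTIirr_id (l1 _) (l2 _) ⟨w.2, hw⟩, ← lch_eq_cfDprod hc hd, lch_coe]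
  · refine h.not_prTIirr_vanish (mem_irr_top.2 hθ) (fun i hi j hj e => ?_) w ⟨w.2, hw⟩
    obtain ⟨ω, e'⟩ := exists_lch h.cycTI.abel (h.cycTI.omega_irr hi hj)
    obtain ⟨a, b⟩ := res_of_lch_eq hc hd hi hj e'
    exact hne ω (by simp only [a, b, e])
  · obtain ⟨n, e⟩ := h.prTIirr1_mod (l1 ω) (l2 ω)
    exact ⟨n, by beta_reduce; rw [irr_apply_one (h.mu2_irr (l1 _) (l2 _)), mul_comm]; exact_mod_cast e⟩

end Cfsg.Agent.S1511
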