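import Cfsg.Statements.S1513
import Cfsg.Agent.H19.Bridge

set_option autoImplicit false
open Cfsg

namespace Cfsg.Agent.S1513

/-- Let L be a finite group with K normal with complement W₁ ≠ 1 a cyclic Hall subgroup, and W₂ ≠ 1 a cyclic subgroup of K equal to C_K(x) for every non-identity x ∈ W₁, with W₁W₂ of odd order. For an irreducible character θ of K: if θ is not fixed under conjugation by some element of W₁, then the function induced from θ to L is an irreducible character of L; and the irreducible characters of K fixed by all of W₁ are exactly Nat.card W₂ in number, each inducing to the sum of Nat.card W₁ pairwise distinct irreducible characters of L. -/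
theorem result {L : Type*} [Group L] [Fintype L] (K W₁ W₂ : Subgroup L) [hK : K.Normal] (hKW₁ : K ⊓ W₁ = ⊥) (hKW₁' : K ⊔ W₁ = ⊤) (hW₁ : W₁ ≠ ⊥) (hW₁c : IsCyclic W₁) (hHall : Nat.Coprime (Nat.card W₁) W₁.index) (hW₂ : W₂ ≠ ⊥) (hW₂c : IsCyclic W₂) (hW₂K : W₂ ≤ K) (hC : ∀ x ∈ W₁, x ≠ 1 → K ⊓ Subgroup.centralizer ({x} : Set L) = W₂) (hodd : Odd (Nat.card ↥(W₁ ⊔ W₂))) : (∀ θ : K → ℂ, Cfsg.IsIrrCharacter K θ → (∃ x ∈ W₁, (fun k : K => θ ⟨x * k * x⁻¹, hK.conj_mem (k : L) k.2 x⟩) ≠ θ) → Cfsg.IsIrrCharacter L (Cfsg.indFun K θ)) ∧ Nat.card {θ : Cfsg.IrrCharacter K // ∀ x ∈ W₁, (fun k : K => (θ : K → ℂ) ⟨x * k * x⁻¹, hK.conj_mem (k : L) k.2 x⟩) = θ} = Nat.card W₂ ∧ (∀ θ : K → ℂ, Cfsg.IsIrrCharacter K θ → (∀ x ∈ W₁, (fun k : K => θ ⟨x * k * x⁻¹, hK.conj_mem (k : L) k.2 x⟩) = θ) → ∃ C : Finset (L → ℂ), C.card = Nat.card W₁ ∧ (∀ μ ∈ C, Cfsg.IsIrrCharacter L μ) ∧ Cfsg.indFun K θ = ∑ μ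 ∈ C, μ) := by
  open H19 H18 H5 Subgroup in
  classical
  have h := primeTI_of_frozen hKW₁ hKW₁' hW₁ hW₁c hHall hW₂ hW₂c hW₂K hC hodd
  obtain ⟨x, hx, hx1⟩ := exists_mem_ne_one' hW₁
  have key : ∀ θ : K → ℂ, IsIrrCharacter K θ → ((∀ x ∈ W₁, (fun k : K => θ ⟨x * k * x⁻¹, hK.conj_mem (k : L) k.2 x⟩) = θ) ↔
      ∃ j ∈ irr W₂, extendByZero K θ = chi_ ⊤ K W₁ W₂ j) := fun θ hθ =>
    ⟨fun e => h.eq_prTIres_of_fixed (extendByZero_mem_irr.2 hθ) (inv_mem hx) (inv_ne_one.2 hx1)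
      (conj_eq_iff_cfcj.1 (e x hx)), fun ⟨j, hj, e⟩ y _ => conj_eq_iff_cfcj.2 (by
        rw [e]; exact (h.le_inertia_prTIres hj trivial).2)⟩
  refine ⟨fun θ hθ ⟨y, hy, hne⟩ => ?_, ?_, fun θ hθ e => ?_⟩
  · rw [indFun_eq, ← mem_irr_top]
    exact ((h.prTIres_irr_cases (extendByZero_mem_irr.2 hθ)).resolve_left
      fun e => hne ((key θ hθ).2 e y hy)).1
  · rw [← h.cycTI.card_irr2, ← Nat.card_eq_finsetCard]
    refine (Nat.card_eq_of_bijective (fun j : irr W₂ => ⟨⟨fun k : K => chi_ ⊤ K W₁ W₂ j k,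
      (mem_irr.1 (h.prTIres_irr j.2)).2⟩, (key _ (mem_irr.1 (h.prTIres_irr j.2)).2).2
        ⟨j, j.2, extendByZero_comp_of_supp (irr_supp (h.prTIres_irr j.2))⟩⟩) ⟨fun j k e => ?_, fun θ => ?_⟩).symm
    · refine Subtype.ext (h.prTIres_inj j.2 k.2 ?_)
      rw [← extendByZero_comp_of_supp (irr_supp (h.prTIres_irr j.2)),
        ← extendByZero_comp_of_supp (irr_supp (h.prTIres_irr k.2))]
      exact congrArg (fun θ => extendByZero K θ.1.1) e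
    · obtain ⟨j, hj, e⟩ := (key _ θ.1.2).1 θ.2
      exact ⟨⟨j, hj⟩, Subtype.ext (Subtype.ext (by simp only [← e, comp_extendByZero]))⟩
  · obtain ⟨j, hj, e⟩ := (key θ hθ).1 e
    have inj : Set.InjOn (fun i => mu2 ⊤ W₁ W₂ i j) (irr W₁ : Set (L → ℂ)) :=
      fun a ha b hb e => (h.prTIirr_inj ha hj hb hj e).1
    refine ⟨(irr W₁).image fun i => mu2 ⊤ W₁ W₂ i j, by rw [Finset.card_image_of_injOn inj, h.cycTI.card_irr1],
      fun μ hμ => ?_, by rw [Finset.sum_image inj, indFun_eq, e, h.cfInd_prTIres hj, mu_]⟩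
    obtain ⟨i, hi, rfl⟩ := Finset.mem_image.1 hμ
    exact mem_irr_top.1 (h.mu2_irr hi hj)

end Cfsg.Agent.S1513
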