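import Cfsg.Statements.S1514
import Cfsg.Agent.H19.Bridge

set_option autoImplicit false
open Cfsg

namespace Cfsg.Agent.S1514

/-- Let S be a nonempty set of irreducible characters of the finite group L, closed under complex conjugation and containing no real-valued member, and τ a linear isometry on the integer combinations of S vanishing at 1, with values virtual characters of G vanishing at 1. Then there is a choice R making (S, τ, R) a coherence system. -/
theorem result {L : Type*} [Group L] [Fintype L] {G : Type*} [Group G] [Fintype G] (S : Set (L → ℂ)) (hS : S.Nonempty) (hirr : ∀ χ ∈ S, Cfsg.IsIrrCharacter L χ) (hconj : ∀ χ ∈ S, Cfsg.conjFun χ ∈ S ∧ Cfsg.conjFun χ ≠ χ) (τ : (L → ℂ) → (G → ℂ)) (hτ : Cfsg.IsLinearIsometryOn (Cfsg.zspanOn S {1}ᶜ) τ) (hτ1 : ∀ α ∈ Cfsg.zspanOn S {1}ᶜ, τ α 1 = 0) : ∃ R : (L → ℂ) → Finset (G → ℂ), Cfsg.IsCoherenceSystem S τ R := by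
  open H19 in
  obtain ⟨S, rfl, hi⟩ := exists_finset_of_irr hirr
  obtain ⟨τ', hI, e⟩ := exists_isom (E := zs1 S) (t := τ) (by rw [← zspanOn_eq]; exact hτ)
  obtain ⟨R, h⟩ := irr_subcoherent hi (fun χ h => (hconj χ h).1) (fun χ h => (hconj χ h).2) hI
    fun α ha => by rw [e α ha, hτ1 α (mem_zspanOn_iff.2 ha)]
  exact ⟨R, h.system e hS hτ⟩

end Cfsg.Agent.S1514
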