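import Cfsg.Statements.S1515
import Cfsg.Agent.H19.Bridge

set_option autoImplicit false
open Cfsg

namespace Cfsg.Agent.S1515

/-- Let (S, τ, R) be a coherence system from L to G, χ ∈ S, and ψ an integer combination of S with ⟨χ, ψ⟩ = ⟨conj χ, ψ⟩ = 0. Let τ₁ be a linear isometry on the integer combinations of χ − ψ and χ − conj χ, with virtual-character values, agreeing with τ on integer multiples of χ − conj χ. Then the sum over α ∈ R χ of the squared absolute values of ⟨τ₁(χ − ψ), α⟩ is at least ⟨χ, χ⟩; and if ⟨τ₁(χ − ψ), τ₁(χ − ψ)⟩ minus that sum is at least ⟨ψ, ψ⟩, then the sum equals ⟨χ, χ⟩ and every ⟨τ₁(χ − ψ), α⟩ with α ∈ R χ is 0 or 1. -/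
theorem result {L : Type*} [Group L] [Fintype L] {G : Type*} [Group G] [Fintype G] (S : Set (L → ℂ)) (τ : (L → ℂ) → (G → ℂ)) (R : (L → ℂ) → Finset (G → ℂ)) (hS : Cfsg.IsCoherenceSystem S τ R) (χ : L → ℂ) (hχ : χ ∈ S) (ψ : L → ℂ) (hψ : ψ ∈ Cfsg.zspan S) (h1 : Cfsg.classInner χ ψ = 0) (h2 : Cfsg.classInner (Cfsg.conjFun χ) ψ = 0) (τ₁ : (L → ℂ) → (G → ℂ)) (hτ₁ : Cfsg.IsLinearIsometryOn (Cfsg.zspan {χ - ψ, χ - Cfsg.conjFun χ}) τ₁) (hagree : ∀ n : ℤ, τ₁ (n • (χ - Cfsg.conjFun χ)) = τ (n • (χ - Cfsg.conjFun χ))) : (Cfsg.classInner χ χ).re ≤ ∑ α ∈ R χ, ‖Cfsg.classInner (τ₁ (χ - ψ)) α‖ ^ 2 ∧ ((Cfsg.classInner ψ ψ).re ≤ (Cfsg.classInner (τ₁ (χ - ψ)) (τ₁ (χ - ψ))).re - ∑ α ∈ R χ, ‖Cfsg.classInner (τ₁ (χ - ψ)) α‖ ^ 2 → (∑ α ∈ R χ, ‖Cfsg.classInner (τ₁ (χ - ψ)) α‖ ^ 2 = (Cfsg.classInner χ χ).re ∧ ∀ α ∈ R χ, Cfsg.classInner (τ₁ (χ -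 ψ)) α = 0 ∨ Cfsg.classInner (τ₁ (χ - ψ)) α = 1)) := by
  open H19 in
  classical
  obtain ⟨S, τ', rfl, h, e⟩ := exists_subcoherent hS
  have m1 : χ - ψ ∈ zspan ({χ - ψ, χ - conjFun χ} : Set (L → ℂ)) := Submodule.subset_span (by simp)
  have m2 : χ - conjFun χ ∈ zspan ({χ - ψ, χ - conjFun χ} : Set (L → ℂ)) := Submodule.subset_span (by simp)
  have hv := mem_vchar_top.2 (hτ₁.2.2.2 _ m1)
  have e1 : τ₁ (χ - conjFun χ) = τ' (χ - star χ) := by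
    have := hagree 1
    rw [one_smul] at this
    rw [this, e _ (h.sub_star hχ)]; rfl
  have o1 : ip ⊤ ψ χ = 0 := ip_comm_of_zero (by rwa [ip_top])
  have o2 : ip ⊤ ψ (star χ) = 0 := ip_comm_of_zero (by rwa [ip_top])
  have o3 := h.ip_star hχ
  obtain ⟨c, c1, c2, c3, c4⟩ := h.proj hχ hv (by
    rw [← e1, ip_top, hτ₁.2.2.1 _ m1 _ m2, ← ip_top]
    change ip ⊤ (χ - ψ) (χ - star χ) = _
    simp [o1, o2, o3])
  have n1 : ipr ⊤ (τ₁ (χ - ψ)) (τ₁ (χ - ψ)) = ipr ⊤ χ χ + ipr ⊤ ψ ψ := by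
    rw [← ipr_sub_self_of_orth (ip_comm_of_zero o1), ipr, ipr, ip_top, ip_top, hτ₁.2.2.1 _ m1 _ m1]
  simp only [← ip_top]
  rw [Finset.sum_congr rfl (g := fun α => (c α : ℝ) ^ 2) fun α ha => by
    rw [c1 α ha, Complex.norm_intCast, sq_abs]]
  refine ⟨c3, fun h5 => ?_⟩
  have h6 : ∑ α ∈ R χ, (c α : ℝ) ^ 2 ≤ ipr ⊤ χ χ := by
    change ipr ⊤ ψ ψ ≤ ipr ⊤ _ _ - _ at h5; linarith
  exact ⟨le_antisymm h6 c3, fun α ha => by rw [c1 α ha]; exact_mod_cast c4 h6 α ha⟩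

end Cfsg.Agent.S1515
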