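import Cfsg.Statements.S1518
import Cfsg.Agent.H19.Bridge

set_option autoImplicit false
open Cfsg

namespace Cfsg.Agent.S1518

/-- Under the Dade hypothesis for (A, L, H): if χ is an irreducible character of L vanishing at every non-identity element of L outside A, then the Dade image of χ − conj χ equals μ − conj μ for some irreducible character μ of G. -/
theorem result {G : Type*} [Group G] [Fintype G] (A : Set G) (L : Subgroup G) [Fintype L] (H : G → Subgroup G) (hD : Cfsg.DadeHypothesis A L H) (χ : L → ℂ) (hχ : Cfsg.IsIrrCharacter L χ) (hsupp : ∀ x : L, x ≠ 1 → (x : G) ∉ A → χ x = 0) : ∃ μ : G → ℂ, Cfsg.IsIrrCharacter G μ ∧ Cfsg.dadeIsometry A L H (χ - Cfsg.conjFun χ) = μ - Cfsg.conjFun μ := by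
  open H19 in
  obtain ⟨t, ht, e⟩ := Dade_irr_sub_conjC hD (extendByZero_mem_irr.2 hχ) fun x hx => by
    by_cases h : x ∈ L
    · rw [extendByZero_of_mem _ h]
      exact hsupp _ (fun e => hx (Or.inl (congrArg Subtype.val e))) fun e => hx (Or.inr e)
    · exact extendByZero_of_not_mem _ h
  refine ⟨t, mem_irr_top.1 ht, Eq.trans ?_ e⟩
  rw [← extendByZero_star, ← ext0_apply, ← ext0_apply, ← map_sub, ext0_apply, dade_extendByZero]; rfl

end Cfsg.Agent.S1518
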