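import Cfsg.Statements.S1519
import Cfsg.Agent.H23.IrrCoh

set_option autoImplicit false
open Cfsg

namespace Cfsg.Agent.S1519

open H18 H19 H23 Subgroup

/-- Let K be a solvable normal subgroup of the finite group L and (S, τ, R) a coherence system from L to G where S is the set of functions induced from non-principal irreducible characters of K; write S(A) for those induced from characters whose kernel contains A. Let A, B, C, D be normal subgroups of L with A < K, B < K, B ≤ D ≤ C ≤ K and every commutator of D with C in B. If S(A) is coherent and 4 * [L:C]^2 * [C:D] < ([K:A] − 1)^2, then S(B) is coherent. -/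
theorem result {L : Type*} [Group L] [Fintype L] {G : Type*} [Group G] [Fintype G] (K : Subgroup L) [hK : K.Normal] (hsolv : Group.IsSolvable K) (τ : (L → ℂ) → (G → ℂ)) (R : (L → ℂ) → Finset (G → ℂ)) (hS : Cfsg.IsCoherenceSystem (Cfsg.inducedIrrAbove K ⊥) τ R) (A B C D : Subgroup L) [A.Normal] [B.Normal] [C.Normal] [D.Normal] (hAK : A < K) (hBK : B < K) (hBD : B ≤ D) (hDC : D ≤ C) (hCK : C ≤ K) (hcent : ∀ x ∈ D, ∀ y ∈ C, x * y * x⁻¹ * y⁻¹ ∈ B) (hA : Cfsg.IsCoherent (Cfsg.inducedIrrAbove K A) {1}ᶜ τ) (hlt : 4 * C.index ^ 2 * D.relIndex C < (A.relIndex K - 1) ^ 2) : Cfsg.IsCoherent (Cfsg.inducedIrrAbove K B) {1}ᶜ τ := by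
  obtain ⟨ν, h1, h2, h3⟩ := exists_sub_of_system hS
  rw [inducedIrrAbove_eq hAK.le] at hA
  rw [inducedIrrAbove_eq hBK.le]
  refine h3 _ (seqIndD_conjSub le_rfl bot_le) (seqIndD_nonempty Nml.rfl (nml_top.of_le hBK.le le_top) hBK.not_ge) ?_
  refine (coherent_seqIndD_bound nml_top hsolv h1 nml_top hAK hDC hCK
    (commutator_le.2 fun x hx y hy => hcent x hx y hy) (h2 _ (seqIndS le_rfl bot_le) hA)).resolve_right fun hle => ?_
  rw [relIndex_top_right] at hle
  have h0 : 1 ≤ A.relIndex K := relIndex_pos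
  have hlt' : (4 * C.index ^ 2 * D.relIndex C : ℝ) < (A.relIndex K - 1) ^ 2 := by
    have := (Nat.cast_lt (α := ℝ)).2 hlt
    push_cast [Nat.cast_sub h0] at this
    exact this
  have h0' : (1 : ℝ) ≤ A.relIndex K := by exact_mod_cast h0
  have := pow_le_pow_left₀ (by linarith) hle 2
  rw [mul_pow, mul_pow, Real.sq_sqrt (Nat.cast_nonneg _)] at this
  linarith

end Cfsg.Agent.S1519
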