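import Cfsg.Statements.S1520
import Cfsg.Agent.H23.IrrCoh

set_option autoImplicit false
open Cfsg

namespace Cfsg.Agent.S1520

open H18 H19 H23 Subgroup

/-- Let K be a solvable normal subgroup of the finite group L and (S, τ, R) a coherence system from L to G with S the functions induced from non-principal irreducible characters of K; S(A) the members of S induced from characters whose kernel contains A. Let M ≤ H₁ ≤ H ≤ K be normal subgroups of L such that every term of the lower central series of H eventually lies in M (H/M nilpotent), S(H₁) is coherent and [H:H₁] > 4 * [L:K]^2 + 1. Then S(M) is coherent. -/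
theorem result {L : Type*} [Group L] [Fintype L] {G : Type*} [Group G] [Fintype G] (K : Subgroup L) [hK : K.Normal] (hsolv : Group.IsSolvable K) (τ : (L → ℂ) → (G → ℂ)) (R : (L → ℂ) → Finset (G → ℂ)) (hS : Cfsg.IsCoherenceSystem (Cfsg.inducedIrrAbove K ⊥) τ R) (M H₁ H : Subgroup L) [M.Normal] [H₁.Normal] [H.Normal] (hMH₁ : M ≤ H₁) (hH₁H : H₁ ≤ H) (hHK : H ≤ K) [(M.subgroupOf H).Normal] (hnil : Group.IsNilpotent (↥H ⧸ M.subgroupOf H)) (hcoh : Cfsg.IsCoherent (Cfsg.inducedIrrAbove K H₁) {1}ᶜ τ) (hbig : 4 * K.index ^ 2 + 1 < H₁.relIndex H) : Cfsg.IsCoherent (Cfsg.inducedIrrAbove K M) {1}ᶜ τ := by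
  obtain ⟨ν, h1, h2, h3⟩ := exists_sub_of_system hS
  have hMK := (hMH₁.trans hH₁H).trans hHK
  rw [inducedIrrAbove_eq (hH₁H.trans hHK)] at hcoh
  rw [inducedIrrAbove_eq hMK]
  refine h3 _ (seqIndD_conjSub le_rfl bot_le) (seqIndD_nonempty Nml.rfl (nml_top.of_le hMK le_top) fun e => ?_) ?_
  · rw [relIndex_eq_one_iff.2 (hHK.trans (e.trans hMH₁))] at hbig; omega
  exact bounded_seqIndD_coherence nml_top hsolv h1 nml_top nml_top nml_top hMH₁ hH₁H hHK
    (nil_quo_of_isNilpotent norm_of_normal hnil) (h2 _ (seqIndS le_rfl bot_le) hcoh)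
    (by rwa [relIndex_top_right])

end Cfsg.Agent.S1520
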