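import Cfsg.Statements.S1521
import Cfsg.Agent.H23.IrrCoh

set_option autoImplicit false
open Cfsg

namespace Cfsg.Agent.S1521

open H18 H19 H23 Subgroup

/-- Let K be a solvable normal subgroup of the finite group L of odd order and (S, τ, R) a coherence system from L to G with S the functions induced from non-principal irreducible characters of K; S(A) as before. Let M ≤ K be normal in L with K/M nilpotent, H₁ = [K, K] ⊔ M, H₁ < K < L, and suppose every element of K outside H₁ is centralised modulo H₁ only from inside K (L/H₁ is a Frobenius group with kernel K/H₁). Suppose one of the following: some normal subgroup of L lies strictly between H₁ and K; or [K:H₁] > 4[L:K]^2 + 1; or [K:M] is not a prime power; or [K,K] ≤ M; or [K:M] is a power of a prime p with [L:K] dividing p − 1. Then S(M) is coherent. -/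
theorem result {L : Type*} [Group L] [Fintype L] {G : Type*} [Group G] [Fintype G] (K : Subgroup L) [hK : K.Normal] (hsolv : Group.IsSolvable K) (τ : (L → ℂ) → (G → ℂ)) (R : (L → ℂ) → Finset (G → ℂ)) (hS : Cfsg.IsCoherenceSystem (Cfsg.inducedIrrAbove K ⊥) τ R) (hodd : Odd (Nat.card L)) (M : Subgroup L) [M.Normal] (hMK : M ≤ K) [(M.subgroupOf K).Normal] (hnil : Group.IsNilpotent (↥K ⧸ M.subgroupOf K)) (H₁ : Subgroup L) (hH₁ : H₁ = ⁅K, K⁆ ⊔ M) (hH₁K : H₁ < K) (hKL : K < ⊤) (hfrob : ∀ k ∈ K, k ∉ H₁ → ∀ x : L, x * k * x⁻¹ * k⁻¹ ∈ H₁ → x ∈ K) (hgood : (∃ N : Subgroup L, N.Normal ∧ H₁ < N ∧ N < K) ∨ 4 * K.index ^ 2 + 1 < H₁.relIndex K ∨ (¬ ∃ p m : ℕ, p.Prime ∧ M.relIndex K = p ^ m) ∨ ⁅K, K⁆ ≤ M ∨ (∃ p m : ℕ, p.Prime ∧ M.relIndex K = p ^ m ∧ K.index ∣ p - 1)) : Cfsg.IsCoherent (Cfsg.inducedIrrAbove K M) {1}ᶜ τ := by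
  obtain ⟨ν, h1, h2, h3⟩ := exists_sub_of_system hS
  subst hH₁
  rw [inducedIrrAbove_eq hMK]
  refine h3 _ (seqIndD_conjSub le_rfl bot_le) (seqIndD_nonempty Nml.rfl (nml_top.of_le hMK le_top)
    fun e => hH₁K.not_ge (e.trans le_sup_right)) ?_
  refine (non_coherent_chief nml_top hsolv h1 ⟨by rwa [Subgroup.card_top], nml_top, hMK,
    nil_quo_of_isNilpotent norm_of_normal hnil, hH₁K, hKL, fun k hk hk' x _ => hfrob k hk hk' x⟩).resolve_right ?_
  rintro ⟨hch, hb, p, hp, hpi, hna, hd⟩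
  rw [relIndex_top_right] at hb hd
  rw [piGrp_quo_iff norm_of_normal] at hpi
  obtain ⟨m, hm⟩ := hpi.eq_pow relIndex_ne_zero
  rcases hgood with ⟨N, hN, a, b⟩ | h | h | h | ⟨q, n, hq, e, h⟩
  · exact b.ne (hch.max N a b.le norm_of_normal)
  · omega
  · exact h ⟨p, m, hp, hm⟩
  · exact hna ((abel_quo_iff norm_of_normal).2 h)
  · have h0 : n ≠ 0 := by
      rintro rfl
      exact hH₁K.not_ge ((relIndex_eq_one_iff.1 (by simpa using e)).trans le_sup_right)
    rw [hpi.eq_of_dvd hq (e ▸ dvd_pow_self q h0)] at h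
    exact hd h

end Cfsg.Agent.S1521
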