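import Cfsg.Statements.S1522
import Cfsg.Agent.H23.IrrCoh

set_option autoImplicit false
open Cfsg

namespace Cfsg.Agent.S1522

open H18 H19 H23 Subgroup

/-- Let K be a nilpotent normal subgroup of the finite group L of odd order with [K,K] < K < L and L/[K,K] a Frobenius group with kernel K/[K,K] (elements of K outside [K,K] are centralised modulo [K,K] only from inside K); let (S, τ, R) be a coherence system from L to G with S the functions induced from non-principal irreducible characters of K. Let Z be a nontrivial normal subgroup of L contained in the centre of K, and suppose every member of S outside S(Z) is an irreducible character of L. Then S minus S(Z) is the set of irreducible characters χ of L with χ z ≠ χ 1 for some z ∈ Z, and it is coherent. -/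
theorem result {L : Type*} [Group L] [Fintype L] {G : Type*} [Group G] [Fintype G] (K : Subgroup L) [hK : K.Normal] (hsolv : Group.IsSolvable K) (τ : (L → ℂ) → (G → ℂ)) (R : (L → ℂ) → Finset (G → ℂ)) (hS : Cfsg.IsCoherenceSystem (Cfsg.inducedIrrAbove K ⊥) τ R) (hodd : Odd (Nat.card L)) (hnil : Group.IsNilpotent K) (hH₁K : ⁅K, K⁆ < K) (hKL : K < ⊤) (hfrob : ∀ k ∈ K, k ∉ ⁅K, K⁆ → ∀ x : L, x * k * x⁻¹ * k⁻¹ ∈ ⁅K, K⁆ → x ∈ K) (Z : Subgroup L) [Z.Normal] (hZ1 : Z ≠ ⊥) (hZK : Z ≤ K) (hZc : ∀ z ∈ Z, ∀ k ∈ K, z * k = k * z) (hirr : ∀ χ ∈ Cfsg.inducedIrrAbove K ⊥ \ Cfsg.inducedIrrAbove K Z, Cfsg.IsIrrCharacter L χ) : Cfsg.inducedIrrAbove K ⊥ \ Cfsg.inducedIrrAbove K Z = {χ | Cfsg.IsIrrCharacter L χ ∧ ∃ z ∈ Z, χ z ≠ χ 1} ∧ Cfsg.IsCoherent (Cfsg.inducedIrrAbove K ⊥ \ Cfsg.inducedIrrAbove K Z) {1}ᶜ τ := by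
  classical
  obtain ⟨ν, h1, h2, h3⟩ := exists_sub_of_system hS
  have e : Cfsg.inducedIrrAbove K ⊥ \ Cfsg.inducedIrrAbove K Z = ↑(seqIndD K ⊤ Z ⊥) := by
    rw [inducedIrrAbove_eq bot_le, inducedIrrAbove_eq hZK]
    ext φ
    simp only [Set.mem_sdiff, Finset.mem_coe, mem_seqIndD_iff_cfker nml_top nml_top Nml.bot le_rfl bot_le,
      mem_seqIndD_iff_cfker nml_top nml_top nml_top le_rfl hZK,
      mem_seqIndD_iff_cfker nml_top nml_top Nml.bot hZK bot_le]
    exact ⟨fun ⟨⟨a, b, c⟩, d⟩ => ⟨a, b, fun h => d ⟨a, h, c⟩⟩,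
      fun ⟨a, b, c⟩ => ⟨⟨a, b, fun h => c (hZK.trans h)⟩, fun h => c h.2.1⟩⟩
  rw [e] at hirr ⊢
  obtain ⟨a, b⟩ := seqIndD_irr_coherence nml_top hsolv h1 ⟨by rwa [Subgroup.card_top], Nml.bot, bot_le,
    Nil.mim hnil, by rwa [sup_bot_eq], hKL, by simpa using hfrob⟩ (Z := Z) nml_top
    (le_inf hZK (cent_iff.2 hZc)) fun χ hχ => mem_irr_top.2 (hirr χ hχ)
  refine ⟨?_, h3 _ (seqIndD_conjSub hZK le_rfl) (seqIndD_nonempty (nml_top.of_le hZK le_top) Nml.bot
    (by simpa using hZ1)) b⟩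
  ext χ
  rw [Finset.mem_coe, a, Set.mem_setOf_eq, ← mem_irr_top]
  refine and_congr_right fun h => ?_
  rw [le_cfker_iff (chars_of_irr h) le_top]
  push Not
  rfl

end Cfsg.Agent.S1522
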