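import Cfsg.Statements.S1524
import Cfsg.Agent.H23.IrrCoh

set_option autoImplicit false
open Cfsg

namespace Cfsg.Agent.S1524

open H18 H19 H23 Subgroup

/-- Let G be a finite group and H ≤ L subgroups with L of odd order, H ≠ ⊥ nilpotent and normal in L with a nontrivial complement W₁ in L (H ⊓ W₁ = ⊥, H ⊔ W₁ = L) acting on H without non-identity fixed points (L is a Frobenius group with kernel H), and suppose the underlying set of H is a TI-subset of G whose normaliser is L. Let S be the set of functions on L induced from the non-principal irreducible characters of H. Then (S, L minus 1, induction to G) is coherent. -/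
theorem result {G : Type*} [Group G] [Fintype G] (H L W₁ : Subgroup G) [Fintype L] (hodd : Odd (Nat.card L)) (hHL : H ≤ L) (hW₁L : W₁ ≤ L) (hH1 : H ≠ ⊥) (hW1 : W₁ ≠ ⊥) (hnil : Group.IsNilpotent H) (hHn : ∀ x ∈ L, ∀ h ∈ H, x * h * x⁻¹ ∈ H) (hinf : H ⊓ W₁ = ⊥) (hsup : H ⊔ W₁ = L) (hfpf : ∀ w ∈ W₁, w ≠ 1 → ∀ h ∈ H, w * h = h * w → h = 1) (hTI : Cfsg.IsTISubset (H : Set G)) (hN : Subgroup.normalizer (H : Set G) = L) : Cfsg.IsCoherent (Cfsg.inducedIrrAbove (H.subgroupOf L) ⊥) {1}ᶜ (fun α : L → ℂ => Cfsg.indFun L α) := by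
  have hF : Frob L H W₁ := ⟨⟨hW₁L.trans (norm_iff.2 hHn), hinf, hsup⟩, hH1, hW1, fun w hw w1 =>
    (eq_bot_iff_forall _).2 fun h hh => hfpf w hw w1 h hh.1 (mem_C1.1 hh.2).symm⟩
  have hT : NTI ((H : Set G) \ {1}) ⊤ L := hN ▸ nti_of_isTI_subgroup hTI
  have key : ∀ χ : L → ℂ, χ ∈ Cfsg.inducedIrrAbove (H.subgroupOf L) ⊥ ↔ extendByZero L χ ∈ seqIndD H L H ⊥ := by
    intro χ
    have hn : (H.subgroupOf L).Normal := hF.nml.subgroupOf_normal
    have hc : ∀ k ∈ H.subgroupOf L, k ≠ 1 → ⊤ ⊓ C1(k) ≤ H.subgroupOf L := fun k hk k1 x hx =>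
      cent_le_of_semireg hF.sd hF.reg hk (fun e => k1 (Subtype.ext e))
        ⟨x.2, mem_C1.2 (congrArg Subtype.val (mem_C1.1 hx.2))⟩
    rw [inducedIrrAbove_eq bot_le, Finset.mem_coe, mem_seqIndD_frob hF hF.nml le_rfl,
      mem_seqIndD_of_irr nml_top nml_top le_rfl (seqIndC1_irr_of_cent nml_top hc le_rfl), mem_irr_top]
    refine and_congr_right fun h => ?_
    rw [le_cfker_iff (chars_of_irr (mem_irr_top.2 h)) le_top]
    push Not
    rfl
  obtain ⟨φ, hφ⟩ := seqIndD_nonempty (L := L) (Nml.rfl (H := H)) Nml.bot (by simpa using hH1)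
  have hφ' := star_mem_seqIndD hφ
  have hs := fun ψ (h : ψ ∈ seqIndD H L H ⊥) =>
    extendByZero_comp_of_supp (cf_supp (seqIndT_cf hHL (seqIndD_subT h)))
  have hi := fun ψ h => (mem_irr.1 ((irrSys_ind hF hT).irr (x := ψ) h)).2
  refine isCoherent_ind (fun χ => (key χ).1) (Sibley_coherence_frob hodd hnil hT hF)
    (exists_ne_zero_of_two ((key _).2 ((hs _ hφ).symm ▸ hφ)) ((key _).2 ((hs _ hφ').symm ▸ hφ'))
      (hi _ hφ) (hi _ hφ') fun e => seqIndD_star_ne hF.nml hodd le_rfl hφ ?_)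
  rw [← hs _ hφ', ← e, hs _ hφ]

end Cfsg.Agent.S1524
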