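import Cfsg.Statements.S1525
import Cfsg.Agent.H19.DadeVirtual

set_option autoImplicit false
open Cfsg

namespace Cfsg.Agent.S1525

/-- Under the Dade hypothesis for (A, L, H), let χ be a class function of G and let ψ be a function on L whose value at each a ∈ A is the average of χ over the coset a·H(a). Then (1/|G|) Σ |χ g|² over the elements g of G conjugate into some coset a·H(a) with a ∈ A is at least (1/|L|) Σ_{a ∈ A ∩ L} |ψ a|². -/
theorem result {G : Type*} [Group G] [Fintype G] (A : Set G) (L : Subgroup G) [Fintype L] (H : G → Subgroup G) (hD : Cfsg.DadeHypothesis A L H) (χ : G → ℂ) (hχ : Cfsg.IsClassFunction G χ) (ψ : L → ℂ) (hψ : ∀ a : L, (a : G) ∈ A → ψ a = (Nat.card (H a) : ℂ)⁻¹ * ∑ᶠ u ∈ (H a : Set G), χ (a * u)) : (Nat.card L : ℝ)⁻¹ * ∑ᶠ a ∈ {a : L | (a : G) ∈ A}, ‖ψ a‖ ^ 2 ≤ (Nat.card G : ℝ)⁻¹ * ∑ᶠ g ∈ {g : G | ∃ a ∈ A, ∃ u ∈ H a, ∃ x : G, x * g * x⁻¹ = a * u}, ‖χ g‖ ^ 2 := by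
  have h := H19.sum_rho_le hD (H19.mem_cf_top.2 hχ)
  rw [finsum_mem_eq_finite_toFinset_sum _ (Set.toFinite _),
    finsum_mem_eq_finite_toFinset_sum _ (Set.toFinite _)]
  refine le_trans (le_of_eq ?_) h
  congr 1
  refine Finset.sum_bij (fun a _ => (a : G)) (fun a ha => by simpa using ha)
    (fun a _ b _ e => Subtype.ext e) (fun a ha => ?_) (fun a ha => ?_)
  · have ha' : a ∈ A := H19.mem_sfin.1 ha
    exact ⟨⟨a, hD.subset ha'⟩, by simpa using ha', rfl⟩
  · have ha' : (a : G) ∈ A := by simpa using ha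
    rw [hψ a ha', H19.rho_of_mem _ ha', finsum_mem_eq_finite_toFinset_sum _ (Set.toFinite _)]
    rfl

end Cfsg.Agent.S1525
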