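import Cfsg.Statements.S1526
import Cfsg.Agent.H23.IrrCoh
import Cfsg.Agent.H16.PF7
import Cfsg.Agent.H23.PF13b

set_option autoImplicit false
open Cfsg

namespace Cfsg.Agent.S1526

open H18 H19 H23 Subgroup

/-- Let G be a finite group of odd order and (L i, H i), i in a finite index type with at least two elements, pairs of subgroups with H i a nontrivial proper normal subgroup of L i such that every non-identity element of H i has its centraliser within L i contained in H i (L i is a Frobenius group with kernel H i), the orders of the H i pairwise coprime, and the underlying set of each H i a TI-subset of G with normaliser L i. If every non-identity element of G is conjugate to an element of some H i, we reach a contradiction. -/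
theorem result {G : Type*} [Group G] [Finite G] (hodd : Odd (Nat.card G)) {ι : Type*} [Fintype ι] (hι : 2 ≤ Fintype.card ι) (L H : ι → Subgroup G) (hHL : ∀ i, H i < L i) (hH1 : ∀ i, H i ≠ ⊥) (hHn : ∀ i, ∀ x ∈ L i, ∀ h ∈ H i, x * h * x⁻¹ ∈ H i) (hfrob : ∀ i, ∀ h ∈ H i, h ≠ 1 → L i ⊓ Subgroup.centralizer ({h} : Set G) ≤ H i) (hcop : ∀ i j, i ≠ j → Nat.Coprime (Nat.card (H i)) (Nat.card (H j))) (hTI : ∀ i, Cfsg.IsTISubset (H i : Set G) ∧ Subgroup.normalizer (H i : Set G) = L i) (hcover : ∀ g : G, g ≠ 1 → ∃ i, ∃ x : G, x * g * x⁻¹ ∈ H i) : False := by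
  haveI := Fintype.ofFinite G
  have hn : ∀ i, H i ⊴ L i := fun i => ⟨(hHL i).le, norm_iff.2 (hHn i)⟩
  have hT : ∀ i, NTI ((H i : Set G) \ {1}) ⊤ (L i) := fun i => (hTI i).2 ▸ nti_of_isTI_subgroup (hTI i).1
  have hD := fun i => dadeHypothesis_of_nti (hT i) (by simp)
  choose W hW using fun i => exists_frob_of_cent (hn i) (hH1 i) (hHL i).ne (hfrob i)
  obtain ⟨g, g1, hg⟩ := H16.no_coherent_Frobenius_partition (D := fun _ _ => ⊥) hodd hι
    (fun i => (Frob_nil (hW i)).solv.der_lt (hH1 i)) hn (fun i => (hHL i).not_ge)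
    (fun i ξ hξ => (irrSys_ind (hW i) (hT i)).irr hξ) hD
    (fun i => (Sibley_coherence_frob (hodd.of_dvd_nat (card_subgroup_dvd_card _)) (Frob_nil (hW i)) (hT i)
      (hW i)).congr fun α ha => by
        have := zs1_seqIndT_on (hn i) seqIndD_subT ha
        exact dade_eq_ind (hD i) (mem_cfOn.1 this).1 (mem_cfOn.1 this).2 fun _ _ _ => rfl)
    (fun i j hij => by
      rw [dsupp_bot, dsupp_bot, Set.disjoint_left]
      rintro x hx hy
      obtain ⟨a, ha, l, -, rfl⟩ := mem_clsupp.1 hx
      obtain ⟨b, hb, m, -, e⟩ := mem_clsupp.1 hy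
      have : orderOf a = orderOf b := by rw [← H18.orderOf_conj (g := l), e, H18.orderOf_conj]
      exact ha.2 (orderOf_eq_one_iff.1 (Nat.eq_one_of_dvd_coprimes (hcop i j hij)
        (H18.orderOf_dvd_card ha.1) (this ▸ H18.orderOf_dvd_card hb.1)))) hcop
  obtain ⟨i, x, hx⟩ := hcover g g1
  refine hg i ?_
  rw [dsupp_bot]
  exact mem_clsupp.2 ⟨_, ⟨hx, fun e => g1 (conj_eq_one_iff'.1 e)⟩, x⁻¹, trivial, by group⟩

end Cfsg.Agent.S1526
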