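import Cfsg.Statements.S1527
import Cfsg.Agent.H16.PF7a
import Cfsg.Agent.H19.SeqInd

set_option autoImplicit false
open Cfsg

namespace Cfsg.Agent.S1527

/-- Let G be a finite group and H i (i in a finite index type) subgroups of pairwise coprime orders, each of whose underlying sets is a TI-subset of G, such that every non-identity element of G is conjugate to an element of some H i. Then Nat.card G − 1 = Σ_i [G : N_G(H i)] · (Nat.card (H i) − 1). -/
theorem result {G : Type*} [Group G] [Finite G] {ι : Type*} [Fintype ι] (H : ι → Subgroup G) (hcop : ∀ i j, i ≠ j → Nat.Coprime (Nat.card (H i)) (Nat.card (H j))) (hTI : ∀ i, Cfsg.IsTISubset (H i : Set G)) (hcover : ∀ g : G, g ≠ 1 → ∃ i, ∃ x : G, x * g * x⁻¹ ∈ H i) : Nat.card G - 1 = ∑ i, (Subgroup.normalizer (H i : Set G)).index * (Nat.card (H i) - 1) := by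
  open H19 H18 H5 Subgroup in
  classical
  have := Fintype.ofFinite G
  have h1 : ∀ i, (clsupp ((H i : Set G) \ {1}) ⊤).ncard = (normalizer (H i : Set G)).index * (Nat.card (H i) - 1) :=
    fun i => by
    have := H16.dsupp_card (dadeHypothesis_of_nti (nti_of_isTI_subgroup (hTI i)) (by simp))
    rw [dsupp_bot, Set.ncard_diff_singleton_of_mem (one_mem _), ← (normalizer (H i : Set G)).index_mul_card] at this
    have h2 := card_posR (normalizer (H i : Set G))
    have h3 : (0 : ℝ) < (normalizer (H i : Set G)).index :=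
      Nat.cast_pos.2 (Nat.pos_of_ne_zero index_ne_zero_of_finite)
    push_cast at this
    field_simp at this
    exact_mod_cast this
  have h2 : (Finset.univ.erase 1 : Finset G) =
      Finset.univ.biUnion fun i => (clsupp ((H i : Set G) \ {1}) ⊤).toFinset := by
    ext g
    simp only [Finset.mem_erase, Finset.mem_univ, and_true, Finset.mem_biUnion, true_and, Set.mem_toFinset]
    refine ⟨fun h => (hcover g h).imp fun i ⟨x, hx⟩ => ⟨_, ⟨hx, by simpa using h⟩, x⁻¹, trivial, by group⟩, ?_⟩
    rintro ⟨i, a, ha, x, -, rfl⟩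
    simpa using ha.2
  rw [Nat.card_eq_fintype_card, ← Finset.card_univ, ← Finset.card_erase_of_mem (Finset.mem_univ 1), h2,
    Finset.card_biUnion fun i _ j _ hij => Finset.disjoint_left.2 fun g hi hj => ?_]
  · exact Finset.sum_congr rfl fun i _ => by rw [← h1, Set.ncard_eq_toFinset_card']
  obtain ⟨a, ha, x, -, rfl⟩ := Set.mem_toFinset.1 hi
  obtain ⟨b, hb, y, -, e⟩ := Set.mem_toFinset.1 hj
  have e1 : orderOf a = orderOf b := by
    rw [← H18.orderOf_conj (g := x), e, H18.orderOf_conj]
  exact ha.2 (orderOf_eq_one_iff.1 (Nat.eq_one_of_dvd_coprimes (hcop i j hij) (orderOf_dvd_card_of_mem ha.1)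
    (e1 ▸ orderOf_dvd_card_of_mem hb.1)))

end Cfsg.Agent.S1527
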