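import Cfsg.Statements.S1529
import Cfsg.Agent.H19.Bridge

set_option autoImplicit false
open Cfsg

namespace Cfsg.Agent.S1529

/-- Let N be a subgroup of the finite group G, S a set of irreducible characters of N with at least two members, and τ₁ a linear isometry on the integer combinations of S with virtual-character values such that τ₁ α vanishes at 1 whenever α ∈ ℤ[S] does. Then there is ε ∈ {1, −1} such that ε • τ₁ χ is an irreducible character of G for every χ ∈ S, and distinct members of S give distinct characters. -/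
theorem result {G : Type*} [Group G] [Fintype G] (N : Subgroup G) [Fintype N] (S : Set (N → ℂ)) (hirr : ∀ χ ∈ S, Cfsg.IsIrrCharacter N χ) (htwo : ∃ χ ∈ S, ∃ ψ ∈ S, χ ≠ ψ) (τ₁ : (N → ℂ) → (G → ℂ)) (hτ₁ : Cfsg.IsLinearIsometryOn (Cfsg.zspan S) τ₁) (h0 : ∀ α ∈ Cfsg.zspan S, α 1 = 0 → τ₁ α 1 = 0) : ∃ ε : ℂ, (ε = 1 ∨ ε = -1) ∧ (∀ χ ∈ S, Cfsg.IsIrrCharacter G (ε • τ₁ χ)) ∧ (∀ χ ∈ S, ∀ ψ ∈ S, τ₁ χ = τ₁ ψ → χ = ψ) := by
  open H19 in
  obtain ⟨S, rfl, hi⟩ := exists_finset_of_irr hirr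
  obtain ⟨ν, hI, e⟩ := exists_isom (E := zs S) (t := τ₁) hτ₁
  have h : CoherentWith ⊤ S ν ν := ⟨hI, fun _ _ => rfl⟩
  obtain ⟨ε, h1, h2⟩ := h.exists_sign (fun α ha => by rw [e α ha.1, h0 α ha.1 ha.2]) hi
  refine ⟨ε, by exact_mod_cast h1, fun χ hχ => ?_, fun χ hχ ψ hψ e' => h.injOn hχ hψ ?_⟩
  · rw [Int.cast_smul_eq_zsmul, ← e χ (mem_zs_of_mem hχ)]; exact mem_irr_top.1 (h2 χ hχ)
  · rw [e χ (mem_zs_of_mem hχ), e ψ (mem_zs_of_mem hψ), e']

end Cfsg.Agent.S1529
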