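import Cfsg.Statements.S1531
import Cfsg.Agent.H19.Bridge

set_option autoImplicit false
open Cfsg

namespace Cfsg.Agent.S1531

/-- Let N be a subgroup of the finite group G, S a set of irreducible characters of N, and α a linear isometry on the integer combinations of S vanishing at 1 with values virtual characters of G vanishing at 1. Let X, Y ⊆ S be disjoint, each with at least two members, and σ, τ linear isometries on ℤ[X], ℤ[Y] into virtual characters agreeing with α on the members vanishing at 1. Then ⟨σ χ, τ η⟩ = 0 for χ ∈ X, η ∈ Y; and if for some χ₀ ∈ X, η₀ ∈ Y with degrees c = χ₀ 1, e = η₀ 1 one has α (c • η₀ − e • χ₀) = c • τ η₀ − e • σ χ₀, then (X ∪ Y, N minus 1, α) is coherent. -/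
theorem result {G : Type*} [Group G] [Fintype G] (N : Subgroup G) [Fintype N] (S X Y : Set (N → ℂ)) (hirr : ∀ ξ ∈ S, Cfsg.IsIrrCharacter N ξ) (hXS : X ⊆ S) (hYS : Y ⊆ S) (hXY : Disjoint X Y) (hX2 : ∃ a ∈ X, ∃ b ∈ X, a ≠ b) (hY2 : ∃ a ∈ Y, ∃ b ∈ Y, a ≠ b) (α : (N → ℂ) → (G → ℂ)) (hα : Cfsg.IsLinearIsometryOn (Cfsg.zspanOn S {1}ᶜ) α) (hα1 : ∀ θ ∈ Cfsg.zspanOn S {1}ᶜ, α θ 1 = 0) (σ τ : (N → ℂ) → (G → ℂ)) (hσ : Cfsg.IsLinearIsometryOn (Cfsg.zspan X) σ) (hσα : ∀ θ ∈ Cfsg.zspanOn X {1}ᶜ, σ θ = α θ) (hτ : Cfsg.IsLinearIsometryOn (Cfsg.zspan Y) τ) (hτα : ∀ θ ∈ Cfsg.zspanOn Y {1}ᶜ, τ θ = α θ) : (∀ χ ∈ X, ∀ η ∈ Y, Cfsg.classInner (σ χ) (τ η) = 0) ∧ ((∃ χ₀ ∈ X, ∃ η₀ ∈ Y, α (χ₀ 1 • η₀ - η₀ 1 • χ₀) = χ₀ 1 • τ η₀ - η₀ 1 • σ χ₀) → Cfsg.IsCoherent (X ∪ Y) {1}ᶜ α) := by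
  open H19 in
  classical
  obtain ⟨S, rfl, hi⟩ := exists_finset_of_irr hirr
  obtain ⟨X, rfl, -⟩ := exists_finset_of_irr fun ξ h => hirr ξ (hXS h)
  obtain ⟨Y, rfl, -⟩ := exists_finset_of_irr fun ξ h => hirr ξ (hYS h)
  have hX : X ⊆ S := hXS
  have hY : Y ⊆ S := hYS
  obtain ⟨τ', hI, e⟩ := exists_isom (E := zs1 S) (t := α) (by rw [← zspanOn_eq]; exact hα)
  obtain ⟨ν₁, h₁, e₁⟩ := exists_coherentWith hσ hσα fun β hb => e β (zs1_mono hX hb)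
  obtain ⟨ν₂, h₂, e₂⟩ := exists_coherentWith hτ hτα fun β hb => e β (zs1_mono hY hb)
  have hd : Disjoint X Y := Finset.disjoint_coe.1 hXY
  have ho : ∀ χ ∈ X, ∀ η ∈ Y, ip ⊤ (ν₁ χ) (ν₂ η) = 0 := fun χ hχ η hη =>
    coherent_ortho_irr hI (fun β hb => by rw [e β hb, hα1 β (mem_zspanOn_iff.2 hb)]) hi hX hY h₁ h₂ hd
      (Finset.one_lt_card.2 hX2) (Finset.one_lt_card.2 hY2) hχ hη
  refine ⟨fun χ hχ η hη => by
    rw [← e₁ χ (mem_zs_of_mem hχ), ← e₂ η (mem_zs_of_mem hη), ← ip_top, ho χ hχ η hη], ?_⟩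
  rintro ⟨χ, hχ, η, hη, e'⟩
  have hs : X ∪ Y ⊆ S := Finset.union_subset hX hY
  have i1 := hi (hX hχ)
  have i2 := hi (hY hη)
  have z := cross_mem_zs1 (mem_zs_of_mem (hY hη)) (mem_zs_of_mem (hX hχ)) (vchar_of_irr i2) (vchar_of_irr i1)
  obtain ⟨ν, hν, -⟩ := coherent_union h₁ h₂ ((on_of_irr hi).porth.subset hs) (fun φ h => vchar_of_irr (hi (hs h)))
    hd ho (χ := η 1 • χ) (φ := χ 1 • η) (by rw [irr_apply_one i2]; exact zs_smul_int (mem_zs_of_mem hχ) _)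
    (by rw [irr_apply_one i1]; exact zs_smul_int (mem_zs_of_mem hη) _) (by simp [mul_comm])
    (by simp [irr_apply_one_ne_zero i1, irr_apply_one_ne_zero i2]) (by
      rw [← neg_sub, map_neg, e _ z, e', map_smul, map_smul, e₁ χ (mem_zs_of_mem hχ), e₂ η (mem_zs_of_mem hη), neg_sub])
  rw [← Finset.coe_union]
  refine isCoherent_of_coherent ⟨ν, by convert hν⟩ (fun β hb => e β (zs1_mono hs hb)) ⟨η 1 • χ - χ 1 • η, ?_, fun e => ?_⟩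
  · exact cross_mem_zs1 (mem_zs_of_mem (by simp [show χ ∈ X from hχ])) (mem_zs_of_mem (by simp [show η ∈ Y from hη]))
      (vchar_of_irr i1) (vchar_of_irr i2)
  · have := congrArg (fun f => ip ⊤ f χ) e
    simp [ip_irr_self i1, ip_irr_ne i2 i1 fun e => Finset.disjoint_left.1 hd hχ (e ▸ hη),
      irr_apply_one_ne_zero i2] at this

end Cfsg.Agent.S1531
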