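import Cfsg.Statements.S1532
import Cfsg.Agent.H23.IrrCoh

set_option autoImplicit false
open Cfsg

namespace Cfsg.Agent.S1532

open H18 H19 H23 Subgroup

/-- Let G be a finite group, p an odd prime and P a Sylow p-subgroup that is non-abelian, whose underlying set is a TI-subset of G, with P properly contained in its set normaliser N and C_G(x) ≤ P for every non-identity x ∈ P. Let Z be a nontrivial subgroup of the centre of P normalised by N. Then the set of irreducible characters χ of N with χ z ≠ χ 1 for some z ∈ Z is coherent for the map induced by induction from N to G. -/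
theorem result {G : Type*} [Group G] [Fintype G] (p : ℕ) [Fact p.Prime] (hp : p ≠ 2) (P : Sylow p G) (hna : ¬ IsMulCommutative (P : Subgroup G)) (hTI : Cfsg.IsTISubset ((P : Subgroup G) : Set G)) (hlt : (P : Subgroup G) < Subgroup.normalizer ((P : Subgroup G) : Set G)) (hC : ∀ k ∈ (P : Subgroup G), k ≠ 1 → Subgroup.centralizer ({k} : Set G) ≤ (P : Subgroup G)) [Fintype ↥(Subgroup.normalizer ((P : Subgroup G) : Set G))] (Z : Subgroup G) (hZ1 : Z ≠ ⊥) (hZP : ∀ z ∈ Z, z ∈ (P : Subgroup G) ∧ ∀ y ∈ (P : Subgroup G), z * y = y * z) (hZn : ∀ x ∈ Subgroup.normalizer ((P : Subgroup G) : Set G), ∀ z ∈ Z, x * z * x⁻¹ ∈ Z) : Cfsg.IsCoherent {χ : ↥(Subgroup.normalizer ((P : Subgroup G) : Set G)) → ℂ | Cfsg.IsIrrCharacter ↥(Subgroup.normalizer ((P : Subgroup G) : Set G)) χ ∧ ∃ z : ↥(Subgroup.normalizer ((P : Subgroup G) : Set G)), (z : G) ∈ Z ∧ χ z ≠ χ 1} {1}ᶜ (fun α => Cfsg.indFun (Subgroup.normalizer ((P : Subgroup G) : Set G)) α) := by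
  have hpp : p.Prime := Fact.out
  have hP := hall_sylow_top hpp P
  have h1 : (P : Subgroup G) ≠ ⊥ := ne_bot_of_not_abel fun h => hna h.comm
  obtain ⟨W, hF⟩ := exists_frob_of_cent nml_N h1 hlt.ne fun k hk k1 => inf_le_right.trans (hC k hk k1)
  have hT := nti_of_isTI_subgroup hTI
  have hW : Odd (Nat.card W) := Nat.not_even_iff_odd.1 fun h => hna (Frob.abel_of_even hF h.two_dvd).comm
  have hodd : Odd (Nat.card N((P : Subgroup G))) := by
    obtain ⟨k, hk⟩ := hP.pi.card_eq_pow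
    rw [hF.sd.card, hk]
    exact (hpp.odd_of_ne_two hp).pow.mul hW
  have hZP' : Z ≤ P := fun z hz => (hZP z hz).1
  have hZ : Z ⊴ N((P : Subgroup G)) := ⟨hZP'.trans le_N, norm_iff.2 hZn⟩
  obtain ⟨φ, hφ⟩ := seqIndD_nonempty (L := N((P : Subgroup G))) (hZ.of_le hZP' le_N) Nml.bot (by simpa using hZ1)
  have hφ' := star_mem_seqIndD hφ
  have hs := fun ψ (h : ψ ∈ seqIndD (P : Subgroup G) N((P : Subgroup G)) Z ⊥) =>
    extendByZero_comp_of_supp (cf_supp (seqIndT_cf le_N (seqIndD_subT h)))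
  have key := fun χ => mem_seqIndD_frob hF hZ hZP' (χ := χ)
  have a := (key _).1 ((hs _ hφ).symm ▸ hφ)
  have b := (key _).1 ((hs _ hφ').symm ▸ hφ')
  refine isCoherent_ind (fun χ => (key χ).2) ((Sibley_coherence_frob hodd (Frob_nil hF) hT hF).subset
    (seqIndS hZP' le_rfl)) (exists_ne_zero_of_two a b a.1 b.1 fun e => seqIndD_star_ne hF.nml hodd hZP' hφ ?_)
  rw [← hs _ hφ', ← e, hs _ hφ]

end Cfsg.Agent.S1532
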