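import Cfsg.Statements.S1533
import Cfsg.Agent.H23.IrrCoh

set_option autoImplicit false
open Cfsg

namespace Cfsg.Agent.S1533

open H18 H19 H23 Subgroup

/-- Let G be a finite group, p an odd prime, and P a nontrivial Sylow p-subgroup whose underlying set is a TI-subset of G, with P properly contained in its set normaliser N and C_G(x) ≤ P for every non-identity x ∈ P. Let S be the set of irreducible characters χ of N with χ x ≠ χ 1 for some x ∈ P. Then either S has exactly one member, P is elementary abelian and Nat.card P = [N:P] + 1; or (S, N minus 1, induction to G) is coherent. -/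
theorem result {G : Type*} [Group G] [Fintype G] (p : ℕ) [Fact p.Prime] (hp : p ≠ 2) (P : Sylow p G) (hP1 : (P : Subgroup G) ≠ ⊥) (hTI : Cfsg.IsTISubset ((P : Subgroup G) : Set G)) (hlt : (P : Subgroup G) < Subgroup.normalizer ((P : Subgroup G) : Set G)) (hC : ∀ k ∈ (P : Subgroup G), k ≠ 1 → Subgroup.centralizer ({k} : Set G) ≤ (P : Subgroup G)) [Fintype ↥(Subgroup.normalizer ((P : Subgroup G) : Set G))] : (Nat.card {χ : ↥(Subgroup.normalizer ((P : Subgroup G) : Set G)) → ℂ // Cfsg.IsIrrCharacter ↥(Subgroup.normalizer ((P : Subgroup G) : Set G)) χ ∧ ∃ x : ↥(Subgroup.normalizer ((P : Subgroup G) : Set G)), (x : G) ∈ (P : Subgroup G) ∧ χ x ≠ χ 1} = 1 ∧ Cfsg.IsElementaryAbelian p (P : Subgroup G) ∧ Nat.card (P : Subgroup G) = ((P : Subgroup G).subgroupOf (Subgroup.normalizer ((P : Subgroup G) : Set G))).index + 1) ∨ Cfsg.IsCoherent {χ : ↥(Subgroup.normalizer ((P : Subgroup G) : Set G)) → ℂ | Cfsg.IsIrrCharacter ↥(Subgroup.normalizer ((P : Subgroup G) : Set G)) χ ∧ ∃ x : ↥(Subgroup.normalizer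 ((P : Subgroup G) : Set G)), (x : G) ∈ (P : Subgroup G) ∧ χ x ≠ χ 1} {1}ᶜ (fun α => Cfsg.indFun (Subgroup.normalizer ((P : Subgroup G) : Set G)) α) := by
  have hpp : p.Prime := Fact.out
  have hP := hall_sylow_top hpp P
  obtain ⟨W, hF⟩ := exists_frob_of_cent nml_N hP1 hlt.ne fun k hk k1 => inf_le_right.trans (hC k hk k1)
  have hT := nti_of_isTI_subgroup hTI
  by_cases h1 : (seqIndD (P : Subgroup G) N((P : Subgroup G)) P ⊥).card = 1
  · have e := Frob.card_eq_of_card_one hF h1
    refine Or.inl ⟨by rw [card_frob_set hF hF.nml le_rfl, h1], ?_, e.trans (by rw [← hF.sd.relIndex]; rfl)⟩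
    have := one_lt_card hF.compl_ne
    exact ((Frob.exists_elem hF (by nlinarith)).1.elem_of_pi hP.pi).isElem
  refine Or.inr (frob_isCoherent hF ((feit_sibley hF hT).resolve_right fun h => hp ?_) h1)
  exact h.1.mem_of_ne_bot hP1 hP.pi |>.symm

end Cfsg.Agent.S1533
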