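import Cfsg.Statements.S1534
import Cfsg.Agent.H23.IrrCoh

set_option autoImplicit false
open Cfsg

namespace Cfsg.Agent.S1534

open H18 H19 H23 Subgroup

/-- Let G be a finite group and K a nontrivial nilpotent subgroup whose underlying set is a TI-subset of G, properly contained in its set normaliser N, with C_G(k) ≤ K for every non-identity k ∈ K; let e be the index of K in N and S the set of irreducible characters χ of N with χ k ≠ χ 1 for some k ∈ K. Then one of: S has exactly one member, Nat.card K = e + 1 and K is an elementary abelian p-group for some prime p; or K is a Sylow 2-subgroup of G (Nat.card K is the largest power of 2 dividing Nat.card G) and [K : [K,K]] < 4e²; or (S, N minus 1, induction to G) is coherent. -/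
theorem result {G : Type*} [Group G] [Fintype G] (K : Subgroup G) (hK1 : K ≠ ⊥) (hnil : Group.IsNilpotent K) (hTI : Cfsg.IsTISubset (K : Set G)) (hlt : K < Subgroup.normalizer (K : Set G)) (hC : ∀ k ∈ K, k ≠ 1 → Subgroup.centralizer ({k} : Set G) ≤ K) [Fintype ↥(Subgroup.normalizer (K : Set G))] : (Nat.card {χ : ↥(Subgroup.normalizer (K : Set G)) → ℂ // Cfsg.IsIrrCharacter ↥(Subgroup.normalizer (K : Set G)) χ ∧ ∃ k : ↥(Subgroup.normalizer (K : Set G)), (k : G) ∈ K ∧ χ k ≠ χ 1} = 1 ∧ Nat.card K = (K.subgroupOf (Subgroup.normalizer (K : Set G))).index + 1 ∧ ∃ p : ℕ, p.Prime ∧ Cfsg.IsElementaryAbelian p K) ∨ (Nat.card K = 2 ^ (Nat.card G).factorization 2 ∧ (⁅K, K⁆.subgroupOf K).index < 4 * (K.subgroupOf (Subgroup.normalizer (K : Set G))).index ^ 2) ∨ Cfsg.IsCoherent {χ : ↥(Subgroup.normalizer (K : Set G)) → ℂ | Cfsg.IsIrrCharacter ↥(Subgroup.normalizer (K : Set G)) χ ∧ ∃ k : ↥(Subgroup.normalizer (K : Set G)), (k : G) ∈ K ∧ χ k ≠ χ 1} {1}ᶜ (fun α => Cfsg.indFun (Subgroup.normalizer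 (K : Set G)) α) := by
  obtain ⟨W, hF⟩ := exists_frob_of_cent nml_N hK1 hlt.ne fun k hk k1 => inf_le_right.trans (hC k hk k1)
  have hT := nti_of_isTI_subgroup hTI
  have hW : (K.subgroupOf (Subgroup.normalizer (K : Set G))).index = Nat.card W := hF.sd.relIndex
  rw [hW]
  by_cases h1 : (seqIndD K N(K) K ⊥).card = 1
  · have e := Frob.card_eq_of_card_one hF h1
    refine Or.inl ⟨by rw [card_frob_set hF hF.nml le_rfl, h1], e, ?_⟩
    have := one_lt_card hF.compl_ne
    obtain ⟨p, hp, -, h⟩ := (Frob.exists_elem hF (by nlinarith)).2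
    exact ⟨p, hp, h.isElem⟩
  refine Or.inr ((feit_sibley hF hT).symm.imp (fun h => ⟨?_, h.2.2⟩) fun h => frob_isCoherent hF h h1)
  haveI := Fact.mk Nat.prime_two
  have hS : Hall {2} K ⊤ := by
    refine sylow_of_max Nat.prime_two le_top h.1 fun Q hQ hKQ _ => by_contra fun hn => ?_
    have h2 := hQ.nil.lt_norm (lt_of_le_of_ne hKQ fun e => hn e.ge)
    have h3 : Hall {2} K N(K) := hF.sd.hall_left h.1 (piNat_of_coprime' hF.coprime |>.sub' fun q hq _ hq' e =>
      hq' (mem_primes.2 ⟨hq, (show q = 2 from e) ▸ h.1.dvd_card hK1⟩))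
    exact h2.not_ge (h3.le_of_nml le_rfl inf_le_right hQ.inf_left)
  obtain ⟨S, rfl⟩ := hS.exists_sylow_top Nat.prime_two
  exact S.card_eq_multiplicity

end Cfsg.Agent.S1534
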