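import Cfsg.Statements.S1535
import Cfsg.Agent.H23.IrrCoh

set_option autoImplicit false
open Cfsg

namespace Cfsg.Agent.S1535

open H18 H19 H23 Subgroup

/-- Let N be a finite group with a proper nontrivial normal subgroup H such that every element commuting with a non-identity element of H lies in H (N is a Frobenius group with kernel H); let e be the index of H and suppose Nat.card H ≠ e + 1. Let S be the set of irreducible characters χ of N with χ h ≠ χ 1 for some h ∈ H, and τ a linear isometry on the integer combinations of S vanishing at 1, with values virtual characters of a finite group G vanishing at 1. Then (S, N minus 1, τ) is coherent, or there is a prime p with Nat.card H a power of p, H non-abelian and [H : [H,H]] ≤ 4e² + 1. -/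
theorem result {N : Type*} [Group N] [Fintype N] {G : Type*} [Group G] [Fintype G] (H : Subgroup N) [H.Normal] (hH1 : H ≠ ⊥) (hH2 : H ≠ ⊤) (hC : ∀ h ∈ H, h ≠ 1 → Subgroup.centralizer ({h} : Set N) ≤ H) (he : Nat.card H ≠ H.index + 1) (τ : (N → ℂ) → (G → ℂ)) (hτ : Cfsg.IsLinearIsometryOn (Cfsg.zspanOn {χ : N → ℂ | Cfsg.IsIrrCharacter N χ ∧ ∃ h ∈ H, χ h ≠ χ 1} {1}ᶜ) τ) (hτ1 : ∀ α ∈ Cfsg.zspanOn {χ : N → ℂ | Cfsg.IsIrrCharacter N χ ∧ ∃ h ∈ H, χ h ≠ χ 1} {1}ᶜ, τ α 1 = 0) : Cfsg.IsCoherent {χ : N → ℂ | Cfsg.IsIrrCharacter N χ ∧ ∃ h ∈ H, χ h ≠ χ 1} {1}ᶜ τ ∨ ∃ p : ℕ, p.Prime ∧ (∃ m : ℕ, Nat.card H = p ^ m) ∧ ¬ IsMulCommutative H ∧ (⁅H, H⁆.subgroupOf H).index ≤ 4 * H.index ^ 2 + 1 := by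
  have hc : ∀ k ∈ H, k ≠ 1 → ⊤ ⊓ C1(k) ≤ H := fun k hk k1 => inf_le_right.trans (hC k hk k1)
  obtain ⟨W, hF⟩ := exists_frob_of_cent nml_top hH1 hH2 hc
  have hi := seqIndC1_irr_of_cent nml_top hc le_rfl (M := ⊥)
  have e : {χ : N → ℂ | Cfsg.IsIrrCharacter N χ ∧ ∃ h ∈ H, χ h ≠ χ 1} = ↑(seqIndD H ⊤ H ⊥) := by
    ext χ
    rw [Finset.mem_coe, mem_seqIndD_of_irr nml_top nml_top le_rfl hi, mem_irr_top, Set.mem_setOf_eq]
    refine and_congr_right fun h => ?_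
    rw [le_cfker_iff (chars_of_irr (mem_irr_top.2 h)) le_top]
    push Not
    rfl
  rw [e] at hτ hτ1 ⊢
  have hW : H.index = Nat.card W := by rw [← hF.sd.relIndex, relIndex_top_right]
  rw [zspanOn_eq] at hτ hτ1
  obtain ⟨ν, h1, h2⟩ := exists_isom hτ
  refine (feit_coherence hF ⟨hi, h1, fun α ha => by rw [h2 α ha]; exact hτ1 α ha⟩).imp (fun h => ?_)
    fun ⟨p, hp, a, b, c⟩ => ⟨p, hp, a.card_eq_pow, fun h => b (abel_of_comm h), by rwa [relIndex_top_right] at c⟩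
  obtain ⟨φ, hφ, ψ, hψ, hne⟩ := Finset.one_lt_card.1 (one_lt_card_seqIndD hF fun e =>
    he (hW ▸ Frob.card_eq_of_card_one hF e))
  obtain ⟨α, a, b⟩ := exists_ne_zero_of_two (S := ↑(seqIndD H ⊤ H ⊥)) hφ hψ (mem_irr_top.1 (hi hφ))
    (mem_irr_top.1 (hi hψ)) hne
  exact isCoherent_of_coherent h h2 ⟨α, mem_zspanOn_iff.1 a, b⟩

end Cfsg.Agent.S1535
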