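import Cfsg.Statements.S1536
import Cfsg.Agent.H19.Bridge

set_option autoImplicit false
open Cfsg

namespace Cfsg.Agent.S1536

/-- Let H be a normal subgroup of the finite group M whose order is coprime to its index. For x ∈ M: some non-principal irreducible character of H is unchanged under h ↦ θ(x h x⁻¹) if and only if some non-identity element of H commutes with x. -/
theorem result {M : Type*} [Group M] [Finite M] (H : Subgroup M) [hN : H.Normal] (hHall : Nat.Coprime (Nat.card H) H.index) (x : M) : (∃ θ : H → ℂ, Cfsg.IsIrrCharacter H θ ∧ θ ≠ (fun _ => 1) ∧ (fun h : H => θ ⟨x * h * x⁻¹, hN.conj_mem h h.2 x⟩) = θ) ↔ ∃ h ∈ H, h ≠ 1 ∧ x * h = h * x := by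
  open H19 H18 H5 Subgroup in
  have := Fintype.ofFinite M
  have hn : ∀ g, g ∈ N(H) := fun g => (nml_top_iff.2 hN).norm trivial
  refine ⟨fun ⟨θ, h1, h2, h3⟩ => ?_, fun ⟨h, hh, h1, e⟩ => ?_⟩
  · obtain ⟨y, hy, y1, k, hk, e⟩ := exists_cent_of_fixed (hn _) (extendByZero_mem_irr.2 h1)
      (fun e => h2 (extendByZero_injective H (e.trans (extendByZero_const_one H).symm))) (conj_eq_iff_cfcj.1 h3)
    by_contra hne
    have h0 : H ⊓ C1(x⁻¹) = ⊥ := eq_bot_iff.2 fun z hz => by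
      by_contra hz1
      exact hne ⟨z, hz.1, hz1, (Commute.inv_right_iff.1 (mem_C1.1 hz.2)).symm⟩
    obtain ⟨z, hz, e'⟩ := exists_conj_of_reg (hn _) h0 (hN.conj_mem k hk x⁻¹)
    rw [inv_mul_cancel_right] at e'
    rw [← e', mem_C1] at e
    refine hne ⟨z⁻¹ * y * z, mul_mem (mul_mem (inv_mem hz) hy) hz, fun e => y1 ?_, ?_⟩
    · rw [← mul_inv_eq_one, ← conj_eq_one_iff (a := z⁻¹)]; simpa using e
    · calc x * (z⁻¹ * y * z) = x * z⁻¹ * (y * (z * x⁻¹ * z⁻¹)) * z * x := by group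
        _ = _ := by rw [← e]; group
  · obtain ⟨θ, h1, h2, h3⟩ := exists_fixed_of_cent (hn x⁻¹) hh h1 (inv_mem (mem_C1.2 e))
    refine ⟨_, (mem_irr.1 h1).2, fun e => h2 ?_, (conj_eq_iff_cfcj (θ := fun h : H => θ h)).2 ?_⟩
    · rw [← extendByZero_comp_of_supp (irr_supp h1), e, extendByZero_const_one]
    · rw [extendByZero_comp_of_supp (irr_supp h1), h3]

end Cfsg.Agent.S1536
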