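import Cfsg.Statements.S1553
import Cfsg.Agent.H14.M24Use

set_option autoImplicit false
open scoped Pointwise
open Cfsg

namespace Cfsg.Agent.S1553

open H14 MulAction
open scoped Pointwise
set_option maxRecDepth 100000

/-- The stabiliser of an octad in the group of the length-24 code induces on the octad exactly its alternating group. -/
theorem result (o : Finset Cfsg.GolayPt) (ho : o ∈ Cfsg.octads) : {e : Equiv.Perm ↥o | ∃ g : Equiv.Perm Cfsg.GolayPt, g ∈ Cfsg.M24 ∧ ∃ h : (∀ x, g x ∈ o ↔ x ∈ o), g.subtypePerm h = e} = (alternatingGroup ↥o : Set (Equiv.Perm ↥o)) := by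
  rw [← range_octad ho]
  ext e
  exact ⟨fun ⟨g, hg, h, he⟩ => ⟨⟨⟨g, hg⟩, Finset.eq_of_subset_of_card_le (fun x hx => by
      obtain ⟨y, hy, rfl⟩ := Finset.mem_smul_finset.1 hx
      exact (h y).2 hy) (Finset.card_smul_finset _ _).ge⟩, he⟩,
    fun ⟨g, he⟩ => ⟨g.1, g.1.2, smul_mem_iff_of_stab g.2, he⟩⟩

end Cfsg.Agent.S1553
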