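import Cfsg.Statements.S1554
import Cfsg.Agent.H14.M24Use

set_option autoImplicit false
open scoped Pointwise
open Cfsg

namespace Cfsg.Agent.S1554

open H14 MulAction
open scoped Pointwise
set_option maxRecDepth 100000
theorem pw_trans {o : Finset GolayPt} (ho : o ∈ octads) {p q : GolayPt} (hp : p ∉ o) (hq : q ∉ o) :
    ∃ k : M24, (∀ x ∈ o, k • x = x) ∧ k • p = q := by
  obtain ⟨g, rfl⟩ := oOc.std ho
  rw [← Finset.inv_smul_mem_iff, fOc0, ← Finset.mem_compl, ← bset_compl] at hp hq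
  obtain ⟨k, hk, e⟩ := M0.conn_of_chk (ws := wK0) (s := 4) (O := 0x82402f ^^^ full 24) (sc := [dw (nat_lit 0x01), dw (nat_lit 0x03), dw (nat_lit 0x05), dw (nat_lit 0x07)])
    (by decide +kernel) (mem_S_iff.2 hp) (mem_S_iff.2 hq)
  exact ⟨g * k * g⁻¹, (conj_pw g _ k).2 ((mem_fixingSubgroup_iff _).1 (K0_eq ▸ hk)),
    by rw [mul_smul, mul_smul, e, smul_inv_smul]⟩

/-- An octad stabiliser is a split extension: the joint stabiliser of the octad and a point outside it is a complement to the pointwise stabiliser of the octad, and is isomorphic to the alternating group of degree 8. -/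
theorem result (o : Finset Cfsg.GolayPt) (ho : o ∈ Cfsg.octads) (p : Cfsg.GolayPt) (hp : p ∉ o) : (Cfsg.M24 ⊓ fixingSubgroup (Equiv.Perm Cfsg.GolayPt) (o : Set Cfsg.GolayPt)) ⊓ (Cfsg.M24 ⊓ MulAction.stabilizer (Equiv.Perm Cfsg.GolayPt) o ⊓ MulAction.stabilizer (Equiv.Perm Cfsg.GolayPt) p) = ⊥ ∧ (Cfsg.M24 ⊓ fixingSubgroup (Equiv.Perm Cfsg.GolayPt) (o : Set Cfsg.GolayPt)) ⊔ (Cfsg.M24 ⊓ MulAction.stabilizer (Equiv.Perm Cfsg.GolayPt) o ⊓ MulAction.stabilizer (Equiv.Perm Cfsg.GolayPt) p) = (Cfsg.M24 ⊓ MulAction.stabilizer (Equiv.Perm Cfsg.GolayPt) o) ∧ Nonempty (↥(Cfsg.M24 ⊓ MulAction.stabilizer (Equiv.Perm Cfsg.GolayPt) o ⊓ MulAction.stabilizer (Equiv.Perm Cfsg.GolayPt) p) ≃* alternatingGroup (Fin 8)) := by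
  refine ⟨(Subgroup.eq_bot_iff_forall _).2 fun g hg => congrArg Subtype.val
    (eq_one_of_pw ho (a := ⟨g, hg.1.1⟩) ((mem_fixingSubgroup_iff _).1 hg.1.2) hp hg.2.2),
    le_antisymm (sup_le (fun g hg => ⟨hg.1, mem_stab_of_pw ((mem_fixingSubgroup_iff _).1 hg.2)⟩) inf_le_left)
      fun g hg => ?_, ?_⟩
  · obtain ⟨k, hk, e⟩ := pw_trans ho hp (q := g p) (mt (smul_mem_iff_of_stab hg.2 p).1 hp)
    rw [← mul_inv_cancel_left (k : Equiv.Perm GolayPt) g]
    refine Subgroup.mul_mem_sup ⟨k.2, (mem_fixingSubgroup_iff _).2 hk⟩ ⟨⟨M24.mul_mem (M24.inv_mem k.2) hg.1,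
      (stabilizer _ o).mul_mem ((stabilizer _ o).inv_mem (mem_stab_of_pw hk)) hg.2⟩, ?_⟩
    exact (inv_smul_eq_iff (g := k) (a := g p)).2 e.symm
  have h1 := card_inf_stabilizer_mul (stabilizer M24 o) p
  rw [card_HOc ho, show {y | ∃ g ∈ stabilizer M24 o, g • p = y} = (↑oᶜ : Set GolayPt) from Set.ext fun y =>
    ⟨fun ⟨g, hg, e⟩ => e ▸ Finset.mem_compl.2 (mt (smul_mem_iff_of_stab hg p).1 hp), fun hy => by
      obtain ⟨k, hk, e⟩ := pw_trans ho hp (Finset.mem_compl.1 hy)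
      exact ⟨k, mem_stab_of_pw hk, e⟩⟩, Set.ncard_coe_finset, Finset.card_compl, card_golayPt, ho.2] at h1
  let f : ↥(stabilizer M24 o ⊓ stabilizer M24 p) →* alternatingGroup o :=
    ((resHom M24 o).comp (Subgroup.inclusion inf_le_left)).codRestrict _ fun g => range_octad ho ▸ ⟨_, rfl⟩
  have hi : Function.Injective f := (injective_iff_map_eq_one _).2 fun g hg =>
    Subtype.ext (eq_one_of_pw ho (mem_ker_resHom.1 (congrArg Subtype.val hg)) hp g.2.2)
  have : Nontrivial o := by rw [← Fintype.one_lt_card_iff_nontrivial, Fintype.card_coe, ho.2]; norm_num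
  have h2 := two_mul_nat_card_alternatingGroup (α := o)
  rw [card_perm_coe, ho.2] at h2
  exact ⟨((mapSubtypeEquiv (A := M24) (stabilizer M24 o ⊓ stabilizer M24 p) (inf_le_left.trans inf_le_left) fun x =>
    ⟨fun h => ⟨⟨x.2, h.1⟩, h.2⟩, fun h => ⟨h.1.2, h.2⟩⟩).symm.trans (MulEquiv.ofBijective f
      (hi.bijective_of_nat_card_le (by have : Nat.factorial 8 = 40320 := rfl; omega)))).trans
        (Finset.equivFinOfCardEq ho.2).altCongrHom⟩

end Cfsg.Agent.S1554
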