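import Cfsg.Statements.S1555
import Cfsg.Agent.H14.M24Use

set_option autoImplicit false
open scoped Pointwise
open Cfsg

namespace Cfsg.Agent.S1555

open H14 MulAction
open scoped Pointwise
set_option maxRecDepth 100000

/-- Bottom row of the Leech triangle: an octad is met in a prescribed pair of its points by exactly 16 octads and in a prescribed 4-subset by exactly 4 octads. -/
theorem result (o : Finset Cfsg.GolayPt) (ho : o ∈ Cfsg.octads) (s : Finset Cfsg.GolayPt) (hs : s ⊆ o) : (s.card = 2 → {o' : Finset Cfsg.GolayPt | o' ∈ Cfsg.octads ∧ o ∩ o' = s}.ncard = 16) ∧ (s.card = 4 → {o' : Finset Cfsg.GolayPt | o' ∈ Cfsg.octads ∧ o ∩ o' = s}.ncard = 4) := by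
  obtain ⟨g, rfl⟩ := oOc.std ho
  obtain ⟨s, rfl⟩ := MulAction.surjective g s
  rw [Finset.smul_finset_subset_smul_finset_iff, fOc0] at hs
  rw [Finset.card_smul_finset, ncard_smul_eq oOc.inv g (Q := fun x => fOc 0 ∩ x = s) fun x _ => by
    rw [← Finset.smul_finset_inter, smul_left_cancel_iff]]
  refine forall_subset [1, 2, 4, 8, 32, 16384, 131072, 8388608] (f := fun a => (fun c => (!Nat.beq (p24 a) 2 || Nat.beq c 16) &&
      (!Nat.beq (p24 a) 4 || Nat.beq c 4)) (cntCW fun m => Nat.beq (p24 m) 8 && Nat.beq (0x82402f &&& m) a))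
    (P := fun s => (s.card = 2 → {x | x ∈ octads ∧ fOc 0 ∩ x = s}.ncard = 16) ∧
      (s.card = 4 → {x | x ∈ octads ∧ fOc 0 ∩ x = s}.ncard = 4)) (by decide +kernel) (fun a ha h => ?_) hs
  rw [show {x | x ∈ octads ∧ fOc 0 ∩ x = bset a} = {x | x ∈ GC ∧ (x.card = 8 ∧ fOc 0 ∩ x = bset a)} from
      Set.ext fun x => and_assoc, ncard_CW (f := fun m => Nat.beq (p24 m) 8 && Nat.beq (0x82402f &&& m) a) fun m hm => by
    rw [card_bset_eq_iff, fOc0, ← bset_and, bset_eq_iff (Nat.and_le_right.trans_lt hm.lt) ha, Bool.and_eq_true],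
    card_bset_eq_iff, card_bset_eq_iff]
  simp only [Bool.and_eq_true, Bool.or_eq_true, Bool.not_eq_true', beq_iff] at h ⊢
  exact ⟨fun e => h.1.resolve_left (by rw [beq_iff.2 e]; simp), fun e => h.2.resolve_left (by rw [beq_iff.2 e]; simp)⟩

end Cfsg.Agent.S1555
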