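import Cfsg.Statements.S1557
import Cfsg.Agent.H14.M24Obj
import Cfsg.Agent.H14.Obj2

set_option autoImplicit false
open scoped Pointwise
open Cfsg

namespace Cfsg.Agent.S1557

open H14 MulAction
set_option maxRecDepth 100000

/-- The complement of the union of two disjoint octads is an octad, and the code has exactly 3795 trios of pairwise disjoint octads. -/
theorem result : (∀ o o' : Finset Cfsg.GolayPt, o ∈ Cfsg.octads → o' ∈ Cfsg.octads → Disjoint o o' → (o ∪ o')ᶜ ∈ Cfsg.octads) ∧ Cfsg.trios.ncard = 3795 := by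
  refine ⟨fun o o' ho ho' h => mem_octads.2 ⟨compl_mem_GC ?_, ?_⟩, oTi.ncard⟩
  · rw [← Finset.sup_eq_union, ← h.symmDiff_eq_sup]
    exact symmDiff_mem_GC ho.1 ho'.1
  · rw [Finset.card_compl, Finset.card_union_of_disjoint h, card_golayPt, ho.2, ho'.2]

end Cfsg.Agent.S1557
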