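import Cfsg.Statements.S1560
import Cfsg.Agent.H14.M24Obj
import Cfsg.Agent.H14.Obj2

set_option autoImplicit false
open scoped Pointwise
open Cfsg

namespace Cfsg.Agent.S1560

open H14 MulAction
set_option maxRecDepth 100000
theorem cnt {d : Finset GolayPt} (hd : d ∈ dodecads) (k : ℕ) :
    {d' : Finset GolayPt | d' ∈ dodecads ∧ (d ∩ d').card = k}.ncard =
      pop 2576 (selB (fun i => Nat.beq (p24 (Nat.land 0x5335f (cm 24 2576 ODo.A i))) k) 2576) := by
  obtain ⟨g, rfl⟩ := dodecad_std hd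
  rw [ncard_smul_eq oDo.inv g (Q := fun x => (d0 ∩ x).card = k) fun x _ => by
    rw [← Finset.smul_finset_inter, Finset.card_smul_finset]]
  exact oDo.ncard_sel fun i _ => by rw [d0, fDo, col_eq, ← bset_and, card_bset_eq_iff]; rfl

/-- Intersection numbers of dodecads: a dodecad meets every other dodecad in 0, 4, 6 or 8 points, meeting 495 of them in 4 points, 1584 in 6 points and 495 in 8 points. -/
theorem result (d : Finset Cfsg.GolayPt) (hd : d ∈ Cfsg.dodecads) : (∀ d' ∈ Cfsg.dodecads, d' ≠ d → (d ∩ d').card = 0 ∨ (d ∩ d').card = 4 ∨ (d ∩ d').card = 6 ∨ (d ∩ d').card = 8) ∧ {d' : Finset Cfsg.GolayPt | d' ∈ Cfsg.dodecads ∧ (d ∩ d').card = 4}.ncard = 495 ∧ {d' : Finset Cfsg.GolayPt | d' ∈ Cfsg.dodecads ∧ (d ∩ d').card = 6}.ncard = 1584 ∧ {d' : Finset Cfsg.GolayPt | d' ∈ Cfsg.dodecads ∧ (d ∩ d').card = 8}.ncard = 495 := by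
  refine ⟨fun d' hd' hne => ?_, (cnt hd 4).trans (by decide +kernel), (cnt hd 6).trans (by decide +kernel),
    (cnt hd 8).trans (by decide +kernel)⟩
  have h1 := card_mem_GC (symmDiff_mem_GC hd.1 hd'.1)
  have h2 := card_symmDiff_add d d'
  have h3 : (symmDiff d d').card ≠ 0 := by rw [Finset.card_ne_zero, Finset.nonempty_iff_ne_empty, ← Finset.bot_eq_empty, Ne, symmDiff_eq_bot]; exact hne.symm
  have h4 := hd.2
  have h5 := hd'.2
  omega

end Cfsg.Agent.S1560
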