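import Cfsg.Statements.S1561
import Cfsg.Agent.H14.M24Obj
import Cfsg.Agent.H14.Obj2

set_option autoImplicit false
open scoped Pointwise
open Cfsg

namespace Cfsg.Agent.S1561

open H14 MulAction
set_option maxRecDepth 100000
theorem conn0 {x y : Finset GolayPt} (hx : x ∈ dodecads) (hy : y ∈ dodecads)
    (e : (fDo 0 ∩ x).card = (fDo 0 ∩ y).card) : ∃ g ∈ stabilizer M24 (fDo 0), g • x = y :=
  HDo_eq ▸ oDo.conn_of_val (c := fun x => (fDo 0 ∩ x).card)
    (cN := fun i => p24 (Nat.land 0x5335f (cm 24 2576 ODo.A i)))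
    (fun i _ => by rw [fDo0, fDo, col_eq, ← bset_and, card_bset]; rfl)
    [(0, []), (2, []), (12, [dw (nat_lit 0x01), dw (nat_lit 0x03), dw (nat_lit 0x05), dw (nat_lit 0x07), dw (nat_lit 0x0b), dw (nat_lit 0x01), dw (nat_lit 0x03), dw (nat_lit 0x07)
, dw (nat_lit 0x01), dw (nat_lit 0x09), dw (nat_lit 0x03), dw (nat_lit 0x05)]), (30, [dw (nat_lit 0x01), dw (nat_lit 0x03), dw (nat_lit 0x05), dw (nat_lit 0x07), dw (nat_lit 0x09), dw (nat_lit 0x01), dw (nat_lit 0x03), dw (nat_lit 0x0b)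
, dw (nat_lit 0x07), dw (nat_lit 0x03), dw (nat_lit 0x01), dw (nat_lit 0x01)]), (1, [dw (nat_lit 0x01), dw (nat_lit 0x03), dw (nat_lit 0x05), dw (nat_lit 0x07), dw (nat_lit 0x09), dw (nat_lit 0x01), dw (nat_lit 0x0b), dw (nat_lit 0x05)
, dw (nat_lit 0x03), dw (nat_lit 0x07), dw (nat_lit 0x01), dw (nat_lit 0x0b), dw (nat_lit 0x05), dw (nat_lit 0x01)])] (by decide +kernel) hx hy e

/-- Two dodecads meeting a fixed dodecad in equally many points lie in one orbit of its stabiliser. -/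
theorem result (d d' d'' : Finset Cfsg.GolayPt) (hd : d ∈ Cfsg.dodecads) (hd' : d' ∈ Cfsg.dodecads) (hd'' : d'' ∈ Cfsg.dodecads) (h : (d ∩ d').card = (d ∩ d'').card) : ∃ g : Equiv.Perm Cfsg.GolayPt, g ∈ Cfsg.M24 ∧ g • d = d ∧ g • d' = d'' := by
  obtain ⟨g, h1, h2⟩ := conn_transport (Γ := M24)
    (R := fun d x y => x ∈ dodecads ∧ y ∈ dodecads ∧ (d ∩ x).card = (d ∩ y).card)
    (fun a d x y h => by
      simp only [← Finset.smul_finset_inter, Finset.card_smul_finset] at h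
      exact ⟨by simpa using smul_mem_dodecads a⁻¹ h.1, by simpa using smul_mem_dodecads a⁻¹ h.2.1, h.2.2⟩)
    (fun x y h => conn0 h.1 h.2.1 h.2.2) (oDo.std hd) ⟨hd', hd'', h⟩
  exact ⟨g, g.2, h1, h2⟩

end Cfsg.Agent.S1561
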