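import Cfsg.Statements.S1562
import Cfsg.Agent.H14.M24Use

set_option autoImplicit false
open scoped Pointwise
open Cfsg

namespace Cfsg.Agent.S1562

open H14 MulAction
open scoped Pointwise
set_option maxRecDepth 100000
noncomputable def l21 : List Nat := [11010247, 9963547, 13893731, 12717187, 8716939, 11731203, 8421811, 9471495, 13124355, 10765331, 8536111, 8505411, 8398155, 10496547, 12656663, 9347075, 8657159, 8524371, 8983587, 14716939, 9465987]
theorem ex_iff {m : ℕ} (hm : m < 2 ^ 24) : (∃ o ∈ octads, fTr 0 ∪ bset m ⊆ o) ↔ l21.any (subs m) = true := by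
  rw [fTr0, List.any_eq_true]
  refine ⟨fun ⟨o, ho, h⟩ => ?_, fun ⟨o, ho, h⟩ => ?_⟩
  · obtain ⟨c, hc, rfl⟩ := mem_GC.1 ho.1
    rw [Finset.union_subset_iff, bset_subset_iff (by norm_num), bset_subset_iff hm] at h
    have := forall_CW (f := fun c => !(Nat.beq (p24 c) 8 && subs 0x800003 c) || l21.any (Nat.beq c))
      (by decide +kernel) hc
    rw [(card_bset_eq_iff _ _).1 ho.2, h.1] at this
    obtain ⟨b, hb, e⟩ := List.any_eq_true.1 this
    exact ⟨b, hb, beq_iff.1 e ▸ h.2⟩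
  · have := Bool.and_eq_true_iff.1 (List.all_eq_true.1 (show l21.all (fun o => oct o && subs 0x800003 o) = true by
      decide +kernel) o ho)
    exact ⟨_, bset_mem_octads this.1, Finset.union_subset (bset_subset this.2) (bset_subset h)⟩
theorem dj_iff (m : ℕ) : Disjoint (fTr 0) (bset m) ↔ Nat.beq (p24 (Nat.land 0x800003 m)) 0 = true := by
  rw [fTr0, Finset.disjoint_iff_inter_eq_empty, ← Finset.card_eq_zero, ← bset_and, card_bset_eq_iff]; rfl
noncomputable def c (U : Finset GolayPt) : ℕ := 2 * (fTr 0 ∩ U).card + cond (l21.any (subs (mask U))) 1 0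
theorem conn0 {x y : Finset GolayPt} (hx : x.card = 3) (hy : y.card = 3) (e : c x = c y) :
    ∃ g ∈ stabilizer M24 (fTr 0), g • x = y :=
  HTr_eq ▸ oTr.conn_of_val (c := c) (cN := fun i => (fun m => Nat.add (Nat.mul 2 (p24 (Nat.land 0x800003 m)))
      (cond (l21.any (subs m)) 1 0)) (cm 24 2024 OTr.A i))
    (fun i _ => by
      rw [show fTr i = _ from col_eq _ _ i, c, mask_bset (cm_lt _ _ _), fTr0, ← bset_and, card_bset]; rfl)
    [(0, []), (1, [dw (nat_lit 0x01), dw (nat_lit 0x03), dw (nat_lit 0x01), dw (nat_lit 0x05), dw (nat_lit 0x03), dw (nat_lit 0x01), dw (nat_lit 0x0b), dw (nat_lit 0x05)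
, dw (nat_lit 0x01)]), (69, [dw (nat_lit 0x01), dw (nat_lit 0x03), dw (nat_lit 0x05), dw (nat_lit 0x07), dw (nat_lit 0x09), dw (nat_lit 0x0b), dw (nat_lit 0x01), dw (nat_lit 0x03)
, dw (nat_lit 0x0d), dw (nat_lit 0x01), dw (nat_lit 0x01)]), (4, [dw (nat_lit 0x01), dw (nat_lit 0x03), dw (nat_lit 0x05), dw (nat_lit 0x07), dw (nat_lit 0x01), dw (nat_lit 0x03), dw (nat_lit 0x09), dw (nat_lit 0x0d)
, dw (nat_lit 0x01), dw (nat_lit 0x07), dw (nat_lit 0x03), dw (nat_lit 0x01)]), (60, [dw (nat_lit 0x01), dw (nat_lit 0x03), dw (nat_lit 0x05), dw (nat_lit 0x07), dw (nat_lit 0x09), dw (nat_lit 0x0d), dw (nat_lit 0x03), dw (nat_lit 0x01)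
, dw (nat_lit 0x07), dw (nat_lit 0x0b), dw (nat_lit 0x05), dw (nat_lit 0x0d), dw (nat_lit 0x01)])] (by decide +kernel) hx hy e
theorem dj_smul (g : M24) (T U : Finset GolayPt) : Disjoint (g • T) (g • U) ↔ Disjoint T U := by
  simp only [Finset.disjoint_iff_inter_eq_empty, ← Finset.smul_finset_inter, Finset.smul_finset_eq_empty]
theorem ex_smul (g : M24) (T U : Finset GolayPt) :
    (∃ o ∈ octads, g • T ∪ g • U ⊆ o) ↔ ∃ o ∈ octads, T ∪ U ⊆ o := by
  rw [← Finset.smul_finset_union]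
  exact ⟨fun ⟨o, ho, h⟩ => ⟨_, smul_mem_octads g⁻¹ ho, Finset.smul_finset_subset_iff.1 h⟩,
    fun ⟨o, ho, h⟩ => ⟨_, smul_mem_octads g ho, Finset.smul_finset_subset_smul_finset h⟩⟩

/-- Orbits of a triad stabiliser on the triads disjoint from it: the 210 triads inside a common octad with it form one orbit and the remaining 1120 another. -/
theorem result (T : Finset Cfsg.GolayPt) (hT : T.card = 3) : {U : Finset Cfsg.GolayPt | U.card = 3 ∧ Disjoint T U ∧ (∃ o ∈ Cfsg.octads, T ∪ U ⊆ o)}.ncard = 210 ∧ {U : Finset Cfsg.GolayPt | U.card = 3 ∧ Disjoint T U ∧ ¬ (∃ o ∈ Cfsg.octads, T ∪ U ⊆ o)}.ncard = 1120 ∧ ∀ U U' : Finset Cfsg.GolayPt, U.card = 3 → U'.card = 3 → Disjoint T U → Disjoint T U' → ((∃ o ∈ Cfsg.octads, T ∪ U ⊆ o) ↔ (∃ o ∈ Cfsg.octads, T ∪ U' ⊆ o)) → ∃ g : Equiv.Perm Cfsg.GolayPt, g ∈ Cfsg.M24 ∧ g • T = T ∧ g • U = U' := by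
  obtain ⟨g, rfl⟩ := oTr.std hT
  refine ⟨?_, ?_, fun U U' hU hU' h1 h2 h => ?_⟩
  · refine (ncard_smul_eq oTr.inv g (Q := fun U => Disjoint (fTr 0) U ∧ ∃ o ∈ octads, fTr 0 ∪ U ⊆ o) fun x _ => by
      rw [ex_smul, dj_smul]).trans ((oTr.ncard_sel (g := fun i => (fun m =>
        Nat.beq (p24 (Nat.land 0x800003 m)) 0 && l21.any (subs m)) (cm 24 2024 OTr.A i)) fun i _ => ?_).trans (by decide +kernel))
    rw [show fTr i = _ from col_eq _ _ i, ex_iff (cm_lt _ _ _), dj_iff, Bool.and_eq_true]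
  · refine (ncard_smul_eq oTr.inv g (Q := fun U => Disjoint (fTr 0) U ∧ ¬ ∃ o ∈ octads, fTr 0 ∪ U ⊆ o) fun x _ => by
      rw [ex_smul, dj_smul]).trans ((oTr.ncard_sel (g := fun i => (fun m =>
        Nat.beq (p24 (Nat.land 0x800003 m)) 0 && !l21.any (subs m)) (cm 24 2024 OTr.A i)) fun i _ => ?_).trans (by decide +kernel))
    rw [show fTr i = _ from col_eq _ _ i, ex_iff (cm_lt _ _ _), dj_iff, Bool.and_eq_true, Bool.not_eq_true', Bool.not_eq_true]
  obtain ⟨k, e1, e2⟩ := conn_transport (Γ := M24) (R := fun T U U' => U.card = 3 ∧ U'.card = 3 ∧ Disjoint T U ∧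
      Disjoint T U' ∧ ((∃ o ∈ octads, T ∪ U ⊆ o) ↔ ∃ o ∈ octads, T ∪ U' ⊆ o))
    (fun a T U U' h => by
      simpa only [ex_smul, dj_smul, Finset.card_smul_finset] using h)
    (fun U U' h => conn0 h.1 h.2.1 (by
      rw [c, c, Finset.disjoint_iff_inter_eq_empty.1 h.2.2.1, Finset.disjoint_iff_inter_eq_empty.1 h.2.2.2.1]
      rw [Bool.eq_iff_iff.2 (by rw [← ex_iff (mask_lt U), ← ex_iff (mask_lt U'), bset_mask, bset_mask]; exact h.2.2.2.2 :
        l21.any (subs (mask U)) = true ↔ l21.any (subs (mask U')) = true)])) ⟨g, rfl⟩ ⟨hU, hU', h1, h2, h⟩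
  exact ⟨k, k.2, e1, e2⟩

end Cfsg.Agent.S1562
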