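import Cfsg.Statements.S1563
import Cfsg.Agent.H14.M24Obj
import Cfsg.Agent.H14.Obj2

set_option autoImplicit false
open scoped Pointwise
open Cfsg

namespace Cfsg.Agent.S1563

open H14 MulAction
set_option maxRecDepth 100000
theorem coatomDu {x} (hx : x ∈ {s : Finset GolayPt | s.card = 2}) : IsCoatom (stabilizer M24 x) :=
  isCoatom_stab (oDu.coatom HDu_eq [((nat_lit 1, (nat_lit 0x200000000000220006c000006008621c002e1460f6dffe), [dw (nat_lit 0x01), dw (nat_lit 0x09), dw (nat_lit 0x01), dw (nat_lit 0x05), dw (nat_lit 0x09), dw (nat_lit 0x0b), dw (nat_lit 0x03), dw (nat_lit 0x01)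
]), dw (nat_lit 0x01), [dw (nat_lit 0x01), dw (nat_lit 0x0401), dw (nat_lit 0x01), dw (nat_lit 0x0b), dw (nat_lit 0x03), dw (nat_lit 0x01), dw (nat_lit 0x03), dw (nat_lit 0x01)
, dw (nat_lit 0x05), dw (nat_lit 0x03), dw (nat_lit 0x01), dw (nat_lit 0x07), dw (nat_lit 0x09)]),
((nat_lit 13, (nat_lit 0xfffffffffffffffffffffffdfffffffffffddfff93fffff9ff79de3ffd1eb9f092000), [dw (nat_lit 0x01), dw (nat_lit 0x03), dw (nat_lit 0x01), dw (nat_lit 0x07), dw (nat_lit 0x05), dw (nat_lit 0x01), dw (nat_lit 0x03), dw (nat_lit 0x09)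
, dw (nat_lit 0x07), dw (nat_lit 0x03), dw (nat_lit 0x05), dw (nat_lit 0x01)]), dw (nat_lit 0x01030101), [dw (nat_lit 0x01), dw (nat_lit 0x0901), dw (nat_lit 0x01), dw (nat_lit 0x03), dw (nat_lit 0x05), dw (nat_lit 0x07), dw (nat_lit 0x01), dw (nat_lit 0x0d)
, dw (nat_lit 0x09), dw (nat_lit 0x01), dw (nat_lit 0x03), dw (nat_lit 0x01)])] (by decide +kernel)) (oDu.std hx)

/-- The stabiliser of a pair of points (setwise) is a maximal proper subgroup of the group of the length-24 code. -/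
theorem result (s : Finset Cfsg.GolayPt) (hs : s.card = 2) : IsCoatom (MulAction.stabilizer Cfsg.M24 s) := by
  exact coatomDu hs

end Cfsg.Agent.S1563
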