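import Cfsg.Statements.S1565
import Cfsg.Agent.H14.M24Obj
import Cfsg.Agent.H14.Obj2

set_option autoImplicit false
open scoped Pointwise
open Cfsg

namespace Cfsg.Agent.S1565

open H14 MulAction
set_option maxRecDepth 100000
theorem coatomOc {x} (hx : x ∈ octads) : IsCoatom (stabilizer M24 x) :=
  isCoatom_stab (oOc.coatom HOc_eq [((nat_lit 68, (nat_lit 0x8000000500000000020000000000400800100c00e00800008200000000000000100000000100000000000000000108000000000a0000000000040000000000004000000008000000000000000000184020000000000300000000000000000), [dw (nat_lit 0x01), dw (nat_lit 0x03), dw (nat_lit 0x05), dw (nat_lit 0x07), dw (nat_lit 0x0b), dw (nat_lit 0x0d), dw (nat_lit 0x01)]), dw (nat_lit 0x0301010301), [dw (nat_lit 0x01), dw (nat_lit 0x03), dw (nat_lit 0x05), dw (nat_lit 0x07), dw (nat_lit 0x01), dw (nat_lit 0x0d), dw (nat_lit 0x09), dw (nat_lit 0x01)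
, dw (nat_lit 0x05), dw (nat_lit 0x03), dw (nat_lit 0x0d), dw (nat_lit 0x01), dw (nat_lit 0x0f), dw (nat_lit 0x07), dw (nat_lit 0x01)]),
((nat_lit 1, (nat_lit 0x144431c0000027790a0480c14271d008180000041026043390038af888c88ec2eaaf427500275c608314408210540750149b640a067f5239804c800881316530110ac8071d0907b79b1c2b03c450fc40b4213bc9ffd8cd8123b3e5e4fe56fa), [dw (nat_lit 0x01), dw (nat_lit 0x03), dw (nat_lit 0x05), dw (nat_lit 0x01), dw (nat_lit 0x03), dw (nat_lit 0x05), dw (nat_lit 0x07), dw (nat_lit 0x0d)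
, dw (nat_lit 0x01), dw (nat_lit 0x03), dw (nat_lit 0x07)]), dw (nat_lit 0x01), [dw (nat_lit 0x01), dw (nat_lit 0x0101), dw (nat_lit 0x03), dw (nat_lit 0x05), dw (nat_lit 0x07), dw (nat_lit 0x01), dw (nat_lit 0x09), dw (nat_lit 0x0f)
, dw (nat_lit 0x01), dw (nat_lit 0x03), dw (nat_lit 0x05), dw (nat_lit 0x07), dw (nat_lit 0x01), dw (nat_lit 0x03)]),
((nat_lit 2, (nat_lit 0x63bbce3fafffd886f5db7f3ebd8e2bf767feff3be1d97bcc67dc75077737713d1450bd8affc8a39f7cebbf7defabe82feb649bf55980adc67fb33ff77ece9acfeaf537f8e276f84864e3d4fc3baf023b49dec4360027027edc4c1a1b01a904), [dw (nat_lit 0x01), dw (nat_lit 0x03), dw (nat_lit 0x05), dw (nat_lit 0x09), dw (nat_lit 0x07), dw (nat_lit 0x01), dw (nat_lit 0x0d), dw (nat_lit 0x03)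
, dw (nat_lit 0x05), dw (nat_lit 0x07), dw (nat_lit 0x01), dw (nat_lit 0x01)]), dw (nat_lit 0x03), [dw (nat_lit 0x01), dw (nat_lit 0x03), dw (nat_lit 0x05), dw (nat_lit 0x07), dw (nat_lit 0x0b), dw (nat_lit 0x01), dw (nat_lit 0x09), dw (nat_lit 0x03)
, dw (nat_lit 0x05), dw (nat_lit 0x07), dw (nat_lit 0x01), dw (nat_lit 0x0d), dw (nat_lit 0x05), dw (nat_lit 0x05)])] (by decide +kernel)) (oOc.std hx)

/-- The stabiliser of an octad is a maximal proper subgroup of the group of the length-24 code. -/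
theorem result (o : Finset Cfsg.GolayPt) (ho : o ∈ Cfsg.octads) : IsCoatom (MulAction.stabilizer Cfsg.M24 o) := by
  exact coatomOc ho

end Cfsg.Agent.S1565
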