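import Cfsg.Statements.S1566
import Cfsg.Agent.H14.M24Obj
import Cfsg.Agent.H14.Obj2

set_option autoImplicit false
open scoped Pointwise
open Cfsg

namespace Cfsg.Agent.S1566

open H14 MulAction
set_option maxRecDepth 100000
theorem coatomDm {x} (hx : x ∈ duums) : IsCoatom (stabilizer M24 x) :=
  isCoatom_stab (oDm.coatom HDm_eq [((nat_lit 10, (nat_lit 0x132620e21c17748b59692e2816462b22f8101486096e0088948dc8c58483f1c80dc18824cba44c300e821459e5085f3faad847040000a30cbce1a22afdce540802a804415f81aae16f2c7b816e471cf01103f02404a5f368841c1094530203db708ee0100010aca9f6341fe1000c4983be2e38f1cfe6993003c0433ee02004c8045d78000eeee3c21067c6b9ba4c2117c0080780b2642eea207004121406000400), [dw (nat_lit 0x01), dw (nat_lit 0x03), dw (nat_lit 0x05), dw (nat_lit 0x07), dw (nat_lit 0x0b), dw (nat_lit 0x01), dw (nat_lit 0x03), dw (nat_lit 0x05)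
, dw (nat_lit 0x0b), dw (nat_lit 0x01), dw (nat_lit 0x03), dw (nat_lit 0x01)]), dw (nat_lit 0x010501), [dw (nat_lit 0x01), dw (nat_lit 0x0208), dw (nat_lit 0x03), dw (nat_lit 0x05), dw (nat_lit 0x0b), dw (nat_lit 0x0d), dw (nat_lit 0x01), dw (nat_lit 0x03)
, dw (nat_lit 0x07), dw (nat_lit 0x05), dw (nat_lit 0x01), dw (nat_lit 0x0d), dw (nat_lit 0x03), dw (nat_lit 0x07)]),
((nat_lit 1, (nat_lit 0xecd9df1de3e88b74a696d1d7e9b9d4dd07efeb79f691ff776b72373a7b7c0e37f23e77db345bb3cff17deba61af7a0c05527b8fbffff5cf3431e5dd50231abf7fd57fbbea07e551e90d3847e91b8e30feefc0fdbfb5a0c977be3ef6bacfdfc248f711fefffef535609cbe01efff3b67c41d1c70e301966cffc3fbcc11fdffb37fba287fff1111c3def98394645b3dee83ff7f87f4d9bd115df8ffbedebf9fffbfe), [dw (nat_lit 0x01), dw (nat_lit 0x03), dw (nat_lit 0x05), dw (nat_lit 0x07), dw (nat_lit 0x09), dw (nat_lit 0x0b), dw (nat_lit 0x01), dw (nat_lit 0x03)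
, dw (nat_lit 0x05), dw (nat_lit 0x09), dw (nat_lit 0x07), dw (nat_lit 0x01), dw (nat_lit 0x01)]), dw (nat_lit 0x01), [dw (nat_lit 0x01), dw (nat_lit 0x020a), dw (nat_lit 0x03), dw (nat_lit 0x05), dw (nat_lit 0x07), dw (nat_lit 0x0b), dw (nat_lit 0x0d), dw (nat_lit 0x01)
, dw (nat_lit 0x09), dw (nat_lit 0x03), dw (nat_lit 0x0d), dw (nat_lit 0x01), dw (nat_lit 0x0b), dw (nat_lit 0x05)])] (by decide +kernel)) (oDm.std hx)

/-- The setwise stabiliser of a dodecad together with its complement is a maximal proper subgroup of the group of the length-24 code. -/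
theorem result (d : Finset Cfsg.GolayPt) (hd : d ∈ Cfsg.dodecads) : IsCoatom (MulAction.stabilizer Cfsg.M24 ({d, dᶜ} : Finset (Finset Cfsg.GolayPt))) := by
  exact coatomDm ⟨d, hd, rfl⟩

end Cfsg.Agent.S1566
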