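import Cfsg.Statements.S1567
import Cfsg.Agent.H14.Conway0

set_option autoImplicit false
open Cfsg

namespace Cfsg.Agent.S1567

/-- The rank-24 lattice is the additive subgroup generated by its 196560 minimal vectors. -/
theorem result : AddSubgroup.closure {x : Cfsg.GolayPt → ℤ | x ∈ Cfsg.leechLattice ∧ Cfsg.sqNorm x = 32} = Cfsg.leechLattice := by
  open H14 in
  refine le_antisymm ((AddSubgroup.closure_le _).2 fun _ h => h.1) (leech_le ?_ (fun b hb => ?_) (fun p => ?_) ?_)
  · exact AddSubgroup.subset_closure ⟨(H14.isL_tv _).mem, by decide +kernel⟩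
  · exact AddSubgroup.subset_closure ⟨(H14.isL_ind (H14.isCW_basis b hb).bset_mem).mem, by revert b; decide +kernel⟩
  · by_cases h : p = none
    · rw [h, sub_self]; exact zero_mem _
    · rw [sub_eq_add_neg, ← Pi.single_neg]
      exact AddSubgroup.subset_closure ⟨H14.four_mem rfl, H14.norm_four h _⟩
  · have e : (Pi.single none 8 : H14.V) = (Pi.single none 4 + Pi.single (some 0) 4) +
        (Pi.single none 4 + Pi.single (some 0) (-4)) := by decide +kernel
    rw [e]
    exact add_mem (AddSubgroup.subset_closure ⟨H14.four_mem rfl, H14.norm_four (by decide) _⟩)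
      (AddSubgroup.subset_closure ⟨H14.four_mem rfl, H14.norm_four (by decide) _⟩)

end Cfsg.Agent.S1567
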