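import Cfsg.Statements.S1568
import Cfsg.Agent.S0395

set_option autoImplicit false
open Cfsg

namespace Cfsg.Agent.S1568
open H14 Finset
theorem fib {β : Type*} {S : Set V} (fin : S.Finite) (f : V → β) (t : Finset β) (n : ℕ) (hm : ∀ x ∈ S, f x ∈ t)
    (hS : ∀ x ∈ S, x ∈ leechLattice ∧ (cs x).card = n + 1 ∧ ∀ i ∈ cs x, x i ^ 2 = 2 ^ 2)
    (hf : ∀ x ∈ S, ∀ y ∈ S, f x = f y → cs x = cs y ∧ ∀ i ∉ cs x, x i = y i) : S.ncard ≤ 2 ^ n * t.card := by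
  classical
  rw [Set.ncard_eq_toFinset_card _ fin]
  refine card_le_mul_card_image_of_maps_to (fun x hx => hm x (fin.mem_toFinset.1 hx)) _ fun b _ => ?_
  rcases (fin.toFinset.filter (f · = b)).eq_empty_or_nonempty with q | ⟨z, hz⟩
  · simp [q]
  simp only [mem_filter, fin.mem_toFinset] at hz
  have c := (hS z hz.1).2.1
  obtain ⟨p, hp⟩ := card_pos.1 (show 0 < (cs z).card by omega)
  refine (card_le_card_of_injOn (t := ((cs z).erase p).powerset) (fun x => ((cs z).erase p).filter fun i => x i = 2)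
    (fun x _ => mem_coe.2 (mem_powerset.2 (filter_subset _ _))) fun x hx y hy e => ?_).trans (by simp [card_erase_of_mem hp, c])
  simp only [coe_filter, fin.mem_toFinset, Set.mem_ofPred_eq] at hx hy
  obtain ⟨a1, -, a2⟩ := hS x hx.1
  obtain ⟨b1, -, b2⟩ := hS y hy.1
  obtain ⟨a3, a4⟩ := hf z hz.1 x hx.1 (hz.2.trans hx.2.symm)
  obtain ⟨b3, b4⟩ := hf z hz.1 y hy.1 (hz.2.trans hy.2.symm)
  rw [← a3] at a2
  rw [← b3] at b2
  have k : ∀ i, i ≠ p → x i = y i := fun i n => by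
    by_cases q : i ∈ cs z
    · have := Finset.ext_iff.1 e i
      simp only [mem_filter, mem_erase, n, q, ne_eq, not_false_iff, true_and] at this
      have := pm_of_sq _ (a2 i q); have := pm_of_sq _ (b2 i q); omega
    · rw [← a4 i q, b4 i q]
  refine sub_eq_zero.1 (by_contra fun q => ?_)
  have := min_norm (sub_mem a1 b1) q
  rw [sqNorm_erase _ p, sum_eq_zero fun i hi => by simp [k i (mem_erase.1 hi).1], Pi.sub_apply] at this
  rcases pm_of_sq _ (a2 p hp) with a | a <;> rcases pm_of_sq _ (b2 p hp) with b | b <;> simp_all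

theorem odd {S : Set V} (k : ℕ) (a : ℤ) (h : ∀ x ∈ S, x ∈ leechLattice ∧ sqNorm x = 48 ∧ ∃ s : Finset GolayPt, s.card = k ∧ s.Nonempty ∧
    ∀ i ∈ s, |x i| = a) (e : a ^ 2 * k + (24 - k) = 48) (o : a % 2 = 1) : S.ncard ≤ Nat.choose 24 k * 4096 := by
  have : ∀ x : V, ∃ s : Finset GolayPt, x ∈ S → s.card = k ∧ IsL 1 x ∧ (∀ i ∈ s, x i ^ 2 = a ^ 2) ∧ ∀ i ∈ sᶜ, x i ^ 2 = 1 := fun x => by
    by_cases q : x ∈ S
    swap
    · exact ⟨∅, fun e => absurd e q⟩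
    obtain ⟨h1, h2, s, h3, ⟨p, hp⟩, h4⟩ := h x q
    obtain ⟨m, L⟩ := mem_leech.1 h1
    obtain rfl : m = 1 := by have := L.par p; have := h4 p hp; rcases abs_cases (x p) with c | c <;> omega
    have c : ∀ i ∈ s, x i ^ 2 = a ^ 2 := fun i hi => by rw [← h4 i hi, sq_abs]
    have := sqNorm_split x s
    rw [sum_congr rfl c, sum_const, nsmul_eq_mul, mul_comm, h3] at this
    have := card_add_card_compl s
    rw [card_golayPt] at this
    exact ⟨s, fun _ => ⟨h3, L, c, eq_of_sum_sq (fun i _ => one_le_sq (L.par i)) (by omega)⟩⟩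
  choose s hs using this
  refine (Set.ncard_le_ncard_of_injOn (t := (powersetCard k univ : Finset (Finset GolayPt)) ×ˢ GC) (fun x => (s x, cs x))
    (fun x hx => ⟨by simp [(hs x hx).1], (hs x hx).2.1.code⟩) fun x hx y hy e => funext fun i => ?_).trans_eq
    (by rw [Set.ncard_prod, Set.ncard_coe_finset, card_powersetCard, card_univ, card_golayPt, ncard_GC])
  obtain ⟨-, a1, a2, a3⟩ := hs x hx
  obtain ⟨-, b1, b2, b3⟩ := hs y hy
  obtain ⟨e1, e2⟩ : s x = s y ∧ cs x = cs y := Prod.ext_iff.1 e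
  have := mem_cs.symm.trans ((Finset.ext_iff.1 e2 i).trans mem_cs)
  have : x i ^ 2 = y i ^ 2 := by
    by_cases q : i ∈ s x
    exacts [by rw [a2 i q, b2 i (e1 ▸ q)], by rw [a3 i (mem_compl.2 q), b3 i (mem_compl.2 (e1 ▸ q))]]
  have := pm_of_sq _ this
  have := a1.par i
  have := b1.par i
  omega

theorem even {x : V} (L : IsL 0 x) (h : sqNorm x = 48) : (∀ i ∈ cs x, x i ^ 2 = 2 ^ 2) ∧ ((cs x).card = 12 ∧ (∀ i ∈ (cs x)ᶜ, x i ^ 2 = 0) ∨
    (cs x).card = 8 ∧ ∃ q ∈ (cs x)ᶜ, x q ^ 2 = 4 ^ 2 ∧ ∀ i ∈ (cs x)ᶜ.erase q, x i ^ 2 = 0) := by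
  have a : ∀ i ∈ cs x, 4 ≤ x i ^ 2 := fun i hi => four_le_sq (L.two hi)
  have := le_sum_sq a
  have := sqNorm_split x (cs x)
  have := sum_sq_nonneg x (cs x)ᶜ
  have := mt L.dvd_of_empty (by omega)
  have := card_mem_GC L.code
  have b : ∀ i ∈ cs x, x i ^ 2 = 2 ^ 2 := fun i hi => (a i hi).eq_of_not_lt' fun q => by
    have := ts_le_sq (L.two hi) q
    have := sum_sq_erase x hi
    have := le_sum_sq fun j hj => a j (mem_of_mem_erase (a := i) hj)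
    rw [card_erase_of_mem hi] at this
    omega
  have := sum_congr rfl b
  rw [sum_const, nsmul_eq_mul] at this
  refine ⟨b, (show (cs x).card = 12 ∨ (cs x).card = 8 by omega).imp (fun e => ⟨e, eq_of_sum_sq (fun i _ => sq_nonneg _) (by omega)⟩) fun e => ⟨e, ?_⟩⟩
  obtain ⟨q, m, hq⟩ := exists_four (x := x) (c := (cs x)ᶜ) (fun i hi => L.zero (mem_compl.1 hi)) (by omega) (by omega)
  have := sum_sq_erase x m
  exact ⟨q, m, hq, eq_of_sum_sq (fun i _ => sq_nonneg _) (by omega)⟩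


/-- Shape census of the lattice vectors of sum of squares 48 (customary norm 6): the four families (2^12, 0^12), (±3^3, ±1^21), (±4, ±2^8, 0^15) and (±5, ±1^23) have 5275648, 8290304, 3108864 and 98304 members. -/
theorem result : {x : Cfsg.GolayPt → ℤ | x ∈ Cfsg.leechLattice ∧ Cfsg.sqNorm x = 48 ∧ ∀ i, x i = 0 ∨ x i = 2 ∨ x i = -2}.ncard = 5275648 ∧ {x : Cfsg.GolayPt → ℤ | x ∈ Cfsg.leechLattice ∧ Cfsg.sqNorm x = 48 ∧ ∃ i j k, i ≠ j ∧ j ≠ k ∧ i ≠ k ∧ |x i| = 3 ∧ |x j| = 3 ∧ |x k| = 3}.ncard = 8290304 ∧ {x : Cfsg.GolayPt → ℤ | x ∈ Cfsg.leechLattice ∧ Cfsg.sqNorm x = 48 ∧ ∃ i, |x i| = 4}.ncard = 3108864 ∧ {x : Cfsg.GolayPt → ℤ | x ∈ Cfsg.leechLattice ∧ Cfsg.sqNorm x = 48 ∧ ∃ i, |x i| = 5}.ncard = 98304 := by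
  classical
  have f : ∀ P : V → Prop, {x | x ∈ leechLattice ∧ sqNorm x = 48 ∧ P x}.Finite := fun P => (finite_short 48).subset fun x hx => hx.2.1.le
  have z : ∀ {a : ℤ}, a ^ 2 = 0 → a = 0 := fun h => pow_eq_zero_iff two_ne_zero |>.1 h
  have ev : ∀ x ∈ leechLattice, ∀ i, x i % 2 = 0 → IsL 0 x := fun x hx i e => by
    obtain ⟨m, L⟩ := mem_leech.1 hx
    rwa [← L.par i, e] at L
  have kA : ∀ x ∈ {x | x ∈ leechLattice ∧ sqNorm x = 48 ∧ ∀ i, x i = 0 ∨ x i = 2 ∨ x i = -2}, cs x ∈ dodecads ∧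
      (∀ i ∈ cs x, x i ^ 2 = 2 ^ 2) ∧ ∀ i ∈ (cs x)ᶜ, x i ^ 2 = 0 := fun x hx => by
    have L := ev x hx.1 none (by have := hx.2.2 none; omega)
    obtain ⟨a, b | ⟨-, q, -, b, -⟩⟩ := even L hx.2.1
    · exact ⟨⟨L.code, b.1⟩, a, b.2⟩
    have := pm_of_sq _ b; have := hx.2.2 q; omega
  have A := fib (f _) cs dodecads.toFinset 11 (fun x hx => Set.mem_toFinset.2 (kA x hx).1)
    (fun x hx => ⟨hx.1, (kA x hx).1.2, (kA x hx).2.1⟩) fun x hx y hy e => ⟨e, fun i hi => by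
      rw [z ((kA x hx).2.2 i (mem_compl.2 hi)), z ((kA y hy).2.2 i (mem_compl.2 (e ▸ hi)))]⟩
  have B := odd (S := {x | x ∈ leechLattice ∧ sqNorm x = 48 ∧ ∃ i j k, i ≠ j ∧ j ≠ k ∧ i ≠ k ∧ |x i| = 3 ∧ |x j| = 3 ∧ |x k| = 3}) 3 3
    (fun x ⟨h1, h2, i, j, k, a, b, c, d⟩ => ⟨h1, h2, {i, j, k}, card_eq_three.2 ⟨i, j, k, a, c, b, rfl⟩, by simp, by simpa using d⟩) rfl rfl
  have D := odd (S := {x | x ∈ leechLattice ∧ sqNorm x = 48 ∧ ∃ i, |x i| = 5}) 1 5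
    (fun x ⟨h1, h2, i, d⟩ => ⟨h1, h2, {i}, rfl, by simp, by simpa using d⟩) rfl rfl
  have : ∀ x : V, ∃ q, x ∈ {x | x ∈ leechLattice ∧ sqNorm x = 48 ∧ ∃ i, |x i| = 4} → cs x ∈ octads ∧ (∀ i ∈ cs x, x i ^ 2 = 2 ^ 2) ∧
      q ∈ (cs x)ᶜ ∧ x q ^ 2 = 4 ^ 2 ∧ ∀ i ∈ (cs x)ᶜ.erase q, x i ^ 2 = 0 := fun x => by
    by_cases hx : x ∈ {x | x ∈ leechLattice ∧ sqNorm x = 48 ∧ ∃ i, |x i| = 4}
    swap
    · exact ⟨none, fun e => absurd e hx⟩
    obtain ⟨h1, h2, i, h3⟩ := hx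
    have c := abs_cases (x i)
    have L := ev x h1 i (by omega)
    obtain ⟨a, b | ⟨b, q, d⟩⟩ := even L h2
    · have := z (b.2 i (mem_compl.2 (mem_cs.not.2 (by omega)))); omega
    exact ⟨q, fun _ => ⟨⟨L.code, b⟩, a, d⟩⟩
  choose q kC using this
  have C := fib (f _) (fun x => (⟨cs x, q x, x (q x)⟩ : Σ _ : Finset GolayPt, GolayPt × ℤ)) (octads.toFinset.sigma fun o => oᶜ ×ˢ {4, -4}) 7
    (fun x hx => mem_sigma.2 ⟨Set.mem_toFinset.2 (kC x hx).1, mem_product.2 ⟨(kC x hx).2.2.1, by simpa using pm_of_sq _ (kC x hx).2.2.2.1⟩⟩)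
    (fun x hx => ⟨hx.1, (kC x hx).1.2, (kC x hx).2.1⟩) fun x hx y hy e => by
      simp only [Sigma.mk.injEq, heq_eq_eq, Prod.mk.injEq] at e
      refine ⟨e.1, fun i hi => ?_⟩
      by_cases c : i = q x
      · rw [c, e.2.2, e.2.1]
      rw [z ((kC x hx).2.2.2.2 i (by simp only [mem_erase, mem_compl]; exact ⟨c, hi⟩)),
        z ((kC y hy).2.2.2.2 i (by simp only [mem_erase, mem_compl, ← e.1, ← e.2.1]; exact ⟨c, hi⟩))]
  rw [card_sigma, sum_congr rfl fun o ho => by rw [card_product, card_compl, card_golayPt, (Set.mem_toFinset.1 ho).2], sum_const,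
    ← Set.ncard_eq_toFinset_card', ncard_octads] at C
  rw [← Set.ncard_eq_toFinset_card', ncard_dodecads] at A
  have T := S0395.result.ge.trans (Set.ncard_le_ncard (t := {x | x ∈ leechLattice ∧ sqNorm x = 48 ∧ ∀ i, x i = 0 ∨ x i = 2 ∨ x i = -2} ∪
    {x | x ∈ leechLattice ∧ sqNorm x = 48 ∧ ∃ i j k, i ≠ j ∧ j ≠ k ∧ i ≠ k ∧ |x i| = 3 ∧ |x j| = 3 ∧ |x k| = 3} ∪
    {x | x ∈ leechLattice ∧ sqNorm x = 48 ∧ ∃ i, |x i| = 4} ∪ {x | x ∈ leechLattice ∧ sqNorm x = 48 ∧ ∃ i, |x i| = 5}) (fun x ⟨h1, h2⟩ => by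
      obtain ⟨m, L⟩ := mem_leech.1 h1
      obtain rfl | rfl := L.cases
      · obtain ⟨a, b | ⟨-, q, -, b, -⟩⟩ := even L h2
        · refine .inl (.inl (.inl ⟨h1, h2, fun i => ?_⟩))
          by_cases c : i ∈ cs x
          exacts [.inr (pm_of_sq _ (a i c)), .inl (z (b.2 i (mem_compl.2 c)))]
        exact .inl (.inr ⟨h1, h2, q, abs_of_sq (k := 4) b⟩)
      by_cases c : ∀ i, x i ^ 2 ≤ 9
      · have := odd_three L.par c
        obtain ⟨i, j, k, a, b, c, e⟩ := card_eq_three.1 (show (univ.filter fun i => x i ^ 2 = 9).card = 3 by omega)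
        have m := fun i h => abs_of_sq (k := 3) (mem_filter.1 ((Finset.ext_iff.1 e i).2 h)).2
        exact .inl (.inl (.inr ⟨h1, h2, i, j, k, a, c, b, m i (by simp), m j (by simp), m k (by simp)⟩))
      push Not at c
      obtain ⟨i, c⟩ := c
      have := tf_le_sq (L.par i) c
      have := sqNorm_erase x i
      have := le_sum_sq fun j (_ : j ∈ univ.erase i) => one_le_sq (L.par j)
      have := card_erase_univ i
      exact .inr ⟨h1, h2, i, abs_of_sq (k := 5) (by omega)⟩) ((((f _).union (f _)).union (f _)).union (f _)))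
  have := T.trans ((Set.ncard_union_le _ _).trans (Nat.add_le_add_right ((Set.ncard_union_le _ _).trans
    (Nat.add_le_add_right (Set.ncard_union_le _ _) _)) _))
  simp only [Nat.choose, smul_eq_mul, show ({4, -4} : Finset ℤ).card = 2 from rfl] at B C D
  unfold V at *
  omega

end Cfsg.Agent.S1568
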