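import Cfsg.Statements.S1569
import Cfsg.Agent.H14.Mod2

set_option autoImplicit false
open scoped Pointwise
open Cfsg

namespace Cfsg.Agent.S1569

open H14

/-- The cross through a lattice vector of customary norm 8 has exactly 48 members. -/
theorem result (x : Cfsg.GolayPt → ℤ) (hx : x ∈ Cfsg.leechLattice) (hxn : Cfsg.sqNorm x = 64) : (Cfsg.cross x).ncard = 48 := by
  rw [← ncard_cross (x := ⟨x, hx⟩) hxn, ← Set.ncard_image_of_injective _ Subtype.val_injective]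
  congr 1
  ext y
  refine ⟨fun ⟨h1, h2, w, hw, e⟩ => ⟨⟨y, h1⟩, ⟨h2.trans hxn, E2.symm (mem_TwoL.2
    ⟨⟨w, hw⟩, Subtype.ext (e.trans (two_nsmul _))⟩)⟩, rfl⟩, ?_⟩
  rintro ⟨y, ⟨h1, h2⟩, rfl⟩
  obtain ⟨w, e⟩ := mem_TwoL.1 h2.symm
  exact ⟨y.2, h1.trans hxn.symm, w, w.2, (congrArg Subtype.val e).trans (two_nsmul _).symm⟩

end Cfsg.Agent.S1569
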