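import Cfsg.Statements.S1572
import Cfsg.Agent.H14.Conway1
import Cfsg.Agent.H14.Design

set_option autoImplicit false
open scoped Pointwise
open Cfsg

namespace Cfsg.Agent.S1572
open H14 MulAction Finset
noncomputable def sch : List Word := [[0],[2],[4],[0],[2],[4],[0],[2],[4],[0],[2],[4],[0],[2],[4],[0],[2],[4],[0],[2],[4],[0],[2],[4]]
noncomputable def O (s : Nat) : Nat := orbRun LB.nets (lets 3) sch (bit s)
noncomputable def W (a b c d e : Bool) : Nat :=
  Nat.lor (cond a (O 8) 0) (Nat.lor (cond b (O 29) 0) (Nat.lor (cond c (O 101) 0) (Nat.lor (cond d (O 294) 0) (cond e (O 1180) 0))))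
theorem chk : ∀ a b c d e, (!Nat.beq (Nat.mod (pop 196560 (W a b c d e)) 23) 0 || Nat.beq (W a b c d e) 0 ||
    subs (clsV 196560 LB.X pU 0) (W a b c d e)) = true := by decide +kernel

theorem frame {w : Λ} (h : sqNorm w.1 = 64) (k : ∀ i, 8 ∣ w.1 i) : ∃ q, w = fr q ∨ w = -fr q := by
  obtain ⟨q, -, e⟩ := exists_lt_sq (x := w.1) (c := univ) (a := 0) (by rw [← sqNorm, h]; simp)
  have : 64 ≤ w.1 q ^ 2 := by obtain ⟨a, ha⟩ := k q; rw [ha] at e ⊢; nlinarith [sq_pos_iff.2 (show a ≠ 0 by rintro rfl; simp at e)]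
  have := sqNorm_erase w.1 q
  have := sum_sq_nonneg w.1 (univ.erase q)
  have z := eq_of_sum_sq (x := w.1) (c := univ.erase q) (a := 0) (fun _ _ => sq_nonneg _) (by omega)
  refine ⟨q, (pm_of_sq 8 (show w.1 q ^ 2 = _ by omega)).imp (fun e => Subtype.ext (funext fun i => ?_)) fun e => Subtype.ext (funext fun i => ?_)⟩ <;>
    by_cases c : i = q <;> simp_all [fr_apply]

theorem pm {g : Co0} {n : ℤ} (h : ∀ x : Λ, sqNorm x.1 = 32 → (∀ i, 4 ∣ x.1 i) → ∀ i, n ∣ (g⁻¹ • x : Λ).1 i) (p a b : GolayPt) (e : a ≠ b) :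
    2 * n ∣ (g • fr p : Λ).1 a + (g • fr p : Λ).1 b ∧ 2 * n ∣ (g • fr p : Λ).1 a - (g • fr p : Λ).1 b := by
  have k : ∀ s hs, s ^ 2 = 16 → 8 * n ∣ 4 * (g • fr p : Λ).1 a + s * (g • fr p : Λ).1 b := fun s hs q => by
    have := dot_smul g (fr p) (g⁻¹ • l4 a b s hs)
    rw [smul_inv_smul, dot_fr, show dotInt (g • fr p : Λ).1 (l4 a b s hs).1 = 4 * (g • fr p : Λ).1 a + s * (g • fr p : Λ).1 b by
      simp only [dotInt, l4_apply, mul_add, sum_add_distrib, mul_ite, mul_zero, sum_ite_eq', mem_univ, if_true]; ring] at this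
    exact this ▸ mul_dvd_mul_left 8 (h _ (norm_l4 e hs q) (fun i => by rw [l4_apply]; split_ifs <;> omega) p)
  obtain ⟨u, hu⟩ := k 4 rfl rfl
  obtain ⟨v, hv⟩ := k (-4) rfl rfl
  exact ⟨⟨u, by linarith⟩, v, by linarith⟩

theorem big {w : V} {a : ℤ} (h : ∀ i, a ≤ w i ^ 2) : a * 24 ≤ sqNorm w := by
  have := le_sum_sq (c := univ) fun i _ => h i
  rwa [card_univ, card_golayPt] at this

theorem a1 {g : Co0} (h : ∀ x : Λ, sqNorm x.1 = 32 → (∀ i, 4 ∣ x.1 i) → ∀ i, 4 ∣ (g⁻¹ • x : Λ).1 i) : g ∈ Mon := mem_Mon_of_frame fun p => by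
  have n := (sqNorm_smul g _).trans (norm_fr p)
  refine frame n fun i => by_contra fun q => ?_
  obtain ⟨j, hj⟩ := exists_ne i
  have := pm h p j i hj
  have := big (a := 16) (w := (g • fr p : Λ).1) fun j => by
    have : 2 * 4 ∣ (g • fr p : Λ).1 j - (g • fr p : Λ).1 i := if c : j = i then by simp [c] else (pm h p j i c).2
    exact st_le_sq (by omega) (sq_pos_iff.2 (by omega))
  omega

theorem a2 {g : Co0} (h : ∀ x : Λ, sqNorm x.1 = 32 → (∀ i, 2 ∣ x.1 i) → ∀ i, 2 ∣ (g⁻¹ • x : Λ).1 i) : g ∈ Mon := mem_Mon_of_frame fun p => by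
  have n := (sqNorm_smul g _).trans (norm_fr p)
  have k := pm (fun x hx e => h x hx fun i => by have := e i; omega) p
  have d : ∀ o ∈ octads, 16 ∣ dotInt (g • fr p : Λ).1 (ind 2 o) := fun o ho => by
    have := dot_smul g (fr p) (g⁻¹ • ⟨_, (isL_ind ho.1).mem⟩)
    rw [smul_inv_smul, dot_fr] at this
    exact this ▸ mul_dvd_mul_left 8 (h _ (by simp [sqNorm, ind, ho.2]) (fun i => by simp only [ind]; split_ifs <;> omega) p)
  generalize g • fr p = w at n k d
  have f : ∀ i, 4 ∣ w.1 i := fun i => by_contra fun q => by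
    obtain ⟨j, hj⟩ := exists_ne i
    have := k j i hj
    have := big (a := 4) (w := w.1) fun j => by
      have : 2 * 2 ∣ w.1 j - w.1 i := if c : j = i then by simp [c] else (k j i c).2
      exact four_le_sq (by omega)
    omega
  let s := univ.filter fun i => ¬ 8 ∣ w.1 i
  have := le_sum_sq (x := w.1) (c := s) (a := 16) fun i hi => by
    have := f i; have := (mem_filter.1 hi).2; exact st_le_sq (by omega) (sq_pos_iff.2 (by omega))
  have := sqNorm_split w.1 s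
  have := sum_sq_nonneg w.1 sᶜ
  have := card_mem_GC (mem_GC_of_even (s := s) fun b hb => by
    have := d _ (bset_mem_octads (m := b) (by revert b; decide +kernel))
    have := dvd_sum_sub (n := 16) (f := fun i => w.1 i * ind 2 (bset b) i) (g := fun i => if i ∈ bset b ∩ s then 8 else 0) fun i => by
      have := f i
      simp only [ind, s, mem_inter, mem_filter, mem_univ, true_and]
      by_cases q : i ∈ bset b <;> simp only [q, if_true, if_false, true_and, false_and] <;> [split_ifs; skip] <;> omega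
    rw [sum_ind, ← dotInt] at this
    omega)
  exact frame n fun i => by_contra fun q => by have : 0 < s.card := card_pos.2 ⟨i, (mem_filter.2 ⟨mem_univ i, q⟩ : i ∈ s)⟩; omega

theorem dv {g : Co0} (hg : g ∈ Mon) (x : Λ) (n : ℤ) : (∀ i, n ∣ (g • x : Λ).1 i) ↔ ∀ i, n ∣ x.1 i := by
  have k : ∀ g ∈ Mon, ∀ x : Λ, (∀ i, n ∣ x.1 i) → ∀ i, n ∣ (g • x : Λ).1 i := by
    rintro _ ⟨σ, c, hc, rfl⟩ x h i
    rw [mul_smul, sgn_apply, permH_apply]; split_ifs <;> simp [h]
  exact ⟨fun h => inv_smul_smul g x ▸ k _ (inv_mem hg) _ h, k g hg x⟩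

def E (n : ℤ) (x : Λ) : Prop := ∀ i, n ∣ x.1 i
theorem tr {K : Subgroup Co0} (hK : Mon < K) {x : Λ} (hx : sqNorm x.1 = 32) : x ∈ orbit K U := by
  obtain ⟨r, hr⟩ : ∃ r : Λ → Set Λ, ∀ x y, r x = r y ↔ x ∈ orbit K y := ⟨orbit K, fun _ _ => orbit_eq_iff⟩
  have R : ∀ g ∈ K, ∀ x, r (g • x) = r x := fun g hg x => (hr _ _).2 ⟨⟨g, hg⟩, rfl⟩
  have cl : ∀ x : Λ, sqNorm x.1 = 32 → r x = r U ∧ E 4 x ∨ r x = r lO ∧ E 2 x ∧ ¬ E 4 x ∨ r x = r lT ∧ ¬ E 2 x :=
    fun x hx => by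
      obtain ⟨g, hg, e⟩ := min_cases hx
      have := (R g (hK.le hg) x).symm
      simp only [E, ← dv hg x]
      rcases e with e | e | e <;> rw [e] at this ⊢
      exacts [.inl ⟨this, by decide +kernel⟩, .inr (.inl ⟨this, by decide +kernel⟩), .inr (.inr ⟨this, by decide +kernel⟩)]
  have ev : ∀ x : Λ, E 4 x → E 2 x := fun x h i => by have := h i; omega
  obtain ⟨g, hg, n⟩ := SetLike.exists_of_lt hK
  have h1 : r U = r lO ∨ r U = r lT := by
    obtain ⟨x, hx, a, b⟩ : ∃ x : Λ, sqNorm x.1 = 32 ∧ E 4 x ∧ ¬ E 4 (g⁻¹ • x) := by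
      by_contra! k; exact n (a1 k)
    have := cl x hx; have := cl _ ((sqNorm_smul g⁻¹ x).trans hx); have := R _ (inv_mem hg) x; have := ev x a
    clear cl R ev hr; grind
  have h2 : r U = r lT ∨ r lO = r lT := by
    obtain ⟨x, hx, a, b⟩ : ∃ x : Λ, sqNorm x.1 = 32 ∧ E 2 x ∧ ¬ E 2 (g⁻¹ • x) := by
      by_contra! k; exact n (a2 k)
    have := cl x hx; have := cl _ ((sqNorm_smul g⁻¹ x).trans hx); have := R _ (inv_mem hg) x; have := ev (g⁻¹ • x)
    clear cl R ev hr; grind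
  have h3 : r lT = r U → r lO = r lT := fun e => by
    obtain ⟨k, e⟩ := (hr _ _).1 e
    have n1 : sqNorm lO.1 = 32 := by decide +kernel
    have n2 : sqNorm (lO - U).1 = 32 := by decide +kernel
    have : ¬ (E 2 (k.1 • lO) ∧ E 2 (k.1 • (lO - U))) := fun ⟨a, b⟩ => by
      have := (a none).sub (b none)
      rw [smul_sub, show k.1 • U = lT from e] at this
      simp [lT, tv] at this
    have := cl _ n2; have : ¬ E 4 (lO - U) ∧ E 2 (lO - U) := by unfold E; decide +kernel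
    have := cl _ ((sqNorm_smul k.1 _).trans n1); have := cl _ ((sqNorm_smul k.1 _).trans n2)
    have := R _ k.2 lO; have := R _ k.2 (lO - U); have := ev (k.1 • lO); have := ev (k.1 • (lO - U))
    clear cl R ev hr; grind
  have := cl x hx
  rw [← hr]
  clear cl R ev hr; grind

/-- The stabiliser of the standard cross is a maximal proper subgroup of the lattice's automorphism group. -/
theorem result (H : Subgroup ↥Cfsg.Co0) (hH : (H : Set ↥Cfsg.Co0) = {g : ↥Cfsg.Co0 | (∀ v : ↥Cfsg.leechLattice, (v : Cfsg.GolayPt → ℤ) ∈ Cfsg.stdCross → ((g • v : ↥Cfsg.leechLattice) : Cfsg.GolayPt → ℤ) ∈ Cfsg.stdCross)}) : IsCoatom H := by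
  classical
  obtain rfl : H = Mon := SetLike.coe_injective (hH.trans (Set.ext fun g => mem_Mon_iff'.symm))
  refine ⟨fun e => by have := card_Mon; rw [e, Subgroup.card_top, card_Co0] at this; omega, fun K hK => ?_⟩
  have ny : sqNorm (fr none - U).1 = 32 := by decide +kernel
  have dy : dotInt U.1 (fr none - U).1 = 0 := by decide +kernel
  have c1 := card_inf_stabilizer_mul K U
  rw [show {y | ∃ g ∈ K, g • U = y} = {x : Λ | sqNorm x.1 = 32} from Set.ext fun x => ⟨fun ⟨g, _, e⟩ => e ▸ (sqNorm_smul g U).trans norm_U,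
    fun h => let ⟨g, e⟩ := tr hK h; ⟨g, g.2, e⟩⟩, ncard_shell32] at c1
  have c2 := card_inf_stabilizer_mul (K ⊓ C2) (fr none - U)
  have c3 := card_pair norm_U ny dy (by norm_num)
  rw [pop_cls.2.2.1] at c3
  have c4 := Subgroup.card_dvd_of_le (inf_le_inf_right (stabilizer Co0 (fr none - U)) (inf_le_right (a := K) (b := C2)))
  have p : Nat.Prime 23 := by norm_num
  have d := (p.dvd_mul.1 (c2 ▸ (p.dvd_mul.1 (c1 ▸ (show 23 ∣ _ by rw [card_Mon]; norm_num).trans (Subgroup.card_dvd_of_le hK.le))).resolve_right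
    (by norm_num))).resolve_left fun q => by have := q.trans c4; change Nat.card (C2 ⊓ _ : Subgroup Co0) * _ = _ at c3; omega
  set Ω := {y | ∃ g ∈ K ⊓ C2, g • (fr none - U) = y}
  have le : sub BM.gen (lets 3) ≤ K ⊓ C2 := sub_BM (k := 3) (by norm_num) ▸ sub_lets_le fun l hl => ⟨hK.le (by
    interval_cases l
    exacts [(coOf_perm LB.co0 (by decide +kernel) (Pe.spec 0)).symm ▸ permH_mem _ |> (id : coOf _ LB.co0 ∈ Mon → _),
      (coOf_perm LB.co1 (by decide +kernel) (Pe.spec 1)).symm ▸ permH_mem _ |> (id : coOf _ LB.co1 ∈ Mon → _),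
      (coOf_sgn LB.co2 (c := 0x200f68) (by decide +kernel) (bset_mem_GC (by decide +kernel))).symm ▸ sgn_mem _ |> (id : coOf _ LB.co2 ∈ Mon → _)]), bg_le_C2 (gen_mem_lets (by omega))⟩
  have o : ∀ s < 196560, ∀ x : Shell 32, x ∈ BM.S (cond (decide ((BM.dec s).1 ∈ Ω)) (O s) 0) ↔ x ∈ BM.S (O s) ∧ x.1 ∈ Ω := fun s hs x => by
    have : x ∈ BM.S (O s) → ((BM.dec s).1 ∈ Ω ↔ x.1 ∈ Ω) := fun h => by
      obtain ⟨g, hg, rfl⟩ := BM.orb_sound_bit _ _ hs h
      exact ⟨fun ⟨k, hk, e⟩ => ⟨g * k, mul_mem (le hg) hk, by rw [mul_smul, e]; rfl⟩,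
        fun ⟨k, hk, e⟩ => ⟨g⁻¹ * k, mul_mem (inv_mem (le hg)) hk, by rw [mul_smul, e]; exact inv_smul_smul g _⟩⟩
    by_cases q : (BM.dec s).1 ∈ Ω
    · simpa [q] using this
    · simpa [q, PM.mem_S] using this
  have C := fun x => mem_S_clsV U_eq (by rw [norm_U]; norm_num) (c := 0) (by norm_num) x
  obtain ⟨a, b, c, d, e, k⟩ : ∃ a b c d e, ∀ x : Shell 32, x ∈ BM.S (W a b c d e) ↔ x.1 ∈ Ω := ⟨_, _, _, _, _, fun x => by
    rw [W, PM.mem_S_lor, PM.mem_S_lor, PM.mem_S_lor, PM.mem_S_lor, o 8 (by norm_num), o 29 (by norm_num), o 101 (by norm_num),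
      o 294 (by norm_num), o 1180 (by norm_num)]
    simp only [← or_and_right, and_iff_right_iff_imp]
    rintro ⟨g, hg, e⟩
    have := BM.S_mono (show subs _ (W true true true true true) = true by decide +kernel)
      ((C x).2 (e ▸ (dot_smul_of_fix hg.2 _).trans dy))
    rwa [W, PM.mem_S_lor, PM.mem_S_lor, PM.mem_S_lor, PM.mem_S_lor] at this⟩
  have n : pop 196560 (W a b c d e) = Ω.ncard := by
    rw [← BM.ncard_S, ← Set.ncard_image_of_injective _ Subtype.val_injective]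
    congr 1; ext x
    exact ⟨fun ⟨y, h, e⟩ => e ▸ (k y).1 h, fun h => ⟨⟨x, by obtain ⟨g, -, rfl⟩ := h; exact (sqNorm_smul g _).trans ny⟩, (k _).2 h, rfl⟩⟩
  have := chk a b c d e
  simp only [Bool.or_eq_true, Bool.not_eq_true', n] at this
  obtain (q | q) | q := this
  · exact absurd (Nat.mod_eq_zero_of_dvd ‹_›) (Nat.ne_of_beq_eq_false q)
  · have := (k ⟨_, ny⟩).2 ⟨1, one_mem _, one_smul _ _⟩
    simp [Nat.eq_of_beq_eq_true q, PM.mem_S] at this
  refine eq_top_iff.2 fun g _ => ?_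
  obtain ⟨u, hu⟩ := tr hK ((sqNorm_smul g U).trans norm_U)
  have m : (u.1⁻¹ * g) • U = U := by rw [mul_smul, inv_smul_eq_iff]; exact hu.symm
  obtain ⟨v, hv, e⟩ := (k ⟨(u.1⁻¹ * g) • (fr none - U), (sqNorm_smul _ _).trans ny⟩).1 (BM.S_mono q ((C _).2 ((dot_smul_of_fix m _).trans dy)))
  have : v⁻¹ * (u.1⁻¹ * g) ∈ K := hK.le (stab_fr_le none (by
    rw [mem_stabilizer_iff, ← sub_add_cancel (fr none) U, smul_add, mul_smul, mul_smul _ _ U, m, ← show _ = (u.1⁻¹ * g) • _ from e,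
      inv_smul_smul, mem_stabilizer_iff.1 (inv_mem hv.2)]))
  simpa using mul_mem u.2 (mul_mem hv.1 this)

end Cfsg.Agent.S1572
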