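import Cfsg.Statements.S1577
import Cfsg.Agent.H14.LeeO
import Cfsg.Agent.H14.SiU62

set_option autoImplicit false
open Cfsg

namespace Cfsg.Agent.S1577

open H14 L

/-- The joint stabiliser of two minimal vectors of customary inner product −2 is isomorphic to PSU(6, 2). -/
theorem result (v w : ↥Cfsg.leechLattice) (hv : Cfsg.sqNorm (v : Cfsg.GolayPt → ℤ) = 32) (hw : Cfsg.sqNorm (w : Cfsg.GolayPt → ℤ) = 32) (hd : Cfsg.dotInt (v : Cfsg.GolayPt → ℤ) (w : Cfsg.GolayPt → ℤ) = -16) (F : Type) [Field F] [Fintype F] (hF : Fintype.card F = 4) : Nonempty (↥(MulAction.stabilizer ↥Cfsg.Co0 v ⊓ MulAction.stabilizer ↥Cfsg.Co0 w) ≃* Cfsg.PSU 6 F 2) := by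
  obtain ⟨g, e1, e2⟩ := pair_trans norm_U (P2.dec 0).2.1 hv (y := -w) ((sqNorm_neg _).trans hw)
    ((P2.dec 0).2.2.trans (by rw [AddSubgroup.coe_neg, dot_neg, hd]; rfl))
  obtain ⟨S⟩ := H15.StdU62.std hF
  have k := card_pair16 hv hw hd
  rw [← stab_neg w] at k ⊢
  exact iso_stab P2 (SiU62.iso P2 card_C2 (Pres.of fun _ _ y hy => H15.StdU62.hom S y hy) S.card)
    (fun a => e1 ▸ conj_mem_stabilizer g a U) ⟨1, one_mem _, by rw [one_smul, eq_inv_smul_iff, e2]⟩ k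

end Cfsg.Agent.S1577
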