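import Cfsg.Statements.S1578
import Cfsg.Agent.H14.Conway2

set_option autoImplicit false
open Cfsg

namespace Cfsg.Agent.S1578

/-- A lattice vector of customary norm 6 is the sum of an unordered pair of minimal vectors in exactly 276 ways (552 ordered summands). -/
theorem result (u : ↥Cfsg.leechLattice) (hu : Cfsg.sqNorm (u : Cfsg.GolayPt → ℤ) = 48) : {v : ↥Cfsg.leechLattice | Cfsg.sqNorm (v : Cfsg.GolayPt → ℤ) = 32 ∧ Cfsg.sqNorm ((u - v) : Cfsg.GolayPt → ℤ) = 32}.ncard = 552 := by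
  open H14 in
  obtain ⟨g, rfl⟩ := std48 hu
  rw [← H14.pop_cls2.2.1, ← H14.ncard_Cls1 H14.VV_eq H14.nV (by norm_num),
    ← Set.ncard_image_of_injective (H14.Cls1 H14.VV 24 : Set H14.Λ) (MulAction.injective g)]
  congr 1
  ext x
  obtain ⟨x, rfl⟩ := H14.smul_surj g x
  rw [(MulAction.injective g).mem_set_image]
  refine and_congr (by rw [H14.sqNorm_smul]) ?_ |>.trans (and_congr_right fun h =>
    H14.norm_sub_iff (k := 24) H14.norm_VV h)
  rw [← AddSubgroup.coe_sub, ← smul_sub, H14.sqNorm_smul, AddSubgroup.coe_sub]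

end Cfsg.Agent.S1578
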