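import Cfsg.Statements.S1585
import Cfsg.Agent.H14.Conway2

set_option autoImplicit false
open Cfsg

namespace Cfsg.Agent.S1585

/-- Two vectors of customary norm 6 with inner product −4 are exchanged by some automorphism of the lattice. -/
theorem result (v w : ↥Cfsg.leechLattice) (hv : Cfsg.sqNorm (v : Cfsg.GolayPt → ℤ) = 48) (hw : Cfsg.sqNorm (w : Cfsg.GolayPt → ℤ) = 48) (hvw : Cfsg.dotInt (v : Cfsg.GolayPt → ℤ) (w : Cfsg.GolayPt → ℤ) = -32) : ∃ g : ↥Cfsg.Co0, g • v = w ∧ g • w = v := by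
  open H14 in
  have n : sqNorm (-(v + w)).1 = 32 := by
    rw [show (-(v + w)).1 = -(v.1 + w.1) from rfl, sqNorm_neg, sqNorm_add]; omega
  obtain ⟨a, h1, h2⟩ := H14.std16 (u := v) hv n
    (by rw [show (-(v + w)).1 = -(v.1 + w.1) from rfl, H14.dot_neg, H14.dot_add, H14.dot_self]; omega)
  obtain ⟨b, h3, h4⟩ := H14.std16 (u := w) hw n
    (by rw [show (-(v + w)).1 = -(v.1 + w.1) from rfl, H14.dot_neg, H14.dot_add, H14.dot_self, H14.dot_comm]; omega)
  have h5 : (b * a⁻¹) • v = w := by rw [mul_smul, inv_smul_eq_iff.2 h1.symm, h3]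
  have h6 : (b * a⁻¹) • -(v + w) = -(v + w) := by rw [mul_smul, inv_smul_eq_iff.2 h2.symm, h4]
  rw [smul_neg, neg_inj, smul_add, h5, add_comm v, add_right_inj] at h6
  exact ⟨_, h5, h6⟩

end Cfsg.Agent.S1585
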