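import Cfsg.Statements.S1589
import Cfsg.Agent.H16.M24x
import Cfsg.Agent.H14.F24

set_option autoImplicit false
open scoped Pointwise
open Cfsg

namespace Cfsg.Agent.S1589

open H14 H16.MX MulAction
set_option maxRecDepth 100000

def ws : List Word := [[17, 18, 17, 13, 8, 19, 7, 5, 1], [17, 20, 18, 14, 18, 10, 9, 14, 6, 8, 1, 1, 2, 1, 9],
  [16, 20, 15, 19, 10, 17, 4, 0, 7, 2, 0, 0, 6], [19, 14, 16, 14, 10, 21, 6, 21, 0, 0, 9, 2, 1, 6]]
def c : Word := [0, 0, 2, 21]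
def bad : List (ℕ × Word × Word × ℕ) := [(36, [18, 17, 14, 11, 6, 6, 1, 7], [7, 3, 8], 11),
  (18, [14, 21, 11, 8, 6, 14], [3, 1, 9], 11),
  (146, [13, 10, 9, 6, 6, 1, 12], [4, 9, 7], 11),
  (15, [16, 20, 18, 12, 10, 8, 7, 11], [7, 9], 11),
  (20, [19, 21, 10, 21, 7, 19, 1, 2, 1, 15], [6, 8], 11),
  (5, [16, 18, 11, 8, 4, 18, 1, 2, 1, 17], [0, 9, 5], 23),
  (11, [18, 17, 20, 14, 21, 13, 10, 14, 4, 10, 0, 2, 0], [9, 2], 11),
  (1, [17, 19, 21, 8, 19, 6, 13, 1, 5], [7, 9], 23),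
  (134, [16, 15, 16, 10, 6, 21], [8, 0, 4], 23),
  (0, [19, 20], [7, 9], 23)]
def T15 : List ℕ := [0x61c111, 0x922846, 0xc16a8, 0x9c20c8, 0x903660, 0x21e26, 0xe088e, 0x415720, 0x2c8099, 0xd16140,
  0x434906, 0x228817, 0xb0a051, 0x4d4188, 0x209631]
def T6 : List ℕ := [0x1620, 0x208011, 0x20806, 0x414100, 0x902040, 0xc0088]
def T3 : List ℕ := [0x61c111, 0x922846, 0xc16a8]
noncomputable abbrev X : Subgroup M24 := sub F24.M.gen F24.ws0

theorem hws : sub M0.gen ws ≤ X := by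
  rw [← F24.hE.sub (by decide +kernel)]
  exact sub_le_of_memRels (vs := [[10], [4], [0], [2]])
    (F24.M.rels_of_idArr (D := 5) (by norm_num) (by decide +kernel))
theorem hK : sub M0.gen (wK0.map (conjW · c)) ≤ X := by
  rw [← F24.hE.sub (by decide +kernel)]
  exact sub_le_of_memRels (vs := [[0, 4, 8], [0, 6, 6], [0, 2, 12, 4], [0, 3, 0, 14]])
    (F24.M.rels_of_idArr (D := 5) (by norm_num) (by decide +kernel))
theorem ho1 : ev M0.gen c • fOc 0 = bset 0x61c111 := by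
  rw [fOc0, M0, ev_smul_bset]; exact congrArg bset (by decide +kernel)
theorem o1_mem : bset 0x61c111 ∈ octads := bset_mem_octads (by decide +kernel)
theorem T6_mem : bsets T6 ∈ sextets := by
  refine ⟨card_bsets (by decide) (by decide), forall_bsets.2 fun m hm => ?_,
    forall_bsets.2 fun m hm => forall_bsets.2 fun m' hm' hne => ?_⟩
  · rw [card_bset]; revert m; decide +kernel
  · rw [← bset_or]
    refine bset_mem_octads ?_
    have : m ≠ m' := fun e => hne (e ▸ rfl)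
    revert m m'; decide +kernel
theorem T3_mem : bsets T3 ∈ trios := by
  refine ⟨card_bsets (by decide) (by decide), forall_bsets.2 fun m hm => bset_mem_octads ?_,
    forall_bsets.2 fun m hm => forall_bsets.2 fun m' hm' hne => ?_⟩
  · revert m; decide +kernel
  · rw [Finset.disjoint_iff_inter_eq_empty, ← bset_and, ← bset_zero]
    refine congrArg bset ?_
    have : m ≠ m' := fun e => hne (e ▸ rfl)
    revert m m'; decide +kernel

theorem lemA {H : Subgroup M24} (h : X ≤ H) (h1 : ¬ 11 ∣ Nat.card H) (h2 : ¬ 23 ∣ Nat.card H) {a : M24}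
    (ha : a ∈ H) : ∃ m ∈ T15, a • bset 0x61c111 = bset m := by
  rcases OM_reach oOc (ws := ws) [[0], [4], [6], [0], [2], [6], [0], [4], [2], [0], [4], [0], [4]]
    (a := [129, 14, 494, 57, 453, 179, 272, 112, 138, 546, 679, 116, 257, 220, 492]) (b := bad.map (·.1))
    (by decide +kernel) (smul_mem_octads a o1_mem) with ⟨i, hi, e⟩ | ⟨g, hg, i, hi, e⟩
  · exact ⟨_, by clear e; revert i; decide +kernel, e.symm.trans (col_eq _ _ _)⟩
  obtain ⟨r, hr, rfl⟩ := List.mem_map.1 hi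
  have k : (r.2.2.2 = 11 ∨ r.2.2.2 = 23) ∧ PM.ordChk 24 M24c.nets 5 (flat (ws ++ [r.2.1]) r.2.2.1) r.2.2.2 [r.2.2.2] = true ∧
      subs (cm 24 759 OOc.A r.1) (full 24) = true ∧
      subs (cm 24 759 OOc.A r.1) (agr 24 5 (arW 24 M24c.nets 5 r.2.1) (arI 24 5)) = true := by
    clear e hi; revert r; decide +kernel
  have hb : g⁻¹ * a ∈ H := mul_mem (inv_mem (h (hws hg))) ha
  have k1 : ev M0.gen r.2.1 ∈ H := by
    refine mem_of_pw (g⁻¹ * a * ev M0.gen c) (fun w hw => ?_) ?_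
    · have := mul_mem (mul_mem hb (h (hK (ev_mem_sub _ (List.mem_map_of_mem hw))))) (inv_mem hb)
      rw [ev_conjW] at this
      simpa [mul_assoc] using this
    · rw [mul_smul, ho1, mul_smul, ← e, inv_smul_smul, fOc, col_eq]
      exact (pw_bset_iff _ k.2.2.1).2 k.2.2.2
  have k2 : sub M0.gen (ws ++ [r.2.1]) ≤ H := by
    rw [sub_append, sub_single]
    exact sup_le (hws.trans h) (Subgroup.zpowers_le_of_mem k1)
  have k3 := dvd_card_of (k2 (ev_flat_mem _ _ r.2.2.1)) (M0.orderOf_prime (D := 5) (by norm_num) (by norm_num)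
    (by rcases k.1 with e | e <;> rw [e] <;> norm_num) k.2.1)
  rcases k.1 with e | e <;> rw [e] at k3 <;> contradiction

theorem lemB {H : Subgroup M24} (h : X ≤ H) (h1 : ¬ 11 ∣ Nat.card H) (h2 : ¬ 23 ∣ Nat.card H) :
    H ≤ stabilizer M24 (bset 0x61c111) ∨ H ≤ stabilizer M24 (bsets T6) ∨ H ≤ stabilizer M24 (bsets T3) := by
  have k0 : ∀ a ∈ T15, ∀ b ∈ T15, p24 (a &&& b) = 4 → a &&& b ∈ T6 := by decide +kernel
  by_cases hA : ∃ a ∈ H, ∃ b ∈ H, (a • bset 0x61c111 ∩ b • bset 0x61c111).card = 4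
  · obtain ⟨a, ha, b, hb, e⟩ := hA
    have : ∀ g ∈ H, g • (a • bset 0x61c111 ∩ b • bset 0x61c111) ∈ bsets T6 := fun g hg => by
      obtain ⟨m, hm, e1⟩ := lemA h h1 h2 (mul_mem hg ha)
      obtain ⟨m', hm', e2⟩ := lemA h h1 h2 (mul_mem hg hb)
      rw [← Finset.card_smul_finset g] at e
      rw [Finset.smul_finset_inter, ← mul_smul, ← mul_smul, e1, e2, ← bset_and] at e ⊢
      exact mem_bsets.2 ⟨_, k0 m hm m' hm' (card_bset _ ▸ e), rfl⟩
    exact .inr (.inl fun g hg => stab_tetrad T6_mem (by simpa using this 1 (one_mem _)) (this g hg))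
  have k1 : ∀ a ∈ H, a • bset 0x61c111 ∈ bsets T3 := fun a ha => by
    obtain ⟨m, hm, e⟩ := lemA h h1 h2 ha
    rcases (show ∀ m ∈ T15, m ∈ T3 ∨ p24 (0x61c111 &&& m) = 4 ∨
      ∃ w ∈ ws, p24 (runW (letN M24c.nets) w m &&& m) = 4 by decide +kernel) m hm with k | k | ⟨w, hw, k⟩
    · exact mem_bsets.2 ⟨m, k, e.symm⟩
    · exact absurd ⟨1, one_mem _, a, ha, by rwa [one_smul, e, ← bset_and, card_bset]⟩ hA
    · exact absurd ⟨_, mul_mem (h (hws (ev_mem_sub _ hw))) ha, a, ha, by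
        rwa [mul_smul, e, M0, ev_smul_bset, ← bset_and, card_bset]⟩ hA
  by_cases hB : ∀ a ∈ H, a • bset 0x61c111 = bset 0x61c111
  · exact .inl hB
  push Not at hB
  obtain ⟨a, ha, e⟩ := hB
  refine .inr (.inr fun g hg => ?_)
  have k2 : g • a • bset 0x61c111 ≠ g • bset 0x61c111 := fun k => e (smul_left_cancel g k)
  exact (trio_eq (smul_mem_trios g _ T3_mem) (Finset.smul_mem_smul_finset (k1 a ha))
    (Finset.smul_mem_smul_finset (by simpa using k1 1 (one_mem _))) k2).trans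
    (trio_eq T3_mem (mul_smul g a (bset 0x61c111) ▸ k1 _ (mul_mem hg ha)) (k1 g hg) k2).symm

theorem cardH {H : Subgroup M24} {a b : ℕ} (h : H.index = a) (ha : a ≠ 0) (e : 244823040 = b * a) :
    Nat.card H = b := by
  have := H.card_mul_index
  rw [h, card_M24, e] at this
  exact Nat.eq_of_mul_eq_mul_right (Nat.pos_of_ne_zero ha) this

theorem lemB' {H : Subgroup M24} (h : 2 ^ 10 ∣ Nat.card H) (h1 : ¬ 11 ∣ Nat.card H) (h2 : ¬ 23 ∣ Nat.card H) :
    (∃ o ∈ octads, H ≤ stabilizer M24 o) ∨ (∃ o ∈ sextets, H ≤ stabilizer M24 o) ∨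
      ∃ o ∈ trios, H ≤ stabilizer M24 o := by
  have := Fact.mk Nat.prime_two
  obtain ⟨g, -, hg⟩ := sylow_conj (p := 2) (k := 10) (m := 239085) (G := ⊤) le_top le_top
    (pgroup_of_card (k := 10) (F24.card0 F24.M F24.hR)) (Subgroup.card_top.trans card_M24) (by norm_num) h
  exact (lemB hg (by rwa [card_cj]) (by rwa [card_cj])).imp
    (fun k => ⟨_, smul_mem_octads g o1_mem, le_stab_of_cj k⟩) (Or.imp
    (fun k => ⟨_, smul_mem_sextets g _ T6_mem, le_stab_of_cj k⟩)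
    fun k => ⟨_, smul_mem_trios g _ T3_mem, le_stab_of_cj k⟩)

noncomputable abbrev y : M24 := ev M0.gen [12, 5]
theorem ord_y : orderOf y = 11 := M0.orderOf_prime (D := 5) (by norm_num) (by norm_num) (by norm_num) (by decide +kernel)
theorem fix_y (x : GolayPt) : y • x = x ↔ x = gp 23 ∨ x = gp 0 := by
  rw [← M0.mem_S_fix (D := 5) (by norm_num), show agr 24 5 _ _ = 0x800001 by decide +kernel, M0, mem_S_iff]
  revert x; decide +kernel

theorem lemC {K : Subgroup M24} (h1 : y ∈ K) {t : M24} (h2 : t ∈ K) (h3 : orderOf t = 7) (h4 : ¬ 23 ∣ Nat.card K)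
    (x : GolayPt) : ∃ m ∈ [0x1, 0x800000, 0x800001, 0x7ffffe, 0xffffff], orb K x = M0.S m := by
  obtain ⟨m, hm, e⟩ := inv_union M0 [(0, 0x1, []), (23, 0x800000, []),
    (1, 0x3330d6, [[0], [0, 0], [0, 0, 0], [1, 1, 1], [0]]), (3, 0x4ccf28, [[0], [0, 0], [1, 1, 1], [0, 0, 0], [0]])]
    (ws := [[12, 5]]) (by decide +kernel) (O := orb K x)
    fun g hg => orb_inv g (by rw [sub_single] at hg; exact Subgroup.zpowers_le_of_mem h1 hg)
  have a1 : pop 24 m % 7 ≤ 3 := by rw [← M0.ncard_S, ← e]; exact mod7 h3 (orb_inv t h2)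
  have a2 : pop 24 m ≠ 23 := fun k => h4 (by rw [← k, ← M0.ncard_S, ← e]; exact orb_dvd _ _)
  have a3 : m ≠ 0 := fun k => M0.not_mem_S_zero x (k ▸ e ▸ orb_self K x)
  exact ⟨m, by clear e; revert m; decide +kernel, e⟩

theorem lemD {K : Subgroup M24} (h1 : y ∈ K) {t : M24} (h2 : t ∈ K) (h3 : orderOf t = 7) (h4 : ¬ 23 ∣ Nat.card K)
    {i j : ℕ} (hij : (i = 23 ∧ j = 0) ∨ (i = 0 ∧ j = 23)) (h : K ≤ stabilizer M24 (gp i)) :
    K ≤ stabilizer M24 (gp j) := by
  obtain ⟨m, hm, e⟩ := lemC h1 h2 h3 h4 (gp j)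
  have a2 : tb m j = true := (M0.mem_S_dec (by omega)).1 (e ▸ orb_self K _)
  have a3 : ¬ tb m i = true := fun k => by
    obtain ⟨g, hg, e'⟩ := e.ge ((M0.mem_S_dec (by omega)).2 k)
    have := smul_left_cancel g (e'.trans (h hg).symm)
    rcases hij with ⟨rfl, rfl⟩ | ⟨rfl, rfl⟩ <;> exact absurd this (by decide)
  have a4 : m = bit j := by clear e h; rcases hij with ⟨rfl, rfl⟩ | ⟨rfl, rfl⟩ <;> revert m <;> decide +kernel
  exact fun g hg => (M0.mem_S_bit (by omega)).1 (a4 ▸ e ▸ orb_inv g hg _ (orb_self K _))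

theorem lemE {H : Subgroup M24} (h1 : y ∈ H) (h2 : Nat.card H = 887040) : H ≤ stabilizer M24 (bset 0x800001) := by
  have h4 : ¬ 23 ∣ Nat.card H := by rw [h2]; norm_num
  obtain ⟨t, ht, h3⟩ := exists_ord (H := H) (p := 7) (by norm_num) (by rw [h2]; norm_num)
  obtain ⟨m, hm, e⟩ := lemC h1 ht h3 h4 (gp 23)
  have a2 : tb m 23 = true := (M0.mem_S_dec (by omega)).1 (e ▸ orb_self H _)
  rcases (show m = bit 23 ∨ m = 0x800001 ∨ m = full 24 by clear e; revert m; decide +kernel) with rfl | rfl | rfl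
  · have b1 : H ≤ stabilizer M24 (gp 23) := fun g hg =>
      (M0.mem_S_bit (b := 23) (by omega)).1 (e ▸ orb_inv g hg _ (orb_self H _))
    exact le_stab_bset (h := M24c_ok) rfl ((((inv_stab_pt (by norm_num)).mono b1).lor
      ((inv_stab_pt (by norm_num)).mono (lemD h1 ht h3 h4 (.inl ⟨rfl, rfl⟩) b1))).of_eq (by decide +kernel))
  · exact le_stab_bset e orb_inv
  exfalso
  have b1 := card_orb H (gp 23)
  rw [e, M0.ncard_S, h2, show pop 24 (full 24) = 24 by decide +kernel] at b1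
  obtain ⟨t, ht, h3⟩ := exists_ord (H := H ⊓ stabilizer M24 (gp 23)) (p := 7) (by norm_num) (by omega)
  have b0 : ∀ i, ¬ 23 ∣ Nat.card (H ⊓ stabilizer M24 (gp i) : Subgroup M24) := fun i k =>
    h4 (k.trans (Subgroup.card_dvd_of_le inf_le_left))
  have b2 := lemD (K := H ⊓ stabilizer M24 (gp 23)) ⟨h1, (fix_y _).2 (.inl rfl)⟩ ht h3 (b0 _) (.inl ⟨rfl, rfl⟩)
    inf_le_right
  have b3 := lemD (K := H ⊓ stabilizer M24 (gp 0)) ⟨h1, (fix_y _).2 (.inr rfl)⟩ ⟨ht.1, b2 ht⟩ h3 (b0 _)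
    (.inr ⟨rfl, rfl⟩) inf_le_right
  obtain ⟨x, hx⟩ : ∃ x, {x : GolayPt | t • x = x} = {gp 23, gp 0, x} ∧ x ≠ gp 23 ∧ x ≠ gp 0 := by
    have b4 : ({gp 23, gp 0} : Set GolayPt) ⊆ {x : GolayPt | t • x = x} := by
      rintro _ (rfl | rfl); exacts [ht.2, b2 ht]
    obtain ⟨x, k1, k2⟩ := Set.exists_mem_notMem_of_ncard_lt_ncard (s := ({gp 23, gp 0} : Set GolayPt))
      (t := {x : GolayPt | t • x = x}) (by rw [Set.ncard_pair (by decide)]; exact (nfix7 h3).ge)
    simp only [Set.mem_insert_iff, Set.mem_singleton_iff, not_or] at k2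
    refine ⟨x, (Set.eq_of_subset_of_ncard_le ?_ ?_).symm, k2⟩
    · rintro _ (rfl | rfl | rfl); exacts [ht.2, b2 ht, k1]
    · exact (nfix7 h3).le.trans (Set.ncard_eq_three.2 ⟨_, _, _, by decide, Ne.symm k2.1, Ne.symm k2.2, rfl⟩).ge
  obtain ⟨g, hg, e'⟩ := e.ge (M0.mem_S_full' x)
  have b5 : t • x = x := hx.1.ge (by simp)
  have b6 : g • gp 0 ∈ {x : GolayPt | t • x = x} := by
    have := b2 (x := g⁻¹ * t * g) (Subgroup.mem_inf.2 ⟨mul_mem (mul_mem (inv_mem hg) ht.1) hg, by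
      rw [mem_stabilizer_iff, mul_smul, mul_smul, e', b5, ← e', inv_smul_smul]⟩)
    rwa [mem_stabilizer_iff, mul_smul, mul_smul, inv_smul_eq_iff] at this
  rw [hx.1] at b6
  rcases b6 with k | k | k
  · have := b3 (x := g⁻¹ * y * g) (Subgroup.mem_inf.2 ⟨mul_mem (mul_mem (inv_mem hg) h1) hg, by
      rw [mem_stabilizer_iff, mul_smul, mul_smul, k, (fix_y _).2 (.inl rfl), ← k, inv_smul_smul]⟩)
    rw [mem_stabilizer_iff, mul_smul, mul_smul, inv_smul_eq_iff, e', fix_y] at this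
    exact this.elim hx.2.1 hx.2.2
  · exact hx.2.1 (e'.symm.trans (b3 ⟨hg, k⟩))
  · exact absurd (smul_left_cancel g (k.trans e'.symm)) (by decide)


/-- Subgroups of the group of the length-24 code of index 759, 276 and 1771 are exactly the octad, duad and sextet stabilisers, and no subgroup has index 253. -/
theorem result : (∀ H : Subgroup ↥Cfsg.M24, H.index = 759 → ∃ o ∈ Cfsg.octads, H = MulAction.stabilizer Cfsg.M24 o) ∧ (∀ H : Subgroup ↥Cfsg.M24, H.index = 276 → ∃ s : Finset Cfsg.GolayPt, s.card = 2 ∧ H = MulAction.stabilizer Cfsg.M24 s) ∧ (∀ H : Subgroup ↥Cfsg.M24, H.index = 1771 → ∃ S ∈ Cfsg.sextets, H = MulAction.stabilizer Cfsg.M24 S) ∧ ∀ H : Subgroup ↥Cfsg.M24, H.index ≠ 253 := by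
  refine ⟨fun H h => ?_, fun H h => ?_, fun H h => ?_, fun H h => ?_⟩
  · have e := cardH h (by norm_num) (b := 322560) (by norm_num)
    rcases lemB' (H := H) (by rw [e]; norm_num) (by rw [e]; norm_num) (by rw [e]; norm_num) with
      ⟨o, ho, k⟩ | ⟨o, ho, k⟩ | ⟨o, ho, k⟩
    · exact ⟨o, ho, eq_of_le_of_card (by norm_num) k e (card_HOc ho)⟩
    · exact absurd (Subgroup.card_dvd_of_le k) (by rw [e, card_HSx ho]; norm_num)
    · exact absurd (Subgroup.card_dvd_of_le k) (by rw [e, card_HTi ho]; norm_num)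
  · have e := cardH h (by norm_num) (b := 887040) (by norm_num)
    have := Fact.mk (show Nat.Prime 11 by norm_num)
    obtain ⟨g, -, hg⟩ := sylow_conj (p := 11) (k := 1) (m := 22256640) (G := ⊤) (H := H) (X := Subgroup.zpowers y)
      le_top le_top (pgroup_of_card (k := 1) (by rw [Nat.card_zpowers, ord_y]; rfl))
      (Subgroup.card_top.trans card_M24) (by norm_num) (by rw [e]; norm_num)
    have k : (g • bset 0x800001).card = 2 := by rw [Finset.card_smul_finset, card_bset]; decide +kernel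
    exact ⟨_, k, eq_of_le_of_card (by norm_num)
      (le_stab_of_cj (lemE (hg (Subgroup.mem_zpowers _)) ((card_cj _ _).trans e))) e (card_HDu k)⟩
  · have e := cardH h (by norm_num) (b := 138240) (by norm_num)
    rcases lemB' (H := H) (by rw [e]; norm_num) (by rw [e]; norm_num) (by rw [e]; norm_num) with
      ⟨o, ho, k⟩ | ⟨o, ho, k⟩ | ⟨o, ho, k⟩
    · exact absurd (Subgroup.card_dvd_of_le k) (by rw [e, card_HOc ho]; norm_num)
    · exact ⟨o, ho, eq_of_le_of_card (by norm_num) k e (card_HSx ho)⟩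
    · exact absurd (Subgroup.card_dvd_of_le k) (by rw [e, card_HTi ho]; norm_num)
  · have e := cardH h (by norm_num) (b := 967680) (by norm_num)
    rcases lemB' (H := H) (by rw [e]; norm_num) (by rw [e]; norm_num) (by rw [e]; norm_num) with
      ⟨o, ho, k⟩ | ⟨o, ho, k⟩ | ⟨o, ho, k⟩
    · exact absurd (Subgroup.card_dvd_of_le k) (by rw [e, card_HOc ho]; norm_num)
    · exact absurd (Subgroup.card_dvd_of_le k) (by rw [e, card_HSx ho]; norm_num)
    · exact absurd (Subgroup.card_dvd_of_le k) (by rw [e, card_HTi ho]; norm_num)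

end Cfsg.Agent.S1589
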