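import Cfsg.Statements.S1590
import Cfsg.Agent.H28.TG

set_option autoImplicit false
open Cfsg

namespace Cfsg.Agent.S1590
open H28
open H28.TG Finset


/-- The length-12 ternary code has 729 words with weight distribution 0^1 6^264 9^440 12^24. -/
theorem result : Nat.card ↥Cfsg.ternaryGolayCode = 729 ∧ (∀ x ∈ Cfsg.ternaryGolayCode, x ≠ 0 → (Cfsg.ternarySupport x).card = 6 ∨ (Cfsg.ternarySupport x).card = 9 ∨ (Cfsg.ternarySupport x).card = 12) ∧ {x : Cfsg.ArrayPt → ZMod 3 | x ∈ Cfsg.ternaryGolayCode ∧ (Cfsg.ternarySupport x).card = 6}.ncard = 264 ∧ {x : Cfsg.ArrayPt → ZMod 3 | x ∈ Cfsg.ternaryGolayCode ∧ (Cfsg.ternarySupport x).card = 9}.ncard = 440 ∧ {x : Cfsg.ArrayPt → ZMod 3 | x ∈ Cfsg.ternaryGolayCode ∧ (Cfsg.ternarySupport x).card = 12}.ncard = 24 := by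
  have k : ∀ w ∈ [(0, 1), (6, 264), (9, 440), (12, 24)],
      {x | x ∈ ternaryGolayCode ∧ #(ternarySupport x) = w.1}.ncard = w.2 := fun w h => (ncard_code _).trans (cnt w h)
  refine ⟨?_, fun x => wt, k (6, 264) (by simp), k (9, 440) (by simp), k (12, 24) (by simp)⟩
  rw [← Nat.card_congr (Equiv.ofBijective (fun n => (⟨wd n, mem_iff.2 ⟨n, rfl⟩⟩ : ternaryGolayCode))
    ⟨fun a b h => wd_inj (congrArg Subtype.val h), fun x => (mem_iff.1 x.2).imp fun _ => Subtype.ext⟩), Nat.card_fin]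

end Cfsg.Agent.S1590
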