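import Cfsg.Statements.S1591
import Cfsg.Agent.H28.TG

set_option autoImplicit false
open Cfsg

namespace Cfsg.Agent.S1591
open H28
open H28.TG Finset


/-- Any two words of the length-12 ternary code have dot product zero. -/
theorem result (x y : Cfsg.ArrayPt → ZMod 3) (hx : x ∈ Cfsg.ternaryGolayCode) (hy : y ∈ Cfsg.ternaryGolayCode) : ∑ p, x p * y p = 0 := by
  rw [eq_enc hx, eq_enc hy]
  simp only [enc, sum_mul_sum]
  rw [sum_comm]
  refine sum_eq_zero fun i _ => sum_comm.trans (sum_eq_zero fun j _ => ?_)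
  simp only [mul_mul_mul_comm, ← mul_sum, (by decide +kernel : ∀ i j, ∑ p, B i p * B j p = 0), mul_zero]

end Cfsg.Agent.S1591
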