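import Cfsg.Statements.S1594
import Cfsg.Agent.H28.TG2
import Cfsg.Agent.S0425

set_option autoImplicit false
open Cfsg

namespace Cfsg.Agent.S1594
open H28
open H28.TG


/-- The monomial automorphism group of the length-12 ternary code has order 190080 and its permutation parts are exactly the automorphisms of its hexad system. -/
theorem result : Nat.card {f : Equiv.Perm Cfsg.ArrayPt × (Cfsg.ArrayPt → (ZMod 3)ˣ) // (∀ x ∈ Cfsg.ternaryGolayCode, Cfsg.monomialMap f.1 f.2 x ∈ Cfsg.ternaryGolayCode)} = 190080 ∧ {σ : Equiv.Perm Cfsg.ArrayPt | ∃ c : Cfsg.ArrayPt → (ZMod 3)ˣ, (∀ x ∈ Cfsg.ternaryGolayCode, Cfsg.monomialMap σ c x ∈ Cfsg.ternaryGolayCode)} = (Cfsg.setSystemAut {h : Finset Cfsg.ArrayPt | ∃ x ∈ Cfsg.ternaryGolayCode, Cfsg.ternarySupport x = h ∧ h.card = 6} : Set (Equiv.Perm Cfsg.ArrayPt)) := by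
  obtain ⟨⟨-, h1⟩, -, h2⟩ := S0425.result (by decide) steiner
  have k : ∀ σ : setSystemAut Bl, ∃ c, Pres σ c := fun σ => by
    obtain ⟨τ, c, h, e⟩ := chain σ⁻¹ 5 le_rfl
    have : (⟨τ, h.aut⟩ * σ⁻¹ : setSystemAut Bl) ∈ MulAction.stabilizer (setSystemAut Bl) bs :=
      Function.Embedding.ext fun j => e j j.2
    rw [h2, Subgroup.mem_bot, mul_inv_eq_one] at this
    exact ⟨c, this ▸ h⟩
  refine ⟨?_, Set.ext fun σ => ⟨fun ⟨_, h⟩ => Pres.aut h, fun h => k ⟨σ, h⟩⟩⟩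
  choose c k using k
  change Nat.card {f : Equiv.Perm ArrayPt × (ArrayPt → (ZMod 3)ˣ) // Pres f.1 f.2} = _
  rw [← Nat.card_congr (Equiv.ofBijective (fun a : setSystemAut Bl × (ZMod 3)ˣ =>
    (⟨(a.1, fun p => a.2 * c a.1 p), (k a.1).smul a.2⟩ : {f : Equiv.Perm ArrayPt × (ArrayPt → (ZMod 3)ˣ) // Pres f.1 f.2}))
    ⟨?_, fun ⟨⟨σ, d⟩, h⟩ => ?_⟩), Nat.card_prod, h1, Nat.card_eq_fintype_card]
  · rfl
  · rintro ⟨σ, u⟩ ⟨τ, v⟩ e
    simp only [Subtype.mk.injEq, Prod.mk.injEq, Subtype.val_inj] at e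
    obtain ⟨rfl, e⟩ := e
    simpa using congrFun e (0, 0)
  rcases (k ⟨σ, h.aut⟩).two h with e | e
  · exact ⟨(⟨σ, h.aut⟩, 1), Subtype.ext (Prod.ext rfl (.trans (by simp) e.symm))⟩
  · exact ⟨(⟨σ, h.aut⟩, -1), Subtype.ext (Prod.ext rfl (.trans (by ext; simp) e.symm))⟩

end Cfsg.Agent.S1594
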