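import Cfsg.Statements.S1595
import Cfsg.Agent.H14.Steiner

set_option autoImplicit false
open Cfsg

namespace Cfsg.Agent.S1595
open H14 Finset


/-- Leech triangle of S(5, 6, 12): blocks meet in 0, 2, 3 or 4 points, and a block is met exactly in a given 2-, 3- or 4-subset by 3, 2, 3 blocks respectively. -/
theorem result {α : Type*} [Fintype α] [DecidableEq α] (hα : Fintype.card α = 12) {B : Set (Finset α)} (hB : Cfsg.IsSteinerSystem 5 6 B) (b : Finset α) (hb : b ∈ B) : (∀ c ∈ B, c ≠ b → (b ∩ c).card = 0 ∨ (b ∩ c).card = 2 ∨ (b ∩ c).card = 3 ∨ (b ∩ c).card = 4) ∧ ∀ s ⊆ b, (s.card = 2 → {c : Finset α | c ∈ B ∧ b ∩ c = s}.ncard = 3) ∧ (s.card = 3 → {c : Finset α | c ∈ B ∧ b ∩ c = s}.ncard = 2) ∧ (s.card = 4 → {c : Finset α | c ∈ B ∧ b ∩ c = s}.ncard = 3) := by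
  refine ⟨fun c hc h => inter_12 hα hB hb hc h.symm, fun s hs => ?_⟩
  have e : {c : Finset α | c ∈ B ∧ b ∩ c = s}.ncard = nI ((blk B).filter (s ⊆ ·)) (b \ s) 0 := by
    rw [ncard_blk, nI, filter_filter]
    refine congrArg card (filter_congr fun c _ => ?_)
    simp only [card_eq_zero, Finset.ext_iff, subset_iff, mem_inter, mem_sdiff, notMem_empty] at hs ⊢
    exact ⟨fun h => ⟨fun x => by grind, fun x => by grind⟩, fun h x => by have := h.2 x; grind⟩
  have c := card_sdiff_of_subset hs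
  have t : 0 < nI ((blk B).filter (s ⊆ ·)) (b \ s) (b \ s).card :=
    card_pos.2 ⟨b, by simp [hb, hs, inter_eq_right.2 sdiff_subset]⟩
  have k : ∀ i l, s.card + i ≤ 5 → l * (6 - (s.card + i)).choose (5 - (s.card + i)) =
      (12 - (s.card + i)).choose (5 - (s.card + i)) → ∑ j ∈ range ((b \ s).card + 1),
        nI ((blk B).filter (s ⊆ ·)) (b \ s) j * j.choose i = (b \ s).card.choose i * l := fun i l h1 h2 =>
    sum_nI _ _ (fun u hu h3 => by
      rw [filter_filter, ← steiner_lam' hB hα h1 h2 (Nat.choose_pos (by omega)).ne' (s ∪ u)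
        (by rw [card_union_of_disjoint (subset_sdiff.1 hu).2.symm, h3])]
      simp [union_subset_iff]) rfl
  rw [hB.1 b hb] at c
  rw [e]
  refine ⟨fun h => ?_, fun h => ?_, fun h => ?_⟩ <;> rw [h] at c k <;> rw [c] at t k
  · have := k 0 30; have := k 1 12; have := k 2 4; have := k 3 1
    simp [sum_range_succ, Nat.choose] at *; omega
  · have := k 0 12; have := k 1 4; have := k 2 1
    simp [sum_range_succ, Nat.choose] at *; omega
  · have := k 0 4; have := k 1 1
    simp [sum_range_succ, Nat.choose] at *; omega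

end Cfsg.Agent.S1595
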