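import Cfsg.Statements.S1596
import Cfsg.Agent.H28.GQ

set_option autoImplicit false
open scoped Pointwise
open Cfsg

namespace Cfsg.Agent.S1596
open H28
open H14 Finset


/-- A quartet of a dodecad is determined by any two of its triples: two disjoint triples uniting to a hexad extend to exactly one quartet. -/
theorem result (d : Finset Cfsg.GolayPt) (hd : d ∈ Cfsg.dodecads) (t u : Finset Cfsg.GolayPt) (ht : t.card = 3) (hu : u.card = 3) (htu : Disjoint t u) (hh : t ∪ u ∈ Cfsg.hexadsOn d) : ∃! Q : Finset (Finset Cfsg.GolayPt), Q ∈ Cfsg.quartets d ∧ t ∈ Q ∧ u ∈ Q := by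
  obtain ⟨g, rfl, rfl, rfl⟩ := hex_std hd ht hu hh
  refine ⟨g • bsets q0, ⟨smul_quartet g q0_mem, smul_mem_smul_finset (mem_bsets.2 ⟨_, by decide, rfl⟩),
    smul_mem_smul_finset (mem_bsets.2 ⟨_, by decide, rfl⟩)⟩, fun Q ⟨h, h1, h2⟩ => ?_⟩
  exact inv_smul_eq_iff.1 (q0_eq (by simpa using smul_quartet g⁻¹ h)
    (by rwa [← smul_mem_smul_finset_iff g, smul_inv_smul]) (by rwa [← smul_mem_smul_finset_iff g, smul_inv_smul]))

end Cfsg.Agent.S1596
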