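import Cfsg.Statements.S1597
import Cfsg.Agent.H28.GQ

set_option autoImplicit false
open scoped Pointwise
open Cfsg

namespace Cfsg.Agent.S1597
open H28
open H14 Finset


/-- A dodecad has 220 quartets and its stabiliser is transitive on them. -/
theorem result (d : Finset Cfsg.GolayPt) (hd : d ∈ Cfsg.dodecads) : (Cfsg.quartets d).ncard = 220 ∧ ∀ Q ∈ Cfsg.quartets d, ∀ Q' ∈ Cfsg.quartets d, ∃ g : Equiv.Perm Cfsg.GolayPt, g ∈ Cfsg.M24 ∧ g • d = d ∧ g • Q = Q' := by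
  refine ⟨?_, fun Q h Q' h' => ?_⟩
  · obtain ⟨g, rfl⟩ := dodecad_std hd
    rw [← smul_quartets, Set.ncard_smul_set, ← quartet_count.2.2, QA_card]
  obtain ⟨g, h1, rfl⟩ := quartet_std hd h
  obtain ⟨k, h2, rfl⟩ := quartet_std hd h'
  refine ⟨↑(k * g⁻¹), (k * g⁻¹).2, ?_, ?_⟩
  · change (k * g⁻¹) • d = d
    rw [mul_smul, inv_smul_eq_iff.2 h1.symm, h2]
  · change (k * g⁻¹) • g • bsets q0 = _
    rw [mul_smul, inv_smul_smul]

end Cfsg.Agent.S1597
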