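import Cfsg.Statements.S1598
import Cfsg.Agent.H28.GR

set_option autoImplicit false
open scoped Pointwise
open Cfsg

namespace Cfsg.Agent.S1598
open H28
open H14 Finset MulAction


theorem tr0 : ∃ z : GolayPt, ∀ p ∈ d0, ∃ a ∈ stabilizer M24 d0 ⊓ stabilizer M24 (bsets q0), a • z = p :=
  ⟨_, fun p hp => by
    rw [← quartet_count.1]
    exact (QH.orb0 PQ (QH.rels_of_all PQ_all) p).1
      (mem_S_iff.2 (bset_subset (a := 0x5335f) (b := QH.lev0.orb) (by decide +kernel) hp))⟩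

/-- A quartet stabiliser inside the dodecad stabiliser has order 432, a normal subgroup of order 9 with quotient GL(2, 3), and is transitive on the dodecad. -/
theorem result (d : Finset Cfsg.GolayPt) (hd : d ∈ Cfsg.dodecads) (Q : Finset (Finset Cfsg.GolayPt)) (hQ : Q ∈ Cfsg.quartets d) : Nat.card ↥(MulAction.stabilizer Cfsg.M24 d ⊓ MulAction.stabilizer Cfsg.M24 Q) = 432 ∧ (∃ (N : Subgroup ↥(MulAction.stabilizer Cfsg.M24 d ⊓ MulAction.stabilizer Cfsg.M24 Q)) (_ : N.Normal), Nat.card N = 9 ∧ Nonempty (↥(MulAction.stabilizer Cfsg.M24 d ⊓ MulAction.stabilizer Cfsg.M24 Q) ⧸ N ≃* GL (Fin 2) (ZMod 3))) ∧ ∀ p ∈ d, ∀ q ∈ d, ∃ g ∈ (MulAction.stabilizer Cfsg.M24 d ⊓ MulAction.stabilizer Cfsg.M24 Q), ((g : ↥Cfsg.M24) : Equiv.Perm Cfsg.GolayPt) p = q := by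
  obtain ⟨g, h1, h2⟩ := quartet_std hd hQ
  have j : ∀ x, g * x * g⁻¹ ∈ stabilizer M24 d ⊓ stabilizer M24 Q ↔ x ∈ stabilizer M24 d0 ⊓ stabilizer M24 (bsets q0) :=
    fun x => by rw [← h1, ← h2]; exact conj_dq g _ _ x
  have c := (card_conj g j).trans quartet_count.2.1
  obtain ⟨φ, hφ⟩ := quartet_hom
  have i := (conjEquiv g j).symm
  obtain ⟨ψ, hψ⟩ : ∃ ψ : (stabilizer M24 d ⊓ stabilizer M24 Q :) →* GL (Fin 2) (ZMod 3),
    Function.Surjective ψ := ⟨φ.comp i.toMonoidHom, hφ.comp i.surjective⟩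
  have e := QuotientGroup.quotientKerEquivOfSurjective ψ hψ
  refine ⟨c, ⟨ψ.ker, inferInstance, ?_, ⟨e⟩⟩, fun p hp q hq => ?_⟩
  · have := Subgroup.card_eq_card_quotient_mul_card_subgroup ψ.ker
    rw [c, Nat.card_congr e.toEquiv, (by rw [Matrix.card_GL_field]; simp [Fin.prod_univ_two] :
      Nat.card (GL (Fin 2) (ZMod 3)) = 48)] at this
    omega
  obtain ⟨z, k⟩ := tr0
  rw [← h1] at hp hq
  obtain ⟨p', hp, e1⟩ := mem_smul_finset.1 hp
  obtain ⟨q', hq, e2⟩ := mem_smul_finset.1 hq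
  obtain ⟨a, ha, e3⟩ := k p' hp
  obtain ⟨b, hb, e4⟩ := k q' hq
  have : (g * (b * a⁻¹) * g⁻¹) • p = q := by simp only [← e1, ← e2, ← e3, ← e4, mul_smul, inv_smul_smul]
  exact ⟨_, (j _).2 (mul_mem hb (inv_mem ha)), this⟩

end Cfsg.Agent.S1598
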