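import Cfsg.Statements.S1599
import Cfsg.Agent.H28.GQ

set_option autoImplicit false
open scoped Pointwise
open Cfsg

namespace Cfsg.Agent.S1599
open H28
open H14 Finset


/-- A quartet stabiliser has five orbits on the quartets of its dodecad, of sizes 1, 12, 27, 72, 108. -/
theorem result (d : Finset Cfsg.GolayPt) (hd : d ∈ Cfsg.dodecads) (Q : Finset (Finset Cfsg.GolayPt)) (hQ : Q ∈ Cfsg.quartets d) : ∃ X₁ ∈ Cfsg.quartets d, ∃ X₂ ∈ Cfsg.quartets d, ∃ X₃ ∈ Cfsg.quartets d, ∃ X₄ ∈ Cfsg.quartets d, (MulAction.orbit ↥(MulAction.stabilizer Cfsg.M24 d ⊓ MulAction.stabilizer Cfsg.M24 Q) X₁).ncard = 12 ∧ (MulAction.orbit ↥(MulAction.stabilizer Cfsg.M24 d ⊓ MulAction.stabilizer Cfsg.M24 Q) X₂).ncard = 27 ∧ (MulAction.orbit ↥(MulAction.stabilizer Cfsg.M24 d ⊓ MulAction.stabilizer Cfsg.M24 Q) X₃).ncard = 72 ∧ (MulAction.orbit ↥(MulAction.stabilizer Cfsg.M24 d ⊓ MulAction.stabilizer Cfsg.M24 Q) X₄).ncard = 108 ∧ Cfsg.quartets d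 = {Q} ∪ MulAction.orbit ↥(MulAction.stabilizer Cfsg.M24 d ⊓ MulAction.stabilizer Cfsg.M24 Q) X₁ ∪ MulAction.orbit ↥(MulAction.stabilizer Cfsg.M24 d ⊓ MulAction.stabilizer Cfsg.M24 Q) X₂ ∪ MulAction.orbit ↥(MulAction.stabilizer Cfsg.M24 d ⊓ MulAction.stabilizer Cfsg.M24 Q) X₃ ∪ MulAction.orbit ↥(MulAction.stabilizer Cfsg.M24 d ⊓ MulAction.stabilizer Cfsg.M24 Q) X₄ := by
  obtain ⟨g, rfl, rfl⟩ := quartet_std hd hQ
  have m : ∀ a ∈ QA, g • bsets a ∈ quartets (g • d0) := fun a h => smul_quartet g (QA_sub ⟨a, h, rfl⟩)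
  refine ⟨_, m [0x7, 0x150, 0x11200, 0x42008] (by decide +kernel), _, m [0xb, 0x244, 0x13000, 0x40110] (by decide +kernel),
    _, m [0xb, 0x1300, 0x10050, 0x42004] (by decide +kernel), _, m [0xb, 0x1014, 0x2140, 0x50200] (by decide +kernel), ?_⟩
  simp only [orbit_conj (conj_dq g _ _), Set.ncard_smul_set]
  rw [orb_q (O := O1) (by decide +kernel), orb_q (O := O2) (by decide +kernel), orb_q (O := O3) (by decide +kernel),
    orb_q (O := O4) (by decide +kernel)]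
  refine ⟨ncard_dif (by decide +kernel), ncard_dif (by decide +kernel), ncard_dif (by decide +kernel),
    ncard_dif (by decide +kernel), ?_⟩
  rw [← smul_quartets, ← quartet_count.2.2, ← Set.smul_set_singleton, ← Set.image_singleton]
  simp only [← Set.smul_set_union, ← Set.image_union]
  congr 2
  ext a
  simp only [QA, List.mem_append, List.mem_singleton, Set.mem_ofPred_eq, Set.mem_union, Set.mem_singleton_iff]

end Cfsg.Agent.S1599
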