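import Cfsg.Statements.S1600
import Cfsg.Agent.H28.GQ

set_option autoImplicit false
open scoped Pointwise
open Cfsg

namespace Cfsg.Agent.S1600
open H28
open H14 Finset MulAction


/-- The pointwise stabiliser of three points of a dodecad inside the dodecad stabiliser (order 72) is transitive on the complementary dodecad. -/
theorem result (d : Finset Cfsg.GolayPt) (hd : d ∈ Cfsg.dodecads) (p q r : Cfsg.GolayPt) (hp : p ∈ d) (hq : q ∈ d) (hr : r ∈ d) (hpq : p ≠ q) (hpr : p ≠ r) (hqr : q ≠ r) : Nat.card ↥(MulAction.stabilizer Cfsg.M24 d ⊓ MulAction.stabilizer Cfsg.M24 p ⊓ MulAction.stabilizer Cfsg.M24 q ⊓ MulAction.stabilizer Cfsg.M24 r) = 72 ∧ ∀ x ∉ d, ∀ y ∉ d, ∃ g ∈ (MulAction.stabilizer Cfsg.M24 d ⊓ MulAction.stabilizer Cfsg.M24 p ⊓ MulAction.stabilizer Cfsg.M24 q ⊓ MulAction.stabilizer Cfsg.M24 r), ((g : ↥Cfsg.M24) : Equiv.Perm Cfsg.GolayPt) x = y := by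
  have C := (((Cfg.dod hd).sstep1 cp1 (card_singleton p) (by simp [sgS, hp])).sstep1 cp2 (card_singleton q)
    (by simp [sgS, hq, hpq.symm])).sstep1 cp3 (card_singleton r) (by simp [sgS, hr, hpr.symm, hqr.symm])
  refine ⟨?_, fun x hx y hy => ?_⟩
  · obtain ⟨g, e⟩ := C
    simp only [List.map, List.cons.injEq, show bset 4 = {P12.dec 2} by decide, show bset 2 = {P12.dec 1} by decide,
      show bset 1 = {P12.dec 0} by decide, smul_finset_singleton, singleton_inj] at e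
    obtain ⟨rfl, rfl, rfl, rfl, -⟩ := e
    rw [card_conj (H := G12 ⊓ stabilizer M24 (P12.dec 0) ⊓ stabilizer M24 (P12.dec 1) ⊓ stabilizer M24 (P12.dec 2)) g
      fun a => and_congr (and_congr (conj_dq ..) (conj_mem_stabilizer ..)) (conj_mem_stabilizer ..), ← P12_top,
      M12c.stab0 _ P12_rels, M12c.stab1 _ P12_rels, M12c.stab2 _ P12_rels, M12c.card3 _ P12_rels]
  have k : ∀ x ∉ d, Cfg _ [{x}, {r}, {q}, {p}, d] := fun x hx => C.sstep1 cp4 (card_singleton x) (by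
    simp [sgS, hx, (ne_of_mem_of_not_mem hp hx).symm, (ne_of_mem_of_not_mem hq hx).symm, (ne_of_mem_of_not_mem hr hx).symm])
  obtain ⟨g, e⟩ := (k x hx).trans (k y hy)
  simp only [List.map, List.cons.injEq, smul_finset_singleton, singleton_inj] at e
  exact ⟨g, ⟨⟨⟨e.2.2.2.2.1, e.2.2.2.1⟩, e.2.2.1⟩, e.2.1⟩, e.1⟩

end Cfsg.Agent.S1600
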