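import Cfsg.Statements.S1601
import Cfsg.Agent.H28.GR

set_option autoImplicit false
open scoped Pointwise
open Cfsg

namespace Cfsg.Agent.S1601
open H28
open H14 Finset MulAction


/-- In the 3-transitive action of the smallest Mathieu group on the complementary dodecad, a point stabiliser is isomorphic to PSL(2, 11). -/
theorem result (d : Finset Cfsg.GolayPt) (hd : d ∈ Cfsg.dodecads) (p q : Cfsg.GolayPt) (hp : p ∈ d) (hq : q ∉ d) : Nonempty (↥(MulAction.stabilizer Cfsg.M24 d ⊓ MulAction.stabilizer Cfsg.M24 p ⊓ MulAction.stabilizer Cfsg.M24 q) ≃* Matrix.ProjectiveSpecialLinearGroup (Fin 2) (ZMod 11)) := by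
  obtain ⟨g, e⟩ := ((Cfg.dod hd).sstep1 cp1 (card_singleton p) (by simp [sgS, hp])).sstep1 cq1 (card_singleton q)
    (by simp [sgS, hq, (ne_of_mem_of_not_mem hp hq).symm])
  simp only [List.map, List.cons.injEq, show bset 0x800000 = {none} by decide,
    show bset 1 = {some 0} by decide, smul_finset_singleton, singleton_inj] at e
  obtain ⟨rfl, rfl, rfl, -⟩ := e
  obtain ⟨e⟩ := l2_11
  exact ⟨(conjEquiv g fun a => and_congr (conj_dq ..) (conj_mem_stabilizer ..)).symm.trans e⟩

end Cfsg.Agent.S1601
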