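import Cfsg.Statements.S1603
import Cfsg.Agent.H2.IdM
import Cfsg.Agent.S0387
import Cfsg.Agent.S0388

set_option autoImplicit false
open scoped Pointwise
open Cfsg

namespace Cfsg.Agent.S1603

/-- Involution centralisers in the smallest Mathieu group are isomorphic to GL(2, 3). -/
theorem result (d : Finset Cfsg.GolayPt) (hd : d ∈ Cfsg.dodecads) (p : Cfsg.GolayPt) (hp : p ∈ d) (x : ↥(MulAction.stabilizer Cfsg.M24 d ⊓ MulAction.stabilizer Cfsg.M24 p)) (hx : orderOf x = 2) : Nonempty (↥(Subgroup.centralizer ({x} : Set ↥(MulAction.stabilizer Cfsg.M24 d ⊓ MulAction.stabilizer Cfsg.M24 p))) ≃* GL (Fin 2) (ZMod 3)) := by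
  have := Cfsg.Agent.S0388.result d hd p hp
  have hc := Cfsg.Agent.S0387.result d hd p hp
  have : Finite ↥(MulAction.stabilizer Cfsg.M24 d ⊓ MulAction.stabilizer Cfsg.M24 p) :=
    Nat.finite_of_card_ne_zero (by omega)
  obtain ⟨σ, h⟩ := H2.M11.emb hc
  obtain ⟨c, e⟩ := isConj_iff.1 (h.one x hx)
  have k : Subgroup.centralizer {x} = ((MulAut.conj c).toMonoidHom.comp σ).range := by
    rw [MonoidHom.range_comp, h.range_eq, ← e]
    exact H18.cj_C1.symm
  rw [k]
  exact ⟨(MonoidHom.ofInjective ((MulAut.conj c).injective.comp h.inj)).symm.trans H22.e48⟩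

end Cfsg.Agent.S1603
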