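import Cfsg.Statements.S1604
import Cfsg.Agent.H28.GD

set_option autoImplicit false
open scoped Pointwise
open Cfsg

namespace Cfsg.Agent.S1604
open H28
open H14


/-- A hexad stabiliser in the two-point stabiliser has orbits of sizes 1, 16, 60 on the 77 hexads: the 16 hexads disjoint from it and the 60 meeting it in two points. -/
theorem result (p q : Cfsg.GolayPt) (hpq : p ≠ q) (o o' o'' : Finset Cfsg.GolayPt) (ho : o ∈ Cfsg.octads) (ho' : o' ∈ Cfsg.octads) (ho'' : o'' ∈ Cfsg.octads) (hp : p ∈ o ∧ p ∈ o' ∧ p ∈ o'') (hq : q ∈ o ∧ q ∈ o' ∧ q ∈ o'') (h : (o ∩ o').card = (o ∩ o'').card) : {x : Finset Cfsg.GolayPt | x ∈ Cfsg.octads ∧ p ∈ x ∧ q ∈ x ∧ (o ∩ x).card = 2}.ncard = 16 ∧ {x : Finset Cfsg.GolayPt | x ∈ Cfsg.octads ∧ p ∈ x ∧ q ∈ x ∧ (o ∩ x).card = 4}.ncard = 60 ∧ ∃ g : Equiv.Perm Cfsg.GolayPt, g ∈ Cfsg.M24 ∧ g p = p ∧ g q = q ∧ g • o = o ∧ g • o' = o'' := by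
  have C := (Cfg.two hpq).step1 ca0 ho.1 (by simp [sgS, ho.2, hp, hq])
  refine ⟨(C.cnt [8, 2, 1, 1] fun s => ?_).trans (by decide +kernel),
    (C.cnt [8, 4, 1, 1] fun s => ?_).trans (by decide +kernel), ?_⟩
  · simp [sgS, mem_octads, card_single]; tauto
  · simp [sgS, mem_octads, card_single]; tauto
  obtain ⟨k, h⟩ := C.conn ca1 ho'.1 ho''.1 (by simp [sgS, ho'.2, hp, hq]) (by simp [sgS, ho'.2, ho''.2, hp, hq, h])
  simp only [List.map, List.cons.injEq, Finset.smul_finset_singleton, Finset.singleton_inj] at h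
  exact ⟨k, k.2, h.2.2.1, h.2.2.2.1, h.2.1, h.1⟩

end Cfsg.Agent.S1604
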