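import Cfsg.Statements.S1605
import Cfsg.Agent.H28.GD

set_option autoImplicit false
open scoped Pointwise
open Cfsg

namespace Cfsg.Agent.S1605
open H28
open H14


/-- The two-point stabiliser acts on the 176 octads through the first point avoiding the second with rank 3 and subdegrees 1, 70, 105 (intersections 8, 2, 4). -/
theorem result (p q : Cfsg.GolayPt) (hpq : p ≠ q) : {x : Finset Cfsg.GolayPt | (x ∈ Cfsg.octads ∧ p ∈ x ∧ q ∉ x)}.ncard = 176 ∧ (∀ o o' : Finset Cfsg.GolayPt, (o ∈ Cfsg.octads ∧ p ∈ o ∧ q ∉ o) → (o' ∈ Cfsg.octads ∧ p ∈ o' ∧ q ∉ o') → ∃ g : Equiv.Perm Cfsg.GolayPt, g ∈ Cfsg.M24 ∧ g p = p ∧ g q = q ∧ g • o = o') ∧ ∀ o : Finset Cfsg.GolayPt, (o ∈ Cfsg.octads ∧ p ∈ o ∧ q ∉ o) → {x : Finset Cfsg.GolayPt | (x ∈ Cfsg.octads ∧ p ∈ x ∧ q ∉ x) ∧ (o ∩ x).card = 2}.ncard = 70 ∧ {x : Finset Cfsg.GolayPt | (x ∈ Cfsg.octads ∧ p ∈ x ∧ q ∉ x)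 ∧ (o ∩ x).card = 4}.ncard = 105 ∧ ∀ o' o'' : Finset Cfsg.GolayPt, (o' ∈ Cfsg.octads ∧ p ∈ o' ∧ q ∉ o') → (o'' ∈ Cfsg.octads ∧ p ∈ o'' ∧ q ∉ o'') → (o ∩ o').card = (o ∩ o'').card → ∃ g : Equiv.Perm Cfsg.GolayPt, g ∈ Cfsg.M24 ∧ g p = p ∧ g q = q ∧ g • o = o ∧ g • o' = o'' := by
  have D : ∀ {o}, o ∈ octads ∧ p ∈ o ∧ q ∉ o → Cfg _ [o, {p}, {q}] := fun h =>
    (Cfg.two hpq).step1 cb0 h.1.1 (by simp [sgS, h.1.2, h.2])
  refine ⟨((Cfg.two hpq).cnt [8, 1, 0] fun s => ?_).trans (by decide +kernel), fun s t hs ht => ?_, fun o ho =>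
    ⟨((D ho).cnt [8, 2, 1, 0] fun s => ?_).trans (by decide +kernel),
    ((D ho).cnt [8, 4, 1, 0] fun s => ?_).trans (by decide +kernel), fun s t hs ht e => ?_⟩⟩
  · simp [sgS, mem_octads, card_single]; tauto
  · obtain ⟨k, h⟩ := (D hs).trans (D ht)
    simp only [List.map, List.cons.injEq, Finset.smul_finset_singleton, Finset.singleton_inj] at h
    exact ⟨k, k.2, h.2.1, h.2.2.1, h.1⟩
  · simp [sgS, mem_octads, card_single]; tauto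
  · simp [sgS, mem_octads, card_single]; tauto
  obtain ⟨k, h⟩ := (D ho).conn cb1 hs.1.1 ht.1.1 (by simp [sgS, hs.1.2, hs.2]) (by simp [sgS, hs.1.2, ht.1.2, hs.2, ht.2, e])
  simp only [List.map, List.cons.injEq, Finset.smul_finset_singleton, Finset.singleton_inj] at h
  exact ⟨k, k.2, h.2.2.1, h.2.2.2.1, h.2.1, h.1⟩

end Cfsg.Agent.S1605
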