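import Cfsg.Statements.S1606
import Cfsg.Agent.H16.M24x

set_option autoImplicit false
open scoped Pointwise
open Cfsg

namespace Cfsg.Agent.S1606

open H14 H16.MX MulAction
set_option maxRecDepth 100000

def rows : List (ℕ × Word × List Word) :=
 [(0, [], [[], [0, 0, 2], [0, 2], [0, 0, 0, 2, 0, 2, 1, 2], [0, 2], [0, 0, 0, 2, 0, 2, 1, 2], [0, 0, 2], [0, 2], [0, 2], [0, 0, 0, 2], [0, 0, 2, 0, 2, 1, 1, 2], [0, 2], [0, 0, 0, 2, 0, 2], [0, 2], [0, 0, 0, 2], [0, 0, 2, 0, 2, 1, 2]]),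
  (2, [2], [[], [0, 0, 2], [0, 0, 2], [0, 0, 0, 0, 2], [0, 0, 0, 2], [0, 2], [0, 0, 2], [0, 0, 0, 0, 2], [0, 2], [0, 0, 0, 2], [0, 2], [0, 0, 2], [0, 2], [0, 2], [0, 0, 2], [0, 2]]),
  (3, [4], [[], [0, 2], [0, 0, 2, 0, 2, 1, 1, 2], [0, 2], [0, 2], [0, 0, 2], [0, 0, 0, 2], [0, 2], [0, 0, 2], [0, 0, 0, 2, 1, 2], [0, 2], [0, 0, 0, 2, 0, 2, 1, 2], [0, 0, 2], [0, 0, 0, 2, 0, 2, 1, 2], [0, 0, 2], [0, 0, 2, 0, 2, 1, 2]]),
  (9, [4, 4], [[], [0, 0, 0, 2, 0, 2, 1, 2], [0, 2], [0, 0, 0, 2, 0, 2], [0, 0, 2, 0, 2, 1, 1, 2], [0, 0, 0, 0, 2], [0, 0, 0, 2, 0, 2, 1, 2], [0, 0, 2, 0, 2, 1, 2], [0, 2], [0, 2], [0, 0, 2, 0, 2, 1, 1, 2], [0, 0, 0, 2], [0, 0, 0, 0, 2], [0, 0, 0, 2], [0, 2], [0, 0, 0, 2]]),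
  (78, [9], [[], [0, 0, 2], [0, 0, 2], [0, 0, 2], [0, 0, 2], [0, 0, 2, 0, 2, 1, 2], [0, 0, 2, 0, 2, 1, 1, 2], [0, 0, 0, 2], [0, 0, 0, 2, 0, 2, 1, 2], [0, 0, 0, 2], [0, 0, 0, 2], [0, 0, 2], [0, 0, 2], [0, 0, 2, 0, 2, 1, 2], [0, 0, 2, 0, 2, 1, 1, 2], [0, 0, 0, 2]]),
  (37, [11], [[], [0, 0, 0, 2, 0, 2, 1, 2], [0, 2], [0, 0, 2, 0, 2, 1, 2], [0, 0, 0, 0, 2], [0, 2], [0, 0, 2, 0, 2, 1, 2], [0, 0, 2, 1, 1, 2], [0, 2], [0, 2], [0, 0, 0, 2], [0, 2], [0, 2], [0, 0, 2, 0, 2, 1, 2], [0, 2], [0, 2]]),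
  (79, [1], [[], [0, 0, 2], [0, 0, 2], [0, 0, 0, 0, 2], [0, 0, 2], [0, 0, 0, 0, 2], [0, 2], [0, 0, 2], [0, 0, 0, 2], [0, 2], [0, 0, 2], [0, 2], [0, 2], [0, 2], [0, 2], [0, 0, 0, 2]])]
def good : List Word := [[16, 19, 21], [16, 21, 19], [18, 20, 18], [5, 16, 19, 21, 4], [5, 17, 18, 20, 4], [5, 17, 19, 4],
  [5, 5, 18, 21, 4, 4], [5, 5, 17, 20, 17, 4, 4], [8, 16, 19, 21, 9], [8, 18, 20, 18, 9], [10, 16, 19, 21, 11],
  [10, 18, 17, 20, 11], [10, 16, 18, 11]]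

noncomputable abbrev y : M24 := ev M0.gen [12, 5]
theorem ord_y : orderOf y = 11 := M0.orderOf_prime (D := 5) (by norm_num) (by norm_num) (by norm_num) (by decide +kernel)

theorem lemA {H : Subgroup M24} (h : H ≤ G22) (h1 : y ∈ H) (h2 : ¬ 7 ∣ Nat.card H) {z : M24} (hz : z ∈ H)
    (ho : orderOf z = 2) : 5 ∣ Nat.card H ∧ ∃ k < 11, ∃ w ∈ good, z = y ^ k * ev M0.gen w * (y ^ k)⁻¹ := by
  obtain ⟨o, ho1, ho2, ho3⟩ := octad_of_inv ho (h hz).1
  have ho4 := (ho3 _).1 (h hz).2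
  rcases OM_reach oOc (ws := [[12, 5]]) [[0], [1, 1], [0, 0, 0], [0, 0, 0], [0]]
    (a := (List.range 759).filter fun i => !(tb (cm 24 759 OOc.A i) 23 && tb (cm 24 759 OOc.A i) 0))
    (b := rows.map (·.1)) (by decide +kernel) ho1 with ⟨i, hi, rfl⟩ | ⟨g, hg, i, hi, rfl⟩
  · rw [fOc, col_eq, mem_bset, ← tb_eq] at ho2 ho4
    have := (List.mem_filter.1 hi).2
    rw [show tb _ 23 = true from ho2, show tb _ 0 = true from ho4] at this
    exact absurd this (by decide)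
  obtain ⟨r, hr, rfl⟩ := List.mem_map.1 hi
  have k : (Nat.ble (Nat.succ 0) 759 && Nat.ble (Nat.succ r.1) 759 &&
      tb (runW (letN OOc.nets) r.2.1 (bit 0)) r.1) = true ∧ ∀ j < EK0.length, getL [] EK0 j = [] ∨
      PM.ordChk 24 M24c.nets 5 (flat [[12, 5], conjW (getL [] EK0 j) r.2.1] (getL [] r.2.2 j)) 7 [7] = true ∨
      (PM.ordChk 24 M24c.nets 5 (flat [[12, 5], conjW (getL [] EK0 j) r.2.1] (getL [] r.2.2 j)) 5 [5] = true ∧
        conjW (getL [] EK0 j) r.2.1 ∈ good) := by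
    clear ho1 ho2 ho3 ho4 hi; revert r; decide +kernel
  rw [sub_single] at hg
  have hg' : g ∈ H := Subgroup.zpowers_le_of_mem h1 hg
  have k1 : (g * ev M0.gen r.2.1)⁻¹ * z * (g * ev M0.gen r.2.1) ∈ sub M0.gen wK0 := by
    rw [K0_eq]
    refine (mem_fixingSubgroup_iff _).2 ((conj_pw (g * ev M0.gen r.2.1) _ _).1 fun x hx => ?_)
    rw [mul_smul, oOc.run k.1, ← ho3] at hx
    simpa [mul_assoc] using hx
  obtain ⟨w, hw, e⟩ := covK0 _ k1
  obtain ⟨j, hj, rfl⟩ := exists_getL [] (show w ∈ EK0 by simpa [prods] using hw)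
  have e1 : ev M0.gen (conjW (getL [] EK0 j) r.2.1) = g⁻¹ * z * g := by rw [ev_conjW, e]; group
  have k2 : sub M0.gen [[12, 5], conjW (getL [] EK0 j) r.2.1] ≤ H :=
    (sub_le _).2 (fa_cons h1 (fa_cons (e1 ▸ mul_mem (mul_mem (inv_mem hg') hz) hg') fa_nil))
  rcases k.2 j hj with k3 | k3 | k3
  · rw [k3, ev_nil, eq_comm, mul_eq_one_iff_eq_inv, mul_eq_left] at e
    rw [e, orderOf_one] at ho
    exact absurd ho (by norm_num)
  · exact absurd (dvd_card_of (k2 (ev_flat_mem _ _ _))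
      (M0.orderOf_prime (D := 5) (by norm_num) (by norm_num) (by norm_num) k3)) h2
  · refine ⟨dvd_card_of (k2 (ev_flat_mem _ _ _))
      (M0.orderOf_prime (D := 5) (by norm_num) (by norm_num) (by norm_num) k3.1), ?_⟩
    obtain ⟨n, hn, rfl⟩ := Finset.mem_image.1 (mem_zpowers_iff_mem_range_orderOf.1 hg)
    exact ⟨n, ord_y ▸ Finset.mem_range.1 hn, _, k3.2, by rw [e1]; group⟩

theorem lemB {H : Subgroup M24} (h : H ≤ G22) (h1 : y ∈ H) : Nat.card H ≠ 7920 ∧ Nat.card H ≠ 2112 := by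
  refine ⟨fun e => ?_, fun e => ?_⟩
  · obtain ⟨z, hz, ho⟩ := exists_ord (H := H) Nat.prime_two (by rw [e]; norm_num)
    let I : MulAction M24 M24 := MulAction.compHom M24 (MulAut.conj : M24 →* MulAut M24)
    have a1 := @card_orb M24 _ M24 I H z
    have a2 : (@orb M24 _ M24 I H z).ncard ≤ 143 := by
      classical
      refine (Set.ncard_le_ncard (t := ↑(Finset.image₂ (fun k w => y ^ k * ev M0.gen w * (y ^ k)⁻¹)
        (Finset.range 11) good.toFinset)) ?_).trans ?_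
      · rintro _ ⟨g, hg, rfl⟩
        obtain ⟨-, k, hk, w, hw, e'⟩ := lemA h h1 (by rw [e]; norm_num) (z := g * z * g⁻¹)
          (mul_mem (mul_mem hg hz) (inv_mem hg)) ((MulEquiv.orderOf_eq (MulAut.conj g) z).trans ho)
        exact Finset.mem_image₂.2 ⟨k, Finset.mem_range.2 hk, w, List.mem_toFinset.2 hw, e'.symm⟩
      · rw [Set.ncard_coe_finset]
        exact (Finset.card_image₂_le _ _ _).trans (Nat.mul_le_mul (Finset.card_range 11).le (List.toFinset_card_le good))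
    obtain ⟨g, e'⟩ := cls2A ho fun k => nfix_eq_zero.1 k _ (h hz).1
    have a3 : Nat.card (H ⊓ @stabilizer M24 M24 _ I z : Subgroup M24) ∣ 21504 := by
      rw [← cardCA, card_conj g (card_cent_conj e')]
      exact Subgroup.card_dvd_of_le fun x hx =>
        Subgroup.mem_centralizer_singleton_iff.2 (mul_inv_eq_iff_eq_mul.1 hx.2)
    have a4 := Nat.le_of_dvd (by norm_num) (Nat.dvd_gcd a3 (e ▸ Subgroup.card_dvd_of_le inf_le_left :
      Nat.card (H ⊓ @stabilizer M24 M24 _ I z : Subgroup M24) ∣ 7920))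
    have a5 := Nat.mul_le_mul a4 a2
    rw [← a1, e] at a5
    exact absurd a5 (by norm_num)
  · obtain ⟨z, hz, ho⟩ := exists_ord (H := H) Nat.prime_two (by rw [e]; norm_num)
    exact absurd (lemA h h1 (by rw [e]; norm_num) hz ho).1 (by rw [e]; norm_num)

theorem lemC {H : Subgroup M24} (h : H ≤ G22) : Nat.card H ≠ 7920 ∧ Nat.card H ≠ 2112 := by
  by_cases h1 : 11 ^ 1 ∣ Nat.card H
  · have := Fact.mk (show Nat.Prime 11 by norm_num)
    obtain ⟨g, hg, k⟩ := sylow_conj (p := 11) (k := 1) (m := 40320) (X := Subgroup.zpowers y)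
      (sub_single M0.gen _ ▸ le_G22 (by decide +kernel)) h
      (pgroup_of_card (k := 1) (by rw [Nat.card_zpowers, ord_y]; rfl)) card_G22 (by norm_num) h1
    exact card_cj g H ▸ lemB (cj_le hg h) (k (Subgroup.mem_zpowers _))
  · exact ⟨fun e => h1 (by rw [e]; norm_num), fun e => h1 (by rw [e]; norm_num)⟩


/-- The stabiliser of two points in the group of the length-24 code has no subgroups of index 56 or 210. -/
theorem result (p q : Cfsg.GolayPt) (hpq : p ≠ q) (H : Subgroup ↥(MulAction.stabilizer Cfsg.M24 p ⊓ MulAction.stabilizer Cfsg.M24 q)) : H.index ≠ 56 ∧ H.index ≠ 210 := by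
  obtain ⟨e⟩ := stab2_equiv hpq
  have h := lemC (Subgroup.map_subtype_le (H.comap e.toMonoidHom))
  have k := H.index_comap_of_surjective (f := e.toMonoidHom) e.surjective
  exact ⟨fun a => h.1 (card_of_index (k.trans a) (by norm_num) card_G22),
    fun a => h.2 (card_of_index (k.trans a) (by norm_num) card_G22)⟩

end Cfsg.Agent.S1606
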