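import Cfsg.Statements.S1607
import Cfsg.Agent.H28.GD

set_option autoImplicit false
open scoped Pointwise
open Cfsg

namespace Cfsg.Agent.S1607
open H28
open H14


/-- The point stabiliser acts on the 253 heptads of its S(4, 7, 23) with rank 3 and subdegrees 1, 112, 140 (intersections 8, 2, 4). -/
theorem result (x : Cfsg.GolayPt) (o : Finset Cfsg.GolayPt) (ho : o ∈ Cfsg.octads) (hx : x ∈ o) : {o' : Finset Cfsg.GolayPt | o' ∈ Cfsg.octads ∧ x ∈ o' ∧ (o ∩ o').card = 2}.ncard = 112 ∧ {o' : Finset Cfsg.GolayPt | o' ∈ Cfsg.octads ∧ x ∈ o' ∧ (o ∩ o').card = 4}.ncard = 140 ∧ ∀ o' o'' : Finset Cfsg.GolayPt, o' ∈ Cfsg.octads → o'' ∈ Cfsg.octads → x ∈ o' → x ∈ o'' → (o ∩ o').card = (o ∩ o'').card → ∃ g : Equiv.Perm Cfsg.GolayPt, g ∈ Cfsg.M24 ∧ g x = x ∧ g • o = o ∧ g • o' = o'' := by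
  have C := (Cfg.one x).step1 cc0 ho.1 (by simp [sgS, ho.2, hx])
  refine ⟨(C.cnt [8, 2, 1] fun s => ?_).trans (by decide +kernel), (C.cnt [8, 4, 1] fun s => ?_).trans (by decide +kernel),
    fun s t hs ht h1 h2 e => ?_⟩
  · simp [sgS, mem_octads, card_single]; tauto
  · simp [sgS, mem_octads, card_single]; tauto
  obtain ⟨k, h⟩ := C.conn cc1 hs.1 ht.1 (by simp [sgS, hs.2, h1]) (by simp [sgS, hs.2, ht.2, h1, h2, e])
  simp only [List.map, List.cons.injEq, Finset.smul_finset_singleton, Finset.singleton_inj] at h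
  exact ⟨k, k.2, h.2.2.1, h.2.1, h.1⟩

end Cfsg.Agent.S1607
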