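import Cfsg.Statements.S1609
import Cfsg.Agent.H16.M24x
import Cfsg.Agent.H14.F23

set_option autoImplicit false
open scoped Pointwise
open Cfsg

namespace Cfsg.Agent.S1609

open H14 H16.MX MulAction

theorem core {H : Subgroup M24} (h1 : H ≤ G23) (h2 : Nat.card H = 40320) (h3 : sub F23.M.gen F23.ws0 ≤ H) :
    H = stabilizer M24 (bset 0x1200) ⊓ G23 ∨ H = stabilizer M24 (bset 0xa09a44) ⊓ G23 := by
  obtain ⟨m, hm, e⟩ := inv_union F23.M [(15, 0x8000, []), (23, 0x800000, []), (9, 0x1200, [[0]]),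
    (2, 0x200844, [[0], [8, 2]]), (0, 0x5f65bb, [[0], [2], [4], [6], [0]])] (ws := F23.ws0) (by decide +kernel)
    (O := orb H (gp 0)) fun g hg => orb_inv g (h3 hg)
  have a1 : H ≤ stabilizer M24 (bset (m ^^^ full 24)) := by
    rw [bset_compl]; exact (le_stab_bset e orb_inv).trans (stab_compl _)
  have a2 : tb m 0 = true := (F23.M.mem_S_dec (by norm_num)).1 (e ▸ orb_self H _)
  have a3 : ¬ tb m 23 = true := fun h => by
    obtain ⟨g, hg, e'⟩ := e.ge ((F23.M.mem_S_dec (by norm_num)).2 h)
    exact absurd ((smul_left_cancel g (e'.trans (h1 hg).symm))) (by decide)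
  have a4 : pop 24 m ∣ 40320 := by rw [← F23.M.ncard_S, ← e, ← h2]; exact orb_dvd _ _
  have a5 : (subs (m ^^^ full 24) 0xa09a44 = true ∧ 5 ≤ p24 (m ^^^ full 24)) ∨ m ^^^ full 24 = 0x801200 ∨
      m ^^^ full 24 = 0x809200 := by clear a1 e; revert m; decide +kernel
  have ho : bset 0xa09a44 ∈ octads := bset_mem_octads (by decide +kernel)
  rcases a5 with a5 | a5 | a5
  · have b1 : H ≤ stabilizer M24 (bset 0xa09a44) ⊓ G23 := le_inf (fun g hg =>
      smul_octad_eq ho (a1 hg) (bset_subset a5.1) (card_bset _ ▸ a5.2)) h1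
    refine .inr (Subgroup.eq_of_le_of_card_ge b1 (Nat.le_of_dvd Nat.card_pos ?_))
    have := Nat.dvd_gcd (Subgroup.card_dvd_of_le (inf_le_left (a := stabilizer M24 (bset 0xa09a44)) (b := G23)))
      (Subgroup.card_dvd_of_le (inf_le_right (a := stabilizer M24 (bset 0xa09a44)) (b := G23)))
    rwa [card_HOc ho, card_G23, show Nat.gcd 322560 10200960 = 40320 by norm_num, ← h2] at this
  · rw [a5] at a1
    have b1 : H ≤ stabilizer M24 (bset 0x1200) ⊓ G23 := le_inf (le_stab_bset (h := F23.ok) rfl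
      ((((inv_stab_bset _).mono a1).sdf (inv_G23.mono h1)).of_eq (by decide +kernel))) h1
    refine .inl (Subgroup.eq_of_le_of_card_ge b1 ?_)
    have b2 := card_orb (stabilizer M24 (bset 0x1200)) (none : GolayPt)
    have b3 : 22 ≤ (orb (stabilizer M24 (bset 0x1200)) (none : GolayPt)).ncard := by
      have : ((bset 0x1200)ᶜ : Finset GolayPt).card = 22 := by rw [← bset_compl, card_bset]; decide +kernel
      rw [← this, ← Set.ncard_coe_finset]
      refine Set.ncard_le_ncard fun y hy => ?_
      have b4 : ∀ y ∈ (bset 0x1200)ᶜ, gp 9 ≠ y ∧ gp 12 ≠ y := by decide +kernel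
      obtain ⟨g, c1, c2, c3⟩ := M24_exists_smul3 (p := gp 9) (q := gp 12) (r := none) (by decide) (by decide)
        (by decide) (by decide) (b4 y hy).1 (b4 y hy).2
      refine ⟨g, smul_eq_of_pw fun p hp => ?_, c3⟩
      rcases (show ∀ p ∈ bset 0x1200, p = gp 9 ∨ p = gp 12 by decide +kernel) p hp with rfl | rfl <;> assumption
    rw [card_HDu (by show _ = 2; rw [card_bset]; decide +kernel)] at b2
    have := (Nat.mul_le_mul_left (Nat.card (stabilizer M24 (bset 0x1200) ⊓ G23 : Subgroup M24)) b3).trans b2.ge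
    omega
  · rw [a5] at a1
    obtain ⟨S, hS, -⟩ := exists_unique_sextet (t := bset 0x809200) (by rw [card_bset]; decide +kernel)
    have := Subgroup.card_dvd_of_le (show H ≤ stabilizer M24 S from fun g hg =>
      stab_tetrad hS.1 hS.2 (by rw [mem_stabilizer_iff.1 (a1 hg)]; exact hS.2))
    rw [h2, card_HSx hS.1] at this
    exact absurd this (by norm_num)


/-- Subgroups of index 253 in the Mathieu group of degree 23 are exactly the duad stabilisers and the heptad stabilisers. -/
theorem result (x : Cfsg.GolayPt) (H : Subgroup ↥(MulAction.stabilizer Cfsg.M24 x)) (hH : H.index = 253) : (∃ s : Finset Cfsg.GolayPt, s.card = 2 ∧ x ∉ s ∧ H = (MulAction.stabilizer Cfsg.M24 s).subgroupOf (MulAction.stabilizer Cfsg.M24 x)) ∨ ∃ o ∈ Cfsg.octads, x ∈ o ∧ H = (MulAction.stabilizer Cfsg.M24 o).subgroupOf (MulAction.stabilizer Cfsg.M24 x) := by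
  obtain ⟨g, rfl⟩ := M24_exists_smul1 none x
  have := Fact.mk Nat.prime_two
  have h1 : cj g (H.map (stabilizer M24 (g • (none : GolayPt))).subtype) ≤ G23 := fun z hz =>
    (conj_mem_stab g z _).1 (Subgroup.map_subtype_le H hz)
  have h2 : Nat.card (H.map (stabilizer M24 (g • (none : GolayPt))).subtype) = 40320 :=
    card_of_index hH (by norm_num) ((card_stab_smul g _).trans card_G23)
  obtain ⟨a, ha, h3⟩ := sylow_conj (p := 2) (k := 7) (m := 79695) (le_G23 (by decide +kernel)) h1
    (pgroup_of_card (k := 7) (F23.card0 F23.M F23.hR)) card_G23 (by norm_num) (by rw [card_cj, h2]; norm_num)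
  have key : ∀ y : Finset GolayPt, cj a (cj g (H.map (stabilizer M24 (g • (none : GolayPt))).subtype)) =
      stabilizer M24 y ⊓ G23 → H = (stabilizer M24 (g • a • y)).subgroupOf _ := fun y e => by
    ext z
    have hz : a⁻¹ * (g⁻¹ * z.1 * g) * a ∈ G23 := by
      refine mul_mem (mul_mem (inv_mem ha) ?_) ha
      rw [← conj_mem_stab g]; simp [mul_assoc]
    rw [← Subgroup.mem_map_iff_mem (stabilizer M24 (g • (none : GolayPt))).subtype_injective, mem_of_cj (g := g),
      mem_of_cj (g := a), e, Subgroup.mem_inf, Subgroup.subtype_apply, and_iff_left hz, ← conj_mem_stab a,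
      ← conj_mem_stab g]
    simp [mul_assoc, Subgroup.mem_subgroupOf]
  have hn : ∀ y : Finset GolayPt, g • (none : GolayPt) ∈ g • a • y ↔ none ∈ y := fun y => by
    rw [Finset.smul_mem_smul_finset_iff, ← Finset.smul_mem_smul_finset_iff (s := y) a, mem_stabilizer_iff.1 ha]
  rcases core (cj_le ha h1) (by rw [card_cj, card_cj, h2]) h3 with e | e
  · exact .inl ⟨_, by rw [Finset.card_smul_finset, Finset.card_smul_finset, card_bset]; decide +kernel,
      (hn _).not.2 (by decide +kernel), key _ e⟩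
  · exact .inr ⟨_, smul_mem_octads _ (smul_mem_octads _ (bset_mem_octads (by decide +kernel))),
      (hn _).2 (by decide +kernel), key _ e⟩

end Cfsg.Agent.S1609
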