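import Cfsg.Statements.S1610
import Cfsg.Agent.H28.HX

set_option autoImplicit false
open Cfsg

namespace Cfsg.Agent.S1610
open H28
open H28.HX Finset


/-- The hexacode has 64 words, minimum weight 4, and weight distribution 0^1 4^45 6^18. -/
theorem result (F : Type*) [Field F] [Fintype F] [DecidableEq F] (hF : Fintype.card F = 4) (ω : F) (hω : ω ^ 2 + ω + 1 = 0) : Nat.card ↥(Cfsg.hexacode F ω) = 64 ∧ (∀ x ∈ Cfsg.hexacode F ω, x ≠ 0 → (Finset.univ.filter fun i => x i ≠ 0).card = 4 ∨ (Finset.univ.filter fun i => x i ≠ 0).card = 6) ∧ {x : Fin 6 → F | x ∈ Cfsg.hexacode F ω ∧ (Finset.univ.filter fun i => x i ≠ 0).card = 4}.ncard = 45 ∧ {x : Fin 6 → F | x ∈ Cfsg.hexacode F ω ∧ (Finset.univ.filter fun i => x i ≠ 0).card = 6}.ncard = 18 := by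
  obtain ⟨e, he⟩ := exists_equiv hF hω
  have k : ∀ a, #{i | (e ∘ sys a) i ≠ 0} = #{i | sys a i ≠ 0} := by simp
  refine ⟨?_, fun x hx h0 => ?_,
    (ncard_hex he _ (fun a => #{i | sys a i ≠ 0} = 4) (by simp only [k, implies_true])).trans (by decide +kernel),
    (ncard_hex he _ (fun a => #{i | sys a i ≠ 0} = 6) (by simp only [k, implies_true])).trans (by decide +kernel)⟩
  · have := (ncard_hex he (fun _ => True) (fun _ => True) (by simp)).trans (by decide +kernel : _ = 64)
    simp only [and_true] at this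
    exact this
  obtain ⟨a, rfl⟩ := (mem_iff' he).1 hx
  have : sys a ≠ 0 := fun h => h0 (by ext; simp [h])
  rw [k]; clear hx h0; revert a; decide +kernel

end Cfsg.Agent.S1610
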