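import Cfsg.Statements.S1611
import Cfsg.Agent.H28.HX

set_option autoImplicit false
open Cfsg

namespace Cfsg.Agent.S1611
open H28
open H28.HX Equiv


/-- The monomial automorphism group of the hexacode has order 1080: its diagonal part is the scalars and its permutation parts form the alternating group of degree 6. -/
theorem result (F : Type*) [Field F] [Fintype F] [DecidableEq F] (hF : Fintype.card F = 4) (ω : F) (hω : ω ^ 2 + ω + 1 = 0) : Nat.card {f : Equiv.Perm (Fin 6) × (Fin 6 → Fˣ) // (∀ x ∈ Cfsg.hexacode F ω, Cfsg.monomialMap f.1 f.2 x ∈ Cfsg.hexacode F ω)} = 1080 ∧ (∀ c : Fin 6 → Fˣ, (∀ x ∈ Cfsg.hexacode F ω, Cfsg.monomialMap 1 c x ∈ Cfsg.hexacode F ω) → ∀ i j, c i = c j) ∧ {σ : Equiv.Perm (Fin 6) | ∃ c : Fin 6 → Fˣ, (∀ x ∈ Cfsg.hexacode F ω, Cfsg.monomialMap σ c x ∈ Cfsg.hexacode F ω)} = (alternatingGroup (Fin 6) : Set (Equiv.Perm (Fin 6))) := by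
  obtain ⟨e, he⟩ := exists_equiv hF hω
  have k1 : ∀ {σ c}, Pres ω σ c → ∃ τ d, Pres ω τ d ∧ τ.sign = 1 ∧ τ * σ = 1 := fun h => by
    obtain ⟨τ, d, h1, h2, h3⟩ := reduce he _
    exact ⟨τ, d, h1, h2, h3.resolve_right fun e => not_swap he (e ▸ h1.mul h)⟩
  have k2 : ∀ {σ c}, Pres ω σ c → σ ∈ alternatingGroup (Fin 6) := fun h => by
    obtain ⟨τ, d, -, h2, h3⟩ := k1 h
    simpa [h2] using congrArg Perm.sign h3
  have k : ∀ σ : alternatingGroup (Fin 6), ∃ c, Pres ω σ c := fun ⟨σ, h⟩ => by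
    obtain ⟨τ, d, h1, h2, h3 | h3⟩ := reduce he σ⁻¹
    · exact ⟨d, mul_inv_eq_one.1 h3 ▸ h1⟩
    · simpa [h2, Perm.mem_alternatingGroup.1 h] using congrArg Perm.sign h3
  refine ⟨?_, fun c h i j => (Pres.const he h i).trans (Pres.const he h j).symm,
    Set.ext fun σ => ⟨fun ⟨_, h⟩ => k2 h, fun h => k ⟨σ, h⟩⟩⟩
  choose c k using k
  change Nat.card {f : Perm (Fin 6) × (Fin 6 → Fˣ) // Pres ω f.1 f.2} = _
  rw [← Nat.card_congr (Equiv.ofBijective (fun a : alternatingGroup (Fin 6) × Fˣ =>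
    (⟨(a.1, fun p => a.2 * c a.1 p), (k a.1).smul a.2⟩ : {f : Perm (Fin 6) × (Fin 6 → Fˣ) // Pres ω f.1 f.2}))
    ⟨?_, fun ⟨⟨σ, d⟩, h⟩ => ?_⟩), Nat.card_prod, nat_card_alternatingGroup, Nat.card_units, Nat.card_fin,
    Nat.card_eq_fintype_card, hF]
  · rfl
  · rintro ⟨σ, u⟩ ⟨τ, v⟩ e
    simp only [Subtype.mk.injEq, Prod.mk.injEq, Subtype.val_inj] at e
    obtain ⟨rfl, e⟩ := e
    simpa using congrFun e 0
  obtain ⟨τ, t, h1, -, h3⟩ := k1 h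
  refine ⟨(⟨σ, k2 h⟩, d (τ.symm 0) / c ⟨σ, k2 h⟩ (τ.symm 0)), Subtype.ext (Prod.ext rfl (funext fun p => ?_))⟩
  have a := Pres.const he (h3 ▸ h1.mul h) (τ p)
  have b := Pres.const he (h3 ▸ h1.mul (k ⟨σ, k2 h⟩)) (τ p)
  simp only [symm_apply_apply] at a b
  simp only [← eq_inv_mul_iff_mul_eq] at a b
  simp only [a, b]
  simp [mul_comm, mul_left_comm, mul_assoc]

end Cfsg.Agent.S1611
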