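import Cfsg.Statements.S1617
import Cfsg.Agent.H28.RkB
import Cfsg.Agent.H9.ZStarMain

set_option autoImplicit false
open Cfsg

namespace Cfsg.Agent.S1617
open H28


/-- A generating conjugacy class of involutions on which the group (with trivial solvable radical) acts with rank 3 is a class of 3-transpositions. -/
theorem result {G : Type*} [Group G] [Finite G] (hsol : ∀ N : Subgroup G, N.Normal → Group.IsSolvable ↥N → N = ⊥) {D : Set G} (hinv : ∀ d ∈ D, orderOf d = 2) (hconj : ∃ d ∈ D, D = conjugatesOf d) (hgen : Subgroup.closure D = ⊤) (hrank : ∀ x ∈ D, ∃ y ∈ D, ∃ z ∈ D, {w : G | ∃ g : G, Commute g x ∧ g * y * g⁻¹ = w} ≠ {w : G | ∃ g : G, Commute g x ∧ g * x * g⁻¹ = w} ∧ {w : G | ∃ g : G, Commute g x ∧ g * z * g⁻¹ = w} ≠ {w : G | ∃ g : G, Commute g x ∧ g * x * g⁻¹ = w} ∧ {w : G | ∃ g : G, Commute g x ∧ g * y * g⁻¹ = w} ≠ {w : G | ∃ g : G, Commute g x ∧ g * z * g⁻¹ = w} ∧ D = {w : G | ∃ g : G, Commute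 g x ∧ g * x * g⁻¹ = w} ∪ {w : G | ∃ g : G, Commute g x ∧ g * y * g⁻¹ = w} ∪ {w : G | ∃ g : G, Commute g x ∧ g * z * g⁻¹ = w}) : Cfsg.IsThreeTranspositionClass D := by
  open H28 Subgroup in
  obtain ⟨d, hd, hD⟩ := hconj
  have cj : ∀ g : G, ∀ x ∈ D, g * x * g⁻¹ ∈ D := fun g x hx => hD ▸ IsConj.trans (hD.le hx) (isConj_iff.2 ⟨g, rfl⟩)
  have tr : ∀ a ∈ D, ∀ b ∈ D, ∃ g, g * a * g⁻¹ = b := fun a ha b hb => isConj_iff.1 (IsConj.trans (IsConj.symm (hD.le ha)) (hD.le hb))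
  have sq : ∀ x ∈ D, x * x = 1 := fun x hx => H9.mul_self_of_orderOf (hinv x hx)
  have ne : ∀ x ∈ D, x ≠ 1 := fun x hx => H9.ne_one_of_orderOf (hinv x hx)
  have := Fact.mk Nat.prime_two
  have h2 : ∀ N : Subgroup G, N.Normal → IsPGroup 2 N → N = ⊥ := fun N h k => hsol N h (by have := k.isNilpotent; infer_instance)
  have cc : ∀ g : G, ∀ {x y : G}, Commute (g * x * g⁻¹) (g * y * g⁻¹) ↔ Commute x y := fun g x y =>
    ⟨fun k => by simpa [mul_assoc] using k.map (MulAut.conj g⁻¹), fun k => k.map (MulAut.conj g)⟩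
  have cm : ∀ x ∈ D, ∃ c ∈ D, c ≠ x ∧ Commute x c := fun x hx => by
    by_contra! k
    have := H9.zstar_center (u := x) ⟨hinv x hx, fun g c => by_contra fun n => k _ (cj g x hx) n c⟩
      (hsol _ inferInstance (H16.odd_order _ (Nat.not_even_iff_odd.1 (mt even_iff_two_dvd.1 (H17.pPrimeCore_not_dvd (G := G) 2)))))
    exact ne x hx (mem_bot.1 (h2 (zpowers x) ⟨fun y hy g => by rwa [mem_center_iff.1 (zpowers_le.2 this hy) g, mul_inv_cancel_right]⟩
      (IsPGroup.of_card (n := 1) (by rw [Nat.card_zpowers, hinv x hx]; rfl)) ▸ mem_zpowers x))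
  have rk : ∀ x ∈ D, ∀ v ∈ D, ∀ w ∈ D, ¬ Commute x v → ¬ Commute x w → ∃ g, Commute g x ∧ g * v * g⁻¹ = w := by
    intro x hx v hv w hw nv nw
    obtain ⟨y, -, z, -, -, -, -, e⟩ := hrank x hx
    obtain ⟨c, hc, n, k⟩ := cm x hx
    have f : ∀ {y g g'}, Commute g x → Commute g' x → Commute x (g * y * g⁻¹) → Commute x (g' * y * g'⁻¹) := fun {y g g'} h h' q => by
      rw [← show g * x * g⁻¹ = x by rw [h.eq, mul_inv_cancel_right], cc] at q
      rwa [← show g' * x * g'⁻¹ = x by rw [h'.eq, mul_inv_cancel_right], cc]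
    have f0 : ∀ {g}, Commute g x → g * x * g⁻¹ = x := fun h => by rw [h.eq, mul_inv_cancel_right]
    have f2 : ∀ {g}, Commute g x → Commute x (g * x * g⁻¹) := fun h => by rw [f0 h]
    have f1 : ∀ {y g g'}, Commute g x → Commute g' x → ∃ h, Commute h x ∧ h * (g * y * g⁻¹) * h⁻¹ = g' * y * g'⁻¹ :=
      fun {y g g'} h h' => ⟨g' * g⁻¹, h'.mul_left h.inv_left, by group⟩
    obtain (⟨g, h, rfl⟩ | ⟨g, h, rfl⟩) | ⟨g, h, rfl⟩ := e.le hc <;> obtain (⟨g1, h1, rfl⟩ | ⟨g1, h1, rfl⟩) | ⟨g1, h1, rfl⟩ := e.le hv <;>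
      obtain (⟨g2, h2, rfl⟩ | ⟨g2, h2, rfl⟩) | ⟨g2, h2, rfl⟩ := e.le hw <;>
      first | exact f1 h1 h2 | exact absurd (f0 h) n | exact absurd (f h h1 k) nv | exact absurd (f h h2 k) nw |
        exact absurd (f2 h1) nv | exact absurd (f2 h2) nw
  obtain ⟨p, w, hw, pp, p2, ow⟩ : ∃ p, ∃ w ∈ D, p.Prime ∧ p ≠ 2 ∧ orderOf (d * w) = p := by
    obtain ⟨r, r1, ro, ri⟩ := H9.exists_odd_inverted (hinv d hd) fun k => ne d hd (mem_bot.1 (h2 _ inferInstance k ▸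
      subset_normalClosure rfl))
    obtain ⟨p, pp, hp⟩ := Nat.exists_prime_and_dvd (mt orderOf_eq_one_iff.1 r1)
    obtain ⟨j, hj⟩ := ro.of_dvd_nat hp
    have os := orderOf_pow_orderOf_div (orderOf_pos r).ne' hp
    have si : SemiconjBy d (r ^ (orderOf r / p)) (r ^ (orderOf r / p))⁻¹ := by
      rw [← inv_pow]; exact SemiconjBy.pow_right (by rw [SemiconjBy, ← ri, inv_mul_cancel_right]) _
    generalize r ^ (orderOf r / p) = s at os si
    refine ⟨p, _, cj (s ^ (j + 1))⁻¹ d hd, pp, by omega, ?_⟩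
    rw [← inv_pow, ← (si.pow_right _).eq, inv_pow, inv_inv, mul_assoc, ← mul_assoc, sq d hd, one_mul, ← pow_add,
      show j + 1 + (j + 1) = p + 1 by omega, pow_succ, ← os, pow_orderOf_eq_one, one_mul]
  have lt := pp.two_le
  have pr : ∀ a ∈ D, ∀ b ∈ D, Commute a b ∨ orderOf (a * b) = p := fun a ha b hb => (em _).imp_right fun n => by
    obtain ⟨g, rfl⟩ := tr d hd a ha
    obtain ⟨h, c, e⟩ := rk _ ha _ (cj g w hw) b hb (fun k => by
      have := Nat.le_of_dvd two_pos (orderOf_dvd_of_pow_eq_one (show (d * w) ^ 2 = 1 by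
        rw [((cc g).1 k).mul_pow, pow_two, pow_two, sq d hd, sq w hw, one_mul]))
      omega) n
    rw [← ow, ← e, ← H9.orderOf_conj' (h * g) (d * w), ← show h * (g * d * g⁻¹) * h⁻¹ = g * d * g⁻¹ by rw [c.eq, mul_inv_cancel_right]]
    congr 1; group
  by_cases p3 : p = 3
  · exact ⟨⟨hinv, fun a ha b hb => (pr a ha b hb).imp (fun c => by rw [c.mul_pow, pow_two, pow_two, sq a ha, sq b hb, one_mul])
      fun k => by rw [← p3, ← k, pow_orderOf_eq_one]⟩, ⟨d, hd, hD⟩, hgen⟩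
  have o : OP p D := ⟨pp, by
    by_contra! k
    obtain rfl : p = 4 := by omega
    exact absurd pp (by decide), sq, ne, fun a ha b hb => by simpa [H9.inv_eq_of_mul_self (sq a ha)] using cj a b hb, pr⟩
  obtain ⟨m, hm, n, c⟩ := cm d hd
  exfalso
  refine n (o.ec hgen (h2 _ inferInstance (H17.pCore_isPGroup G 2)) hd ⟨hm, fun y hy => ⟨fun k => by_contra fun q => ?_,
    fun k => by_contra fun q => ?_⟩⟩)
  exacts [o.rank3 noTri hgen tr (rk m hm) hm hd hy c.symm k q, o.rank3 noTri hgen tr (rk d hd) hd hm hy c k q]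

end Cfsg.Agent.S1617
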