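import Cfsg.Statements.S1621
import Cfsg.Agent.H15.J2

set_option autoImplicit false
open Quaternion
open Cfsg

namespace Cfsg.Agent.S1621

open H15 H15.J2 H15.Ico H15.Ico.Ic H14 Cfsg.Spor

theorem memA {u : Ic} : u ∈ (U.map dec).toFinset ↔ normSq (φ u) = 1 := by
  rw [List.mem_toFinset, ← nu]
  refine ⟨fun h => of_decide_eq_true (List.all_eq_true.1
    (show (U.map dec).all (fun u => decide (u.N = ⟨1, 0⟩)) = true by decide +kernel) u h), fun h => ?_⟩
  have h1 := enum_spec (s := 1) (by decide) chkU (x := u) (by rw [h]; rfl)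
  rw [decide_eq_true h, Bool.not_true, Bool.false_or] at h1
  exact List.mem_map.2 (memc_spec h1)

/-- The icosian Leech lattice has 37800 minimal vectors giving 315 distinct reflections. -/
theorem result : {r : Fin 3 → ℍ[ℝ] | r ∈ Cfsg.Spor.icoLeech ∧ Cfsg.Spor.qip r r = 4}.ncard = 37800 ∧ {f : Equiv.Perm ↥Cfsg.Spor.icoLeech | Cfsg.Spor.IsIcoReflection f}.ncard = 315 := by
  obtain ⟨A, memA, hA⟩ : ∃ A : Finset Ic, (∀ {u}, u ∈ A ↔ normSq (φ u) = 1) ∧ A.card = 120 :=
    ⟨_, memA, (List.toFinset_card_of_nodup (by decide +kernel)).trans (by decide +kernel)⟩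
  constructor
  · have e : {r : V3 | r ∈ icoLeech ∧ qip r r = 4} = (fun p : Ic × ℕ => φ p.1 • vR p.2) ''
        (A ×ˢ Finset.range 315 : Finset (Ic × ℕ)) := by
      ext r
      constructor
      · intro h
        obtain ⟨i, hi, u, hu, h1, rfl⟩ := classify h
        obtain ⟨u, rfl⟩ := mem_ico.1 hu
        exact ⟨(u, i), Finset.mem_coe.2 (Finset.mem_product.2 ⟨memA.2 h1, Finset.mem_range.2 hi⟩), rfl⟩
      · rintro ⟨p, hp, rfl⟩
        have := Finset.mem_product.1 hp
        exact (mn (Finset.mem_range.1 this.2)).unit (φ_mem _) (memA.1 this.1)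
    rw [e, Set.InjOn.ncard_image, Set.ncard_coe_finset, Finset.card_product, Finset.card_range, hA]
    rintro ⟨u, i⟩ hp ⟨w, j⟩ hq h
    have h1 := Finset.mem_product.1 hp
    have h2 := Finset.mem_product.1 hq
    have hi := Finset.mem_range.1 h1.2
    have hj := Finset.mem_range.1 h2.2
    obtain rfl : i = j := fam.inj hi hj ((rf_unit (mn hi) (φ_mem _) (memA.1 h1.1)).symm.trans
      ((congrArg rf h).trans (rf_unit (mn hj) (φ_mem _) (memA.1 h2.1))))
    have h0 : vR i ≠ 0 := fun h0 => by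
      have := (mn hi).2
      rw [h0, ← v4, qip_eq] at this
      simpa [Zt.v] using congrArg QuaternionAlgebra.re this
    exact Prod.ext (φ_inj (smul_left_injective _ h0 h)) rfl
  · rw [← fam.ncard_range]
    congr 1
    ext g
    exact refl_iff

end Cfsg.Agent.S1621
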