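import Cfsg.Statements.S1626
import Cfsg.Agent.H25.LinNet
import Cfsg.Agent.S0478
-- import your own Cfsg.Agent.* helpers here

set_option autoImplicit false
open scoped MatrixGroups
open Matrix
open Cfsg

namespace Cfsg.Agent.S1626

open H14 H15 H15.J3 H25 Cfsg.Spor

/-- programs for the two generators and the scalar -/
def ps : List (List (ℕ × ℕ)) := [[(8,14), (16,8), (10,8), (13,3), (7,3), (6,12), (12,4), (7,13), (4,6), (2,6), (14,10), (5,7), (3,7), (14,16),
  (8,14), (11,17), (15,11), (9,11), (17,9), (12,2), (6,12), (17,15), (11,17), (13,5), (7,13)],[(16,17), (13,17),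
  (10,17), (5,6), (6,5), (17,6), (3,6), (15,17), (2,17), (5,6), (17,15), (14,17), (12,17), (9,17), (8,17),
  (7,17), (4,17), (0,17), (14,1), (13,1), (12,1), (8,1), (6,1), (5,1), (17,5), (16,5), (11,5), (1,5), (17,11),
  (15,17), (9,17), (6,15), (5,6), (1,17), (6,9), (1,9), (4,1), (9,6), (1,4), (8,1), (15,1), (4,1), (15,10),
  (14,10), (11,10), (9,15), (9,3), (16,9), (4,3), (6,13), (4,6), (12,13), (7,6), (1,6), (0,13), (10,1), (13,0),
  (16,13), (1,13), (3,13), (2,3), (0,1), (9,2), (15,9), (8,9), (0,15), (1,2), (5,9), (2,15), (10,7), (5,10),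
  (4,7), (12,10), (3,10), (7,10), (7,12), (11,7), (15,7), (8,12), (12,11), (9,16), (2,9), (1,9), (11,2),
  (10,16), (7,10), (5,1), (17,16), (16,10), (11,14), (1,14), (13,14), (2,13), (9,11), (6,14), (16,2), (0,8),
  (10,8), (6,8), (7,0), (1,0), (14,10), (13,0), (4,6)],[(5,4), (11,10), (1,0), (17,16), (16,17), (4,5), (15,14),
  (14,15), (9,8), (8,9), (0,1), (3,2), (2,3), (10,11), (13,12), (12,13), (7,6), (6,7)]]
/-- the matrices -/
noncomputable def As : List ℕ := [c4.letM 9 L 0, c4.letM 9 L 2, c4.scN 9 2]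
/-- the networks -/
noncomputable abbrev nets : List Net := ps.map (linNet (2 * 9))
/-- the closure of a vector -/
noncomputable def orb (s : ℕ) : ℕ := orbRun nets (lets 3) ([4] :: [4] :: (List.replicate 26 [[2], [0]]).flatten) (bit s)
theorem k1 : linChk 9 As ps = true := by decide +kernel
theorem k2 : netsOk (2 ^ (2 * 9)) nets = true := by decide +kernel
theorem k3 : (invChk nets (lets 3) (orb 1) && Nat.beq (pop (2 ^ (2 * 9)) (orb 1)) 69768) = true := by decide +kernel
theorem k4 : subs (Nat.sub (bit (2 ^ (2 * 9))) 1) (Nat.lor (Nat.lor (orb 1) (orb 4161)) (Nat.lor (orb 4160) (bit 0))) = true := by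
  decide +kernel

section
variable {F : Type} [Field F] {ω : F} (h2 : (2 : F) = 0) (hω : ω ^ 2 + ω + 1 = 0)
include h2 hω

theorem nrm_inv (g : threeJ3 F ω) (v : F9 → F) : ∑ z, (clM _ g *ᵥ v) z ^ 3 = ∑ z, v z ^ 3 := by
  have : CharP F 2 := CharTwo.of_one_ne_zero_of_two_eq_zero one_ne_zero h2
  have h1 : (clM _ g)ᵀ * (clM _ g).map (frobenius F 2) = 1 := S0478.le_U h2 hω g.2
  have e1 : ∀ u : F9 → F, ∑ z, u z ^ 3 = u ⬝ᵥ (frobenius F 2 ∘ u) := fun u =>
    Finset.sum_congr rfl fun i _ => by rw [Function.comp_apply, frobenius_def]; ring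
  rw [e1, e1, show frobenius F 2 ∘ (clM _ g *ᵥ v) = (clM _ g).map (frobenius F 2) *ᵥ (frobenius F 2 ∘ v) from
    funext fun i => RingHom.map_mulVec _ _ v i, ← vecMul_transpose, ← dotProduct_mulVec, mulVec_mulVec, h1, one_mulVec]

theorem toV_eq (p : ℕ) (f : F9 → ℕ) (h : ∀ z, fld 2 p (e9 z) = f z) : (ar4 h2 hω).toV e9 p = fun z => v4 ω (f z) :=
  funext fun z => congrArg (v4 ω) (h z)

theorem nrm_toV (p : ℕ) (s : Finset F9) (h : ∀ z, fld 2 p (e9 z) = if z ∈ s then 1 else 0) :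
    ∑ z, (ar4 h2 hω).toV e9 p z ^ 3 = s.card := by
  rw [toV_eq h2 hω p _ h, Finset.card_eq_sum_ones, Nat.cast_sum, ← Finset.sum_subset (Finset.subset_univ s)
    fun z _ hz => by simp only [if_neg hz, v0]; ring]
  exact Finset.sum_congr rfl fun z hz => by simp only [if_pos hz, v1]; simp

theorem sc_mulVec (c : F) (v : F9 → F) : scalar F9 c *ᵥ v = c • v := by
  funext i; simp [mulVec_diagonal]

theorem main [Fintype F] (hF : Fintype.card F = 4) : ∃ (O : Set (F9 → F)) (u : F9 → F), O.ncard = 69768 ∧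
    (∀ y ∈ O, ω • y ∈ O) ∧ (∀ y ∈ O, ∃ g, clM (threeJ3 F ω) g *ᵥ Pi.single 0 1 = y) ∧
    (∀ g, ∃ c : F, c ≠ 0 ∧ ∃ y ∈ O, clM (threeJ3 F ω) g *ᵥ Pi.single 0 1 = c • y) ∧
    ∀ v : F9 → F, v ≠ 0 → ∑ z, v z ^ 3 = 0 → ∃ g, clM (threeJ3 F ω) g *ᵥ u = v := by
  obtain ⟨N⟩ := exists_mm h2 hω
  obtain ⟨z1, -⟩ := N.scal (ok h2 hω).1 (clM_inj _) zw_ok _ (List.mem_cons_self ..)
  generalize H14.ev N.gen _ = z at z1
  obtain ⟨M, hM, hd⟩ := exists_linPM h2 hω e9 hF (clM (threeJ3 F ω)) (fun l => if l < 2 then N.gen l else z)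
    (As := As) (ps := ps) (fun l hl => by
      replace hl : l < 3 := hl
      interval_cases l
      · exact N.spec 0
      · exact N.spec 2
      · have e : ∀ a : Ar F, a.sh.scN 9 2 = a.scN 9 2 := fun _ => rfl
        rw [show getL 0 As 2 = c4.scN 9 2 from rfl, ← (ok h2 hω).1, e, Ar.toM_scN]
        exact z1) (by decide) k1 k2
  replace z1 := z1.trans (congrArg _ (v2 (ω := ω)))
  have k3 := k3
  rw [Bool.and_eq_true] at k3
  have d1 : M.dec 1 = (Pi.single 0 1 : F9 → F) := (hd 1).trans ((toV_eq h2 hω 1 (fun z => if z = 0 then 1 else 0)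
    (by decide)).trans (funext fun z => by rw [Pi.single_apply]; split_ifs; exacts [v1, v0]))
  have o1 : ∀ g ∈ sub M.gen (lets 3), g • M.dec 1 ∈ M.S (orb 1) := fun g hg => (M.inv_sound k3.1 hg _).2 (by
      rw [PM.mem_S, M.enc_dec 1 (by decide), ← tb_eq]; decide +kernel)
  have n1 : ∀ s < 2 ^ (2 * 9), ∀ y ∈ M.S (orb s), ∑ z, y z ^ 3 = ∑ z, (ar4 h2 hω).toV e9 s z ^ 3 := fun s hs y hy => by
    obtain ⟨g, -, rfl⟩ := M.orb_sound_bit _ _ hs hy
    rw [← hd]; exact nrm_inv h2 hω g _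
  refine ⟨M.S (orb 1), M.dec 4160, (M.ncard_S _).trans (Nat.eq_of_beq_eq_true k3.2), fun y hy => ?_, fun y hy => ?_,
    fun g => ?_, fun v v0' hv => ?_⟩
  · have := (M.inv_sound k3.1 (gen_mem_lets (l := 2) (by decide)) y).2 hy
    rw [hM 2 (by decide), if_neg (by decide)] at this
    rw [← sc_mulVec h2 hω, ← z1]
    exact this
  · obtain ⟨g, -, e⟩ := M.orb_sound_bit _ _ (by decide) hy
    exact ⟨g, d1 ▸ e⟩
  · have h3 : q ω g ∈ (sub N.gen (lets 2)).map (q ω) := by rw [H14.map_sub, top N]; trivial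
    obtain ⟨u, hu, e⟩ := h3
    have h4 := S1625.scalar_of_ctr h2 hω (QuotientGroup.eq.1 e)
    have h5 : sub N.gen (lets 2) ≤ sub M.gen (lets 3) := sub_lets_le fun l hl => by
      have := gen_mem_lets (gen := M.gen) (k := 3) (l := l) (by omega)
      rwa [hM l (show l < 3 by omega), if_pos hl] at this
    refine ⟨clM _ (u⁻¹ * g) 0 0, fun h => ?_, _, o1 u (h5 hu), ?_⟩
    · rw [h, map_zero] at h4
      exact zero_ne_one (α := Matrix F9 F9 F) (by
        rw [← map_one (clM _), ← mul_inv_cancel (u⁻¹ * g), map_mul, h4, zero_mul])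
    · have h6 : clM _ g = clM _ u * clM _ (u⁻¹ * g) := by rw [← map_mul, mul_inv_cancel_left]
      generalize clM _ (u⁻¹ * g) 0 0 = c at h4
      rw [h6, h4, ← mulVec_mulVec, sc_mulVec h2 hω, mulVec_smul, d1]
      rfl
  · rcases (M.mem_S_lor _ _ _).1 (M.mem_S_full k4 v) with h | h <;> rcases (M.mem_S_lor _ _ _).1 h with h | h
    · have := (n1 1 (by decide) v h).trans (nrm_toV h2 hω 1 {0} (by decide))
      rw [hv] at this
      simp at this
    · have := (n1 _ (by decide) v h).trans (nrm_toV h2 hω 4161 {0, (1, 0), (2, 0)} (by decide))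
      rw [hv, show ({0, (1, 0), (2, 0)} : Finset F9).card = 3 by decide] at this
      exact absurd (show (1 : F) = 0 by push_cast at this; linear_combination -this - h2) one_ne_zero
    · exact let ⟨g, _, e⟩ := M.orb_sound_bit _ _ (by decide) h; ⟨g, e⟩
    · exact absurd (((M.mem_S_bit (by decide)).1 h).trans ((hd 0).trans
        ((toV_eq h2 hω 0 (fun _ => 0) (by decide)).trans (funext fun _ => v0)))) v0'

end

/-- Orbits of the triple cover of the third Janko group on lines of its 9-space over the field with 4 elements: the line through the first basis vector has exactly 23256 images, and the isotropic lines (nonzero v with Σ v_z³ = 0) form a single orbit. -/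
theorem result (F : Type) [Field F] [Fintype F] (hF : Fintype.card F = 4) (ω : F) (hω : ω ^ 2 + ω + 1 = 0) : {L : Submodule F (Cfsg.Spor.F9 → F) | ∃ g ∈ Cfsg.Spor.threeJ3 F ω, L = F ∙ ((g : Matrix Cfsg.Spor.F9 Cfsg.Spor.F9 F) *ᵥ (Pi.single (0 : Cfsg.Spor.F9) (1 : F) : Cfsg.Spor.F9 → F))}.ncard = 23256 ∧ ∀ v w : Cfsg.Spor.F9 → F, v ≠ 0 → w ≠ 0 → ∑ z, (v z) ^ 3 = 0 → ∑ z, (w z) ^ 3 = 0 → ∃ g ∈ Cfsg.Spor.threeJ3 F ω, ∃ c : F, c ≠ 0 ∧ (g : Matrix Cfsg.Spor.F9 Cfsg.Spor.F9 F) *ᵥ v = c • w := by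
  classical
  have h2 := (exists_w4 hF).1
  obtain ⟨O, u, c1, hz, a1, a2, a3⟩ := main h2 hω hF
  constructor
  · have := Fintype.ofFinite O
    have e : {L : Submodule F (F9 → F) | ∃ g ∈ threeJ3 F ω, L = F ∙ ((g : Matrix F9 F9 F) *ᵥ (Pi.single (0 : F9) (1 : F) : F9 → F))} =
        (fun y => F ∙ y) '' O := by
      ext L
      constructor
      · rintro ⟨g, hg, rfl⟩
        obtain ⟨c, hc, y, hy, e⟩ := a2 ⟨g, hg⟩
        exact ⟨y, hy, (Submodule.span_singleton_smul_eq hc.isUnit y).symm.trans (by rw [← e]; rfl)⟩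
      · rintro ⟨y, hy, rfl⟩
        obtain ⟨g, rfl⟩ := a1 y hy
        exact ⟨g, g.2, rfl⟩
    have f : ∀ L ∈ O.toFinset.image (fun y => F ∙ y), (O.toFinset.filter fun y => (F ∙ y) = L).card = 3 := fun L hL => by
      obtain ⟨y, hy, rfl⟩ := Finset.mem_image.1 hL
      rw [Set.mem_toFinset] at hy
      have y0 : y ≠ 0 := fun h => by
        obtain ⟨g, e⟩ := a1 y hy
        have := nrm_inv h2 hω g (Pi.single 0 1)
        rw [e, h] at this
        simp [Pi.single_apply] at this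
      have : (O.toFinset.filter fun x => (F ∙ x) = F ∙ y) = (Finset.univ.erase (0 : F)).image fun c => c • y := by
        ext x
        simp only [Finset.mem_filter, Set.mem_toFinset, Finset.mem_image, Finset.mem_erase, Finset.mem_univ, and_true]
        constructor
        · rintro ⟨-, h⟩
          obtain ⟨c, hc⟩ := Submodule.span_singleton_eq_span_singleton.1 h.symm
          exact ⟨c, c.ne_zero, hc⟩
        · rintro ⟨c, hc, rfl⟩
          refine ⟨?_, Submodule.span_singleton_smul_eq hc.isUnit _⟩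
          have h3 := FiniteField.pow_card_sub_one_eq_one c hc
          rw [hF] at h3
          have h4 : (c - 1) * ((c - ω) * (c - ω * ω)) = 0 := by
            linear_combination h3 + (-c ^ 2 + c * ω + (1 - ω)) * hω
          rcases mul_eq_zero.1 h4 with h | h
          · rw [sub_eq_zero.1 h, one_smul]; exact hy
          rcases mul_eq_zero.1 h with h | h
          · rw [sub_eq_zero.1 h]; exact hz y hy
          · rw [sub_eq_zero.1 h, mul_smul]; exact hz _ (hz y hy)
      rw [this, Finset.card_image_of_injective _ (smul_left_injective F y0), Finset.card_erase_of_mem (Finset.mem_univ _),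
        Finset.card_univ, hF]
    have f1 := Finset.card_le_mul_card_image _ 3 fun L hL => (f L hL).le
    have f2 := Finset.mul_card_image_le_card _ 3 fun L hL => (f L hL).ge
    rw [← Set.ncard_eq_toFinset_card', c1, ← Set.ncard_coe_finset, Finset.coe_image, Set.coe_toFinset, ← e] at f1 f2
    omega
  · intro v w hv hw h3 h4
    obtain ⟨a, rfl⟩ := a3 v hv h3
    obtain ⟨b, rfl⟩ := a3 w hw h4
    refine ⟨(b * a⁻¹ : threeJ3 F ω), (b * a⁻¹).2, 1, one_ne_zero, ?_⟩
    rw [one_smul, mulVec_mulVec]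
    show (clM _ (b * a⁻¹) * _) *ᵥ u = _
    rw [← map_mul, inv_mul_cancel_right]

end Cfsg.Agent.S1626
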