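import Cfsg.Statements.S1631
import Cfsg.Agent.H28.TV
import Cfsg.Agent.S0780

set_option autoImplicit false
open scoped MatrixGroups
open Cfsg

namespace Cfsg.Agent.S1631
open H28
open H11 H11.PForm H28.TV


/-- The unitary transvections of SU(n, 2), n ≥ 4, form a generating conjugacy class of 3-transpositions. -/
theorem result (F : Type) [Field F] [Fintype F] [DecidableEq F] (hF : Fintype.card F = 4) (n : ℕ) (hn : 4 ≤ n) : Cfsg.IsThreeTranspositionClass {g : ↥(Cfsg.SU n F 2) | (((g : Matrix.SpecialLinearGroup (Fin n) F) : Matrix (Fin n) (Fin n) F) - 1).rank = 1} := by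
  have hF' : Fintype.card F = 2 ^ 2 := hF
  obtain ⟨σ, hq, hσ, hne⟩ := exists_frob hF'
  have hS := stdUnit_nondeg hσ hne (Fin n)
  have h2 : (2 : F) = 0 := by
    have := FiniteField.cast_card_eq_zero F
    rw [hF', Nat.cast_pow] at this
    exact_mod_cast pow_eq_zero_iff two_ne_zero |>.1 this
  have hN : ∀ c, c ≠ 0 → σ c * c = 1 := fun c hc => by
    rw [hq, ← pow_succ]; simpa [hF] using FiniteField.pow_card_sub_one_eq_one c hc
  have k : ∀ g : SU n F 2, (((g : Matrix.SpecialLinearGroup (Fin n) F) : Matrix (Fin n) (Fin n) F) - 1).rank = 1 ↔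
      ∃ d ≠ 0, (stdUnit hσ hne (Fin n)).QCond d 1 ∧ (suEquiv hσ hne hq n g).1 = (stdUnit hσ hne (Fin n)).qrefl d 1 :=
    fun g => (rank_one hS (suEquiv_apply hσ hne hq n g)).trans (exists_congr fun d =>
      ⟨fun ⟨b, h, c, e⟩ => ⟨h, by
        have := det_qrefl c
        rw [← e, MonoidHom.mem_ker.1 (suEquiv hσ hne hq n g).2, unitP_ε, one_mul, hq, Units.val_one,
          eq_div_iff c.ne] at this
        obtain rfl : b = 1 := mul_left_cancel₀ c.ne (by linear_combination (b ^ 2) * h2 - this)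
        exact ⟨c, e⟩⟩, fun ⟨h, c⟩ => ⟨1, h, c⟩⟩)
  have s : ∀ d, (stdUnit hσ hne (Fin n)).QCond d 1 ↔ (stdUnit hσ hne (Fin n)).Sing d := fun d => by
    have : (1 : F) ∈ (unitP σ hσ).Λ := by rw [mem_unitP_Λ, map_one, one_add_one_eq_two, h2]
    exact ⟨fun h => by simpa [Sing] using sub_mem this h.q, fun h => ⟨one_ne_zero, sub_mem this h⟩⟩
  obtain ⟨e, f, H⟩ := hS.unit_exists_hyp hne (by simp; omega)
  refine three hS rfl h2 hN ((Subgroup.subtype _).comp (suEquiv hσ hne hq n).toMonoidHom)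
    (Subtype.val_injective.comp (suEquiv hσ hne hq n).injective) k ?_ (fun d h0 e h0' h h' => ?_) ?_
  · have c := (s e).2 H.sing_e
    refine ⟨(suEquiv hσ hne hq n).symm ⟨_, (qrefl_eq_eich c H.sing_e).2 ▸ eich_mem_SIsom ..⟩, (k _).2 ⟨e, fun z => by simpa [z] using H.h_ef, c, ?_⟩⟩
    rw [MulEquiv.apply_symm_apply]
  · obtain ⟨g, hg, c, hc, e⟩ := hS.exists_E_move (unit_rich hne _ 3) ((s _).1 h) h0 ((s _).1 h') h0'
    exact ⟨(suEquiv hσ hne hq n).symm ⟨g, H.unit_SIsom_eq_E hne hS ▸ hg⟩, c, hc, by simpa using e⟩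
  rw [eq_top_iff, ← S0780.result hF' n (by omega) (by omega), Subgroup.closure_le]
  rintro g ⟨v, c, -, e⟩
  have : (((g : Matrix.SpecialLinearGroup (Fin n) F) : Matrix (Fin n) (Fin n) F) - 1).rank ≤ 1 := by
    rw [e, unitaryTransvection, add_sub_cancel_left, ← Matrix.smul_vecMulVec]
    exact Matrix.rank_vecMulVec_le _ _
  rcases Nat.le_one_iff_eq_zero_or_eq_one.1 this with h | h
  · rw [Matrix.rank, Submodule.finrank_eq_zero, LinearMap.range_eq_bot] at h
    obtain rfl : g = 1 := Subtype.ext (Subtype.ext (sub_eq_zero.1 (Matrix.toLin'.map_eq_zero_iff.1 h)))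
    exact one_mem _
  exact Subgroup.subset_closure h

end Cfsg.Agent.S1631
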