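import Cfsg.Statements.S1632
import Cfsg.Agent.H26.Th2

set_option autoImplicit false
open Matrix
open Cfsg

namespace Cfsg.Agent.S1632


/-- An even unimodular lattice of rank 24 without roots has 196560, 16773120 and 398034000 vectors of norms 4, 6 and 8. -/
theorem result (B : Matrix (Fin 24) (Fin 24) ℤ) (hsymm : B.IsSymm) (hpos : ∀ x : Fin 24 → ℤ, x ≠ 0 → 0 < x ⬝ᵥ (B *ᵥ x)) (heven : ∀ x : Fin 24 → ℤ, (2 : ℤ) ∣ x ⬝ᵥ (B *ᵥ x)) (hdet : B.det = 1) (h2 : ∀ x : Fin 24 → ℤ, x ⬝ᵥ (B *ᵥ x) ≠ 2) : {x : Fin 24 → ℤ | x ⬝ᵥ (B *ᵥ x) = 4}.ncard = 196560 ∧ {x : Fin 24 → ℤ | x ⬝ᵥ (B *ᵥ x) = 6}.ncard = 16773120 ∧ {x : Fin 24 → ℤ | x ⬝ᵥ (B *ᵥ x) = 8}.ncard = 398034000 := by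
  obtain ⟨f, h⟩ := H326.Th.exists_theta B hsymm hpos heven hdet
  obtain ⟨h1, h2, h3⟩ := H326.Th.coeffs f (by
    rw [h, show {x : Fin 24 → ℤ | x ⬝ᵥ (B *ᵥ x) = 2 * (0 : ℕ)} = {0} from Set.ext fun x =>
      ⟨fun e => by_contra fun c => (hpos x c).ne' (by simpa using e), by rintro rfl; simp⟩]
    simp) (by
    rw [h, show {x : Fin 24 → ℤ | x ⬝ᵥ (B *ᵥ x) = 2 * (1 : ℕ)} = ∅ from Set.eq_empty_of_forall_notMem h2]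
    simp)
  rw [h] at h1 h2 h3
  exact ⟨by exact_mod_cast h1, by exact_mod_cast h2, by exact_mod_cast h3⟩

end Cfsg.Agent.S1632
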