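import Cfsg.Statements.S1633
import Cfsg.Agent.H14.LeeO
import Cfsg.Agent.H14.SiU35

set_option autoImplicit false
open Cfsg

namespace Cfsg.Agent.S1633

open H14 L

/-- The Higman–Sims group acts transitively on 352 vectors, a set closed under x ↦ −w − x, with vector stabiliser isomorphic to PSU(3, 5). -/
theorem result (v w : ↥Cfsg.leechLattice) (hv : Cfsg.sqNorm (v : Cfsg.GolayPt → ℤ) = 48) (hw : Cfsg.sqNorm (w : Cfsg.GolayPt → ℤ) = 48) (hvw : Cfsg.dotInt (v : Cfsg.GolayPt → ℤ) (w : Cfsg.GolayPt → ℤ) = -32) (F : Type) [Field F] [Fintype F] (hF : Fintype.card F = 25) : {x : ↥Cfsg.leechLattice | Cfsg.sqNorm (x : Cfsg.GolayPt → ℤ) = 32 ∧ Cfsg.dotInt (v : Cfsg.GolayPt → ℤ) (x : Cfsg.GolayPt → ℤ) = 16 ∧ Cfsg.dotInt (w : Cfsg.GolayPt → ℤ) (x : Cfsg.GolayPt → ℤ) = -24}.ncard = 352 ∧ (∀ x ∈ {x : ↥Cfsg.leechLattice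 | Cfsg.sqNorm (x : Cfsg.GolayPt → ℤ) = 32 ∧ Cfsg.dotInt (v : Cfsg.GolayPt → ℤ) (x : Cfsg.GolayPt → ℤ) = 16 ∧ Cfsg.dotInt (w : Cfsg.GolayPt → ℤ) (x : Cfsg.GolayPt → ℤ) = -24}, -w - x ∈ {x : ↥Cfsg.leechLattice | Cfsg.sqNorm (x : Cfsg.GolayPt → ℤ) = 32 ∧ Cfsg.dotInt (v : Cfsg.GolayPt → ℤ) (x : Cfsg.GolayPt → ℤ) = 16 ∧ Cfsg.dotInt (w : Cfsg.GolayPt → ℤ) (x : Cfsg.GolayPt → ℤ) = -24}) ∧ (∀ x ∈ {x : ↥Cfsg.leechLattice | Cfsg.sqNorm (x : Cfsg.GolayPt → ℤ) = 32 ∧ Cfsg.dotInt (v : Cfsg.GolayPt → ℤ) (x : Cfsg.GolayPt → ℤ) = 16 ∧ Cfsg.dotInt (w : Cfsg.GolayPt → ℤ) (x : Cfsg.GolayPt → ℤ) = -24}, ∀ x' ∈ {x : ↥Cfsg.leechLattice | Cfsg.sqNorm (x : Cfsg.GolayPt → ℤ) = 32 ∧ Cfsg.dotInt (v : Cfsg.GolayPt → ℤ) (x : Cfsg.GolayPt → ℤ) = 16 ∧ Cfsg.dotInt (w : Cfsg.GolayPt → ℤ) (x : Cfsg.GolayPt → ℤ) = -24}, ∃ g : ↥Cfsg.Co0,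 g • v = v ∧ g • w = w ∧ g • x = x') ∧ ∀ x ∈ {x : ↥Cfsg.leechLattice | Cfsg.sqNorm (x : Cfsg.GolayPt → ℤ) = 32 ∧ Cfsg.dotInt (v : Cfsg.GolayPt → ℤ) (x : Cfsg.GolayPt → ℤ) = 16 ∧ Cfsg.dotInt (w : Cfsg.GolayPt → ℤ) (x : Cfsg.GolayPt → ℤ) = -24}, Nonempty (↥(MulAction.stabilizer ↥Cfsg.Co0 v ⊓ MulAction.stabilizer ↥Cfsg.Co0 w ⊓ MulAction.stabilizer ↥Cfsg.Co0 x) ≃* Cfsg.PSU 3 F 5) := by
  obtain ⟨g, h1, h2⟩ := rk_hs hv hw hvw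
  have s : ∀ x : Λ, ∃ y, g • y = x := fun x => ⟨_, smul_inv_smul g x⟩
  have h3 := h2 16 (-24)
  have hc := (ncard_tr g h3).trans ncard_TT
  have ht : ∀ x ∈ _, ∀ y ∈ _, ∃ a ∈ MulAction.stabilizer Co0 v ⊓ MulAction.stabilizer Co0 w, a • x = y :=
    fun x hx y hy => by
      obtain ⟨x, rfl⟩ := s x
      obtain ⟨y, rfl⟩ := s y
      obtain ⟨a, ha, rfl⟩ := rk_TT x ((h3 x).1 hx) y ((h3 y).1 hy)
      exact ⟨_, (h1 a).2 ha, by simp [mul_smul]⟩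
  refine ⟨hc, fun x hx => ?_, fun x hx y hy => (ht x hx y hy).imp fun _ e => ⟨e.1.1, e.1.2, e.2⟩,
    fun x hx => ?_⟩
  · obtain ⟨a, b, c⟩ := hx
    simp only [Set.mem_setOf_eq, AddSubgroup.coe_sub, AddSubgroup.coe_neg, sqNorm_sub, sqNorm_neg, dot_sub,
      dot_neg, neg_dot, dot_self]
    omega
  obtain ⟨M, -⟩ := ex_PT
  obtain ⟨S⟩ := H15.StdU35.std hF
  refine iso_stab M (SiU35.iso M card_CH (Pres.of fun _ _ y hy => H15.StdU35.hom S y hy) S.card) h1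
    (rk_TT _ (M.dec 0).2 _ ((h3 _).1 (by rwa [smul_inv_smul]))) ?_
  have k := card_inf_stabilizer_mul (MulAction.stabilizer Co0 v ⊓ MulAction.stabilizer Co0 w) x
  have e : {y | ∃ a ∈ MulAction.stabilizer Co0 v ⊓ MulAction.stabilizer Co0 w, a • x = y}.ncard = 352 := by
    refine Eq.trans (congrArg Set.ncard (Set.ext fun y => ⟨?_, ht x hx y⟩)) hc
    rintro ⟨a, ha, rfl⟩
    exact ⟨(sqNorm_smul a x).trans hx.1, (dot_smul_of_fix ha.1 x).trans hx.2.1,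
      (dot_smul_of_fix ha.2 x).trans hx.2.2⟩
  rw [← Nat.card_congr (conjEquiv g h1).toEquiv, card_CH, e] at k
  omega

end Cfsg.Agent.S1633
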