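import Cfsg.Statements.S1635
import Cfsg.Agent.H28.Go

set_option autoImplicit false
open Cfsg

namespace Cfsg.Agent.S1635
open H28
open H14


/-- Coset leaders of the length-24 code: a coset contains a unique word of weight ≤ 3, or else exactly six words of weight 4 and none lighter. -/
theorem result (w : Cfsg.GolayPt → ZMod 2) : ({v : Cfsg.GolayPt → ZMod 2 | hammingNorm v ≤ 4 ∧ w - v ∈ Cfsg.golayCode}.ncard = 1 ∧ ∃ v : Cfsg.GolayPt → ZMod 2, hammingNorm v ≤ 3 ∧ w - v ∈ Cfsg.golayCode) ∨ ({v : Cfsg.GolayPt → ZMod 2 | hammingNorm v ≤ 4 ∧ w - v ∈ Cfsg.golayCode}.ncard = 6 ∧ ∀ v : Cfsg.GolayPt → ZMod 2, w - v ∈ Cfsg.golayCode → hammingNorm v ≤ 4 → hammingNorm v = 4) := by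
  have e : {v : GolayPt → ZMod 2 | hammingNorm v ≤ 4 ∧ w - v ∈ golayCode}.ncard =
      {u | u.card ≤ 4 ∧ symmDiff (support₂ w) u ∈ GC}.ncard := by
    rw [← Set.ncard_preimage_of_injective_subset_range support₂_inj fun u _ => support₂_surj u]
    simp only [sub_mem_golay, hn_eq, Set.preimage_ofPred_eq]
  rw [e]
  simp only [sub_mem_golay, hn_eq]
  refine (short_sets (support₂ w)).imp (fun ⟨t, h1, h2⟩ => ⟨by simp [h1], indW t, ?_⟩) fun h => ⟨h.1, fun _ => h.2 _⟩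
  rw [support_indW]
  exact ⟨h2, (h1.ge rfl).2⟩

end Cfsg.Agent.S1635
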