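import Cfsg.Statements.S1637
import Cfsg.Agent.H28.Go

set_option autoImplicit false
open Cfsg

namespace Cfsg.Agent.S1637
open H28
open H14 Finset


/-- The punctured length-23 code is a perfect 3-error-correcting code: each word of length 23 is within distance 3 of exactly one codeword. -/
theorem result (u : ZMod 23 → ZMod 2) : ∃! c : ZMod 23 → ZMod 2, c ∈ {u : ZMod 23 → ZMod 2 | ∃ w ∈ Cfsg.golayCode, ∀ x : ZMod 23, u x = w (some x)} ∧ hammingDist u c ≤ 3 := by
  simp only [mem_pun, Set.mem_ofPred_eq]
  obtain ⟨s, h, rfl⟩ : ∃ s : Finset GolayPt, Odd s.card ∧ pun s = u := by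
    have k : ∀ s : Finset GolayPt, (∀ x, some x ∈ s ↔ u x ≠ 0) → pun s = u := fun s h => funext fun x => by
      rcases zmod2_cases (u x) with q | q <;> simp [pun, indW, h, q]
    rcases Nat.even_or_odd (support₂ u).card with h | h
    · exact ⟨insertNone (support₂ u), by simpa using h.add_one, k _ (by simp [mem_support₂])⟩
    · exact ⟨(support₂ u).map Function.Embedding.some, by simpa using h, k _ (by simp [mem_support₂])⟩
  obtain ⟨c, hc, h4⟩ := exists_leader s
  have h3 : hammingDist (pun s) (pun c) ≤ 3 := by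
    rw [hammingDist_comm, hammingDist_eq_hammingNorm, neg_add_eq_sub, pun_sub, norm_pun]
    have := card_symmDiff_add s c
    have := card_mem_GC hc
    have := card_erase_le (s := symmDiff s c) (a := none)
    obtain ⟨k, h⟩ := h
    omega
  refine ⟨pun c, ⟨⟨c, hc, rfl⟩, h3⟩, ?_⟩
  rintro _ ⟨⟨t, ht, rfl⟩, h5⟩
  have := hammingDist_triangle_left (pun t) (pun c) (pun s)
  exact congrArg pun (pun_eq ht hc (by rw [← neg_add_eq_sub, ← hammingDist_eq_hammingNorm, hammingDist_comm]; omega))

end Cfsg.Agent.S1637
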