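import Cfsg.Statements.S1638
import Cfsg.Agent.H28.GE

set_option autoImplicit false
open scoped Pointwise
open Cfsg

namespace Cfsg.Agent.S1638
open H28
open H14 Finset MulAction

/-- an octad contains all members of the list -/
def Oc (Y : List (Finset GolayPt)) : Prop := ∃ o ∈ octads, ∀ y ∈ Y, y ⊆ o

theorem oc_iff (g : M24) (m : ℕ) (hm : m < 2 ^ 24) : Oc (([m, 6, 0x800000, 1].map bset).map (g • ·)) ↔
    [0xa800c7, 0x908607, 0x82402f, 0xc12017, 0x841907].any (subs m) = true := by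
  refine ⟨fun ⟨o, ho, h⟩ => ?_, fun h => ?_⟩
  · obtain ⟨o, rfl⟩ := MulAction.surjective g o
    obtain ⟨o, h1, rfl⟩ := mem_GC.1 ((smul_GC_iff g).1 ho.1)
    have := forall_CW (f := fun o => !(Nat.beq (p24 o) 8 && (subs 6 o && (subs 0x800000 o && subs 1 o))) ||
      [0xa800c7, 0x908607, 0x82402f, 0xc12017, 0x841907].any (Nat.beq o)) (by decide +kernel) h1
    simp only [List.map, List.forall_mem_cons, smul_finset_subset_smul_finset_iff] at h
    rw [(card_bset_eq_iff _ _).1 ((card_smul_finset _ _).symm.trans ho.2), (bset_subset_iff (by decide)).1 h.2.1,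
      (bset_subset_iff (by decide)).1 h.2.2.1, (bset_subset_iff (by decide)).1 h.2.2.2.1] at this
    exact List.any_eq_true.2 ⟨o, by simpa using this, (bset_subset_iff hm).1 h.1⟩
  obtain ⟨o, h1, h2⟩ := List.any_eq_true.1 h
  have : oct o = true ∧ subs 6 o = true ∧ subs 0x800000 o = true ∧ subs 1 o = true := by
    clear h2; revert o; decide +kernel
  exact ⟨g • bset o, smul_mem_octads g (bset_mem_octads this.1), by
    simp [bset_subset h2, bset_subset this.2.1, bset_subset this.2.2.1, bset_subset this.2.2.2]⟩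



/-- Fix two points p ≠ q and a pair s of two further points. Among the pairs avoiding p, q and disjoint from s, exactly 30 lie in an octad together with p, q and s and exactly 160 do not; and any two pairs other than s that meet s in equally many points and agree on that octad property are carried to one another by an element of the group of the length-24 code fixing p, q and s. -/
theorem result (p q : Cfsg.GolayPt) (hpq : p ≠ q) (s : Finset Cfsg.GolayPt) (hs : (s.card = 2 ∧ p ∉ s ∧ q ∉ s)) : {t : Finset Cfsg.GolayPt | (t.card = 2 ∧ p ∉ t ∧ q ∉ t) ∧ Disjoint s t ∧ (∃ o ∈ Cfsg.octads, p ∈ o ∧ q ∈ o ∧ s ∪ t ⊆ o)}.ncard = 30 ∧ {t : Finset Cfsg.GolayPt | (t.card = 2 ∧ p ∉ t ∧ q ∉ t) ∧ Disjoint s t ∧ ¬ (∃ o ∈ Cfsg.octads, p ∈ o ∧ q ∈ o ∧ s ∪ t ⊆ o)}.ncard = 160 ∧ ∀ t t' : Finset Cfsg.GolayPt, (t.card = 2 ∧ p ∉ t ∧ q ∉ t) → (t'.card = 2 ∧ p ∉ t' ∧ q ∉ t') → t ≠ s → t' ≠ s → (s ∩ t).card = (s ∩ t').card → ((∃ o ∈ Cfsg.octads,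 p ∈ o ∧ q ∈ o ∧ s ∪ t ⊆ o) ↔ (∃ o ∈ Cfsg.octads, p ∈ o ∧ q ∈ o ∧ s ∪ t' ⊆ o)) → ∃ g : Equiv.Perm Cfsg.GolayPt, g ∈ Cfsg.M24 ∧ g p = p ∧ g q = q ∧ g • s = s ∧ g • t = t' := by
  have C := (Cfg.two hpq).sstep1 cs1 hs.1 (by simp [sgS, hs])
  have o : ∀ t, (∃ o ∈ octads, p ∈ o ∧ q ∈ o ∧ s ∪ t ⊆ o) ↔ Oc [t, s, {p}, {q}] := fun t => by
    simp [Oc, union_subset_iff]; grind
  have a : ∀ t, (t.card = 2 ∧ p ∉ t ∧ q ∉ t) ∧ Disjoint s t ↔ t.card = 2 ∧ sgS [s, {p}, {q}] t = [2, 0, 0, 0] := fun t => by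
    simp [sgS, card_single, disjoint_iff_inter_eq_empty]; tauto
  refine and_assoc.1 ⟨?_, fun t t' ht ht' _ _ e i => ?_⟩
  · simp only [o]
    simp only [← and_assoc (c := Oc _), ← and_assoc (c := ¬ Oc _), a]
    simp only [and_assoc]
    obtain ⟨g, C⟩ := C
    have k : ∀ m < 2 ^ 24, (Oc [g • bset m, s, {p}, {q}] ↔
        [0xa800c7, 0x908607, 0x82402f, 0xc12017, 0x841907].any (subs m) = true) ∧
        sgS [s, {p}, {q}] (g • bset m) = sgN [6, 0x800000, 1] m := fun m hm =>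
      ⟨by rw [← C]; exact oc_iff g m hm, by rw [← C]; exact sg_smul g _ m⟩
    refine ⟨?_, ?_⟩ <;> rw [← ncard_smul g] <;> simp only [card_smul_finset]
    · exact (oDu.ncard_sel (g := fun i => (fun m => sgN [6, 0x800000, 1] m == [2, 0, 0, 0] &&
        [0xa800c7, 0x908607, 0x82402f, 0xc12017, 0x841907].any (subs m)) (cm 24 276 ODu.A i)) fun i _ => by
          rw [fDu, col_eq, (k _ (cm_lt ..)).1, (k _ (cm_lt ..)).2, Bool.and_eq_true, beq_iff_eq]).trans (by decide +kernel)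
    · exact (oDu.ncard_sel (g := fun i => (fun m => sgN [6, 0x800000, 1] m == [2, 0, 0, 0] &&
        !([0xa800c7, 0x908607, 0x82402f, 0xc12017, 0x841907].any (subs m))) (cm 24 276 ODu.A i)) fun i _ => by
          rw [fDu, col_eq, (k _ (cm_lt ..)).1, (k _ (cm_lt ..)).2, Bool.and_eq_true, beq_iff_eq, Bool.not_eq_true',
            Bool.not_eq_true]).trans (by decide +kernel)
  obtain ⟨r, h1, h2⟩ := C.sstep cs2 ht.1 (by simp [sgS, ht])
  obtain ⟨r', h3, h4⟩ := C.sstep cs2 ht'.1 (by simp [sgS, ht'])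
  have e1 : sgN _ r = sgN _ r' := h2.sg.trans ((by simp [sgS, ht, ht', e] : _ = _).trans h4.sg.symm)
  have l : ∀ r ∈ [0x6, 0xa, 0x18, 0x28], r < 2 ^ 24 := by decide
  rw [o, o, ← h2.choose_spec, ← h4.choose_spec, oc_iff _ _ (l _ h1), oc_iff _ _ (l _ h3)] at i
  obtain rfl : r = r' := (by decide +kernel : ∀ r ∈ [0x6, 0xa, 0x18, 0x28], ∀ r' ∈ [0x6, 0xa, 0x18, 0x28],
    sgN [6, 0x800000, 1] r = sgN [6, 0x800000, 1] r' →
    ([0xa800c7, 0x908607, 0x82402f, 0xc12017, 0x841907].any (subs r) = true ↔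
      [0xa800c7, 0x908607, 0x82402f, 0xc12017, 0x841907].any (subs r') = true) → r = r') r h1 r' h3 e1 i
  obtain ⟨k, h⟩ := h2.trans h4
  simp only [List.map, List.cons.injEq, Finset.smul_finset_singleton, Finset.singleton_inj] at h
  exact ⟨k, k.2, h.2.2.1, h.2.2.2.1, h.2.1, h.1⟩

end Cfsg.Agent.S1638
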