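import Cfsg.Statements.S1639
import Cfsg.Agent.H28.GD

set_option autoImplicit false
open scoped Pointwise
open Cfsg

namespace Cfsg.Agent.S1639
open H28
open H14


/-- The point stabiliser acts on the 1288 dodecads through the point with rank 4 and subdegrees 1, 165, 330, 792, distinguished by intersection 4, 8, 6 with the fixed dodecad. -/
theorem result (x : Cfsg.GolayPt) (d : Finset Cfsg.GolayPt) (hd : d ∈ Cfsg.dodecads) (hx : x ∈ d) : {d' : Finset Cfsg.GolayPt | d' ∈ Cfsg.dodecads ∧ x ∈ d' ∧ (d ∩ d').card = 4}.ncard = 165 ∧ {d' : Finset Cfsg.GolayPt | d' ∈ Cfsg.dodecads ∧ x ∈ d' ∧ (d ∩ d').card = 8}.ncard = 330 ∧ {d' : Finset Cfsg.GolayPt | d' ∈ Cfsg.dodecads ∧ x ∈ d' ∧ (d ∩ d').card = 6}.ncard = 792 ∧ ∀ d' d'' : Finset Cfsg.GolayPt, d' ∈ Cfsg.dodecads → d'' ∈ Cfsg.dodecads → x ∈ d' → x ∈ d'' → (d ∩ d').card = (d ∩ d'').card → ∃ g : Equiv.Perm Cfsg.GolayPt, g ∈ Cfsg.M24 ∧ g x = x ∧ g • d = d ∧ g • d' =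 d'' := by
  have C := (Cfg.one x).step1 ce0 hd.1 (by simp [sgS, hd.2, hx])
  refine ⟨(C.cnt [12, 4, 1] fun s => ?_).trans (by decide +kernel), (C.cnt [12, 8, 1] fun s => ?_).trans (by decide +kernel),
    (C.cnt [12, 6, 1] fun s => ?_).trans (by decide +kernel), fun s t hs ht h1 h2 e => ?_⟩
  · simp [sgS, mem_dodecads, card_single]; tauto
  · simp [sgS, mem_dodecads, card_single]; tauto
  · simp [sgS, mem_dodecads, card_single]; tauto
  obtain ⟨k, h⟩ := C.conn ce1 hs.1 ht.1 (by simp [sgS, hs.2, h1]) (by simp [sgS, hs.2, ht.2, h1, h2, e])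
  simp only [List.map, List.cons.injEq, Finset.smul_finset_singleton, Finset.singleton_inj] at h
  exact ⟨k, k.2, h.2.2.1, h.2.1, h.1⟩

end Cfsg.Agent.S1639
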