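import Cfsg.Statements.S1640
import Cfsg.Agent.H14.Conway2

set_option autoImplicit false
open Cfsg

namespace Cfsg.Agent.S1640

/-- The stabiliser of a vector of customary norm 6 is transitive on the 11178 minimal vectors of customary inner product −2 with it. -/
theorem result (u : ↥Cfsg.leechLattice) (hu : Cfsg.sqNorm (u : Cfsg.GolayPt → ℤ) = 48) : {x : ↥Cfsg.leechLattice | Cfsg.sqNorm (x : Cfsg.GolayPt → ℤ) = 32 ∧ Cfsg.dotInt (u : Cfsg.GolayPt → ℤ) (x : Cfsg.GolayPt → ℤ) = -16}.ncard = 11178 ∧ ∀ x ∈ {x : ↥Cfsg.leechLattice | Cfsg.sqNorm (x : Cfsg.GolayPt → ℤ) = 32 ∧ Cfsg.dotInt (u : Cfsg.GolayPt → ℤ) (x : Cfsg.GolayPt → ℤ) = -16}, ∀ x' ∈ {x : ↥Cfsg.leechLattice | Cfsg.sqNorm (x : Cfsg.GolayPt → ℤ) = 32 ∧ Cfsg.dotInt (u : Cfsg.GolayPt → ℤ) (x : Cfsg.GolayPt → ℤ) = -16}, ∃ g : ↥Cfsg.Co0, g • u = u ∧ g • x = x' := by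
  open H14 in
  refine ⟨?_, fun x hx y hy => ?_⟩
  · obtain ⟨g, rfl⟩ := H14.std48 hu
    rw [← H14.ncard_T3h, ← Set.ncard_image_of_injective (H14.T3h : Set H14.Λ) (MulAction.injective g)]
    congr 1
    ext x
    obtain ⟨x, rfl⟩ := H14.smul_surj g x
    rw [(MulAction.injective g).mem_set_image, Set.mem_ofPred_eq, H14.sqNorm_smul, H14.dot_smul]
    rfl
  · obtain ⟨a, h1, rfl⟩ := H14.std16 hu hx.1 hx.2
    obtain ⟨b, h2, rfl⟩ := H14.std16 hu hy.1 hy.2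
    exact ⟨b * a⁻¹, by rw [mul_smul, inv_smul_eq_iff.2 h1.symm, h2], by rw [mul_smul, inv_smul_smul]⟩

end Cfsg.Agent.S1640
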