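import Cfsg.Statements.S1643
import Cfsg.Agent.H16.M23k

set_option autoImplicit false
open scoped Pointwise
open Cfsg

namespace Cfsg.Agent.S1643

open H14 H16.MX MulAction
set_option maxRecDepth 100000

noncomputable abbrev L : Subgroup M24 := sub M0.gen [[0], [15, 17, 4, 9, 11], [2]]

theorem L_ne : L ≠ ⊤ := fun h => by
  obtain ⟨g, e⟩ := oSx.trans (oSx.mem (i := 0) (by norm_num)) (oSx.mem (i := 3) (by norm_num))
  have := oSx.orbit_eq (ws := [[0], [15, 17, 4, 9, 11], [2]]) (s := 0) (b := orbRun OSx.nets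
    [[0], [15, 17, 4, 9, 11], [2]] [[0], [4], [0], [0, 0], [4], [0], [0, 0], [4], [0], [0, 0], [4], [0], [0], [4], [0], [0]]
    (bit 0)) (sc := [[0], [4], [0], [0, 0], [4], [0], [0, 0], [4], [0], [0, 0], [4], [0], [0], [4], [0], [0]])
    (by decide +kernel)
  have h2 := (oSx.mem_VS (by norm_num)).1 (this.le (mem_orbit_sub.2 ⟨g, h.ge trivial, e⟩))
  exact absurd h2 (by decide +kernel)

theorem NL : N253 ≤ L := sub_mono _ (by decide)

theorem L_cases {K : Subgroup M24} (h : L ≤ K) : Nat.card K = 6072 ∨ K = ⊤ := by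
  have h1 := card_orb K (none : GolayPt)
  have h2 : orb K (none : GolayPt) = Set.univ := Set.eq_univ_of_forall fun x => by
    obtain ⟨g, hg, e⟩ := M0.orb_sound_bit [[0], [15, 17, 4, 9, 11], [2]]
      [[4], [0], [0, 0], [4], [0], [1, 1], [4], [0]] (b := 23) (by norm_num)
      (M0.S_mono (by decide +kernel) (M0.mem_S_full' x))
    exact ⟨g, h hg, e⟩
  rw [h2, Set.ncard_univ, Nat.card_eq_fintype_card (α := GolayPt), card_golayPt] at h1
  rcases N253_max (le_inf (NL.trans h) N253_le) inf_le_right with e | e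
  · exact .inl (by rw [h1, e, N253_eq.2])
  · exact .inr (eq_top_of_card (by rw [h1, e, card_G23]))

theorem card_L : Nat.card L = 6072 := (L_cases le_rfl).resolve_right L_ne

theorem coe_tt : (tt : Equiv.Perm GolayPt) = Equiv.optionCongr (Equiv.addRight 1) :=
  Equiv.ext fun p => tt_smul p

theorem sq_mem (u : (ZMod 23)ˣ) (hu : IsSquare u) :
    ∃ j : ℕ, ((mm ^ j : M24) : Equiv.Perm GolayPt) = Equiv.optionCongr (Units.mulLeft u) := by
  obtain ⟨r, rfl⟩ := hu
  have : Fact (1 < 23) := ⟨by norm_num⟩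
  obtain ⟨j, -, e⟩ := (show ∀ a : ZMod 23, a ≠ 0 → ∃ j < 11, 2 ^ j = a * a by decide +kernel) r r.ne_zero
  exact ⟨j, Equiv.ext fun p => (mm_pow j p).trans (by rw [e]; rfl)⟩

theorem mm_sq : ∃ u : (ZMod 23)ˣ, IsSquare u ∧ (mm : Equiv.Perm GolayPt) = Equiv.optionCongr (Units.mulLeft u) :=
  ⟨_, ⟨Units.mkOfMulEqOne 5 14 (by decide), rfl⟩, Equiv.ext fun p => (mm_smul p).trans (by revert p; decide +kernel)⟩

theorem eqN : Subgroup.closure ({Equiv.optionCongr (Equiv.addRight (1 : ZMod 23))} ∪ {g : Equiv.Perm Cfsg.GolayPt |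
    ∃ u : (ZMod 23)ˣ, IsSquare u ∧ g = Equiv.optionCongr (Units.mulLeft u)}) = N253.map M24.subtype := by
  refine le_antisymm ((Subgroup.closure_le _).2 ?_) (Subgroup.map_le_iff_le_comap.2 ((sub_le _).2
    (fa_cons (Subgroup.subset_closure (.inl coe_tt)) (fa_cons (Subgroup.subset_closure (.inr mm_sq)) fa_nil))))
  rintro _ (rfl | ⟨u, hu, rfl⟩)
  · exact ⟨_, ev_getL_mem _ _ 0, coe_tt⟩
  · obtain ⟨j, e⟩ := sq_mem u hu
    exact ⟨_, pow_mem (ev_getL_mem _ _ 1) j, e⟩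

theorem coe_s : ((ev M0.gen [2] : M24) : Equiv.Perm GolayPt) = projInv := by
  rw [← M0_gen1, ← ev_single M0.gen 1]

theorem eqL : Subgroup.closure ({Equiv.optionCongr (Equiv.addRight (1 : ZMod 23)), Cfsg.projInv} ∪
    {g : Equiv.Perm Cfsg.GolayPt | ∃ u : (ZMod 23)ˣ, IsSquare u ∧ g = Equiv.optionCongr (Units.mulLeft u)}) =
      L.map M24.subtype := by
  refine le_antisymm ((Subgroup.closure_le _).2 ?_) (Subgroup.map_le_iff_le_comap.2 ((sub_le _).2
    (fa_cons (Subgroup.subset_closure (.inl (.inl coe_tt))) (fa_cons (Subgroup.subset_closure (.inr mm_sq))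
      (fa_cons (Subgroup.subset_closure (.inl (.inr coe_s))) fa_nil)))))
  rintro _ ((rfl | rfl) | ⟨u, hu, rfl⟩)
  · exact ⟨_, ev_getL_mem _ _ 0, coe_tt⟩
  · exact ⟨_, ev_getL_mem _ _ 2, coe_s⟩
  · obtain ⟨j, e⟩ := sq_mem u hu
    exact ⟨_, pow_mem (ev_getL_mem _ _ 1) j, e⟩

theorem back (K : Subgroup M24) : (K.map M24.subtype).subgroupOf M24 = K :=
  Subgroup.comap_map_eq_self_of_injective M24.subtype_injective K


/-- PSL(2, 23) = ⟨t ↦ t+1, t ↦ u t (u square), t ↦ −1/t⟩ is maximal of order 6072 in the group of the length-24 code, and its point stabiliser 23:11 (order 253) is maximal in the Mathieu group of degree 23. -/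
theorem result : (Subgroup.closure ({Equiv.optionCongr (Equiv.addRight (1 : ZMod 23)), Cfsg.projInv} ∪ {g : Equiv.Perm Cfsg.GolayPt | ∃ u : (ZMod 23)ˣ, IsSquare u ∧ g = Equiv.optionCongr (Units.mulLeft u)}) ≤ Cfsg.M24 ∧ Nat.card ↥(Subgroup.closure ({Equiv.optionCongr (Equiv.addRight (1 : ZMod 23)), Cfsg.projInv} ∪ {g : Equiv.Perm Cfsg.GolayPt | ∃ u : (ZMod 23)ˣ, IsSquare u ∧ g = Equiv.optionCongr (Units.mulLeft u)})) = 6072 ∧ IsCoatom ((Subgroup.closure ({Equiv.optionCongr (Equiv.addRight (1 : ZMod 23)), Cfsg.projInv} ∪ {g : Equiv.Perm Cfsg.GolayPt | ∃ u : (ZMod 23)ˣ, IsSquare u ∧ g = Equiv.optionCongr (Units.mulLeft u)})).subgroupOf Cfsg.M24)) ∧ (Subgroup.closure ({Equiv.optionCongr (Equiv.addRight (1 : ZMod 23))} ∪ {g : Equiv.Perm Cfsg.GolayPt | ∃ u : (ZMod 23)ˣ, IsSquare u ∧ g = Equiv.optionCongr (Units.mulLeft u)}) ≤ Cfsg.M24 ⊓ MulAction.stabilizer (Equiv.Perm Cfsg.GolayPt) (none : Cfsg.GolayPt) ∧ Nat.card ↥(Subgroup.closure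 ({Equiv.optionCongr (Equiv.addRight (1 : ZMod 23))} ∪ {g : Equiv.Perm Cfsg.GolayPt | ∃ u : (ZMod 23)ˣ, IsSquare u ∧ g = Equiv.optionCongr (Units.mulLeft u)})) = 253 ∧ IsCoatom (((Subgroup.closure ({Equiv.optionCongr (Equiv.addRight (1 : ZMod 23))} ∪ {g : Equiv.Perm Cfsg.GolayPt | ∃ u : (ZMod 23)ˣ, IsSquare u ∧ g = Equiv.optionCongr (Units.mulLeft u)})).subgroupOf Cfsg.M24).subgroupOf (MulAction.stabilizer Cfsg.M24 (none : Cfsg.GolayPt)))) := by
  rw [eqL, eqN, back, back, Subgroup.card_map_of_injective M24.subtype_injective,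
    Subgroup.card_map_of_injective M24.subtype_injective]
  refine ⟨⟨Subgroup.map_subtype_le _, card_L, L_ne, fun K hK => (L_cases hK.le).resolve_left fun e =>
    hK.ne (eq_of_le_of_card (by norm_num) hK.le card_L e)⟩,
    le_inf (Subgroup.map_subtype_le _) (by rintro _ ⟨g, hg, rfl⟩; exact N253_le hg), N253_eq.2, fun e => ?_,
    fun K hK => ?_⟩
  · have := card_subgroupOf N253_le
    rw [e, Subgroup.card_top, card_G23, N253_eq.2] at this
    exact absurd this (by norm_num)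
  · rcases N253_max (K := K.map G23.subtype) (fun g hg => ⟨⟨g, N253_le hg⟩, hK.le hg, rfl⟩)
      (Subgroup.map_subtype_le _) with e | e
    · exact absurd (fun g hg => e.le ⟨g, hg, rfl⟩) hK.not_ge
    · exact eq_top_iff.2 fun g _ => (Subgroup.mem_map_iff_mem G23.subtype_injective).1 (e.ge g.2)

end Cfsg.Agent.S1643
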