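import Cfsg.Statements.S1666
import Cfsg.Agent.H2.HSL

set_option autoImplicit false
open Cfsg

namespace Cfsg.Agent.S1666

/-- Recognition of the Higman–Sims group as a rank 3 permutation group: a transitive permutation group on 100 points in which the stabiliser of a point is isomorphic to the Mathieu group M₂₂ and has two further orbits, of sizes 22 and 77, is isomorphic to the Higman–Sims group. -/
theorem result {Ω : Type*} [Fintype Ω] [DecidableEq Ω] (hΩ : Fintype.card Ω = 100) (G : Subgroup (Equiv.Perm Ω)) [MulAction.IsPretransitive G Ω] (a : Ω)  (e : MulAction.stabilizer G a ≃* Cfsg.Spor.M22) (b c : Ω) (hb : (MulAction.orbit (MulAction.stabilizer G a) b).ncard = 22) (hc : (MulAction.orbit (MulAction.stabilizer G a) c).ncard = 77) : Cfsg.Spor.IsoHS G := by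
  classical
  obtain ⟨X, -, hX⟩ := H2.HSG.rank3 (Γ := G) hΩ a b c hb hc
  have hY : X.IsSRGWith 100 22 0 6 := hX
  obtain ⟨f, hf⟩ := H2.HSG.rank3_hom (Γ := G) hΩ a b c hb hc hY
  obtain ⟨h, hh⟩ := H2.HSG.hs_hom hY
  have hA := H2.HSG.card_aut hY
  haveI : Finite (X ≃g X) := Nat.finite_of_card_ne_zero (by rw [hA]; norm_num)
  have hG : Nat.card G = 44352000 := by
    rw [← Subgroup.index_mul_card (MulAction.stabilizer G a),
      MulAction.index_stabilizer_of_transitive, Nat.card_congr e.toEquiv, H14.isM22.2,
      Nat.card_eq_fintype_card, hΩ]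
  have hf1 : Nat.card f.range = 44352000 := by
    rw [← Nat.card_congr (MonoidHom.ofInjective hf).toEquiv, hG]
  have hh1 : Nat.card h.range = 44352000 := by
    rw [← Nat.card_congr (MonoidHom.ofInjective hh).toEquiv, H14.isHS.2]
  have hi : f.range.index = 2 := by
    have := Subgroup.index_mul_card f.range
    rw [hf1, hA] at this
    omega
  haveI : f.range.Normal := Subgroup.normal_of_index_eq_two hi
  haveI := H14.isHS.1
  have htop : f.range.comap h = ⊤ := by
    refine (Subgroup.Normal.eq_bot_or_eq_top (inferInstance : (f.range.comap h).Normal)).resolve_left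
      fun e => ?_
    have h1 : (f.range.comap h).index ∣ 2 := by
      rw [Subgroup.index_comap, ← hi]; exact Subgroup.relIndex_dvd_index_of_normal _ _
    rw [e, Subgroup.index_bot, H14.isHS.2] at h1
    omega
  have hle : h.range ≤ f.range := by
    rintro _ ⟨x, rfl⟩
    exact htop.ge (Subgroup.mem_top x)
  have heq : h.range = f.range := Subgroup.eq_of_le_of_card_ge hle (by rw [hf1, hh1])
  exact ⟨(MonoidHom.ofInjective hf).trans ((MulEquiv.subgroupCongr heq.symm).trans
    (MonoidHom.ofInjective hh).symm)⟩

end Cfsg.Agent.S1666
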