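import Cfsg.Statements.S1667
import Cfsg.Agent.H14.R3M
import Cfsg.Agent.H14.Conway2
import Cfsg.Agent.H14.SiU43

set_option autoImplicit false
open Cfsg

namespace Cfsg.Agent.S1667



/-- Recognition of the McLaughlin group as a rank 3 permutation group: a transitive permutation group on 275 points in which the stabiliser of a point is isomorphic to the unitary group U₄(3) and has two further orbits, of sizes 112 and 162, is isomorphic to the McLaughlin group. -/
theorem result {Ω : Type*} [Fintype Ω] [DecidableEq Ω] (hΩ : Fintype.card Ω = 275) (G : Subgroup (Equiv.Perm Ω)) [MulAction.IsPretransitive G Ω] (a : Ω) (K : Type) [Field K] [Fintype K] (hK : Fintype.card K = 9) (e : MulAction.stabilizer G a ≃* Cfsg.PSU 4 K 3) (b c : Ω) (hb : (MulAction.orbit (MulAction.stabilizer G a) b).ncard = 112) (hc : (MulAction.orbit (MulAction.stabilizer G a) c).ncard = 162) : Cfsg.Spor.IsoMcL G := by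
  obtain ⟨S⟩ := H15.StdU43.std hK
  obtain ⟨e'⟩ := L.SiU43.iso H14.PMc H14.card_CM (L.Pres.of fun _ _ y hy => H15.StdU43.hom S y hy) S.card
    (MulAction.stabilizer H14.CM (H14.PMc.dec 0)) (H14.R3M.cH' H14.PMc H14.card_CM) fun g h => h 0 (by simp)
  have := H14.simple_CM
  obtain ⟨f⟩ := H14.R3M.main H14.PMc H14.card_CM ⟨inferInstance, by rw [Nat.card_eq_fintype_card, hΩ], hb, hc,
    by norm_num, by norm_num, by norm_num⟩ (e.trans e'.symm)
  exact ⟨f.trans H14.eMcL⟩

end Cfsg.Agent.S1667
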