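import Cfsg.Statements.S1668
import Cfsg.Agent.H14.R3S

set_option autoImplicit false
open Cfsg

namespace Cfsg.Agent.S1668



/-- Recognition of the sporadic Suzuki group as a rank 3 permutation group: a transitive permutation group on 1782 points in which the stabiliser of a point is isomorphic to the Chevalley group G₂(4) and has two further orbits, of sizes 416 and 1365, is isomorphic to the sporadic Suzuki group. -/
theorem result {Ω : Type*} [Fintype Ω] [DecidableEq Ω] (hΩ : Fintype.card Ω = 1782) (G : Subgroup (Equiv.Perm Ω)) [MulAction.IsPretransitive G Ω] (a : Ω) (K : Type) [Field K] [Fintype K] (hK : Fintype.card K = 4) (e : MulAction.stabilizer G a ≃* Cfsg.Lie.chevG2.group K) (b c : Ω) (hb : (MulAction.orbit (MulAction.stabilizer G a) b).ncard = 416) (hc : (MulAction.orbit (MulAction.stabilizer G a) c).ncard = 1365) : Cfsg.Spor.IsoSuz G := by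
  obtain ⟨M, hM⟩ := H14.R3S.ex
  obtain ⟨e'⟩ := H15.Suz.isoG2 hK
  have := H15.Suz.simple
  exact H14.R3S.main M H15.Suz.inj.2 ⟨inferInstance, by rw [Nat.card_eq_fintype_card, hΩ], hb, hc, by norm_num,
    by norm_num, by norm_num⟩ (e.trans (e'.symm.trans (MulEquiv.subgroupCongr (hM.dec ▸ H15.Suz.stab))))

end Cfsg.Agent.S1668
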