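import Cfsg.Statements.S1669
import Cfsg.Agent.H14.R3R4
import Cfsg.Agent.H15.Ru

set_option autoImplicit false
open Cfsg

namespace Cfsg.Agent.S1669



/-- Recognition of the Rudvalis group as a rank 3 permutation group: a transitive permutation group on 4060 points in which the stabiliser of a point is isomorphic to the Ree group ²F₄(2) and has two further orbits, of sizes 1755 and 2304, is isomorphic to the Rudvalis group. -/
theorem result {Ω : Type*} [Fintype Ω] [DecidableEq Ω] (hΩ : Fintype.card Ω = 4060) (G : Subgroup (Equiv.Perm Ω)) [MulAction.IsPretransitive G Ω] (a : Ω)  (e : MulAction.stabilizer G a ≃* Cfsg.Lie.twistedF4 (ZMod 2) 1) (b c : Ω) (hb : (MulAction.orbit (MulAction.stabilizer G a) b).ncard = 1755) (hc : (MulAction.orbit (MulAction.stabilizer G a) c).ncard = 2304) : Cfsg.Spor.IsoRu G := by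
  obtain ⟨S0⟩ := H15.Ru.std
  obtain ⟨S⟩ := H15.StdF42.std
  exact H14.R3R.std_main S0 ⟨inferInstance, by rw [Nat.card_eq_fintype_card, hΩ], hb, hc, by norm_num,
    by norm_num, by norm_num⟩ S e

end Cfsg.Agent.S1669
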