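import Cfsg.Statements.S1679
import Cfsg.Agent.H15.SuzG

set_option autoImplicit false
open Cfsg

namespace Cfsg.Agent.S1679

/-- In the presented sporadic Suzuki group (generators a, …, g), the subgroup generated by the images of a, …, f is isomorphic to the adjoint Chevalley group of type G₂ over a field with four elements. -/
theorem result : ∃ (K : Type) (_ : Field K) (_ : Fintype K), Fintype.card K = 4 ∧ Nonempty ((((Subgroup.closure ({Cfsg.Spor.Suz.a, Cfsg.Spor.Suz.b, Cfsg.Spor.Suz.c, Cfsg.Spor.Suz.d, Cfsg.Spor.Suz.e, Cfsg.Spor.Suz.f} : Set (FreeGroup Cfsg.Spor.Suz.Gen))).map (PresentedGroup.mk (Cfsg.Spor.coxRelators Cfsg.Spor.Suz.edges ∪ {r | r ∈ Cfsg.Spor.Suz.extra})))) ≃* Cfsg.Lie.chevG2.group K) := by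
  open H15 H15.Suz Cfsg.Spor.Suz in
  have e : ({a, b, c, d, e, f} : Set (FreeGroup Gen)) = {r | r ∈ [a, b, c, d, e, f]} := by
    ext; simp
  rw [e]
  obtain ⟨K, _, _, hK⟩ := H15.exists_field4
  exact ⟨K, _, _, hK, H15.Suz.isoG2 hK⟩

end Cfsg.Agent.S1679
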