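import Cfsg.Statements.S1681
import Cfsg.Agent.H15.Suz
import Cfsg.Agent.H15.SuzK
import Cfsg.Agent.H15.Lite2

set_option autoImplicit false
open Cfsg

namespace Cfsg.Agent.S1681

/-- In the presented sporadic Suzuki group (generators a, …, g), the subgroup generated by the images of a, b, c, d, f, g has index 22880. -/
theorem result : (((Subgroup.closure ({Cfsg.Spor.Suz.a, Cfsg.Spor.Suz.b, Cfsg.Spor.Suz.c, Cfsg.Spor.Suz.d, Cfsg.Spor.Suz.f, Cfsg.Spor.Suz.g} : Set (FreeGroup Cfsg.Spor.Suz.Gen))).map (PresentedGroup.mk (Cfsg.Spor.coxRelators Cfsg.Spor.Suz.edges ∪ {r | r ∈ Cfsg.Spor.Suz.extra})))).index = 22880 := by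
  open H15 H15.Suz H14 Cfsg.Spor.Suz in
  have e : ({a, b, c, d, f, g} : Set (FreeGroup Gen)) = {r | r ∈ [a, b, c, d, f, g]} := by
    ext; simp
  rw [e, map_closure_eq_sub M_gen]
  let P' := permPM 1782 SuzK.nets (by decide) (by decide) SuzK.nets_ok
  have h1 := SuzK.card0 P' (SuzK.rels_of_all (SuzK.all_ok' P'))
  rw [← SuzK.orig_eq (SuzK.all_ok' P')] at h1
  have h2 : (sub M.gen ([a, b, c, d, f, g].map (w14 ix))).map pi = sub P'.gen (lets 6) := by
    rw [H14.map_sub, show (fun l => pi (M.gen l)) = P.gen from funext ex_M.choose_spec,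
      show [a, b, c, d, f, g].map (w14 ix) = [[0], [2], [4], [6], [10], [12]] by decide +kernel]
    unfold sub
    congr 1
    ext x
    rw [show lets 6 = [[0], [2], [4], [6], [8], [10]] from rfl]
    simp only [ List.mem_cons, exists_eq_or_imp,
      List.not_mem_nil, false_and, exists_false, Set.mem_ofPred_eq]
    rfl
  have h3 := Subgroup.card_mul_index (sub M.gen ([a, b, c, d, f, g].map (w14 ix)))
  rw [inj.2, Nat.card_congr (Subgroup.equivMapOfInjective _ pi inj.1).toEquiv, h2, h1] at h3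
  omega

end Cfsg.Agent.S1681
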