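import Cfsg.Statements.S1685
import Cfsg.Agent.H15.Fi22
import Cfsg.Agent.H15.Lite3

set_option autoImplicit false
open Cfsg

namespace Cfsg.Agent.S1685

/-- In the presented Fischer group Fi₂₂ (generators a, …, i), the subgroup generated by the images of b, c, d, e, f, g, h, i has index 14080. -/
theorem result : (((Subgroup.closure ({Cfsg.Spor.Fi22.b, Cfsg.Spor.Fi22.c, Cfsg.Spor.Fi22.d, Cfsg.Spor.Fi22.e, Cfsg.Spor.Fi22.f, Cfsg.Spor.Fi22.g, Cfsg.Spor.Fi22.h, Cfsg.Spor.Fi22.i} : Set (FreeGroup Cfsg.Spor.Fi22.Gen))).map (PresentedGroup.mk (Cfsg.Spor.coxRelators Cfsg.Spor.Fi22.edges ∪ {r | r ∈ Cfsg.Spor.Fi22.extra})))).index = 14080 := by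
  open H15 H15.Fi22 H14 Cfsg.Spor.Fi22 in
  have e : ({b, c, d, e, f, g, h, i} : Set (FreeGroup Gen)) = {r | r ∈ [b, c, d, e, f, g, h, i]} := by
    ext; simp
  rw [e, map_closure_eq_Kl codes (l := [1, 2, 3, 4, 5, 6, 7, 8]) (by decide +kernel) (by decide +kernel)]
  refine (index_eq_of_bd bd_bcdefghi ?_ card).1
  rw [← Subgroup.relIndex_top_right, ← top0]
  exact idx_ren TFi23b.idx _ rfl (rel_ren rel (by decide +kernel)) _ (sub_ren gen (by decide +kernel))

end Cfsg.Agent.S1685
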