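import Cfsg.Statements.S1717
import Cfsg.Agent.H2.Tv2

set_option autoImplicit false
open Cfsg

namespace Cfsg.Agent.S1717

/-- Let G be a finite group with an involution z whose centraliser C is isomorphic to the centraliser of a transvection of SL(5, 2). Then a Sylow 2-subgroup of C, viewed in G, is a Sylow 2-subgroup of G (its index in G is odd). -/
theorem result {G : Type*} [Group G] [Finite G] (s : Matrix.SpecialLinearGroup (Fin 5) (ZMod 2)) (hs : (s : Matrix (Fin 5) (Fin 5) (ZMod 2)) = Matrix.transvection 0 1 1) (z : G) (hz : orderOf z = 2) (e : (Subgroup.centralizer ({z} : Set G)) ≃* Subgroup.centralizer ({s} : Set (Matrix.SpecialLinearGroup (Fin 5) (ZMod 2)))) (T : Sylow 2 (Subgroup.centralizer ({z} : Set G))) : ¬ 2 ∣ ((T : Subgroup (Subgroup.centralizer ({z} : Set G))).map (Subgroup.subtype (Subgroup.centralizer ({z} : Set G)))).index := by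
  haveI : Fact (Nat.Prime 2) := ⟨Nat.prime_two⟩
  obtain ⟨-, hr⟩ := H2.Tv.range_io (n := 3) s hs
  let C := Subgroup.centralizer ({z} : Set G)
  intro hdvd
  let ψ : C ≃* H2.Tv.D 3 := (e.trans (MulEquiv.subgroupCongr hr.symm)).trans
    (MonoidHom.ofInjective H2.Tv.io_inj).symm
  have hz1 : z ≠ 1 := by rintro rfl; simp at hz
  have key : ∀ x : C, (∀ t ∈ (T : Subgroup C), t * x = x * t) → ψ x = 1 ∨ ψ x = H2.Tv.z0 := by
    intro x hx
    refine H2.Tv.cent _ fun q hq => ?_
    have h1 : q ∈ pCore 2 (H2.Tv.D 3) := by rw [H2.Tv.pCore_D]; exact hq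
    rw [← H1.map_pCore_equiv ψ] at h1
    obtain ⟨t, ht, rfl⟩ := h1
    have := congrArg ψ (hx t (H1.pCore_le_sylow T ht))
    rw [map_mul, map_mul] at this
    exact this.symm
  let zc : C := ⟨z, Subgroup.mem_centralizer_singleton_iff.2 rfl⟩
  have hzc : ψ zc = H2.Tv.z0 := (key zc fun t _ =>
    Subtype.ext (Subgroup.mem_centralizer_singleton_iff.1 t.2)).resolve_left fun h =>
      hz1 (congrArg Subtype.val (ψ.injective (h.trans (map_one ψ).symm)))
  have hzT : zc ∈ (T : Subgroup C) := by
    apply H1.pCore_le_sylow T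
    rw [← H1.map_pCore_equiv ψ.symm, H2.Tv.pCore_D]
    exact ⟨H2.Tv.z0, rfl, by rw [← hzc]; exact ψ.symm_apply_apply zc⟩
  let T' := (T : Subgroup C).map C.subtype
  have hT' : T' = (T : Subgroup C).map C.subtype := rfl
  have hN : Subgroup.normalizer (T' : Set G) ≤ C := by
    intro g hg
    obtain ⟨x, hx, hxe⟩ : g * z * g⁻¹ ∈ T' := (Subgroup.mem_normalizer_iff.1 hg z).1 ⟨zc, hzT, rfl⟩
    have hxe' : (x : G) = g * z * g⁻¹ := hxe
    have h1 := key x fun t ht => by
      obtain ⟨y, -, hy⟩ : g⁻¹ * t * g ∈ T' := by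
        have := (Subgroup.mem_normalizer_iff.1 (Subgroup.inv_mem _ hg) t).1 ⟨t, ht, rfl⟩
        simpa using this
      have hy' : (y : G) = g⁻¹ * t * g := hy
      have h2 := Subgroup.mem_centralizer_singleton_iff.1 y.2
      rw [hy'] at h2
      apply Subtype.ext
      show (t : G) * x = x * t
      rw [hxe']
      calc (t : G) * (g * z * g⁻¹) = g * (g⁻¹ * t * g * z) * g⁻¹ := by group
        _ = g * (z * (g⁻¹ * t * g)) * g⁻¹ := by rw [h2]
        _ = _ := by group
    rcases h1 with h1 | h1
    · have : (x : G) = 1 := congrArg Subtype.val (ψ.injective (h1.trans (map_one ψ).symm))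
      rw [hxe'] at this
      exact absurd (by simpa using this) hz1
    · have : (x : G) = z := congrArg Subtype.val (ψ.injective (h1.trans hzc.symm))
      rw [hxe', mul_inv_eq_iff_eq_mul] at this
      exact Subgroup.mem_centralizer_singleton_iff.2 this
  obtain ⟨k, hk⟩ := (T.isPGroup'.map C.subtype).exists_card_eq
  have h1 : 2 ^ (k + 1) ∣ Nat.card G := by
    rw [← Subgroup.card_mul_index T', hk, pow_succ]
    exact Nat.mul_dvd_mul_left _ hdvd
  have h2 : 2 ∣ T'.relIndex (Subgroup.normalizer (T' : Set G)) :=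
    Sylow.prime_dvd_card_quotient_normalizer h1 hk
  have h3 := Subgroup.relIndex_mul_relIndex T' _ C Subgroup.le_normalizer hN
  have h4 : T'.relIndex C = (T : Subgroup C).index := by
    unfold Subgroup.relIndex
    rw [hT', Subgroup.subgroupOf, Subgroup.comap_map_eq_self_of_injective C.subtype_injective]
  exact T.not_dvd_index (h4 ▸ h3 ▸ h2.mul_right _)

end Cfsg.Agent.S1717
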