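import Cfsg.Statements.S1754
import Cfsg.Agent.H17.FStar

set_option autoImplicit false
open Cfsg

namespace Cfsg.Agent.S1754

/-- Let A be a standard subgroup of the finite group G (A quasisimple, C_G(A) tightly embedded of even order, A commuting elementwise with no other conjugate of itself, and N_G(A) = N_G(C_G(A))), and let t be an involution of G centralizing A. Then the centralizer of t lies in the normalizer of A; in particular A, viewed inside C_G(t), is a component of C_G(t). -/
theorem result {G : Type*} [Group G] [Finite G]
    (A : Subgroup G) (hA : Cfsg.IsStandardSubgroup A) (t : G) (ht : orderOf t = 2) (htA : t ∈ Subgroup.centralizer (A : Set G)) :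
    Subgroup.centralizer ({t} : Set G) ≤ Subgroup.normalizer (A : Set G) ∧
      Cfsg.IsComponent (A.subgroupOf (Subgroup.centralizer ({t} : Set G))) := by
  have h1 : Subgroup.centralizer ({t} : Set G) ≤ Subgroup.normalizer (A : Set G) := fun g hg => by
    rw [hA.2.2.2]
    by_contra hn
    have h2 := hA.2.1.2 g hn
    rw [← Nat.not_even_iff_odd, even_iff_two_dvd] at h2
    refine h2 (ht ▸ H17.orderOf_dvd_card_of_mem ⟨htA, ?_⟩)
    have := H17.conj_mem_cj (g := g) htA
    rwa [Subgroup.mem_centralizer_singleton_iff.mp hg, mul_inv_cancel_right] at this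
  have h2 : A ≤ Subgroup.centralizer ({t} : Set G) := fun a ha =>
    Subgroup.mem_centralizer_singleton_iff.mpr (htA a ha)
  exact ⟨h1, (H17.isComp_iff.mp ⟨.of_normal h2 h1, hA.1⟩).2⟩

end Cfsg.Agent.S1754
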