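import Cfsg.Statements.S1755
import Cfsg.Agent.H21.LX2

set_option autoImplicit false
open Cfsg

namespace Cfsg.Agent.S1755

open H18 H1 H21 Subgroup

/-- Let G be a finite group and let z be an involution of G such that Q, the generalized Fitting subgroup of the centralizer C of z, is a 2-group of symplectic type (every characteristic abelian subgroup of Q is cyclic). Let B be a characteristic abelian subgroup of Q, viewed as a subgroup of G. Then for every g in G, the conjugate of B by g either equals B or meets B trivially. -/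
theorem result {G : Type*} [Group G] [Finite G] (z : G) (hz : orderOf z = 2) (hQ : Cfsg.IsOfSymplecticType ↥(Cfsg.generalizedFittingSubgroup ↥(Subgroup.centralizer ({z} : Set G))))
    (B : Subgroup ↥(Cfsg.generalizedFittingSubgroup ↥(Subgroup.centralizer ({z} : Set G)))) (hBc : B.Characteristic) (hBa : IsMulCommutative ↥B) (g : G) :
    ((B.map (Cfsg.generalizedFittingSubgroup ↥(Subgroup.centralizer ({z} : Set G))).subtype).map (Subgroup.centralizer ({z} : Set G)).subtype).map (MulAut.conj g).toMonoidHom =
        (B.map (Cfsg.generalizedFittingSubgroup ↥(Subgroup.centralizer ({z} : Set G))).subtype).map (Subgroup.centralizer ({z} : Set G)).subtype ∨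
      ((B.map (Cfsg.generalizedFittingSubgroup ↥(Subgroup.centralizer ({z} : Set G))).subtype).map (Subgroup.centralizer ({z} : Set G)).subtype).map (MulAut.conj g).toMonoidHom ⊓
        (B.map (Cfsg.generalizedFittingSubgroup ↥(Subgroup.centralizer ({z} : Set G))).subtype).map (Subgroup.centralizer ({z} : Set G)).subtype = ⊥ := by
  have hn : (B.map (generalizedFittingSubgroup ↥C1(z)).subtype).Normal := ConjAct.normal_of_characteristic_of_normal
  have h1 := nml_map_subtype (hX := hn)
  have hc : Cyc ((B.map (generalizedFittingSubgroup ↥C1(z)).subtype).map C1(z).subtype) :=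
    cyc_map_subtype.2 (cyc_map_subtype.2 (hQ.2 B hBc hBa))
  have hl : (B.map (generalizedFittingSubgroup ↥C1(z)).subtype).map C1(z).subtype ≤ H17.gfit C1(z) :=
    map_mono (map_subtype_le B)
  have hp : PiGrp {2} (H17.gfit C1(z)) := piGrp_of_isPGroup Nat.prime_two (hQ.1.map _)
  have hZ : Cyc Z(H17.gfit C1(z)) := by
    have : Z(H17.gfit C1(z)) = ((center _).map (generalizedFittingSubgroup ↥C1(z)).subtype).map C1(z).subtype := by
      rw [map_center, map_Z (subtype_injective _)]; rfl
    rw [this]
    exact cyc_map_subtype.2 (cyc_map_subtype.2 (hQ.2 _ inferInstance inferInstance))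
  obtain ⟨e, -⟩ := gfit_facts (sq_of_orderOf hz) rfl hp
  have hzZ : zpowers z ≤ Z(H17.gfit C1(z)) :=
    zpowers_le.2 ⟨e ▸ zp_le_O2 (sq_of_orderOf hz), le_C1_iff.1 (H17.gfit_le _)⟩
  rw [← cj_def]
  generalize (B.map (generalizedFittingSubgroup ↥C1(z)).subtype).map C1(z).subtype = D at *
  refine or_iff_not_imp_right.2 fun hne => ?_
  have hD : D ≠ ⊥ := by rintro rfl; simp at hne
  have hD2 := hp.of_le hl
  have hzc : Nat.card (zpowers z) = 2 := by rw [card_zpowers', hz]
  have hzD : zpowers z ≤ D := by
    rw [hZ.eq_omega Nat.prime_two hzZ hzc]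
    exact (hZ.omega_le_of_ne_bot hp.inf_left inf_le_right
      (hp.nil.meet_Z (h1.of_le hl (H17.gfit_le _)) hD)).trans inf_le_left
  obtain ⟨X, hX, hX2⟩ := hD2.inf_right.exists_sub_card hne
  have e1 := hc.eq_of_card_eq (hX.trans inf_le_right) hzD (hX2.trans hzc.symm)
  have e2 := (hc.cj g).eq_of_card_eq (hX.trans inf_le_left) (cj_mono hzD) (by rw [card_cj, hX2, hzc])
  refine cj_eq_self (h1.2 (mem_C1.2 ?_))
  rcases (mem_zp_two (sq_of_orderOf hz)).1 (e1 ▸ e2 ▸ conj_mem_cj (mem_zpowers z) : g * z * g⁻¹ ∈ zpowers z) with e | e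
  · exact absurd (by simpa using e) (ne_of_orderOf hz)
  · rwa [mul_inv_eq_iff_eq_mul] at e

end Cfsg.Agent.S1755
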