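import Cfsg.Statements.S1756
import Cfsg.Agent.H21.LX2

set_option autoImplicit false
open Cfsg

namespace Cfsg.Agent.S1756

open H18 H1 H21 Subgroup

/-- Let Q be an extraspecial 2-subgroup of the finite group G (special with centre of order 2) and t an involution of G normalizing Q such that the centralizer of t in Q has index at most 2 in Q. Then t lies in the product of Q with the centralizer of Q. -/
theorem result {G : Type*} [Group G] [Finite G] (Q : Subgroup G)
    (hQ : Cfsg.IsExtraspecial 2 ↥Q) (t : G) (ht : orderOf t = 2) (htN : t ∈ Subgroup.normalizer (Q : Set G))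
    (hi : (Subgroup.centralizer ({t} : Set G) ⊓ Q).relIndex Q ≤ 2) :
    t ∈ Q ⊔ Subgroup.centralizer (Q : Set G) := by
  obtain ⟨h, hna⟩ := (isExtraspecial_iff Nat.prime_two).1 hQ
  have hZ : Z(Q) ≤ C1(t) ⊓ Q :=
    le_inf ((cent_symm (h.norm_cent_two (zpowers_le.2 htN))).trans C_zpowers.le) inf_le_left
  refine h.mem_sup_of_idx hna inf_le_right hZ (fun a ha b hb h1 h2 => ?_) htN
    (le_C1_iff.1 inf_le_left) (.inl (sq_of_orderOf ht))
  have e : (C1(t) ⊓ Q).relIndex Q = 2 := le_antisymm hi (one_lt_relIndex fun c => h1 (c ha))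
  have := (mul_mem_iff_of_index_two e (a := ⟨a, ha⟩) (b := ⟨b⁻¹, inv_mem hb⟩)).2 (by
    simp only [mem_subgroupOf, inv_mem_iff]; exact iff_of_false h1 h2)
  exact this

end Cfsg.Agent.S1756
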