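import Cfsg.Statements.S1774
import Cfsg.Agent.H21.LX2

set_option autoImplicit false
open Cfsg

namespace Cfsg.Agent.S1774

open H18 H1 H21 Subgroup
open scoped commutatorElement

theorem sq_mem {X : Type*} [Group X] [Finite X] (h : IsOfSymplecticType X) (h4 : ∀ x : X, x ^ 4 = 1) {z : X}
    (hz : z ∈ center X) (h2 : orderOf z = 2) :
    (∀ x : X, x * x ∈ zpowers z) ∧ ∀ x ∈ center X, x * x = 1 → x ∈ zpowers z := by
  have hp : PiGrp {2} (⊤ : Subgroup X) := piGrp_of_isPGroup Nat.prime_two (h.1.to_subgroup _)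
  have hzc : Nat.card (zpowers z) = 2 := by rw [card_zpowers', h2]
  have uniq : ∀ A : Subgroup X, Cyc A → z ∈ A → ∀ x ∈ A, x * x = 1 → x ∈ zpowers z := fun A hA h1 x hx e =>
    hA.mem_of_pow (zpowers_le.2 h1) hx (by rw [hzc, pow_two, e])
  refine ⟨fun x => by_contra fun hx => ?_, uniq _ (h.2 _ inferInstance inferInstance) hz⟩
  generalize hF : ℧[2]((⊤ : Subgroup X)) ⊔ zpowers z = F
  have hsq : ∀ x : X, x * x ∈ F := fun x => hF ▸ mem_sup_left (pow_two x ▸ pow_mem_mho (mem_top x))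
  have hzF : z ∈ F := hF ▸ mem_sup_right (mem_zpowers z)
  have hzC : ∀ A : Subgroup X, z ∈ C(A) := fun A => mem_C.2 fun a _ => mem_center_iff.1 hz a
  have hch : F.Characteristic := characteristic_iff_map_le.2 fun φ => by
    rw [map_le_iff_le_comap, ← hF]
    refine sup_le (mho_le_iff.2 fun y _ => ?_) (zpowers_le.2 ?_)
    · rw [mem_comap, map_pow]; exact mem_sup_left (pow_mem_mho (mem_top _))
    · refine mem_sup_right (uniq _ (h.2 _ inferInstance inferInstance) hz _ ?_ ?_)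
      · exact mem_center_iff.2 fun y => by
          obtain ⟨y, rfl⟩ := φ.surjective y
          change φ y * φ z = φ z * φ y
          rw [← map_mul, ← map_mul, mem_center_iff.1 hz y]
      · change φ z * φ z = 1
        rw [← map_mul, sq_of_orderOf h2, map_one]
  have hA : Cyc Z(F) := h.2 _ (by
    have : C(F).Characteristic := inferInstance
    infer_instance) (abel_iff.1 abel_Z)
  have hFn : F ⊴ ⊤ := nml_top
  have hAn : Z(F) ⊴ ⊤ := hFn.Z
  have h44 : ∀ x : X, x * x * (x * x) = 1 := fun x => by rw [← h4 x]; simp [pow_succ, mul_assoc]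
  obtain ⟨b, hb, hb1⟩ := exists_mem_ne_one' ((PiGrp.mim hp (f := coset Z(F))).nil.meet_Z hFn.mim
    (mt (quo_eq_bot_iff (hFn.1.trans hAn.2)).1 fun c => hx (uniq _ hA ⟨hzF, hzC _⟩ _ (c (hsq x)) (h44 x))))
  obtain ⟨β, hβ, rfl⟩ := (mem_quo (hFn.1.trans hAn.2)).1 hb.1
  have hβA : β ∉ Z(F) := fun c => hb1 (cs_eq_one c)
  have hc : ∀ q : X, ⁅q, β⁆ ∈ Z(F) := fun q => by
    rw [← cs_eq_one_iff (hAn.2 (mem_top _)), mfun_comm (hAn.2 (mem_top _)) (hAn.2 (mem_top _)),
      commutatorElement_eq_one_iff_mul_comm]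
    exact mem_C.1 hb.2.2 _ (mfun_mem_mim (mem_top _))
  have hzz : zpowers z ≤ center X := zpowers_le.2 hz
  have fin : ∀ β ∈ F, (∀ q : X, ⁅q, β⁆ ∈ Z(F)) → β * β ∈ zpowers z → β ∈ Z(F) := fun β hβ hc hs => by
    have k : ∀ q : X, ⁅q, β⁆ ^ 2 = 1 := fun q => by
      rw [← comm_pow_right (mem_C.1 (hc q).2 β hβ), commutatorElement_eq_one_iff_mul_comm, pow_two]
      exact mem_center_iff.1 (hzz hs) q
    refine ⟨hβ, le_C1_iff.1 ?_⟩
    rw [← hF]
    refine sup_le (mho_le_iff.2 fun q _ => ?_) (zpowers_le.2 (mem_C1.2 (mem_center_iff.1 hz β).symm))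
    rw [mem_C1, ← commutatorElement_eq_one_iff_mul_comm, comm_pow_left (mem_center_iff.1
      (hzz (uniq _ hA ⟨hzF, hzC _⟩ _ (hc q) (pow_two ⁅q, β⁆ ▸ k q))) q), k]
  refine hβA (fin β hβ hc (uniq _ hA ⟨hzF, hzC _⟩ _ (fin _ (hsq β) (fun q => ?_) (by rw [h44]; exact one_mem _)) (h44 β)))
  rw [← pow_two, comm_pow_right (mem_C.1 (hc q).2 β hβ)]
  exact pow_mem (hc q) 2

/-- Let G be a finite group and let z be an involution of G such that Q, the generalized Fitting subgroup of the centralizer C of z, is a 2-group of symplectic type (every characteristic abelian subgroup of Q is cyclic); suppose every element of Q has order dividing 4. Let g ∈ G with z' = g z g⁻¹ ≠ z and z' ∈ Q. Then z lies in the conjugate g Q g⁻¹, and the subgroup X generated by Q and g Q g⁻¹ induces every automorphism of the four-group generated by z and z': for any two distinct non-identity elements u, v of that four-group there is x ∈ X with x z x⁻¹ = u and x z' x⁻¹ = v.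 -/
theorem result {G : Type*} [Group G] [Finite G] (z : G) (hz : orderOf z = 2) (hQ : Cfsg.IsOfSymplecticType ↥(Cfsg.generalizedFittingSubgroup ↥(Subgroup.centralizer ({z} : Set G))))
    (h4 : ∀ q ∈ (Cfsg.generalizedFittingSubgroup ↥(Subgroup.centralizer ({z} : Set G))).map (Subgroup.centralizer ({z} : Set G)).subtype, q ^ 4 = 1) (g : G) (hne : g * z * g⁻¹ ≠ z) (hin : g * z * g⁻¹ ∈ (Cfsg.generalizedFittingSubgroup ↥(Subgroup.centralizer ({z} : Set G))).map (Subgroup.centralizer ({z} : Set G)).subtype) :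
    z ∈ ((Cfsg.generalizedFittingSubgroup ↥(Subgroup.centralizer ({z} : Set G))).map (Subgroup.centralizer ({z} : Set G)).subtype).map (MulAut.conj g).toMonoidHom ∧
      ∀ u ∈ Subgroup.closure ({z, g * z * g⁻¹} : Set G), ∀ v ∈ Subgroup.closure ({z, g * z * g⁻¹} : Set G),
        u ≠ 1 → v ≠ 1 → u ≠ v →
          ∃ x ∈ (Cfsg.generalizedFittingSubgroup ↥(Subgroup.centralizer ({z} : Set G))).map (Subgroup.centralizer ({z} : Set G)).subtype ⊔ ((Cfsg.generalizedFittingSubgroup ↥(Subgroup.centralizer ({z} : Set G))).map (Subgroup.centralizer ({z} : Set G)).subtype).map (MulAut.conj g).toMonoidHom, x * z * x⁻¹ = u ∧ x * (g * z * g⁻¹) * x⁻¹ = v := by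
  change ∀ q ∈ H17.gfit C1(z), _ at h4
  change _ ∈ H17.gfit C1(z) at hin
  change z ∈ cj g (H17.gfit C1(z)) ∧ ∀ u ∈ _, ∀ v ∈ _, _ → _ → _ → ∃ x ∈ H17.gfit C1(z) ⊔ cj g (H17.gfit C1(z)), _
  have hs : IsOfSymplecticType (H17.gfit C1(z)) := by
    have e : generalizedFittingSubgroup C1(z) ≃* H17.gfit C1(z) := equivMapOfInjective _ _ (subtype_injective _)
    refine ⟨hQ.1.of_equiv e, fun A hA ha => ?_⟩
    have := hQ.2 (A.comap e.toMonoidHom) (characteristic_iff_comap_eq.2 fun φ => by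
      have := characteristic_iff_comap_eq.1 hA ((e.symm.trans φ).trans e)
      ext a
      have := SetLike.ext_iff.1 this (e a)
      simpa using this) ⟨⟨fun a b => Subtype.ext (e.injective (by
        rw [coe_mul, coe_mul, map_mul, map_mul]
        exact congrArg Subtype.val (ha.is_comm.comm ⟨e a, a.2⟩ ⟨e b, b.2⟩)))⟩⟩
    exact isCyclic_of_surjective (e.toMonoidHom.subgroupComap A) (e.toMonoidHom.subgroupComap_surjective_of_surjective A e.surjective)
  have hp : PiGrp {2} (H17.gfit C1(z)) := piGrp_of_isPGroup Nat.prime_two hs.1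
  obtain ⟨e, hC⟩ := gfit_facts (sq_of_orderOf hz) rfl hp
  have hl := H17.gfit_le C1(z)
  generalize H17.gfit C1(z) = Q at *
  have hzQ : z ∈ Q := e ▸ zp_le_O2 (sq_of_orderOf hz)
  obtain ⟨h1, h2⟩ := sq_mem hs (fun x => Subtype.ext (h4 x x.2)) (z := ⟨z, hzQ⟩)
    (mem_center_iff.2 fun a => Subtype.ext (mem_C1.1 (hl a.2))) (by rw [← hz, orderOf_mk])
  have tr : ∀ a : Q, a ∈ zpowers (⟨z, hzQ⟩ : Q) → (a : G) ∈ zpowers z := fun a ⟨k, hk⟩ =>
    ⟨k, congrArg Subtype.val hk⟩
  have hpow : ∀ x ∈ Q, x * x ∈ zpowers z := fun x hx => tr _ (h1 ⟨x, hx⟩)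
  have l : LW Q z := ⟨ne_of_orderOf hz, sq_of_orderOf hz, hzQ, hl, e ▸ pcore_nml.2, hC, fun x hx y hy => by
      convert mul_mem (mul_mem (hpow _ (mul_mem hx hy)) (conj_mem' ((hl.trans C1_le_N_zpowers)) hy
        (inv_mem (hpow x hx)))) (inv_mem (hpow y hy)) using 1
      group,
    hpow, fun x hx e => tr _ (h2 ⟨x, hC hx⟩ (mem_center_iff.2 fun a => Subtype.ext (mem_C.1 hx a a.2))
      (Subtype.ext e))⟩
  have hz' := l.symm' e.le hin
  exact ⟨hz', fun u hu v hv => (l.lp hin hne hz').trans hu hv⟩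

end Cfsg.Agent.S1774
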