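import Cfsg.Statements.S1780
import Cfsg.Agent.H5.TIsub
import Cfsg.Agent.H1.Hol

set_option autoImplicit false
open Cfsg

namespace Cfsg.Agent.S1780
open H5
open H18 H1 Subgroup

/-- Let A be a finite abelian 2-group and t an automorphism of A whose order is a power of 2. If every element of A fixed by t² is fixed by t, then t fixes every element of A. -/
theorem result {A : Type*} [CommGroup A] [Finite A]
    (hA : IsPGroup 2 A) (t : MulAut A) (ht : ∃ k : ℕ, orderOf t = 2 ^ k) (hC : ∀ a : A, t (t a) = a → t a = a) :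
    ∀ a : A, t a = a := by
  let φ : MulAut A →* MulAut A := MonoidHom.id _
  obtain ⟨k, hk⟩ := ht
  have := cent_of_cent_sq (A := hl φ ⊤) (t := SemidirectProduct.inr t) (abel_hl.2 (cent_iff.2 fun a _ b _ => mul_comm a b))
    (piGrp_hl.2 (piGrp_of_isPGroup Nat.prime_two (hA.to_subgroup _)))
    (by rw [PiElt, orderOf_inr, hk]; exact piNat_pow_self Nat.prime_two k) (hr_norm_top (inr_mem_hr.2 (mem_top t)))
    fun z ⟨hz, h⟩ => by
      obtain ⟨a, -, rfl⟩ := mem_hl.1 hz
      rw [← map_mul] at h
      exact inl_mem_C1.2 (hC a (inl_mem_C1.1 h))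
  exact fun a => inl_mem_C1.1 (this (inl_mem_hl.2 (mem_top a)))

end Cfsg.Agent.S1780
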