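import Cfsg.Statements.S1781
import Cfsg.Agent.H5.TIsub

set_option autoImplicit false
open Cfsg

namespace Cfsg.Agent.S1781
open H5
open H18 Subgroup
open scoped commutatorElement

/-- Let A be an abelian 2-subgroup of the finite group G such that every conjugate of A equals A or meets A trivially, and let g ∈ G with g A g⁻¹ ≠ A. Then either the subgroup of those elements of A that normalize g A g⁻¹ is an elementary abelian 2-group, or A and g A g⁻¹ commute elementwise. -/
theorem result {G : Type*} [Group G] [Finite G] (A : Subgroup G)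
    (hA2 : IsPGroup 2 ↥A) (hAa : IsMulCommutative ↥A)
    (hti : ∀ h : G, A.map (MulAut.conj h).toMonoidHom = A ∨ A.map (MulAut.conj h).toMonoidHom ⊓ A = ⊥)
    (g : G) (hg : A.map (MulAut.conj g).toMonoidHom ≠ A) :
    Cfsg.IsElementaryAbelian 2 (A ⊓ Subgroup.normalizer ((A.map (MulAut.conj g).toMonoidHom : Subgroup G) : Set G)) ∨
      ⁅A, A.map (MulAut.conj g).toMonoidHom⁆ = ⊥ := by
  have hA := abel_of_comm hAa
  have h2 := piGrp_of_isPGroup Nat.prime_two hA2
  change _ ∨ ⁅A, cj g A⁆ = ⊥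
  have h0 : cj g A ⊓ A = ⊥ := (hti g).resolve_left hg
  by_cases h : ∀ a ∈ A ⊓ N(cj g A), a ^ 2 = 1
  · exact Or.inl ⟨(hA.mono inf_le_left).comm, h⟩
  push Not at h
  obtain ⟨a, ha, ha2⟩ := h
  have key : ∀ x ∈ A, x ≠ 1 → C1(x) ≤ N(A) := fun x hx hx1 c hc => mem_N_iff_cj.2 ((hti c).resolve_right fun e => hx1 (by
    have : x ∈ cj c A ⊓ A := ⟨mem_cj'.2 ⟨x, hx, by rw [mem_C1.1 hc, mul_inv_cancel_right]⟩, hx⟩
    rwa [show cj c A ⊓ A = ⊥ from e, mem_bot] at this))
  have h3 := cent_of_cent_sq (hA.cj g) (h2.cj g) (h2.elt ha.1) ha.2 fun b hb => by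
    have h4 := key _ (mul_mem ha.1 ha.1) (by rwa [← pow_two]) hb.2
    have : ⁅b, a⁆ ∈ cj g A ⊓ A := ⟨comm_le_left (zpowers_le_of_mem ha.2) (commutator_mem_commutator hb.1 (mem_zpowers a)),
      comm_le_right (zpowers_le_of_mem h4) (commutator_mem_commutator (mem_zpowers b) ha.1)⟩
    rw [h0, mem_bot, commutatorElement_eq_one_iff_mul_comm] at this
    exact mem_C1.2 this
  refine Or.inr (ti_comm h2 (h2.cj g) (h3.trans (key a ha.1 (by rintro rfl; simp at ha2))) (by rw [inf_comm, h0]) card_cj.ge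
    fun x _ => ?_)
  have e : cj x (cj g A) = cj g (cj (g⁻¹ * x * g) A) := by rw [cj_cj, cj_cj]; congr 1; group
  rw [e, ← cj_inf, cj_inj, cj_eq_bot]
  exact hti _

end Cfsg.Agent.S1781
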