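import Cfsg.Statements.S1783
import Cfsg.Agent.H5.TIsub
import Cfsg.Agent.H5.HH
import Cfsg.Agent.H17.Comp

set_option autoImplicit false
open Cfsg

namespace Cfsg.Agent.S1783
open H5
open H18 Subgroup
open scoped commutatorElement

/-- Let X be a finite group whose generalized Fitting subgroup equals its largest normal 2-subgroup Q, and let A be an abelian 2-subgroup of X such that every conjugate of A equals A or meets A trivially. Let B be the subgroup generated by the squares of the elements of A. Then B lies in Q, and if B is not an elementary abelian 2-group then the normal closure of B in X is commutative. -/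
theorem result {X : Type*} [Group X] [Finite X]
    (hX : Cfsg.generalizedFittingSubgroup X = Cfsg.pCore 2 X) (A : Subgroup X) (hA2 : IsPGroup 2 ↥A) (hAa : IsMulCommutative ↥A)
    (hti : ∀ h : X, A.map (MulAut.conj h).toMonoidHom = A ∨ A.map (MulAut.conj h).toMonoidHom ⊓ A = ⊥) :
    Subgroup.closure ((fun a : X => a ^ 2) '' (A : Set X)) ≤ Cfsg.pCore 2 X ∧
      (¬ Cfsg.IsElementaryAbelian 2 (Subgroup.closure ((fun a : X => a ^ 2) '' (A : Set X))) →
        IsMulCommutative ↥(Subgroup.normalClosure ((fun a : X => a ^ 2) '' (A : Set X)))) := by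
  have hA := abel_of_comm hAa
  have h2 := piGrp_of_isPGroup Nat.prime_two hA2
  have eB : closure ((fun a : X => a ^ 2) '' (A : Set X)) = ℧[2](A) := by
    unfold powerClosure; congr 1; ext y; simp [eq_comm]
  have hC := H17.centralizer_generalizedFittingSubgroup_le (G := X)
  rw [hX, pCore_eq Nat.prime_two] at hC
  rw [eB, pCore_eq Nat.prime_two]
  set Q := O[{2}]((⊤ : Subgroup X))
  have hQ : PiGrp {2} Q := pcore_pi
  have hQn : Q ⊴ ⊤ := pcore_nml
  have ti : ∀ g h, cj g A = cj h A ∨ cj g A ⊓ cj h A = ⊥ := fun g h => by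
    have e : cj g A = cj h (cj (h⁻¹ * g) A) := by rw [cj_cj, mul_inv_cancel_left]
    rw [e, ← cj_inf, cj_inj, cj_eq_bot]
    exact hti _
  have fam : ∀ {S B : Subgroup X}, PiGrp {2} S → Abel B → (∃ r ∈ B, r * r ≠ 1) →
      (∀ g h, cj g B = cj h B ∨ cj g B ⊓ cj h B = ⊥) → ∀ g h, cj g B ≤ S → cj h B ≤ S → cj g B ≤ C(cj h B) := by
    intro S B hS hB ⟨r, hr, hr1⟩ ti g h h1 h2
    by_cases e : cj g B = cj h B
    · exact e ▸ hB.cj g
    refine comm_eq_bot_iff.1 (ti_family (Δ := Set.range fun g => cj g B) hS ?_ ?_ ?_ ?_ _ ⟨g, rfl⟩ _ ⟨h, rfl⟩ h1 h2 e)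
    · rintro s - _ ⟨g, rfl⟩ -; exact ⟨s * g, cj_mul⟩
    · rintro _ ⟨g, rfl⟩; exact ⟨_, conj_mem_cj hr, by rwa [conj_mul, Ne, conj_eq_one_iff]⟩
    · rintro _ ⟨g, rfl⟩ _ ⟨h, rfl⟩; simp
    · rintro _ ⟨g, rfl⟩ _ ⟨h, rfl⟩; exact ti g h
  have a1 : ℧[2](A) ≤ Q := by
    refine mho_le_iff.2 fun a ha => ?_
    by_cases h1 : a * a = 1
    · rw [pow_two, h1]; exact one_mem _
    obtain ⟨S, hS, hAS⟩ := exists_sylow_le Nat.prime_two h2 le_top
    have hQS : Q ≤ S := hS.pcore_le
    have hn : ⊤ ≤ N(Φ(Q)) := norm_phi hQn.norm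
    have hD : PiGrp {2} (cm ⊤ Q Φ(Q)) := fun r hr hd => by_contra fun hne => by
      obtain ⟨x, hx, ho⟩ := cauchy hr hd
      have hx' : PiGrp {2}ᶜ (zpowers x) := by rw [PiGrp, card_zpowers', ho]; exact (piNat_prime hr).2 hne
      have := H1.cent_of_comm_le_phi (le_top.trans hQn.norm) (hx'.coprime' hQ)
        ((comm_mono le_rfl (zpowers_le_of_mem hx)).trans (comm_cm_le' hn (le_top.trans hn)))
      have := (hQ.elt (hC (this (mem_zpowers x)))).eq_one' (piGrp_zpowers.1 hx')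
      simp [this, eq_comm] at ho
      exact hr.ne_one ho
    refine le_pcore ⟨le_top, norm_cm le_N hQn.norm hn⟩ hD ((mem_cm hn (le_top.trans hn)).2 ⟨mem_top _, fun q hq => ?_⟩)
    have b1 := comm_of_cent (fam hS.pi hA ⟨a, ha, h1⟩ ti 1 q (by simpa using hAS) (cj_le_of_mem_N hAS (le_N (hQS hq))))
      (by simpa using ha) (conj_mem_cj (inv_mem ha))
    have b2 : ⁅a ^ 2, q⁆ = ⁅a, q⁆ ^ 2 := by
      simp only [commutatorElement_def, pow_two]
      calc _ = a * (a * (q * a⁻¹ * q⁻¹)) * (q * a⁻¹ * q⁻¹) := by group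
        _ = _ := by rw [b1]; group
    rw [b2]
    exact hQ.pow_mem_phi Nat.prime_two (comm_le_right (le_top.trans hQn.norm) (commutator_mem_commutator (mem_top a) hq))
  refine ⟨a1, fun h => isMulCommutative_closure fun x hx y hy => ?_⟩
  obtain ⟨_, ⟨a, ha, rfl⟩, hx⟩ := Group.mem_conjugatesOfSet_iff.1 hx
  obtain ⟨_, ⟨b, hb, rfl⟩, hy⟩ := Group.mem_conjugatesOfSet_iff.1 hy
  obtain ⟨g, rfl⟩ := isConj_iff.1 hx
  obtain ⟨k, rfl⟩ := isConj_iff.1 hy
  refine comm_of_cent (fam hQ (hA.mono mho_le) ?_ (fun g h => ?_) g k (cj_le_of_mem_N a1 (hQn.norm (mem_top _)))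
    (cj_le_of_mem_N a1 (hQn.norm (mem_top _)))) (conj_mem_cj (pow_mem_mho ha)) (conj_mem_cj (pow_mem_mho hb))
  · by_contra h'
    push Not at h'
    exact h (elem_two fun a ha => by rw [pow_two, h' a ha]).isElem
  · refine (ti g h).imp (fun e => by rw [cj_mho, cj_mho, e]) fun e => ?_
    exact eq_bot_iff.2 ((inf_le_inf (cj_mono mho_le) (cj_mono mho_le)).trans e.le)

end Cfsg.Agent.S1783
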