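import Cfsg.Statements.S1784
import Cfsg.Agent.H21.LX2

set_option autoImplicit false
open Cfsg

namespace Cfsg.Agent.S1784

open H18 H1 H21 Subgroup
open scoped commutatorElement

/-- Let G be a finite group and let z be an involution of G such that Q, the generalized Fitting subgroup of the centralizer C of z, is a 2-group of symplectic type (every characteristic abelian subgroup of Q is cyclic); suppose Q is extraspecial, and view Q inside G. Let α be an involution of C that is not in Q, and let Q₀ be the subgroup of those q ∈ Q whose commutator with α lies in the subgroup generated by z. Then (a) the subgroup generated by the commutators α q α⁻¹ q⁻¹, q ∈ Q, equals the centre of Q₀; and (b) if Q₀ is not contained in the product of the centralizer of α in Q with the subgroup generated by z, then some element of Q conjugates α to α z. -/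
theorem result {G : Type*} [Group G] [Finite G] (z : G) (hz : orderOf z = 2) (hQ : Cfsg.IsOfSymplecticType ↥(Cfsg.generalizedFittingSubgroup ↥(Subgroup.centralizer ({z} : Set G)))) (hE : Cfsg.IsExtraspecial 2 ↥(Cfsg.generalizedFittingSubgroup ↥(Subgroup.centralizer ({z} : Set G))))
    (α : G) (hα : orderOf α = 2) (hαC : α ∈ Subgroup.centralizer ({z} : Set G)) (hαQ : α ∉ (Cfsg.generalizedFittingSubgroup ↥(Subgroup.centralizer ({z} : Set G))).map (Subgroup.centralizer ({z} : Set G)).subtype)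
    (Q₀ : Subgroup G) (hQ₀ : ∀ q : G, q ∈ Q₀ ↔ (q ∈ (Cfsg.generalizedFittingSubgroup ↥(Subgroup.centralizer ({z} : Set G))).map (Subgroup.centralizer ({z} : Set G)).subtype ∧ α * q * α⁻¹ * q⁻¹ ∈ Subgroup.zpowers z)) :
    Subgroup.closure ((fun q : G => α * q * α⁻¹ * q⁻¹) '' ((Cfsg.generalizedFittingSubgroup ↥(Subgroup.centralizer ({z} : Set G))).map (Subgroup.centralizer ({z} : Set G)).subtype : Set G)) = (Subgroup.center ↥Q₀).map Q₀.subtype ∧
      (¬ Q₀ ≤ ((Cfsg.generalizedFittingSubgroup ↥(Subgroup.centralizer ({z} : Set G))).map (Subgroup.centralizer ({z} : Set G)).subtype ⊓ Subgroup.centralizer ({α} : Set G)) ⊔ Subgroup.zpowers z →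
        ∃ q ∈ (Cfsg.generalizedFittingSubgroup ↥(Subgroup.centralizer ({z} : Set G))).map (Subgroup.centralizer ({z} : Set G)).subtype, q * α * q⁻¹ = α * z) := by
  change Subgroup.closure (_ '' (H17.gfit C1(z) : Set G)) = _ ∧ (¬ Q₀ ≤ (H17.gfit C1(z) ⊓ _) ⊔ _ → ∃ q ∈ H17.gfit C1(z), _)
  change ∀ q, q ∈ Q₀ ↔ q ∈ H17.gfit C1(z) ∧ _ at hQ₀
  change α ∉ H17.gfit C1(z) at hαQ
  have hE' : IsExtraspecial 2 (H17.gfit C1(z)) :=
    isExtraspecial_of_equiv Nat.prime_two (equivMapOfInjective _ _ (subtype_injective _)) hE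
  obtain ⟨h, -⟩ := lx_of_gfit hz rfl hE'
  generalize H17.gfit C1(z) = Q at *
  have h2 := sq_of_orderOf hα
  have hN : α ∈ N(Q) := h.norm hαC
  have hm : ∀ q ∈ Q, α * q * α⁻¹ * q⁻¹ ∈ Q := fun q hq => mul_mem (conj_mem_N hN hq) (inv_mem hq)
  refine ⟨?_, fun hn => ?_⟩
  · rw [map_center]
    generalize hA : Subgroup.closure ((fun q : G => α * q * α⁻¹ * q⁻¹) '' (Q : Set G)) = A
    have hg : ∀ q ∈ Q, α * q * α⁻¹ * q⁻¹ ∈ A := fun q hq => hA ▸ subset_closure ⟨q, hq, rfl⟩
    have hAQ : A ≤ Q := hA ▸ (closure_le _).2 (by rintro _ ⟨q, hq, rfl⟩; exact hm q hq)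
    have hQA : Q ≤ N(A) := norm_iff.2 fun y hy a ha => by
      rw [← hA] at ha
      induction ha using closure_induction with
      | mem a ha =>
        obtain ⟨q, hq, rfl⟩ := ha
        convert mul_mem (inv_mem (hg y hy)) (hg _ (mul_mem hy hq)) using 1
        group
      | one => simp [one_mem]
      | mul a b _ _ h1 h2 => rw [← conj_mul]; exact mul_mem h1 h2
      | inv a _ h1 => rw [← conj_inv]; exact inv_mem h1
    have hZ : Z(Q) ≤ A := h.es.Z_le_of_nml Nat.prime_two ⟨hAQ, hQA⟩ fun e => hαQ (h.self (mem_C.2 fun q hq => by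
      have := eq_one_of_eq_bot e (hg q hq)
      rw [mul_inv_eq_one, mul_inv_eq_iff_eq_mul] at this
      exact this.symm))
    have fz : ∀ u ∈ zpowers z, α * u * α⁻¹ = u := fun u hu =>
      conj_eq_self_of_C1 (C1_le_of_mem_zpowers hu hαC)
    have key : ∀ q ∈ Q, ∀ y ∈ Q, ⁅α * q * α⁻¹ * q⁻¹, y⁆ = 1 ↔ ⁅q, α * y * α⁻¹ * y⁻¹⁆ = 1 := fun q hq y hy => by
      have k1 : ⁅α * q * α⁻¹, y⁆ = ⁅q, α * y * α⁻¹⁆ := by
        rw [commutatorElement_def q, ← fz _ (h.lw.comm q hq _ (conj_mem_N hN hy)), commutatorElement_def,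
          inv_of_sq h2]
        simp only [mul_inv_rev, inv_of_sq h2, mul_assoc, ← mul_assoc α α, h2, one_mul, mul_one]
      rw [comm_mul_left (h.es.commute (inv_mem hq) hy (conj_mem_N hN hq)), comm_inv_left (h.es.commute hq hy hq),
        comm_mul_right (h.es.commute hq (inv_mem hy) (conj_mem_N hN hy)), comm_inv_right (h.es.commute hq hy hy),
        k1, inv_mul_eq_one, mul_inv_eq_one, eq_comm]
    have e : Q ⊓ C(A) = Q₀ := by
      ext q
      rw [hQ₀, mem_inf, and_congr_right_iff, ← h.C_eq, ← hA, centralizer_closure, mem_centralizer_iff, mem_C]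
      refine fun hq => ⟨fun c y hy => ?_, ?_⟩
      · exact (commutatorElement_eq_one_iff_mul_comm.1 ((key q hq y hy).2
          (commutatorElement_eq_one_iff_mul_comm.2 (c _ ⟨y, hy, rfl⟩).symm))).symm
      · rintro c _ ⟨y, hy, rfl⟩
        exact (commutatorElement_eq_one_iff_mul_comm.1 ((key q hq y hy).1
          (commutatorElement_eq_one_iff_mul_comm.2 (c y hy).symm))).symm
    have e2 := h.es.cent_cent Nat.prime_two hZ hAQ
    rw [e] at e2
    refine le_antisymm (le_inf ?_ (e2.ge.trans inf_le_right)) ((inf_le_inf_right _ (e.ge.trans inf_le_left)).trans e2.le)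
    rw [← hA, closure_le]
    rintro _ ⟨q, hq, rfl⟩
    refine (hQ₀ _).2 ⟨hm q hq, ?_⟩
    convert inv_mem (h.lw.pow _ (hm q hq)) using 1
    simp only [mul_inv_rev, inv_inv, inv_of_sq h2, mul_assoc, ← mul_assoc α α, h2, one_mul]
  · by_contra hc
    push Not at hc
    refine hn fun q hq => mem_sup_left ⟨((hQ₀ q).1 hq).1, mem_C1.2 ?_⟩
    rcases h.lw.zp.1 ((hQ₀ q).1 hq).2 with e | e
    · rw [mul_inv_eq_one, mul_inv_eq_iff_eq_mul] at e
      exact e.symm
    · refine absurd ?_ (hc q ((hQ₀ q).1 hq).1)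
      rw [← e, inv_of_sq h2, show α * (α * q * α * q⁻¹) = α * α * q * α * q⁻¹ by group, h2, one_mul]

end Cfsg.Agent.S1784
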