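import Cfsg.Statements.S1785
import Cfsg.Agent.H5.TIsub

set_option autoImplicit false
open Cfsg

namespace Cfsg.Agent.S1785
open H5
open H18 Subgroup

/-- Let X be a finite 2-group having a normal elementary abelian subgroup of order at least 32. Then (a) for any two elementary abelian subgroups A, B of X of order 8 there is a chain A = A₁, A₂, …, Aₙ = B of elementary abelian subgroups of order 8 in which consecutive members commute elementwise; and (b) every elementary abelian subgroup of X of order 4 is contained in an elementary abelian subgroup of order 8. -/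
theorem result {X : Type*} [Group X] [Finite X]
    (hX : IsPGroup 2 X) (E : Subgroup X) [E.Normal] (hE : Cfsg.IsElementaryAbelian 2 E) (hE32 : 32 ≤ Nat.card ↥E) :
    (∀ A B : Subgroup X, Cfsg.IsElementaryAbelian 2 A → Nat.card ↥A = 8 → Cfsg.IsElementaryAbelian 2 B → Nat.card ↥B = 8 →
        Relation.ReflTransGen
          (fun C D : Subgroup X => Cfsg.IsElementaryAbelian 2 C ∧ Nat.card ↥C = 8 ∧ Cfsg.IsElementaryAbelian 2 D ∧ Nat.card ↥D = 8 ∧ ⁅C, D⁆ = ⊥)
          A B) ∧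
      (∀ V : Subgroup X, Cfsg.IsElementaryAbelian 2 V → Nat.card ↥V = 4 →
        ∃ A : Subgroup X, V ≤ A ∧ Cfsg.IsElementaryAbelian 2 A ∧ Nat.card ↥A = 8) := by
  have p2 := Nat.prime_two
  have hEe : Elem 2 E := elem_iff.2 hE
  have hn : ⊤ ≤ N(E) := le_normalizer_of_normal
  have mk : ∀ {n : ℕ} {A : Subgroup X}, IsElementaryAbelian 2 A → Nat.card A = 2 ^ n → PElem 2 n A ⊤ :=
    fun h1 h2 => ⟨le_top, elem_iff.2 h1, h2⟩
  have c3 : ∀ a : X, a ^ 2 = 1 → ∃ W, PElem 2 3 W (E ⊓ C1(a)) := fun a ha =>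
    exists_pelem_cent (n := 2) hEe (hn (mem_top a)) (by rw [← pow_two, ha]; exact one_mem _) hE32
  have c2 : ∀ V : Subgroup X, PElem 2 2 V ⊤ → ∃ W, PElem 2 2 W (E ⊓ C(V)) := fun V hV => by
    obtain ⟨Y, hY⟩ := hV.exists_sub p2 one_le_two
    obtain ⟨Z, hZ, hZ2, hne⟩ := hV.exists_other p2 hY.card_one
    obtain ⟨a, ha1, rfl⟩ := exists_gen_of_prime (hY.card_one ▸ p2)
    obtain ⟨b, hb1, rfl⟩ := exists_gen_of_prime (hZ2 ▸ p2)
    have ha := hY.le (mem_zpowers a)
    have hb := hZ (mem_zpowers b)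
    obtain ⟨W, hW⟩ := c3 a (hV.elem.pow a ha)
    obtain ⟨W', hW'⟩ := exists_pelem_cent (n := 1) (E := E ⊓ C1(a)) (t := b) hEe.inf_left
      (norm_inf (le_top.trans hn) (norm_C1 (zpowers_le_of_mem (mem_C1.2 (comm_of_cent hV.abel hb ha)))) (mem_zpowers b))
      (by rw [← pow_two, hV.elem.pow b hb]; exact one_mem _) (hW.card ▸ card_le hW.le)
    refine ⟨W', hW'.of_le ?_⟩
    rw [← hV.sup_eq_two p2 hY.le hZ hY.card_one hZ2 hne.symm, C_sup, C_zpowers, C_zpowers, inf_assoc]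
  have ext : ∀ V : Subgroup X, PElem 2 2 V ⊤ → ∃ e ∈ E ⊓ C(V), e ∉ V := fun V hV => by
    obtain ⟨W, hW⟩ := c2 V hV
    by_contra h
    push Not at h
    have e := hW.eq_of_le hV (hW.le.trans h)
    have := card_le ((le_inf le_rfl (cent_mono hEe.abel le_rfl (e ▸ hW.le.trans inf_le_left))).trans h)
    rw [hV.card] at this
    omega
  refine ⟨?_, fun V h1 h2 => ?_⟩
  swap
  · obtain ⟨e, he, he1⟩ := ext V (mk h1 h2)
    have := (mk (n := 2) h1 h2).sup_elt p2 (mem_top e) (hEe.pow e he.1) he.2 he1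
    exact ⟨_, le_sup_left, this.elem.isElem, this.card⟩
  have key : ∀ A : Subgroup X, PElem 2 3 A ⊤ → ∃ A' B D : Subgroup X, PElem 2 3 A' ⊤ ∧ PElem 2 3 B ⊤ ∧ PElem 2 3 D E ∧
      A ≤ C(A') ∧ A' ≤ C(B) ∧ B ≤ C(D) := by
    intro A hA
    by_cases hAE : A ≤ E
    · exact ⟨A, A, A, hA, hA, hA.of_le' hAE, hA.abel, hA.abel, hA.abel⟩
    obtain ⟨a, ha, haE⟩ := SetLike.not_le_iff_exists.1 hAE
    have ha1 : a ≠ 1 := by rintro rfl; exact haE (one_mem _)
    have ha2 := hA.elem.pow a ha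
    have hT : PiGrp {2} (⊤ : Subgroup X) := piGrp_of_isPGroup p2 (hX.to_subgroup _)
    obtain ⟨z, hz, hz1⟩ := exists_mem_ne_one' (hT.meet_cent (hT.of_le le_top) hn (by rintro rfl; simp at hE32))
    have hzc : ∀ Y : Subgroup X, z ∈ C(Y) := fun Y => C_anti le_top hz.2
    have hV0 := (pelem_one p2 le_top (hEe.card_zpowers p2 hz.1 hz1)).sup_elt p2 (mem_top a) ha2
      (zpowers_le_of_mem (hzc _) |> cent_symm |> fun h => h (mem_zpowers a)) fun h => haE (zpowers_le_of_mem hz.1 h)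
    obtain ⟨b, hb, hbV⟩ : ∃ b ∈ A, b ∉ zpowers z ⊔ zpowers a := SetLike.not_le_iff_exists.1 fun h => by
      have := card_le h
      rw [hA.card, hV0.card] at this
      omega
    have hb2 := hA.elem.pow b hb
    have hab : b ∈ C(zpowers a) := C_anti (zpowers_le_of_mem ha) (hA.abel hb)
    have hA' := hV0.sup_elt p2 (mem_top b) hb2 (by
      rw [C_sup]; exact ⟨cent_symm (zpowers_le_of_mem (hzc _)) (mem_zpowers b), hab⟩) hbV
    obtain ⟨W, hW⟩ := c2 _ ((pelem_one p2 le_top (hA.elem.card_zpowers p2 ha ha1)).sup_elt p2 (mem_top b) hb2 hab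
      fun h => hbV (mem_sup_right h))
    have hW1 := hW.le.trans inf_le_left
    have hW2 := hW.le.trans inf_le_right
    rw [C_sup] at hW2
    obtain ⟨D, hD⟩ := c3 a ha2
    have hWa : a ∈ C(W) := cent_symm (hW2.trans inf_le_left) (mem_zpowers a)
    refine ⟨_, _, D, hA', hW.top.sup_elt p2 (mem_top a) ha2 hWa fun h => haE (hW1 h), hD.of_le inf_le_left,
      cent_symm (sup_le (sup_le (zpowers_le_of_mem (hzc _)) (zpowers_le_of_mem (hA.abel ha))) (zpowers_le_of_mem (hA.abel hb))),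
      ?_, sup_le (cent_mono hEe.abel hW1 (hD.le.trans inf_le_left)) (zpowers_le_C_iff.2 (hD.le.trans inf_le_right))⟩
    rw [C_sup]
    exact sup_le (sup_le (zpowers_le_of_mem ⟨hzc _, hzc _⟩) (le_inf (zpowers_le_of_mem hWa) abel_zpowers))
      (le_inf (cent_symm (hW2.trans inf_le_right)) (zpowers_le_of_mem hab))
  intro A B a1 a2 b1 b2
  obtain ⟨A', A'', D, c1, c2, c3, c4, c5, c6⟩ := key A (mk a1 a2)
  obtain ⟨B', B'', D', d1, d2, d3, d4, d5, d6⟩ := key B (mk b1 b2)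
  have st : ∀ {C D H K : Subgroup X}, PElem 2 3 C H → PElem 2 3 D K → C ≤ C(D) → IsElementaryAbelian 2 C ∧ Nat.card C = 8 ∧
      IsElementaryAbelian 2 D ∧ Nat.card D = 8 ∧ ⁅C, D⁆ = ⊥ := fun h1 h2 h3 =>
    ⟨h1.elem.isElem, h1.card, h2.elem.isElem, h2.card, comm_eq_bot_iff.2 h3⟩
  exact .head (st (mk a1 a2) c1 c4) (.head (st c1 c2 c5) (.head (st c2 c3 c6) (.head
    (st c3 d3 (cent_mono hEe.abel c3.le d3.le)) (.head (st d3 d2 (cent_symm d6)) (.head (st d2 d1 (cent_symm d5))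
    (.single (st d1 (mk b1 b2) (cent_symm d4))))))))

end Cfsg.Agent.S1785
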