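import Cfsg.Statements.S1786
import Cfsg.Agent.H17.TV4
import Cfsg.Agent.H17.Comp

set_option autoImplicit false
open Cfsg

namespace Cfsg.Agent.S1786

open H26 H4 Subgroup H17.TV

/-- Let G be a finite group, V an elementary abelian 2-subgroup of G and M the normalizer of V; write Q for the largest normal 2-subgroup of M. Suppose (1) the generalized Fitting subgroup of M equals Q; (2) V is a maximal abelian normal subgroup of M; (3) every conjugate of V equals V or meets V trivially, and for some g ∈ G the conjugate V' = g V g⁻¹ is different from V and contained in Q. Let P be the centralizer of V in Q, W the subgroup generated by V and V', and H the subgroup generated by P and g P g⁻¹. Then: (a) V is contained in g Q g⁻¹; (b) every non-identity element of W lies in exactly one conjugate of V contained in W, H normalizes W, and H modulo the centralizer of W in H is isomorphic to the special linear group of dimension 2 over the field with |V| elements; (c) P = Q, and V equals the Frattini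 subgroup, the centre and the commutator subgroup of Q. -/
theorem result {G : Type*} [Group G] [Finite G] (V : Subgroup G)
    (hV : Cfsg.IsElementaryAbelian 2 V)
    (h1 : (Cfsg.generalizedFittingSubgroup ↥(Subgroup.normalizer (V : Set G))).map (Subgroup.normalizer (V : Set G)).subtype =
      (Cfsg.pCore 2 ↥(Subgroup.normalizer (V : Set G))).map (Subgroup.normalizer (V : Set G)).subtype)
    (h2 : ∀ A : Subgroup G, V ≤ A → A ≤ Subgroup.normalizer (V : Set G) → IsMulCommutative ↥A →
      (∀ m ∈ Subgroup.normalizer (V : Set G), ∀ a ∈ A, m * a * m⁻¹ ∈ A) → A = V)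
    (hti : ∀ x : G, V.map (MulAut.conj x).toMonoidHom = V ∨ V.map (MulAut.conj x).toMonoidHom ⊓ V = ⊥)
    (g : G) (hg : V.map (MulAut.conj g).toMonoidHom ≠ V)
    (hgQ : V.map (MulAut.conj g).toMonoidHom ≤ (Cfsg.pCore 2 ↥(Subgroup.normalizer (V : Set G))).map (Subgroup.normalizer (V : Set G)).subtype) :
    let Q : Subgroup G := (Cfsg.pCore 2 ↥(Subgroup.normalizer (V : Set G))).map (Subgroup.normalizer (V : Set G)).subtype
    let P : Subgroup G := Q ⊓ Subgroup.centralizer (V : Set G)
    let W : Subgroup G := V ⊔ V.map (MulAut.conj g).toMonoidHom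
    let H : Subgroup G := P ⊔ P.map (MulAut.conj g).toMonoidHom
    V ≤ Q.map (MulAut.conj g).toMonoidHom ∧
      (∀ w ∈ W, w ≠ 1 → ∃! U : Subgroup G, (∃ x : G, U = V.map (MulAut.conj x).toMonoidHom) ∧ U ≤ W ∧ w ∈ U) ∧
      H ≤ Subgroup.normalizer (W : Set G) ∧
      (∀ hN : ((Subgroup.centralizer (W : Set G)).subgroupOf H).Normal, ∃ (F : Type) (_ : Field F) (_ : Fintype F), Fintype.card F = Nat.card ↥V ∧
        Nonempty (↥H ⧸ (Subgroup.centralizer (W : Set G)).subgroupOf H ≃* Matrix.SpecialLinearGroup (Fin 2) F)) ∧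
      P = Q ∧ (frattini ↥Q).map Q.subtype = V ∧ (Subgroup.center ↥Q).map Q.subtype = V ∧ (commutator ↥Q).map Q.subtype = V := by
  have hy : Hy V := ⟨hV, charPOf_iff.2 (by
      have := H17.centralizer_generalizedFittingSubgroup_le ↥(𝐍 V)
      rwa [map_injective (subtype_injective _) h1] at this),
    fun A a b c d => h2 A a b c fun m hm _ hx => conj_mem_of_mem_normalizer (d hm) hx, hti⟩
  have h : Out V (cj g V) := ⟨hy, ⟨g, rfl⟩, hg, hgQ⟩
  intro Q P W H
  have eP : cj g P = PP (cj g V) := cj_PP g V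
  have eQ : Q = PP V := h.q_eq.symm
  have eH : H = PP V ⊔ PP (cj g V) := congrArg (PP V ⊔ ·) eP
  have vc : V ≤ ⁅PP V, PP V⁆ := fun v hv => by
    obtain ⟨u, hu, k⟩ := h.exu
    obtain ⟨p, hp, e⟩ := h.onto' hu k hv
    exact e ▸ commutator_mem_commutator hp (h.up hu)
  have cv : ⁅PP V, PP V⁆ ≤ V := commutator_le.2 fun a ha b hb => hy.comm_mem ha hb
  refine ⟨?_, fun w hw k => ?_, eH ▸ h.hn, by rw [eH]; exact h.sl2, h.q_eq, ?_, ?_, ?_⟩
  · have := h.symm.le
    rwa [← H26.cj_normalizer, ← cj_pCoreOf] at this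
  · obtain ⟨x, l, m⟩ : ∃ x, cj x V ≤ W ∧ w ∈ cj x V := by
      by_cases c : w ∈ V
      · exact ⟨1, by rw [H26.cj_one]; exact ⟨le_sup_left, c⟩⟩
      · obtain ⟨p, hp, m⟩ := h.part hw c
        exact ⟨p * g, by rw [H26.cj_mul]; exact ⟨h.cj_le hp, m⟩⟩
    exact ⟨_, ⟨⟨x, rfl⟩, l, m⟩, by rintro _ ⟨⟨y, rfl⟩, -, m'⟩; exact hy.eq m' m k⟩
  · rw [eQ, ← phi_eq_frattini PP_two]
    exact le_antisymm (phi_le_iff.2 ⟨cv, fun x hx => pow_two x ▸ hy.sq_mem hx⟩) (vc.trans (commutator_le_phi 2 _))
  · rw [eQ, map_subtype_center]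
    exact le_antisymm (fun x hx => hy.cen hx.1 hx.2) (le_inf hy.le (le_centralizer_iff.1 PP_c))
  · rw [eQ, map_subtype_commutator]
    exact le_antisymm cv vc

end Cfsg.Agent.S1786
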