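import Cfsg.Statements.S1829
import Cfsg.Agent.H26.Qw2
import Cfsg.Agent.H15.QwA
import Cfsg.Agent.H16.QwB
import Cfsg.Agent.H12.QwA
import Cfsg.Agent.H4.QwB
import Cfsg.Agent.H27.QwP3
import Cfsg.Agent.H23.QwP4
import Cfsg.Agent.H18.QwP5
import Cfsg.Agent.H5.QwP6
import Cfsg.Agent.H10.QwP7
import Cfsg.Agent.H17.QwP8

set_option autoImplicit false
open Cfsg

namespace Cfsg.Agent.S1829

/-- There is no non-abelian finite simple QTKE-group G with a Sylow 2-subgroup T and a maximal 2-local subgroup M containing T such that M is isomorphic to the wreath product S₄ ≀ Z₂ (the subgroup of the symmetric group of degree 8 preserving a partition into two blocks of size 4; order 1152). -/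
theorem result {G : Type*} [Group G] [Finite G] [IsSimpleGroup G]
    (hG : ¬ IsMulCommutative G) (hQ : Cfsg.IsQTKE G) (T : Sylow 2 G) (M : Subgroup G)
    (hM : M ∈ Cfsg.maxTwoLocalsContaining (T : Subgroup G))
    (hW : Nonempty (↥M ≃* ↥Cfsg.blockStabilizerS4wr2)) : False := by
  exact H326.Qw.final (H16.QwB.p0b H15.Qw.p0a) H12.QwA.p1a H4.QwB.p1b H326.Qw.p2 H27.Qw.p3 H23.QwP4.p4
    H118.Qw.p5 H5.QwP6.p6 H10.QwP7.p7 H17.Qw.p8 hG hQ T M hM hW

end Cfsg.Agent.S1829
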