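import Cfsg.Statements.S1850
import Cfsg.Agent.H17.FStar

set_option autoImplicit false
open Cfsg

namespace Cfsg.Agent.S1850
open H17 Subgroup

/-- Let G be a non-abelian finite simple QTKE-group and T a Sylow 2-subgroup of G. If U is a nontrivial 2-subgroup of G with U ∩ Z(T) ≠ 1, then F*(N_G(U)) = O₂(N_G(U)). -/
theorem result {G : Type*} [Group G] [Finite G] [IsSimpleGroup G]
    (hG : ¬ IsMulCommutative G) (hQ : Cfsg.IsQTKE G) (T : Sylow 2 G) (U : Subgroup G)
    (hU : IsPGroup 2 ↥U) (hZ : U ⊓ ((T : Subgroup G) ⊓ Subgroup.centralizer ((T : Subgroup G) : Set G)) ≠ ⊥) :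
    Subgroup.normalizer (U : Set G) ∈ Cfsg.calHe G := by
  obtain ⟨z, hz, ho⟩ := exists_orderOf_of_ne_bot (hU.to_le inf_le_left) hZ
  have h1 : IsPGroup 2 (zpowers z) := hU.to_le (zpowers_le_of_mem hz.1)
  have h2 := charP_iff_sub.2 (hQ.2.2 _ ⟨_, h1, by rintro e; rw [zpowers_eq_bot] at e; simp [e] at ho, rfl⟩
    ⟨T, le_normalizer_of_le_centralizer (le_centralizer_iff.1 (zpowers_le_of_mem hz.2.2))⟩)
  exact gfit_eq_oP_iff.2 ((charP_normalizer_iff hU).2
    (CharP.centralizer_of_le hU (zpowers_le_of_mem hz.1) ((charP_normalizer_iff h1).1 h2)))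

end Cfsg.Agent.S1850
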