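import Cfsg.Statements.S1851
import Cfsg.Agent.H17.FStar
import Cfsg.Agent.H17.Bender
import Cfsg.Agent.H26.Comm
import Cfsg.Agent.H18.BG1

set_option autoImplicit false
open Cfsg

namespace Cfsg.Agent.S1851
open H17 Subgroup
open H18 hiding cj
open scoped commutatorElement

theorem unf {G : Type*} [Group G] [Finite G] {L T : Subgroup G} (h : L ∈ calL T) :
    L ≠ ⊥ ∧ ⁅L, L⁆ = L ∧ H17.Subn (L ⊔ T) L ∧ oP 2 (L ⊔ T) ≠ ⊥ := by
  obtain ⟨⟨a, b, c, -⟩, -, d⟩ := h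
  refine ⟨fun e => a (by simp [e]), ?_, subn_iff.2 ⟨le_sup_left, c⟩, fun e => d ?_⟩
  · have := congrArg (map (L ⊔ T).subtype) b
    rwa [map_commutator, map_subgroupOf_eq_of_le le_sup_left] at this
  · exact (map_eq_bot_iff_of_injective _ (subtype_injective _)).1 e

/-- Let G be a non-abelian finite simple QTKE-group and T a Sylow 2-subgroup of G, and let L be a member of ℒ_f(G, T) (a member of ℒ(G, T) that lies in 𝒳 — L ≠ 1, L = O²(L), F*(L) = O₂(L) — and acts nontrivially on Ω₁(Z(O₂(L)))). Then (1) every member K of ℒ(G, T) containing L is again in ℒ_f(G, T) (a sharper form of (1) also compares the modules [Ω₁(Z(R)), L] and [Ω₁(Z(R')), K] for suitable 2-subgroups R, R'; that comparison is not included); and (2) if L is maximal under inclusion among the members of ℒ_f(G, T), then L is a maximal member of ℒ(G, T), hence a member of ℒ_f*(G, T). -/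
theorem result {G : Type*} [Group G] [Finite G] [IsSimpleGroup G]
    (hG : ¬ IsMulCommutative G) (hQ : Cfsg.IsQTKE G) (T : Sylow 2 G) (L : Subgroup G)
    (hL : L ∈ Cfsg.calLf (T : Subgroup G)) :
    (∀ K ∈ Cfsg.calL (T : Subgroup G), L ≤ K → K ∈ Cfsg.calLf (T : Subgroup G)) ∧
    ((∀ K ∈ Cfsg.calLf (T : Subgroup G), L ≤ K → K = L) → L ∈ Cfsg.calLfMax (T : Subgroup G)) := by
  suffices h : ∀ K ∈ Cfsg.calL (T : Subgroup G), L ≤ K → K ∈ Cfsg.calLf (T : Subgroup G) from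
    ⟨h, fun h' => ⟨⟨hL.1, fun K hK hle => h' K (h K hK hle) hle⟩, hL.2⟩⟩
  intro K hK hle
  have p2 := Nat.prime_two
  obtain ⟨k1, k2, k3, k4⟩ := unf hK
  obtain ⟨-, l2, l3, -⟩ := unf hL.1
  have hT : IsSyl 2 (T : Subgroup G) ⊤ := isSyl_sylow T
  have hc : CharP 2 (K ⊔ T) := by
    have hn := le_normalizer_oP 2 (K ⊔ T)
    have a1 := charP_iff_sub.2 (hQ.2.2 _ ⟨_, oP_pgroup 2 _, k4, rfl⟩ ⟨T, le_sup_right.trans hn⟩)
    have a2 : oP 2 N(oP 2 (K ⊔ T)) ≤ oP 2 (K ⊔ T) := (le_inf le_rfl (((hT.mono (le_sup_right.trans hn) le_top).oP_le).trans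
      le_sup_right)).trans (oP_inf_le hn)
    exact ((inf_le_inf hn (C_anti a2)).trans a1).trans a2
  have hcK := hc.of_subn k3
  refine ⟨hK, ⟨k1, ?_, gfit_eq_oP_iff.2 hcK⟩, fun h0 => hL.2.2 ?_⟩
  · refine Eq.trans ?_ (oUp_eq_self_of_perfect (p := 2) k2)
    simp only [oddGenerated, oUp, Nat.two_dvd_ne_zero, Nat.odd_iff]
  change ⁅Ω[2](Z(oP 2 K)), K⁆ = ⊥ at h0
  change ⁅Ω[2](Z(oP 2 L)), L⁆ = ⊥
  set P := oP 2 K
  have hP : PiGrp {2} P := piGrp_of_isPGroup p2 (oP_pgroup 2 K)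
  have hLP : L ≤ N(P) := hle.trans (le_normalizer_oP 2 K)
  have hPT : P ≤ T := k3.oP_le_oP.trans (hT.mono le_sup_right le_top).oP_le
  have a1 : ⁅P, L⁆ ≤ L := l3.le_of_le_commutator (comm_le_of_le (hPT.trans le_sup_right) le_sup_left) le_rfl
    (H26.commutator_commutator_eq_of_pResidualOf_eq (hP.of_le (comm_le_left hLP)).isPGroup
      ((map_pResidual L).trans (oUp_eq_self_of_perfect l2))).ge
  have a2 : ⁅P, L⁆ ≤ oP 2 L := le_oP a1 norm_comm_right (hP.of_le (comm_le_left hLP)).isPGroup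
  have hPL : P ≤ N(L) := norm_of_comm_le a1
  have hW : Elem 2 Ω[2](Z(oP 2 L)) := omegaZ_elem
  have hW2 : Ω[2](Z(oP 2 L)) ≤ C(oP 2 L) := omega_le.trans inf_le_right
  refine card_induction (P := fun V => V ≤ Ω[2](Z(oP 2 L)) → P ≤ N(V) → L ≤ N(V) → ⁅V, L⁆ = ⊥) (fun V ih hV h1 h2 => ?_) _
    le_rfl (norm_omega (norm_Z (hPL.trans (normalizer_le_oP 2 L)))) (norm_omega (norm_Z (le_normalizer_oP 2 L)))
  by_cases e : V = ⊥
  · rw [e, commutator_bot_left]
  have hV2 := (hW.of_le hV).pi p2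
  have b1 := hP.comm_lt hV2 h1 e
  have b2 := ih _ (card_lt b1) (b1.le.trans hV) norm_comm_right (norm_comm h2 hLP)
  have b3 : ⁅⁅L, V⁆, P⁆ = ⊥ := three_subgroup b2 (comm_eq_bot_iff.2 (cent_symm ((hV.trans hW2).trans (C_anti a2))))
  refine commutator_eq_bot_of_oUp hV2.isPGroup (oUp_eq_self_of_perfect l2) h2 (eq_bot_iff.2 (le_trans (comm_mono ?_ hle) h0.le))
  rw [comm_comm] at b3 ⊢
  have b4 := (comm_le_right h2).trans hV
  have b5 : ⁅L, V⁆ ≤ C(P) := cent_symm (comm_eq_bot_iff.1 b3)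
  exact (hW.of_le b4).le_omega (le_inf ((le_inf (b4.trans (omega_le.trans (inf_le_left.trans ((oP_le 2 L).trans hle)))) b5).trans
    hcK) b5)

end Cfsg.Agent.S1851
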