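import Cfsg.Statements.S1957
import Cfsg.Agent.H18.BG1
import Cfsg.Agent.H22.Count
import Cfsg.Agent.H9.MaxClass

set_option autoImplicit false
open Cfsg

namespace Cfsg.Agent.S1957
open H18 Subgroup
open scoped commutatorElement

/-- Let `G` be a finite non-abelian simple group in which every local subgroup is solvable and which is of characteristic 2 type. Let `P` be a Sylow 2-subgroup of `G` and `U` a normal subgroup of `P` that is a four-group, with `U` central in `P` if the centre of `P` is not cyclic. Then `U` centralizes every subgroup of odd order of `G` that it normalizes. -/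
theorem result {G : Type*} [Group G] [Finite G]
    [IsSimpleGroup G] (hna : ¬ IsMulCommutative G) (hN : Cfsg.IsNGroup G) (h2 : Cfsg.IsCharacteristicTwoType G)
    (P : Sylow 2 G) (U : Subgroup G) (hUP : U ≤ (P : Subgroup G)) (hUn : (P : Subgroup G) ≤ Subgroup.normalizer (U : Set G))
    (hU4 : IsKleinFour ↥U)
    (hUZ : ¬ IsCyclic ↥((P : Subgroup G) ⊓ Subgroup.centralizer ((P : Subgroup G) : Set G)) →
      U ≤ Subgroup.centralizer ((P : Subgroup G) : Set G))
    (K : Subgroup G) (hK : Odd (Nat.card K)) (hUK : U ≤ Subgroup.normalizer (K : Set G)) :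
    U ≤ Subgroup.centralizer (K : Set G) := by
  have p2 := Nat.prime_two
  have hU := H9.pElem_of_isKleinFour hU4 hUP
  have hP := hall_sylow_top p2 P
  have hK' : PiGrp {2}ᶜ K := (piNat_compl_iff p2).2 hK.not_two_dvd_nat
  obtain ⟨z, hz, z1⟩ := exists_mem_ne_one' (hP.pi.meet_cent (hU.pi p2) hUn (hU.ne_bot p2 two_ne_zero))
  have cz := hU.elem.card_zpowers p2 hz.1 z1
  obtain ⟨Y, hY, cY, ne⟩ := hU.exists_other p2 cz
  obtain ⟨v, v1, rfl⟩ := exists_gen_of_prime (cY ▸ p2)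
  have hv := hY (mem_zpowers v)
  have hT : (P : Subgroup G) ⊓ C1(v) ≤ C(U) := by
    rw [← hU.sup_eq_two p2 hY (zpowers_le.2 hz.1) cY cz ne, C_sup, C_zpowers, C_zpowers]
    exact le_inf inf_le_right (inf_le_left.trans (le_C1_iff.2 hz.2))
  have hi : C1(v).relIndex P ≤ 2 := by
    have a : C1(v).relIndex P ≤ 3 := by
      rw [← H22.ncard_conj_by_subgroup]
      refine (Set.ncard_le_ncard (t := (U : Set G) \ {1}) ?_).trans ?_
      · rintro _ ⟨n, hn, rfl⟩
        exact ⟨conj_mem hUn hn hv, fun e => v1 (conj_eq_one_iff'.1 e)⟩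
      · rw [Set.ncard_diff_singleton_of_mem U.one_mem, ← Nat.card_coe_set_eq]; rw [show Nat.card (U : Set G) = 2 ^ 2 from hU.card]; norm_num
    by_contra! h
    have := (hP.pi.relIndex (A := C1(v))).eq_of_dvd Nat.prime_three (by rw [show C1(v).relIndex P = 3 by omega])
    omega
  refine cent_symm (coprime_abelian_gen_cent1 hU.abel (hU.not_cyc p2 le_rfl) hUK ((hU.pi p2).coprime hK') fun u hu u1 => ?_)
  have cu := hU.elem.card_zpowers p2 hu u1
  have hN : N(zpowers u) = C1(u) := le_antisymm (by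
    rw [← C_zpowers]; exact relIndex_eq_one_iff.1 (Nat.dvd_one.1 (prime_relIndex_C_dvd p2 cu le_rfl))) C1_le_N_zpowers
  have hc : C1(u) ⊓ C(O[{2}](C1(u))) ≤ O[{2}](C1(u)) := by
    have := h2.2 _ (piGrp_of_prime p2 cu).isPGroup (ne_bot_of_prime (cu ▸ p2))
    rw [hN] at this
    rw [← pCore_map p2]
    exact fun x hx => ⟨⟨x, hx.1⟩, this fun y hy => Subtype.ext (hx.2 y ⟨y, hy, rfl⟩), rfl⟩
  obtain ⟨R, hR, hTR⟩ := exists_sylow_le p2 hP.pi.inf_left (hT.trans (C_le_C1 hu))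
  have hUT : U ≤ (P : Subgroup G) ⊓ C1(v) := le_inf hUP (hU.abel.trans (C_le_C1 hv))
  have a : ⁅R, U⁆ ≤ zpowers u := by
    by_cases h : R ≤ C(U)
    · rw [comm_eq_bot_iff.2 h]; exact bot_le
    have b1 := card_le (le_inf hTR hT)
    have b2 := card_mul_relIndex' (A := C(U)) (B := R)
    have b3 := card_mul_relIndex' (A := C1(v)) (B := (P : Subgroup G))
    have b4 := one_lt_relIndex h
    have b5 := Nat.le_of_dvd card_pos' (hP.card_dvd le_top hR.pi)
    rw [inf_comm] at b2 b3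
    have b6 : 0 < Nat.card ↥((P : Subgroup G) ⊓ C1(v)) := card_pos'
    have c1 : C(U).relIndex R = 2 := by nlinarith
    have c2 : Nat.card (P : Subgroup G) ≤ Nat.card R := by nlinarith
    have c3 : Cyc Z((P : Subgroup G)) := by
      by_contra e
      exact h ((eq_of_card_ge ((le_inf le_rfl ((cent_symm (hUZ e)).trans (C_le_C1 hv))).trans hTR) b5).ge.trans
        (cent_symm (hUZ e)))
    obtain ⟨g, -, e⟩ := sylow_conj p2 hP (hP.of_card_le le_top hR.pi c2)
    have c4 : Cyc Z(R) := by rw [e, ← cj_Z]; exact c3.cj g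
    have c5 : (R ⊓ C(U)).relIndex R = 2 := by rw [relIndex_inf_left, c1]
    have c6 := (hR.pi.nml_of_relIndex p2 inf_le_left c5).Z.omega (p := 2)
    refine commutator_le.2 fun r hr w hw => ?_
    by_cases h1 : r ∈ C(U)
    · rw [commutatorElement_eq_one_iff_mul_comm.2 (mem_C.1 h1 w hw).symm]; exact one_mem _
    have d1 : w ∈ Ω[2](Z(R ⊓ C(U))) := mem_omega ⟨⟨hTR (hUT hw), hU.abel hw⟩, cent_symm inf_le_right hw⟩ (hU.elem.pow w hw)
    have d2 : ⁅r, w⁆ ∈ Ω[2](Z(R ⊓ C(U))) := mul_mem (conj_mem c6.norm hr d1) (inv_mem d1)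
    have d3 := omegaZ_elem.pow _ d2
    refine c4.mem_of_pow (zpowers_le.2 ⟨hTR (hUT hu), le_C1_iff.1 hR.le⟩) ⟨c6.le d2, mem_C.2 fun s hs => ?_⟩ (by rwa [cu])
    by_cases h2 : s ∈ C(U)
    · exact comm_of_cent omegaZ_cent (⟨hs, h2⟩ : s ∈ R ⊓ C(U)) d2
    have d4 := comm_of_cent omegaZ_cent (⟨mul_mem hs hr, H9.mul_mem_of_relIndex_two c1 hs hr h2 h1⟩ : s * r ∈ R ⊓ C(U)) d2
    have d5 := mem_C.1 (H9.mul_mem_of_relIndex_two c1 hr hr h1 h1) w hw
    have d6 : r * ⁅r, w⁆ = ⁅r, w⁆ * r := by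
      rw [show r * ⁅r, w⁆ = ⁅r, w⁆⁻¹ * r by
        rw [commutatorElement_def]
        calc _ = (r * r) * w * r⁻¹ * w⁻¹ := by group
          _ = w * r * w⁻¹ := by rw [← d5]; group
          _ = _ := by group, inv_eq_of_mul_eq_one_right (by rw [← sq, d3])]
    calc s * ⁅r, w⁆ = s * (⁅r, w⁆ * r) * r⁻¹ := by group
      _ = s * r * ⁅r, w⁆ * r⁻¹ := by rw [← d6]; group
      _ = _ := by rw [d4]; group
  have n : ∀ {X}, X ≤ C1(u) → X ≤ N(zpowers u) := fun h => h.trans hN.ge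
  have hUu : U ≤ C1(u) := hU.abel.trans (C_le_C1 hu)
  have a1 := cent_symm ((comm_le_iff_quo (n pcore_le) (n hUu)).1 ((comm_mono hR.pcore_le le_rfl).trans a))
  have a2 := comm_cent_of_cent (mim_norm (f := coset (zpowers u)) ((inf_le_right : K ⊓ C1(u) ≤ _).trans pcore_nml.norm)) a1
  rw [← mim_comm (n inf_le_right) (n hUu)] at a2
  have a3 : ⁅K ⊓ C1(u), U⁆ ≤ C1(u) := comm_le_of_le inf_le_right hUu
  have a4 : PiGrp {2}ᶜ ⁅K ⊓ C1(u), U⁆ := hK'.of_le ((comm_mono inf_le_left le_rfl).trans (comm_le_left hUK))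
  have a5 := H1.cent_of_comm_le ((comm_le_iff_quo (n pcore_le) (n a3)).2 (cent_symm a2)) (zpowers_le_C_iff.2 a3)
    (a4.coprime' (piGrp_of_prime p2 cu))
  exact comm_eq_bot_iff.1 (PiGrp.eq_bot (pcore_pi.of_le ((le_inf a3 (cent_symm a5)).trans hc)) a4)

end Cfsg.Agent.S1957
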