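import Cfsg.Statements.S1958
import Cfsg.Agent.H17.Bal
import Cfsg.Agent.H27.Alperin

set_option autoImplicit false
open Cfsg

namespace Cfsg.Agent.S1958

open H26 H27 Subgroup

theorem aux {G : Type*} [Group G] [Finite G]
    (p : ℕ) [Fact p.Prime] (x y : G) (hx : orderOf x = p) (hxy : x * y = y * x)
    (hCy : Group.IsSolvable ↥(Subgroup.centralizer ({y} : Set G))) :
    Cfsg.centralizerPPrimeCore p x ⊓ Subgroup.centralizer {y} ≤ Cfsg.centralizerPPrimeCore p y ⊓ Subgroup.centralizer {x} := by
  have hx' : x ∈ Subgroup.centralizer ({y} : Set G) :=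
    Subgroup.mem_centralizer_singleton_iff.2 hxy
  have h1 := H17.oQ_centralizer_le_of_solvable hCy
    (H17.isPGroup_zpowers_of_orderOf hx) (Subgroup.zpowers_le.mpr hx')
  rw [← H17.centralizer_singleton_eq_zpowers] at h1
  refine le_inf (le_trans ?_ h1) (inf_le_left.trans (H17.oQ_le p _))
  exact le_trans (le_inf inf_le_left (le_inf inf_le_right (inf_le_left.trans (H17.oQ_le p _))))
    (H17.oQ_inf_le inf_le_right)

/-- Let `G` be a finite group, `p` a prime, and `x, y` commuting elements of order `p` whose centralizers `C_G(x)` and `C_G(y)` are both solvable. Then `O_{p'}(C_G(x)) ∩ C_G(y) = O_{p'}(C_G(y)) ∩ C_G(x)` (balance). -/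
theorem result {G : Type*} [Group G] [Finite G]
    (p : ℕ) [Fact p.Prime] (x y : G) (hx : orderOf x = p) (hy : orderOf y = p) (hxy : x * y = y * x)
    (hCx : Group.IsSolvable ↥(Subgroup.centralizer ({x} : Set G))) (hCy : Group.IsSolvable ↥(Subgroup.centralizer ({y} : Set G))) :
    Cfsg.centralizerPPrimeCore p x ⊓ Subgroup.centralizer {y} = Cfsg.centralizerPPrimeCore p y ⊓ Subgroup.centralizer {x} := by
  exact le_antisymm (aux p x y hx hxy hCy) (aux p y x hy hxy.symm hCx)

end Cfsg.Agent.S1958
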