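import Cfsg.Statements.S1961
import Cfsg.Agent.H27.ConjFun

set_option autoImplicit false
open Cfsg

namespace Cfsg.Agent.S1961

open H26 H27 Subgroup

/-- Local-to-global control of strong fusion through well-placed subgroups. Let p be a prime, G a finite group with Sylow p-subgroup S, and W a conjugacy functor for p on G. If W controls strong fusion in N_G(T) for every nonidentity subgroup T of S that is well placed in S with respect to W, then W controls strong fusion in G. -/
theorem result {G : Type*} [Group G] [Finite G] {p : ℕ} [Fact p.Prime] (S : Sylow p G) (W : Subgroup G → Subgroup G) (hW : Cfsg.IsConjugacyFunctor p W) (hloc : ∀ T : Subgroup G, T ≠ ⊥ → Cfsg.IsWellPlaced p W (S : Subgroup G) T → Cfsg.ControlsStrongFusionIn p W (Subgroup.normalizer ((T : Subgroup G) : Set G))) : Cfsg.ControlsStrongFusionIn p W ⊤ := by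
  have hS := isSyl_top S
  have h𝓦 := singleton_cf hW
  refine controlsStrongFusionIn_iff_family.2 ((famFus_iff h𝓦 hS).2 (famFus_of_local h𝓦 hS fun T hT hne => ?_))
  obtain ⟨k, hk, -⟩ := exists_wellPlaced hW hS hT
  have hU := ((isWellPlaced_iff hW hS.isP).1 hk).1
  refine ⟨k, mem_top k, hU, (famFus_iff h𝓦 hU.syl).1 (controlsStrongFusionIn_iff_family.1 ?_)⟩
  rw [top_inf_eq]
  exact hloc _ (mt cj_eq_bot_iff.1 hne) hk

end Cfsg.Agent.S1961
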