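import Cfsg.Statements.S1966
import Cfsg.Agent.H27.ConjFun

set_option autoImplicit false
open Cfsg

namespace Cfsg.Agent.S1966

open H26 H27 Subgroup

/-- Let p be a prime, G a finite group with Sylow p-subgroup S and 𝓕 a conjugation family for S in G. Then the members of 𝓕 containing O_p(G) still form a conjugation family for S in G. -/
theorem result {G : Type*} [Group G] [Finite G] {p : ℕ} [Fact p.Prime] (S : Sylow p G) (𝓕 : Set (Subgroup G)) (h : Cfsg.IsConjugationFamily 𝓕 (S : Subgroup G)) : Cfsg.IsConjugationFamily {T : Subgroup G | T ∈ 𝓕 ∧ Cfsg.pCore p G ≤ T} (S : Subgroup G) := by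
  obtain ⟨h1, h2⟩ := isConjugationFamily_iff.1 h
  refine isConjugationFamily_iff.2 ⟨fun T hT => h1 T hT.1, fun A g hA hgA => ?_⟩
  have hO : pCore p G ≤ (S : Subgroup G) := by
    rw [← pCoreOf_top]; exact (isSyl_top S).pCoreOf_le
  have e : ∀ c : G, cj c (A ⊔ pCore p G) = cj c A ⊔ pCore p G := fun c => by rw [cj_sup, cj_eq_of_normal c (pCore p G)]
  refine (h2 (A ⊔ pCore p G) g (sup_le hA hO) (by rw [e]; exact sup_le hgA hO)).mono' ?_
  rintro c x ⟨T, hT, hle⟩
  rw [e] at hle
  exact ⟨T, ⟨⟨hT.1, le_sup_right.trans hle⟩, hT.2⟩, le_sup_left.trans hle⟩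

end Cfsg.Agent.S1966
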