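import Cfsg.Statements.S1985
import Cfsg.Agent.H27.WeakCl

set_option autoImplicit false
universe u
open Cfsg

namespace Cfsg.Agent.S1985

open H26 H27 Subgroup

/-- Let p be an odd prime and G a finite group. Then the lower K-infinity subgroup controls weak closure of elements in G: the lower K-infinity subgroup of every p-subgroup P of G contains Z(P), and for some (equivalently, every) Sylow p-subgroup S of G, with K the lower K-infinity subgroup of S, every element of S commuting with all of N_G(K) is weakly closed in S with respect to G (every G-conjugate of it lying in S equals it). -/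
theorem result {G : Type u} [Group G] [Finite G] {p : ℕ} [Fact p.Prime] (hp : p ≠ 2) : Cfsg.ControlsWeakClosureOfElementsIn p (Cfsg.inducedFunctor (G := G) Cfsg.kInfLower) ⊤ := by
  refine wc_of_engel (isConjugacyFunctor_induced isCharPFunctor_kInfLower)
    (fun P _ => (inducedFunctor_kInfLower P).symm ▸ center_le_kL P) (fun H T hT hn => ?_) ⊤
  rw [inducedFunctor_kInfLower] at hn
  obtain ⟨g, h1, h2, h3⟩ := exists_kinf_quadratic hT (Or.inl hn)
  refine ⟨g, h1, h2, fun U V h4 h5 => ?_⟩
  have := (Fact.out : p.Prime).two_le
  refine le_trans (ic_le_of_le (Y := ⊥) le_normalizer_of_normal (i := 2) (by omega) ?_) bot_le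
  rw [← h3]
  exact ic_mono h5 le_rfl 2

end Cfsg.Agent.S1985
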