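import Cfsg.Statements.S1989
import Cfsg.Agent.H27.Qd

set_option autoImplicit false
universe u
open Cfsg

namespace Cfsg.Agent.S1989

open H26 H27 Subgroup

/-- Let p be an odd prime and G a finite group. Then Qd(p) (the natural semidirect product of an elementary abelian group of order p² by SL₂(p)) is not involved in G if and only if, in every section K/R of G and for every Sylow p-subgroup T of K/R, the lower K-infinity subgroup of T controls strong fusion in K/R. -/
theorem result {G : Type u} [Group G] [Finite G] {p : ℕ} [Fact p.Prime] (hp : p ≠ 2) : ¬ Cfsg.Involves ↥(Cfsg.qd p) G ↔ ∀ (K R : Subgroup G) [hR : (R.subgroupOf K).Normal], ∀ T : Sylow p (↥K ⧸ R.subgroupOf K), Cfsg.ControlsStrongFusion p (Cfsg.inducedFunctor (G := (↥K ⧸ R.subgroupOf K)) Cfsg.kInfLower (T : Subgroup (↥K ⧸ R.subgroupOf K))) := by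
  refine ⟨fun h K R _ T => (kinf_fusion (fun Y _ hY => have := Inv.finite hY
    pStable_of_not_involves_qd hp fun h' => h (Inv.trans h' hY)) _ (involves_section K R) (isSyl_top T)).1, ?_⟩
  rintro h ⟨K, R, _, ⟨e⟩⟩
  obtain ⟨T⟩ := (inferInstance : Nonempty (Sylow p (K ⧸ R.subgroupOf K)))
  have hW := isCharPFunctor_kInfLower (p := p)
  have hcf := isConjugacyFunctor_induced (G := K ⧸ R.subgroupOf K) hW
  have h1 := (controlsStrongFusion_iff_ctl (isSyl_top T) (induced_le _ _) (cf_le_normalizer hcf T.isPGroup')).1 (h K R T)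
  rw [(qd_normalizer_eq e (isSyl_top T) (chIn_induced hW T.isPGroup')
    (cf_ne_bot hcf T.isPGroup' (sylow_ne_bot_of_equiv_qd e (isSyl_top T)))).1] at h1
  exact not_ctl_qd e (isSyl_top T) h1

end Cfsg.Agent.S1989
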