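import Cfsg.Statements.S1997
import Cfsg.Agent.H27.SecCor

set_option autoImplicit false
universe u
open Cfsg

namespace Cfsg.Agent.S1997

open H26 H27 Subgroup

/-- Let p be a prime, G a finite group with Sylow p-subgroup S, and W₁, W₂ two isomorphism-invariant p-group functors (W assigns to every group Q a subgroup W(Q), nontrivial whenever Q is a nontrivial finite p-group, and every isomorphism from a finite p-group Q onto a group R carries W(Q) onto W(R)). Suppose that G* = C_{G*}(Ω₁Z(S*)) N_{G*}(W₁(S*)) = C_{G*}(Ω₁Z(S*)) N_{G*}(W₂(S*)) = N_{G*}(W₁(S*)) N_{G*}(W₂(S*)) whenever G* = K/R is a section of G with C_{G*}(O_p(G*)) ≤ O_p(G*) and S* is a Sylow p-subgroup of G*, where Ω₁Z denotes the subgroup generated by the elements of order dividing p in the centre. Suppose also Ω₁Z(S) ≤ W₁(S) ∩ W₂(S), and let A be the normal closure of Ω₁Z(S) in N_G(W₁(S)). Then A is an elementary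 abelian subgroup of S, strongly closed in S with respect to G, and A controls strong fusion in G. -/
theorem result {G : Type u} [Group G] [Finite G] {p : ℕ} [Fact p.Prime] (S : Sylow p G) (W₁ W₂ : ∀ (Q : Type u) [Group Q], Subgroup Q) (hW₁ : Cfsg.IsCharPFunctor.{u} p W₁) (hW₂ : Cfsg.IsCharPFunctor.{u} p W₂) (hfac : ∀ (K R : Subgroup G) [hR : (R.subgroupOf K).Normal], Subgroup.centralizer ((Cfsg.pCore p (↥K ⧸ R.subgroupOf K) : Subgroup (↥K ⧸ R.subgroupOf K)) : Set (↥K ⧸ R.subgroupOf K)) ≤ Cfsg.pCore p (↥K ⧸ R.subgroupOf K) → ∀ T : Sylow p (↥K ⧸ R.subgroupOf K), (∀ x : (↥K ⧸ R.subgroupOf K), ∃ a ∈ Subgroup.centralizer ((Cfsg.omegaOne p ((T : Subgroup (↥K ⧸ R.subgroupOf K)) ⊓ Subgroup.centralizer (((T : Subgroup (↥K ⧸ R.subgroupOf K)) : Subgroup (↥K ⧸ R.subgroupOf K)) : Set (↥K ⧸ R.subgroupOf K))) : Subgroup (↥K ⧸ R.subgroupOf K)) : Set (↥K ⧸ R.subgroupOf K)), ∃ b ∈ Subgroup.normalizer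 ((Cfsg.inducedFunctor (G := (↥K ⧸ R.subgroupOf K)) W₁ (T : Subgroup (↥K ⧸ R.subgroupOf K)) : Subgroup (↥K ⧸ R.subgroupOf K)) : Set (↥K ⧸ R.subgroupOf K)), x = a * b) ∧ (∀ x : (↥K ⧸ R.subgroupOf K), ∃ a ∈ Subgroup.centralizer ((Cfsg.omegaOne p ((T : Subgroup (↥K ⧸ R.subgroupOf K)) ⊓ Subgroup.centralizer (((T : Subgroup (↥K ⧸ R.subgroupOf K)) : Subgroup (↥K ⧸ R.subgroupOf K)) : Set (↥K ⧸ R.subgroupOf K))) : Subgroup (↥K ⧸ R.subgroupOf K)) : Set (↥K ⧸ R.subgroupOf K)), ∃ b ∈ Subgroup.normalizer ((Cfsg.inducedFunctor (G := (↥K ⧸ R.subgroupOf K)) W₂ (T : Subgroup (↥K ⧸ R.subgroupOf K)) : Subgroup (↥K ⧸ R.subgroupOf K)) : Set (↥K ⧸ R.subgroupOf K)), x = a * b) ∧ (∀ x : (↥K ⧸ R.subgroupOf K), ∃ a ∈ Subgroup.normalizer ((Cfsg.inducedFunctor (G := (↥K ⧸ R.subgroupOf K)) W₁ (T : Subgroup (↥K ⧸ R.subgroupOf K)) : Subgroup (↥K ⧸ R.subgroupOf K)) : Set (↥K ⧸ R.subgroupOf K)), ∃ b ∈ Subgroup.normalizer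 ((Cfsg.inducedFunctor (G := (↥K ⧸ R.subgroupOf K)) W₂ (T : Subgroup (↥K ⧸ R.subgroupOf K)) : Subgroup (↥K ⧸ R.subgroupOf K)) : Set (↥K ⧸ R.subgroupOf K)), x = a * b)) (hZ : Cfsg.omegaOne p ((S : Subgroup G) ⊓ Subgroup.centralizer (((S : Subgroup G) : Subgroup G) : Set G)) ≤ Cfsg.inducedFunctor (G := G) W₁ (S : Subgroup G) ⊓ Cfsg.inducedFunctor (G := G) W₂ (S : Subgroup G)) (N₁ : Subgroup G) (hN₁ : N₁ = Subgroup.normalizer ((Cfsg.inducedFunctor (G := G) W₁ (S : Subgroup G) : Subgroup G) : Set G)) (A : Subgroup G) (hA : A = (Subgroup.normalClosure (((Cfsg.omegaOne p ((S : Subgroup G) ⊓ Subgroup.centralizer (((S : Subgroup G) : Subgroup G) : Set G))).subgroupOf N₁ : Subgroup ↥N₁) : Set ↥N₁)).map N₁.subtype) : A ≤ (S : Subgroup G) ∧ Cfsg.IsElementaryAbelian p A ∧ Cfsg.IsStronglyClosed A (S : Subgroup G) ∧ Cfsg.ControlsStrongFusion p A := by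
  have hS := isSyl_top S
  set Z := omegaOne p ((S : Subgroup G) ⊓ 𝐂 (S : Subgroup G)) with hZdef
  set N₂ := 𝐍 (inducedFunctor W₂ (S : Subgroup G))
  have hS1 : (S : Subgroup G) ≤ N₁ := hN₁ ▸ cf_le_normalizer (isConjugacyFunctor_induced hW₁) hS.isP
  have hS2 : (S : Subgroup G) ≤ N₂ := cf_le_normalizer (isConjugacyFunctor_induced hW₂) hS.isP
  have hZS : Z ≤ S := (omegaOne_le _ _).trans inf_le_left
  have hZ1 : Z ≤ pCoreOf p N₁ := (hZ.trans inf_le_left).trans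
    (le_pCoreOf (hS.isP.to_le (induced_le _ _)) ((induced_le _ _).trans hS1) hN₁.le)
  have hZ2 : Z ≤ pCoreOf p N₂ := (hZ.trans inf_le_right).trans
    (le_pCoreOf (hS.isP.to_le (induced_le _ _)) ((induced_le _ _).trans hS2) le_rfl)
  have F1 := fz_of_sections hW₂ (fun K R _ hC T => (hfac K R hC T).2.1) (hS.mono hS1 le_top) hZ1
  have F2 := fz_of_sections hW₁ (fun K R _ hC T => (hfac K R hC T).1) (hS.mono hS2 le_top) hZ2
  rw [← hN₁] at F2
  set B := ⨆ g : ↥(N₁ ⊓ N₂), cj (g : G) Z with hB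
  have hBn : ∀ N : Subgroup G, N₁ ⊓ N₂ ≤ N → (∀ x ∈ N, ∃ a ∈ 𝐂 Z, ∃ b ∈ N₁ ⊓ N₂, x = a * b) → N ≤ 𝐍 B := by
    intro N h1 h2
    refine le_normalizer_iff_cj.2 fun x hx => ?_
    rw [hB, cj_iSup]
    refine iSup_le fun g => ?_
    obtain ⟨a, ha, b, hb, e⟩ := h2 _ (inv_mem (mul_mem hx (h1 g.2)))
    rw [← cj_mul, inv_eq_iff_eq_inv.1 e, mul_inv_rev, cj_mul, cj_eq_of_mem_centralizer (inv_mem ha)]
    exact le_iSup (fun g : ↥(N₁ ⊓ N₂) => cj (g : G) Z) ⟨b⁻¹, inv_mem hb⟩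
  have hB1 : N₁ ≤ 𝐍 B := hBn _ inf_le_left F1
  have hB2 : N₂ ≤ 𝐍 B := hBn _ inf_le_right (by rw [inf_comm]; exact F2)
  have hZB : Z ≤ B := by
    have := le_iSup (fun g : ↥(N₁ ⊓ N₂) => cj (g : G) Z) 1
    simpa only [OneMemClass.coe_one, cj_one] using this
  have hmin : ∀ C : Subgroup G, Z ≤ C → N₁ ≤ 𝐍 C → B ≤ C := fun C h1 h2 =>
    iSup_le fun g => cj_le_of_mem_normalizer h1 (h2 g.2.1)
  have hAB : A = B := by
    refine le_antisymm ?_ (hmin A ?_ ?_)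
    · rw [hA, map_le_iff_le_comap]
      have : (B.subgroupOf N₁).Normal := (normal_subgroupOf_iff_le_normalizer (hmin _ (hZS.trans hS1) le_normalizer)).2 hB1
      exact normalClosure_le_normal (N := B.subgroupOf N₁) (comap_mono hZB)
    · rw [hA]
      intro z hz
      exact ⟨⟨z, hS1 (hZS hz)⟩, subset_normalClosure hz, rfl⟩
    · rw [hA]
      exact normal_iff_le_normalizer_map_subtype.1 inferInstance
  have hRS : pCoreOf p N₁ ≤ S := (hS.mono hS1 le_top).pCoreOf_le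
  have hBR : B ≤ omegaOne p (pCoreOf p N₁ ⊓ 𝐂 (pCoreOf p N₁)) := hmin _
    (omegaOne_le_iff.2 fun z hz h => mem_omegaOne ⟨hZ1 (mem_omegaOne hz h), centralizer_anti hRS hz.2⟩ h)
    (le_normalizer_omegaOne (le_normalizer_inf (le_normalizer_pCoreOf p _)
      (le_normalizer_centralizer (le_normalizer_pCoreOf p _))))
  have hBS : B ≤ S := hBR.trans ((omegaOne_le _ _).trans (inf_le_left.trans hRS))
  have hctl : Ctl (𝐍 B) S ⊤ := fun A g h1 h2 h3 =>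
    ((famFus_iff (IF_cf (pair_cpf hW₁ hW₂)) hS).1 (famCSF_pair_of_factor hW₁ hW₂
      (fun K R _ hC T => (hfac K R hC T).2.2) G (involves_refl G)) A g h1 h2 h3).exists_mul fun x hx => by
        obtain ⟨W, rfl | rfl, h4⟩ := mem_famSteps_IF.1 hx
        exacts [hB1 (hN₁ ▸ h4.2), hB2 h4.2]
  rw [hAB]
  exact ⟨hBS, elemAb_mono (elemAb_omegaOne_center _) hBR,
    ⟨hBS, fun x hx g => hctl.sclosed hBS le_rfl x hx g (mem_top g)⟩,
    (controlsStrongFusion_iff_ctl hS hBS (hS1.trans hB1)).2 hctl⟩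

end Cfsg.Agent.S1997
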