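import Cfsg.Statements.S2004
import Cfsg.Agent.H27.SecCor

set_option autoImplicit false
open Cfsg

namespace Cfsg.Agent.S2004

open H26 H27 Subgroup

/-- Let p be an odd prime and G a finite group such that SL₂(p) is not involved in N_G(P) for any nonidentity p-subgroup P of G. Then every section of G is p-stable in the normalizer form: in each section, whenever an element of the normalizer of a p-subgroup Q acts quadratically on Q, its image in N(Q)/C(Q) lies in O_p(N(Q)/C(Q)). -/
theorem result {G : Type*} [Group G] [Finite G] {p : ℕ} [Fact p.Prime] (hp : p ≠ 2) (h : ∀ P : Subgroup G, IsPGroup p ↥P → P ≠ ⊥ → ¬ Cfsg.Involves (Matrix.SpecialLinearGroup (Fin 2) (ZMod p)) ↥(Subgroup.normalizer ((P : Subgroup G) : Set G))) : ∀ (K R : Subgroup G) [hR : (R.subgroupOf K).Normal], Cfsg.IsNormalizerPStable p (↥K ⧸ R.subgroupOf K) := by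
    intro K R _
    refine isNormalizerPStable_iff.2 fun Q hQ g hg hq => ?_
    by_cases h0 : Q = ⊥
    · subst h0
      exact H4.inf_le_opMod (normalizer_le_normalizer_centralizer _) ⟨hg, fun x hx => by rw [mem_bot.1 hx, one_mul, mul_one]⟩
    refine H4.mem_opMod_of_not_sec_SL2 hp hQ le_rfl (fun hs => ?_) hg hq
    set π := QuotientGroup.mk' (R.subgroupOf K)
    have hπ : Function.Surjective π := QuotientGroup.mk'_surjective _
    obtain ⟨P, hP⟩ := exists_isSyl p (Q.comap π)
    have h1 : P.map π = Q := by
      have := hP.map π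
      rw [map_comap_eq_self_of_surjective hπ] at this
      exact this.eq_of_isPGroup hQ
    have h2 : 𝐍 Q ≤ (𝐍 P).map π := fun x hx => by
      obtain ⟨y, rfl⟩ := hπ x
      obtain ⟨n, hn, h3⟩ := hP.frattini_mem (zpowers_le.1 (le_normalizer_comap π (H := zpowers y) (by
        rwa [MonoidHom.map_zpowers, zpowers_le])))
      obtain ⟨m, hm, e⟩ := h1.ge (mem_comap.1 hn)
      exact ⟨m⁻¹ * (n * y), mul_mem (inv_mem (le_normalizer hm)) h3, by rw [map_mul, map_mul, map_inv, e]; group⟩
    refine h (P.map K.subtype) (hP.isP.map _) (fun e => h0 ?_) (H4.involves_subgroup_iff.2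
      (((hs.mono h2).of_map.map K.subtype_injective).mono (map_le_normalizer_map _ le_rfl)))
    rw [← h1, (map_eq_bot_iff_of_injective _ K.subtype_injective).1 e, Subgroup.map_bot]

end Cfsg.Agent.S2004
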