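import Cfsg.Statements.S2009
import Cfsg.Agent.H27.Alperin

set_option autoImplicit false
open Cfsg

namespace Cfsg.Agent.S2009

open H26 H27 Subgroup

theorem inverts {H : Type*} [Group H] [Finite H] (N : Subgroup H) [hN : N.Normal] (e : H) (he : e * e = 1)
    (h : ∀ n ∈ N, e * n * e⁻¹ = n → n = 1) : ∀ n ∈ N, e * n * e⁻¹ = n⁻¹ := by
  intro n hn
  have hφ : MonoidHom.FixedPointFree (MulAut.conjNormal (H := N) e) := by
    intro g hg
    exact Subtype.ext (h g g.2 (by simpa using congrArg Subtype.val hg))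
  have hinv : Function.Involutive (MulAut.conjNormal (H := N) e) := by
    intro g
    apply Subtype.ext
    simp only [MulAut.conjNormal_apply]
    calc e * (e * g * e⁻¹) * e⁻¹ = (e * e) * g * (e * e)⁻¹ := by group
      _ = g := by rw [he]; simp
  have := congrFun (hφ.coe_eq_inv_of_involutive hinv) ⟨n, hn⟩
  simpa using congrArg Subtype.val this

theorem exists_other {H : Type*} [Group H] [Finite H] (z : H) (E : Subgroup H) (hE : IsKleinFour ↥E) :
    ∃ e ∈ E, e ≠ 1 ∧ e ≠ z := by
  classical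
  by_contra hcon
  push Not at hcon
  have h4 : Nat.card E = 4 := hE.card_four
  have hsub : (E : Set H) ⊆ {1, z} := by
    intro e he
    by_cases h1 : e = 1
    · exact Or.inl h1
    · exact Or.inr (hcon e he h1)
  have h1 : (E : Set H).ncard ≤ ({1, z} : Set H).ncard := Set.ncard_le_ncard hsub
  have h2 : ({1, z} : Set H).ncard ≤ 2 := by
    have := Set.ncard_insert_le (1 : H) {z}
    simpa using this
  have h3 : (E : Set H).ncard = 4 := by rw [← h4]; rfl
  omega

theorem normal_eq_bot {H : Type*} [Group H] [Finite H] (z : H) (hz : orderOf z = 2) (hN : ∀ N : Subgroup H, N.Normal → N ≠ ⊤ → N ⊓ Subgroup.centralizer ({z} : Set H) = ⊥) (E : Subgroup H) (hE : IsKleinFour ↥E) (hzE : z ∈ E) (hc : ∀ e ∈ E, e ≠ 1 → IsConj z e)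
    (N : Subgroup H) [hn : N.Normal] (hne : N ≠ ⊤) : N = ⊥ := by
  have hz1 : z ≠ 1 := by rintro rfl; simp at hz
  have hsq : ∀ e ∈ E, e * e = 1 := fun e he => by
    simpa using congrArg Subtype.val (IsKleinFour.mul_self (⟨e, he⟩ : E))
  have hfpf : ∀ e ∈ E, e ≠ 1 → ∀ n ∈ N, e * n * e⁻¹ = n → n = 1 := by
    intro e he he1 n hn' h
    obtain ⟨c, hc'⟩ := isConj_iff.1 (hc e he he1)
    have h1 : c⁻¹ * n * c ∈ N ⊓ Subgroup.centralizer ({z} : Set H) := by
      refine ⟨by simpa using hn.conj_mem n hn' c⁻¹, ?_⟩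
      refine Subgroup.mem_centralizer_singleton_iff.2 ?_
      rw [← hc'] at h
      calc c⁻¹ * n * c * z = c⁻¹ * (c * z * c⁻¹ * n * (c * z * c⁻¹)⁻¹) * c * z := by rw [h]
        _ = z * (c⁻¹ * n * c) := by group
    rw [hN N hn hne, Subgroup.mem_bot] at h1
    calc n = c * (c⁻¹ * n * c) * c⁻¹ := by group
      _ = 1 := by rw [h1]; simp
  obtain ⟨e, he, he1, hez⟩ := exists_other z E hE
  have hze : z * e ≠ 1 := by
    intro h
    apply hez
    calc e = z * (z * e) := by rw [← mul_assoc, hsq z hzE, one_mul]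
      _ = z := by rw [h, mul_one]
  rw [eq_bot_iff]
  intro n hn'
  have a1 := inverts N z (hsq z hzE) (hfpf z hzE hz1)
  have a2 := inverts N e (hsq e he) (hfpf e he he1) n hn'
  refine hfpf (z * e) (E.mul_mem hzE he) hze n hn' ?_
  calc z * e * n * (z * e)⁻¹ = z * (e * n * e⁻¹) * z⁻¹ := by group
    _ = z * n⁻¹ * z⁻¹ := by rw [a2]
    _ = n := by rw [a1 _ (N.inv_mem hn'), inv_inv]

/-- Let H be a finite group and z an involution such that every proper normal subgroup of H meets the centralizer of z trivially, and suppose z lies in a Klein four-subgroup E of H all three of whose involutions are conjugate to z in H. Then H is simple. -/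
theorem result {H : Type*} [Group H] [Finite H] (z : H) (hz : orderOf z = 2) (hN : ∀ N : Subgroup H, N.Normal → N ≠ ⊤ → N ⊓ Subgroup.centralizer ({z} : Set H) = ⊥) (E : Subgroup H) (hE : IsKleinFour ↥E) (hzE : z ∈ E) (hc : ∀ e ∈ E, e ≠ 1 → IsConj z e) : IsSimpleGroup H := by
  have hz1 : z ≠ 1 := by rintro rfl; simp at hz
  haveI : Nontrivial H := ⟨⟨z, 1, hz1⟩⟩
  refine ⟨fun N hn => ?_⟩
  by_cases hne : N = ⊤
  · exact Or.inr hne
  · exact Or.inl (normal_eq_bot z hz hN E hE hzE hc N hne)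

end Cfsg.Agent.S2009
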