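import Cfsg.Statements.S2008
import Cfsg.Agent.H27.Alperin
import Cfsg.Agent.S2009

set_option autoImplicit false
open Cfsg

namespace Cfsg.Agent.S2008

open H26 H27 Subgroup

/-- Let H be a finite group and z an involution such that every proper normal subgroup of H meets the centralizer of z trivially, and suppose z lies in a Klein four-subgroup E of H all three of whose involutions are conjugate to z in H. Then H has no non-trivial abelian normal subgroup. -/
theorem result {H : Type*} [Group H] [Finite H] (z : H) (hz : orderOf z = 2) (hN : ∀ N : Subgroup H, N.Normal → N ≠ ⊤ → N ⊓ Subgroup.centralizer ({z} : Set H) = ⊥) (E : Subgroup H) (hE : IsKleinFour ↥E) (hzE : z ∈ E) (hc : ∀ e ∈ E, e ≠ 1 → IsConj z e) (N : Subgroup H) [N.Normal] (hab : IsMulCommutative ↥N) : N = ⊥ := by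
  by_cases hne : N = ⊤
  · exfalso
    subst hne
    obtain ⟨e, he, he1, hez⟩ := S2009.exists_other z E hE
    obtain ⟨c, hc'⟩ := isConj_iff.1 (hc e he he1)
    apply hez
    have := congrArg Subtype.val (hab.is_comm.comm (⟨c, trivial⟩ : (⊤ : Subgroup H)) ⟨z, trivial⟩)
    have h2 : c * z = z * c := this
    rw [← hc', h2]; group
  · exact S2009.normal_eq_bot z hz hN E hE hzE hc N hne

end Cfsg.Agent.S2008
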