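import Cfsg.Statements.S2039
import Cfsg.Agent.H6.JMult

set_option autoImplicit false
open Cfsg


namespace Cfsg.Agent.S2039

/-- The Schur multiplier of the Janko group J₁ (the group generated by two explicit 7 × 7 matrices over the integers modulo 11) is trivial; here the Schur multiplier is described through stem extensions, as in the definitions: surjective homomorphisms onto the group from a finite group, whose kernel is central in that finite group and contained in that finite group's commutator subgroup. -/
theorem result : Cfsg.HasCyclicSchurMultiplier ↥Cfsg.Spor.J1 1 := by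
    refine ⟨⟨Cfsg.Spor.J1, inferInstance, H6.J1.finiteJ1, MonoidHom.id _, ⟨fun x => ⟨x, rfl⟩, ?_, ?_⟩, ?_⟩,
      fun Γ _ _ σ h => ⟨1, fun x => ⟨1, Subtype.ext ?_⟩⟩⟩
    · rw [MonoidHom.ker_id]; exact bot_le
    · rw [MonoidHom.ker_id]; exact bot_le
    · rw [MonoidHom.ker_id]
      have : Unique (Multiplicative (ZMod 1)) := inferInstanceAs (Unique (Fin 1))
      exact ⟨MulEquiv.ofUnique⟩
    · have := H6.J.stem_eq_bot h.1 h.2.1 h.2.2
      exact (Subgroup.mem_bot.1 (this ▸ x.2)).symm

end Cfsg.Agent.S2039
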