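import Cfsg.Statements.S2043
import Cfsg.Agent.H14.CoM
import Cfsg.Agent.H21.SchurCover

set_option autoImplicit false
open Cfsg

namespace Cfsg.Agent.S2043



/-- The Schur multiplier of the Conway group Co₁ (the automorphism group of the rank-24 lattice modulo its centre) is cyclic of order 2; here the Schur multiplier is described through stem extensions, as in the definitions: surjective homomorphisms onto the group from a finite group, whose kernel is central in that finite group and contained in that finite group's commutator subgroup. -/
theorem result : Cfsg.HasCyclicSchurMultiplier Cfsg.Spor.Co1 2 := by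
  have h : Nat.card (QuotientGroup.mk' (Subgroup.center Co0)).ker = 2 := by
    rw [QuotientGroup.ker_mk', H14.card_center_Co0]
  let := H21.commGroupOfLeCenter H14.stem_Co0.2.1
  have := isCyclic_of_prime_card h
  exact H21.schur_cyclic_of_card (H21.schur_of_stem_of_trivial _ H14.stem_Co0 H14.schur_Co0 (MulEquiv.refl _)) h

end Cfsg.Agent.S2043
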