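import Cfsg.Statements.S2045
import Cfsg.Agent.L.SCo3
import Cfsg.Agent.H14.Conway2


set_option autoImplicit false
open Cfsg

namespace Cfsg.Agent.S2045

/-- The Schur multiplier of the Conway group Co₃ (the stabiliser of a vector of the second shortest length in the rank-24 lattice) is trivial; here the Schur multiplier is described through stem extensions, as in the definitions: surjective homomorphisms onto the group from a finite group, whose kernel is central in that finite group and contained in that finite group's commutator subgroup. -/
theorem result : Cfsg.HasCyclicSchurMultiplier ↥Cfsg.Spor.Co3 1 := by
  exact H21.schur_congr_left (L.SCo3.schur' (L.encPM H14.P3) (L.real_take _ rfl) H14.card_C3) H14.eCo3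

end Cfsg.Agent.S2045
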