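import Cfsg.Statements.S2097
import Cfsg.Agent.H24.ClO

set_option autoImplicit false
open Cfsg

namespace Cfsg.Agent.S2097

open H24

/-- Schur multipliers of the even-dimensional orthogonal groups of plus type and even rank: for even l ≥ 4 and a field F with q elements, (l, q) ≠ (4, 2), the Schur multiplier of PΩ⁺_2l(F) (for the form Σ xᵢyᵢ) is the product of two cyclic groups of order gcd(2, q^l − 1) (so trivial for q even and a four-group for q odd; here the Schur multiplier is described through stem extensions, as in the definitions). -/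
theorem result {F : Type*} [Field F] [Fintype F] {q : ℕ} (hF : Fintype.card F = q) (l : ℕ) (hl : 4 ≤ l) (heven : Even l) (hexc : ¬ (l = 4 ∧ q = 2)) : Cfsg.HasSchurMultiplier (Cfsg.POmega F (Cfsg.quadFormPlus l F)) (Multiplicative (ZMod (Nat.gcd 2 (q ^ l - 1)) × ZMod (Nat.gcd 2 (q ^ l - 1)))) := by
  have hq' : Nat.card F = q := by rw [Nat.card_eq_fintype_card, hF]
  have h : 3 ≤ l := by omega
  have h1 : 1 < q := hq' ▸ Finite.one_lt_card
  have h2 : 1 ≤ q ^ l := Nat.one_le_pow _ _ (by omega)
  obtain ⟨e⟩ := μT_equiv F 2 (k := Nat.gcd 2 (q ^ l - 1)) (by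
    rw [hq', Nat.gcd_comm, Nat.gcd_comm 2]
    have := Nat.even_pow (m := q) (n := l)
    simp only [Nat.even_iff, show l ≠ 0 by omega, ne_eq, not_false_eq_true, and_true] at this
    exact Nat.ModEq.gcd_eq (by unfold Nat.ModEq; omega))
  exact schur_D h hl (by obtain ⟨k, rfl⟩ := heven; omega)
    ⟨(ker_D_even h heven).some.trans ((e.prodCongr e).trans (MulEquiv.prodMultiplicative _ _).symm)⟩

end Cfsg.Agent.S2097
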