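import Cfsg.Statements.S2054
import Cfsg.Agent.L.MX
import Cfsg.Agent.S2053
import Cfsg.Agent.S2097
import Cfsg.Agent.S0296
import Cfsg.Agent.H15.Fi23x
import Cfsg.Agent.L.D23
import Cfsg.Agent.L.KV


set_option autoImplicit false
set_option linter.unusedVariables false
open Cfsg

namespace Cfsg.Agent.S2054

/-- The Schur multiplier of the Fischer group Fi₂₃ (the finitely presented group of the definitions) is trivial; here the Schur multiplier is described through stem extensions, as in the definitions: surjective homomorphisms onto the group from a finite group, whose kernel is central in that finite group and contained in that finite group's commutator subgroup. -/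
theorem result : Cfsg.HasCyclicSchurMultiplier Cfsg.Spor.Fi23 1 := by
  have hN := H15.Fi23.card
  have : Finite Spor.Fi23 := Nat.finite_of_card_ne_zero (hN ▸ by norm_num)
  have M := H15.Fi23.M
  obtain ⟨c, ⟨e⟩, -⟩ := H15.Fi23.dc.nonsplit H15.Fi23.center22
  obtain ⟨-, -, -, p⟩ := H15.Fi23.dc
  have k : (e.toMonoidHom.comp (QuotientGroup.mk' _)).ker = _ :=
    (MonoidHom.ker_comp_of_injective _ _ e.injective).trans (QuotientGroup.ker_mk' _)
  have a := (L.me_cov (e := 3) Cfsg.Agent.S2053.result (e.surjective.comp (QuotientGroup.mk'_surjective _)) k.le p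
    (k ▸ c) (by norm_num) (by rw [Nat.card_congr Multiplicative.toAdd, Nat.card_zmod])).up
    ((congrArg Subgroup.index H15.Fi23.stab).trans H15.Fi23.index_stab0) (by norm_num)
  obtain ⟨S⟩ := H15.StdO8p3.std (ZMod.card 3)
  obtain ⟨T⟩ := H15.StdSym3.std
  have := Cfsg.Agent.S0296.result (F := ZMod 3) 4 le_rfl
  have i := (L.D23.qs M hN fun Δ _ y hy => (H15.StdO8p3.hom S y hy).imp fun _ h => h.1).iso_simple
    (L.sub_ne_bot List.mem_cons_self (L.ne_base1 (F := L.K23T.F) (L.K23.base0 M hN) (by decide +kernel)))
  have n := L.D23.hn M hN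
  have l := L.D23.hy M hN
  have := (Subgroup.normal_subgroupOf_iff_le_normalizer l).2 n
  have q := L.D23.q3 M hN fun Δ _ y hy => (H15.StdSym3.hom T y hy).imp fun _ h => h.1
  have j := i.map (Subgroup.subgroupOfEquivOfLe l).trans
  have c2 := le_antisymm (q.card_le l n T.card (L.card_iso i S.card).le T.ne) (L.D23.low M hN)
  have c3 := (H14.sub M.gen (L.tws L.K23.a0 L.D23.ts)).card_mul_index
  rw [c2, hN] at c3
  have b := (L.ME.ext (e := 2) (Subgroup.isPerfect_iff.1 (L.qs_iso j (L.qs_of_card S.card S.ne (by norm_num))).1)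
    ((L.me_of (Cfsg.Agent.S2097.result (ZMod.card 3) 4 le_rfl (by decide) (by decide))
    (show ∀ a : Multiplicative (ZMod 2 × ZMod 2), a ^ 2 = 1 by decide)).congr j)
    (((L.me_cyc 2 3 T.card (by decide)).gcd (L.me_cyc 3 2 T.card (by decide))).congr
    (q.iso l T.card (L.card_iso i S.card).le c2.ge T.ne))).up (i := 137632) (by omega) (by norm_num)
  have : Fact (Nat.Prime 17) := ⟨by norm_num⟩
  have : Fact (Nat.Prime 23) := ⟨by norm_num⟩
  exact (((a.gcd b).gcd (L.me_cyc 17 240557086664294400 hN (by norm_num))).gcd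
    (L.me_cyc 23 177803064056217600 hN (by norm_num))).triv

end Cfsg.Agent.S2054
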