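import Cfsg.Statements.S2087
import Cfsg.Agent.L.SL32


set_option autoImplicit false
open Cfsg

namespace Cfsg.Agent.S2087

/-- Exceptional Schur multiplier: over the field with 2 elements, PSL₃ has Schur multiplier cyclic of order 2 (here the Schur multiplier is described through stem extensions, as in the definitions). -/
theorem result {F : Type*} [Field F] [Fintype F] (hF : Fintype.card F = 2) : Cfsg.HasCyclicSchurMultiplier (Matrix.ProjectiveSpecialLinearGroup (Fin 3) F) 2 := by
  obtain ⟨S⟩ := H15.StdL32.std hF
  have := S.faithful
  exact L.SL32.schur' (L.encPM S.M) (L.real_take _ rfl) S.card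

end Cfsg.Agent.S2087
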