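import Cfsg.Statements.S2094
import Cfsg.Agent.H24.ClO

set_option autoImplicit false
open Cfsg

namespace Cfsg.Agent.S2094

open H24

/-- Schur multipliers of the odd-dimensional orthogonal groups: for m ≥ 3 and a field F of odd order q with (m, q) ≠ (3, 3), the Schur multiplier of PΩ_(2m+1)(F) (for the form x₀² + Σ xᵢyᵢ) is cyclic of order 2 = gcd(2, q − 1); here the Schur multiplier is described through stem extensions, as in the definitions. -/
theorem result {F : Type*} [Field F] [Fintype F] {q : ℕ} (hF : Fintype.card F = q) (hq : Odd q) (m : ℕ) (hm : 3 ≤ m) (hexc : ¬ (m = 3 ∧ q = 3)) : Cfsg.HasCyclicSchurMultiplier (Cfsg.POmega F (Cfsg.quadFormOdd m F)) 2 := by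
  have hq' : Nat.card F = q := by rw [Nat.card_eq_fintype_card, hF]
  have h : 2 ≤ m := by omega
  refine schur_B h hm (hq' ▸ hq) (by omega) ⟨(ker_B h).some.trans (μT_equiv F 2 ?_).some⟩
  rw [hq']; obtain ⟨k, rfl⟩ := hq; simp

end Cfsg.Agent.S2094
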