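import Cfsg.Statements.S2096
import Cfsg.Agent.H24.ClO

set_option autoImplicit false
open Cfsg

namespace Cfsg.Agent.S2096

open H24

/-- Schur multipliers of the even-dimensional orthogonal groups of plus type and odd rank: for odd l ≥ 5 and a field F with q elements, the Schur multiplier of PΩ⁺_2l(F) (for the form Σ xᵢyᵢ) is cyclic of order gcd(4, q^l − 1); here the Schur multiplier is described through stem extensions, as in the definitions. -/
theorem result {F : Type*} [Field F] [Fintype F] {q : ℕ} (hF : Fintype.card F = q) (l : ℕ) (hl : 5 ≤ l) (hodd : Odd l) : Cfsg.HasCyclicSchurMultiplier (Cfsg.POmega F (Cfsg.quadFormPlus l F)) (Nat.gcd 4 (q ^ l - 1)) := by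
  have hq' : Nat.card F = q := by rw [Nat.card_eq_fintype_card, hF]
  have h : 3 ≤ l := by omega
  refine schur_D h (by omega) (by omega) ⟨(ker_D_odd h hodd).some.trans (μT_equiv F 4 ?_).some⟩
  have h1 : 1 < q := hq' ▸ Finite.one_lt_card
  obtain ⟨k, rfl⟩ := hodd
  have h2 : 1 ≤ q ^ (2 * k + 1) := Nat.one_le_pow _ _ (by omega)
  rw [hq']
  rcases Nat.even_or_odd q with e | e
  · have e' : Even (q ^ (2 * k + 1)) := e.pow_of_ne_zero (by omega)
    rw [show 4 = 2 ^ 2 by rfl, ((Nat.coprime_two_left.2 (Nat.Even.sub_odd (by omega) e odd_one)).pow_left 2).gcd_eq_one,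
      ((Nat.coprime_two_left.2 (Nat.Even.sub_odd h2 e' odd_one)).pow_left 2).gcd_eq_one]
  · have h3 : q ^ 2 ≡ 1 [MOD 4] := by obtain ⟨j, rfl⟩ := e; rw [show (2 * j + 1) ^ 2 = 1 + 4 * (j ^ 2 + j) by ring]; simp [Nat.ModEq]
    have h4 : q ^ (2 * k + 1) ≡ q [MOD 4] := by simpa [pow_succ _ (2 * k), pow_mul] using (h3.pow k).mul_right q
    rw [Nat.gcd_comm, Nat.gcd_comm 4]
    exact Nat.ModEq.gcd_eq (by unfold Nat.ModEq at *; omega)

end Cfsg.Agent.S2096
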