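import Cfsg.Statements.S2104
import Cfsg.Agent.L.F4S


set_option autoImplicit false
set_option linter.unusedVariables false
open Cfsg

namespace Cfsg.Agent.S2104

/-- Exceptional Schur multiplier: over the field with 2 elements the Chevalley group of type F₄ has Schur multiplier cyclic of order 2 (here the Schur multiplier is described through stem extensions, as in the definitions). -/
theorem result {F : Type*} [Field F] [Fintype F] (hF : Fintype.card F = 2) : Cfsg.HasCyclicSchurMultiplier ↥(Cfsg.Lie.chevF4.group F) 2 := by
  refine L.F4.main fun t => ?_
  obtain ⟨y, -, hy⟩ := (Nat.card_eq_two_iff' (0 : F)).1 (Nat.card_eq_fintype_card.trans hF)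
  exact or_iff_not_imp_left.2 fun h => (hy t h).trans (hy 1 one_ne_zero).symm

end Cfsg.Agent.S2104
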