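import Cfsg.Statements.S2108
import Cfsg.Agent.H12.MR
import Cfsg.Agent.H12.TwE6
import Cfsg.Agent.H21.SchurCover

set_option autoImplicit false
open Cfsg

namespace Cfsg.Agent.S2108
open H12 H12.StSys H12.Tw Cfsg.Lie Subgroup H24

noncomputable def κ6 : ℕ → ℕ := fld 0x1716151412141310110d0b0f0a07040012100e0d0c090b0906030a080501070502040100000000000000000000000000000000000000000000000000000000000000000000000000 8
def P6 (a b _c : ℤ) : Prop := 1 ≤ a ∧ a ≤ 2 ∧ |b| ≤ 1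
def Q6 (a b _c : ℤ) : Prop := a = 1 ∧ b = 0
instance decP6 (a b c : ℤ) : Decidable (P6 a b c) := by unfold P6; infer_instance
instance decQ6 (a b c : ℤ) : Decidable (Q6 a b c) := by unfold Q6; infer_instance
theorem lay6 : LayT (tab chevE6) gE6 κ6 := by rw [tabE6_eq]; decide +kernel
theorem tt6 : ∀ r < (tab chevE6).n, (tab chevE6).n ≤ 2 * r → (FuT (tab chevE6) gE6 Q6 r ∨ FixC (tab chevE6) gE6 r) ∧
    (∃ s < (tab chevE6).n, TTT (tab chevE6) gE6 P6 r s) ∧ ∀ s < (tab chevE6).n, (tab chevE6).n ≤ 2 * s → κ6 r < κ6 s →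
    TTT (tab chevE6) gE6 P6 r s ∨ TTT (tab chevE6) gE6 P6 s r := by rw [tabE6_eq]; decide +kernel
theorem co6 : ∀ k < (tab chevE6).n, ∀ i < 6, (tab chevE6).co (gE6.ρ k) ([5, 1, 4, 3, 2, 0].getD i 0) = (tab chevE6).co k i ∧
    (tab chevE6).co k ([5, 1, 4, 3, 2, 0].getD i 0) = (tab chevE6).co (gE6.ρ k) i := by rw [tabE6_eq]; decide +kernel

variable {K : Type*} [Field K] [Fintype K] {q : ℕ} {φ : K →+* K} (hφ : ∀ t, φ t = t ^ q) (hK : Fintype.card K = q ^ 2)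
noncomputable abbrev st6 (φ : K →+* K) : TwF (stS chevE6 K) R6 := stTw chk_gE6 sim_gE6 (Or.inl rfl) φ
theorem T1_le : (st6 φ).T1.map r3_st.hprod ≤ (st6 φ).G1 :=
  TwF.T1_le r3_st fun i => let ⟨O, hO, hi⟩ := exists_orb6 i; ⟨O, orb6 O hO, hi⟩
theorem adm : (st6 φ).Adm (st6 φ).G1 := (TwF.adm_of_orb cov_st G1_le_fix fun i => Or.inl <|
  let ⟨O, hO, hi⟩ := exists_orb6 i
  ⟨O, orb6 O hO, hi, fun _ hc => ⟨mem_sup_left ⟨TwF.xU_mem _, TwF.xU_fix (orb6 O hO).orth (orb6 O hO).inv hc⟩,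
    mem_sup_right ⟨gen_mono _ (fun _ h => h.1) (TwF.xV_mem _), TwF.xV_fix (orb6 O hO).orth (orb6 O hO).inv hc⟩⟩⟩).1

include hφ hK in
theorem triv (p : ℕ) [Fact p.Prime] [CharP K p] (hq : 3 ≤ q) : HasCyclicSchurMultiplier (st6 φ).G1 1 := by
  have hT : ∀ c ∈ (st6 φ).T1, (stS chevE6 K).hl c = 1 → c = 1 := fun c _ e => hprod_st_E6 (e.trans (map_one _).symm)
  refine schur_r1 p adm cov_st r3_st hT (fun E _ _ π e hc => ?_) fun i => ?_
  · have hf : Fam chk_gE6 (stS chevE6 K) π (· ^ q) fun _ => 1 := fun k _ z => e ▸ T1_le ⟨_, fun i => Units.ext (by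
      have e1 : co (chk_gE6.emb k) (R6.π i) = co k i := (co6 k k.2 i i.2).1
      have e2 : co k (R6.π i) = co (chk_gE6.emb k) i := (co6 k k.2 i i.2).2
      change _ = (tw6 φ).ψ _ _
      rw [tw6_ψ]
      simp only [tz, e1, e2, Units.val_mul, Units.val_zpow_eq_zpow_val, Units.val_pow_eq_pow_val, map_mul, map_zpow₀, one_zpow, mul_one]
      rw [hφ, hφ, pow_sq6 hφ hK, mul_comm]), rfl⟩
    have o := lay6.orb (F := K) (Or.inl rfl) chk_gE6 sim_gE6
    have hP : ∀ a b c, P6 a b c → ∃ z : Kˣ, z ^ a * (z ^ q) ^ b * (1 : Kˣ) ^ c ≠ 1 := fun a b c h => by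
      simpa using exists_tor hq le_rfl hK (c := 0) ⟨h.1, h.2.1, h.2.2, by simp⟩ fun _ => rfl
    refine o.comm_inf r3_st hc cov_st (e.le.trans G1_le_fix) ⟨Finset.univ, by rw [Finset.card_univ, hK]; nlinarith⟩
      (fun r hr => let ⟨s, hs, h⟩ := (tt6 r r.2 hr).2.1; ⟨⟨s, hs⟩, hf.tt hP h⟩) fun r s hr hs h => ?_
    rcases h with h | rfl
    · exact ((tt6 r r.2 hr).2.2 s s.2 hs h).elim (fun h => Or.inl (hf.tt hP h)) fun h => Or.inr (Or.inl (hf.tt hP h))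
    · exact Or.inr (Or.inr ((tt6 r r.2 hr).1.imp (hf.full fun a b c h l => ⟨l, by simp [h.1, h.2]⟩)
        (FixC.cm (τ := st6 φ) (fun _ _ => rfl) chk_gE6.coe_εu o cov_st e hc hr)))
  · obtain ⟨O, hO, hi⟩ := exists_orb6 i
    have h := orb6 O hO
    have k2 : ∀ a b, R6.π (n6 a) = n6 b → R6.π (n6 b) = n6 a → b ≠ a → O = [n6 a, n6 b] →
        ∃ (L : Subfield K) (A : R1 L _), R1O R6 (stS chevE6 K) (st6 φ).G1 (st6 φ).T1 i A := by
      rintro a b h1 h2 hab rfl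
      exact ⟨⊤, _, h.r1o (f := fun j => if j = n6 a then Subfield.subtype _ else φ.comp (Subfield.subtype _)) hi cov_st r3_st
        (fun t => by simpa [hφ, apply_ite, ite_apply] using show (st6 φ).Cp _ _ from fun j hj => cp6 hφ hK h1 h2 hab t j hj) fun c hc => ⟨⟨c (n6 a), trivial⟩, by
          simpa [n6_inj, hab, h1, tw6_ψ] using (show (tw6 φ).Cp _ c from hc) (n6 a) (by simp)⟩⟩
    simp only [List.mem_cons, List.not_mem_nil, or_false] at hO
    rcases hO with rfl | rfl | rfl | rfl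
    · obtain rfl := List.mem_singleton.1 hi; exact r1o_fix cov_st r3_st h rfl
    · obtain rfl := List.mem_singleton.1 hi; exact r1o_fix cov_st r3_st h rfl
    · exact k2 _ _ π6.1 π6.2.2.2.2.2 (by decide) rfl
    · exact k2 _ _ π6.2.2.1 π6.2.2.2.2.1 (by decide) rfl

noncomputable def σ6 (φ : K →+* K) : (st6 φ).G1 →* (tw6 φ).G1 := (r3_ad.lift.comp (st6 φ).G1.subtype).codRestrict _ fun a =>
  have c := stTw_adTw chk_gE6 sim_gE6 (Or.inl rfl) φ (gfψ_surjective _ _ _)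
  (sup_le (fun u hu => mem_sup_left ⟨(cov_st.map_gen _).le ⟨u, hu.1, rfl⟩, (cov_st.map_gen _).le ⟨u, hu.2.1, rfl⟩, by rw [← c, hu.2.2]⟩)
    (fun u hu => mem_sup_right ⟨(cov_st.map_gen _).le ⟨u, hu.1, rfl⟩, (cov_st.map_gen _).le ⟨u, hu.2.1, rfl⟩, by rw [← c, hu.2.2]⟩) :
    (st6 φ).G1 ≤ (tw6 φ).G1.comap r3_ad.lift) a.2
theorem surj : Function.Surjective (σ6 φ) := fun g =>
  let ⟨a, ha, e⟩ := Tw.exists_lift cov_st (fun a _ => stTw_adTw chk_gE6 sim_gE6 (Or.inl rfl) φ _ a) g.2; ⟨⟨a, ha⟩, Subtype.ext e⟩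
theorem mem_ker (z : (st6 φ).G1) : z ∈ (σ6 φ).ker ↔ ∃ c ∈ (actM (CA chevE6)).ker, z.1 = (stS chevE6 K).hl c :=
  Subtype.ext_iff.trans (cov_st.mem_ker_iff r3_st (G1_le_fix z.2).1)
include hφ hK in
theorem card_ker : Nat.card (σ6 φ).ker = Nat.gcd 3 (q + 1) := by
  rw [← card_ker_T16 hφ hK]
  refine (Nat.card_eq_of_bijective (fun c => ⟨⟨_, T1_le ⟨c, c.2.2, rfl⟩⟩, (mem_ker _).2 ⟨c, c.2.1, rfl⟩⟩)
    ⟨fun a b h => Subtype.ext (hprod_st_E6 (congrArg (·.1.1) h)), fun z => ?_⟩).symm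
  obtain ⟨c, h1, h2⟩ := (mem_ker _).1 z.2
  exact ⟨⟨c, h1, TwF.mem_T1 (τ := st6 φ) r3_st hprod_st_E6 (h2 ▸ G1_le_fix z.1.2)⟩, Subtype.ext (Subtype.ext h2.symm)⟩
include hφ hK in
theorem pf (p : ℕ) [hp : Fact p.Prime] [CharP K p] (u : (st6 φ).G1) (hu : PE p u.1) : u ∈ commutator _ := by
  obtain ⟨j, hj⟩ := hu
  have hpf := perfect6 hφ hK
  rw [eq6 hφ hK] at hpf
  have : σ6 φ u ∈ (commutator _).map (σ6 φ) := by rw [map_commutator_eq, MonoidHom.range_eq_top.2 surj]; exact hpf.ge trivial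
  obtain ⟨a, ha, e1⟩ := this
  obtain ⟨c, -, h2⟩ := (mem_ker (a⁻¹ * u)).1 (by simp [e1])
  have e2 : (a⁻¹ * u) ^ (Nat.card K - 1) = 1 := Subtype.ext (by
    rw [coe_pow, h2, ← r3_st.hprod_apply, ← map_pow, show c ^ _ = 1 from funext fun i => by rw [← Nat.card_units]; exact pow_card_eq_one', map_one]; rfl)
  rw [SetLike.mem_coe] at ha
  rw [← Abelianization.ker_of, MonoidHom.mem_ker] at ha ⊢
  refine orderOf_eq_one_iff.1 (Nat.eq_one_of_dvd_coprimes (((Nat.Prime.coprime_iff_not_dvd hp.out).2 (not_dvd_card_units (F := K) p)).pow_left j)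
    (orderOf_dvd_of_pow_eq_one ?_) (orderOf_dvd_of_pow_eq_one ?_))
  · rw [← map_pow, show u ^ _ = 1 from Subtype.ext hj, map_one]
  · simpa [ha] using congrArg Abelianization.of e2

/-- Schur multipliers of the twisted groups of type ²E₆: for a prime power q ≠ 2, with the group realised over the field with q² elements, the Schur multiplier of ²E₆(q) is cyclic of order gcd(3, q + 1) (here the Schur multiplier is described through stem extensions, as in the definitions); q = 2 is exceptional. -/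
theorem result {K : Type*} [Field K] [Fintype K] {q : ℕ} (hq : IsPrimePow q) (hK : Fintype.card K = q ^ 2) (h2 : q ≠ 2) : Cfsg.HasCyclicSchurMultiplier ↥(Cfsg.Lie.twistedE6 K q) (Nat.gcd 3 (q + 1)) := by
  obtain ⟨φ, hφ⟩ := exists_frob hq two_ne_zero hK
  obtain ⟨p, _, n, hp, -⟩ := FiniteField.card' K
  have := Fact.mk hp
  have e := card_ker hφ hK
  rw [eq6 hφ hK]
  have : IsCyclic (σ6 φ).ker := isCyclic_of_card_dvd_prime (p := 3) (e ▸ Nat.gcd_dvd_left _ _)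
  refine H21.schur_of_stem_of_trivial (σ6 φ) ⟨surj, fun z hz => mem_center_iff.2 fun g => Subtype.ext (mem_center_iff.1
    ((cov_st.ker_eq_center stS_T).le (congrArg Subtype.val hz)) g), fun z _ => ?_⟩ (triv hφ hK p (by have := hq.two_le; omega))
    (mulEquivOfCyclicCardEq (by rw [e]; exact (Nat.card_zmod _).symm))
  obtain ⟨a, ha, e1⟩ := (sup_le (fun u hu => ⟨⟨u, mem_sup_left hu⟩, pf hφ hK p _ (pe_of_mem (cov_st.isPGroup_U p) hu.1), rfl⟩) fun u hu =>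
    ⟨⟨u, mem_sup_right hu⟩, pf hφ hK p _ (pe_of_mem (cov_st.isPGroup_gen p closed_not_isPos neg_fl) hu.1), rfl⟩ :
      (st6 φ).G1 ≤ (commutator _).map (st6 φ).G1.subtype) z.2
  exact Subtype.ext e1 ▸ ha

end Cfsg.Agent.S2108
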