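import Cfsg.Statements.S2110
import Cfsg.Agent.H12.MS
import Cfsg.Agent.H12.TwD4

set_option autoImplicit false
open Cfsg

namespace Cfsg.Agent.S2110
open H12 H12.StSys H12.Tw H12.Chn Cfsg.Lie Subgroup H24 H13
open scoped commutatorElement

noncomputable def κ4 : ℕ → ℕ := fld 0x50403030201030202000101000000000000000000000000 8
def P4 (a b c : ℤ) : Prop := 1 ≤ a ∧ a ≤ 2 ∧ |b| ≤ 1 ∧ |c| ≤ 1
def Q4 (a b c : ℤ) : Prop := a = 1 ∧ b = -1 ∧ c = -1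
instance decP4 (a b c : ℤ) : Decidable (P4 a b c) := by unfold P4; infer_instance
instance decQ4 (a b c : ℤ) : Decidable (Q4 a b c) := by unfold Q4; infer_instance
theorem lay4 : LayT (tab chevD4) gD4a κ4 := by rw [tabD4_eq]; decide +kernel
theorem tt4 : ∀ r < (tab chevD4).n, (tab chevD4).n ≤ 2 * r → (FuT (tab chevD4) gD4a Q4 r ∨ FixC (tab chevD4) gD4a r) ∧
    (∃ s < (tab chevD4).n, TTT (tab chevD4) gD4a P4 r s) ∧ ∀ s < (tab chevD4).n, (tab chevD4).n ≤ 2 * s → κ4 r < κ4 s →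
    TTT (tab chevD4) gD4a P4 r s ∨ TTT (tab chevD4) gD4a P4 s r := by rw [tabD4_eq]; decide +kernel
theorem co4 : ∀ k < (tab chevD4).n, gD4a.lam k = 1 ∧ ∀ i < 4, (tab chevD4).co (gD4a.ρ k) ([2, 1, 3, 0].getD i 0) = (tab chevD4).co k i ∧
    (tab chevD4).co k ([2, 1, 3, 0].getD i 0) = (tab chevD4).co (gD4a.ρ (gD4a.ρ k)) i := by rw [tabD4_eq]; decide +kernel

variable {K : Type*} [Field K] [Fintype K] {E : Type*} [Group E]
section big
variable {q : ℕ} {φ : K →+* K} (hφ : ∀ t, φ t = t ^ q) (hK : Fintype.card K = q ^ 3) {π : E →* GL chevD4.Idx K} (e : π.range = (tw4 φ).G1) (hc : π.ker ≤ center E)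
noncomputable abbrev L4 (K : Type*) [Field K] : Lay chevD4 K := lay4.lay (Or.inl rfl)
theorem o4 : (L4 K).Orb R4 := lay4.orb (Or.inl rfl) chk_gD4a sim_gD4a

theorem char2 (hK : Fintype.card K = 2 ^ 3) : CharP K 2 := by
  obtain ⟨p', h', n, h1, h2⟩ := FiniteField.card' K
  have : 2 ∣ p' ^ (n : ℕ) := by rw [← h2, hK]; omega
  rwa [(Nat.prime_dvd_prime_iff_eq Nat.prime_two h1).1 (Nat.prime_two.dvd_of_dvd_pow this)]
include hφ hK e in
theorem fam : Fam chk_gD4a (adS chevD4 K) π (· ^ q) (· ^ q ^ 2) := fun k _ z => e ▸ TwF.T1_le r3_ad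
  (fun i => let ⟨O, hO, hi⟩ := exists_orb4 i; ⟨O, orb4 O hO, hi⟩) ⟨_, fun i => Units.ext (by
    have e1 : ∀ k : Φ chevD4, co (chk_gD4a.emb k) (R4.π i) = co k i := fun k => ((co4 k k.2).2 i i.2).1
    have e2 : co k (R4.π i) = co (chk_gD4a.emb (chk_gD4a.emb k)) i := ((co4 k k.2).2 i i.2).2
    change _ = (tw4 φ).ψ _ _
    rw [tw4_ψ]
    simp only [tz, e1, e2, Units.val_mul, Units.val_zpow_eq_zpow_val, Units.val_pow_eq_pow_val, map_mul, map_zpow₀]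
    rw [hφ, hφ, hφ, pow_cube4 hK, ← pow_mul, ← sq]; ring), rfl⟩

include hφ hK e hc in
theorem big [Finite E] (hq : 3 ≤ q) : ⁅(adS chevD4 K).U.comap π, (adS chevD4 K).U.comap π⁆ ⊓ π.ker = ⊥ := by
  have hf := fam hφ hK e
  have hP : ∀ a b c, P4 a b c → ∃ z : Kˣ, z ^ a * (z ^ q) ^ b * (z ^ q ^ 2) ^ c ≠ 1 := fun a b c h =>
    exists_tor hq (by omega) hK h (by omega)
  have hQ : Function.Surjective (powMonoidHom 1 * (powMonoidHom q)⁻¹ * (powMonoidHom (q ^ 2))⁻¹ : Kˣ →* Kˣ) :=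
    Finite.surjective_of_injective ((injective_iff_map_eq_one _).2 fun z hz => Units.ext (by
      have h0 : φ (φ (φ z)) = z := by rw [hφ, hφ, hφ, ← pow_mul (z : K) q q, ← sq, pow_cube4 hK]
      have h1 : (z : K) = φ z * φ (φ z) := by
        have := congrArg Units.val hz
        simp only [hφ, ← pow_mul, ← sq]; simp at this; field_simp at this; simpa using this
      have h2 := congrArg φ h1
      rw [map_mul, h0] at h2
      have h3 : φ (φ z) ^ 2 = 1 := mul_left_cancel₀ z.ne_zero (by linear_combination -h1 - φ (φ z) * h2)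
      rcases sq_eq_one_iff.1 h3 with h | h
      · simpa [h] using h0.symm
      · rw [h, map_neg, map_one] at h0; rw [h1, h, ← h0]; simp))
  refine o4.comm_inf r3_ad hc cov_ad (e.le.trans G1_le_fix) ⟨Finset.univ, by rw [Finset.card_univ, hK]; exact lt_of_lt_of_le (by omega) (Nat.pow_le_pow_left hq 3)⟩
    (fun r hr => let ⟨s, hs, h⟩ := (tt4 r r.2 hr).2.1; ⟨⟨s, hs⟩, hf.tt hP h⟩) fun r s hr hs h => ?_
  rcases h with h | rfl
  · exact ((tt4 r r.2 hr).2.2 s s.2 hs h).elim (fun h => Or.inl (hf.tt hP h)) fun h => Or.inr (Or.inl (hf.tt hP h))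
  · exact Or.inr (Or.inr ((tt4 r r.2 hr).1.imp (hf.full fun a b c h l => by simpa [h.1, h.2.1, h.2.2] using hQ l)
      (FixC.cm (τ := tw4 φ) (fun _ _ => rfl) chk_gD4a.coe_εu o4 cov_ad e hc hr)))

end big
def r4 (i : Fin 24) : Φ chevD4 := i
noncomputable def X (r s u : ℕ) (t : K) := (adS chevD4 K).xN r t * ((adS chevD4 K).xN s (t ^ 2) * (adS chevD4 K).xN u (t ^ 4))
def wv (r s u : ℕ) : List (ℕ × Ex) := [(r, .var 2), (s, .var 3), (u, .var 5)]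
def w1 (r s u : ℕ) : List (ℕ × Ex) := [(r, .cst 1), (s, .cst 1), (u, .cst 1)]
abbrev Cq4 := Cq (tab chevD4) 2
def d1 : List (ℕ × Ex) := [(15, .var 5), (16, .var 3), (17, .var 15), (20, .var 10), (21, .var 6), (22, .var 30)]
def d2 : List (ℕ × Ex) := [(20, .var 2 + .var 5), (21, .var 2 + .var 3), (22, .var 6 + .var 10 + .var 15), (23, .var 2 + .var 3 + .var 5)]
theorem cq : (∀ p ∈ [(18, 13, 12), (19, 16, 15), (17, 20, 21), (5, 10, 11)], (∀ r ∈ [p.1, p.2.1, p.2.2], r < 24 ∧ (12 ≤ r ↔ 12 ≤ p.1)) ∧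
    gD4a.ρ p.1 = p.2.1 ∧ gD4a.ρ p.2.1 = p.2.2 ∧ gD4a.ρ p.2.2 = p.1 ∧ Cq4 [(p.1, .var 2)] [(p.2.1, .var 3), (p.2.2, .var 5)] [] ∧
    Cq4 (w1 p.1 p.2.1 p.2.2) [(23, .cst 1)] []) ∧ Cq4 (wv 18 13 12) (w1 19 16 15) ((17, .var 3 + .var 5) :: d2) ∧
    Cq4 (w1 18 13 12) (w1 17 20 21) [(22, .cst 1)] ∧ Cq4 (wv 18 13 12) [(14, .cst 1)] ((19, .var 2) :: d1) ∧
    Cq4 [(14, .cst 1)] [(22, .cst 1)] [(23, .cst 1)] ∧ Cq4 (w1 5 10 11) (w1 19 16 15) [(14, .cst 1)] := by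
  unfold Cq4; rw [tabD4_eq]; decide +kernel

section small
variable [CharP K 2] {φ : K →+* K} (hφ : ∀ t, φ t = t ^ 2) (hK : Fintype.card K = 2 ^ 3) {π : E →* GL chevD4.Idx K}
  (e : π.range = (tw4 φ).G1) (hc : π.ker ≤ center E)
local notation "S" => adS chevD4 K
local notation "C" => Lay.chn (L4 K) r3_ad hc
local notation "OK" => Lay.OK (L4 K) S π

omit [Fintype K] in
theorem hF : CharOK K 2 := Or.inr ⟨Nat.prime_two, ‹_›⟩
omit [Fintype K] [CharP K 2] in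
theorem exv (t : K) : ∃ v : ℕ →* K, v 2 = t ∧ v 3 = t ^ 2 ∧ v 5 = t ^ 4 ∧ (∀ r s u, (S).evE v (wv r s u) = X r s u t) ∧
    (∀ r s u, (S).evE v (w1 r s u) = X r s u (1 : K)) ∧ ∀ r, (S).evE v [(r, .cst 1)] = (S).xN r 1 := by
  obtain ⟨v, v2, v3, v5, -⟩ := exists_v6 t (t ^ 2) (t ^ 4) 0 0 0
  exact ⟨v, v2, v3, v5, fun r s u => by simp [wv, X, v2, v3, v5], fun r s u => by simp [w1, X], by simp⟩
omit [CharP K 2] in
include hK in
theorem p7 (z : Kˣ) : z ^ 7 = 1 := by simpa [Nat.card_units, hK] using pow_card_eq_one' (x := z)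
theorem pos4 {r : Fin 24} (h : 12 ≤ r) : IsPos (r4 r) := show 24 ≤ 2 * r.1 by omega
omit [Fintype K] [CharP K 2] in
theorem ldw (v : ℕ →* K) (r : Fin 24) (x : Ex) (w : List (ℕ × Ex)) (h : 12 ≤ r ∧ ∀ c ∈ w, c.1 ≠ r.1 ∧ 24 ≤ 2 * c.1 ∧ κ4 r ≤ κ4 c.1) {g}
    (hg : g = (S).evE v ((r, x) :: w)) : g ∈ (L4 K).U S ((L4 K).κ (r4 r)) ∧ (L4 K).ld S (r4 r) g = x.ev v :=
  hg ▸ Lay.ld_evE (L := L4 K) cov_ad v (pos4 h.1) x fun c hc => (h.2 c hc).imp_right fun h _ => h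
include hφ in
theorem hψ (r : Φ chevD4) (t : K) : ((tw4 φ).ε r : K) * (tw4 φ).ψ r t = t ^ 2 := by
  rw [show ((tw4 φ).ε r : K) = _ from chk_gD4a.coe_εu r, show (tw4 φ).ψ r t = φ t ^ gD4a.lam r from rfl, (co4 r r.2).1, hφ]
  rcases chk_gD4a.ε_pm r with h | h <;> simp [h, CharTwo.neg_eq]
include hφ e
theorem mx (r : Fin 24) (h : gD4a.ρ r = r) : (S).xN r 1 ∈ π.range :=
  e ▸ (xN_val S (r4 r) 1).symm ▸ TwF.x_mem_G1 (r := r4 r) (Fin.ext h) (by rw [hψ hφ, one_pow])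
theorem rp (r : Fin 24) (h : 12 ≤ r ∧ gD4a.ρ r = r) : (L4 K).Rp S π (r4 r) {1, (S).xN r 1} := fun a ha => by
  obtain ⟨_, ⟨t, h1, rfl⟩, h2⟩ := o4.rp_fix cov_ad e (pos4 h.1) (Fin.ext h.2) a ha
  rw [hψ hφ, sq, ← sub_eq_zero, ← mul_sub_one, mul_eq_zero, sub_eq_zero] at h1
  exact ⟨_, by rcases h1 with rfl | rfl; exacts [Or.inl ((S).x_zero _), Or.inr (xN_val S (r4 r) 1).symm], h2⟩
include hc in
theorem cl {W : Subgroup E} (r s : Fin 24) (h : (12 ≤ r ∧ gD4a.ρ r = r) ∧ 12 ≤ s ∧ gD4a.ρ s = s)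
    (h' : ∀ a b, π a = (S).xN r 1 → π b = (S).xN s 1 → ⁅a, b⁆ ∈ W) : OK W (r4 r) (r4 s) :=
  Or.inr (Or.inr (Or.inr ⟨_, _, rp hφ e r h.1, rp hφ e s h.2, by
    rintro a b (h1 | h1) h2
    · rw [comm_congr hc (h1.trans π.map_one.symm) rfl]; simp
    · rcases h2 with h2 | h2
      · rw [comm_congr hc rfl (h2.trans π.map_one.symm)]; simp
      · exact h' a b h1 h2⟩))
include hc in
theorem c0 {W : Subgroup E} (r : Fin 24) (h : 12 ≤ r ∧ gD4a.ρ r = r) : OK W (r4 r) (r4 r) := cl hφ e hc r r ⟨h, h⟩ fun a b h1 h2 => by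
  rw [comm_congr hc (h1.trans h2.symm) rfl]; simp
include hK
theorem mX : ∀ p ∈ [(18, 13, 12), (19, 16, 15), (17, 20, 21), (5, 10, 11)], ∀ t : K, X p.1 p.2.1 p.2.2 t ∈ π.range := fun p hp t => by
  have hσ : ∀ r < 24, ∀ t, (tw4 φ).σ ((S).xN r t) = (S).xN (gD4a.ρ r) (t ^ 2) := fun r hr t => by
    rw [xN_lt _ hr, (tw4 φ).hxf, hψ hφ]; exact (xN_val ..).symm
  obtain ⟨v, v2, v3, v5, ev, -⟩ := exv t
  obtain ⟨h1, h2, h3, h4, h5, -⟩ := cq.1 p hp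
  have f : X p.1 p.2.1 p.2.2 t ∈ (tw4 φ).Fix := ⟨ev .. ▸ (S).evE_mem_T _ _, by
    have := commutatorElement_eq_one_iff_mul_comm.1 (h5.eq hF S v)
    rw [X, (tw4 φ).mul _ ((S).xN_mem_T _ _) _ (mul_mem ((S).xN_mem_T _ _) ((S).xN_mem_T _ _)), (tw4 φ).mul _ ((S).xN_mem_T _ _) _ ((S).xN_mem_T _ _),
      hσ _ (h1 _ (by simp)).1, hσ _ (h1 _ (by simp)).1, hσ _ (h1 _ (by simp)).1, h2, h3, h4, ← pow_mul, ← pow_mul,
      show t ^ (4 * 2) = t by simpa [hK] using FiniteField.pow_card t]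
    simpa [v2, v3, v5, mul_assoc] using this.symm⟩
  have m : ∀ P : Set (Φ chevD4), (∀ r ∈ [p.1, p.2.1, p.2.2], ∀ h : r < 24, (⟨r, h⟩ : Φ chevD4) ∈ P) → X p.1 p.2.1 p.2.2 t ∈ (S).gen P :=
    fun P h => mul_mem ((S).xN_mem (h _ (by simp)) _) (mul_mem ((S).xN_mem (h _ (by simp)) _) ((S).xN_mem (h _ (by simp)) _))
  rw [e]
  by_cases k : 12 ≤ p.1
  · exact mem_sup_left ⟨m _ fun r hr _ => show 24 ≤ 2 * r by have := (h1 r hr).2; omega, f⟩
  · exact mem_sup_right ⟨m _ fun r hr _ => show ¬ 24 ≤ 2 * r by have := (h1 r hr).2; omega, f⟩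
theorem tor {l : K} (hl : l ≠ 0) : ∃ t, π t ∈ (S).H ∧ ∃ χ, (S).Wt (π t) χ ∧ χ (r4 18) = l ∧ χ (r4 19) = l ∧ χ (r4 17) = l⁻¹ ∧ χ (r4 14) = 1 ∧
    χ (r4 22) = 1 ∧ χ (r4 23) = 1 := by
  obtain ⟨t, ht⟩ := fam hφ hK e (r4 13) (by decide +kernel) (Units.mk0 l hl)
  have k : ∀ (r : Fin 24) (n : ℤ), 7 ∣ (tab chevD4).pr 13 r + (2 : ℕ) * (tab chevD4).pr (gD4a.ρ 13) r +
      (2 ^ 2 : ℕ) * (tab chevD4).pr (gD4a.ρ (gD4a.ρ 13)) r - n → ∀ z : Kˣ, ((z ^ pr (r4 13) (r4 r) * (z ^ 2) ^ pr (chk_gD4a.emb (r4 13)) (r4 r) *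
        (z ^ 2 ^ 2) ^ pr (chk_gD4a.emb (chk_gD4a.emb (r4 13))) (r4 r) : Kˣ) : K) = z ^ n := fun r n ⟨m, h⟩ z => by
    rw [← zpow_natCast z, ← zpow_natCast z, ← zpow_mul, ← zpow_mul, ← zpow_add, ← zpow_add, ← pr_tab, ← pr_tab, ← pr_tab]
    refine (congrArg (fun n : ℤ => ((z ^ n : Kˣ) : K)) (eq_add_of_sub_eq' h)).trans ?_
    simp [zpow_add, zpow_mul, zpow_ofNat, p7 hK]
  refine ⟨t, ht ▸ (S).hl_mem _, _, ht ▸ wt_tz S _ _ _ _ _ _, (k 18 1 ?_ _).trans (by simp), (k 19 1 ?_ _).trans (by simp),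
    (k 17 (-1) ?_ _).trans (by simp), (k 14 0 ?_ _).trans (by simp), (k 22 0 ?_ _).trans (by simp), (k 23 0 ?_ _).trans (by simp)⟩ <;>
  rw [tabD4_eq] <;> decide +kernel
theorem tt : ∀ r ∈ [18, 19, 17], ∀ s ∈ [14, 22, 23], Lay.TT S π (r4 r) (r4 s) := fun r hr s hs => by
  obtain ⟨l, hl⟩ := exists_sq_ne_one (F := K) (by rw [hK]; omega)
  have l1 : (l : K) ≠ 1 := fun h => hl (by rw [h, one_pow])
  obtain ⟨t, h1, χ, h2, h3⟩ := tor hφ hK e l.ne_zero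
  simp only [List.mem_cons, List.not_mem_nil, or_false] at hr hs
  refine ⟨_, ⟨h1, t, rfl⟩, χ, h2, ?_, ?_⟩
  · rcases hr with rfl | rfl | rfl <;> simp only [h3, ne_eq, inv_eq_one, l1, not_false_eq_true]
  · rcases hs with rfl | rfl | rfl <;> simp only [h3]
theorem tf {W : Subgroup E} (r s : Fin 24) (h : r ∈ [18, 19, 17] ∧ s ∈ [14, 22, 23] ∨ s ∈ [18, 19, 17] ∧ r ∈ [14, 22, 23] ∨
    (r, s) ∈ [(18, 18), (18, 19), (19, 19), (17, 17)]) : OK W (r4 r) (r4 s) :=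
  h.imp (fun h => tt hφ hK e r h.1 s h.2) (Or.imp (fun h => tt hφ hK e s h.1 r h.2) fun h => Or.inl fun l hl => by
    simp only [List.mem_cons, List.not_mem_nil, or_false, Prod.mk.injEq] at h
    obtain ⟨t, h1, χ, h2, h3⟩ := tor hφ hK e hl
    obtain ⟨t', h1', χ', h2', h3'⟩ := tor hφ hK e (inv_ne_zero hl)
    rcases h with ⟨rfl, rfl⟩ | ⟨rfl, rfl⟩ | ⟨rfl, rfl⟩ | ⟨rfl, rfl⟩
    exacts [⟨_, ⟨h1, t, rfl⟩, χ, h2, h3.1, h3.1⟩, ⟨_, ⟨h1, t, rfl⟩, χ, h2, h3.1, h3.2.1⟩, ⟨_, ⟨h1, t, rfl⟩, χ, h2, h3.2.1, h3.2.1⟩,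
      ⟨_, ⟨h1', t', rfl⟩, χ', h2', by simp [h3'], by simp [h3']⟩])
theorem two (r : Fin 24) {i : ℕ} {W : Subgroup E} {w : E} (h : (12 ≤ r ∧ gD4a.ρ r = r) ∧ κ4 r = i) (h1 : π w = (S).xN r 1) (h2 : w * w ∈ W)
    (g : (C).Good (i + 1) W) (p : (C).Pr W 0 i) : ∃ W', (C).Good i W' ∧ W ≤ W' ∧ w ∈ W' := by
  obtain ⟨h, rfl⟩ := h
  have hr := pos4 h.1
  have h3 : π w = (S).x (r4 r) 1 := h1.trans (xN_val S (r4 r) 1)
  refine g.two p (Lay.Z_le _ _ _) (show π w ∈ _ from h3 ▸ (L4 K).x_mem S hr le_rfl 1) (fun k => ?_) h2 (fun v hv => ?_) fun t ht => ⟨3, ?_⟩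
  · exact one_ne_zero ((Lay.ld_self cov_ad hr 1).symm.trans (h3 ▸ Lay.ld_succ (L := L4 K) (a := π w) cov_ad hr k))
  · obtain ⟨a, h4 | h4, -, h5⟩ := o4.rp r3_ad hc cov_ad (e.le.trans G1_le_fix) hr (rp hφ e r h) v hv <;>
    change π _ ∈ (L4 K).U S _ at h5 <;> rw [map_mul, map_inv, show π a = _ from h4] at h5
    · exact Or.inl (by rwa [inv_one, one_mul] at h5)
    · exact Or.inr (by rwa [← h1, ← map_inv, ← map_mul] at h5)
  · obtain ⟨d, hd⟩ := r3_ad.exists_hl ht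
    change π _ = 1
    rw [map_pow, hd, ← r3_ad.hprod_apply, ← map_pow, show d ^ _ = 1 from funext fun i => p7 hK _, map_one]
variable [Finite E]
theorem nx (r : Fin 24) {i : ℕ} {W : Subgroup E} (h : r ∈ [18, 19, 17] ∧ 12 ≤ r ∧ κ4 r = i) (g : (C).Good (i + 1) W) (p : (C).Pr W 0 i) :
    ∃ W', (C).Good i W' ∧ W ≤ W' := by
  obtain ⟨h1, h2, rfl⟩ := h
  obtain ⟨_, ⟨h3, t, rfl⟩, χ, h4, h5, -⟩ := tt hφ hK e r h1 14 (by simp)
  exact g.next p (Lay.Z_le _ _ _) h3 (o4.fpf r3_ad hc cov_ad (e.le.trans G1_le_fix) (pos4 h2) h4 h5)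
omit hφ in
theorem st (r s : Fin 24) {j i : ℕ} {W : Subgroup E} (h : 12 ≤ r ∧ 12 ≤ s ∧ κ4 r = j ∧ κ4 s = i) (h' : OK W (r4 r) (r4 s)) :
    (C).Good (i + 1) W → (C).Pr W (j + 1) i → (C).Pr W j i := by
  obtain ⟨h1, h2, rfl, rfl⟩ := h
  exact o4.step r3_ad hc cov_ad (e.le.trans G1_le_fix) (pos4 h1) (pos4 h2) ⟨Finset.univ, by simp [hK]⟩ h'

include hc in
theorem small : ⁅(S).U.comap π, (S).U.comap π⁆ ⊓ π.ker = ⊥ := by
  have st := @st K _ _ E _ _ φ hK π e hc _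
  have tf := @tf K _ _ E _ _ φ hφ hK π e
  have c0 := @c0 K _ _ E _ _ φ hφ π e hc
  have mX := mX hφ hK e
  obtain ⟨v, -, -, -, -, ev1, ev2⟩ := exv (1 : K)
  obtain ⟨q0, q1, q2, q3, q4, q5⟩ := cq
  have cz : ∀ p ∈ [(18, 13, 12), (19, 16, 15), (17, 20, 21), (5, 10, 11)], X p.1 p.2.1 p.2.2 (1 : K) ∈ centralizer {(S).xN 23 1} ⊓ π.range :=
    fun p hp => ⟨mem_centralizer_singleton_iff.2 (commutatorElement_eq_one_iff_mul_comm.1 (by
      simpa only [ev1, ev2, evE_nil] using (q0 p hp).2.2.2.2.2.eq hF S v)), mX p hp 1⟩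
  have i2 : ⁅X 18 13 12 (1 : K), X 17 20 21 1⁆ = (S).xN 22 1 := by simpa only [ev1, ev2] using q2.eq hF S v
  have i4 : ⁅(S).xN 14 1, (S).xN 22 1⁆ = (S).xN 23 1 := by simpa only [ev1, ev2] using q4.eq hF S v
  have i5 : ⁅X 5 10 11 (1 : K), X 19 16 15 1⁆ = (S).xN 14 1 := by simpa only [ev1, ev2] using q5.eq hF S v
  have xU : ∀ r i, 12 ≤ r ∧ i ≤ κ4 r → ∀ t, (S).xN r t ∈ (L4 K).U S i := fun r i h t =>
    (S).xN_mem (fun _ => And.intro (show 24 ≤ 2 * r by omega) h.2) t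
  have XU : ∀ r s u i, (∀ k ∈ [r, s, u], 12 ≤ k ∧ i ≤ κ4 k) → ∀ t : K, X r s u t ∈ (L4 K).U S i := fun r s u i h t =>
    mul_mem (xU _ _ (h _ (by simp)) _) (mul_mem (xU _ _ (h _ (by simp)) _) (xU _ _ (h _ (by simp)) _))
  have g6 : (C).Good 6 ⊥ := good_bot fun a ha => by
    have : (L4 K).U S 6 ≤ ⊥ := (S).gen_le.2 fun r hr => absurd hr.2 ((show ∀ r < 24, ¬ 6 ≤ κ4 r by decide +kernel) r r.2)
    exact this ha
  have p5 : (C).Pr ⊥ 0 5 := g6.pr fun j hj => by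
    interval_cases j
    · exact st 14 23 (by decide +kernel) (cl hφ e hc _ _ (by decide +kernel) fun a b h1 h2 => milnor hc (by
        rw [h1.trans i5.symm, h2]; exact commutator_mem_commutator (cz (5, 10, 11) (by simp)) (cz (19, 16, 15) (by simp)))) g6
    · exact st 18 23 (by decide +kernel) (tf _ _ (by decide)) g6
    · exact st 19 23 (by decide +kernel) (tf _ _ (by decide)) g6
    · exact st 17 23 (by decide +kernel) (tf _ _ (by decide)) g6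
    · exact st 22 23 (by decide +kernel) (cl hφ e hc _ _ (by decide +kernel) fun a b h1 h2 => milnor hc (by
        rw [h1.trans i2.symm, h2]; exact commutator_mem_commutator (cz (18, 13, 12) (by simp)) (cz (17, 20, 21) (by simp)))) g6
    · exact st 23 23 (by decide +kernel) (c0 _ (by decide +kernel)) g6
  obtain ⟨b, hb⟩ := mx hφ e 14 (by decide +kernel)
  obtain ⟨c, hc'⟩ := mx hφ e 22 (by decide +kernel)
  have sq : ∀ a b : E, π a * π a = 1 → ⁅a, b⁆ * ⁅a, b⁆ = ⁅a, ⁅a, b⁆⁆⁻¹ := fun a b h => by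
    have := comm_congr hc (a := a * a) (a' := 1) (b := b) (by simpa using h) rfl
    rw [commutatorElement_one_left] at this
    rw [eq_inv_iff_mul_eq_one, mul_eq_one_comm, ← this]; group
  have b0 : b ∈ (C).V 0 := show π b ∈ _ from hb ▸ xU _ _ (by decide +kernel) _
  have w6 : π ⁅b, c⁆ = (S).xN (23 : Fin 24) 1 := by rw [map_commutatorElement, hb, hc']; exact i4
  obtain ⟨W5, g5, -, m5⟩ := two hφ hK e hc 23 (by decide +kernel) w6 (by
    rw [sq b c (by rw [hb, ← xN_add, CharTwo.add_self_eq_zero, xN_zero])]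
    exact inv_mem (p5 b b0 _ (show π _ ∈ _ from w6 ▸ xU _ _ (by decide +kernel) _))) g6 p5
  have p4 : (C).Pr W5 0 4 := g5.pr fun j hj => by
    interval_cases j
    · exact st 14 22 (by decide +kernel) (cl hφ e hc _ _ (by decide +kernel) fun a b h1 h2 =>
        comm_congr hc (hb.trans h1.symm) (hc'.trans h2.symm) ▸ m5) g5
    · exact st 18 22 (by decide +kernel) (tf _ _ (by decide)) g5
    · exact st 19 22 (by decide +kernel) (tf _ _ (by decide)) g5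
    · exact st 17 22 (by decide +kernel) (tf _ _ (by decide)) g5
    · exact st 22 22 (by decide +kernel) (c0 _ (by decide +kernel)) g5
  choose a ha using mX (18, 13, 12) (by simp)
  obtain ⟨y, hy⟩ := mX (19, 16, 15) (by simp) 1
  obtain ⟨d, hd⟩ := mX (17, 20, 21) (by simp) 1
  have a1 : ∀ t, a t ∈ (C).V 1 := fun t => show π _ ∈ _ from ha t ▸ XU _ _ _ _ (by decide +kernel) _
  have a0 := fun t => (C).le0 1 (a1 t)
  have w5 : π ⁅a 1, d⁆ = (S).xN (22 : Fin 24) 1 := by rw [map_commutatorElement, ha, hd]; exact i2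
  obtain ⟨W4, g4, -, m4⟩ := two hφ hK e hc 22 (by decide +kernel) w5 (by
    rw [sq _ d (by
      simpa only [ha, evE_append, ev1, evE_nil] using (S).eq_of_coll v hF (key := id) (n := 30) (w := w1 18 13 12 ++ w1 18 13 12) (w' := [])
        (by rw [tabD4_eq]; decide +kernel))]
    exact inv_mem (p4 _ (a0 1) _ (show π _ ∈ _ from w5 ▸ xU _ _ (by decide +kernel) _))) g5 p4
  have p3 : (C).Pr W4 0 3 := g4.pr fun j hj => by
    interval_cases j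
    · exact st 14 17 (by decide +kernel) (tf _ _ (by decide)) g4
    · intro hp
      have c1 : (C).Co 1 _ := o4.co r3_ad hc cov_ad (e.le.trans G1_le_fix) (pos4 (r := 18) (by decide))
      have c3 : (C).Co 3 _ := o4.co r3_ad hc cov_ad (e.le.trans G1_le_fix) (pos4 (r := 17) (by decide))
      have D : ∀ t, ⁅a t, y⁆ ∈ (C).V 3 ∧ (L4 K).ld S (r4 17) (π ⁅a t, y⁆) = t ^ 2 + t ^ 4 := fun t => by
        obtain ⟨v, -, v3, v5, ev, ev1, -⟩ := exv t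
        have := ldw v 17 (.var 3 + .var 5) d2 (by decide +kernel) (g := π ⁅a t, y⁆) (by
          rw [map_commutatorElement, ha, hy, ← ev, ← ev1]; exact q1.eq hF S v)
        rwa [Ex.ev_add, Ex.ev_var, Ex.ev_var, v3, v5] at this
      have D1 : ⁅a 1, y⁆ ∈ (C).V 4 := (c3.ker _ (D 1).1).1 ((D 1).2.trans (by simp [CharTwo.add_self_eq_zero]))
      have k1 : ∀ t, ⁅a 1, ⁅a t, y⁆⁆ ∈ W4 := fun t => by
        obtain ⟨v, -, -, -, ev, ev1, -⟩ := exv t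
        have : ⁅a 1 * a t, y⁆ = ⁅a t * a 1, y⁆ := comm_congr hc (by
          simpa only [map_mul, ha, evE_append, ev1, ev] using (S).eq_of_coll v hF (key := id) (n := 30) (w := w1 18 13 12 ++ wv 18 13 12)
            (w' := wv 18 13 12 ++ w1 18 13 12) (by rw [tabD4_eq]; decide +kernel)) rfl
        rw [show ⁅a 1, ⁅a t, y⁆⁆ = ⁅a 1 * a t, y⁆ * ⁅a 1, y⁆⁻¹ * ⁅a t, y⁆⁻¹ by group, this,
          show ⁅a t * a 1, y⁆ * ⁅a 1, y⁆⁻¹ * ⁅a t, y⁆⁻¹ = ⁅a t, ⁅a 1, y⁆⁆ * ⁅⁅a t, y⁆, ⁅a 1, y⁆⁆⁻¹ by group]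
        exact mul_mem (g4.right (a0 t) D1) (inv_mem (g4.right ((C).le0 3 (D t).1) D1))
      obtain ⟨d3, d1⟩ := ldw v 17 (.cst 1) [(20, .cst 1), (21, .cst 1)] (by decide +kernel) (hd.trans (ev1 17 20 21).symm)
      obtain ⟨-, l1⟩ := ldw v 18 (.cst 1) [(13, .cst 1), (12, .cst 1)] (by decide +kernel) ((ha 1).trans (ev1 18 13 12).symm)
      rw [Ex.ev_cst, Int.cast_one] at d1 l1
      replace d3 : d ∈ (C).V 3 := d3
      have k2 : ∀ z ∈ (C).V 3, ⁅a 1, z⁆ ∈ W4 := fun z hz => by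
        generalize ht : (L4 K).ld S (r4 17) (π z) = t
        have h8 : t ^ 8 = t := by simpa [hK] using FiniteField.pow_card t
        have : (t ^ 2 + t ^ 4 - t) * (t ^ 2 + t ^ 4 + 1 - t) = 0 := by
          linear_combination h8 + (t ^ 6 - t ^ 5 + t ^ 4 - t ^ 3 + t ^ 2) * (CharTwo.two_eq_zero (R := K))
        rcases mul_eq_zero.1 this with h | h
        · exact g4.congr hp (a1 1) (D t).1 (by simp) (c3.eq (D t).1 hz ((D t).2.trans ((sub_eq_zero.1 h).trans ht.symm))) (k1 t)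
        · refine g4.congr hp (a1 1) (mul_mem (D t).1 d3) (by simp) (c3.eq (mul_mem (D t).1 d3) hz ?_) ?_
          · rw [c3.mul _ (D t).1 _ d3, (D t).2, d1, ht]; exact sub_eq_zero.1 h
          · rw [show ⁅a 1, ⁅a t, y⁆ * d⁆ = ⁅a 1, ⁅a t, y⁆⁆ * (⁅a t, y⁆ * ⁅a 1, d⁆ * ⁅a t, y⁆⁻¹) by group]
            exact mul_mem (k1 t) (g4.nV _ ((C).le0 3 (D t).1) _ m4)
      intro x hx z hz
      by_cases h0 : (L4 K).ld S (r4 18) (π x) = 0
      · exact hp x ((c1.ker x hx).1 h0) z hz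
      obtain ⟨t, h1, χ, h2, h3, -⟩ := tor hφ hK e h0
      have := g4.nT t h1 _ (k2 _ ((C).nrm 3 t⁻¹ (show π _ ∈ (S).H from map_inv π t ▸ inv_mem h1) z hz))
      rw [conjugate_commutatorElement] at this
      refine g4.congr hp ((C).nrm 1 t h1 _ (a1 1)) hz (c1.eq ((C).nrm 1 t h1 _ (a1 1)) hx ?_) (by simp) (by simpa [mul_assoc] using this)
      rw [map_mul, map_mul, map_inv, Lay.ld_wt (L := L4 K) (a := π (a 1)) cov_ad (pos4 (r := 18) (by decide)) h2 (a1 1), h3, l1, mul_one]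
    · refine st 19 17 (by decide +kernel) (Or.inr (Or.inr (Or.inr ⟨Set.range fun t => π ⁅a t, b⁆, (L4 K).U S 3, fun x hx => ?_,
        fun x hx => ⟨x, hx.1, hx, rfl⟩, ?_⟩))) g4
      · obtain ⟨v, v2, -, -, ev, -, ev2⟩ := exv ((L4 K).ld S (r4 19) x)
        have := ldw v 19 (.var 2) d1 (by decide +kernel) (g := π ⁅a ((L4 K).ld S (r4 19) x), b⁆) (by
          rw [map_commutatorElement, ha, hb, ← ev, ← ev2]; exact q3.eq hF S v)
        exact ⟨_, ⟨_, rfl⟩, mem_inf.2 ⟨this.1, _, rfl⟩, this.2.trans v2⟩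
      · rintro x z ⟨t, h1⟩ h2
        exact comm_congr hc h1 rfl ▸ g4.mil (a0 t) b0 h2
    · exact st 17 17 (by decide +kernel) (tf _ _ (by decide)) g4
  obtain ⟨W3, g3, -⟩ := nx hφ hK e hc 17 (by decide +kernel) g4 p3
  have p2 : (C).Pr W3 0 2 := g3.pr fun j hj => by
    interval_cases j
    · exact st 14 19 (by decide +kernel) (tf _ _ (by decide)) g3
    · exact st 18 19 (by decide +kernel) (tf _ _ (by decide)) g3
    · exact st 19 19 (by decide +kernel) (tf _ _ (by decide)) g3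
  obtain ⟨W2, g2, -⟩ := nx hφ hK e hc 19 (by decide +kernel) g3 p2
  have p1 : (C).Pr W2 0 1 := g2.pr fun j hj => by
    interval_cases j
    · exact st 14 18 (by decide +kernel) (tf _ _ (by decide)) g2
    · exact st 18 18 (by decide +kernel) (tf _ _ (by decide)) g2
  obtain ⟨W1, g1, -⟩ := nx hφ hK e hc 18 (by decide +kernel) g2 p1
  have p0 := st 14 14 (j := 0) (i := 0) (by decide +kernel) (c0 _ (by decide +kernel)) g1 g1.start
  rw [← (L4 K).U_zero S]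
  exact eq_bot_iff.2 fun z hz => g1.inf z (commutator_le.2 p0 hz.1) hz.2
end small

/-- Schur multipliers of the triality-twisted groups ³D₄: for every prime power q, with the group realised over the field with q³ elements, the Schur multiplier of ³D₄(q) is trivial (here the Schur multiplier is described through stem extensions, as in the definitions). -/
theorem result {K : Type*} [Field K] [Fintype K] {q : ℕ} (hq : IsPrimePow q) (hK : Fintype.card K = q ^ 3) : Cfsg.HasCyclicSchurMultiplier ↥(Cfsg.Lie.twistedD4 K q) 1 := by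
  obtain ⟨φ, hφ⟩ := exists_frob hq three_ne_zero hK
  obtain ⟨p, _, n, hp, -⟩ := FiniteField.card' K
  have := Fact.mk hp
  rw [eq4 hφ hK]
  refine schur_r1 p (adm4 hφ hK).G1 cov_ad r3_ad (fun c h e => (ker_T14 hφ).le ⟨cov_ad.hl_mem_ker.1 e, h⟩)
    (fun E _ _ π e hc => hq.two_le.eq_or_lt.elim (fun h => by subst h; have := char2 hK; exact small hφ hK e hc) (big hφ hK e hc)) fun i => ?_
  obtain ⟨O, hO, hi⟩ := exists_orb4 i
  have h := orb4 O hO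
  simp only [List.mem_cons, List.not_mem_nil, or_false] at hO
  rcases hO with rfl | rfl
  · obtain rfl := List.mem_singleton.1 hi; exact r1o_fix cov_ad r3_ad h rfl
  · refine ⟨⊤, _, h.r1o (f := fun j => if j = n4 0 then Subfield.subtype _ else if j = n4 2 then φ.comp (Subfield.subtype _) else
      (φ.comp φ).comp (Subfield.subtype _)) hi cov_ad r3_ad
      (fun t => by convert cp4 hφ hK t using 2; split_ifs <;> simp [hφ, sq, pow_mul]) fun c hc => ⟨⟨c (n4 0), trivial⟩, ?_⟩⟩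
    simp only [TwF.Cp, tw4_ψ, List.forall_mem_cons, π4] at hc
    simp [n4_inj, hc.1, hc.2.1]

end Cfsg.Agent.S2110
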