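import Cfsg.Statements.S2114
import Cfsg.Agent.H12.MT

set_option autoImplicit false
open Cfsg

namespace Cfsg.Agent.S2114
open H12 H12.StSys H12.Tw H12.Chn Cfsg.Lie Subgroup H24 H13
open scoped commutatorElement

@[irreducible] noncomputable def κF : ℕ → ℕ := fld 0xb0a090b0807040a09080607050200060503040301020100000000000000000000000000000000000000000000000000 8
def PF (a b _c : ℤ) : Prop := 2 * a ^ 2 - b ^ 2 ∣ 8
def QF (a b _c : ℤ) : Prop := a = 1 ∧ b = 0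
instance decPF (a b c : ℤ) : Decidable (PF a b c) := by unfold PF; infer_instance
instance decQF (a b c : ℤ) : Decidable (QF a b c) := by unfold QF; infer_instance
def qs : List (Fin 48 × Fin 48 × Fin 48 × Fin 48 × List (Fin 4)) :=
  [(27, 25, 28, 30, [0, 3, 1, 2, 1, 2, 0, 3]), (34, 26, 36, 42, [1, 2, 1, 2, 0, 3]), (35, 31, 40, 46, [0, 3])]
theorem layF : LayT (tab chevF4) gF4 κF := by rw [tabF4_eq]; decide +kernel
theorem ttF : ∀ r < (tab chevF4).n, (tab chevF4).n ≤ 2 * r → FuT (tab chevF4) gF4 QF r ∧ (∃ s < (tab chevF4).n, TTT (tab chevF4) gF4 PF r s) ∧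
    ∀ s < (tab chevF4).n, (tab chevF4).n ≤ 2 * s → κF r < κF s → (κF s < 11 ∧ ∃ p ∈ qs, κF r = κF p.2.1 ∧ κF s = κF p.2.2.1) ∨
    TTT (tab chevF4) gF4 PF r s ∨ TTT (tab chevF4) gF4 PF s r ∨ κF r = 4 ∧ κF s = 11 := by rw [tabF4_eq]; decide +kernel
theorem coF : ∀ k < (tab chevF4).n, gF4.lam k = 1 → ∀ i < 4, (tab chevF4).co (gF4.ρ k) ([3, 2, 1, 0].getD i 0) =
    (tab chevF4).co k i * ([2, 2, 1, 1].getD i 1 : ℕ) ∧ (2 : ℕ) * (tab chevF4).co k ([3, 2, 1, 0].getD i 0) =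
    (tab chevF4).co (gF4.ρ k) i * ([2, 2, 1, 1].getD i 1 : ℕ) := by rw [tabF4_eq]; decide +kernel
def QC (T : Tab) (a b c d : ℕ) (l : List ℕ) : Prop := SzChk T gF4 a b c d ∧ (∀ r ∈ [a, b, c, d], 24 ≤ r ∧ κF b ≤ κF r ∧ 24 ≤ runW T l r) ∧
  (∀ r ∈ [c, d], κF c ≤ κF r ∧ 11 ≤ κF (runW T l r)) ∧ ∀ r < T.n, runW T l (gF4.ρ r) = gF4.ρ (runW T l r)
noncomputable instance decQC (T : Tab) (a b c d : ℕ) (l : List ℕ) : Decidable (QC T a b c d l) := by unfold QC; infer_instance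
theorem qc : ∀ p ∈ qs, QC (tab chevF4) p.1 p.2.1 p.2.2.1 p.2.2.2.1 (p.2.2.2.2.map Fin.val) := by rw [tabF4_eq]; decide +kernel
def dF : List (ℕ × Ex) := [(31, .var 2), (32, .var 2), (35, .var 3), (36, .var 6), (37, .var 3), (38, .var 6), (39, .var 6), (41, .var 9),
  (42, .var 18), (43, .var 18), (44, .var 18), (47, .var 36)]
theorem cq : Cq (tab chevF4) 2 [(33, .var 3), (24, .var 2)] [(28, .cst 1), (30, .cst 1)] ((29, .var 2) :: dF) := by
  unfold Cq; rw [tabF4_eq]; decide +kernel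
theorem c47 : (∀ r ∈ [27, 25, 28, 30, 20, 22, 19, 17], 47 ≠ (tab chevF4).ng r ∧ (tab chevF4).terms r 47 = []) ∧
    ∀ i < 4, (tab chevF4).ca i 47 = [0, 0, 0, 1].getD i 0 := by rw [tabF4_eq]; decide +kernel

section unip
variable {K : Type*} [Field K] [Fintype K] [CharP K 2] {m : ℕ} {φ : K →+* K} (h2 : ∀ t, φ (φ t) ^ 2 = t) (hφ : ∀ t, φ t = t ^ 2 ^ m)
  {E : Type*} [Group E] {π : E →* GL chevF4.Idx K} (e : π.range = (twF φ).G1)
local notation "S" => adS chevF4 K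
noncomputable abbrev LF (K : Type*) [Field K] [Fintype K] [CharP K 2] : Lay chevF4 K := layF.lay charOK2
theorem oF : (LF K).Orb RF := layF.orb charOK2 chk_gF4 sim_gF4
theorem posF {r : Φ chevF4} (h : 24 ≤ r.1) : IsPos r := show 48 ≤ 2 * r.1 by omega
include h2 e
include hφ in
theorem fam : Fam chk_gF4 S π (Units.map φ) fun _ => 1 := fun k hk z => e ▸ eqF h2 hφ ▸ ((HF_eq h2 hφ).ge ⟨_, fun i => Units.ext (by
  have e1 : co (chk_gF4.emb k) (RF.π i) = co k i * ([2, 2, 1, 1].getD i 1 : ℕ) := (coF k k.2 hk i i.2).1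
  have e2 : (2 : ℕ) * co k (RF.π i) = co (chk_gF4.emb k) i * ([2, 2, 1, 1].getD i 1 : ℕ) := (coF k k.2 hk i i.2).2
  refine Eq.trans ?_ (twF_ψ φ i _).symm
  simp only [tz, Units.val_mul, Units.val_zpow_eq_zpow_val, map_mul, map_zpow₀, one_zpow, mul_one, Units.coe_map, MonoidHom.coe_coe, mul_pow]
  rw [← zpow_natCast, ← zpow_natCast, ← zpow_mul, ← zpow_mul, ← e1, ← e2, zpow_mul, zpow_natCast, h2, mul_comm]), rfl⟩).2
theorem yq {a b c d : Φ chevF4} (h : SzChk (tab chevF4) gF4 a b c d) (hp : ∀ r ∈ [a, b, c, d], IsPos r) (t u : K) : (S).szY φ a b c d t u ∈ π.range :=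
  e ▸ mem_sup_left ⟨Sz.y_mem hp t u, (SzChk.sz chk_gF4 sim_gF4 charOK2 _ h2 h).y_fix t u⟩
variable (hc : π.ker ≤ center E)
local notation "C" => Lay.chn (LF K) r3_ad hc
include hφ in
theorem sz (p11 : (C).Pr ⊥ 0 11) {a b c d : Φ chevF4} {l : List (I chevF4)} (h : QC (tab chevF4) a b c d (l.map Fin.val)) {r s : Φ chevF4}
    (hr : IsPos r) (hs : IsPos s) (h1 : κF r = κF b) (h3 : κF s = κF c) : (LF K).Cm S π ⊥ r s := by
  obtain ⟨q1, q2, q3, q4⟩ := h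
  simp only [List.forall_mem_cons, List.not_mem_nil, IsEmpty.forall_iff, implies_true, and_true, runW_eq] at q2 q3
  obtain ⟨⟨a1, a2, a3⟩, ⟨b1, -, b3⟩, ⟨c1, c2, c3⟩, d1, d2, d3⟩ := q2
  obtain ⟨⟨-, c4⟩, d4, d5⟩ := q3
  have hp : ∀ r ∈ [a, b, c, d], IsPos r := by simpa using ⟨posF a1, posF b1, posF c1, posF d1⟩
  obtain ⟨n1, n2, n3⟩ : (a ≠ b ∧ a ≠ c ∧ a ≠ d) ∧ (b ≠ c ∧ b ≠ d) ∧ c ≠ d := by simpa [Fin.ext_iff] using q1.2.1
  obtain ⟨n, hn, h4⟩ := (admF h2 hφ).exists_rep cov_ad (w := ((wg chevF4).wp l)⁻¹) (RSym.mem_W1_iff.2 fun r => Fin.ext (by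
    rw [← runW_eq]; exact (q4 r r.2).trans (congrArg gF4.ρ (runW_eq l r))))
  obtain ⟨n, rfl⟩ : n ∈ π.range := e ▸ eqF h2 hφ ▸ hn
  have x := fun r hr i hi t => (LF K).x_mem S (r := r) (i := i) hr hi t
  refine ⟨(S).gen {r | r ∈ [a, b, c, d]}, (S).gen {r | r ∈ [c, d]}, oF.rp_congr cov_ad (e.le.trans G1_le_fix) (posF b1) hr h1 fun g _ => ?_,
    oF.rp_congr cov_ad (e.le.trans G1_le_fix) (posF c1) hs h3 fun g _ => ?_, fun x y hx hy => ?_⟩
  · refine ⟨_, Sz.y_mem (fun _ h => h) _ 0, mem_inf.2 ⟨Sz.y_mem (by simpa using ⟨⟨posF a1, a2⟩, posF b1, ⟨posF c1, c2⟩, posF d1, d2⟩) _ _,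
      yq h2 e q1 hp ((LF K).ld S b g) 0⟩, ?_⟩
    have xa := x a (posF a1) _ a2
    have xb := x b (posF b1) _ le_rfl
    have xc := x c (posF c1) _ c2
    rw [szY, StSys.q4, Lay.ld_mul cov_ad (posF b1) (mul_mem (mul_mem (xa _) (xb _)) (xc _)) (x d (posF d1) _ d2 _),
      Lay.ld_mul cov_ad (posF b1) (mul_mem (xa _) (xb _)) (xc _), Lay.ld_mul cov_ad (posF b1) (xa _) (xb _), Lay.ld_self cov_ad (posF b1),
      Lay.ld_x cov_ad (posF b1) (posF a1) a2, Lay.ld_x cov_ad (posF b1) (posF c1) c2, Lay.ld_x cov_ad (posF b1) (posF d1) d2,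
      if_neg n1.1.symm, if_neg n2.1, if_neg n2.2]
    simp
  · have := yq h2 e q1 hp 0 ((LF K).ld S c g)
    simp only [szY, StSys.q4, map_zero, x_zero, one_mul, mul_zero, zero_add] at this
    have xc := x c (posF c1) _ le_rfl
    have xd := x d (posF d1) _ d4
    refine ⟨_, mul_mem ((S).x_mem (by simp) _) ((S).x_mem (by simp) _), mem_inf.2 ⟨mul_mem (xc _) (xd _), this⟩, ?_⟩
    rw [Lay.ld_mul cov_ad (posF c1) (xc _) (xd _), Lay.ld_self cov_ad (posF c1), Lay.ld_x cov_ad (posF c1) (posF d1) d4, if_neg n3, add_zero]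
  · have k : ∀ x, π (n * x * n⁻¹) = π n * π x * (π n)⁻¹ := by simp
    have := p11 (n * x * n⁻¹) (show π _ ∈ _ from k x ▸ h4.act.conj_mem (Q := {r | IsPos r ∧ 0 ≤ κF r})
      (by simpa using ⟨posF a3, posF b3, posF c3, posF d3⟩) hx) (n * y * n⁻¹) (show π _ ∈ _ from k y ▸
      h4.act.conj_mem (Q := {r | IsPos r ∧ 11 ≤ κF r}) (by simpa using ⟨⟨posF c3, c4⟩, posF d3, d5⟩) hy)
    rwa [← conjugate_commutatorElement, mem_bot, conj_eq_one_iff] at this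
theorem c4 (g : (C).Good 12 ⊥) {r s : Φ chevF4} (hr : IsPos r) (h1 : κF r = 4) (h3 : κF s = 11) : (LF K).Cm S π ⊥ r s := by
  have k : ∀ t, (S).x (rF 33) (φ t) * ((S).x (rF 24) t * 1) ∈ (S).U ⊓ π.range := fun t =>
    have h := mul_mem ((S).x_mem (P := {r | IsPos r}) (posF (r := rF 33) (by decide)) (φ t)) (mul_mem ((S).x_mem (posF (r := rF 24) le_rfl) t) (one_mem _))
    ⟨h, e ▸ mem_sup_left ⟨h, by
      have := TwF.xU_fix orbF1.orth orbF1.inv (cpF h2 t)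
      simp only [List.map_cons, List.map_nil, List.prod_cons, List.prod_nil, nF_inj] at this
      exact this⟩⟩
  choose a ha using fun t => (k t).2
  obtain ⟨b, hb⟩ := e ▸ yF_mem h2 0 1
  have b0 : b ∈ (C).V 0 := show π b ∈ (LF K).U S 0 from (LF K).U_zero S ▸ hb ▸ Um_le_U _ _ ((mem_UF2 h2).2 ⟨0, 1, rfl⟩).1
  refine ⟨Set.range fun t => π ⁅a t, b⁆, (LF K).U S 11, oF.rp_congr cov_ad (e.le.trans G1_le_fix) (r := rF 29) (posF (by decide)) hr
    (h1.trans (show 4 = κF (rF 29).1 by decide +kernel)) fun x _ => ?_, fun x hx => ⟨x, h3 ▸ hx.1, hx, rfl⟩, ?_⟩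
  · generalize (LF K).ld S (rF 29) x = t
    obtain ⟨v, v2, v3, -⟩ := exists_v6 t (φ t) 0 0 0 0
    have := Lay.ld_evE (L := LF K) cov_ad v (r := rF 29) (posF (by decide)) (.var 2) (w := dF) fun c hc =>
      ((show ∀ c ∈ dF, c.1 ≠ (rF 29).1 ∧ 48 ≤ 2 * c.1 ∧ κF (rF 29).1 ≤ κF c.1 by decide +kernel) c hc).imp_right fun h _ => h
    have xF : ∀ r t, (S).x (rF r) t = (S).xN r t := fun r t => (xN_val ..).symm
    rw [show (S).evE v (((rF 29).1, .var 2) :: dF) = π ⁅a t, b⁆ from (cq.eq charOK2 S v).symm.trans (by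
      rw [map_commutatorElement, ha, hb, yF, szY, StSys.q4, map_zero, x_zero, x_zero, xF, xF, xF, xF]; simp [v2, v3])] at this
    exact ⟨_, ⟨_, rfl⟩, mem_inf.2 ⟨this.1, _, rfl⟩, this.2.trans v2⟩
  · rintro x z ⟨t, h1⟩ h2
    exact comm_congr hc h1 rfl ▸ g.mil (show π _ ∈ _ from ha t ▸ ((LF K).U_zero S).ge (k t).1) b0 h2
include hφ hc in
theorem unip [Finite E] (hK : 4 < Fintype.card K) : ⁅(S).U.comap π, (S).U.comap π⁆ ⊓ π.ker = ⊥ := by
  have hf := fam h2 hφ e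
  obtain ⟨z, hz⟩ := exists_sq_ne_one (F := K) (by omega)
  have hP : ∀ a b c, PF a b c → ∃ z : Kˣ, z ^ a * Units.map φ z ^ b * (1 : Kˣ) ^ c ≠ 1 := fun a b c ⟨k, hk⟩ => ⟨z, fun h => hz (by
    rw [one_zpow, mul_one] at h
    have h3 : Units.map φ z ^ (2 * a) * z ^ b = 1 := by
      have := congrArg (fun x => Units.map (φ : K →* K) x ^ 2) h
      simp only [map_mul, map_zpow, map_one] at this
      rwa [one_pow, mul_pow, ← zpow_natCast, ← zpow_natCast, ← zpow_mul, ← zpow_mul, mul_comm b, zpow_mul _ _ b, zpow_natCast,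
        show Units.map (φ : K →* K) (Units.map (φ : K →* K) z) ^ 2 = z from Units.ext (by simpa using h2 z), mul_comm a] at this
    have h4 : z ^ (8 : ℤ) = 1 := by
      rw [hk, zpow_mul, zpow_sub, sq b, zpow_mul z b, eq_inv_of_mul_eq_one_right h3, show 2 * a ^ 2 = a * (2 * a) by ring, zpow_mul z,
        eq_inv_of_mul_eq_one_left h]
      simp [← zpow_mul, mul_comm]
    rw [show (z : K) = 1 from (iterateFrobenius K 2 3).injective ((congrArg Units.val h4).trans (map_one _).symm), one_pow])⟩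
  have hF : ∃ s : Finset K, 4 < s.card := ⟨Finset.univ, hK⟩
  have g : (C).Good 12 ⊥ := good_bot fun x hx => (show (LF K).U S 12 ≤ ⊥ from (S).gen_le.2 fun r hr =>
    absurd hr.2 ((show ∀ r < 48, ¬ 12 ≤ κF r by decide +kernel) r r.2)) hx
  have ok : ∀ r s : Φ chevF4, IsPos r → IsPos s → κF r < κF s ∨ r = s → (κF s < 11 ∧ ∃ p ∈ qs, κF r = κF p.2.1 ∧ κF s = κF p.2.2.1) ∨
      (LF K).OK S π ⊥ r s := fun r s hr hs h => h.elim (fun h => ((ttF r r.2 hr).2.2 s s.2 hs h).imp_right (Or.imp (hf.tt hP) (Or.imp (hf.tt hP)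
        fun h => Or.inr (c4 h2 e hc g hr h.1 h.2)))) fun h =>
      Or.inr (Or.inr (Or.inr (Or.inl (h ▸ hf.full (fun a b c h l => ⟨l, by simp [h.1, h.2]⟩) (ttF r r.2 hr).1))))
  have k47 : (LF K).κ (rF 47) = 11 := show κF (rF 47).1 = 11 by decide +kernel
  have p11 : (C).Pr ⊥ 0 11 := k47 ▸ oF.pr r3_ad hc cov_ad (e.le.trans G1_le_fix) (s := rF 47) (posF (by decide)) hF
    (fun r hr h => (ok r (rF 47) hr (posF (by decide)) h).resolve_left fun h => h.1.ne k47) (k47 ▸ g)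
  exact oF.comm_inf r3_ad hc cov_ad (e.le.trans G1_le_fix) hF (fun r hr => let ⟨s, hs, h⟩ := (ttF r r.2 hr).2.1; ⟨⟨s, hs⟩, hf.tt hP h⟩)
    fun r s hr hs h => (ok r s hr hs h).elim (fun ⟨_, p, hp, h⟩ => Or.inr (Or.inr (Or.inr (sz h2 hφ e hc p11 (qc p hp) hr hs h.1 h.2)))) id
end unip

/-- Schur multipliers of the large Ree groups: for q = 2^(2m+1) with m ≥ 1 the Schur multiplier of ²F₄(q) is trivial (here the Schur multiplier is described through stem extensions, as in the definitions). -/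
theorem result {K : Type*} [Field K] [Fintype K] {m : ℕ} (hm : 1 ≤ m) (hK : Fintype.card K = 2 ^ (2 * m + 1)) : Cfsg.HasCyclicSchurMultiplier ↥(Cfsg.Lie.twistedF4 K (2 ^ m)) 1 := by
  obtain ⟨_, φ, hφ, h2⟩ := exists_frob2 hK
  have : Sz.IsSz K m := ⟨hm, hK⟩
  have hT : ∀ c ∈ (twF φ).T1, (adS chevF4 K).hl c = 1 → c = 1 := fun c _ h => (smithF4.ker_eq_bot (by decide) _).le (cov_ad.hl_mem_ker.1 h)
  have hA := (admF h2 hφ).G1
  rw [eqF h2 hφ]
  refine schur_one 2 hA cov_ad (fun E _ _ π e hc => unip h2 hφ e hc (by have := Sz.eight_le_card (F := K); omega)) fun E _ _ π e hx _ => ?_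
  have k : ∀ i ∈ [nF 0, nF 3], ∃ A : R1 K _, R1O RF (adS chevF4 K) π.range (twF φ).T1 i A := fun i hi =>
    ⟨_, e ▸ orbF1.r1o (f := fun j => if j = nF 0 then φ else RingHom.id K) hi cov_ad r3_ad
      (fun t => by convert cpF h2 t using 2; split_ifs <;> rfl) fun c hc => ⟨c (nF 3), by simp [nF_inj, (cpF1.1 hc).2]⟩⟩
  refine HH_inf r3_ad hT (fun i z hz e1 => (orbF_cases i).elim (fun hi => let ⟨_, h⟩ := k i hi; (h.lo hx cov_ad hT hz (e1 ▸ one_mem _)).2 e1)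
    fun hi => ?_) fun i z hz => (orbF_cases i).elim (fun hi => let ⟨_, h⟩ := k i hi; (h.lo hx cov_ad hT hz.1 hz.2).1) fun hi => ?_
  · obtain ⟨A, h1, h3⟩ := exists_sz hφ h2
    rw [LO, Lf, Lf, ← Subgroup.closure_union, UO, VO, orbF2 i hi] at hz
    refine hx.eq_one_of_cyc (by rintro x (h | h) <;> exact h.2) h1 Nat.prime_two ?_ hz e1
    rintro x (h | h)
    · obtain ⟨t, u, h4⟩ := ((szF h2).mem_fix cov_ad (closed_inv _) (fun r h => pos_fl r (mem_inv.1 h).1) invF2).1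
        ⟨gen_mono _ (fun r h => mem_inv_w0J.2 h) h.1, G1_le_fix (e.le ⟨x, rfl⟩)⟩
      exact h4 ▸ (h3 t u).1
    · obtain ⟨t, u, h4⟩ := ((szF' h2).mem_fix cov_ad (closed_not_isPos.inter (closed_inJ _)) (fun r h => neg_fl r h.1) negF2).1
        ⟨h.1, G1_le_fix (e.le ⟨x, rfl⟩)⟩
      exact h4 ▸ (h3 t u).2
  · obtain ⟨c, h1, h3⟩ := (HF_eq h2 hφ).le ⟨hz.2, (eqF h2 hφ).ge (e.le ⟨z, rfl⟩)⟩
    have h4 : π z ∈ centralizer {(adS chevF4 K).x (rF 47) 1} := ((adS chevF4 K).gen_le.2 fun r hr t => by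
      have := c47.1 r (by
        rw [orbF2 i hi] at hr
        by_cases h : IsPos r
        · exact List.mem_append_left _ (List.mem_map_of_mem ((invF2 r).2 (mem_inv_w0J.2 ⟨h, hr⟩)))
        · exact List.mem_append_right [27, 25, 28, 30] (List.mem_map_of_mem ((negF2 r).2 ⟨h, hr⟩)))
      exact mem_centralizer_singleton_iff.2 (commute_of_emod _ charOK2 (a := r) (b := rF 47) (fun e => this.1 (congrArg Fin.val e))
        (fun c hc => absurd (this.2 ▸ hc : c ∈ []) List.not_mem_nil) t 1)) (LO_le i hz.1)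
    have h5 := (adS chevF4 K).wt_hl c (rF 47) 1
    rw [show (adS chevF4 K).hl c = π z from h3, mem_centralizer_singleton_iff.1 h4, mul_inv_cancel_right] at h5
    have h6 := congrArg ((LF K).ld (adS chevF4 K) (rF 47)) h5
    rw [Lay.ld_self cov_ad (posF (by decide)), Lay.ld_self cov_ad (posF (by decide)), mul_one] at h6
    simp only [show ∏ i, c i ^ wt (rF 47) i = ∏ i : Fin 4, c (nF i) ^ [0, 0, 0, 1].getD i (0 : ℤ) from Finset.prod_congr rfl fun i _ => congrArg _ (c47.2 i i.2)] at h6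
    have h7 : c (nF 3) = 1 := Units.ext (by simpa [Fin.prod_univ_four] using h6.symm)
    refine ⟨c, h1, fun j hj => ?_, h3.symm⟩
    have := (orbF_cases j).resolve_right (by rwa [orbF2 i hi] at hj)
    simp only [List.mem_cons, List.not_mem_nil, or_false] at this
    rcases this with rfl | rfl
    exacts [by rw [(mem_T1F.1 h1).2.2.2, h7, map_one], h7]

end Cfsg.Agent.S2114
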