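import Cfsg.Statements.S2128
import Cfsg.Agent.H12.OutTw

set_option autoImplicit false
open Cfsg

namespace Cfsg.Agent.S2128
open H12 H13 Cfsg.Lie

/-- Outer automorphisms of the large Ree groups: for q = 2^(2m+1) with m ≥ 1 the outer automorphism group of ²F₄(q) has order 2m + 1 (field automorphisms only). -/
theorem result {K : Type*} [Field K] [Fintype K] {m : ℕ} (hm : 1 ≤ m) (hK : Fintype.card K = 2 ^ (2 * m + 1)) : Nat.card (Cfsg.Out ↥(Cfsg.Lie.twistedF4 K (2 ^ m))) = 2 * m + 1 := by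
  obtain ⟨_, φ, hφ, h2⟩ := exists_frob2 hK
  have hψ : ∀ j, ∃ k : ℕ, ∀ t, (twF φ).ψ (sim j) t = t ^ k := fun j => ⟨_, fun t => (twF_ψ φ j t).trans (by rw [hφ, ← pow_mul])⟩
  have A := (admF h2 hφ).G1
  have hq : 2 < Nat.card K := by rw [Nat.card_eq_fintype_card, hK]; exact (pow_one 2).ge.trans_lt (Nat.pow_lt_pow_right one_lt_two (by omega))
  let g : I chevF4 → K →+* K := fun j => if j = nF 0 then .id K else (twF φ).ψ (sim (nF 0))
  have hg : ∀ t, (twF φ).Cp [nF 0, nF 3] fun j => g j t := fun t => cpF1.2 (by simp [g, nF_inj, twF_ψ, h2])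
  have Z := szF h2
  have o2 := orbF2 (nF 1) (by simp)
  let Y (t u : K) : (twF φ).G1 := ⟨yF φ t u, yF_mem h2 t u⟩
  have Ym : ∀ t u t' u', Y t u * Y t' u' = Y (t + t') (u + u' + φ t * t') := fun _ _ _ _ => Subtype.ext (Z.y_mul ..)
  have Yi : ∀ {t u t' u'}, Y t u = Y t' u' → t = t' ∧ u = u' := fun e =>
    Z.y_inj cov_ad (f := fl) (pos_fl _ (isPos_sim (nF 1))) (pos_fl _ (isPos_sim (nF 2))) (congrArg Subtype.val e)
  have Y0 : Y 0 0 = 1 := Subtype.ext Sz.y_zero
  have mU : ∀ {x}, x ∈ H24.UO (adS chevF4 K) RF (nF 1) ⊓ (twF φ).G1 ↔ ∃ t u, x = yF φ t u := by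
    intro x; rw [A.U_inf cov_ad (H24.UO_le _), UO_eq, o2]; exact mem_UF2 h2
  have := card_out hψ A (eqF h2 hφ ▸ (admF' h2 hφ).2) (fun α hα => by
    have hα : Sd α := ⟨hα, fun i => by
      obtain ⟨j, hj⟩ := hα.exists_orb A cov_ad i
      have := PP.card hj A cov_ad hq.le (cardJF h2)
      refine PP.congr hj rfl ?_
      rcases orbF_cases i with a | a <;> rcases orbF_cases j with b | b
      · rw [orbF1.orb i a, orbF1.orb j b]
      · rw [orbF1.orb i a, orbF2 j b, orbF1.orth.len, posF2.len] at this; simp at this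
      · rw [orbF1.orb j b, orbF2 i a, orbF1.orth.len, posF2.len] at this; simp at this
      · rw [orbF2 i a, orbF2 j b]⟩
    obtain ⟨σ, c, h1⟩ := first hψ A orbF1 (i := nF 0) (by simp) hg (by simp [g]) hα
    have s1 := (sd_dA c).mul ((sd_fA hψ σ).mul hα)
    set β := dA (twF φ) c * (fA hψ σ * α)
    obtain ⟨a, b, e⟩ := mU.1 ⟨((s1.2 _).1 (Y 1 0)).2 (mU.2 ⟨1, 0, rfl⟩).1, (β _).2⟩
    have e : β (Y 1 0) = Y a b := Subtype.ext e
    have a0 : a ≠ 0 := by
      rintro rfl
      have := congrArg (fun x => x * x) e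
      simp only [← map_mul, Ym, CharTwo.add_self_eq_zero, mul_zero, add_zero, Y0, MulEquiv.map_eq_one_iff] at this
      simpa using (Yi (this.trans Y0.symm)).2
    let d : (twF φ).T1 := ⟨fun j => if j = nF 1 then Units.map (φ : K →* K) (Units.mk0 a a0)⁻¹ else if j = nF 2 then (Units.mk0 a a0)⁻¹ else 1,
      mem_T1F.2 (by simp [nF_inj, Units.ext_iff, h2])⟩
    have r : (∀ i : Fin 4, rc (rF 28) (nF i) = ![0, 1, 1, 0] i) ∧ ∀ i : Fin 4, rc (rF 30) (nF i) = ![0, 2, 1, 0] i := by decide +kernel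
    have k (r : Φ chevF4) : H24.cChar d.1 (rc r) = ∏ i : Fin 4, d.1 (nF i) ^ rc r (nF i) := by rw [H24.cChar, AddChar.prod_apply]; rfl
    have e1 : (dA (twF φ) d * β) (Y 1 0) = Y 1 (φ a⁻¹ * a⁻¹ * b) := Subtype.ext (by
      rw [MulAut.mul_apply, e, coe_dA]
      refine (Z.conj_y (s := a⁻¹) (fun t => (dl_conj _ (sim (nF 1)) t).trans ?_) (fun t => (dl_conj _ (sim (nF 2)) t).trans ?_) (fun t => (dl_conj ..).trans ?_)
        (fun t => (dl_conj ..).trans ?_) a b).trans (by rw [inv_mul_cancel₀ a0])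
      · rw [H24.cChar_sim]; simp [d]; rfl
      · rw [H24.cChar_sim]; simp [d, nF_inj]; rfl
      · rw [k]; simp [r, d, nF_inj, Fin.prod_univ_four]
      · rw [k]; simp [r, d, nF_inj, Fin.prod_univ_four, zpow_ofNat])
    have s2 := (sd_dA d).mul s1
    have t0 : Tr (dA (twF φ) d * β) (nF 0) := h1.dA fun k hk => by
      rw [orbF1.orb _ (by simp)] at hk
      simp [d, (show ∀ k ∈ [nF 0, nF 3], k ≠ nF 1 ∧ k ≠ nF 2 by decide) k hk]
    refine ⟨σ, d * c, ?_⟩
    rw [map_mul, mul_assoc]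
    set γ := dA (twF φ) d * β
    generalize φ a⁻¹ * a⁻¹ * b = b at e1
    have w : ∀ i : Fin 4, wt (rF (![27, 25, 28, 30] i)) (nF 0) = ![-1, 0, -1, -2] i ∧ wt (rF (![27, 25, 28, 30] i)) (nF 3) = ![0, -1, -1, -1] i := by decide +kernel
    have e2 : ∀ s, γ (Y s 0) = Y s (φ s * s * b) := fun s => by
      rcases eq_or_ne s 0 with rfl | s0
      · simp [Y0]
      obtain ⟨x, ⟨x, hx, rfl⟩, h⟩ := h_mem A orbF1 (j := nF 0) (by simp) s2 t0
        (s := fun j => if j = nF 0 then Units.map (φ : K →* K) (Units.mk0 s s0)⁻¹ else (Units.mk0 s s0)⁻¹) (by simpa [apply_ite] using cpF h2 s⁻¹)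
      have k : ∀ t u, x * Y t u * x⁻¹ = Y (s * t) (φ s * s * u) := fun t u => Subtype.ext (Z.conj_y (fun t => (h _ t).trans (by simp [w 0, show rF 27 = rF (![27, 25, 28, 30] 0) from rfl, nF_inj]))
        (fun t => (h _ t).trans (by simp [w 1, show rF 25 = rF (![27, 25, 28, 30] 1) from rfl, nF_inj]))
        (fun t => (h _ t).trans (by simp [w 2, show rF 28 = rF (![27, 25, 28, 30] 2) from rfl, nF_inj]))
        (fun t => (h _ t).trans (by simp [w 3, show rF 30 = rF (![27, 25, 28, 30] 3) from rfl, nF_inj, zpow_ofNat])) t u)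
      have := congrArg γ (k 1 0)
      rw [map_mul, map_mul, map_inv, show γ x = x from hx, e1, k] at this
      simpa using this.symm
    have e3 : ∀ u, γ (Y 0 u) = Y 0 u := fun u => by
      obtain ⟨s, rfl⟩ := Finite.surjective_of_injective (f := fun s => φ s * s) (fun s t (e : φ s * s = φ t * t) => by
        have e' := congrArg (fun x => φ x ^ 2) e
        simp only [map_mul, mul_pow, h2] at e'
        rcases eq_or_ne s 0 with rfl | s0
        · simpa [eq_comm (a := (0 : K))] using e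
        exact mul_left_cancel₀ (a := s * φ s ^ 2) (by simp [s0]) (by linear_combination (φ s * s + φ t * t) * e - t * e')) u
      have := congrArg (fun x => x * x) (e2 s)
      simpa [← map_mul, Ym, CharTwo.add_self_eq_zero] using this
    obtain ⟨s, s0, s1⟩ : ∃ s : K, s ≠ 0 ∧ s ≠ 1 := by
      obtain ⟨s, h⟩ := ENat.exists_ne_ne_of_three_le (α := K) (by rw [ENat.card_eq_coe_natCard]; exact_mod_cast hq) 0 1
      exact ⟨s, h⟩
    obtain rfl : b = 0 := by
      have := congrArg γ (show Y s 0 * Y 1 0 = Y (s + 1) 0 * Y 0 (φ s) by simp [Ym])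
      rw [map_mul, map_mul, e2, e2, e2, e3, Ym, Ym] at this
      have := (Yi this).2
      refine (mul_eq_zero.1 (show (φ s + s) * b = 0 by rw [map_add, map_one] at this; linear_combination -this)).resolve_left fun e => ?_
      have e : φ s = s := by rwa [CharTwo.add_eq_zero] at e
      exact s1 (mul_left_cancel₀ s0 (by simpa [e, sq] using h2 s))
    refine eq_one A s2 fun i => ?_
    rcases orbF_cases i with a | a
    · exact t0.congr ((orbF1.orb i a).trans (orbF1.orb _ (by simp)).symm)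
    · refine Tr.congr (fun x hx => ?_) ((orbF2 i a).trans o2.symm)
      obtain ⟨t, u, rfl⟩ := mU.1 hx
      refine (mem_Ef (g := Y t u)).2 ?_
      rw [show Y t u = Y t 0 * Y 0 u by simp [Ym], map_mul, e2, e3, mul_zero]) orbF1 hg (by simp [g])
  rw [← eqF h2 hφ, card_HF h2 hφ, card_T1F h2, H25.card_ringAut hK] at this
  exact Nat.eq_of_mul_eq_mul_right (pow_pos (by omega) 2) this

end Cfsg.Agent.S2128
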