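import Cfsg.Statements.S2129
import Cfsg.Agent.H12.OutTw

set_option autoImplicit false
open Cfsg

namespace Cfsg.Agent.S2129
open H12 H13 Cfsg.Lie

/-- Outer automorphisms of the triality-twisted groups: for q = p^f (p prime), with the group realised over the field with q³ elements, the outer automorphism group of ³D₄(q) has order 3f (the field automorphisms of the cubic extension). -/
theorem result {K : Type*} [Field K] [Fintype K] (p f : ℕ) [Fact p.Prime] [CharP K p] (hK : Fintype.card K = p ^ (3 * f)) (hf : 1 ≤ f) : Nat.card (Cfsg.Out ↥(Cfsg.Lie.twistedD4 K (p ^ f))) = 3 * f := by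
  set q := p ^ f
  have hK' : Fintype.card K = q ^ 3 := by rw [hK, mul_comm, pow_mul]
  obtain ⟨φ, hφ⟩ := exists_frob (F := K) ((Fact.out : p.Prime).isPrimePow.pow (by omega : f ≠ 0)) three_ne_zero hK'
  have hψ : ∀ j, ∃ k : ℕ, ∀ t, (tw4 φ).ψ (sim j) t = t ^ k := fun j => ⟨q, fun t => by rw [tw4_ψ, hφ]⟩
  have A := (adm4 hφ hK').G1
  have o0 := orb4 [n4 0, n4 2, n4 3] (by simp)
  have o1 := orb4 [n4 1] (by simp)
  let g : I chevD4 → K →+* K := fun j => if j = n4 0 then .id K else if j = n4 2 then φ else φ.comp φ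
  have hg : ∀ t, (tw4 φ).Cp [n4 0, n4 2, n4 3] fun j => g j t := fun t => by
    convert cp4 hφ hK' t using 2; simp only [g]; split_ifs <;> simp [hφ, sq, pow_mul]
  have := card_out hψ A (eq4 hφ hK' ▸ (adm4' hφ hK').2) (fun α hα => by
    have hα : Sd α := ⟨hα, fun i => by
      obtain ⟨O, h1, h2⟩ := exists_orb4 i
      obtain ⟨O', h3, h4, h5⟩ := sd_of_len A orb4 exists_orb4 (q_pos4 hK') (cardJ4 hφ hK') hα O h1 i h2
      obtain rfl : O' = O := (show ∀ O ∈ [[n4 1], [n4 0, n4 2, n4 3]], ∀ O' ∈ [[n4 1], [n4 0, n4 2, n4 3]], O'.length = O.length → O' = O by decide) _ h1 _ h3 h4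
      exact h5 i h2⟩
    obtain ⟨σ, c, h1⟩ := first hψ A o0 (i := n4 0) (by simp) hg (by simp [g]) hα
    have s1 := (sd_dA c).mul ((sd_fA hψ σ).mul hα)
    obtain ⟨d, d1, d2⟩ := chain A o1 (i := n4 1) (by simp) o0 (j := n4 0) (by simp) (by decide) (fun c hc c0 => by
      have hc : c (n4 1) ^ q = c (n4 1) := by simpa [TwF.Cp, tw4_ψ, π4, hφ, eq_comm] using hc
      have h2 := q_pos4 hK'
      obtain ⟨u, hu⟩ := exists_pow_eq (M := Kˣ) (a := 1 + q + q ^ 2) (b := q - 1) (x := (Units.mk0 _ c0)⁻¹) (by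
        rw [Nat.card_units, Nat.card_eq_fintype_card, hK']; zify [show 1 ≤ q by omega, Nat.one_le_pow 3 q (by omega)]; ring) (Units.ext (by
          simp [pow_sub₀ _ c0 (show 1 ≤ q by omega), hc, c0]))
      refine ⟨fun j => Units.map (g j).toMonoidHom u, hg u, ?_⟩
      have w : wt (sim (n4 1)) (n4 0) = -1 ∧ wt (sim (n4 1)) (n4 2) = -1 ∧ wt (sim (n4 1)) (n4 3) = -1 := by decide +kernel
      have := congrArg (fun x : Kˣ => (x : K)⁻¹) hu
      simp [w, g, n4_inj, hφ, pow_add, sq, pow_mul] at this ⊢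
      rw [← this]; ring) s1 h1
    refine ⟨σ, d * c, ?_⟩
    rw [map_mul, mul_assoc]
    refine eq_one A ((sd_dA d).mul s1) fun i => ?_
    obtain ⟨O, h3, h4⟩ := exists_orb4 i
    simp only [List.mem_cons (a := O), List.not_mem_nil, or_false] at h3
    rcases h3 with rfl | rfl
    · exact d2.congr ((o1.orb i h4).trans (o1.orb _ (by simp)).symm)
    · exact (h1.dA fun k hk => d1 k (by rw [o0.orb _ (by simp)] at hk; revert k; decide)).congr ((o0.orb i h4).trans (o0.orb _ (by simp)).symm)) o0 hg (by simp [g])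
  rw [← eq4 hφ hK', card_H4 hφ hK', card_T14 hφ hK', H25.card_ringAut hK] at this
  have h2 := q_pos4 hK'
  exact Nat.eq_of_mul_eq_mul_right (by have : 0 < q - 1 := by omega
                                       positivity) this

end Cfsg.Agent.S2129
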