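import Cfsg.Statements.S2130
import Cfsg.Agent.H12.OutTw

set_option autoImplicit false
open Cfsg

namespace Cfsg.Agent.S2130
open H12 H13 Cfsg.Lie

/-- Outer automorphisms of the twisted groups of type ²E₆: for q = p^f (p prime), with the group realised over the field with q² elements, the outer automorphism group of ²E₆(q) has order 2 · gcd(3, q + 1) · f (diagonal automorphisms and the field automorphisms of the quadratic extension). -/
theorem result {K : Type*} [Field K] [Fintype K] (p f : ℕ) [Fact p.Prime] [CharP K p] (hK : Fintype.card K = p ^ (2 * f)) (hf : 1 ≤ f) : Nat.card (Cfsg.Out ↥(Cfsg.Lie.twistedE6 K (p ^ f))) = 2 * Nat.gcd 3 (p ^ f + 1) * f := by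
  set q := p ^ f
  have hK' : Fintype.card K = q ^ 2 := by rw [hK, mul_comm, pow_mul]
  obtain ⟨φ, hφ⟩ := exists_frob (F := K) ((Fact.out : p.Prime).isPrimePow.pow (by omega : f ≠ 0)) two_ne_zero hK'
  have hψ : ∀ j, ∃ k : ℕ, ∀ t, (tw6 φ).ψ (sim j) t = t ^ k := fun j => ⟨q, fun t => by rw [tw6_ψ, hφ]⟩
  have A := (adm6 hφ hK').G1
  have h2 := q_pos6 hφ hK'
  have oA := orb6 [n6 1] (by simp)
  have oB := orb6 [n6 3] (by simp)
  have oC := orb6 [n6 2, n6 4] (by simp)
  have oD := orb6 [n6 0, n6 5] (by simp)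
  let g (a : Fin 6) : I chevE6 → K →+* K := fun j => if j = n6 a then .id K else φ
  have gD : ∀ t, (tw6 φ).Cp [n6 0, n6 5] fun j => g 0 j t := fun t => by
    convert cp6 hφ hK' π6.1 π6.2.2.2.2.2 (by decide) t using 2; simp only [g]; split_ifs <;> simp [hφ]
  have gC : ∀ t, (tw6 φ).Cp [n6 2, n6 4] fun j => g 2 j t := fun t => by
    convert cp6 hφ hK' π6.2.2.1 π6.2.2.2.2.1 (by decide) t using 2; simp only [g]; split_ifs <;> simp [hφ]
  have w : wt (sim (n6 2)) (n6 0) = -1 ∧ wt (sim (n6 2)) (n6 5) = 0 ∧ wt (sim (n6 3)) (n6 2) = -1 ∧ wt (sim (n6 3)) (n6 4) = -1 ∧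
    wt (sim (n6 1)) (n6 3) = -1 ∧ wt (sim (n6 2)) (n6 3) = -1 := by decide +kernel
  have ne : ∀ {O O' i j}, OrbL R6 O → OrbL R6 O' → i ∈ O → j ∈ O' → i ∉ O' → R6.orb i ≠ R6.orb j := fun h h' a b c e =>
    c ((h'.orb _ b).le (e.le (R6.mem_orb _)))
  have cm : ∀ {O O' i j}, OrbL R6 O → OrbL R6 O' → i ∈ O → j ∈ O' → i ∉ O' → PosJ (tab chevE6) ((O ++ O').map Fin.val) ((O ++ O').map fun j : I chevE6 =>
      (tab chevE6).sim j) → Cm (adS chevE6 K) R6 (tw6 φ).G1 i j := fun h h' a b c e =>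
    cm_of_orth e.orth (ne h h' a b c) (fun k hk => List.mem_append_left _ ((h.orb _ a).le hk)) fun k hk => List.mem_append_right _ ((h'.orb _ b).le hk)
  have AC := cm (i := n6 1) (j := n6 2) oA oC (by simp) (by simp) (by decide) (by rw [tabE6_eq]; decide +kernel)
  have AD := cm (i := n6 1) (j := n6 0) oA oD (by simp) (by simp) (by decide) (by rw [tabE6_eq]; decide +kernel)
  have BD := cm (i := n6 3) (j := n6 0) oB oD (by simp) (by simp) (by decide) (by rw [tabE6_eq]; decide +kernel)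
  have BC := not_cm A cov_ad (ne (i := n6 3) (j := n6 2) oB oC (by simp) (by simp) (by decide)) (by simp [w])
  have := card_out hψ A (eq6 hφ hK' ▸ (adm6' hφ hK').2) (fun α hα => by
    have k := sd_of_len A orb6 exists_orb6 h2 (cardJ6 hφ hK') hα
    have k1 : ∀ i ∈ [n6 1, n6 3], PP (adS chevE6 K) R6 α i (n6 1) ∨ PP (adS chevE6 K) R6 α i (n6 3) := fun i hi => by
      obtain ⟨O, h3, h4, h5⟩ := k [i] (by revert i; decide) i (by simp)
      rcases (show ∀ O ∈ [[n6 1], [n6 3], [n6 0, n6 5], [n6 2, n6 4]], O.length = 1 → n6 1 ∈ O ∨ n6 3 ∈ O by decide) O h3 h4 with h | h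
      exacts [Or.inl (h5 _ h), Or.inr (h5 _ h)]
    have k2 : ∀ O ∈ [[n6 0, n6 5], [n6 2, n6 4]], ∀ i ∈ O, PP (adS chevE6 K) R6 α i (n6 0) ∨ PP (adS chevE6 K) R6 α i (n6 2) := fun O hO i hi => by
      obtain ⟨O', h3, h4, h5⟩ := k O (List.mem_cons_of_mem _ (List.mem_cons_of_mem _ hO)) i hi
      rcases (show ∀ O ∈ [[n6 0, n6 5], [n6 2, n6 4]], ∀ O' ∈ [[n6 1], [n6 3], [n6 0, n6 5], [n6 2, n6 4]], O'.length = O.length → n6 0 ∈ O' ∨ n6 2 ∈ O'
        by decide) O hO O' h3 h4 with h | h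
      exacts [Or.inl (h5 _ h), Or.inr (h5 _ h)]
    have c2 := k2 [n6 2, n6 4] (by simp) (n6 2) (by simp)
    have pB := (k1 (n6 3) (by simp)).resolve_left fun h => BC (c2.elim (AD.pull h) (AC.pull h))
    have pC := c2.resolve_left fun h => BC (BD.pull pB h)
    have pA := (k1 (n6 1) (by simp)).resolve_right fun h => BC (AC.pull h.symm pC.symm)
    have pD := (k2 [n6 0, n6 5] (by simp) (n6 0) (by simp)).resolve_right fun h => BC (BD.pull pB.symm h.symm)
    have orb : ∀ i, R6.orb i = R6.orb (n6 1) ∨ R6.orb i = R6.orb (n6 3) ∨ R6.orb i = R6.orb (n6 0) ∨ R6.orb i = R6.orb (n6 2) := fun i => by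
      obtain ⟨O, h3, h4⟩ := exists_orb6 i
      rw [(orb6 O h3).orb i h4, oA.orb (n6 1) (by simp), oB.orb (n6 3) (by simp), oC.orb (n6 2) (by simp), oD.orb (n6 0) (by simp)]
      simp only [List.mem_cons (a := O), List.not_mem_nil, or_false] at h3
      rcases h3 with rfl | rfl | rfl | rfl <;> simp only [true_or, or_true]
    have hα : Sd α := ⟨hα, fun i => by
      rcases orb i with e | e | e | e
      exacts [pA.congr e.symm e.symm, pB.congr e.symm e.symm, pD.congr e.symm e.symm, pC.congr e.symm e.symm]⟩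
    obtain ⟨σ, c, h1⟩ := first hψ A oD (i := n6 0) (by simp) gD (by simp [g]) hα
    have s1 := (sd_dA c).mul ((sd_fA hψ σ).mul hα)
    obtain ⟨d, d1, d2⟩ := chain A oC (i := n6 2) (by simp) oD (j := n6 0) (by simp) (by decide) (fun c _ c0 =>
      ⟨fun j => Units.map (g 0 j).toMonoidHom (Units.mk0 _ c0)⁻¹, gD _, by simp [w, g]⟩) s1 h1
    have s2 := (sd_dA d).mul s1
    obtain ⟨e, e1, e2⟩ := chain A oB (i := n6 3) (by simp) oC (j := n6 2) (by simp) (by decide) (fun c hc c0 => by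
      have hc : c (n6 3) ^ q = c (n6 3) := by simpa [TwF.Cp, tw6_ψ, π6, hφ, eq_comm] using hc
      obtain ⟨u, hu⟩ := exists_pow_eq (M := Kˣ) (a := 1 + q) (b := q - 1) (x := (Units.mk0 _ c0)⁻¹) (by
        rw [Nat.card_units, Nat.card_eq_fintype_card, hK']; zify [show 1 ≤ q by omega, Nat.one_le_pow 2 q (by omega)]; ring) (Units.ext (by
          simp [pow_sub₀ _ c0 (show 1 ≤ q by omega), hc, c0]))
      refine ⟨fun j => Units.map (g 2 j).toMonoidHom u, gC u, ?_⟩
      have := congrArg (fun x : Kˣ => (x : K)⁻¹) hu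
      simp [w, g, n6_inj, hφ, pow_add] at this ⊢
      rw [← this]; ring) s2 d2
    have s3 := (sd_dA e).mul s2
    obtain ⟨b, b1, b2⟩ := chain A oA (i := n6 1) (by simp) oB (j := n6 3) (by simp) (by decide) (fun c hc c0 => by
      have hc : c (n6 1) ^ q = c (n6 1) := by simpa [TwF.Cp, tw6_ψ, π6, hφ, eq_comm] using hc
      exact ⟨fun _ => (Units.mk0 _ c0)⁻¹, by simpa [TwF.Cp, tw6_ψ, hφ, π6] using hc.symm, by simp [w]⟩) s3 e2
    refine ⟨σ, b * (e * (d * c)), ?_⟩
    rw [map_mul, map_mul, map_mul, mul_assoc, mul_assoc, mul_assoc]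
    have t : ∀ {O O' : List (I chevE6)} {i β} {c : (tw6 φ).T1}, OrbL R6 O → i ∈ O → (∀ k ∈ O, k ∉ O') → (∀ j ∉ O', c.1 j = 1) → Tr β i → Tr (dA (tw6 φ) c * β) i :=
      fun h a b c d => d.dA fun k hk => c k (b k ((h.orb _ a).le hk))
    refine eq_one A ((sd_dA b).mul s3) fun i => ?_
    rcases orb i with h | h | h | h
    exacts [b2.congr h, (t oB (by simp) (by decide) b1 e2).congr h,
      (t oD (by simp) (by decide) b1 (t oD (by simp) (by decide) e1 (t oD (by simp) (by decide) d1 h1))).congr h,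
      (t oC (by simp) (by decide) b1 (t oC (by simp) (by decide) e1 d2)).congr h]) oD gD (by simp [g])
  rw [← eq6 hφ hK', card_T16 hφ hK', H25.card_ringAut hK, ← card_H6 hφ hK'] at this
  refine Nat.eq_of_mul_eq_mul_right (Nat.card_pos (α := ↥((adS chevE6 K).H ⊓ twistedE6 K q))) (this.trans ?_)
  ring

end Cfsg.Agent.S2130
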