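import Cfsg.Statements.S2136
import Cfsg.Agent.H14.CzCo2
import Cfsg.Agent.H14.Conway2
import Cfsg.Agent.H15.StdS62
import Cfsg.Agent.S0270

set_option autoImplicit false
open Cfsg

namespace Cfsg.Agent.S2136

open H14 L L.CzCo2

/-- The Conway group Co₂ (the stabiliser of a minimal vector of the rank-24 lattice) has an involution whose centraliser C has largest normal 2-subgroup extraspecial of order 2^9 with quotient C / O₂(C) isomorphic to the symplectic group Sp(6, 2) (shape 2^{1+8}Sp(6, 2)). -/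
theorem result : ∃ t : ↥Cfsg.Spor.Co2, orderOf t = 2 ∧ Cfsg.IsExtraspecial 2 (Cfsg.pCore 2 ↥(Subgroup.centralizer ({t} : Set ↥Cfsg.Spor.Co2))) ∧ Nat.card (Cfsg.pCore 2 ↥(Subgroup.centralizer ({t} : Set ↥Cfsg.Spor.Co2))) = 2 ^ 9 ∧ Nonempty (↥(Subgroup.centralizer ({t} : Set ↥Cfsg.Spor.Co2)) ⧸ Cfsg.pCore 2 ↥(Subgroup.centralizer ({t} : Set ↥Cfsg.Spor.Co2)) ≃* Matrix.symplecticGroup (Fin 3) (ZMod 2)) := by
  obtain ⟨_, ⟨M⟩, hN, _⟩ := exM P2 eCo2 card_C2 (by norm_num)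
  obtain ⟨S⟩ := H15.StdS62.stdSp (F := ZMod 2) (by simp)
  obtain ⟨S'⟩ := H15.StdS62.std (F := ZMod 2) (by simp)
  have := S0270.result (F := ZMod 2) 3 (by norm_num) (by norm_num)
  have := std_simple S S'
  exact ⟨_, ord M hN, (ext M hN (Pres.of fun _ _ y hy => H15.StdS62.hom S y hy) S.card).row Nat.prime_two
    (noP_simple Nat.prime_two S.card Nat.prime_three (by norm_num))⟩

end Cfsg.Agent.S2136
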