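import Cfsg.Statements.S2154
import Cfsg.Agent.H12.BT

set_option autoImplicit false
open Cfsg

namespace Cfsg.Agent.S2154
open H12 H13 Cfsg.Lie

/-- The Borel–Tits property of the finite Chevalley groups of types G₂, B₂, D₄, F₄, E₆, E₇, E₈ over a finite field of characteristic p: for every non-trivial p-subgroup U of the group G there are an element g of G and a proper set J of fundamental roots such that the normaliser of U in G lies in the conjugate by g of the standard parabolic subgroup P_J and U lies in the conjugate by g of its unipotent radical U_J. -/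
theorem result {F : Type*} [Field F] [Fintype F] (p : ℕ) [Fact p.Prime] [CharP F p] (D : Cfsg.Lie.ChevalleyDatum) (hD : D ∈ [Cfsg.Lie.chevG2, Cfsg.Lie.chevB2, Cfsg.Lie.chevD4, Cfsg.Lie.chevF4, Cfsg.Lie.chevE6, Cfsg.Lie.chevE7, Cfsg.Lie.chevE8]) (U : Subgroup (GL D.Idx F)) (hUG : U ≤ D.group F) (hU : IsPGroup p ↥U) (hne : U ≠ ⊥) : ∃ g ∈ D.group F, ∃ J : Set ℕ, (∃ i, i < D.rank ∧ i ∉ J) ∧ Subgroup.normalizer (U : Set (GL D.Idx F)) ⊓ D.group F ≤ (D.parabolicSubgroup F J).map (MulAut.conj g).toMonoidHom ∧ U ≤ (D.unipotentRadical F J).map (MulAut.conj g).toMonoidHom := by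
  obtain ⟨_⟩ := good_of_mem hD
  rw [group_eq] at *
  obtain ⟨g, hg, J, ⟨i, hi⟩, h1, h2⟩ := cov_ad.borel_tits hne (exists_conj_le_U p hUG hU)
  refine ⟨g⁻¹, inv_mem hg, Fin.val '' J, ⟨i, i.2, by simpa [Fin.val_inj] using hi⟩, fun a ha => ⟨g * a * g⁻¹, ?_, by simp [mul_assoc]⟩,
    fun x hx => ⟨g * x * g⁻¹, ?_, by simp [mul_assoc]⟩⟩
  · rw [parabolicSubgroup_eq, Set.preimage_image_eq _ Fin.val_injective]
    exact h2 a ha.2 fun x => conj_mem_of_normalizer ha.1
  · rw [unipotentRadical_eq, Set.preimage_image_eq _ Fin.val_injective]; exact h1 x hx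

end Cfsg.Agent.S2154
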