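import Cfsg.Statements.S2155
import Cfsg.Agent.H12.BT
import Cfsg.Agent.H17.Bender

set_option autoImplicit false
open Cfsg

namespace Cfsg.Agent.S2155
open H12 H13 Cfsg.Lie

/-- In a Chevalley group of type G₂, B₂, D₄, F₄, E₆, E₇ or E₈ over a finite field of characteristic p (for types G₂ and B₂ the field is assumed to have at least 3 elements, so that the group is simple), the generalized Fitting subgroup of every proper standard parabolic subgroup P_J is a p-group (P_J is p-constrained with trivial largest normal subgroup of order prime to p). -/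
theorem result {F : Type*} [Field F] [Fintype F] (p : ℕ) [Fact p.Prime] [CharP F p] (D : Cfsg.Lie.ChevalleyDatum) (hD : D ∈ [Cfsg.Lie.chevG2, Cfsg.Lie.chevB2, Cfsg.Lie.chevD4, Cfsg.Lie.chevF4, Cfsg.Lie.chevE6, Cfsg.Lie.chevE7, Cfsg.Lie.chevE8]) (hq : (D = Cfsg.Lie.chevG2 ∨ D = Cfsg.Lie.chevB2) → 3 ≤ Fintype.card F) (J : Set ℕ) (hJ : ∃ i, i < D.rank ∧ i ∉ J) : IsPGroup p ↥(Cfsg.generalizedFittingSubgroup ↥(D.parabolicSubgroup F J)) := by
  obtain ⟨_⟩ := good_of_mem hD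
  rw [parabolicSubgroup_eq]
  obtain ⟨i, h1, h2⟩ := hJ
  have h3 : IsPGroup p ((adS D F).U.subgroupOf ((adS D F).P (Fin.val ⁻¹' J))) := (cov_ad.isPGroup_U p).comap_of_injective _ (Subgroup.subtype_injective _)
  have h4 : ((adS D F).UJ (Fin.val ⁻¹' J)).subgroupOf ((adS D F).P (Fin.val ⁻¹' J)) ≤ pCore p _ :=
    le_sSup ⟨Subgroup.normal_subgroupOf_of_le_normalizer (StSys.P_le_normalizer _), h3.to_le (Subgroup.comap_mono (StSys.gen_mono _ fun _ h => h.1))⟩
  refine H17.charP_iff_isPGroup.1 (H17.charP_iff_sub.2 (le_sSup ⟨inferInstance, h3.to_le fun g hg => ?_⟩))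
  exact cent_UJ_le (J := Fin.val ⁻¹' J) ⟨⟨i, h1⟩, h2⟩ ⟨StSys.P_le_T _ g.2, fun u hu => congrArg Subtype.val
    (hg ⟨u, (le_sup_left.trans (StSys.UJ_sup_LJ _).le) hu⟩ (h4 hu))⟩

end Cfsg.Agent.S2155
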