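import Cfsg.Statements.S2159
import Cfsg.Agent.H24.AutGr

set_option autoImplicit false
open Cfsg

namespace Cfsg.Agent.S2159

open H24 H12 Cfsg.Lie

/-- Structure of the outer automorphism group of the Chevalley group `G` of type G₂, B₂, D₄, F₄, E₆, E₇ or E₈ over a finite field. Let `D̄` be the image in `Out(G)` of the subgroup generated by the diagonal automorphisms and `F̄` the image of the subgroup generated by the field automorphisms. Then `D̄` is a normal abelian subgroup of `Out(G)`, `F̄` is cyclic, `D̄F̄` is a normal subgroup, and the quotient of `Out(G)` by `D̄F̄` is trivial, of order 2, or non-abelian of order 6 (so isomorphic to the symmetric group on three letters): its index is 1 or 2, or it is 6 with the commutator subgroup of `Out(G)` not inside `D̄F̄`. -/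
theorem result {F : Type*} [Field F] [Finite F] (D : Cfsg.Lie.ChevalleyDatum) (hD : D ∈ [Cfsg.Lie.chevG2, Cfsg.Lie.chevB2, Cfsg.Lie.chevD4, Cfsg.Lie.chevF4, Cfsg.Lie.chevE6, Cfsg.Lie.chevE7, Cfsg.Lie.chevE8])
    (Dbar Fbar : Subgroup (Cfsg.Out ↥(D.group F)))
    (hDbar : Dbar = (Subgroup.closure {φ : MulAut ↥(D.group F) | D.IsDiagonalAut φ}).map (QuotientGroup.mk' (Cfsg.Inn ↥(D.group F))))
    (hFbar : Fbar = (Subgroup.closure {φ : MulAut ↥(D.group F) | D.IsFieldAut φ}).map (QuotientGroup.mk' (Cfsg.Inn ↥(D.group F)))) :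
    Dbar.Normal ∧ IsMulCommutative ↥Dbar ∧ IsCyclic ↥Fbar ∧ (Dbar ⊔ Fbar).Normal ∧
      ((Dbar ⊔ Fbar).index = 1 ∨ (Dbar ⊔ Fbar).index = 2 ∨
        ((Dbar ⊔ Fbar).index = 6 ∧ ¬ commutator (Cfsg.Out ↥(D.group F)) ≤ Dbar ⊔ Fbar)) := by
  obtain ⟨G⟩ := good_of_mem hD
  rw [closure_diag] at hDbar
  rw [closure_field] at hFbar
  have h1 : Dbar ⊔ Fbar = (piA D F).ker.map (outA D F) := by rw [hDbar, hFbar, sup_eq_map]
  have h2 : (Dbar ⊔ Fbar).index = Nat.card (piA D F).range := by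
    rw [h1, Subgroup.index_map, sup_eq_left.2 ker_outA_le, MonoidHom.range_eq_top.2 outA_surjective, Subgroup.index_top,
      mul_one, Subgroup.index_ker]
  refine ⟨⟨?_⟩, ?_, ?_, h1 ▸ Subgroup.Normal.map inferInstance _ outA_surjective, ?_⟩
  · rw [hDbar]
    rintro _ ⟨_, ⟨c, rfl⟩, rfl⟩ a
    obtain ⟨⟨β, π, d, ψ, h⟩, rfl⟩ := outA_surjective a
    have := (h.mul (mon_cChar c)).mul h.inv
    rw [mul_one, mul_inv_cancel, show (fun i => ψ ((1 : Equiv.Perm (I D)) (π⁻¹ i)) * (1 : I D → F ≃+* F) (π⁻¹ i) *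
      (ψ (π⁻¹ i)).symm) = 1 from funext fun j => RingEquiv.ext fun t => by simp] at this
    exact ⟨_, ⟨_, (mon_cChar _).ext this⟩, rfl⟩
  · rw [hDbar, MonoidHom.map_range]
    exact ⟨⟨by rintro ⟨_, c, rfl⟩ ⟨_, d, rfl⟩; exact Subtype.ext ((Commute.all c d).map _)⟩⟩
  · rw [hFbar, MonoidHom.map_range]
    have := H25.isCyclic_ringAut (F := F)
    exact isCyclic_of_surjective _ (MonoidHom.rangeRestrict_surjective _)
  rw [h2]
  obtain ⟨p, _⟩ := CharP.exists F
  simp only [List.mem_cons, List.not_mem_nil, or_false] at hD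
  rcases hD with rfl | rfl | rfl | rfl | rfl | rfl | rfl
  · rw [card_range_swp chk_gG2 sim_gG2 swp_G2 Nat.prime_three sym_G2 (by decide) p]; split_ifs <;> simp
  · rw [card_range_swp chk_gB2 sim_gB2 swp_B2 Nat.prime_two sym_B2 (by decide) p]; split_ifs <;> simp
  · obtain ⟨h3, _, ⟨a, rfl⟩, _, ⟨b, rfl⟩, h4⟩ := card_range_D4 (F := F)
    refine Or.inr (Or.inr ⟨h3, fun h => h4 ?_⟩)
    have := h (Subgroup.commutator_mem_commutator (Subgroup.mem_top (outA _ F a)) (Subgroup.mem_top (outA _ F b)))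
    rw [h1, ← map_commutatorElement, ← Subgroup.mem_comap, Subgroup.comap_map_eq, sup_eq_left.2 ker_outA_le,
      MonoidHom.mem_ker, map_commutatorElement] at this
    exact commutatorElement_eq_one_iff_mul_comm.1 this
  · rw [card_range_swp chk_gF4 sim_gF4 swp_F4 Nat.prime_two sym_F4 (by decide) p]; split_ifs <;> simp
  · exact Or.inr (Or.inl card_range_E6)
  · exact Or.inl (card_range_one sym_E7)
  · exact Or.inl (card_range_one sym_E8)

end Cfsg.Agent.S2159
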