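import Cfsg.Statements.S2161
import Cfsg.Agent.H24.AutGr

set_option autoImplicit false
open Cfsg

namespace Cfsg.Agent.S2161

open H24 H12 Cfsg.Lie

/-- For the Chevalley groups of types D₄ and E₆ (one root length) over any field: if `π` is a symmetry of the Dynkin diagram and `φ` is an automorphism sending `x_{p_i}(t)` to `x_{p_{π i}}(t)` and `x_{-p_i}(t)` to `x_{-p_{π i}}(t)` for every fundamental root `p_i`, then for every root `r` there is a sign `ε = ±1` with `φ(x_r(t)) = x_{π·r}(ε t)` for all `t`, where `π·r` is the root whose coefficients are those of `r` permuted by `π`. -/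
theorem result {F : Type*} [Field F] (D : Cfsg.Lie.ChevalleyDatum) (hD : D ∈ [Cfsg.Lie.chevD4, Cfsg.Lie.chevE6])
    (π : Equiv.Perm (Fin D.rank)) (hπ : D.IsDiagramSymmetry π) (φ : ↥(D.group F) ≃* ↥(D.group F))
    (hφ : ∀ (g : ↥(D.group F)) (i : Fin D.rank) (t : F),
      (((g : GL D.Idx F) : Matrix D.Idx D.Idx F) = D.x F (D.simple i) t →
        ((φ g : GL D.Idx F) : Matrix D.Idx D.Idx F) = D.x F (D.simple (π i)) t) ∧
      (((g : GL D.Idx F) : Matrix D.Idx D.Idx F) = D.x F (D.neg (D.simple i)) t →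
        ((φ g : GL D.Idx F) : Matrix D.Idx D.Idx F) = D.x F (D.neg (D.simple (π i))) t))
    (r : ℕ) (hr : r < D.nroots) :
    ∃ ε : F, (ε = 1 ∨ ε = -1) ∧ ∀ (g : ↥(D.group F)) (t : F),
      ((g : GL D.Idx F) : Matrix D.Idx D.Idx F) = D.x F r t →
        ((φ g : GL D.Idx F) : Matrix D.Idx D.Idx F) = D.x F (D.permRoot π r) (ε * t) := by
  obtain ⟨G⟩ := good_of_mem (D := D) (by simp only [List.mem_cons] at hD ⊢; tauto)
  have h : Mon φ π 1 1 := ⟨fun i t => by
      simpa using (eq_grS_x (r := sim (π i))).1 ((hφ _ i t).1 ((eq_grS_x (r := sim i)).2 rfl)), fun i t => by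
      simpa using (eq_grS_x (r := ng (sim (π i)))).1 ((hφ _ i t).2 ((eq_grS_x (r := ng (sim i))).2 rfl))⟩
  have h1 : ∃ l, Has π l ∧ CPres (tab D) l := by
    rcases List.mem_pair.1 hD with rfl | rfl
    · obtain ⟨l, h1, h2⟩ := exists_has sym_D4 hπ
      exact ⟨l, h2, cpres_D4 l h1⟩
    · obtain ⟨l, h1, h2⟩ := exists_has sym_E6 hπ
      exact ⟨l, h2, cpres_E6 l h1⟩
  obtain ⟨l, h1, h2⟩ := h1
  lift r to Φ D using hr
  obtain ⟨s, ε, h3, h4, h5⟩ := h.root (h2.wt h1) r
  refine ⟨ε, by rcases h3 with rfl | rfl <;> simp, fun g t e => ?_⟩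
  rw [permRoot_eq h5, eq_grS_x, eq_grS_x.1 e, h4]

end Cfsg.Agent.S2161
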