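import Cfsg.Statements.S2298
import Cfsg.Agent.H24.GL2Cusp

set_option autoImplicit false
open Cfsg

namespace Cfsg.Agent.S2298

open H24 H5 Matrix

/-- Over a finite field F with q elements, every irreducible complex character of GL₂ has degree 1, q − 1, q or q + 1; and when q ≥ 3 (so that these four numbers are distinct) there are exactly q − 1 irreducible characters of degree 1, exactly q − 1 of degree q, exactly (q − 1)(q − 2)/2 of degree q + 1 and exactly q(q − 1)/2 of degree q − 1. -/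
theorem result {F : Type*} [Field F] [Fintype F] :
    (∀ χ : Matrix.GeneralLinearGroup (Fin 2) F → ℂ, Cfsg.IsIrrCharacter (Matrix.GeneralLinearGroup (Fin 2) F) χ →
      χ 1 = 1 ∨ χ 1 = (Fintype.card F : ℂ) - 1 ∨ χ 1 = (Fintype.card F : ℂ) ∨ χ 1 = (Fintype.card F : ℂ) + 1) ∧
    (3 ≤ Fintype.card F →
      Nat.card {χ : Cfsg.IrrCharacter (Matrix.GeneralLinearGroup (Fin 2) F) // (χ : Matrix.GeneralLinearGroup (Fin 2) F → ℂ) 1 = 1} = Fintype.card F - 1 ∧
      Nat.card {χ : Cfsg.IrrCharacter (Matrix.GeneralLinearGroup (Fin 2) F) // (χ : Matrix.GeneralLinearGroup (Fin 2) F → ℂ) 1 = (Fintype.card F : ℂ)} = Fintype.card F - 1 ∧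
      Nat.card {χ : Cfsg.IrrCharacter (Matrix.GeneralLinearGroup (Fin 2) F) // (χ : Matrix.GeneralLinearGroup (Fin 2) F → ℂ) 1 = (Fintype.card F : ℂ) + 1} = (Fintype.card F - 1) * (Fintype.card F - 2) / 2 ∧
      Nat.card {χ : Cfsg.IrrCharacter (Matrix.GeneralLinearGroup (Fin 2) F) // (χ : Matrix.GeneralLinearGroup (Fin 2) F → ℂ) 1 = (Fintype.card F : ℂ) - 1} = Fintype.card F * (Fintype.card F - 1) / 2) := by
  classical
  have := Fintype.ofFinite (GL (Fin 2) F)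
  obtain ⟨w, hw⟩ := exists_ell_GL (F := F)
  refine ⟨fun χ hχ => ?_, fun hq => ?_⟩
  · rcases irr_GL2 hw hχ with ⟨α, rfl⟩ | ⟨α, rfl⟩ | ⟨α, β, -, rfl⟩ | ⟨θ, -, rfl⟩
    · exact Or.inl (U_apply_one α)
    · exact Or.inr (Or.inr (Or.inl (St_one α)))
    · exact Or.inr (Or.inr (Or.inr (W_one α β)))
    · exact Or.inr (Or.inl (cusp_one hw θ))
  have key : ∀ (d : ℂ) (S : Set (GL (Fin 2) F → ℂ)),
      (∀ χ, χ ∈ S ↔ IsIrrCharacter _ χ ∧ χ 1 = d) →
      Nat.card {χ : Cfsg.IrrCharacter (GL (Fin 2) F) // (χ : GL (Fin 2) F → ℂ) 1 = d} = S.ncard := by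
    intro d S h
    rw [← Nat.card_coe_set_eq]
    exact Nat.card_congr ((Equiv.subtypeSubtypeEquivSubtypeInter _ (fun χ : GL (Fin 2) F → ℂ => χ 1 = d)).trans
      (Equiv.subtypeEquivRight fun χ => (h χ).symm))
  have hq' : ∀ k : ℕ, k < 3 → (Fintype.card F : ℂ) ≠ k := fun k hk e => by
    have : Fintype.card F = k := by exact_mod_cast e
    omega
  have q0 : (Fintype.card F : ℂ) ≠ 0 := by simpa using hq' 0 (by omega)
  have q1 : (Fintype.card F : ℂ) ≠ 1 := by simpa using hq' 1 (by omega)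
  have q2 : (Fintype.card F : ℂ) ≠ 2 := by simpa using hq' 2 (by omega)
  refine ⟨?_, ?_, ?_, ?_⟩
  · rw [key _ (Set.range U), ncard_U]
    refine fun χ => ⟨?_, ?_⟩
    · rintro ⟨α, rfl⟩; exact ⟨isIrr_U α, U_apply_one α⟩
    · rintro ⟨hχ, h⟩
      rcases irr_GL2 hw hχ with ⟨α, rfl⟩ | ⟨α, rfl⟩ | ⟨α, β, -, rfl⟩ | ⟨θ, -, rfl⟩
      · exact ⟨α, rfl⟩
      · rw [St_one] at h; exact absurd h q1
      · rw [W_one] at h; exact absurd (by linear_combination h) q0
      · rw [cusp_one hw] at h; exact absurd (by linear_combination h) q2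
  · rw [key _ (Set.range St), ncard_St]
    refine fun χ => ⟨?_, ?_⟩
    · rintro ⟨α, rfl⟩; exact ⟨isIrr_St α, St_one α⟩
    · rintro ⟨hχ, h⟩
      rcases irr_GL2 hw hχ with ⟨α, rfl⟩ | ⟨α, rfl⟩ | ⟨α, β, -, rfl⟩ | ⟨θ, -, rfl⟩
      · rw [U_apply_one] at h; exact absurd h.symm q1
      · exact ⟨α, rfl⟩
      · rw [W_one] at h; exact absurd (by linear_combination h) (one_ne_zero (α := ℂ))
      · rw [cusp_one hw] at h; exact absurd (by linear_combination -h) (one_ne_zero (α := ℂ))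
  · rw [key _ ((fun p : MulChar F ℂ × MulChar F ℂ => W p.1 p.2) '' {p | p.1 ≠ p.2}), ← ncard_W]
    · simp
    refine fun χ => ⟨?_, ?_⟩
    · rintro ⟨⟨α, β⟩, h, rfl⟩; exact ⟨isIrr_W h, W_one α β⟩
    · rintro ⟨hχ, h⟩
      rcases irr_GL2 hw hχ with ⟨α, rfl⟩ | ⟨α, rfl⟩ | ⟨α, β, hne, rfl⟩ | ⟨θ, -, rfl⟩
      · rw [U_apply_one] at h; exact absurd (by linear_combination -h) q0
      · rw [St_one] at h; exact absurd (by linear_combination -h) (one_ne_zero (α := ℂ))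
      · exact ⟨(α, β), hne, rfl⟩
      · rw [cusp_one hw] at h; exact absurd (by linear_combination -h) (two_ne_zero (α := ℂ))
  · rw [key _ (cusp '' {θ : T2 w →* ℂˣ | θ.comp (barT hw.not_isScal) ≠ θ}), ← ncard_cusp hw]
    · simp
    refine fun χ => ⟨?_, ?_⟩
    · rintro ⟨θ, h, rfl⟩; exact ⟨isIrr_cusp hw h, cusp_one hw θ⟩
    · rintro ⟨hχ, h⟩
      rcases irr_GL2 hw hχ with ⟨α, rfl⟩ | ⟨α, rfl⟩ | ⟨α, β, hne, rfl⟩ | ⟨θ, hne, rfl⟩
      · rw [U_apply_one] at h; exact absurd (by linear_combination -h) q2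
      · rw [St_one] at h; exact absurd (by linear_combination h) (one_ne_zero (α := ℂ))
      · rw [W_one] at h; exact absurd (by linear_combination h) (two_ne_zero (α := ℂ))
      · exact ⟨θ, hne, rfl⟩

end Cfsg.Agent.S2298
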