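import Cfsg.Statements.S2301
import Cfsg.Agent.H24.GL2Class

set_option autoImplicit false
open Cfsg

namespace Cfsg.Agent.S2301

open H24 Matrix

/-- Over a finite field with q elements of odd characteristic p, the elements of order p of SL₂ (the non-identity unipotent elements) fall into exactly two conjugacy classes, each of size (q² − 1)/2; two upper unitriangular matrices with non-zero off-diagonal entries b and b′ are conjugate exactly when bb′ is a square. -/
theorem result {F : Type*} [Field F] [Fintype F] (p : ℕ) [Fact p.Prime] [CharP F p] (hp : p ≠ 2) :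
    Nat.card {C : ConjClasses (Matrix.SpecialLinearGroup (Fin 2) F) // ∃ g : Matrix.SpecialLinearGroup (Fin 2) F, orderOf g = p ∧ ConjClasses.mk g = C} = 2 ∧
    (∀ g : Matrix.SpecialLinearGroup (Fin 2) F, orderOf g = p → Nat.card (ConjClasses.mk g).carrier = (Fintype.card F ^ 2 - 1) / 2) ∧
    ∀ g h : Matrix.SpecialLinearGroup (Fin 2) F, (g : Matrix (Fin 2) (Fin 2) F) 0 0 = 1 → (g : Matrix (Fin 2) (Fin 2) F) 1 1 = 1 → (g : Matrix (Fin 2) (Fin 2) F) 1 0 = 0 → (g : Matrix (Fin 2) (Fin 2) F) 0 1 ≠ 0 →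
      (h : Matrix (Fin 2) (Fin 2) F) 0 0 = 1 → (h : Matrix (Fin 2) (Fin 2) F) 1 1 = 1 → (h : Matrix (Fin 2) (Fin 2) F) 1 0 = 0 → (h : Matrix (Fin 2) (Fin 2) F) 0 1 ≠ 0 →
      (IsConj g h ↔ IsSquare ((g : Matrix (Fin 2) (Fin 2) F) 0 1 * (h : Matrix (Fin 2) (Fin 2) F) 0 1)) := by
  have h2 : (2 : F) ≠ 0 := fun e => hp ((Nat.prime_dvd_prime_iff_eq Fact.out Nat.prime_two).1
    ((CharP.cast_eq_zero_iff F p 2).1 (by exact_mod_cast e)))
  obtain ⟨e, he⟩ := exists_not_isSquare h2
  have he0 : e ≠ 0 := by rintro rfl; exact he IsSquare.zero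
  refine ⟨?_, ?_, ?_⟩
  · rw [Nat.card_eq_two_iff]
    have o1 : orderOf (upSL (1 : F) 1 (mul_one 1)) = p := (orderOf_SL_eq_char_iff p _).2
      ⟨by rw [isScal_upSL_iff]; exact one_ne_zero, trace_upSL _ _ _⟩
    have o2 : orderOf (upSL (1 : F) e (mul_one 1)) = p := (orderOf_SL_eq_char_iff p _).2
      ⟨by rw [isScal_upSL_iff]; exact he0, trace_upSL _ _ _⟩
    refine ⟨⟨_, _, o1, rfl⟩, ⟨_, _, o2, rfl⟩, fun h => ?_, ?_⟩
    · have := ConjClasses.mk_eq_mk_iff_isConj.1 (congrArg Subtype.val h)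
      exact he (by simpa using ((isConj_upSL_iff _ one_ne_zero).1 this).2)
    · rw [Set.eq_univ_iff_forall]
      rintro ⟨_, g, hg, rfl⟩
      obtain ⟨h1, h3⟩ := (orderOf_SL_eq_char_iff p g).1 hg
      rcases isConj_upSL_or he h1 (mul_one 1) h3 with h | h
      · exact Or.inl (Subtype.ext (ConjClasses.mk_eq_mk_iff_isConj.2 h))
      · exact Or.inr (Subtype.ext (ConjClasses.mk_eq_mk_iff_isConj.2 h))
  · intro g hg
    obtain ⟨h1, h3⟩ := (orderOf_SL_eq_char_iff p g).1 hg
    have := card_carrier_mul_card_cent g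
    rw [card_cent_SL_par h1 h3 (mul_one 1), card_sq_eq_one_odd h2, H10.card_SL2] at this
    have hq : 0 < Fintype.card F := Fintype.card_pos
    rw [← Nat.eq_of_mul_eq_mul_left hq (show Fintype.card F * (Nat.card (ConjClasses.mk g).carrier * 2)
      = Fintype.card F * (Fintype.card F ^ 2 - 1) by
        rw [show Fintype.card F ^ 2 - 1 = (Fintype.card F + 1) * (Fintype.card F - 1) from
          Nat.pow_two_sub_pow_two _ 1]; linarith)]
    simp
  · intro g h g00 g11 g10 g01 h00 h11 h10 h01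
    rw [isConj_SL_upper_iff g00 g11 g10 g01 h00 h11 h10]
    simp [h01]

end Cfsg.Agent.S2301
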