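import Cfsg.Statements.S2302
import Cfsg.Agent.H24.GL2Class

set_option autoImplicit false
open Cfsg

namespace Cfsg.Agent.S2302

open H24 Matrix

/-- Over a finite field with q elements of characteristic 2, the involutions of SL₂ (the non-identity unipotent elements) form a single conjugacy class, of size q² − 1. -/
theorem result {F : Type*} [Field F] [Fintype F] [CharP F 2] (g h : Matrix.SpecialLinearGroup (Fin 2) F) (hg : orderOf g = 2) (hh : orderOf h = 2) :
    IsConj g h ∧ Nat.card (ConjClasses.mk g).carrier = Fintype.card F ^ 2 - 1 := by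
  have h2 : (2 : F) = 0 := by exact_mod_cast CharP.cast_eq_zero F 2
  obtain ⟨h1, h3⟩ := (orderOf_SL_eq_char_iff 2 g).1 hg
  obtain ⟨h4, h5⟩ := (orderOf_SL_eq_char_iff 2 h).1 hh
  refine ⟨isConj_SL_of_char_two h2 h1 h4 (h3.trans h5.symm), ?_⟩
  have := card_carrier_mul_card_cent g
  rw [card_cent_SL_par h1 h3 (mul_one 1), card_sq_eq_one_even h2, H10.card_SL2] at this
  have hq : 0 < Fintype.card F := Fintype.card_pos
  exact Nat.eq_of_mul_eq_mul_left hq (by
    rw [show Fintype.card F ^ 2 - 1 = (Fintype.card F + 1) * (Fintype.card F - 1) from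
      Nat.pow_two_sub_pow_two _ 1]; linarith)

end Cfsg.Agent.S2302
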