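import Cfsg.Statements.S2308
import Cfsg.Agent.H24.GL2Ps

set_option autoImplicit false
open Cfsg

namespace Cfsg.Agent.S2308

open H24 H5 Matrix

/-- Values of the permutation character of GL₂ over a finite field F with q elements on the cosets of its upper triangular subgroup (equivalently, the number of lines of F² that an element maps to themselves): q + 1 at a scalar matrix, 2 at a diagonal matrix with two different diagonal entries, 0 at an element with no eigenvector in F², and 1 at an upper triangular matrix with equal diagonal entries and non-zero upper right entry. -/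
theorem result {F : Type*} [Field F] [Fintype F] (g : Matrix.GeneralLinearGroup (Fin 2) F) :
    ((∃ a : F, (g : Matrix (Fin 2) (Fin 2) F) = a • (1 : Matrix (Fin 2) (Fin 2) F)) → Cfsg.fixedPointCharacter (Cfsg.upperTriangularGL 2 F) g = Fintype.card F + 1) ∧
    ((g : Matrix (Fin 2) (Fin 2) F) 0 1 = 0 → (g : Matrix (Fin 2) (Fin 2) F) 1 0 = 0 → (g : Matrix (Fin 2) (Fin 2) F) 0 0 ≠ (g : Matrix (Fin 2) (Fin 2) F) 1 1 →
      Cfsg.fixedPointCharacter (Cfsg.upperTriangularGL 2 F) g = 2) ∧
    ((∀ (c : F) (v : Fin 2 → F), v ≠ 0 → (g : Matrix (Fin 2) (Fin 2) F).mulVec v ≠ c • v) → Cfsg.fixedPointCharacter (Cfsg.upperTriangularGL 2 F) g = 0) ∧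
    ((g : Matrix (Fin 2) (Fin 2) F) 1 0 = 0 → (g : Matrix (Fin 2) (Fin 2) F) 0 0 = (g : Matrix (Fin 2) (Fin 2) F) 1 1 → (g : Matrix (Fin 2) (Fin 2) F) 0 1 ≠ 0 →
      Cfsg.fixedPointCharacter (Cfsg.upperTriangularGL 2 F) g = 1) := by
  classical
  have h : Cfsg.fixedPointCharacter (Cfsg.upperTriangularGL 2 F) g = W (1 : MulChar F ℂ) 1 g := by
    rw [W_one_one_eq]
    have := congrFun (fixedBy_eq_indFun_one (G := GL (Fin 2) F) (GL (Fin 2) F ⧸ B2 F)
      ((1 : GL (Fin 2) F) : GL (Fin 2) F ⧸ B2 F)) g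
    rw [MulAction.stabilizer_quotient] at this
    exact this
  rw [h]
  refine ⟨fun hs => ?_, fun h1 h2 h3 => ?_, fun he => W_ell _ _ ((ell_iff _).2 he), fun h1 h2 h3 => ?_⟩
  · have hs := (isScal_iff _).2 hs
    rw [W_scal _ _ hs, MulChar.one_apply (ne_zero_of_mem_B2 hs.2.1).1.isUnit]; simp
  · rw [W_split _ _ h3 (trace_fin_two _) (det_of_mem_B2 h2),
      MulChar.one_apply (ne_zero_of_mem_B2 h2).1.isUnit,
      MulChar.one_apply (ne_zero_of_mem_B2 h2).2.isUnit]
    norm_num
  · rw [W_par _ _ (fun h => h3 h.1) (a := (g : M2 F) 0 0) (by rw [trace_fin_two, h2])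
      (by rw [det_of_mem_B2 h1, h2]), MulChar.one_apply (ne_zero_of_mem_B2 h1).1.isUnit]
    norm_num

end Cfsg.Agent.S2308
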