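import Cfsg.Statements.S2309
import Cfsg.Agent.H24.GL2Cusp

set_option autoImplicit false
open Cfsg

namespace Cfsg.Agent.S2309

open H24 H5 Matrix

/-- Over a finite field F with q elements: every irreducible complex character of GL₂ of degree q − 1 vanishes at every diagonal matrix with two distinct entries, and every irreducible complex character of degree q + 1 vanishes at every element with no eigenvector in F². -/
theorem result {F : Type*} [Field F] [Fintype F] (χ : Matrix.GeneralLinearGroup (Fin 2) F → ℂ) (hχ : Cfsg.IsIrrCharacter (Matrix.GeneralLinearGroup (Fin 2) F) χ) (g : Matrix.GeneralLinearGroup (Fin 2) F) :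
    (χ 1 = (Fintype.card F : ℂ) - 1 → (g : Matrix (Fin 2) (Fin 2) F) 0 1 = 0 → (g : Matrix (Fin 2) (Fin 2) F) 1 0 = 0 → (g : Matrix (Fin 2) (Fin 2) F) 0 0 ≠ (g : Matrix (Fin 2) (Fin 2) F) 1 1 → χ g = 0) ∧
    (χ 1 = (Fintype.card F : ℂ) + 1 → (∀ (c : F) (v : Fin 2 → F), v ≠ 0 → (g : Matrix (Fin 2) (Fin 2) F).mulVec v ≠ c • v) → χ g = 0) := by
  classical
  have := Fintype.ofFinite (GL (Fin 2) F)
  obtain ⟨w, hw⟩ := exists_ell_GL (F := F)
  refine ⟨fun h h1 h2 h3 => ?_, fun h he => ?_⟩
  · rcases irr_GL2 hw hχ with ⟨α, rfl⟩ | ⟨α, rfl⟩ | ⟨α, β, -, rfl⟩ | ⟨θ, -, rfl⟩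
    · exfalso
      rw [U_apply_one] at h
      have hq : Fintype.card F = 2 := by exact_mod_cast (by linear_combination -h : (Fintype.card F : ℂ) = 2)
      obtain ⟨a0, a1⟩ := ne_zero_of_mem_B2 h2
      have : ({0, (g : M2 F) 0 0, (g : M2 F) 1 1} : Finset F).card ≤ 2 := (Finset.card_le_univ _).trans hq.le
      rw [Finset.card_eq_three.2 ⟨_, _, _, a0.symm, a1.symm, h3, rfl⟩] at this
      omega
    · rw [St_one] at h; exact absurd (by linear_combination h) (one_ne_zero (α := ℂ))
    · rw [W_one] at h; exact absurd (by linear_combination h) (two_ne_zero (α := ℂ))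
    · exact cusp_split hw θ h3 (trace_fin_two _) (det_of_mem_B2 h2)
  · rcases irr_GL2 hw hχ with ⟨α, rfl⟩ | ⟨α, rfl⟩ | ⟨α, β, -, rfl⟩ | ⟨θ, -, rfl⟩
    · rw [U_apply_one] at h; exact absurd (by linear_combination -h) (card_field_ne_zero (F := F))
    · rw [St_one] at h; exact absurd (by linear_combination -h) (one_ne_zero (α := ℂ))
    · exact W_ell _ _ ((ell_iff _).2 he)
    · rw [cusp_one hw] at h; exact absurd (by linear_combination -h) (two_ne_zero (α := ℂ))

end Cfsg.Agent.S2309
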