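import Cfsg.Statements.S2310
import Cfsg.Agent.H24.GL2Cusp

set_option autoImplicit false
open Cfsg

namespace Cfsg.Agent.S2310

open H24 H5 Matrix

/-- Over a finite field F with q ≥ 3 elements, let u be the upper unitriangular matrix of GL₂ with off-diagonal entry 1. An irreducible complex character χ of GL₂ takes at u the value 1 if χ has degree 1 or q + 1, the value −1 if χ has degree q − 1, and the value 0 if χ has degree q. -/
theorem result {F : Type*} [Field F] [Fintype F] (hq : 3 ≤ Fintype.card F) (χ : Matrix.GeneralLinearGroup (Fin 2) F → ℂ) (hχ : Cfsg.IsIrrCharacter (Matrix.GeneralLinearGroup (Fin 2) F) χ)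
    (u : Matrix.GeneralLinearGroup (Fin 2) F) (hu : (u : Matrix (Fin 2) (Fin 2) F) = !![1, 1; 0, 1]) :
    (χ 1 = 1 → χ u = 1) ∧ (χ 1 = (Fintype.card F : ℂ) + 1 → χ u = 1) ∧
    (χ 1 = (Fintype.card F : ℂ) - 1 → χ u = -1) ∧ (χ 1 = (Fintype.card F : ℂ) → χ u = 0) := by
  classical
  have := Fintype.ofFinite (GL (Fin 2) F)
  obtain ⟨w, hw⟩ := exists_ell_GL (F := F)
  obtain rfl : u = tri 1 1 1 := Units.ext hu
  have hq' : ∀ k : ℕ, k < 3 → (Fintype.card F : ℂ) ≠ k := fun k hk e => by
    have : Fintype.card F = k := by exact_mod_cast e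
    omega
  have q0 : (Fintype.card F : ℂ) ≠ 0 := by simpa using hq' 0 (by omega)
  have q1 : (Fintype.card F : ℂ) ≠ 1 := by simpa using hq' 1 (by omega)
  have q2 : (Fintype.card F : ℂ) ≠ 2 := by simpa using hq' 2 (by omega)
  rcases irr_GL2 hw hχ with ⟨α, rfl⟩ | ⟨α, rfl⟩ | ⟨α, β, -, rfl⟩ | ⟨θ, -, rfl⟩
  · rw [U_apply_one, U_u]
    exact ⟨fun _ => rfl, fun _ => rfl, fun h => absurd (by linear_combination -h) q2,
      fun h => absurd h.symm q1⟩
  · rw [St_one, St_u]
    exact ⟨fun h => absurd h q1, fun h => absurd (by linear_combination -h) (one_ne_zero (α := ℂ)),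
      fun h => absurd (by linear_combination h) (one_ne_zero (α := ℂ)), fun _ => rfl⟩
  · rw [W_one, W_u]
    exact ⟨fun _ => rfl, fun _ => rfl,
      fun h => absurd (by linear_combination h) (two_ne_zero (α := ℂ)),
      fun h => absurd (by linear_combination h) (one_ne_zero (α := ℂ))⟩
  · rw [cusp_one hw, cusp_u hw]
    exact ⟨fun h => absurd (by linear_combination h) q2,
      fun h => absurd (by linear_combination -h) (two_ne_zero (α := ℂ)), fun _ => rfl,
      fun h => absurd (by linear_combination -h) (one_ne_zero (α := ℂ))⟩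

end Cfsg.Agent.S2310
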