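import Cfsg.Statements.S2315


set_option autoImplicit false
open Cfsg

open Module Finset

namespace Cfsg.Agent.S2315

section
variable {F : Type*} [Field F] {A B A' B' V : Type*} [AddCommGroup A] [Module F A] [AddCommGroup B]
  [Module F B] [AddCommGroup A'] [Module F A'] [AddCommGroup B'] [Module F B'] [AddCommGroup V] [Module F V]

variable (F A B V) in
/-- Fitting data -/
abbrev D := ((A × B) ≃ₗ[F] V) × (A ≃ₗ[F] A) × {b : End F B // IsNilpotent b}

/-- the endomorphism of the data -/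
def f (d : D F A B V) : End F V := d.1.conj (d.2.1.toLinearMap.prodMap d.2.2)

theorem f_apply (d : D F A B V) (x : A) (y : B) : f d (d.1 (x, y)) = d.1 (d.2.1 x, d.2.2.1 y) := by
  simp [f]

/-- transport of data -/
def tr (d : D F A B V) (g : (A ≃ₗ[F] A') × (B ≃ₗ[F] B')) : D F A' B' V :=
  ((g.1.prodCongr g.2).symm.trans d.1, g.1.symm.trans (d.2.1.trans g.1),
    ⟨g.2.conj d.2.2, d.2.2.2.map g.2.conjRingEquiv⟩)

theorem f_tr (d : D F A B V) (g : (A ≃ₗ[F] A') × (B ≃ₗ[F] B')) : f (tr d g) = f d := by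
  ext v
  obtain ⟨⟨x, y⟩, rfl⟩ := (tr d g).1.surjective v
  rw [f_apply]
  simp [tr, f_apply]

theorem tr_inj (d : D F A B V) : Function.Injective (tr d : (A ≃ₗ[F] A') × (B ≃ₗ[F] B') → _) :=
  fun g h e => by
    have e := fun x y => d.1.injective (DFunLike.congr_fun (congrArg Prod.fst e) (x, y))
    exact Prod.ext (LinearEquiv.symm_bijective.1 (LinearEquiv.ext fun x => congrArg Prod.fst (e x 0)))
      (LinearEquiv.symm_bijective.1 (LinearEquiv.ext fun x => congrArg Prod.snd (e 0 x)))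

theorem f_pow (d : D F A B V) (k : ℕ) (x : A) (y : B) :
    (f d ^ k) (d.1 (x, y)) = d.1 ((d.2.1 ^ k) x, (d.2.2.1 ^ k) y) := by
  induction k with
  | zero => rfl
  | succ k ih => rw [pow_succ', End.mul_apply, ih, f_apply, pow_succ', pow_succ']; rfl

theorem tr_surj (d : D F A B V) (d' : D F A' B' V) (h : f d' = f d) : ∃ g, tr d g = d' := by
  obtain ⟨k, hk⟩ := d.2.2.2
  obtain ⟨l, hl⟩ := d'.2.2.2
  let ψ := d.1.trans d'.1.symm
  have h1 : ∀ x y, ψ ((d.2.1 ^ (k + l)) x, 0) = ((d'.2.1 ^ (k + l)) (ψ (x, y)).1, 0) := fun x y => by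
    have e := f_pow d (k + l) x y
    have e' := f_pow d' (k + l) (ψ (x, y)).1 (ψ (x, y)).2
    rw [pow_add d.2.2.1, hk, zero_mul] at e
    rw [pow_add d'.2.2.1, hl, mul_zero, h] at e'
    exact d'.1.symm_apply_eq.2 (e.symm.trans (by simpa [ψ] using e'))
  have h2 : ∀ x, (ψ (x, 0)).2 = 0 := fun x => by
    obtain ⟨x, rfl⟩ := (d.2.1 ^ (k + l)).surjective x
    rw [h1 x 0]
  have h3 : ∀ y, (ψ (0, y)).1 = 0 := fun y => (d'.2.1 ^ (k + l)).map_eq_zero_iff.1 (by
    have := congrArg Prod.fst (h1 0 y)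
    rw [map_zero, Prod.mk_zero_zero, map_zero] at this
    exact this.symm)
  let g := LinearMap.fst F _ _ ∘ₗ ψ.toLinearMap ∘ₗ LinearMap.inl F _ _
  let g' := LinearMap.snd F _ _ ∘ₗ ψ.toLinearMap ∘ₗ LinearMap.inr F _ _
  have h4 : ⇑ψ = Prod.map g g' := funext fun ⟨x, y⟩ => by
    rw [← Prod.fst_add_snd (x, y), map_add]
    exact Prod.ext (by simp [h3, g]) (by simp [h2, g'])
  obtain ⟨b, b'⟩ := Prod.map_bijective.1 (h4 ▸ ψ.bijective)
  refine ⟨(.ofBijective g b, .ofBijective g' b'), ?_⟩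
  have h5 := (f_tr d (.ofBijective g b, .ofBijective g' b')).trans h.symm
  have h6 : (tr d (.ofBijective g b, .ofBijective g' b')).1 = d'.1 := by
    ext w
    obtain ⟨w, rfl⟩ := ((LinearEquiv.ofBijective g b).prodCongr (.ofBijective g' b')).surjective w
    exact (congrArg d.1 (LinearEquiv.symm_apply_apply _ w)).trans
      (d'.1.symm_apply_eq.1 (congrFun h4 w))
  generalize tr d (.ofBijective g b, .ofBijective g' b') = e at h5 h6 ⊢
  have h7 := fun x y => f_apply e x y
  simp only [h5, h6, f_apply, EmbeddingLike.apply_eq_iff_eq, Prod.mk.injEq] at h7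
  exact Prod.ext h6 (Prod.ext (LinearEquiv.ext fun x => (h7 x 0).1.symm)
    (Subtype.ext (LinearMap.ext fun y => (h7 0 y).2.symm)))

theorem fitting [Module.Finite F V] (T : End F V) : ∃ j ≤ finrank F V,
    ∃ d : D F (Fin (finrank F V - j) → F) (Fin j → F) V, f d = T := by
  obtain ⟨N, N1, hN⟩ := ((Filter.eventually_ge_atTop 1).and
    T.eventually_isCompl_ker_pow_range_pow).exists
  have c : ∀ x, (T ^ N) (T x) = T ((T ^ N) x) := fun x => by
    rw [← End.mul_apply, ← pow_succ, pow_succ', End.mul_apply]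
  have hK : ∀ x ∈ LinearMap.ker (T ^ N), T x ∈ LinearMap.ker (T ^ N) := fun x hx => by
    rw [LinearMap.mem_ker, c, hx, map_zero]
  have hR : ∀ x ∈ LinearMap.range (T ^ N), T x ∈ LinearMap.range (T ^ N) := fun _ ⟨x, hx⟩ =>
    ⟨T x, by rw [c, hx]⟩
  have hi : Function.Injective (T.restrict hR) := (injective_iff_map_eq_zero _).2 fun x hx =>
    Subtype.ext (Submodule.disjoint_def.1 hN.disjoint x (by
      obtain ⟨N, rfl⟩ := Nat.exists_eq_add_of_le' N1
      exact (congrArg (T ^ N) (show T x = 0 from congrArg Subtype.val hx)).trans (map_zero _)) x.2)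
  let d : D F (LinearMap.range (T ^ N)) (LinearMap.ker (T ^ N)) V :=
    (Submodule.prodEquivOfIsCompl _ _ hN.symm,
      .ofBijective _ ⟨hi, LinearMap.injective_iff_surjective.1 hi⟩,
      ⟨T.restrict hK, N, by ext x; rw [End.pow_restrict]; exact x.2⟩)
  have e := Submodule.finrank_add_eq_of_isCompl hN
  refine ⟨finrank F (LinearMap.ker (T ^ N)), by omega, tr d (.ofFinrankEq _ _ (by simp; omega),
    .ofFinrankEq _ _ (by simp)), (f_tr _ _).trans ?_⟩
  ext v
  obtain ⟨⟨x, y⟩, rfl⟩ := d.1.surjective v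
  rw [f_apply]
  exact (map_add T _ _).symm

variable (F) in
/-- order of the general linear group -/
noncomputable def gl (n : ℕ) := Nat.card ((Fin n → F) ≃ₗ[F] Fin n → F)

variable (F) in
/-- number of nilpotent endomorphisms -/
noncomputable def nl (n : ℕ) := Nat.card {b : End F (Fin n → F) // IsNilpotent b}

variable [Fintype F]

theorem gl_eq (n : ℕ) : gl F n = ∏ i : Fin n, (Fintype.card F ^ n - Fintype.card F ^ (i : ℕ)) := by
  rw [← Matrix.card_GL_field]
  exact Nat.card_congr (Matrix.GeneralLinearGroup.toLin.trans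
    (LinearMap.GeneralLinearGroup.generalLinearEquiv _ _)).toEquiv.symm

theorem gl_succ (n : ℕ) :
    (gl F (n + 1) : ℚ) = (Fintype.card F ^ (n + 1) - 1) * Fintype.card F ^ n * gl F n := by
  have h : ∀ n (i : Fin n), Fintype.card F ^ (i : ℕ) ≤ Fintype.card F ^ n := fun n i =>
    Nat.pow_le_pow_right Fintype.card_pos i.2.le
  rw [gl_eq, gl_eq, Nat.cast_prod, Nat.cast_prod, Fin.prod_univ_succ]
  simp only [Nat.cast_sub (h _ _), Nat.cast_pow]
  simp only [Fin.val_zero, Fin.val_succ, pow_zero, mul_assoc, pow_succ' _ n, pow_succ' _ (Fin.val _),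
    ← mul_sub, prod_mul_distrib]
  simp

instance instF (n m : ℕ) : Finite ((Fin n → F) →ₗ[F] Fin m → F) := Module.finite_of_finite F

instance instF' [Finite A] [Finite B] : Finite (A ≃ₗ[F] B) :=
  .of_injective _ DFunLike.coe_injective

theorem gl_pos (n : ℕ) : 0 < gl F n := Nat.card_pos

theorem count (n : ℕ) :
    (Fintype.card F : ℚ) ^ (n * n) = gl F n * ∑ j ∈ range (n + 1), (nl F j : ℚ) / gl F j := by
  classical
  have := Fintype.ofFinite (End F (Fin n → F))
  let S : ℕ → Finset (End F (Fin n → F)) := fun j =>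
    {T | ∃ d : D F (Fin (n - j) → F) (Fin j → F) (Fin n → F), f d = T}
  have h1 : (range (n + 1)).biUnion S = univ := eq_univ_of_forall fun T => by
    have := fitting T
    rw [finrank_fin_fun] at this
    obtain ⟨j, hj, h⟩ := this
    exact mem_biUnion.2 ⟨j, mem_range_succ_iff.2 hj, mem_filter.2 ⟨mem_univ _, h⟩⟩
  have h2 := congrArg card h1
  rw [card_biUnion fun i _ j _ ij => disjoint_left.2 fun T hi hj => by
    obtain ⟨d, rfl⟩ := (mem_filter.1 hi).2
    obtain ⟨d', h⟩ := (mem_filter.1 hj).2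
    obtain ⟨g, -⟩ := tr_surj d d' h
    exact ij (by simpa using g.2.finrank_eq), card_univ, Module.card_eq_pow_finrank (K := F),
    finrank_linearMap, finrank_fin_fun] at h2
  rw [← Nat.cast_pow, ← h2, Nat.cast_sum, mul_sum]
  refine sum_congr rfl fun j hj => ?_
  have hS : ∀ T, T ∈ S j ↔ ∃ d : D F (Fin (n - j) → F) (Fin j → F) (Fin n → F), f d = T :=
    fun T => mem_filter_univ T
  have := Fintype.ofFinite (D F (Fin (n - j) → F) (Fin j → F) (Fin n → F))
  have h3 := card_eq_sum_card_fiberwise (s := univ) (t := S j) (f := f)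
    fun d _ => (hS _).2 ⟨d, rfl⟩
  rw [sum_const_nat (m := gl F (n - j) * gl F j) fun T hT => by
    obtain ⟨d, rfl⟩ := (hS _).1 hT
    rw [gl, gl, ← Nat.card_prod, ← Fintype.card_subtype, ← Nat.card_eq_fintype_card]
    exact (Nat.card_eq_of_bijective (β := {x // f x = f d}) (fun g => ⟨tr d g, f_tr d g⟩)
      ⟨fun g h e => tr_inj d (congrArg Subtype.val e), fun d' =>
        (tr_surj d d'.1 d'.2).imp fun _ h => Subtype.ext h⟩).symm,
    card_univ, ← Nat.card_eq_fintype_card, Nat.card_prod, Nat.card_prod] at h3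
  have e : ((Fin (n - j) → F) × (Fin j → F)) ≃ₗ[F] Fin n → F :=
    .ofFinrankEq _ _ (by simp [Nat.sub_add_cancel (mem_range_succ_iff.1 hj)])
  rw [Nat.card_congr (α := _ ≃ₗ[F] _) (β := (Fin n → F) ≃ₗ[F] Fin n → F)
    ⟨e.symm.trans, e.trans, fun x => by ext; simp, fun x => by ext; simp⟩] at h3
  have h4 : (gl F n * (gl F (n - j) * nl F j) : ℚ) = #(S j) * (gl F (n - j) * gl F j) := by
    exact_mod_cast h3
  have := (gl_pos (F := F) j).ne'
  have := (gl_pos (F := F) (n - j)).ne'
  field_simp at h4 ⊢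
  exact h4.symm

theorem nl_eq (n : ℕ) : nl F n = Fintype.card F ^ (n * (n - 1)) := by
  cases n with
  | zero =>
    have h := count (F := F) 0
    have := (gl_pos (F := F) 0).ne'
    rw [sum_range_one] at h
    field_simp at h
    exact_mod_cast h.symm
  | succ n =>
    have h := count (F := F) (n + 1)
    have := (gl_pos (F := F) (n + 1)).ne'
    rw [sum_range_succ, mul_add (gl F (n + 1) : ℚ), mul_div_cancel₀ _ (by exact_mod_cast this), gl_succ, mul_assoc,
      ← count] at h
    have : (nl F (n + 1) : ℚ) = Fintype.card F ^ ((n + 1) * n) := by linear_combination -h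
    exact_mod_cast this

end

/-- Steinberg's count of unipotent elements for the general linear group: over a finite field with q elements of characteristic p, the number of elements of GL_n of p-power order (the unipotent matrices) is q^(n(n−1)). -/
theorem result {F : Type*} [Field F] [Fintype F] (p : ℕ) [Fact p.Prime] [CharP F p] (n : ℕ) :
    Nat.card {g : Matrix.GeneralLinearGroup (Fin n) F // ∃ k : ℕ, orderOf g = p ^ k} = Fintype.card F ^ (n * (n - 1)) := by
  rw [← nl_eq]
  have h : ∀ (g : Matrix (Fin n) (Fin n) F) k, (g - 1) ^ p ^ k = g ^ p ^ k - 1 := fun g k => by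
    cases n with
    | zero => exact Subsingleton.elim _ _
    | succ n => rw [sub_pow_char_pow_of_commute _ _ (Commute.one_right g), one_pow]
  have h1 : ∀ g : Matrix.GeneralLinearGroup (Fin n) F, (∃ k, orderOf g = p ^ k) ↔
      IsNilpotent (g.1 - 1) := fun g =>
    ⟨fun ⟨k, hk⟩ => ⟨p ^ k, by rw [h, ← Units.val_pow_eq_pow_val, ← hk, pow_orderOf_eq_one]; simp⟩,
    fun ⟨k, hk⟩ => (((Nat.dvd_prime_pow Fact.out (m := k)).1 (orderOf_dvd_of_pow_eq_one (Units.ext (by
      rw [Units.val_pow_eq_pow_val, Units.val_one, ← sub_eq_zero, ← h]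
      exact pow_eq_zero_of_le (Nat.lt_pow_self (Fact.out : p.Prime).one_lt).le hk)))).imp
        fun _ h => h.2)⟩
  refine Nat.card_eq_of_bijective (fun g => ⟨Matrix.toLinAlgEquiv' (g.1.1 - 1),
    ((h1 _).1 g.2).map _⟩) ⟨fun g g' e => Subtype.ext (Units.ext (sub_left_injective
      (Matrix.toLinAlgEquiv'.injective (congrArg Subtype.val e)))), fun b => ?_⟩
  have hb := b.2.map Matrix.toLinAlgEquiv'.symm
  exact ⟨⟨hb.isUnit_add_one.unit, (h1 _).2 (by simpa using hb)⟩, Subtype.ext (by simp)⟩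

end Cfsg.Agent.S2315
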