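import Cfsg.Statements.S2316
import Cfsg.Agent.H24.StCl
import Cfsg.Agent.S2315

set_option autoImplicit false
open Cfsg

namespace Cfsg.Agent.S2316

open H24 H12 H12.StSys Matrix
open scoped MatrixGroups Classical

/-- Steinberg's count of unipotent elements for the symplectic group: over a finite field with q elements of characteristic p, the number of elements of Sp_{2m} of p-power order is q^(2m²). -/
theorem result {F : Type*} [Field F] [Fintype F] (p : ℕ) [Fact p.Prime] [CharP F p] (m : ℕ) :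
    Nat.card {g : ↥(Matrix.symplecticGroup (Fin m) F) // ∃ k : ℕ, orderOf g = p ^ k} = Fintype.card F ^ (2 * m ^ 2) := by
  have hp : p.Prime := Fact.out
  obtain ⟨j, -, hj⟩ := FiniteField.card F p
  have h0 : ∀ i, ¬ p ∣ Fintype.card F ^ (2 * (i + 1)) - 1 := fun i h => hp.not_dvd_one ((Nat.dvd_add_right h).1 (by
    rw [Nat.sub_add_cancel (Nat.one_le_pow _ _ Fintype.card_pos), hj]; exact (dvd_pow_self p j.ne_zero).pow (by simp)))
  rcases Nat.lt_trichotomy m 1 with h | rfl | h
  · obtain rfl : m = 0 := by omega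
    exact Nat.card_eq_one_iff_exists.2 ⟨⟨1, 0, by simp⟩, fun _ => Subtype.ext (Subtype.ext (Subsingleton.elim _ _))⟩
  · refine Eq.trans ?_ (Cfsg.Agent.S2315.result p 2)
    refine Nat.card_eq_of_bijective (fun g => ⟨SpecialLinearGroup.toGL (spOne F g.1), by
      rw [orderOf_injective _ SpecialLinearGroup.toGL_injective, MulEquiv.orderOf_eq]; exact g.2⟩) ⟨fun a b e => Subtype.ext
        ((spOne F).injective (SpecialLinearGroup.toGL_injective (congrArg Subtype.val e))), fun ⟨g, k, hk⟩ => ?_⟩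
    have h1 : g.1.det = 1 := by
      have := congrArg (fun g : GL (Fin 2) F => g.1.det) (pow_orderOf_eq_one g)
      rw [hk] at this
      exact iterateFrobenius_inj F p k (by simpa [iterateFrobenius_def] using this)
    obtain ⟨y, rfl⟩ : ∃ y : SL(2, F), SpecialLinearGroup.toGL y = g := ⟨⟨g, h1⟩, Units.ext rfl⟩
    refine ⟨⟨(spOne F).symm y, k, ?_⟩, Subtype.ext (by simp)⟩
    rw [MulEquiv.orderOf_eq, ← hk, orderOf_injective _ SpecialLinearGroup.toGL_injective]
  have := Fintype.ofFinite (symplecticGroup (Fin m) F)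
  obtain ⟨S, hT, -⟩ := exists_sysC h F
  have h2 := Cfsg.Agent.S0245.result (F := F) rfl m
  obtain ⟨θ, hθ⟩ := exists_cov_of (p := p) hT fun a => by
    obtain ⟨k, hk⟩ := a.exists_card_eq
    have h1 : Fintype.card F ^ (2 * (0 + 1)) - 1 ∣ p ^ k := hk ▸ h2 ▸ (Finset.dvd_prod_of_mem _ (Finset.mem_range.2 (by omega))).mul_left _
    have h2 : 2 ^ 2 ≤ Fintype.card F ^ (2 * (0 + 1)) := Nat.pow_le_pow_left Fintype.one_lt_card 2
    obtain ⟨_ | i, -, e⟩ := (Nat.dvd_prime_pow hp).1 h1
    · rw [pow_zero] at e; omega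
    · exact h0 0 (e ▸ dvd_pow_self p i.succ_ne_zero)
  have h3 := (hp.prime.dvd_finsetProd_iff (S := Finset.range m) _).not.2 fun ⟨i, _, e⟩ => h0 i e
  rw [Nat.card_eq_fintype_card, Fintype.card_subtype, hθ.card_unip p hT (not_dvd_card_H p), mul_comm 2, pow_mul, ← hθ.card_U,
    hθ.card_U_eq hT (not_dvd_card_H p), h2, Nat.factorization_mul (pow_pos Fintype.card_pos _).ne' (fun e => h3 (by rw [e]; exact dvd_zero _)),
    Finsupp.add_apply, Nat.factorization_eq_zero_of_not_dvd h3, hj, ← pow_mul p j, hp.factorization_pow]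
  rw [Finsupp.single_eq_same, add_zero, ← pow_mul, ← pow_mul]; congr 1; ring

end Cfsg.Agent.S2316
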