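import Cfsg.Statements.S2317
import Cfsg.Agent.H11.ED2

set_option autoImplicit false
open Cfsg

namespace Cfsg.Agent.S2317

/-- Over a finite field of characteristic p, the conjugacy classes of GL_n consisting of elements of p-power order (the unipotent classes) are as many as the partitions of n. -/
theorem result {F : Type*} [Field F] [Fintype F] (p : ℕ) [Fact p.Prime] [CharP F p] (n : ℕ) :
    Nat.card {C : ConjClasses (Matrix.GeneralLinearGroup (Fin n) F) //
      ∃ g : Matrix.GeneralLinearGroup (Fin n) F, (∃ k : ℕ, orderOf g = p ^ k) ∧ ConjClasses.mk g = C} =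
      Fintype.card (Nat.Partition n) := by
  have h0 : ∀ g : GL (Fin n) F, (∃ k, orderOf g = p ^ k) ↔ H11.Unip (H11.mE g.1) := fun g => by
    rw [H11.unip_iff_orderOf p, H11.orderOf_mE_gl]
  simp only [and_comm (b := _ = _)]
  rw [H11.card_classes _ (fun g => H11.JT (H11.mE g.1)) fun g g' hg hg' =>
    H11.gl_isConj_iff.trans (((h0 g).1 hg).sim_iff ((h0 g').1 hg')), ← Nat.card_eq_fintype_card]
  symm
  refine Nat.card_congr (Equiv.ofBijective (fun μ => ⟨μ.parts, ?_⟩) ⟨fun μ ν h =>
    Nat.Partition.ext congr($h.1), ?_⟩)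
  · obtain ⟨f, h2, h3⟩ := H11.exists_JT (F := F) (V := Fin n → F) (μ := μ.parts)
      (fun k => μ.parts_pos) (by simp [μ.parts_sum])
    obtain ⟨g, hg⟩ := H11.exists_gl_sim (ι := Fin n) h2.isUnit (by simp)
    exact ⟨g, (h0 g).2 (hg.symm.unip h2), hg.JT_eq.trans h3⟩
  · rintro ⟨_, g, hg, rfl⟩
    exact ⟨⟨_, H11.JT_pos, by simpa using H11.JT_sum (H11.mE g.1)⟩, rfl⟩

end Cfsg.Agent.S2317
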