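import Cfsg.Statements.S2320
import Cfsg.Agent.H24.GL2Cusp

set_option autoImplicit false
open Cfsg

namespace Cfsg.Agent.S2320

open H24 H5 Matrix

/-- Over a finite field F with q elements, every irreducible complex character of GL₂ of degree q takes a value of absolute value 1 at every diagonal matrix with two different diagonal entries and at every element with no eigenvector in F². -/
theorem result {F : Type*} [Field F] [Fintype F] (χ : Matrix.GeneralLinearGroup (Fin 2) F → ℂ) (hχ : Cfsg.IsIrrCharacter (Matrix.GeneralLinearGroup (Fin 2) F) χ) (hdeg : χ 1 = (Fintype.card F : ℂ)) (g : Matrix.GeneralLinearGroup (Fin 2) F) :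
    ((g : Matrix (Fin 2) (Fin 2) F) 0 1 = 0 → (g : Matrix (Fin 2) (Fin 2) F) 1 0 = 0 → (g : Matrix (Fin 2) (Fin 2) F) 0 0 ≠ (g : Matrix (Fin 2) (Fin 2) F) 1 1 → ‖χ g‖ = 1) ∧
    ((∀ (c : F) (v : Fin 2 → F), v ≠ 0 → (g : Matrix (Fin 2) (Fin 2) F).mulVec v ≠ c • v) → ‖χ g‖ = 1) := by
  classical
  have := Fintype.ofFinite (GL (Fin 2) F)
  obtain ⟨w, hw⟩ := exists_ell_GL (F := F)
  rcases irr_GL2 hw hχ with ⟨α, rfl⟩ | ⟨α, rfl⟩ | ⟨α, β, -, rfl⟩ | ⟨θ, -, rfl⟩
  · rw [U_apply_one] at hdeg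
    exact absurd (by linear_combination -hdeg) (card_sub_one_ne_zero (F := F))
  · refine ⟨fun h1 h2 h3 => ?_, fun he => ?_⟩
    · rw [St_split α h3 (trace_fin_two _) (det_of_mem_B2 h2), norm_mulChar _ (GL_det_ne_zero g)]
    · rw [St_ell α ((ell_iff _).2 he), norm_neg, norm_mulChar _ (GL_det_ne_zero g)]
  · rw [W_one] at hdeg; exact absurd (by linear_combination hdeg) (one_ne_zero (α := ℂ))
  · rw [cusp_one hw] at hdeg; exact absurd (by linear_combination -hdeg) (one_ne_zero (α := ℂ))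

end Cfsg.Agent.S2320
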