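import Cfsg.Statements.S2321
import Cfsg.Agent.H24.SL2Table

set_option autoImplicit false
open Cfsg

namespace Cfsg.Agent.S2321

open H24 H5 Matrix

/-- Over a finite field F with q elements, an irreducible complex character of SL₂ of degree q (the Steinberg character) takes the value 1 at every diagonal matrix whose diagonal entry a has a² ≠ 1, the value −1 at every element with no eigenvector in F², and the value 0 at every upper triangular matrix with equal diagonal entries and non-zero upper right entry. -/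
theorem result {F : Type*} [Field F] [Fintype F] (χ : Matrix.SpecialLinearGroup (Fin 2) F → ℂ) (hχ : Cfsg.IsIrrCharacter (Matrix.SpecialLinearGroup (Fin 2) F) χ) (hdeg : χ 1 = (Fintype.card F : ℂ)) (g : Matrix.SpecialLinearGroup (Fin 2) F) :
    ((g : Matrix (Fin 2) (Fin 2) F) 0 1 = 0 → (g : Matrix (Fin 2) (Fin 2) F) 1 0 = 0 → (g : Matrix (Fin 2) (Fin 2) F) 0 0 ^ 2 ≠ 1 → χ g = 1) ∧
    ((∀ (c : F) (v : Fin 2 → F), v ≠ 0 → (g : Matrix (Fin 2) (Fin 2) F).mulVec v ≠ c • v) → χ g = -1) ∧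
    ((g : Matrix (Fin 2) (Fin 2) F) 1 0 = 0 → (g : Matrix (Fin 2) (Fin 2) F) 0 0 = (g : Matrix (Fin 2) (Fin 2) F) 1 1 → (g : Matrix (Fin 2) (Fin 2) F) 0 1 ≠ 0 → χ g = 0) := by
  classical
  have := Fintype.ofFinite (GL (Fin 2) F)
  obtain ⟨w, hw⟩ := exists_ell_SL (F := F)
  rw [eq_StS_of_degree hw hχ hdeg]
  refine ⟨fun h1 h2 h3 => StS_split (fun e => h3 ?_) (trace_fin_two _) (diag_mul_of_mem_BS h2),
    fun h => StS_ell ((ell_iff _).2 h), fun h1 h2 h3 =>
      StS_par (fun h => h3 h.1) (a := (g : M2 F) 0 0) (by rw [trace_fin_two, h2]) ?_⟩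
  · rw [sq]; nth_rw 2 [e]; exact diag_mul_of_mem_BS h2
  · nth_rw 2 [h2]; exact diag_mul_of_mem_BS h1

end Cfsg.Agent.S2321
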