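import Cfsg.Statements.S2322
import Cfsg.Agent.H24.SL2Table

set_option autoImplicit false
open Cfsg

namespace Cfsg.Agent.S2322

open H24 H5 Matrix

/-- Over a finite field F with q elements, q odd: every irreducible complex character of SL₂ of degree q − 1 or (q − 1)/2 vanishes at every diagonal matrix whose diagonal entry a has a² ≠ 1, and every irreducible complex character of degree q + 1 or (q + 1)/2 vanishes at every element with no eigenvector in F². -/
theorem result {F : Type*} [Field F] [Fintype F] (hodd : Odd (Fintype.card F)) (χ : Matrix.SpecialLinearGroup (Fin 2) F → ℂ) (hχ : Cfsg.IsIrrCharacter (Matrix.SpecialLinearGroup (Fin 2) F) χ) (g : Matrix.SpecialLinearGroup (Fin 2) F) :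
    ((χ 1 = (Fintype.card F : ℂ) - 1 ∨ χ 1 = (((Fintype.card F - 1) / 2 : ℕ) : ℂ)) →
      (g : Matrix (Fin 2) (Fin 2) F) 0 1 = 0 → (g : Matrix (Fin 2) (Fin 2) F) 1 0 = 0 → (g : Matrix (Fin 2) (Fin 2) F) 0 0 ^ 2 ≠ 1 → χ g = 0) ∧
    ((χ 1 = (Fintype.card F : ℂ) + 1 ∨ χ 1 = (((Fintype.card F + 1) / 2 : ℕ) : ℂ)) →
      (∀ (c : F) (v : Fin 2 → F), v ≠ 0 → (g : Matrix (Fin 2) (Fin 2) F).mulVec v ≠ c • v) → χ g = 0) := by
  classical
  have := Fintype.ofFinite (GL (Fin 2) F)
  obtain ⟨w, hw⟩ := exists_ell_SL (F := F)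
  have h2 := two_ne_zero_of_odd hodd
  obtain ⟨k, hk⟩ := id hodd
  obtain ⟨n, -, hn⟩ := hχ.exists_apply_one
  have hq1 : 1 < Fintype.card F := Fintype.one_lt_card
  refine ⟨fun hd h1 h3 h4 => ?_, fun hd he => ?_⟩
  · have hm := diag_mul_of_mem_BS h3
    have hne : (g : M2 F) 0 0 ≠ (g : M2 F) 1 1 := fun e => h4 (by rw [sq]; nth_rw 2 [e]; exact hm)
    have hq : 5 ≤ Fintype.card F := by
      have a0 := left_ne_zero_of_mul_eq_one hm
      have a1 : (g : M2 F) 0 0 ≠ 1 := fun e => h4 (by rw [e]; simp)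
      have a2 : (g : M2 F) 0 0 ≠ -1 := fun e => h4 (by rw [e]; simp)
      have a3 : (1 : F) ≠ -1 := fun e => h2 (by linear_combination e)
      have : ({0, 1, -1, (g : M2 F) 0 0} : Finset F).card ≤ Fintype.card F := Finset.card_le_univ _
      rw [Finset.card_insert_of_notMem (by simp [a0.symm]), Finset.card_eq_three.2
        ⟨_, _, _, a3, a1.symm, a2.symm, rfl⟩] at this
      omega
    rcases hd with hd | hd
    · obtain ⟨θ, -, rfl⟩ := eq_cuspS_of_degree hw hχ (by omega) hd
      exact cuspS_split hw θ hne (trace_fin_two _) hm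
    · obtain ⟨θ, ψ, -, -, H⟩ := halves_cuspS_of_degree hw hχ hodd hq hd
      have := (H.eq_half h2 (g := g) (Or.inr fun e => hne ?_)).2
      · rw [cuspS_split hw θ hne (trace_fin_two _) hm] at this
        simpa using this.symm
      · rw [trace_fin_two] at e
        have : ((g : M2 F) 0 0 - (g : M2 F) 1 1) ^ 2 = 0 := by linear_combination e - 4 * hm
        exact sub_eq_zero.1 ((pow_eq_zero_iff two_ne_zero).1 this)
  · have he := (ell_iff _).2 he
    have h4 : (g : M2 F).trace ^ 2 ≠ 4 := fun e => he.disc_ne_zero (by rw [e, g.2]; ring)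
    rcases hd with hd | hd
    · obtain ⟨α, -, rfl⟩ := eq_WS_of_degree hw hχ hd
      exact WS_ell α he
    · rcases irr_SL2_degree hw hχ hd with h | h | h | ⟨h, θ, hθ, rfl⟩ | ⟨-, -, α, ψ, -, -, H⟩ | h
      · exfalso; omega
      · exfalso; omega
      · exfalso; omega
      · -- q = 3
        have hq : Fintype.card F = 3 := by omega
        obtain ⟨z, hz⟩ : ∃ z : C2 w, IsConj g z.1 := by
          obtain ⟨x, y, ht, hd⟩ := hw.exists_lin_of_ell he
          exact ⟨⟨⟨_, hd.trans g.2⟩, (mem_cent_SL_iff hw.not_isScal _).2 ⟨x, y, rfl⟩⟩,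
            isConj_SL_of_ell (he.of_trace_det ht.symm hd.symm) ht.symm⟩
        have hz' : ¬ IsScal (z.1 : M2 F) := fun h => he.not_isScal ((IsConj.isScal_iff_SL hz).2 h)
        rw [(isClass_cuspS hw θ).eq_of_isConj hz, cuspS_ell hw θ hz']
        have hC : Nat.card (C2 w) = 4 := by rw [card_cent_SL_ell hw, hq]
        have hz4 : z ^ 4 = 1 := by rw [← hC]; exact pow_card_eq_one'
        have hz2 : z ^ 2 ≠ 1 := fun e => hz' (isScal_of_sq_eq_one hw e)
        have ho : orderOf z = 4 := orderOf_eq_prime_pow (p := 2) (n := 1) hz2 hz4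
        have hgen : ∀ c : C2 w, c ∈ Subgroup.zpowers z := by
          have : Subgroup.zpowers z = ⊤ := Subgroup.eq_top_of_card_eq _ (by
            rw [Nat.card_zpowers, ho, hC])
          intro c; rw [this]; trivial
        have h5 : θ z ^ 2 ≠ 1 := fun e => hθ (by
          ext c
          obtain ⟨j, rfl⟩ := hgen c
          simp only [MonoidHom.pow_apply, map_zpow, MonoidHom.one_apply]
          rw [e])
        have h6 : (θ z : ℂ) ^ 2 * (θ z : ℂ) ^ 2 = 1 := by
          rw [← pow_add, ← Units.val_pow_eq_pow_val, ← map_pow, hz4]; simp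
        have h7 := (mul_self_eq_one_iff.1 h6).resolve_left fun e => h5 (Units.ext e)
        have h8 := (θ z).ne_zero
        rw [Units.val_inv_eq_inv_val]
        field_simp
        linear_combination -h7
      · have := (H.eq_half h2 (g := g) (Or.inr h4)).2
        rw [WS_ell α he] at this
        simpa using this.symm
      · exfalso; omega

end Cfsg.Agent.S2322
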