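import Cfsg.Statements.S2324
import Cfsg.Agent.H24.SL2Table

set_option autoImplicit false
open Cfsg

namespace Cfsg.Agent.S2324

open H24 H5 Matrix

/-- Over a finite field F with q elements, q odd and q ≥ 5, let u be the upper unitriangular matrix of SL₂ with off-diagonal entry 1 and let δ = (−1)^((q−1)/2). Every irreducible complex character χ of SL₂ of degree (q + 1)/2 satisfies (2χ(u) − 1)² = δq, and every irreducible complex character χ of degree (q − 1)/2 satisfies (2χ(u) + 1)² = δq; that is, χ(u) = (1 ± √(δq))/2 in the first case and χ(u) = (−1 ± √(δq))/2 in the second. Moreover two different irreducible characters of degree (q + 1)/2 take the two different values (their values at u add up to 1), and likewise for degree (q − 1)/2 (values adding up to −1). -/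
theorem result {F : Type*} [Field F] [Fintype F] (hodd : Odd (Fintype.card F)) (hq : 5 ≤ Fintype.card F)
    (u : Matrix.SpecialLinearGroup (Fin 2) F) (hu : (u : Matrix (Fin 2) (Fin 2) F) = !![1, 1; 0, 1]) :
    (∀ χ : Matrix.SpecialLinearGroup (Fin 2) F → ℂ, Cfsg.IsIrrCharacter (Matrix.SpecialLinearGroup (Fin 2) F) χ → χ 1 = (((Fintype.card F + 1) / 2 : ℕ) : ℂ) → (2 * χ u - 1) ^ 2 = (-1 : ℂ) ^ ((Fintype.card F - 1) / 2) * (Fintype.card F : ℂ)) ∧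
    (∀ χ : Matrix.SpecialLinearGroup (Fin 2) F → ℂ, Cfsg.IsIrrCharacter (Matrix.SpecialLinearGroup (Fin 2) F) χ → χ 1 = (((Fintype.card F - 1) / 2 : ℕ) : ℂ) → (2 * χ u + 1) ^ 2 = (-1 : ℂ) ^ ((Fintype.card F - 1) / 2) * (Fintype.card F : ℂ)) ∧
    (∀ χ₁ χ₂ : Matrix.SpecialLinearGroup (Fin 2) F → ℂ, Cfsg.IsIrrCharacter (Matrix.SpecialLinearGroup (Fin 2) F) χ₁ → Cfsg.IsIrrCharacter (Matrix.SpecialLinearGroup (Fin 2) F) χ₂ → χ₁ ≠ χ₂ →
      χ₁ 1 = (((Fintype.card F + 1) / 2 : ℕ) : ℂ) → χ₂ 1 = (((Fintype.card F + 1) / 2 : ℕ) : ℂ) → χ₁ u + χ₂ u = 1) ∧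
    (∀ χ₁ χ₂ : Matrix.SpecialLinearGroup (Fin 2) F → ℂ, Cfsg.IsIrrCharacter (Matrix.SpecialLinearGroup (Fin 2) F) χ₁ → Cfsg.IsIrrCharacter (Matrix.SpecialLinearGroup (Fin 2) F) χ₂ → χ₁ ≠ χ₂ →
      χ₁ 1 = (((Fintype.card F - 1) / 2 : ℕ) : ℂ) → χ₂ 1 = (((Fintype.card F - 1) / 2 : ℕ) : ℂ) → χ₁ u + χ₂ u = -1) := by
  classical
  have := Fintype.ofFinite (GL (Fin 2) F)
  obtain ⟨w, hw⟩ := exists_ell_SL (F := F)
  have h1 : ¬ IsScal (u : M2 F) := fun h => by have := h.1; simp [hu] at this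
  have h3 : (u : M2 F).trace = 1 + 1 := by simp [hu, trace_fin_two]
  have h2 := two_ne_zero_of_odd hodd
  have hu' : upSL 1 1 (mul_one 1) = u := SL_ext hu.symm
  have a1 : ∀ {α : MulChar F ℂ} {χ ψ}, Halves (WS α) χ ψ → χ u + ψ u = 1 := fun {α χ ψ} H => by
    rw [← Pi.add_apply, ← H.add, WS_par α h1 h3 (mul_one 1), map_one]
  have a2 : ∀ {θ χ ψ}, Halves (cuspS hw θ) χ ψ → χ u + ψ u = -1 := fun {θ χ ψ} H => by
    rw [← Pi.add_apply, ← H.add, cuspS_unip hw θ h1 h3]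
  refine ⟨fun χ hχ h => ?_, fun χ hχ h => ?_, fun χ ψ hχ hψ hne h h' => ?_,
    fun χ ψ hχ hψ hne h h' => ?_⟩
  · obtain ⟨α, ψ, -, -, H⟩ := halves_WS_of_degree hw hχ hodd hq h
    rw [← H.sq_u h2, hu', ← a1 H]; ring
  · obtain ⟨α, ψ, -, -, H⟩ := halves_cuspS_of_degree hw hχ hodd hq h
    rw [← H.sq_u h2, hu', ← sub_neg_eq_add, ← a2 H]; ring
  · obtain ⟨α, -, -, H⟩ := halves_WS_pair hodd hq hχ hψ hne h h'
    exact a1 H
  · obtain ⟨α, -, -, H⟩ := halves_cuspS_pair hw hodd hq hχ hψ hne h h'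
    exact a2 H

end Cfsg.Agent.S2324
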