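import Cfsg.Statements.S2363
import Cfsg.Agent.H11.ED3
import Cfsg.Agent.H13.SzModel
import Cfsg.Agent.S0243
import Cfsg.Agent.S0280
import Cfsg.Agent.S0292
import Cfsg.Agent.S0293
import Cfsg.Agent.S0294
import Cfsg.Agent.S0324
import Cfsg.Agent.S1059
import Cfsg.Agent.S1062
import Cfsg.Agent.S1063
import Cfsg.Agent.S1064
import Cfsg.Agent.S1065
import Cfsg.Agent.S1066
import Cfsg.Agent.S1067
import Cfsg.Agent.S1068
import Cfsg.Agent.S1069

set_option autoImplicit false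
open Cfsg

namespace Cfsg.Agent.S2363

/-- `R` is prime to `q` and less than `q ^ E` -/
def B (q R E : ℕ) : Prop := R.Coprime q ∧ R < q ^ E

theorem B.mul {q R E R' E' : ℕ} (h : B q R E) (h' : B q R' E') : B q (R * R') (E + E') :=
  ⟨h.1.mul_left h'.1, by rw [pow_add]; exact Nat.mul_lt_mul'' h.2 h'.2⟩

theorem cs {q : ℕ} (h : 2 ≤ q) {i : ℕ} (hi : i ≠ 0) : (q ^ i - 1).Coprime q :=
  (Nat.coprime_pow_right_iff (Nat.pos_of_ne_zero hi) _ _).1
    ((Nat.coprime_self_sub_left (Nat.one_le_pow _ _ (by omega))).2 (by simp))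

theorem ca {q : ℕ} {i : ℕ} (hi : i ≠ 0) : (q ^ i + 1).Coprime q :=
  (Nat.coprime_pow_right_iff (Nat.pos_of_ne_zero hi) _ _).1 (by simp)

theorem bs {q : ℕ} (h : 2 ≤ q) (i : ℕ) (hi : i ≠ 0 := by omega) : B q (q ^ i - 1) i :=
  ⟨cs h hi, Nat.sub_lt (by positivity) one_pos⟩

theorem ba {q : ℕ} (h : 2 ≤ q) (i : ℕ) (hi : i ≠ 0 := by omega) : B q (q ^ i + 1) (i + 1) :=
  ⟨ca hi, by have := Nat.one_lt_pow hi h; rw [pow_succ]; nlinarith⟩

theorem bsp {q : ℕ} (h : 2 ≤ q) (m : ℕ) :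
    B q (∏ i ∈ Finset.range (m + 1), (q ^ (2 * (i + 1)) - 1)) ((m + 1) * (m + 2)) := by
  induction m with
  | zero => simpa using bs h 2
  | succ m ih => rw [Finset.prod_range_succ]; convert ih.mul (bs h (2 * (m + 1 + 1))) using 1; ring

theorem bsl {q : ℕ} (h : 2 ≤ q) (n : ℕ) : ∃ R N E, B q R E ∧ 2 * N = (n + 2) * (n + 1) ∧ E = N + n + 1 ∧
    ∏ i : Fin (n + 2), (q ^ (n + 2) - q ^ (i : ℕ)) = (q - 1) * (q ^ N * R) := by
  induction n with
  | zero => exact ⟨_, 1, 2, bs h 2, rfl, rfl, by rw [H11.glOrd_succ]; simp; ring⟩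
  | succ n ih =>
    obtain ⟨R, N, E, h1, h2, h3, h4⟩ := ih
    exact ⟨_, N + (n + 2), _, h1.mul (bs h (n + 3)), by nlinarith, by omega, by rw [H11.glOrd_succ, h4]; ring⟩

theorem bsu {q : ℕ} (h : 2 ≤ q) (n : ℕ) : ∃ R E, B q R E ∧ 2 * E + 2 = (n + 3) * (n + 4) ∧
    (Odd n → ∃ R', B q R' (E - (n + 3)) ∧ R = R' * (q ^ (n + 3) - 1)) ∧
    ∏ i ∈ Finset.range (n + 3), (if Even i then q ^ (i + 1) + 1 else q ^ (i + 1) - 1) = (q + 1) * R := by
  have k : ∀ i, i ≠ 0 → B q ((q ^ i - 1) * (q ^ (i + 1) + 1)) (2 * i + 1) := fun i hi => by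
    refine ⟨(cs h hi).mul_left (ca (by omega)), ?_⟩
    obtain ⟨x, hx⟩ : ∃ x, q ^ i = x + 1 := ⟨_, (Nat.succ_pred_eq_of_pos (by positivity)).symm⟩
    rw [two_mul, pow_succ, pow_succ, pow_add, hx]; simp; nlinarith
  induction n with
  | zero => exact ⟨_, 5, k 2 two_ne_zero, rfl, by simp, by simp [Finset.prod_range_succ, mul_assoc, Nat.even_iff]⟩
  | succ n ih =>
    obtain ⟨R, E, h1, h2, h3, h4⟩ := ih
    rw [Finset.prod_range_succ, h4]
    rcases Nat.even_or_odd n with hn | hn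
    · exact ⟨_, _, h1.mul (bs h (n + 4)), by nlinarith, fun _ => ⟨R, by simpa using h1, rfl⟩, by
        rw [if_neg (by grind), mul_assoc]⟩
    · obtain ⟨R', h5, rfl⟩ := h3 hn
      have : n + 3 ≤ E := by nlinarith
      exact ⟨_, _, h5.mul (k (n + 3) (by omega)), by
        obtain ⟨x, rfl⟩ := Nat.exists_eq_add_of_le this
        simp; nlinarith, fun h => by grind, by rw [if_pos (by grind)]; ring⟩

theorem fac {p a d n N R E : ℕ} (hp : p.Prime) (ha : a ≠ 0) (h : d * n = (p ^ a) ^ N * R) (hd : d.Coprime (p ^ a))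
    (hR : B (p ^ a) R E) : p ^ n.factorization p = (p ^ a) ^ N ∧ n < (p ^ a) ^ (N + E) := by
  have h1 : ∀ x, x.Coprime (p ^ a) → x ≠ 0 ∧ x.factorization p = 0 := fun x hx => by
    have := (Nat.coprime_pow_right_iff (Nat.pos_of_ne_zero ha) _ _).1 hx
    exact ⟨by rintro rfl; simp [hp.ne_one] at this,
      Nat.factorization_eq_zero_of_not_dvd (hp.coprime_iff_not_dvd.1 this.symm)⟩
  have hn : n ≠ 0 := by rintro rfl; simp [(h1 R hR.1).1, hp.ne_zero] at h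
  have h2 := congr(($h).factorization p)
  rw [Nat.factorization_mul (h1 d hd).1 hn, Nat.factorization_mul (by have := hp.pos; positivity) (h1 R hR.1).1] at h2
  simp only [Finsupp.add_apply, (h1 d hd).2, (h1 R hR.1).2, ← pow_mul, hp.factorization_pow] at h2
  refine ⟨by rw [← pow_mul]; simpa using congrArg (p ^ ·) h2, ?_⟩
  calc n ≤ d * n := Nat.le_mul_of_pos_left _ (Nat.pos_of_ne_zero (h1 d hd).1)
    _ < _ := by rw [h, pow_add]; exact Nat.mul_lt_mul_of_pos_left hR.2 (by have := hp.pos; positivity)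

theorem fin {p q d n N R E : ℕ} {X : Prop} (hp : p.Prime) (hq : ∃ a, a ≠ 0 ∧ q = p ^ a) (h : d * n = q ^ N * R)
    (hd : d.Coprime q) (hR : B q R E) (hE : 3 * E ≤ 5 * N) :
    n < p ^ (3 * n.factorization p) ∧ (X → n ^ 3 < p ^ (8 * n.factorization p)) := by
  obtain ⟨a, ha, rfl⟩ := hq
  obtain ⟨h1, h2⟩ := fac hp ha h hd hR
  have := Nat.one_le_pow a p hp.pos
  rw [mul_comm 3, mul_comm 8, pow_mul, pow_mul, h1, ← pow_mul _ N, ← pow_mul _ N]
  exact ⟨h2.trans_le (Nat.pow_le_pow_right this (by omega)), fun _ => (Nat.pow_lt_pow_left h2 three_ne_zero).trans_le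
    (by rw [← pow_mul]; exact Nat.pow_le_pow_right this (by omega))⟩

theorem fld (F : Type) [Field F] [Fintype F] {p q k : ℕ} [CharP F p] (hp : p.Prime) (h : Fintype.card F = q ^ k) :
    2 ≤ q ∧ ∃ a, a ≠ 0 ∧ q = p ^ a := by
  have := Fact.mk hp
  obtain ⟨n, -, hn⟩ := FiniteField.card F p
  have h1 := Fintype.one_lt_card (α := F)
  have hk : k ≠ 0 := by rintro rfl; simp [h] at h1
  obtain ⟨a, -, rfl⟩ := (Nat.dvd_prime_pow hp).1 (hn ▸ h ▸ dvd_pow_self q hk : q ∣ p ^ n.1)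
  have : a ≠ 0 := by rintro rfl; simp [h] at h1
  exact ⟨Nat.one_lt_pow this hp.one_lt, a, this, rfl⟩

/-- Let G be a finite simple group of Lie type in characteristic p and let p^k be the exact power of p dividing the order of G. Then the order of G is less than p^(3k); and unless G is isomorphic to PSL(2, F) for the field F with p^k elements, the cube of the order of G is less than p^(8k) (that is, the order is below p^(8k/3)). -/
theorem result {G : Type*} [Group G] [Finite G] (p : ℕ) (hp : p.Prime) (hG : Cfsg.IsLieTypeChar p G) :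
    Nat.card G < p ^ (3 * (Nat.card G).factorization p) ∧
      ((¬ ∃ (F : Type) (_ : Field F) (_ : Fintype F), Fintype.card F = p ^ (Nat.card G).factorization p ∧
          Nonempty (G ≃* Matrix.ProjectiveSpecialLinearGroup (Fin 2) F)) →
        Nat.card G ^ 3 < p ^ (8 * (Nat.card G).factorization p)) := by
  have g : ∀ {a b q : ℕ}, b.Coprime q → (a.gcd b).Coprime q := fun h => h.coprime_dvd_left (Nat.gcd_dvd_right _ _)
  rcases hG with ⟨F, _, _, _, n, hn, -, ⟨e⟩⟩ | ⟨F, _, _, _, m, hm, -, ⟨e⟩⟩ | ⟨F, _, _, _, n, q, hF, hn, -, ⟨e⟩⟩ |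
    ⟨F, _, _, _, m, hm, ho, ⟨e⟩⟩ | ⟨F, _, _, _, m, hm, ⟨e⟩⟩ | ⟨F, _, _, _, m, a, b, hm, hab, ⟨e⟩⟩ |
    ⟨F, _, _, _, h⟩ | ⟨F, _, _, _, q, hq', ⟨hF, ⟨e⟩⟩ | ⟨hF, ⟨e⟩⟩⟩ | ⟨rfl, F, _, _, m, hm, hF, ⟨e⟩⟩ |
    ⟨rfl, F, _, _, m, hm, hF, ⟨e⟩⟩ | ⟨rfl, F, _, _, m, hm, hF, ⟨e⟩⟩
  · obtain ⟨h2, hq⟩ := fld F hp (pow_one _).symm
    obtain ⟨n, rfl⟩ := Nat.exists_eq_add_of_le' hn
    obtain ⟨R, N, E, h1, h3, h4, h5⟩ := bsl h2 n
    have h6 := S0243.result (F := F) rfl (n + 2) hn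
    rw [h5, mul_left_comm, Nat.mul_right_inj (by omega), ← Nat.card_congr e.toEquiv] at h6
    have h7 := g (a := n + 2) (by simpa using cs h2 one_ne_zero)
    rcases n with _ | n
    · obtain ⟨a, ha, hq⟩ := hq
      obtain rfl : N = 1 := by omega
      rw [hq] at h6 h7 h1
      obtain ⟨k1, k2⟩ := fac hp ha h6 h7 h1
      exact ⟨by rw [mul_comm, pow_mul, k1, pow_one]; simpa [h4] using k2,
        fun h => (h ⟨F, _, _, by rw [k1, hq, pow_one], ⟨e⟩⟩).elim⟩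
    · exact fin hp hq h6 h7 h1 (by nlinarith)
  · obtain ⟨h2, hq⟩ := fld F hp (pow_one _).symm
    obtain ⟨m, rfl⟩ := Nat.exists_eq_add_of_le' hm
    have hS := H11.stdSymp_nondeg (F := F) (m + 2)
    obtain ⟨x, y, H⟩ := hS.symp_exists_hyp (by rw [H11.finrank_sum_fun]; omega)
    refine fin hp hq (d := Nat.gcd 2 (Fintype.card F - 1)) (N := (m + 2) ^ 2) ?_ (g (by simpa using cs h2 one_ne_zero))
      (bsp h2 (m + 1)) (by nlinarith)
    rw [Nat.card_congr e.toEquiv, Nat.card_congr (H11.centerQuotCongr (H11.spEquiv _ F)).toEquiv,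
      ← Nat.card_eq_fintype_card, ← H11.PForm.symp_card_Isom _ hS (H11.finrank_sum_fun _), ← H11.card_normOne_id,
      ← H.card_center_Isom hS (H11.PForm.symp_rich _ _), mul_comm, ← Subgroup.card_eq_card_quotient_mul_card_subgroup]
  · obtain ⟨h2, hq⟩ := fld F hp hF
    obtain ⟨n, rfl⟩ := Nat.exists_eq_add_of_le' hn
    obtain ⟨R, E, h1, h3, -, h5⟩ := bsu h2 n
    have h6 := S0280.result hF (n + 3) (by omega)
    rw [h5, mul_left_comm, mul_left_comm _ (q + 1), Nat.mul_right_inj (by omega), ← Nat.card_congr e.toEquiv] at h6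
    refine fin hp hq h6 (g (by simp)) h1 ?_
    have := Nat.div_mul_cancel (Nat.even_mul_pred_self (n + 3)).two_dvd
    simp only [Nat.add_succ_sub_one] at this ⊢
    nlinarith
  · obtain ⟨h2, hq⟩ := fld F hp (pow_one _).symm
    obtain ⟨m, rfl⟩ := Nat.exists_eq_add_of_le' hm
    exact fin hp hq ((congrArg _ (Nat.card_congr e.toEquiv)).trans (S0292.result rfl ho _ hm)) (by simpa using ho)
      (bsp h2 (m + 2)) (by nlinarith)
  · obtain ⟨h2, hq⟩ := fld F hp (pow_one _).symm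
    obtain ⟨m, rfl⟩ := Nat.exists_eq_add_of_le' hm
    exact fin hp hq ((congrArg _ (Nat.card_congr e.toEquiv)).trans ((S0293.result rfl _ hm).trans (mul_assoc _ _ _)))
      (g (cs h2 (by omega))) ((bs h2 _).mul (bsp h2 (m + 2))) (by simp; nlinarith)
  · obtain ⟨h2, hq⟩ := fld F hp (pow_one _).symm
    obtain ⟨m, rfl⟩ := Nat.exists_eq_add_of_le' hm
    exact fin hp hq ((congrArg _ (Nat.card_congr e.toEquiv)).trans ((S0294.result rfl _ hm a b hab).trans (mul_assoc _ _ _)))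
      (g (ca (by omega))) ((ba h2 _).mul (bsp h2 (m + 2))) (by simp; nlinarith)
  · obtain ⟨h2, hq⟩ := fld F hp (pow_one _).symm
    have h1 : ∀ a : ℕ, (a.gcd (Fintype.card F - 1)).Coprime (Fintype.card F) := fun a =>
      g (by simpa using cs h2 one_ne_zero)
    rcases h with ⟨-, ⟨e⟩⟩ | ⟨⟨e⟩⟩ | ⟨⟨e⟩⟩ | ⟨⟨e⟩⟩ | ⟨⟨e⟩⟩ <;> rw [Nat.card_congr e.toEquiv]
    · exact fin hp hq (d := 1) (N := 6) (by rw [S1059.result rfl]; ring) (by simp) ((bs h2 2).mul (bs h2 6)) (by omega)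
    · exact fin hp hq (d := 1) (N := 24) (by rw [S1062.result rfl]; ring) (by simp)
        ((((bs h2 2).mul (bs h2 6)).mul (bs h2 8)).mul (bs h2 12)) (by omega)
    · exact fin hp hq (N := 36) (by rw [S1063.result rfl]; ring) (h1 3)
        ((((((bs h2 2).mul (bs h2 5)).mul (bs h2 6)).mul (bs h2 8)).mul (bs h2 9)).mul (bs h2 12)) (by omega)
    · exact fin hp hq (N := 63) (by rw [S1064.result rfl]; ring) (h1 2) (((((((bs h2 2).mul (bs h2 6)).mul
        (bs h2 8)).mul (bs h2 10)).mul (bs h2 12)).mul (bs h2 14)).mul (bs h2 18)) (by omega)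
    · exact fin hp hq (d := 1) (N := 120) (by rw [S1065.result rfl]; ring) (by simp) ((((((((bs h2 2).mul (bs h2 8)).mul
        (bs h2 12)).mul (bs h2 14)).mul (bs h2 18)).mul (bs h2 20)).mul (bs h2 24)).mul (bs h2 30)) (by omega)
  · obtain ⟨h2, hq⟩ := fld F hp hF
    rw [Nat.card_congr e.toEquiv]
    exact fin hp hq (N := 36) (by rw [S1066.result hq' hF]; ring) (g (a := 3) (b := q + 1) (by simp))
      ((((((bs h2 2).mul (ba h2 5)).mul (bs h2 6)).mul (bs h2 8)).mul (ba h2 9)).mul (bs h2 12)) (by omega)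
  · obtain ⟨h2, hq⟩ := fld F hp hF
    rw [Nat.card_congr e.toEquiv]
    refine fin hp hq (d := 1) (N := 12) (by rw [S1067.result hq' hF]; ring) (by simp)
      (((bs h2 2).mul (bs h2 6)).mul (R' := q ^ 8 + q ^ 4 + 1) (E' := 9) ⟨?_, ?_⟩) (by omega)
    · rw [show q ^ 8 + q ^ 4 + 1 = 1 + (q ^ 7 + q ^ 3) * q by ring]; simp
    · have : 4 ≤ q ^ 4 := le_trans (by norm_num) (Nat.pow_le_pow_left h2 4)
      rw [show q ^ 9 = q ^ 4 * q ^ 4 * q by ring, show q ^ 8 = q ^ 4 * q ^ 4 by ring]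
      nlinarith [Nat.mul_le_mul_left (q ^ 4 * q ^ 4) h2]
  · have : H13.Sz.IsSz F m := ⟨hm, hF⟩
    have h2 : 2 ≤ 2 ^ (2 * m + 1) := Nat.one_lt_two_pow (by omega)
    rw [Nat.card_congr e.toEquiv, ← Nat.card_congr (H13.Sz.lieEquiv F m).toEquiv]
    refine fin hp ⟨2 * m + 1, by omega, rfl⟩ (d := 1) (N := 2) (E := 3) (by rw [S0324.result hm hF, one_mul, mul_assoc])
      (by simp) ⟨(ca two_ne_zero).mul_left (by simpa using cs h2 one_ne_zero), ?_⟩ (by omega)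
    obtain ⟨x, hx⟩ := Nat.exists_eq_add_of_le' h2
    rw [hx]; simp; nlinarith
  · have h2 : 2 ≤ 2 ^ (2 * m + 1) := Nat.one_lt_two_pow (by omega)
    rw [Nat.card_congr e.toEquiv]
    exact fin hp ⟨2 * m + 1, by omega, rfl⟩ (d := 1) (N := 12) (by rw [S1068.result hF, pow_one]; ring) (by simp)
      ((((bs h2 1).mul (ba h2 3)).mul (bs h2 4)).mul (ba h2 6)) (by omega)
  · have h2 : 2 ≤ 3 ^ (2 * m + 1) := Nat.one_lt_pow (by omega) (by omega)
    rw [Nat.card_congr e.toEquiv]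
    exact fin hp ⟨2 * m + 1, by omega, rfl⟩ (d := 1) (N := 3) (by rw [S1069.result hF, pow_one]; ring) (by simp)
      ((bs h2 1).mul (ba h2 3)) (by omega)

end Cfsg.Agent.S2363
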