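import Cfsg.Statements.S2364
import Cfsg.Agent.H11.Spec

set_option autoImplicit false
open Cfsg

namespace Cfsg.Agent.S2364

/-- Let F be a finite field of characteristic p, n ≥ 4, and let a, b be commuting elements of PSL(n, F) with a of order p. Then every prime divisor of the order of b divides the order of SL(n − 2, F). -/
theorem result {F : Type*} [Field F] [Fintype F] (p : ℕ) [Fact p.Prime] [CharP F p] (n : ℕ) (hn : 4 ≤ n)
    (a b : Matrix.ProjectiveSpecialLinearGroup (Fin n) F) (ha : orderOf a = p) (hab : Commute a b) :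
    (orderOf b).primeFactors ⊆ (Nat.card (Matrix.SpecialLinearGroup (Fin (n - 2)) F)).primeFactors := by
  refine (H11.lu_psl (F := F) (ι := Fin n) p).primeFactors (H11.char_dvd_card p) (by simpa)
    (fun J h1 h2 h3 => ?_) ha hab
  obtain ⟨g, rfl⟩ := (H11.sl_JD (ι := Fin (n - 2)) J).2 ⟨h1, by simpa using h2, h3⟩
  exact ⟨g, (H11.pow_eq_one_iff_JD p (orderOf_pos g).ne').1 (by
    rw [← H11.orderOf_mE_sl, pow_orderOf_eq_one])⟩

end Cfsg.Agent.S2364
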