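import Cfsg.Statements.S2365
import Cfsg.Agent.H11.Spec

set_option autoImplicit false
open Cfsg

namespace Cfsg.Agent.S2365

/-- Let q be a power of the prime p, F the field with q² elements, m ≥ 4, and let a, b be commuting elements of PSU(m, q) with a of order p. Then every prime divisor of the order of b divides the order of SU(m − 2, q). -/
theorem result {F : Type*} [Field F] [Fintype F] (p : ℕ) [Fact p.Prime] [CharP F p] (m q : ℕ) (hm : 4 ≤ m) (hF : Fintype.card F = q ^ 2)
    (a b : Cfsg.PSU m F q) (ha : orderOf a = p) (hab : Commute a b) :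
    (orderOf b).primeFactors ⊆ (Nat.card ↥(Cfsg.SU (m - 2) F q)).primeFactors := by
  refine (H11.lu_psu hF m p (by omega)).primeFactors (H11.char_dvd_q p hF) hm
    (fun J h1 h2 h3 => ?_) ha hab
  obtain ⟨g, rfl⟩ := (H11.su_JD hF (m - 2) J).2 ⟨h1, h2, h3⟩
  exact ⟨g, (H11.pow_eq_one_iff_JD p (orderOf_pos g).ne').1 (by
    rw [← Subgroup.orderOf_coe, ← H11.orderOf_mE_sl, pow_orderOf_eq_one])⟩

end Cfsg.Agent.S2365
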