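import Cfsg.Statements.S2366
import Cfsg.Agent.H11.Spec

set_option autoImplicit false
open Cfsg

namespace Cfsg.Agent.S2366

/-- The set of element orders of PSU(3, q) for an odd prime power q = p^n: writing d = gcd(3, q + 1), a positive integer is the order of some element exactly when it divides one of q + 1, p(q + 1)/d, (q² − 1)/d, (q² − q + 1)/d. -/
theorem result {F : Type*} [Field F] [Fintype F] (p : ℕ) [Fact p.Prime] [CharP F p] (hp : p ≠ 2) (q : ℕ) (hF : Fintype.card F = q ^ 2) :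
    Set.range (orderOf : Cfsg.PSU 3 F q → ℕ) =
      {s : ℕ | s ∣ q + 1} ∪ {s : ℕ | s ∣ p * (q + 1) / Nat.gcd 3 (q + 1)} ∪
        {s : ℕ | s ∣ (q ^ 2 - 1) / Nat.gcd 3 (q + 1)} ∪ {s : ℕ | s ∣ (q ^ 2 - q + 1) / Nat.gcd 3 (q + 1)} := by
  have := H11.two_le_of_card_sq (Nat.card_eq_fintype_card.trans hF)
  ext m
  refine ((H11.lu_psu hF 3 p (by omega)).three (H11.char_dvd_q p hF) (A := q ^ 2 - q + 1)
    (B := q ^ 2 - 1) (C := q + 1) (by simp [Nat.cast_sub (by nlinarith : q ≤ q ^ 2)]; ring)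
    (by simp [Nat.cast_pred (by positivity : 0 < q ^ 2)])
    (by rw [← neg_add', abs_neg, abs_of_nonneg (by positivity)]; simp) m).trans ?_
  simp only [Set.mem_union, Set.mem_setOf_eq, hp]
  tauto

end Cfsg.Agent.S2366
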