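import Cfsg.Statements.S2367
import Mathlib

set_option autoImplicit false
open Cfsg

set_option synthInstance.maxSize 1000

namespace Cfsg.Agent.S2367

theorem spor_aux (N a : ℕ) (hN : N ≠ 0) (h71 : N ∣ (Nat.factorial 71) ^ 46) (h2 : 2 ^ a ∣ N)
    (hc : ∀ p < 72, p ^ 3 ∣ N → ¬ p ^ 4 ∣ N → p % 2 = 1 → (∀ d < p, d ∣ p → d = 1) → p ^ 3 < 2 ^ a)
    (p : ℕ) (hp : p.Prime) (hodd : p ≠ 2) (h3 : N.factorization p = 3) :
    p ^ 3 < 2 ^ N.factorization 2 := by
  have h3' : p ^ 3 ∣ N := (hp.pow_dvd_iff_le_factorization hN).2 h3.ge
  have h4' : ¬ p ^ 4 ∣ N := fun h => by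
    have := (hp.pow_dvd_iff_le_factorization hN).1 h; omega
  have hpN : p ∣ N := (dvd_pow_self p (by norm_num)).trans h3'
  have hp71 : p ≤ 71 := hp.dvd_factorial.1 (hp.dvd_of_dvd_pow (hpN.trans h71))
  have h := hc p (by omega) h3' h4' (hp.eq_two_or_odd.resolve_left hodd) (fun d hd hdp => by
    rcases (Nat.dvd_prime hp).1 hdp with h | h <;> omega)
  have ha : a ≤ N.factorization 2 := (Nat.prime_two.pow_dvd_iff_le_factorization hN).1 h2
  exact lt_of_lt_of_le h (Nat.pow_le_pow_right (by norm_num) ha)

theorem cube_lt (p : ℕ) (hp : 5 ≤ p) : p ^ 3 < 2 ^ (2 * p - 1) := by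
  induction p, hp using Nat.le_induction with
  | base => norm_num
  | succ k hk ih =>
    have e : 2 * (k + 1) - 1 = (2 * k - 1) + 2 := by omega
    rw [e, pow_add]
    have h1 : (k + 1) ^ 3 ≤ 4 * k ^ 3 := by
      have : 5 * (k * k) ≤ k * (k * k) := Nat.mul_le_mul_right _ hk
      have : 5 * k ≤ k * k := Nat.mul_le_mul_right _ hk
      nlinarith
    omega

/-- Let G be an alternating group of degree at least 5 or a simple group with the order of one of the 26 sporadic groups, and let p be an odd prime such that p³ is the exact power of p dividing the order of G. Then p³ is less than the 2-part of the order of G. -/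
theorem result {G : Type*} [Group G] [Finite G] (hG : Cfsg.IsAlternating G ∨ Cfsg.IsSporadic G)
    (p : ℕ) (hp : p.Prime) (hodd : p ≠ 2) (h3 : (Nat.card G).factorization p = 3) :
    p ^ 3 < 2 ^ (Nat.card G).factorization 2 := by
  rcases hG with ⟨n, hn, ⟨e⟩⟩ | hG
  · have hc : 2 * Nat.card G = n.factorial := by
      haveI : Nontrivial (Fin n) := Fin.nontrivial_iff_two_le.2 (by omega)
      rw [Nat.card_congr e.toEquiv, two_mul_nat_card_alternatingGroup, Nat.card_perm]; simp
    have hG0 : Nat.card G ≠ 0 := Nat.card_pos.ne'
    have hf : ∀ r : ℕ, n.factorial.factorization r =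
        (2 : ℕ).factorization r + (Nat.card G).factorization r := by
      intro r; rw [← hc, Nat.factorization_mul (by norm_num) hG0]; rfl
    have hfp : n.factorial.factorization p = 3 := by
      rw [hf, h3, Nat.prime_two.factorization, Finsupp.single_eq_of_ne hodd]
    have hf2 : n.factorial.factorization 2 = 1 + (Nat.card G).factorization 2 := by
      rw [hf, Nat.prime_two.factorization_self]
    have hsmall : n < p ^ 2 → n / p = 3 := by
      intro h
      have hl : Nat.log p n < 2 := Nat.log_lt_of_lt_pow (by omega) h
      rw [Nat.factorization_factorial hp hl] at hfp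
      simpa using hfp
    have hp2 := hp.two_le
    have hp3 : p ≠ 3 := by
      rintro rfl
      by_cases h9 : n < 9
      · have := hsmall (by omega); omega
      · have h1 : (Nat.factorial 9) ∣ n.factorial := Nat.factorial_dvd_factorial (by omega)
        have h2 : 3 ^ 4 ∣ n.factorial := Dvd.dvd.trans (by decide) h1
        have := (hp.pow_dvd_iff_le_factorization (Nat.factorial_ne_zero n)).1 h2
        omega
    have hp4 : p ≠ 4 := by rintro rfl; exact absurd hp (by decide)
    have hp5 : 5 ≤ p := by omega
    have hn3 : 3 * p ≤ n := by
      by_cases h : n < p ^ 2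
      · have := hsmall h
        have := Nat.div_mul_le_self n p
        nlinarith
      · nlinarith
    have hv : n / 2 + n / 4 ≤ n.factorial.factorization 2 := by
      rw [Nat.factorization_factorial Nat.prime_two (b := Nat.log 2 n + 3) (by omega)]
      have : ({1, 2} : Finset ℕ) ⊆ Finset.Ico 1 (Nat.log 2 n + 3) := by
        intro x hx; simp at hx ⊢; omega
      refine le_trans ?_ (Finset.sum_le_sum_of_subset this)
      simp
    refine lt_of_lt_of_le (cube_lt p hp5) (Nat.pow_le_pow_right (by norm_num) ?_)
    omega
  · rcases hG with h | h | h | h | h | h | h | h | h | h | h | h | h | h | h | h | h | h | h | h | h | h | h | h | h | h <;>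
      rw [h.2] at h3 ⊢
    · exact spor_aux _ 4 (by norm_num) (by decide +kernel) (by decide +kernel) (by decide +kernel) p hp hodd h3
    · exact spor_aux _ 6 (by norm_num) (by decide +kernel) (by decide +kernel) (by decide +kernel) p hp hodd h3
    · exact spor_aux _ 7 (by norm_num) (by decide +kernel) (by decide +kernel) (by decide +kernel) p hp hodd h3
    · exact spor_aux _ 7 (by norm_num) (by decide +kernel) (by decide +kernel) (by decide +kernel) p hp hodd h3
    · exact spor_aux _ 10 (by norm_num) (by decide +kernel) (by decide +kernel) (by decide +kernel) p hp hodd h3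
    · exact spor_aux _ 3 (by norm_num) (by decide +kernel) (by decide +kernel) (by decide +kernel) p hp hodd h3
    · exact spor_aux _ 7 (by norm_num) (by decide +kernel) (by decide +kernel) (by decide +kernel) p hp hodd h3
    · exact spor_aux _ 7 (by norm_num) (by decide +kernel) (by decide +kernel) (by decide +kernel) p hp hodd h3
    · exact spor_aux _ 21 (by norm_num) (by decide +kernel) (by decide +kernel) (by decide +kernel) p hp hodd h3
    · exact spor_aux _ 21 (by norm_num) (by decide +kernel) (by decide +kernel) (by decide +kernel) p hp hodd h3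
    · exact spor_aux _ 18 (by norm_num) (by decide +kernel) (by decide +kernel) (by decide +kernel) p hp hodd h3
    · exact spor_aux _ 10 (by norm_num) (by decide +kernel) (by decide +kernel) (by decide +kernel) p hp hodd h3
    · exact spor_aux _ 17 (by norm_num) (by decide +kernel) (by decide +kernel) (by decide +kernel) p hp hodd h3
    · exact spor_aux _ 18 (by norm_num) (by decide +kernel) (by decide +kernel) (by decide +kernel) p hp hodd h3
    · exact spor_aux _ 21 (by norm_num) (by decide +kernel) (by decide +kernel) (by decide +kernel) p hp hodd h3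
    · exact spor_aux _ 9 (by norm_num) (by decide +kernel) (by decide +kernel) (by decide +kernel) p hp hodd h3
    · exact spor_aux _ 7 (by norm_num) (by decide +kernel) (by decide +kernel) (by decide +kernel) p hp hodd h3
    · exact spor_aux _ 10 (by norm_num) (by decide +kernel) (by decide +kernel) (by decide +kernel) p hp hodd h3
    · exact spor_aux _ 14 (by norm_num) (by decide +kernel) (by decide +kernel) (by decide +kernel) p hp hodd h3
    · exact spor_aux _ 13 (by norm_num) (by decide +kernel) (by decide +kernel) (by decide +kernel) p hp hodd h3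
    · exact spor_aux _ 9 (by norm_num) (by decide +kernel) (by decide +kernel) (by decide +kernel) p hp hodd h3
    · exact spor_aux _ 14 (by norm_num) (by decide +kernel) (by decide +kernel) (by decide +kernel) p hp hodd h3
    · exact spor_aux _ 8 (by norm_num) (by decide +kernel) (by decide +kernel) (by decide +kernel) p hp hodd h3
    · exact spor_aux _ 15 (by norm_num) (by decide +kernel) (by decide +kernel) (by decide +kernel) p hp hodd h3
    · exact spor_aux _ 41 (by norm_num) (by decide +kernel) (by decide +kernel) (by decide +kernel) p hp hodd h3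
    · exact spor_aux _ 46 (by norm_num) (by decide +kernel) (by decide +kernel) (by decide +kernel) p hp hodd h3

end Cfsg.Agent.S2367
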