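import Cfsg.Statements.S2369
import Cfsg.Agent.H12.TwPar

set_option autoImplicit false
open Cfsg

namespace Cfsg.Agent.S2369
open H12 H13 Cfsg.Lie

/-- Let q = 2^(2m+1) with m ≥ 1 and let a, b be commuting elements of the large Ree group ²F₄(q) with a an involution. Then every prime divisor of the order of b divides q(q⁴ − 1). -/
theorem result {K : Type*} [Field K] [Fintype K] (m : ℕ) (hm : 1 ≤ m) (hK : Fintype.card K = 2 ^ (2 * m + 1))
    (a b : ↥(Cfsg.Lie.twistedF4 K (2 ^ m))) (ha : orderOf a = 2) (hab : Commute a b) :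
    (orderOf b).primeFactors ⊆ (2 ^ (2 * m + 1) * ((2 ^ (2 * m + 1)) ^ 4 - 1)).primeFactors := by
  have h := cent_inv_F hK ha hab
  rw [Nat.card_eq_fintype_card, hK] at h
  have h1 : 1 < 2 ^ (2 * m + 1) := Nat.one_lt_two_pow (by omega)
  generalize 2 ^ (2 * m + 1) = q at *
  obtain ⟨t, rfl⟩ := Nat.exists_eq_add_of_lt h1
  have h2 : (1 + t + 1) ^ 4 - 1 = (1 + t + 1 - 1) * (1 + (1 + t + 1) ^ 2) * (1 + (1 + t + 1)) := by
    rw [Nat.sub_eq_iff_eq_add (Nat.one_le_pow _ _ (by omega)), Nat.add_sub_cancel]; ring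
  rw [h2]
  have h3 : (1 + t + 1) * ((1 + t + 1 - 1) * (1 + (1 + t + 1) ^ 2) * (1 + (1 + t + 1))) ≠ 0 := by rw [Nat.add_sub_cancel]; positivity
  refine subset_of_subset_of_eq (Nat.primeFactors_mono (h.elim (fun h => h.trans ?_) fun h => h.trans ?_) (pow_ne_zero _ h3))
    (Nat.primeFactors_pow _ (show 12 ≠ 0 by simp))
  · simp only [mul_pow, mul_assoc]
    exact mul_dvd_mul_left _ (mul_dvd_mul (pow_dvd_pow _ (by simp)) ((dvd_pow_self _ (by simp)).mul_right _))
  · simp only [mul_pow, mul_assoc]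
    exact mul_dvd_mul_left _ (mul_dvd_mul (pow_dvd_pow _ (by simp)) ((dvd_pow_self _ (by simp)).mul_left _))

end Cfsg.Agent.S2369
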