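import Cfsg.Statements.S2370
import Cfsg.Agent.H12.Fld
import Cfsg.Agent.H12.TwF4

set_option autoImplicit false
open Cfsg

namespace Cfsg.Agent.S2370
open H12 H13 Cfsg.Lie

/-- Let q = 2^(2m+1) with m ≥ 1. Every element of 2-power order of the large Ree group ²F₄(q) has order at most 32. -/
theorem result {K : Type*} [Field K] [Fintype K] (m : ℕ) (hm : 1 ≤ m) (hK : Fintype.card K = 2 ^ (2 * m + 1))
    (x : ↥(Cfsg.Lie.twistedF4 K (2 ^ m))) (hx : ∃ j : ℕ, orderOf x = 2 ^ j) : orderOf x ≤ 32 := by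
  obtain ⟨_, φ, hφ, h2⟩ := exists_frob2 hK
  obtain ⟨j, hj⟩ := hx
  obtain ⟨g, -, hg⟩ := exists_conj_mem_U 2 ((admF h2 hφ).le x.2).1 (k := j) (by rw [← hj, ← Subgroup.coe_pow, pow_orderOf_eq_one]; rfl)
  have key : ∀ r < (tab chevF4).n, (tab chevF4).n ≤ 2 * r → 1 ≤ sumLt (tab chevF4).l (fun i => (tab chevF4).ca i r * [8, 15, 21, 11].getD i 0) ∧
      sumLt (tab chevF4).l (fun i => (tab chevF4).ca i r * [8, 15, 21, 11].getD i 0) ≤ 11 := by rw [tabF4_eq]; decide +kernel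
  have := pow_eq_one_of_ht 2 (f := Fintype.linearCombination ℤ (toΛ chevF4 [8, 15, 21, 11])) (b := 11) (k := 5)
    (fun r hr => by have := key r r.2 hr; rwa [sumLt_eq] at this) (by decide) hg
  refine Nat.le_of_dvd (by decide) (orderOf_dvd_of_pow_eq_one (Subtype.ext ?_))
  simpa [conj_pow] using this

end Cfsg.Agent.S2370
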