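import Cfsg.Statements.S2371
import Cfsg.Agent.H12.MaxT

set_option autoImplicit false
open Cfsg

namespace Cfsg.Agent.S2371
open H12 H13 Cfsg.Lie

/-- The group G₂(q), q ≥ 3, contains a cyclic subgroup of order q² + q + 1 which is its own centralizer. -/
theorem result {F : Type*} [Field F] [Fintype F] (q : ℕ) (hF : Fintype.card F = q) (hq : 3 ≤ q) :
    ∃ H : Subgroup ↥(Cfsg.Lie.chevG2.group F), IsCyclic ↥H ∧ Nat.card ↥H = q ^ 2 + q + 1 ∧
      Subgroup.centralizer (H : Set ↥(Cfsg.Lie.chevG2.group F)) = H := by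
  have hN : ((q ^ 2 + q + 1 : ℕ) : ℤ) = q ^ 2 + q + 1 := by push_cast; ring
  have := Cyc.exists_cyc' (D := chevG2) (wd := [0, 1, 0, 1]) (V := [[1, 0], [1, -1]]) (a := [[1, 0], [1, -1]]) (b := [-1, -1])
    (by decide +kernel) hAG2 hF (N := q ^ 2 + q + 1) (by
      rw [← Int.natAbs_neg, eq_comm, ← Int.natAbs_natCast (q ^ 2 + q + 1), hN]; congr 1
      change -(_ * ∑ j ∈ Finset.range 2, _ - 1) = _
      simp [Finset.sum_range_succ]; ring) one_ne_zero smithG2 (by decide) (fun r => ?_) (by rw [tabG2_eq]; decide +kernel)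
  · simpa using this
  · refine Reg.not_dvd (C := 2) (by rw [tabG2_eq]; decide +kernel) (by omega) (by norm_num) ?_ r
    change _ * ∑ j ∈ Finset.range 2, _ < _
    rw [hN]; simp only [Finset.sum_range_succ, Finset.sum_range_zero]
    obtain ⟨t, rfl⟩ := Nat.exists_eq_add_of_le hq
    rw [← sub_pos]; push_cast; ring_nf; positivity

end Cfsg.Agent.S2371
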