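import Cfsg.Statements.S2372
import Cfsg.Agent.H12.MaxT

set_option autoImplicit false
open Cfsg

namespace Cfsg.Agent.S2372
open H12 H13 Cfsg.Lie

/-- The group F₄(q) contains a cyclic subgroup of order q⁴ + 1 which is its own centralizer. -/
theorem result {F : Type*} [Field F] [Fintype F] (q : ℕ) (hF : Fintype.card F = q) :
    ∃ H : Subgroup ↥(Cfsg.Lie.chevF4.group F), IsCyclic ↥H ∧ Nat.card ↥H = q ^ 4 + 1 ∧
      Subgroup.centralizer (H : Set ↥(Cfsg.Lie.chevF4.group F)) = H := by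
  have hN : ((q ^ 4 + 1 : ℕ) : ℤ) = q ^ 4 + 1 := by push_cast; ring
  have := Cyc.exists_cyc' (D := chevF4) (wd := [2, 1, 2, 0, 1, 3]) (V := [[1, 0, 0, 0], [0, -1, 1, 0], [-1, 0, 1, -1], [0, -1, 1, -1]])
    (a := [[1, 0, 0, 0], [1, 0, 1, -1], [1, 1, 1, -1], [0, 1, 0, -1]]) (b := [0, 0, 0, -1])
    (by decide +kernel) hAF4 hF (N := q ^ 4 + 1) (by
      rw [← Int.natAbs_neg, eq_comm, ← Int.natAbs_natCast (q ^ 4 + 1), hN]; congr 1
      change -(_ * ∑ j ∈ Finset.range 4, _ - 1) = _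
      simp [Finset.sum_range_succ]; ring) one_ne_zero smithF4 (by decide) (fun r => ?_) (by rw [tabF4_eq]; decide +kernel)
  · simpa using this
  · have h2 : 2 ≤ q := hF ▸ Fintype.one_lt_card
    rcases lt_or_ge q 3 with h | h
    · obtain rfl : q = 2 := by omega
      exact RegQ.not_dvd (by rw [tabF4_eq]; decide +kernel) r
    refine Reg.not_dvd (C := 2) (by rw [tabF4_eq]; decide +kernel) (by omega) (by norm_num) ?_ r
    change _ * ∑ j ∈ Finset.range 4, _ < _
    rw [hN]; simp only [Finset.sum_range_succ, Finset.sum_range_zero]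
    obtain ⟨t, rfl⟩ := Nat.exists_eq_add_of_le h
    rw [← sub_pos]; push_cast; ring_nf; positivity

end Cfsg.Agent.S2372
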