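import Cfsg.Statements.S2374
import Cfsg.Agent.H12.MaxT

set_option autoImplicit false
open Cfsg

namespace Cfsg.Agent.S2374
open H12 H13 Cfsg.Lie

/-- The group E₇(q) (the simple Chevalley group of type E₇) contains a cyclic subgroup of order (q⁴ − q² + 1)(q³ + 1)/gcd(2, q − 1) which is its own centralizer. -/
theorem result {F : Type*} [Field F] [Fintype F] (q : ℕ) (hF : Fintype.card F = q) :
    ∃ H : Subgroup ↥(Cfsg.Lie.chevE7.group F), IsCyclic ↥H ∧ Nat.card ↥H = (q ^ 4 - q ^ 2 + 1) * (q ^ 3 + 1) / Nat.gcd 2 (q - 1) ∧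
      Subgroup.centralizer (H : Set ↥(Cfsg.Lie.chevE7.group F)) = H := by
  have h2 : 2 ≤ q := hF ▸ Fintype.one_lt_card
  have hN : (((q ^ 4 - q ^ 2 + 1) * (q ^ 3 + 1) : ℕ) : ℤ) = (q ^ 4 - q ^ 2 + 1) * (q ^ 3 + 1) := by
    push_cast [Nat.cast_sub (Nat.pow_le_pow_right (show 0 < q by omega) (show 2 ≤ 4 by omega))]; ring
  refine Cyc.exists_cyc' (D := chevE7) (wd := [5, 6, 3, 6, 5, 0, 1, 3, 6, 5, 6, 4, 3, 5, 4, 2, 1])
    (V := [[0, 0, 0, 0, 0, 0, 1], [1, -1, -1, 1, 0, 0, 0], [0, 0, -1, 1, -1, 1, 0], [1, 0, -1, 1, -1, 0, 0], [0, 1, -1, 0, 0, 0, 0], [0, 0, 0, 0, 0, -1, 1], [0, 0, 0, -1, 1, 0, 0]])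
    (a := [[1, 0, -1, 1, 0, -1, 0], [1, 0, -1, 0, 1, -1, -1], [1, 0, -1, 0, 0, -1, -1], [1, 1, -1, -1, 1, -1, -2], [1, 1, -1, -1, 1, -1, -1], [1, 0, 0, 0, 0, -1, 0], [1, 0, 0, 0, 0, 0, 0]])
    (b := [0, 1, -1, -1, 1, 0, -1]) (by decide +kernel) hAE7 hF (by
      rw [← Int.natAbs_neg, eq_comm, ← Int.natAbs_natCast (_ * _), hN]; congr 1
      change -(_ * ∑ j ∈ Finset.range 7, _ - 1) = _
      simp [Finset.sum_range_succ]; ring) two_ne_zero smithE7 (by decide) (fun r => ?_) (by rw [tabE7_eq]; decide +kernel)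
  rcases lt_or_ge q 6 with h | h
  · interval_cases q <;> exact RegQ.not_dvd (by rw [tabE7_eq]; decide +kernel) r
  refine Reg.not_dvd (C := 2) (by rw [tabE7_eq]; decide +kernel) (by omega) (by norm_num) ?_ r
  change _ * ∑ j ∈ Finset.range 7, _ < _
  rw [hN]; simp only [Finset.sum_range_succ, Finset.sum_range_zero]
  obtain ⟨t, rfl⟩ := Nat.exists_eq_add_of_le h
  rw [← sub_pos]; push_cast; ring_nf; positivity

end Cfsg.Agent.S2374
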