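import Cfsg.Statements.S2375
import Cfsg.Agent.H12.MaxT

set_option autoImplicit false
open Cfsg

namespace Cfsg.Agent.S2375
open H12 H13 Cfsg.Lie

/-- The group E₈(q) contains a cyclic subgroup of order q⁸ + q⁷ − q⁵ − q⁴ − q³ + q + 1 which is its own centralizer. -/
theorem result {F : Type*} [Field F] [Fintype F] (q : ℕ) (hF : Fintype.card F = q) :
    ∃ H : Subgroup ↥(Cfsg.Lie.chevE8.group F), IsCyclic ↥H ∧ Nat.card ↥H = q ^ 8 + q ^ 7 - q ^ 5 - q ^ 4 - q ^ 3 + q + 1 ∧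
      Subgroup.centralizer (H : Set ↥(Cfsg.Lie.chevE8.group F)) = H := by
  have h2 : 2 ≤ q := hF ▸ Fintype.one_lt_card
  have hN : ((q ^ 8 + q ^ 7 - q ^ 5 - q ^ 4 - q ^ 3 + q + 1 : ℕ) : ℤ) = q ^ 8 + q ^ 7 - q ^ 5 - q ^ 4 - q ^ 3 + q + 1 := by
    have : q ^ 5 + q ^ 4 + q ^ 3 ≤ q ^ 8 + q ^ 7 := by
      obtain ⟨t, rfl⟩ := Nat.exists_eq_add_of_le h2
      zify; rw [← sub_nonneg]; ring_nf; positivity
    rw [Nat.sub_sub, Nat.sub_sub, ← add_assoc]; push_cast [Nat.cast_sub this]; ring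
  have := Cyc.exists_cyc' (D := chevE8) (wd := [5, 2, 4, 7, 0, 3, 6, 1])
    (V := [[0, 0, 0, 0, 0, 0, 0, 1], [0, 0, 0, 0, 0, 1, -1, 0], [0, -1, 1, 0, 0, 0, 0, 0], [-1, 0, 1, -1, 1, 0, 0, 0], [0, -1, 0, 0, 0, 1, 0, 0], [0, 0, 1, -1, 0, 1, -1, 1], [-1, -1, 1, 0, 0, 1, -1, 0], [0, -1, 1, -1, 1, 0, 0, 0]])
    (a := [[0, 1, 1, 0, 0, 0, -1, 0], [0, 1, 1, 1, 0, 0, -1, -1], [0, 1, 2, 1, 0, 0, -1, -1], [1, 2, 2, 1, 0, -1, -1, -1], [1, 2, 1, 1, 0, -1, -1, 0], [0, 1, 1, 1, 1, 0, -1, -1], [0, 0, 1, 1, 1, 0, -1, -1], [1, 0, 0, 0, 0, 0, 0, 0]])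
    (b := [-1, 0, 1, 1, 1, 0, -1, -1]) (by decide +kernel) hAE8 hF (N := q ^ 8 + q ^ 7 - q ^ 5 - q ^ 4 - q ^ 3 + q + 1) (by
      rw [← Int.natAbs_neg, eq_comm, ← Int.natAbs_natCast (_ + 1), hN]; congr 1
      change -(_ * ∑ j ∈ Finset.range 8, _ - 1) = _
      simp [Finset.sum_range_succ]; ring) one_ne_zero smithE8 (by decide) (fun r => ?_) (by rw [tabE8_eq]; decide +kernel)
  · simpa using this
  rcases lt_or_ge q 3 with h | h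
  · obtain rfl : q = 2 := by omega
    exact RegQ.not_dvd (by rw [tabE8_eq]; decide +kernel) r
  refine Reg.not_dvd (C := 2) (by rw [tabE8_eq]; decide +kernel) (by omega) (by norm_num) ?_ r
  change _ * ∑ j ∈ Finset.range 8, _ < _
  rw [hN]; simp only [Finset.sum_range_succ, Finset.sum_range_zero]
  obtain ⟨t, rfl⟩ := Nat.exists_eq_add_of_le h
  rw [← sub_pos]; push_cast; ring_nf; positivity

end Cfsg.Agent.S2375
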