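import Cfsg.Statements.S2376
import Cfsg.Agent.H12.MaxT

set_option autoImplicit false
open Cfsg

namespace Cfsg.Agent.S2376
open H12 H13 Cfsg.Lie

/-- The group ³D₄(q) contains a cyclic subgroup of order (q³ − 1)(q + 1) which is its own centralizer. -/
theorem result {K : Type*} [Field K] [Fintype K] (q : ℕ) (hq : IsPrimePow q) (hK : Fintype.card K = q ^ 3) :
    ∃ H : Subgroup ↥(Cfsg.Lie.twistedD4 K q), IsCyclic ↥H ∧ Nat.card ↥H = (q ^ 3 - 1) * (q + 1) ∧
      Subgroup.centralizer (H : Set ↥(Cfsg.Lie.twistedD4 K q)) = H := by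
  obtain ⟨p, n, _, _, hn, rfl⟩ := exists_charP hq three_ne_zero hK
  obtain ⟨m, e1, e2, -⟩ := exists_fm4 (locFin_of_algebraic (F := K) (k := AlgebraicClosure K) p) (algebraMap _ _) hK
  have h2 := hq.two_le
  have hp := dvd_pow_self p hn
  rw [← e1] at h2 hp
  rw [show (p ^ n) ^ 3 - 1 = m.q ^ 3 - 1 by rw [e1], show p ^ n + 1 = m.q + 1 by rw [e1]]
  have hN : (((m.q ^ 3 - 1) * (m.q + 1) : ℕ) : ℤ) = (m.q ^ 3 - 1) * (m.q + 1) := by
    push_cast [Nat.cast_sub (Nat.one_le_pow 3 m.q (by omega))]; ring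
  have := Cyc.exists_cyc m (wd := [2, 0, 3, 1, 2, 3, 0]) (V := [[1, 0, 0, 0], [-1, 1, 0, -1], [0, 0, 0, 1], [0, 1, -1, -1]])
    (a := [[1, 0, 0, 0], [1, 1, 1, 0], [1, 1, 0, -1], [0, 0, 1, 0]]) (b := [-1, 0, 1, 1]) (by decide +kernel) hAD4
    (e2 ▸ pl_tw sim_gD4a rfl) hp (N := (m.q ^ 3 - 1) * (m.q + 1)) (by
      rw [eq_comm, ← Int.natAbs_natCast (_ * _), hN]; congr 1
      change (_ * ∑ j : Fin 4, _ - 1) = _
      simp [Fin.sum_univ_succ]; ring) (d := 2) (fun z hz => smithD4.pow_eq_one (by decide) hz) (fun r => ?_) (g := 1) (e := 1) dvd_rfl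
    (one_dvd _) (by rw [tabD4_eq]; decide +kernel) (fun c hc e => ?_) one_ne_zero (by omega)
  · simpa using this
  · generalize m.q = q at *
    rcases lt_or_ge q 5 with h | h
    · interval_cases q <;> exact RegQ.not_dvd (by rw [tabD4_eq]; decide +kernel) r
    refine Reg.not_dvd (C := 2) (by rw [tabD4_eq]; decide +kernel) (by omega) (by norm_num) ?_ r
    change _ * ∑ j ∈ Finset.range 4, _ < _
    rw [hN]; simp only [Finset.sum_range_succ, Finset.sum_range_zero]
    obtain ⟨t, rfl⟩ := Nat.exists_eq_add_of_le h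
    rw [← sub_pos]; push_cast; ring_nf; positivity
  · obtain ⟨a1, a2, a3, a4⟩ := mem_ker4.1 hc
    have b : ∀ i, c (sim_gD4a.nod i) = c i ^ m.q := fun i => by
      have : twP sim_gD4a (Pi.single (sim_gD4a.nod i) 1) = Pi.single i 1 := by revert i; decide
      conv_lhs => rw [← e]
      change tch c (m.P _) ^ _ = _
      rw [e2, this, tch_single]
    have b1 : c (n4 2) = _ := b (n4 0)
    have b3 : c (n4 3) = _ := b (n4 2)
    have b4 : c (n4 0) = _ := b (n4 3)
    have key : c (n4 0) = 1 := by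
      rcases Nat.even_or_odd' m.q with ⟨k, e | e⟩ <;> rw [e] at b1 b3 b4
      · rw [b4, b3, pow_mul (c (n4 2)), a2, one_pow, one_pow]
      · rw [pow_succ, pow_mul, a1, one_pow, one_mul] at b1
        rw [b4, a4, b1, ← sq, a1, one_pow]
    rw [key, one_pow] at b1
    rw [b1, one_pow] at b3
    rw [pow_one]
    funext (i : Fin 4)
    fin_cases i
    exacts [key, a3, b1, b3]

end Cfsg.Agent.S2376
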