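import Cfsg.Statements.S2389
import Cfsg.Agent.H11.ThC

set_option autoImplicit false
open Cfsg

namespace Cfsg.Agent.S2389

/-- In the symplectic group `Sp_{2n}(q)`, `q` a power of the prime `p`, two elements of order prime to `p` with the same characteristic polynomial are conjugate in `Sp_{2n}(q)`. -/
theorem result {F : Type*} [Field F] [Fintype F] (p : ℕ) [Fact p.Prime] [CharP F p] (n : ℕ)
    (g h : ↥(Matrix.symplecticGroup (Fin n) F)) (hg : (orderOf g).Coprime p) (hh : (orderOf h).Coprime p)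
    (hc : (g : Matrix (Fin n ⊕ Fin n) (Fin n ⊕ Fin n) F).charpoly = (h : Matrix (Fin n ⊕ Fin n) (Fin n ⊕ Fin n) F).charpoly) :
    IsConj g h := by
  have h1 : ∀ g : Matrix.symplecticGroup (Fin n) F, (orderOf g).Coprime p →
      H11.SS (H11.PForm.iE (H11.spEquiv n F g)) := fun g hg => (H11.ss_iff_coprime p
      (H11.PForm.isUnit_iE _)).1 (by rwa [H11.PForm.orderOf_iE, MulEquiv.orderOf_eq])
  rw [← H11.isConj_mulEquiv_iff (H11.spEquiv n F)]
  exact H11.PForm.isim_iff_isConj.1 (H11.PForm.symp_isim (H11.stdSymp_nondeg _)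
    (H11.stdSymp_nondeg _) ((h1 g hg).sim_of_charpoly (h1 h hh) (by
      rwa [H11.iE_spEquiv, H11.iE_spEquiv, H11.charpoly_mE, H11.charpoly_mE])) (h1 g hg))

end Cfsg.Agent.S2389
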