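import Cfsg.Statements.S2391
import Cfsg.Agent.H16.PermModule

set_option autoImplicit false
open Cfsg

open Matrix

namespace Cfsg.Agent.S2391

variable {F : Type*} [Field F] {n : ℕ}

/-- The ascending flag of fixed spaces. -/
def fl (U : Subgroup (SpecialLinearGroup (Fin n) F)) : ℕ → Submodule F (Fin n → F)
  | 0 => ⊥
  | i + 1 => ⨅ u ∈ U, (fl U i).comap (mulVecLin (u : Matrix (Fin n) (Fin n) F) - LinearMap.id)

variable {U : Subgroup (SpecialLinearGroup (Fin n) F)}

theorem mem_fl {i : ℕ} {v : Fin n → F} :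
    v ∈ fl U (i + 1) ↔ ∀ u ∈ U, (u : Matrix (Fin n) (Fin n) F) *ᵥ v - v ∈ fl U i := by
  simp [fl]

theorem mv (a : SpecialLinearGroup (Fin n) F) (v : Fin n → F) :
    (a : Matrix (Fin n) (Fin n) F) *ᵥ (a⁻¹ : SpecialLinearGroup (Fin n) F).1 *ᵥ v = v := by
  rw [mulVec_mulVec]
  exact (congrArg (·.1 *ᵥ v) (mul_inv_cancel a)).trans (one_mulVec v)

theorem fl_inv (i : ℕ) : ∀ g ∈ Subgroup.normalizer (U : Set (SpecialLinearGroup (Fin n) F)),
    ∀ v ∈ fl U i, (g : Matrix (Fin n) (Fin n) F) *ᵥ v ∈ fl U i := by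
  induction i with
  | zero => intro g _ v hv; simp [fl] at *; simp [hv]
  | succ i ih =>
    intro g hg v hv
    refine mem_fl.2 fun u hu => ?_
    have := ih g hg _ (mem_fl.1 hv _ ((Subgroup.mem_normalizer_iff''.1 hg u).1 hu))
    rwa [mulVec_sub, show (g⁻¹ * u * g).1 = g⁻¹.1 * u.1 * g.1 from rfl, ← mulVec_mulVec,
      ← mulVec_mulVec, mv] at this

theorem fl_lt [Fintype F] (p : ℕ) [Fact p.Prime] [CharP F p] (hU : IsPGroup p U) (i : ℕ)
    (h : fl U i ≠ ⊤) : fl U i < fl U (i + 1) := by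
  have hi := fun u hu => fl_inv (U := U) i u (Subgroup.le_normalizer hu)
  refine lt_of_le_of_ne (fun v hv => mem_fl.2 fun u hu => sub_mem (hi u hu v hv) hv) fun e => ?_
  let ρ : Representation F U (Fin n → F) :=
    ⟨⟨fun u => mulVecLin ((u : SpecialLinearGroup (Fin n) F) : Matrix (Fin n) (Fin n) F),
      by ext; simp⟩, fun a b => by simp [mulVecLin_mul, Module.End.mul_eq_comp]⟩
  have := Submodule.Quotient.nontrivial_iff.2 h
  obtain ⟨w, -, w0, hw⟩ := H16.exists_fixed_vector hU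
    (ρ.quotient (fl U i) fun u v hv => hi u u.2 v hv) ⊤ (fun _ _ _ => trivial) top_ne_bot
  obtain ⟨w, rfl⟩ := Submodule.Quotient.mk_surjective _ w
  exact w0 ((Submodule.Quotient.mk_eq_zero _).2 (e ▸ mem_fl.2 fun u hu =>
    (Submodule.Quotient.eq _).1 (hw ⟨u, hu⟩)))

/-- The Borel–Tits property of `SL_n(q)` in flag form: for a field `F` of characteristic `p` with finitely many elements and a non-trivial `p`-subgroup `U` of `SL_n(F)`, there is a flag `0 = V₀ < V₁ < ⋯ < V_{k+1} = F^n` with at least one proper non-zero member such that every element of the normaliser of `U` maps each `V_i` onto itself and every element of `U` acts trivially on each quotient `V_{i+1}/V_i` (so the normaliser lies in the parabolic subgroup of the flag and `U` in its unipotent radical). -/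
theorem result {F : Type*} [Field F] [Fintype F] (p : ℕ) [Fact p.Prime] [CharP F p] (n : ℕ)
    (U : Subgroup (Matrix.SpecialLinearGroup (Fin n) F)) (hU : IsPGroup p ↥U) (hne : U ≠ ⊥) :
    ∃ (k : ℕ) (V : Fin (k + 2) → Submodule F (Fin n → F)), 1 ≤ k ∧ StrictMono V ∧ V 0 = ⊥ ∧ V (Fin.last (k + 1)) = ⊤ ∧
      (∀ g ∈ Subgroup.normalizer (U : Set (Matrix.SpecialLinearGroup (Fin n) F)), ∀ i, (V i).map (Matrix.mulVecLin (g : Matrix (Fin n) (Fin n) F)) = V i) ∧
      (∀ u ∈ U, ∀ i : Fin (k + 1), ∀ v ∈ V i.succ, (u : Matrix (Fin n) (Fin n) F).mulVec v - v ∈ V (Fin.castSucc i)) := by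
  classical
  have hex : ∃ i, fl U i = ⊤ := by
    by_contra! h
    exact (not_injective_infinite_finite (fl U))
      (strictMono_nat_of_lt_succ fun i => fl_lt p hU i (h i)).injective
  have h1 : fl U 1 ≠ ⊤ := fun e => hne (eq_bot_iff.2 fun u hu => Subtype.ext (ext_of_mulVec_single
    fun i => (sub_eq_zero.1 (mem_fl.1 (e.ge Submodule.mem_top) u hu)).trans (one_mulVec _).symm))
  have h0 : fl U 0 ≠ ⊤ := fun e => h1 (top_le_iff.1 fun v _ => mem_fl.2 fun u _ => e ▸ trivial)
  obtain ⟨k, hk⟩ : ∃ k, Nat.find hex = k + 2 := by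
    refine ⟨Nat.find hex - 2, (Nat.sub_add_cancel ((Nat.le_find_iff _ _).2 fun m hm => ?_)).symm⟩
    interval_cases m <;> assumption
  refine ⟨k + 1, fun i => fl U i, by omega, Fin.strictMono_iff_lt_succ.2 fun i =>
    fl_lt p hU _ (Nat.find_min hex (by rw [hk]; exact i.castSucc_lt_last)), rfl, by simpa [hk] using Nat.find_spec hex,
    fun g hg i => le_antisymm ?_ fun v hv => ⟨_, fl_inv i _ (inv_mem hg) v hv, ?_⟩,
    fun u hu i v hv => mem_fl.1 hv u hu⟩
  · rintro _ ⟨v, hv, rfl⟩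
    exact fl_inv i g hg v hv
  · exact mv g v

end Cfsg.Agent.S2391
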