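import Cfsg.Statements.S2392
import Cfsg.Agent.H24.LinG

set_option autoImplicit false
open scoped MatrixGroups
open Cfsg

namespace Cfsg.Agent.S2392

open H24 Matrix Module

/-- A lower bound for representations in cross characteristic: for `n ≥ 3` and a field `F` with `q` elements, every homomorphism from `SL_n(F)` to `GL_d(K)`, `K` a field of characteristic different from that of `F`, whose kernel is central has `d ≥ q^(n-1) - 1`. -/
theorem result {F : Type*} [Field F] [Fintype F] {q : ℕ} (hq : Fintype.card F = q) (n : ℕ) (hn : 3 ≤ n)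
    {K : Type*} [Field K] (hK : ringChar K ≠ ringChar F) {d : ℕ}
    (ρ : Matrix.SpecialLinearGroup (Fin n) F →* GL (Fin d) K) (hker : ρ.ker ≤ Subgroup.center (Matrix.SpecialLinearGroup (Fin n) F)) :
    q ^ (n - 1) - 1 ≤ d := by
  classical
  obtain ⟨k, rfl⟩ : ∃ k, n = k + 1 := ⟨n - 1, by omega⟩
  have hK' : ringChar (AlgebraicClosure K) ≠ ringChar F := by rwa [ringChar_closure]
  obtain ⟨ψ, hψ⟩ := exists_addChar_ne_one F _ hK'
  let L := (LinG.ofSL (Fin (k + 1)) F).reindex (finSplit k (by simp))
  have : Nonempty (Fin k) := ⟨⟨0, by omega⟩⟩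
  have hN : L.NT (closureRep ρ) := by
    rw [LinG.reindex_NT]
    by_contra hc
    refine center_SL_ne_top (ι := Fin (k + 1)) (F := F) (by simp; omega) (eq_top_iff.2 fun x _ => hker ?_)
    exact closureRep_eq_one ρ (not_not.1 fun h => hc ⟨x, h⟩)
  have := L.card_sub_one_le (closureRep ρ) hψ (card_ne_zero_of_ringChar_ne F _ hK')
    (Or.inl (by simp; omega)) hN
  simpa [hq] using this

end Cfsg.Agent.S2392
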