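import Cfsg.Statements.S2393
import Cfsg.Agent.H24.MinD2

set_option autoImplicit false
open scoped MatrixGroups
open Cfsg

namespace Cfsg.Agent.S2393

open H24 H11 H11.PForm Module

/-- A lower bound for representations in cross characteristic: for `n ≥ 2` and a field `F` with `q` elements, `q` odd, every homomorphism from the symplectic group `Sp_{2n}(F)` to `GL_d(K)`, `K` a field of characteristic different from that of `F`, whose kernel is central has `d ≥ q^(n-1)(q-1)/2`. -/
theorem result {F : Type*} [Field F] [Fintype F] {q : ℕ} (hq : Fintype.card F = q) (hodd : Odd q) (n : ℕ) (hn : 2 ≤ n)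
    {K : Type*} [Field K] (hK : ringChar K ≠ ringChar F) {d : ℕ}
    (ρ : ↥(Matrix.symplecticGroup (Fin n) F) →* GL (Fin d) K) (hker : ρ.ker ≤ Subgroup.center ↥(Matrix.symplecticGroup (Fin n) F)) :
    q ^ (n - 1) * (q - 1) / 2 ≤ d := by
  subst hq
  have hK' : ringChar (AlgebraicClosure K) ≠ ringChar F := by rwa [ringChar_closure]
  obtain ⟨ψ, hψ⟩ := exists_addChar_ne_one F _ hK'
  have hS := stdSymp_nondeg (F := F) n
  let φ : (stdSymp n F).E ≃* Matrix.symplecticGroup (Fin n) F :=
    ((MulEquiv.subgroupCongr hS.symp_E_eq_top).trans Subgroup.topEquiv).trans (spEquiv n F).symm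
  let ρ' := MonoidHom.comp (closureRep ρ) φ.toMonoidHom
  have hV := finrank_sum_fun (F := F) n
  have h1 : ∃ g, ρ' g ≠ 1 := by
    by_contra hc
    push Not at hc
    obtain ⟨e, f, H⟩ := hS.symp_exists_hyp (by omega)
    refine H.center_E_ne_top hS (symp_rich _ _) le_rfl (eq_top_iff.2 fun x _ => ?_)
    rw [mem_center_iff_equiv φ]
    exact hker (closureRep_eq_one ρ (hc x))
  obtain ⟨u, a, -, h0, -, ha⟩ := exists_transv_ne_one ρ' (by rw [hS.symp_T_eq_top, hS.symp_E_eq_top]) h1
  let E : Pairing F F (AlgebraicClosure K) := Pairing.ofBilin ψ (fun a b => a * b) add_mul mul_add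
    (fun a h => eq_zero_of_forall_addChar_mul hψ fun c => by rw [mul_comm]; exact h c)
    fun a h => eq_zero_of_forall_addChar_mul hψ h
  obtain ⟨b, hb, hb'⟩ := (Act.ofRep ρ' (fun a => ee _ u 0 a) fun a b =>
    Subtype.ext (transv_mul (S := stdSymp n F) (u := u) trivial trivial trivial).symm).exists_W_ne_bot E
    (card_ne_zero_of_ringChar_ne F _ hK') (a := a) ha
  have := symp_D ρ' hS hodd hV h0 (α := fun a => E.e a b) ⟨a, hb⟩ (fun e => hb' (eq_bot_iff.2 (by
    rw [← e]
    exact fun m hm => (mem_WT ρ').2 fun a _ => hm a))) h0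
  obtain ⟨k, hk⟩ := hodd
  rw [hk, show (2 * k + 1 - 1) / 2 = k by omega] at this
  rw [hk, show 2 * k + 1 - 1 = k * 2 by omega, ← mul_assoc, Nat.mul_div_cancel _ two_pos, mul_comm]
  simp only [finrank_fintype_fun_eq_card, Fintype.card_fin] at this
  omega

end Cfsg.Agent.S2393
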