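import Cfsg.Statements.S2394
import Cfsg.Agent.S0245
import Cfsg.Agent.H26.Zsig

set_option autoImplicit false
open scoped MatrixGroups
open Cfsg

namespace Cfsg.Agent.S2394

/-- The smallest degree of a faithful representation of the symplectic group `Sp_{2n}(q)` over its own field `F_q` is `2n`: every injective homomorphism from `Sp_{2n}(F)` to `GL_d(F)`, `F` the field with `q` elements, has `d ≥ 2n`. -/
theorem result {F : Type*} [Field F] [Fintype F] (n : ℕ) {d : ℕ}
    (ρ : ↥(Matrix.symplecticGroup (Fin n) F) →* GL (Fin d) F) (hρ : Function.Injective ρ) : 2 * n ≤ d := by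
  classical
  by_contra hlt
  push Not at hlt
  set q := Fintype.card F with hq
  have hq1 : 1 < q := Fintype.one_lt_card
  have hdvd : Nat.card (Matrix.symplecticGroup (Fin n) F) ∣ Nat.card (GL (Fin d) F) :=
    Subgroup.card_dvd_of_injective ρ hρ
  rw [Cfsg.Agent.S0245.result hq.symm n, Matrix.card_GL_field] at hdvd
  rw [← hq] at hdvd
  have hn : 1 ≤ n := by omega
  by_cases h1 : n = 1
  · subst h1
    have hd : d = 0 ∨ d = 1 := by omega
    have hqd : q ∣ q ^ (1 ^ 2) * ∏ i ∈ Finset.range 1, (q ^ (2 * (i + 1)) - 1) :=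
      Dvd.dvd.mul_right (by simp) _
    have h2 := hqd.trans hdvd
    rcases hd with rfl | rfl
    · simp at h2; omega
    · simp at h2
      omega
  by_cases h6 : q = 2 ∧ n = 3
  · obtain ⟨h2, rfl⟩ := h6
    rw [h2] at hdvd
    have hd : d ≤ 5 := by omega
    interval_cases d <;> simp [Finset.prod_range_succ, Fin.prod_univ_succ] at hdvd
  obtain ⟨r, hr, hr1, hr2⟩ := H26.zsigmondy (a := q) (n := 2 * n) hq1 (by omega)
    (fun h => h6 ⟨h.1, by omega⟩) (fun h => h1 (by omega))
  have hrd : r ∣ q ^ (n ^ 2) * ∏ i ∈ Finset.range n, (q ^ (2 * (i + 1)) - 1) := by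
    refine Dvd.dvd.mul_left (hr1.trans ?_) _
    have := Finset.dvd_prod_of_mem (fun i => q ^ (2 * (i + 1)) - 1)
      (show n - 1 ∈ Finset.range n by simp; omega)
    simpa [Nat.sub_add_cancel hn] using this
  obtain ⟨i, -, hi⟩ := (Prime.dvd_finsetProd_iff hr.prime _).1 (hrd.trans hdvd)
  have hid := i.2
  have e : q ^ d - q ^ (i : ℕ) = q ^ (i : ℕ) * (q ^ (d - i) - 1) := by
    rw [Nat.mul_sub, ← pow_add, mul_one]; congr 2; omega
  rw [e] at hi
  rcases (Nat.Prime.dvd_mul hr).1 hi with h | h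
  · have h3 : r ∣ q ^ (2 * n) := dvd_pow (hr.dvd_of_dvd_pow h) (by omega)
    have h4 : r ∣ q ^ (2 * n) - (q ^ (2 * n) - 1) := Nat.dvd_sub h3 hr1
    have h5 : 1 ≤ q ^ (2 * n) := Nat.one_le_pow _ _ (by omega)
    rw [Nat.sub_sub_self h5] at h4
    exact hr.one_lt.ne' (Nat.dvd_one.1 h4)
  · exact hr2 (d - i) (by omega) (by omega) h

end Cfsg.Agent.S2394
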