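import Cfsg.Statements.S2397
import Cfsg.Agent.H24.StBase

set_option autoImplicit false
open Cfsg

namespace Cfsg.Agent.S2397

open H24 H12 Cfsg.Lie

/-- Over a finite field the relators (R3) h̄_r(t₁) h̄_r(t₂) = h̄_r(t₁ t₂) are consequences of (R1) and (R2): for each of the types G₂, B₂, D₄, F₄, E₆, E₇, E₈ (for types B₂ and G₂ the field must have more than two elements — the cases where the Chevalley group is not simple are set aside) the group presented by (R1), (R2) is canonically isomorphic to the one presented by (R1)–(R3), by an isomorphism matching the generators x̄_r(t). -/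
theorem result {K : Type*} [Field K] [Finite K] (D : Cfsg.Lie.ChevalleyDatum) (hD : D ∈ [Cfsg.Lie.chevG2, Cfsg.Lie.chevB2, Cfsg.Lie.chevD4, Cfsg.Lie.chevF4, Cfsg.Lie.chevE6, Cfsg.Lie.chevE7, Cfsg.Lie.chevE8]) (hK : D ∈ [Cfsg.Lie.chevB2, Cfsg.Lie.chevG2] → ∃ x : K, x ≠ 0 ∧ x ≠ 1) :
    ∃ e : D.SteinbergCover K ≃* D.SteinbergGroup K, ∀ (r : ℕ) (t : K), e (D.scGen K r t) = D.stGen K r t := by
  obtain ⟨G⟩ := good_of_mem hD
  refine ⟨MonoidHom.toMulEquiv (stS D K).lift (r3_of_finite (scS D K)).lift (hom_ext_T scS_T fun r t => by simp)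
    (hom_ext_T stS_T fun r t => by simp), fun r t => ?_⟩
  by_cases hr : r < D.nroots
  · lift r to Φ D using hr
    rw [scGen_eq, stGen_eq]; exact (stS D K).lift_x r t
  · simp [ChevalleyDatum.scGen, ChevalleyDatum.stGen, ChevalleyDatum.stX, hr]

end Cfsg.Agent.S2397
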