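import Cfsg.Statements.S2399
import Cfsg.Agent.H24.StCert

set_option autoImplicit false
open scoped MatrixGroups
open Cfsg

namespace Cfsg.Agent.S2399

open H24 H12 Cfsg.Lie

theorem lift_tf {D : ChevalleyDatum} [Good D] {F Γ E : Type*} [Field F] [Group Γ] [Group E] {S : StSys D F Γ}
    {θ : Γ →* GL D.Idx F} (hθ : S.Cov θ) [Finite Γ] (hp : commutator Γ = ⊤) (C : CE E Γ) (p : ℕ) [Fact p.Prime]
    [CharP F p] (h : ∀ z, C.π z = 1 → z ^ p = 1 → z = 1) : ∃ S' : StSys D F E, ∀ r t, C.π (S'.x r t) = S.x r t := by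
  let C' : CE (commutator E) Γ := ⟨C.π.comp (commutator E).subtype,
    (H21.commutator_perfect_of_central ⟨hp⟩ C.π C.surj C.cent).2, fun z hz => Subgroup.mem_center_iff.2 fun g =>
      Subtype.ext (C.comm_of_ker hz g).symm⟩
  have : (Subgroup.center E).FiniteIndex := Subgroup.finiteIndex_of_le C.cent
  obtain ⟨a, m, h1, h2⟩ := Nat.exists_eq_pow_mul_and_not_dvd (Subgroup.center E).index_ne_zero_of_finite p
    (Fact.out : p.Prime).ne_one
  have key : ∀ (a : ℕ) z, C.π z = 1 → z ^ p ^ a = 1 → z = 1 := fun a => by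
    induction a with
    | zero => simp
    | succ a ih => exact fun z h1 h2 => ih z h1 (h _ (by simp [h1]) (by rw [← pow_mul, ← pow_succ, h2]))
  obtain ⟨S', hS⟩ := exists_stSys_pDiv (C := C') hθ p (C'.pDiv_of_coprime (m := m)
    (((Fact.out : p.Prime).coprime_iff_not_dvd).2 h1) fun z hz => Subtype.ext (key a _ (by
      change C.π z = 1 at hz; simp [hz]) (by
      open scoped IsMulCommutative in
      have := Abelianization.commutator_subset_ker (MonoidHom.transferCenterPow E) z.2
      rw [MonoidHom.mem_ker, Subtype.ext_iff, MonoidHom.transferCenterPow_apply, h2, mul_comm, pow_mul] at this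
      simpa using this)))
  exact ⟨S'.map (commutator E).subtype, hS⟩

/-- Projective representations in the natural characteristic lift: for each of the types G₂, B₂, D₄, F₄, E₆, E₇, E₈ over any field `K` (for types B₂ and G₂ the field must have more than two elements — the cases where the Chevalley group is not simple are set aside), every homomorphism from the Chevalley group to `PGL_n(L) = GL_n(L)/Z`, `L` a field of the same characteristic as `K`, lifts uniquely to a homomorphism from the group Δ presented by (R1), (R2) to `GL_n(L)`, compatibly with the projection Δ → Chevalley group sending x̄_r(t) to x_r(t). -/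
theorem result {K : Type*} [Field K] (D : Cfsg.Lie.ChevalleyDatum) (hD : D ∈ [Cfsg.Lie.chevG2, Cfsg.Lie.chevB2, Cfsg.Lie.chevD4, Cfsg.Lie.chevF4, Cfsg.Lie.chevE6, Cfsg.Lie.chevE7, Cfsg.Lie.chevE8]) (hK : D ∈ [Cfsg.Lie.chevB2, Cfsg.Lie.chevG2] → ∃ x : K, x ≠ 0 ∧ x ≠ 1)
    (θ : D.SteinbergCover K →* ↥(D.group K))
    (hθ : ∀ (r : ℕ) (t : K), r < D.nroots → ((θ (D.scGen K r t) : GL D.Idx K) : Matrix D.Idx D.Idx K) = D.x K r t)
    {L : Type*} [Field L] (hL : ringChar L = ringChar K) {n : ℕ}
    (φ : ↥(D.group K) →* GL (Fin n) L ⧸ Subgroup.center (GL (Fin n) L)) :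
    ∃! ψ : D.SteinbergCover K →* GL (Fin n) L, (QuotientGroup.mk' (Subgroup.center (GL (Fin n) L))).comp ψ = φ.comp θ := by
  obtain ⟨G⟩ := good_of_mem hD
  have hp := perfect_of_T scS_T (perfect_of_mem hD (fun h => hK (by simpa [or_comm] using h)) (scS D K))
  let C : CE (GL (Fin n) L) _ := ⟨QuotientGroup.mk' (Subgroup.center _), QuotientGroup.mk'_surjective _, by simp⟩
  obtain ⟨S', hS⟩ : ∃ S' : StSys D K _, ∀ r t, (C.pull (φ.comp θ)).π (S'.x r t) = (scS D K).x r t := by
    cases finite_or_infinite K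
    · obtain ⟨p, hp'⟩ := CharP.exists K
      have := Fintype.ofFinite K
      have := Fact.mk (CharP.char_is_prime K p)
      have : CharP L p := ringChar.of_eq (hL.trans (ringChar.eq K p))
      refine lift_tf cov_sc hp _ p ?_
      rintro ⟨⟨g, z⟩, h⟩ h1 h2
      change g = 1 at h1
      subst h1
      change φ (θ 1) = QuotientGroup.mk z at h
      rw [map_one, map_one, eq_comm, QuotientGroup.eq_one_iff, Matrix.GeneralLinearGroup.center_eq_range_scalar] at h
      obtain ⟨c, rfl⟩ := h
      have h3 : (Matrix.GeneralLinearGroup.scalar (Fin n) c - 1 : Matrix (Fin n) (Fin n) L) ^ p = 0 := by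
        have h4 : Matrix.GeneralLinearGroup.scalar (Fin n) c ^ p = 1 := congrArg (fun x => x.1.2) h2
        have h5 : (Matrix.GeneralLinearGroup.scalar (Fin n) c - 1 : Matrix (Fin n) (Fin n) L) =
          Matrix.scalar _ ((c : L) - 1) := by rw [map_sub, map_one]; rfl
        have h6 : Matrix.scalar (Fin n) ((c : L) ^ p) = 1 := by rw [map_pow]; exact congrArg Units.val h4
        rw [h5, ← map_pow, sub_pow_char, map_sub, h6]; simp
      refine Subtype.ext (Prod.ext rfl (Units.ext ?_))
      ext i j
      have := congrFun (congrFun h3 i) i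
      change Matrix.scalar (Fin n) (c : L) i j = (1 : Matrix (Fin n) (Fin n) L) i j
      change ((Matrix.scalar (Fin n) (c : L) - Matrix.scalar (Fin n) (1 : L)) ^ p) i i = 0 at this
      rw [← map_sub, ← map_pow] at this
      simp only [Matrix.scalar_apply, Matrix.diagonal_apply_eq, pow_eq_zero_iff', sub_eq_zero] at this
      rw [this.1, map_one]
    · obtain ⟨s, hs⟩ := Infinite.exists_subset_card_eq K 5
      exact lift_of_four_lt hD cov_sc ⟨s, by omega⟩
  obtain ⟨τ, hτ⟩ := C.exists_lift_of_pull (φ.comp θ) (MonoidHom.id _) S'.lift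
    (hom_ext_T scS_T fun r t => by simpa using hS r t)
  exact ⟨τ, hτ, fun τ' h => H21.hom_ext_of_perfect ⟨hp⟩ C.cent (h.trans hτ.symm)⟩

end Cfsg.Agent.S2399
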