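import Cfsg.Statements.S2400
import Cfsg.Agent.H24.StCert

set_option autoImplicit false
open Cfsg

namespace Cfsg.Agent.S2400

open H24 H12 Cfsg.Lie

/-- Over a finite field `K`, the group presented by Steinberg's relators (R1)–(R3) (the universal Chevalley group) of type E₆ or E₇, or of type B₂ or D₄ with `K` of more than two elements, has trivial Schur multiplier: every finite stem extension of it is an isomorphism (Schur multiplier described through stem extensions as in the definitions). Types G₂, F₄ and E₈ are not covered here. -/
theorem result {K : Type*} [Field K] [Fintype K] (e : Cfsg.Lie.ChevalleyDatum × ℕ)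
    (he : e ∈ [(Cfsg.Lie.chevE6, 0), (Cfsg.Lie.chevE7, 0), (Cfsg.Lie.chevB2, 2), (Cfsg.Lie.chevD4, 2)]) (hK : Fintype.card K ≠ e.2) :
    Cfsg.HasCyclicSchurMultiplier (e.1.SteinbergGroup K) 1 := by
  rw [← Nat.card_eq_fintype_card] at hK
  simp only [List.mem_cons, List.not_mem_nil, or_false] at he
  rcases he with rfl | rfl | rfl | rfl
  exacts [(lifts_of (fun _ => twoE6) (fun _ => threeE6) (fun _ => fourE6) bigE6).schur_st,
    (lifts_of (fun _ => twoE7) (fun _ => threeE7) (fun _ => fourE7) bigE7).schur_st,
    (lifts_of (fun h => (hK h).elim) (fun _ => threeB2) (fun _ => fourB2) bigB2).schur_st,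
    (lifts_of (fun h => (hK h).elim) (fun _ => threeD4) (fun _ => fourD4) bigD4).schur_st]

end Cfsg.Agent.S2400
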