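import Cfsg.Statements.S2406
import Cfsg.Agent.H23.G2y

set_option autoImplicit false
open Cfsg

namespace Cfsg.Agent.S2406

open Cfsg.Lie H12 H13 H12.StSys H23.G2

/-- The twisted group ²E₆(q) (realised inside E₆ over the field with `q²` elements) is generated by two of its elements. -/
theorem result {K : Type*} [Field K] [Fintype K] {q : ℕ} (hq : IsPrimePow q) (hK : Fintype.card K = q ^ 2) :
    ∃ a b : ↥(Cfsg.Lie.twistedE6 K q), Subgroup.closure ({a, b} : Set ↥(Cfsg.Lie.twistedE6 K q)) = ⊤ := by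
  obtain ⟨φ, hφ⟩ := exists_frob hq two_ne_zero hK
  have hq2 := q_pos6 hφ hK
  have hG := (adm6 hφ hK).G1
  rw [eq6 hφ hK]
  have o1 := orb6 [n6 1] (by simp)
  have o3 := orb6 [n6 3] (by simp)
  have o0 := orb6 [n6 0, n6 5] (by simp)
  have o2 := orb6 [n6 2, n6 4] (by simp)
  obtain ⟨n, n1, n2⟩ := hG.exists_rep cov_ad (w := wp [n6 1, n6 3, n6 2, n6 4, n6 0, n6 5]) (by
    have := mul_mem (mul_mem (mul_mem o1.inv.w0J_mem o3.inv.w0J_mem) o2.inv.w0J_mem) o0.inv.w0J_mem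
    rwa [o1.orth.w0J_eq, o2.orth.w0J_eq, o3.orth.w0J_eq, o0.orth.w0J_eq, ← InvGen.wp_append, ← InvGen.wp_append, ← InvGen.wp_append] at this)
  have hn := n2.act
  obtain ⟨ζ, hζ, -⟩ := H11.exists_prim K
  have hc : Nat.card K = q ^ 2 := by rw [Nat.card_eq_fintype_card, hK]
  let c : I chevE6 → Kˣ := fun j => if j = n6 0 then ζ else ζ ^ q
  have h0 := TwF.h_mem_G1 (τ := tw6 φ) o0.orth o0.inv (c := c) (by
    simpa only [c, apply_ite Units.val, Units.val_pow_eq_pow_val] using cp6 hφ hK π6.1 π6.2.2.2.2.2 (by decide) ζ)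
  have h0' := prod_mem_H (S := adS chevE6 K) [n6 0, n6 5] c
  obtain ⟨h1, h2⟩ := conj_pow_mem hn n1 h0' h0 1
  have s0 := sc_val' hn [n6 0, n6 5] c 1 (sim (n6 1)) (E := [-1, -1]) (by rw [tabE6_eq]; decide +kernel)
  have s1 := sc_val' hn [n6 0, n6 5] c 0 (sim (n6 1)) (E := [0, 0]) (by rw [tabE6_eq]; decide +kernel)
  have s2 := sc_val' hn [n6 0, n6 5] c 0 (sim (n6 2)) (E := [-1, 0]) (by rw [tabE6_eq]; decide +kernel)
  have s3 := sc_val hn [n6 0, n6 5] c 0 1 (sim (n6 2)) (E := [0, 1]) (by rw [tabE6_eq]; decide +kernel)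
  have hα : orderOf ζ⁻¹ = Nat.card K - 1 := by rw [orderOf_inv, hζ]
  have hα1 : ζ ≠ 1 := fun e => by
    rw [e, orderOf_one, hc] at hζ; have := Nat.pow_le_pow_left hq2 2; omega
  obtain ⟨x, hx⟩ := Rr.one (τ := tw6 φ) (O := [n6 1]) (i := n6 1)
  obtain ⟨y, hy⟩ := Rr.one (τ := tw6 φ) (O := [n6 2, n6 4]) (i := n6 2)
  refine gen2_sub (mul_mem (hx.mem_G1 o1) h0) (mul_mem (hy.mem_G1 o2) n1) fun L hL ha hb => ?_
  obtain ⟨k1, k2, k3⟩ := core cov_ad r3_ad o1 (by simp) Rr.zero (Rr.add o2) (Rr.neg o2)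
    (fun k h h' a => Rr.conj cov_ad o2 (by simp) h h') hn (Tw.G1_le_fix n1) h0' (Tw.G1_le_fix h0) (by simpa using s1)
    (α := (ζ⁻¹ : Kˣ)) (β := φ ζ) (by simpa [c, n6_inj] using s2)
    (by simpa [c, n6_inj, hφ] using s3) (by simpa using H11.gen_pow hα (m := 1) (by simp)) (mt Units.val_eq_one.1 (inv_ne_one.2 hα1))
    (by rw [Ne, map_eq_one_iff _ φ.injective]; exact mt Units.val_eq_one.1 hα1) hx hy ha hb
  have u2 := Rr.U_le cov_ad o2 (by simp) fun c _ => k3 (c (n6 2))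
  have k4 : n ∈ L := by simpa using mul_mem (inv_mem (u2 (hy.mem cov_ad o2))) hb
  have u1 := U_le_fix cov_ad o1 hx k1 h1 (Tw.G1_le_fix h2) (pow_conj_mem k4 k2 1)
    (a := (((ζ⁻¹ : Kˣ) : K) ^ (1 + q))) (by simpa [c, n6_inj, pow_add, mul_comm] using s0) fun v h0 hv =>
      fix_pow hα hq2 (by rw [hc]; zify [Nat.one_le_pow _ _ (two_pos.trans_le hq2), one_le_two.trans hq2]; ring) h0
        (by rw [← hφ, ← tw6_ψ φ (n6 1), hv])
  have le := hL.trans Tw.G1_le_fix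
  have u3 := gen_fix_le le (act_pow hn 1) (pow_mem k4 1) (inv_of_chk (f := id) (f' := id) o3.orth o1.orth (fun _ => rfl) (by rw [tabE6_eq]; decide +kernel)) u1
  have u0 := gen_fix_le le (act_pow hn 1) (pow_mem k4 1) (inv_of_chk (f := id) (f' := id) o0.orth o2.orth (fun _ => rfl) (by rw [tabE6_eq]; decide +kernel)) u2
  refine adm_of hG cov_ad hL (act_pow hn 6) (pow_mem k4 6) (fun i => ?_) fun i => ?_ <;> obtain ⟨O, hO, hi⟩ := exists_orb6 i <;>
    rw [(orb6 O hO).orb i hi] <;> simp only [List.mem_cons (a := O), List.not_mem_nil, or_false] at hO <;> rcases hO with rfl | rfl | rfl | rfl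
  exacts [u1, u3, u0, u2, inv_of_chk o1.orth o1.orth ng_val (by rw [tabE6_eq]; decide +kernel),
    inv_of_chk o3.orth o3.orth ng_val (by rw [tabE6_eq]; decide +kernel), inv_of_chk o0.orth o0.orth ng_val (by rw [tabE6_eq]; decide +kernel),
    inv_of_chk o2.orth o2.orth ng_val (by rw [tabE6_eq]; decide +kernel)]

end Cfsg.Agent.S2406
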