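import Cfsg.Statements.S2407
import Cfsg.Agent.H23.G2y

set_option autoImplicit false
open Cfsg

namespace Cfsg.Agent.S2407

open Cfsg.Lie H12 H13 H12.StSys H23.G2

/-- The twisted group ³D₄(q) (realised inside D₄ over the field with `q³` elements) is generated by two of its elements. -/
theorem result {K : Type*} [Field K] [Fintype K] {q : ℕ} (hq : IsPrimePow q) (hK : Fintype.card K = q ^ 3) :
    ∃ a b : ↥(Cfsg.Lie.twistedD4 K q), Subgroup.closure ({a, b} : Set ↥(Cfsg.Lie.twistedD4 K q)) = ⊤ := by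
  obtain ⟨φ, hφ⟩ := exists_frob hq three_ne_zero hK
  have hq2 := q_pos4 hK
  have hG := (adm4 hφ hK).G1
  rw [eq4 hφ hK]
  have o1 := orb4 [n4 1] (by simp)
  have o2 := orb4 [n4 0, n4 2, n4 3] (by simp)
  obtain ⟨n, n1, n2⟩ := hG.exists_rep cov_ad (w := wp [n4 0, n4 2, n4 3, n4 1]) (by
    have := mul_mem o2.inv.w0J_mem o1.inv.w0J_mem
    rwa [o1.orth.w0J_eq, o2.orth.w0J_eq, ← InvGen.wp_append] at this)
  have hn := n2.act
  obtain ⟨ζ, hζ, -⟩ := H11.exists_prim K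
  have hc : Nat.card K = q ^ 3 := by rw [Nat.card_eq_fintype_card, hK]
  let c : I chevD4 → Kˣ := fun j => if j = n4 0 then ζ else if j = n4 2 then ζ ^ q else ζ ^ q ^ 2
  have h0 := TwF.h_mem_G1 (τ := tw4 φ) o2.orth o2.inv (c := c) (by simpa only [c, apply_ite Units.val, Units.val_pow_eq_pow_val] using cp4 hφ hK ζ)
  have h0' := prod_mem_H (S := adS chevD4 K) [n4 0, n4 2, n4 3] c
  obtain ⟨h1, h2⟩ := conj_pow_mem hn n1 h0' h0 1
  have s0 := sc_val' hn [n4 0, n4 2, n4 3] c 0 (sim (n4 1)) (E := [-1, -1, -1]) (by rw [tabD4_eq]; decide +kernel)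
  have s1 := sc_val' hn [n4 0, n4 2, n4 3] c 1 (sim (n4 1)) (E := [0, 0, 0]) (by rw [tabD4_eq]; decide +kernel)
  have s2 := sc_val' hn [n4 0, n4 2, n4 3] c 1 (sim (n4 0)) (E := [-1, 1, 1]) (by rw [tabD4_eq]; decide +kernel)
  have s3 := sc_val hn [n4 0, n4 2, n4 3] c 1 1 (sim (n4 0)) (E := [1, -1, -1]) (by rw [tabD4_eq]; decide +kernel)
  have f3 : ∀ a : Kˣ, ((a ^ q) ^ q) ^ q = a := fun a => Units.ext (by simpa [sq, pow_mul] using pow_cube4 hK (a : K))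
  have hα : orderOf (ζ⁻¹ * (ζ ^ q * ζ ^ q ^ 2)) = Nat.card K - 1 := by
    refine prim_map hζ ((invMonoidHom : Kˣ →* Kˣ) * (powMonoidHom q * powMonoidHom (q ^ 2))) fun a ha => ?_
    have e1 : a⁻¹ * (a ^ q * (a ^ q) ^ q) = 1 := by simpa [sq, pow_mul] using ha
    have e2 := congrArg (· ^ q) e1
    have e3 := congrArg (· ^ q) e2
    simp only [mul_pow, inv_pow, f3, one_pow] at e2 e3
    have e4 : a * a = 1 := by
      calc _ = ((a ^ q)⁻¹ * ((a ^ q) ^ q * a)) * (((a ^ q) ^ q)⁻¹ * (a * a ^ q)) := by simp [mul_comm, mul_left_comm, mul_assoc]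
        _ = 1 := by rw [e2, e3, one_mul]
    have e5 : a ^ q = a := Units.ext (by
      rw [Units.val_pow_eq_pow_val, ← hφ]
      rcases mul_self_eq_one_iff.1 (show (a : K) * a = 1 by simpa using congrArg Units.val e4) with h | h <;> simp [h])
    simpa [e5] using e1
  have hα1 : ζ⁻¹ * (ζ ^ q * ζ ^ q ^ 2) ≠ 1 := fun e => by
    rw [e, orderOf_one, hc] at hα; have := Nat.pow_le_pow_left hq2 3; omega
  obtain ⟨x, hx⟩ := Rr.one (τ := tw4 φ) (O := [n4 1]) (i := n4 1)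
  obtain ⟨y, hy⟩ := Rr.one (τ := tw4 φ) (O := [n4 0, n4 2, n4 3]) (i := n4 0)
  refine gen2_sub (mul_mem (hx.mem_G1 o1) h2) (mul_mem (hy.mem_G1 o2) n1) fun L hL ha hb => ?_
  obtain ⟨k1, k2, k3⟩ := core cov_ad r3_ad o1 (by simp) Rr.zero (Rr.add o2) (Rr.neg o2)
    (fun k h h' a => Rr.conj cov_ad o2 (by simp) h h') hn (Tw.G1_le_fix n1) h1 (Tw.G1_le_fix h2) (by simpa using s1)
    (α := (ζ⁻¹ * (ζ ^ q * ζ ^ q ^ 2) : Kˣ)) (β := ((ζ⁻¹ * (ζ ^ q * ζ ^ q ^ 2))⁻¹ : Kˣ)) (by simpa [c, n4_inj] using s2)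
    (by simpa [c, n4_inj, mul_comm] using s3) (by simpa using H11.gen_pow hα (m := 1) (by simp)) (mt Units.val_eq_one.1 hα1)
    (mt Units.val_eq_one.1 (inv_ne_one.2 hα1)) hx hy ha hb
  have u2 := Rr.U_le cov_ad o2 (by simp) fun c _ => k3 (c (n4 0))
  have k4 : n ∈ L := by simpa using mul_mem (inv_mem (u2 (hy.mem cov_ad o2))) hb
  have u1 := U_le_fix cov_ad o1 hx k1 h0' (Tw.G1_le_fix h0) (by simpa [mul_assoc] using mul_mem (mul_mem (inv_mem k4) k2) k4)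
    (a := (((ζ⁻¹ : Kˣ) : K) ^ (1 + q + q ^ 2))) (by simpa [c, n4_inj, pow_add, mul_comm, mul_left_comm, mul_assoc] using s0) fun v h0 hv =>
      fix_pow (by rw [orderOf_inv, hζ]) hq2 (by rw [hc]; zify [Nat.one_le_pow _ _ (two_pos.trans_le hq2), one_le_two.trans hq2]; ring) h0
        (by rw [← hφ, ← tw4_ψ φ (n4 1), hv])
  refine adm_of hG cov_ad hL (act_pow hn 3) (pow_mem k4 3) (fun i => ?_) fun i => ?_ <;> obtain ⟨O, hO, hi⟩ := exists_orb4 i <;>
    rw [(orb4 O hO).orb i hi] <;> simp only [List.mem_cons (a := O), List.not_mem_nil, or_false] at hO <;> rcases hO with rfl | rfl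
  exacts [u1, u2, inv_of_chk o1.orth o1.orth ng_val (by rw [tabD4_eq]; decide +kernel),
    inv_of_chk o2.orth o2.orth ng_val (by rw [tabD4_eq]; decide +kernel)]

end Cfsg.Agent.S2407
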