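import Cfsg.Statements.S2408
import Cfsg.Agent.H23.G2y

set_option autoImplicit false
open Cfsg

namespace Cfsg.Agent.S2408

open Cfsg.Lie H12 H13 H12.StSys H23.G2

/-- The large Ree group ²F₄(2^(2m+1)) with `m ≥ 1` is generated by two of its elements. -/
theorem result {K : Type*} [Field K] [Fintype K] {m : ℕ} (hm : 1 ≤ m) (hK : Fintype.card K = 2 ^ (2 * m + 1)) :
    ∃ a b : ↥(Cfsg.Lie.twistedF4 K (2 ^ m)), Subgroup.closure ({a, b} : Set ↥(Cfsg.Lie.twistedF4 K (2 ^ m))) = ⊤ := by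
  obtain ⟨_, φ, hφ, h2⟩ := exists_frob2 hK
  have hG := (admF h2 hφ).G1
  rw [eqF h2 hφ]
  have o1 := orbF1
  obtain ⟨n, n1, n2⟩ := hG.exists_rep cov_ad (w := wp [nF 0, nF 3, nF 1, nF 2, nF 1, nF 2]) (by
    have := mul_mem o1.inv.w0J_mem (RF.inv_orb (nF 1)).w0J_mem
    rwa [orbF2 _ (by simp), w0F1, w0F2, ← InvGen.wp_append] at this)
  have hn := n2.act
  obtain ⟨ζ, hζ, -⟩ := H11.exists_prim K
  have hc : 8 ≤ Nat.card K := by
    rw [Nat.card_eq_fintype_card, hK]; exact Nat.pow_le_pow_right two_pos (show 3 ≤ 2 * m + 1 by omega)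
  let c : I chevF4 → Kˣ := fun j => if j = nF 0 then Units.map (φ : K →* K) ζ else ζ
  have h0 := TwF.h_mem_G1 (τ := twF φ) o1.orth o1.inv (c := c) (by simpa [c, apply_ite] using cpF h2 (ζ : K))
  have h0' := prod_mem_H (S := adS chevF4 K) [nF 0, nF 3] c
  obtain ⟨h1, h3⟩ := conj_pow_mem hn n1 h0' h0 2
  have s0 := sc_val' hn [nF 0, nF 3] c 0 (sim (nF 3)) (E := [0, 2]) (by rw [tabF4_eq]; decide +kernel)
  have s1 := sc_val' hn [nF 0, nF 3] c 2 (sim (nF 3)) (E := [0, 0]) (by rw [tabF4_eq]; decide +kernel)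
  have s2 := sc_val' hn [nF 0, nF 3] c 2 (rF 25) (E := [2, -1]) (by rw [tabF4_eq]; decide +kernel)
  have s3 := sc_val hn [nF 0, nF 3] c 2 1 (rF 25) (E := [0, 1]) (by rw [tabF4_eq]; decide +kernel)
  have hα : orderOf (Units.map (φ : K →* K) ζ ^ 2 * ζ⁻¹) = Nat.card K - 1 := by
    refine prim_map hζ ((powMonoidHom 2).comp (Units.map (φ : K →* K)) * (invMonoidHom : Kˣ →* Kˣ)) fun a ha => ?_
    have e1 : φ a ^ 2 = a := by simpa [mul_inv_eq_one₀ a.ne_zero] using congrArg Units.val ha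
    have e2 := congrArg φ e1
    rw [map_pow, h2] at e2
    rw [← e2, sq] at e1
    exact Units.ext (mul_left_cancel₀ a.ne_zero (e1.trans (mul_one _).symm))
  have ne : ∀ a : Kˣ, orderOf a = Nat.card K - 1 → (a : K) ≠ 1 := fun a h e => by
    rw [Units.val_eq_one.1 e, orderOf_one] at h; omega
  obtain ⟨x, hx⟩ := Rr.one (τ := twF φ) (O := [nF 0, nF 3]) (i := nF 3)
  have sz := szF h2
  refine gen2_sub (mul_mem (hx.mem_G1 o1) h3) (mul_mem (yF_mem h2 1 0) n1) fun L hL ha hb => ?_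
  obtain ⟨k1, k2, k3⟩ := core cov_ad r3_ad o1 (by simp) (Q := fun v x => ∃ u, x = yF φ v u) ⟨0, Sz.y_zero.symm⟩
    (by rintro _ _ _ _ ⟨u, rfl⟩ ⟨u', rfl⟩; exact ⟨_, sz.y_mul ..⟩) (by rintro _ _ ⟨u, rfl⟩; exact ⟨_, by rw [CharTwo.neg_eq, sz.y_inv]⟩)
    (s := rF 25) (by
      rintro k h h' a ha v _ ⟨u, rfl⟩
      have hy := (mem_UF2 h2).2 ⟨v, u, rfl⟩
      obtain ⟨t', u', e⟩ := (mem_UF2 h2).1 (Subgroup.mem_inf.2 ⟨conj_mem_of_normalizer (H_le_normalizer _ h) hy.1,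
        mul_mem (mul_mem h' hy.2) (inv_mem h')⟩)
      obtain ⟨χ, hχ, -⟩ := exists_char_of_mem_H h
      have e2 : k * yF φ v u * k⁻¹ = (adS chevF4 K).q4 (rF 27) (rF 25) (rF 28) (rF 30) (χ (rc (rF 27)) * φ v) (a * v)
          (χ (rc (rF 28)) * (φ v * v + u)) (χ (rc (rF 30)) * φ u ^ 2) := by
        rw [q4, ← hχ, ← hχ, ← hχ, ← ha, yF, szY, q4]; group
      exact ⟨u', (sz.q4_inj cov_ad (f := fl) (isPos_iff_fl.1 (by decide +kernel)) (isPos_iff_fl.1 (by decide +kernel)) (e2.symm.trans e)).2.1 ▸ e⟩)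
    hn (Tw.G1_le_fix n1) h1 (Tw.G1_le_fix h3) (by simpa using s1)
    (α := (Units.map (φ : K →* K) ζ ^ 2 * ζ⁻¹ : Kˣ)) (β := ζ) (by simpa [c, nF_inj, zpow_ofNat] using s2)
    (by simpa [c, nF_inj] using s3) (by simpa using H11.gen_pow hα (m := 1) (by simp)) (ne _ hα) (ne _ hζ) hx ⟨0, rfl⟩ ha hb
  have sj : Function.Surjective fun t : K => φ t * t := Finite.surjective_of_injective fun t t' e => by
    have e : φ t * t = φ t' * t' := e
    by_cases h : t' = 0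
    · simpa [h] using e
    have e1 : φ (t / t') * (t / t') = 1 := by rw [map_div₀, div_mul_div_comm, e, div_self (by simp [h])]
    have e2 := congrArg (fun z => φ z ^ 2) e1
    simp only [map_mul, mul_pow, h2, map_one, one_pow] at e2
    have e3 : φ (t / t') = 1 := by linear_combination e2 - φ (t / t') * e1
    rwa [map_eq_one_iff _ φ.injective, div_eq_one_iff_eq h] at e3
  have u2 : (adS chevF4 K).Um (w0J {j | j ∈ [nF 1, nF 2]}) ⊓ (twF φ).Fix ≤ L := fun g hg => by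
    obtain ⟨t, u, rfl⟩ := (mem_UF2 h2).1 hg
    obtain ⟨_, a1, u0, rfl⟩ := k3 t
    obtain ⟨t', e⟩ := sj (u - u0)
    obtain ⟨_, a2, u', rfl⟩ := k3 t'
    have := mul_mem a1 (mul_mem a2 a2)
    rw [sz.y_mul, sz.y_mul, CharTwo.add_self_eq_zero, CharTwo.add_self_eq_zero, show φ t' * t' = u - u0 from e] at this
    simpa using this
  have k4 : n ∈ L := by simpa using mul_mem (inv_mem (u2 ((mem_UF2 h2).2 ⟨1, 0, rfl⟩))) hb
  have k5 := (L.mul_mem_cancel_left (pow_mem k4 2)).1 ((L.mul_mem_cancel_right (inv_mem (pow_mem k4 2))).1 k2)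
  have u1 := Rr.U_le (τ := twF φ) (i := nF 3) (K := L) cov_ad o1 (by simp) fun d _ =>
    all_of_gen (P := fun v => ∃ x ∈ L, Rr (twF φ) [nF 0, nF 3] (nF 3) v x) (H11.gen_pow hζ (m := 2) (by simp)) ⟨1, one_mem _, Rr.zero⟩
      (by rintro u v ⟨z, h1, h2⟩ ⟨z', h3, h4⟩; exact ⟨_, mul_mem h1 h3, Rr.add o1 _ _ _ _ h2 h4⟩)
      (by rintro u ⟨z, h1, h2⟩; exact ⟨_, mul_mem (mul_mem k5 h1) (inv_mem k5),
            Rr.conj cov_ad o1 (by simp) h0' (Tw.G1_le_fix h0) (by simpa [c, nF_inj, zpow_ofNat] using s0) _ _ h2⟩)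
      one_ne_zero ⟨x, k1, hx⟩ _
  have tb : ∀ r < 48, (runW (tab chevF4) ([nF 0, nF 3, nF 1, nF 2, nF 1, nF 2].map Fin.val))^[4] ((tab chevF4).ng r) = r := by
    rw [tabF4_eq]; decide +kernel
  refine adm_of hG cov_ad hL (act_pow hn 4) (pow_mem k4 4) (fun i => ?_) fun i r hr => ?_
  · rcases orbF_cases i with h | h
    exacts [o1.orb i h ▸ u1, orbF2 i h ▸ u2]
  · rwa [show (wp [nF 0, nF 3, nF 1, nF 2, nF 1, nF 2] ^ 4)⁻¹ • ng r = r from Fin.ext ((run_iter _ _ _).symm.trans (tb r r.2))]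

end Cfsg.Agent.S2408
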