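import Cfsg.Statements.S2409
import Cfsg.Agent.H13.ReeTori2

set_option autoImplicit false
open Cfsg

namespace Cfsg.Agent.S2409

open H13 H13.Ree

/-- The small Ree group ²G₂(3^(2m+1)) with `m ≥ 1` is generated by two of its elements. -/
theorem result {K : Type*} [Field K] [Fintype K] {m : ℕ} (hm : 1 ≤ m) (hK : Fintype.card K = 3 ^ (2 * m + 1)) :
    ∃ a b : ↥(Cfsg.Lie.twistedG2 K (3 ^ m)), Subgroup.closure ({a, b} : Set ↥(Cfsg.Lie.twistedG2 K (3 ^ m))) = ⊤ := by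
  haveI : H13.Ree.IsRee K m := ⟨hK⟩
  obtain ⟨a, ha⟩ := exists_zpowers (H K m)
  refine ⟨a, u m 1 0 0 * w K m, ?_⟩
  set D := Subgroup.closure ({a, u m 1 0 0 * w K m} : Set (R K m))
  have hH : H K m ≤ D := ha ▸ Subgroup.zpowers_le.2 (Subgroup.subset_closure (Or.inl rfl))
  have hb : u m 1 0 0 * w K m ∈ D := Subgroup.subset_closure (Or.inr rfl)
  obtain ⟨s, h1, -⟩ := exists_unit (K := K) hm
  have h2 := mul_mem (mul_mem (mul_mem hb (hH (h_mem_H s⁻¹))) (inv_mem hb)) (inv_mem (hH (h_mem_H s)))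
  rw [mul_inv_rev, w_inv, mul_assoc (u m 1 0 0), mul_assoc (u m 1 0 0), ← mul_assoc _ (w K m), w_h_w, inv_inv,
    mul_assoc, u_inv, h_conj_u, u_mul_u] at h2
  have hU := U_le_of_H_le hm hH (fun e => h1 (Units.ext (by rw [Units.val_one]; linear_combination -e))) h2
  rw [eq_top_iff]
  intro g _
  exact induction_on (p := (· ∈ D)) (fun _ _ _ => hU (u_mem_U _ _ _)) (fun s => hH (h_mem_H s))
    ((D.mul_mem_cancel_left (hU (u_mem_U _ _ _))).1 hb) (fun _ _ => mul_mem) g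

end Cfsg.Agent.S2409
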