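import Cfsg.Statements.S2410
import Cfsg.Agent.H13.SzSub2

set_option autoImplicit false
open Cfsg

namespace Cfsg.Agent.S2410

/-- The Suzuki group over the field with `2^(2m+1)` elements, `m ≥ 1` (realised as the stabiliser in `SL₄` of the Suzuki–Tits ovoid), is generated by two of its elements. -/
theorem result {F : Type*} [Field F] [Fintype F] {m : ℕ} (hm : 1 ≤ m) (hF : Fintype.card F = 2 ^ (2 * m + 1)) :
    ∃ a b : ↥(Cfsg.Sz F m), Subgroup.closure ({a, b} : Set ↥(Cfsg.Sz F m)) = ⊤ := by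
  have : H13.Sz.IsSz F m := ⟨hm, hF⟩
  obtain ⟨x₁, -, h₁, -, c₁, -, n₁, -, -⟩ := H13.Sz.exists_tori (F := F) (m := m)
  have := h₁.isCyclic
  obtain ⟨⟨a, ha⟩, hgen⟩ := IsCyclic.exists_generator (α := Subgroup.centralizer {x₁})
  have ho : orderOf a = Fintype.card F + 2 ^ (m + 1) + 1 := by
    rw [← c₁, ← orderOf_eq_card_of_forall_mem_zpowers hgen]
    exact (Subgroup.orderOf_mk _ ha).symm
  have hpos : 0 < 2 ^ (m + 1) := by positivity
  generalize 2 ^ (m + 1) = r at *
  have ha1 : a ≠ 1 := by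
    rintro rfl
    rw [orderOf_one] at ho
    have := H13.Sz.eight_le_card (F := F)
    omega
  have hae := h₁.of_mem_centralizer ha ha1
  have hne : Subgroup.normalizer (Subgroup.centralizer {a} : Set (Cfsg.Sz F m)) ≠ ⊤ := by
    intro h
    have := hae.tor.isSolvable_normalizer
    rw [h] at this
    exact H13.Sz.not_isSolvable
      (Group.isSolvable_of_surjective (f := (⊤ : Subgroup (Cfsg.Sz F m)).subtype)
        fun x => ⟨⟨x, trivial⟩, rfl⟩)
  obtain ⟨b, -, hb⟩ := SetLike.exists_of_lt (lt_top_iff_ne_top.mpr hne)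
  have haM : a ∈ Subgroup.closure ({a, b} : Set ↥(Cfsg.Sz F m)) := Subgroup.subset_closure (by simp)
  have hbM : b ∈ Subgroup.closure ({a, b} : Set ↥(Cfsg.Sz F m)) := Subgroup.subset_closure (by simp)
  refine ⟨a, b, H13.Sz.eq_top_of_orderOf (fun hS => ?_) haM (by omega)⟩
  rcases H13.Sz.local_of_isSolvable hS with ⟨p, hp⟩ | ⟨z, -, hz, h⟩
  · exact hae p (hp haM)
  · apply hb
    rw [hz.centralizer_eq (hz.mem_of_mem_normalizer hae.tor (h haM)) ha1]
    exact h hbM

end Cfsg.Agent.S2410
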