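import Cfsg.Statements.S2416
import Cfsg.Agent.H12.GenW

set_option autoImplicit false
open scoped MatrixGroups
open Cfsg

namespace Cfsg.Agent.S2416
open H12 H13 Cfsg.Lie

/-- A Chevalley group of type G₂, B₂, D₄, F₄, E₆, E₇ or E₈ over a finite field lies in (indeed equals) the subgroup generated by its monomial subgroup `N` and a single fundamental root subgroup `X_p`, where `p` is a short fundamental root if there are two root lengths (any fundamental root otherwise), provided the characteristic is not 2 for types B₂, F₄ and not 3 for type G₂ (and the field has more than two elements for B₂, G₂). -/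
theorem result {K : Type*} [Field K] [Finite K] (D : Cfsg.Lie.ChevalleyDatum) (hD : D ∈ [Cfsg.Lie.chevG2, Cfsg.Lie.chevB2, Cfsg.Lie.chevD4, Cfsg.Lie.chevF4, Cfsg.Lie.chevE6, Cfsg.Lie.chevE7, Cfsg.Lie.chevE8])
    (hK : D ∈ [Cfsg.Lie.chevB2, Cfsg.Lie.chevG2] → ∃ x : K, x ≠ 0 ∧ x ≠ 1)
    (h2 : D ∈ [Cfsg.Lie.chevB2, Cfsg.Lie.chevF4] → ringChar K ≠ 2) (h3 : D = Cfsg.Lie.chevG2 → ringChar K ≠ 3)
    (i : ℕ) (hi : i < D.rank) (hshort : D.isLong (D.simple i) = false) :
    D.group K ≤ D.monomialSubgroup K ⊔ D.rootSubgroup K (D.simple i) := by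
  have h4 : ∀ p : ℕ, p.Prime → ringChar K ≠ p → (p : K) ≠ 0 := fun p hp h e =>
    h (((Nat.dvd_prime hp).1 ((ringChar.spec K p).1 e)).resolve_left (CharP.char_ne_one K _))
  simp only [List.mem_cons, List.not_mem_nil, or_false] at hD h2
  rcases hD with rfl | rfl | rfl | rfl | rfl | rfl | rfl
  exacts [le_of_reach₁ (by simpa using h4 3 Nat.prime_three (h3 rfl)) ⟨i, hi⟩ (reachG2 i hi hshort).1,
    le_of_reach₁ (by simpa using h4 2 Nat.prime_two (h2 (.inl rfl))) ⟨i, hi⟩ (reachB2 i hi hshort).1, le_of_reach₁ (by simp) ⟨i, hi⟩ (reachD4 i hi),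
    le_of_reach₁ (by simpa using h4 2 Nat.prime_two (h2 (.inr rfl))) ⟨i, hi⟩ (reachF4 i hi hshort).1, le_of_reach₁ (by simp) ⟨i, hi⟩ (reachE6 i hi),
    le_of_reach₁ (by simp) ⟨i, hi⟩ (reachE7 i hi), le_of_reach₁ (by simp) ⟨i, hi⟩ (reachE8 i hi)]

end Cfsg.Agent.S2416
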