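import Cfsg.Statements.S2418
import Cfsg.Agent.H12.GenW
import Cfsg.Agent.H12.MaxT

set_option autoImplicit false
open Cfsg

namespace Cfsg.Agent.S2418
open H12 H13 Cfsg.Lie

/-- For the Coxeter groups of types B₂, G₂, D₄, F₄, E₇, E₈ the centre has order 2 (the element acting as −1 on the root system) and is generated by a power of the Coxeter element `s₁ s₂ ⋯ s_l`; the Coxeter group of type E₆ has trivial centre. -/
theorem result (c : (Σ n : ℕ, CoxeterMatrix (Fin n)) × ℕ)
    (hc : c ∈ [(⟨2, CoxeterMatrix.B 2⟩, 2), (⟨2, CoxeterMatrix.G₂⟩, 2), (⟨4, Cfsg.Lie.coxeterD4⟩, 2), (⟨4, CoxeterMatrix.F₄⟩, 2),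
      (⟨6, CoxeterMatrix.E₆⟩, 1), (⟨7, CoxeterMatrix.E₇⟩, 2), (⟨8, CoxeterMatrix.E₈⟩, 2)]) :
    Nat.card (Subgroup.center c.1.2.Group) = c.2 ∧
      Subgroup.center c.1.2.Group ≤ Subgroup.zpowers ((List.finRange c.1.1).map c.1.2.simple).prod := by
  simp only [List.mem_cons, List.not_mem_nil, or_false] at hc
  rcases hc with rfl | rfl | rfl | rfl | rfl | rfl | rfl
  · exact center_cox _ coxB2 (k := 2) (by rw [tabB2_eq]; decide +kernel)
  · exact center_cox _ coxG2 (k := 3) (by rw [tabG2_eq]; decide +kernel)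
  · exact center_cox _ coxD4 (k := 3) (by rw [tabD4_eq]; decide +kernel)
  · exact center_cox _ coxF4 (k := 6) (by rw [tabF4_eq]; decide +kernel)
  · have : Subgroup.center (W chevE6) = ⊥ := (Subgroup.eq_bot_iff_forall _).2 fun z hz => (mem_center_W.1 hz).resolve_right fun h => by
      obtain ⟨l, hl⟩ := exists_map_val (n := chevE6.rank) (l := (List.replicate 6 [0, 3, 5, 1, 2, 4]).flatten) (by decide)
      have k := (show (∀ i < 6, 72 ≤ 2 * runW (tab chevE6) (List.replicate 6 [0, 3, 5, 1, 2, 4]).flatten ((tab chevE6).ng ((tab chevE6).sim i))) ∧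
        runW (tab chevE6) (List.replicate 6 [0, 3, 5, 1, 2, 4]).flatten 15 ≠ 56 by rw [tabE6_eq]; decide +kernel)
      rw [← hl] at k
      have e := eq_one_of_pos (w := ((wg _).wp l)⁻¹ * z) fun i => by rw [mul_smul, h]; exact (runW_eq l (ng (sim i)) ▸ k.1 i i.2 :)
      refine k.2 ((runW_eq l (ng (sim ⟨0, by decide⟩))).trans ?_)
      rw [← h, ← mul_smul, e]; rfl
    exact center_cox_bot _ coxE6 this _
  · exact center_cox _ coxE7 (k := 9) (by rw [tabE7_eq]; decide +kernel)
  · exact center_cox _ coxE8 (k := 15) (by rw [tabE8_eq]; decide +kernel)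

end Cfsg.Agent.S2418
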