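import Cfsg.Statements.S2419
import Cfsg.Agent.H12.GenW

set_option autoImplicit false
open Cfsg

namespace Cfsg.Agent.S2419
open H12 H13 Cfsg.Lie

/-- The Coxeter groups of types B₂, G₂, E₆, E₇, E₈ are generated by the Coxeter element `s₁ s₂ ⋯ s_l` together with one suitable reflection (a conjugate of a simple reflection); for types D₄ and F₄ the Coxeter element together with two suitable reflections suffices. -/
theorem result (c : (Σ n : ℕ, CoxeterMatrix (Fin n)) × ℕ)
    (hc : c ∈ [(⟨2, CoxeterMatrix.B 2⟩, 1), (⟨2, CoxeterMatrix.G₂⟩, 1), (⟨4, Cfsg.Lie.coxeterD4⟩, 2), (⟨4, CoxeterMatrix.F₄⟩, 2),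
      (⟨6, CoxeterMatrix.E₆⟩, 1), (⟨7, CoxeterMatrix.E₇⟩, 1), (⟨8, CoxeterMatrix.E₈⟩, 1)]) :
    ∃ T : Finset c.1.2.Group, T.card = c.2 ∧ (∀ t ∈ T, ∃ (g : c.1.2.Group) (i : Fin c.1.1), t = g * c.1.2.simple i * g⁻¹) ∧
      Subgroup.closure (({((List.finRange c.1.1).map c.1.2.simple).prod} : Set c.1.2.Group) ∪ ↑T) = ⊤ := by
  have k : ∀ (D : ChevalleyDatum) [Good D] (a b : I D), List.finRange D.rank = [a, b] → ∀ K : Subgroup (W D), ((List.finRange D.rank).map sW).prod ∈ K →
      (∀ r ∈ [sim a], rW r ∈ K) → K = ⊤ := fun D _ a b e K h1 h2 => eq_top_of_sW fun i => by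
    have h3 := h2 _ List.mem_cons_self
    rcases List.mem_pair.1 (e ▸ List.mem_finRange i) with rfl | rfl
    · exact h3
    · simpa [e, ← mul_assoc] using mul_mem (show sW a ∈ K from h3) h1
  simp only [List.mem_cons, List.not_mem_nil, or_false] at hc
  rcases hc with rfl | rfl | rfl | rfl | rfl | rfl | rfl
  · exact closure_cox _ coxB2 _ (by simp) (k _ _ _ rfl)
  · exact closure_cox _ coxG2 _ (by simp) (k _ _ _ rfl)
  · exact DerT.closure _ coxD4 [⟨12, by decide⟩, ⟨13, by decide⟩] (by decide) (cs := [(24, 13, 15), (12, 15, 14), (24, 14, 18)])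
      (by rw [tabD4_eq]; decide +kernel)
  · exact DerT.closure _ coxF4 [⟨24, by decide⟩, ⟨27, by decide⟩] (by decide) (cs := [(48, 24, 25), (48, 27, 33)]) (by rw [tabF4_eq]; decide +kernel)
  · exact DerT.closure _ coxE6 [⟨36, by decide⟩] (by simp) (cs := [(72, 36, 37), (72, 37, 39), (72, 39, 52), (72, 52, 59), (72, 59, 47), (72, 47, 42),
      (72, 42, 56), (36, 52, 51), (72, 51, 58), (72, 58, 46)]) (by rw [tabE6_eq]; decide +kernel)
  · exact DerT.closure _ coxE7 [⟨113, by decide⟩] (by simp) (cs := [(126, 113, 104), (126, 104, 84), (126, 84, 95), (126, 95, 78), (126, 78, 43),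
      (126, 43, 49), (126, 49, 18), (113, 84, 27), (113, 18, 73), (126, 27, 44), (126, 73, 93), (126, 44, 50), (113, 50, 102), (126, 102, 62),
      (126, 62, 61), (126, 61, 59), (126, 59, 56)]) (by rw [tabE7_eq]; decide +kernel)
  · exact DerT.closure _ coxE8 [⟨141, by decide⟩] (by simp) (cs := [(240, 141, 93), (240, 93, 100), (141, 100, 89), (240, 89, 73), (240, 73, 96),
      (240, 96, 103), (240, 103, 66), (240, 66, 120), (240, 120, 121), (240, 121, 123), (240, 123, 126), (240, 126, 130), (141, 130, 142),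
      (240, 142, 135), (240, 135, 162)]) (by rw [tabE8_eq]; decide +kernel)

end Cfsg.Agent.S2419
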