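import Cfsg.Statements.S2425
import Cfsg.Agent.H19.StV2

set_option autoImplicit false
open scoped MatrixGroups
open Cfsg

namespace Cfsg.Agent.S2425

/-- Values of the Steinberg character of `GL_n(q)` (the partition-indexed character for `ν = (1,…,1)`, of degree `q^(n(n−1)/2)`) at elements of order prime to the characteristic: if the characteristic polynomial of such an element is `∏ f^(m_f)` over distinct monic irreducible `f`, the value is `∏_f (−1)^((deg f − 1) m_f) q^(deg f · m_f (m_f − 1)/2)`. (At elements of order divisible by the characteristic the value is 0; that is not part of this statement.) -/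
theorem result {F : Type*} [Field F] [Fintype F] [DecidableEq F] {q : ℕ} (hq : Fintype.card F = q) (p : ℕ) [Fact p.Prime] [CharP F p]
    {n : ℕ} (x : GL (Fin n) F) (hx : (orderOf x).Coprime p) :
    Cfsg.unipotentCharacterGL n F (fun _ => 1) x =
      ∏ f ∈ (UniqueFactorizationMonoid.normalizedFactors (x : Matrix (Fin n) (Fin n) F).charpoly).toFinset,
        (-1 : ℂ) ^ ((f.natDegree - 1) * (UniqueFactorizationMonoid.normalizedFactors (x : Matrix (Fin n) (Fin n) F).charpoly).count f) *
          (q : ℂ) ^ (f.natDegree * (UniqueFactorizationMonoid.normalizedFactors (x : Matrix (Fin n) (Fin n) F).charpoly).count f *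
            ((UniqueFactorizationMonoid.normalizedFactors (x : Matrix (Fin n) (Fin n) F).charpoly).count f - 1) / 2) := by
  have hm : (orderOf x : F) ≠ 0 := fun h => (Fact.out : p.Prime).coprime_iff_not_dvd.1 hx.symm ((CharP.cast_eq_zero_iff F p _).1 h)
  have hs := (Polynomial.X_pow_sub_one_separable_iff.2 hm).squarefree
  have h : Polynomial.aeval (Matrix.toLin' x.1) (Polynomial.X ^ orderOf x - 1 : Polynomial F) = 0 := by
    rw [map_sub, map_pow, Polynomial.aeval_X, map_one, ← Matrix.toLin'_pow, ← Units.val_pow_eq_pow_val, pow_orderOf_eq_one]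
    simp [Module.End.one_eq_id]
  rw [H19.Gr.uc_eq_R, H19.Gr.R_ss hs n _ _ (by simp) h, (H11.ss_of_squarefree hs h).ED_eq, Matrix.charpoly_toLin', H19.Gr.val,
    Nat.card_eq_fintype_card, hq]
  convert rfl

end Cfsg.Agent.S2425
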