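import Cfsg.Statements.S2427
import Cfsg.Agent.S0257
import Cfsg.Agent.H10.Klein
import Cfsg.Agent.H24.SL2Norm

set_option autoImplicit false
open Cfsg

namespace Cfsg.Agent.S2427

open H24
open scoped MatrixGroups

/-- The group SL₂ over the field with 3 elements has order 24 and centre of order 2; its commutator subgroup has order 8, is isomorphic to the quaternion group of order 8 and is complemented by every Sylow 3-subgroup (so the group is a semidirect product of a quaternion group of order 8 by a cyclic group of order 3); and its only normal subgroups besides the trivial subgroup and the whole group are the centre and the commutator subgroup. -/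
theorem result :
    Nat.card (Matrix.SpecialLinearGroup (Fin 2) (ZMod 3)) = 24 ∧
    Nat.card (Subgroup.center (Matrix.SpecialLinearGroup (Fin 2) (ZMod 3))) = 2 ∧
    Nat.card (commutator (Matrix.SpecialLinearGroup (Fin 2) (ZMod 3))) = 8 ∧
    Nonempty (commutator (Matrix.SpecialLinearGroup (Fin 2) (ZMod 3)) ≃* QuaternionGroup 2) ∧
    (∀ P : Sylow 3 (Matrix.SpecialLinearGroup (Fin 2) (ZMod 3)),
      Subgroup.IsComplement' (commutator (Matrix.SpecialLinearGroup (Fin 2) (ZMod 3)))
        (P : Subgroup (Matrix.SpecialLinearGroup (Fin 2) (ZMod 3)))) ∧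
    ∀ N : Subgroup (Matrix.SpecialLinearGroup (Fin 2) (ZMod 3)), N.Normal →
      N = ⊥ ∨ N = ⊤ ∨ N = Subgroup.center (Matrix.SpecialLinearGroup (Fin 2) (ZMod 3)) ∨
        N = commutator (Matrix.SpecialLinearGroup (Fin 2) (ZMod 3)) := by
  have h2 : (2 : ZMod 3) ≠ 0 := by decide
  obtain ⟨⟨Q, hn, hi, ⟨e⟩⟩, hZ⟩ := Cfsg.Agent.S0257.result (F := ZMod 3) (by simp)
  have hG : Nat.card SL(2, ZMod 3) = 24 := by rw [H10.card_SL2]; simp
  have hQ : Nat.card Q = 8 := by
    have := Q.index_mul_card
    rw [hi, hG] at this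
    omega
  have mZ : ∀ g : SL(2, ZMod 3), g ∈ Subgroup.center SL(2, ZMod 3) ↔ g = 1 ∨ g = -1 := fun g => by
    rw [mem_center_SL_iff, isScal_SL_iff]
  have q4 : ∀ g ∈ Q, g ∉ Subgroup.center SL(2, ZMod 3) → g * g = -1 := fun g hg hz => by
    have : (⟨g, hg⟩ : Q) ^ 4 = 1 := e.injective (by
      rw [map_pow, map_one]; exact (by decide : ∀ x : QuaternionGroup 2, x ^ 4 = 1) _)
    refine (eq_of_sq_eq_one h2 (y := g * g) ?_).resolve_left fun k => hz ((mZ g).2 ?_)
    · rw [← pow_two, ← pow_mul]; exact congrArg Subtype.val this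
    · exact eq_of_sq_eq_one h2 (by rw [pow_two, k])
  have c3 : ∀ P : Sylow 3 SL(2, ZMod 3), Nat.card P = 3 := fun P => by
    rw [P.card_eq_multiplicity, hG, show 24 = 3 * 8 from rfl, Nat.factorization_mul (by norm_num) (by norm_num)]
    simp [Nat.prime_three.factorization, Nat.factorization_eq_zero_of_not_dvd]
  have key : ∀ N : Subgroup SL(2, ZMod 3), N.Normal →
      N = ⊥ ∨ N = ⊤ ∨ N = Subgroup.center SL(2, ZMod 3) ∨ N = Q := by
    intro N hN
    by_cases h3 : N ≤ Q
    · by_cases h4 : N ≤ Subgroup.center SL(2, ZMod 3)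
      · by_cases h5 : -1 ∈ N
        · refine .inr (.inr (.inl (le_antisymm h4 fun g hg => ?_)))
          rcases (mZ g).1 hg with rfl | rfl
          · exact N.one_mem
          · exact h5
        · exact .inl (eq_bot_iff.2 fun g hg => ((mZ g).1 (h4 hg)).resolve_right fun k => h5 (k ▸ hg))
      · obtain ⟨g, hg, hz⟩ := SetLike.not_le_iff_exists.1 h4
        have g2 := q4 g (h3 hg) hz
        refine .inr (.inr (.inr (le_antisymm h3 fun s hs => ?_)))
        by_cases k : s ∈ Subgroup.center SL(2, ZMod 3)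
        · rcases (mZ s).1 k with rfl | rfl
          · exact N.one_mem
          · exact g2 ▸ N.mul_mem hg hg
        · obtain ⟨c, rfl⟩ := isConj_iff.1 (H10.isConj_SL2_of_mul_self h2 g2 (q4 s hs k))
          exact hN.conj_mem _ hg _
    · obtain ⟨g, hg, hq⟩ := SetLike.not_le_iff_exists.1 h3
      have d : 3 ∣ orderOf g := by
        have h1 := orderOf_dvd_natCard (QuotientGroup.mk g : _ ⧸ Q)
        rw [← Subgroup.index_eq_card, hi, Nat.dvd_prime Nat.prime_three, orderOf_eq_one_iff,
          QuotientGroup.eq_one_iff] at h1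
        exact (h1.resolve_left hq).symm.dvd.trans (orderOf_map_dvd (QuotientGroup.mk' Q) g)
      obtain ⟨x, hx⟩ := exists_prime_orderOf_dvd_card' (G := N) 3 (d.trans (N.orderOf_dvd_natCard hg))
      have hx' : Nat.card (Subgroup.zpowers (x : SL(2, ZMod 3))) = 3 ^ 1 := by
        rw [Nat.card_zpowers, Subgroup.orderOf_coe, hx]; rfl
      obtain ⟨P, hP⟩ := (IsPGroup.of_card hx').exists_le_sylow
      have all : ∀ R : Sylow 3 SL(2, ZMod 3), (R : Subgroup _) ≤ N := fun R => by
        obtain ⟨c, rfl⟩ := MulAction.exists_smul_eq SL(2, ZMod 3) P R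
        rw [Sylow.coe_subgroup_smul, ← Subgroup.eq_of_le_of_card_ge hP (by rw [hx', c3]; rfl)]
        exact (Subgroup.pointwise_smul_le_pointwise_smul_iff.2 (Subgroup.zpowers_le_of_mem x.2)).trans
          (Subgroup.Normal.conj_smul_eq_self c N).le
      have : Nontrivial (Sylow 3 SL(2, ZMod 3)) := Finite.one_lt_card_iff_nontrivial.1 (by
        rw [H10.card_sylow_SL2 3]; simp)
      obtain ⟨A, B, hAB⟩ := exists_pair_ne (Sylow 3 SL(2, ZMod 3))
      exact .inr (.inl (top_le_iff.1 (H10.sylow_sup_eq_top_SL2 3 hAB ▸ sup_le (all A) (all B))))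
  have cm : commutator SL(2, ZMod 3) = Q := by
    have le : commutator SL(2, ZMod 3) ≤ Q := by
      have : IsCyclic (SL(2, ZMod 3) ⧸ Q) := isCyclic_of_prime_card (p := 3) hi
      exact Subgroup.Normal.quotient_commutative_iff_commutator_le.1 inferInstance
    have nz : ¬ commutator SL(2, ZMod 3) ≤ Subgroup.center SL(2, ZMod 3) := fun h => by
      have := (mZ _).1 (h (Subgroup.commutator_mem_commutator
        (g₁ := ⟨!![1, 1; 0, 1], by simp⟩) (g₂ := ⟨!![1, 0; 1, 1], by simp⟩) trivial trivial))
      revert this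
      decide
    rcases key _ (inferInstance : (commutator SL(2, ZMod 3)).Normal) with h | h | h | h
    · exact absurd (h ▸ bot_le) nz
    · rw [h, top_le_iff] at le
      rw [le, Subgroup.index_top] at hi
      omega
    · exact absurd h.le nz
    · exact h
  rw [cm]
  exact ⟨hG, hZ, hQ, ⟨e⟩, fun P => Subgroup.isComplement'_of_coprime (by rw [hQ, c3, hG])
    (by rw [hQ, c3]; norm_num), key⟩

end Cfsg.Agent.S2427
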