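import Cfsg.Statements.S2428
import Cfsg.Agent.H24.SL2Norm

set_option autoImplicit false
open Cfsg

namespace Cfsg.Agent.S2428

open H24 H5 Matrix Subgroup

/-- Let F be a finite field with q elements, q odd, and let d be a diagonal element of SL₂ over F whose diagonal entry a has a² ≠ 1 (such d exist exactly when q > 3). Then the centraliser of d is precisely the diagonal subgroup T; the normaliser of T has order 2(q − 1) and exactly (q + 5)/2 conjugacy classes; and every element of that normaliser outside T has square equal to −1. -/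
theorem result {F : Type*} [Field F] [Fintype F] (hodd : Odd (Fintype.card F))
    (d : Matrix.SpecialLinearGroup (Fin 2) F) (hd01 : (d : Matrix (Fin 2) (Fin 2) F) 0 1 = 0) (hd10 : (d : Matrix (Fin 2) (Fin 2) F) 1 0 = 0) (hda : (d : Matrix (Fin 2) (Fin 2) F) 0 0 ^ 2 ≠ 1) :
    (∀ g : Matrix.SpecialLinearGroup (Fin 2) F, g ∈ Subgroup.centralizer ({d} : Set (Matrix.SpecialLinearGroup (Fin 2) F)) ↔ ((g : Matrix (Fin 2) (Fin 2) F) 0 1 = 0 ∧ (g : Matrix (Fin 2) (Fin 2) F) 1 0 = 0)) ∧
    Nat.card (Subgroup.normalizer ((Subgroup.centralizer ({d} : Set (Matrix.SpecialLinearGroup (Fin 2) F))) : Set (Matrix.SpecialLinearGroup (Fin 2) F))) = 2 * (Fintype.card F - 1) ∧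
    Nat.card (ConjClasses (Subgroup.normalizer ((Subgroup.centralizer ({d} : Set (Matrix.SpecialLinearGroup (Fin 2) F))) : Set (Matrix.SpecialLinearGroup (Fin 2) F)))) = (Fintype.card F + 5) / 2 ∧
    ∀ g : Matrix.SpecialLinearGroup (Fin 2) F, g ∈ Subgroup.normalizer ((Subgroup.centralizer ({d} : Set (Matrix.SpecialLinearGroup (Fin 2) F))) : Set (Matrix.SpecialLinearGroup (Fin 2) F)) →
      g ∉ Subgroup.centralizer ({d} : Set (Matrix.SpecialLinearGroup (Fin 2) F)) → ((g * g) : Matrix (Fin 2) (Fin 2) F) = -1 := by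
  have h2 := two_ne_zero_of_odd hodd
  have hm := diag_mul_of_mem_BS hd10
  have hne : (d : M2 F) 0 0 ≠ (d : M2 F) 1 1 := fun e => hda (by rw [sq]; nth_rw 2 [e]; exact hm)
  have hrs := rs_of_split hne (trace_fin_two _) hm
  have hc := card_cent_SL_split hne (trace_fin_two _) hm
  refine ⟨fun g => ⟨fun h => ?_, fun h => ?_⟩, by rw [hrs.card_norm, hc], ?_, fun g h1 h3 =>
    SL_coe_congr (hrs.sq_eq_neg_one h2 h1 h3)⟩
  · obtain ⟨x, y, e⟩ := (mem_cent_SL_iff hrs.not_isScal _).1 h
    rw [e]; simp [hd01, hd10]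
  · rw [mem_cent_SL]
    apply ext2 <;> simp [mul_apply2, h.1, h.2, hd01, hd10, mul_comm]
  · have := hrs.card_conjClasses_norm h2
    rw [hc] at this
    have hq : 1 < Fintype.card F := Fintype.one_lt_card
    have h' : 2 * Nat.card (ConjClasses (Subgroup.normalizer ((Subgroup.centralizer ({d} : Set (Matrix.SpecialLinearGroup (Fin 2) F))) : Set (Matrix.SpecialLinearGroup (Fin 2) F)))) = Fintype.card F - 1 + 6 := this
    omega

end Cfsg.Agent.S2428
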