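import Cfsg.Statements.S2429
import Cfsg.Agent.H24.SL2Norm

set_option autoImplicit false
open Cfsg

namespace Cfsg.Agent.S2429

open H24 H5 Matrix Subgroup

/-- Let F be a finite field with q elements, q odd. Then SL₂ over F contains a cyclic subgroup T′ of order q + 1 (a non-split torus) with the following properties: T′ is its own centraliser, and indeed the centraliser of each element of T′ other than 1 and −1 is exactly T′; every element of SL₂ having no eigenvector in F² is conjugate to an element of T′; the normaliser of T′ has order 2(q + 1) and exactly (q + 7)/2 conjugacy classes; and every element of that normaliser outside T′ has square −1. -/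
theorem result {F : Type*} [Field F] [Fintype F] (hodd : Odd (Fintype.card F)) :
    ∃ T' : Subgroup (Matrix.SpecialLinearGroup (Fin 2) F), IsCyclic T' ∧ Nat.card T' = Fintype.card F + 1 ∧
      Subgroup.centralizer ((T' : Set (Matrix.SpecialLinearGroup (Fin 2) F))) = T' ∧
      (∀ g : Matrix.SpecialLinearGroup (Fin 2) F, g ∈ T' → (g : Matrix (Fin 2) (Fin 2) F) ≠ 1 → (g : Matrix (Fin 2) (Fin 2) F) ≠ -1 → Subgroup.centralizer ({g} : Set (Matrix.SpecialLinearGroup (Fin 2) F)) = T') ∧
      (∀ g : Matrix.SpecialLinearGroup (Fin 2) F, (∀ (c : F) (v : Fin 2 → F), v ≠ 0 → (g : Matrix (Fin 2) (Fin 2) F).mulVec v ≠ c • v) → ∃ h : Matrix.SpecialLinearGroup (Fin 2) F, h * g * h⁻¹ ∈ T') ∧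
      Nat.card (Subgroup.normalizer (T' : Set (Matrix.SpecialLinearGroup (Fin 2) F))) = 2 * (Fintype.card F + 1) ∧
      Nat.card (ConjClasses (Subgroup.normalizer (T' : Set (Matrix.SpecialLinearGroup (Fin 2) F)))) = (Fintype.card F + 7) / 2 ∧
      ∀ g : Matrix.SpecialLinearGroup (Fin 2) F, g ∈ Subgroup.normalizer (T' : Set (Matrix.SpecialLinearGroup (Fin 2) F)) → g ∉ T' → ((g * g) : Matrix (Fin 2) (Fin 2) F) = -1 := by
  have h2 := two_ne_zero_of_odd hodd
  obtain ⟨w, hw⟩ := exists_ell_SL (F := F)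
  have hc := card_cent_SL_ell hw
  refine ⟨C2 w, isCyclic_cent_SL_ell hw, hc, hw.rs.centralizer_eq (self_mem_C2 w) le_rfl,
    fun g hg h1 h3 => cent_SL_eq_of_mem hw.not_isScal (fun h => ?_) hg, fun g hg => ?_,
    by rw [hw.rs.card_norm, hc], ?_, fun g h1 h3 => SL_coe_congr (hw.rs.sq_eq_neg_one h2 h1 h3)⟩
  · rcases (isScal_SL_iff g).1 h with rfl | rfl
    · exact h1 rfl
    · exact h3 rfl
  · have he := (ell_iff _).2 hg
    obtain ⟨x, y, ht, hd⟩ := hw.exists_lin_of_ell he
    obtain ⟨h, hh⟩ := isConj_iff.1 (isConj_SL_of_ell (g := g) (h := ⟨_, hd.trans g.2⟩)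
      (he.of_trace_det ht.symm hd.symm) ht.symm)
    exact ⟨h, hh ▸ (mem_cent_SL_iff hw.not_isScal _).2 ⟨x, y, rfl⟩⟩
  · have := hw.rs.card_conjClasses_norm h2
    rw [hc] at this
    omega

end Cfsg.Agent.S2429
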