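import Cfsg.Statements.S2434
import Cfsg.Agent.H24.SL2Table

set_option autoImplicit false
open Cfsg

namespace Cfsg.Agent.S2434

open H24 H5 Matrix

theorem exists_eq_C2 {F : Type*} [Field F] [Fintype F] (hodd : Odd (Fintype.card F))
    (C : Subgroup (Matrix.SpecialLinearGroup (Fin 2) F)) (hC : IsCyclic C)
    (hcard : Nat.card C = Fintype.card F + 1) :
    ∃ w : Matrix.SpecialLinearGroup (Fin 2) F, Ell (w : M2 F) ∧ C = C2 w := by
  obtain ⟨c, hc⟩ := hC.exists_generator
  have hle : C ≤ C2 c.1 := fun x hx => by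
    obtain ⟨k, hk⟩ := hc ⟨x, hx⟩
    have : x = c.1 ^ k := by simpa using (congrArg Subtype.val hk).symm
    rw [this]
    exact Subgroup.zpow_mem _ (Subgroup.mem_centralizer_singleton_iff.2 rfl) k
  have hdvd := Subgroup.card_dvd_of_le hle
  have h2 := two_ne_zero_of_odd hodd
  have hq : 1 < Fintype.card F := Fintype.one_lt_card
  obtain ⟨k, hk⟩ := hodd
  rw [hcard] at hdvd
  rcases types (c.1 : M2 F) with h | ⟨h, a, ht, hd⟩ | ⟨a, b, hab, ht, hd⟩ | h
  · exfalso
    have h1 : c ^ 2 = 1 := by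
      apply Subtype.ext
      rcases (isScal_SL_iff _).1 h with e | e <;> simp [e]
    have := Nat.le_of_dvd two_pos (orderOf_dvd_of_pow_eq_one h1)
    rw [orderOf_eq_card_of_forall_mem_zpowers hc, hcard] at this
    omega
  · exfalso
    rw [card_cent_SL_par h ht (hd.symm.trans c.1.2), card_sq_eq_one_odd h2] at hdvd
    have : Fintype.card F + 1 ∣ 2 := (Nat.dvd_add_right hdvd).1 ⟨2, by ring⟩
    have := Nat.le_of_dvd two_pos this
    omega
  · exfalso
    rw [card_cent_SL_split hab ht (hd.symm.trans c.1.2)] at hdvd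
    have := Nat.le_of_dvd (by omega) hdvd
    omega
  · exact ⟨c.1, h, Subgroup.eq_of_le_of_card_ge hle (by rw [card_cent_SL_ell h, hcard])⟩

/-- Let F be a finite field with q elements, q odd, and C a cyclic subgroup of order q + 1 of SL₂ over F (a non-split torus; it contains the centre). For every homomorphism θ from C to the non-zero complex numbers with θ² ≠ 1 there is an irreducible complex character χ of degree q − 1 such that χ(c) = −θ(c) − θ(c)⁻¹ for every non-central c in C, χ(zg) = θ(z)χ(g) for central z in C, χ vanishes at diagonal elements with entry a, a² ≠ 1, and χ takes the value −1 at every upper unitriangular element other than 1. Conversely every irreducible character of degree q − 1 has, for some such θ, the values −θ(c) − θ(c)⁻¹ at the non-central elements c of C (for q ≥ 5 these are exactly the cuspidal characters of degree q − 1). -/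
theorem result {F : Type*} [Field F] [Fintype F] (hodd : Odd (Fintype.card F))
    (C : Subgroup (Matrix.SpecialLinearGroup (Fin 2) F)) (hC : IsCyclic C) (hcard : Nat.card C = Fintype.card F + 1) :
    (∀ θ : C →* ℂˣ, (∃ c : C, θ c ^ 2 ≠ 1) →
      ∃ χ : Matrix.SpecialLinearGroup (Fin 2) F → ℂ, Cfsg.IsIrrCharacter (Matrix.SpecialLinearGroup (Fin 2) F) χ ∧ χ 1 = (Fintype.card F : ℂ) - 1 ∧
        (∀ c : C, (c : Matrix.SpecialLinearGroup (Fin 2) F) ∉ Subgroup.center (Matrix.SpecialLinearGroup (Fin 2) F) → χ c = -((θ c).val + (θ c)⁻¹.val)) ∧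
        (∀ c : C, (c : Matrix.SpecialLinearGroup (Fin 2) F) ∈ Subgroup.center (Matrix.SpecialLinearGroup (Fin 2) F) → ∀ g : Matrix.SpecialLinearGroup (Fin 2) F, χ ((c : Matrix.SpecialLinearGroup (Fin 2) F) * g) = (θ c).val * χ g) ∧
        (∀ g : Matrix.SpecialLinearGroup (Fin 2) F, (g : Matrix (Fin 2) (Fin 2) F) 0 1 = 0 → (g : Matrix (Fin 2) (Fin 2) F) 1 0 = 0 → (g : Matrix (Fin 2) (Fin 2) F) 0 0 ^ 2 ≠ 1 → χ g = 0) ∧
        (∀ g : Matrix.SpecialLinearGroup (Fin 2) F, (g : Matrix (Fin 2) (Fin 2) F) 1 0 = 0 → (g : Matrix (Fin 2) (Fin 2) F) 0 0 = 1 → (g : Matrix (Fin 2) (Fin 2) F) 1 1 = 1 → (g : Matrix (Fin 2) (Fin 2) F) 0 1 ≠ 0 → χ g = -1)) ∧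
    (∀ χ : Matrix.SpecialLinearGroup (Fin 2) F → ℂ, Cfsg.IsIrrCharacter (Matrix.SpecialLinearGroup (Fin 2) F) χ → χ 1 = (Fintype.card F : ℂ) - 1 →
      ∃ θ : C →* ℂˣ, (∃ c : C, θ c ^ 2 ≠ 1) ∧
        ∀ c : C, (c : Matrix.SpecialLinearGroup (Fin 2) F) ∉ Subgroup.center (Matrix.SpecialLinearGroup (Fin 2) F) → χ c = -((θ c).val + (θ c)⁻¹.val)) := by
  classical
  have := Fintype.ofFinite (GL (Fin 2) F)
  obtain ⟨w, hw, rfl⟩ := exists_eq_C2 hodd C hC hcard
  have hsq : ∀ θ : C2 w →* ℂˣ, (∃ c, θ c ^ 2 ≠ 1) ↔ θ ^ 2 ≠ 1 := fun θ => by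
    rw [Ne, MonoidHom.ext_iff, not_forall]; rfl
  refine ⟨fun θ h => ?_, fun χ hχ h => ?_⟩
  · rw [hsq] at h
    have h1 : θ ≠ 1 := by rintro rfl; exact h (by ext; simp)
    refine ⟨cuspS hw θ, isIrr_cuspS hw h, cuspS_one hw θ, fun c hc => cuspS_ell hw θ ?_,
      fun c hc g => cuspS_mul_center hw h1 ((mem_center_SL_iff _).1 hc) g,
      fun g h1 h2 h3 => cuspS_split hw θ (fun e => h3 ?_) (trace_fin_two _) (diag_mul_of_mem_BS h2),
      fun g h1 h2 h3 h4 => cuspS_unip hw θ (fun h => h4 h.1) (by rw [trace_fin_two, h2, h3])⟩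
    · rwa [← mem_center_SL_iff]
    · rw [sq]; nth_rw 2 [e]; exact diag_mul_of_mem_BS h2
  · have hq : 1 < Fintype.card F := Fintype.one_lt_card
    have h2 := two_ne_zero_of_odd hodd
    obtain ⟨k, hk⟩ := id hodd
    rcases irr_SL2_degree hw hχ (n := Fintype.card F - 1) (by rw [h, cast_card_sub_one]) with
      h | h | h | ⟨-, θ, hθ, rfl⟩ | ⟨h, -, α, ψ, -, -, H⟩ | h
    · exfalso; omega
    · exfalso; omega
    · exfalso; omega
    · exact ⟨θ, (hsq θ).2 hθ, fun c hc => cuspS_ell hw θ (by rwa [← mem_center_SL_iff])⟩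
    · have hq : Fintype.card F = 3 := by omega
      have h3 := ncard_cuspS hw
      rw [card_sq_eq_one_odd h2, hq] at h3
      obtain ⟨_, θ, hθ, rfl⟩ : (cuspS hw '' {θ | θ ^ 2 ≠ 1}).Nonempty :=
        Set.nonempty_of_ncard_ne_zero (by omega)
      refine ⟨θ, (hsq θ).2 hθ, fun z hz' => ?_⟩
      rw [mem_center_SL_iff] at hz'
      have he := hw.of_commute hz' (mem_cent_SL.1 z.2)
      have h4 : (z.1 : M2 F).trace ^ 2 ≠ 4 := fun e => he.disc_ne_zero (by rw [e, z.1.2]; ring)
      have h9 := (H.eq_half h2 (g := z) (Or.inr h4)).2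
      rw [WS_ell α he] at h9
      have hC : Nat.card (C2 w) = 4 := by rw [card_cent_SL_ell hw, hq]
      have hz4 : z ^ 4 = 1 := by rw [← hC]; exact pow_card_eq_one'
      have hz2 : z ^ 2 ≠ 1 := fun e => hz' (isScal_of_sq_eq_one hw e)
      have ho : orderOf z = 4 := orderOf_eq_prime_pow (p := 2) (n := 1) hz2 hz4
      have hgen : ∀ c : C2 w, c ∈ Subgroup.zpowers z := by
        have : Subgroup.zpowers z = ⊤ := Subgroup.eq_top_of_card_eq _ (by
          rw [Nat.card_zpowers, ho, hC])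
        intro c; rw [this]; trivial
      have h5 : θ z ^ 2 ≠ 1 := fun e => hθ (by
        ext c
        obtain ⟨j, rfl⟩ := hgen c
        simp only [MonoidHom.pow_apply, map_zpow, MonoidHom.one_apply]
        rw [e])
      have h6 : (θ z : ℂ) ^ 2 * (θ z : ℂ) ^ 2 = 1 := by
        rw [← pow_add, ← Units.val_pow_eq_pow_val, ← map_pow, hz4]; simp
      have h7 := (mul_self_eq_one_iff.1 h6).resolve_left fun e => h5 (Units.ext e)
      have h8 := (θ z).ne_zero
      rw [Units.val_inv_eq_inv_val, show χ z = 0 by simpa using h9.symm]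
      field_simp
      linear_combination h7
    · exfalso; omega

end Cfsg.Agent.S2434
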