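import Cfsg.Statements.S2435
import Cfsg.Agent.H24.SL2Table

set_option autoImplicit false
open Cfsg

namespace Cfsg.Agent.S2435

open H24 H5 Matrix

/-- Let F be a finite field with q elements, q odd and q ≥ 5, and χ an irreducible complex character of SL₂ over F. If χ has degree (q + 1)/2, then at a diagonal element with entry a, a² ≠ 1, χ takes the value 1 when a is a square in F and −1 otherwise. If χ has degree (q − 1)/2, then at an element g with no eigenvector in F² (so g has order dividing q + 1), χ takes the value −1 when g raised to the power (q + 1)/2 is the identity and the value 1 otherwise. -/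
theorem result {F : Type*} [Field F] [Fintype F] (hodd : Odd (Fintype.card F)) (hq : 5 ≤ Fintype.card F)
    (χ : Matrix.SpecialLinearGroup (Fin 2) F → ℂ) (hχ : Cfsg.IsIrrCharacter (Matrix.SpecialLinearGroup (Fin 2) F) χ) (g : Matrix.SpecialLinearGroup (Fin 2) F) :
    (χ 1 = (((Fintype.card F + 1) / 2 : ℕ) : ℂ) → (g : Matrix (Fin 2) (Fin 2) F) 0 1 = 0 → (g : Matrix (Fin 2) (Fin 2) F) 1 0 = 0 → (g : Matrix (Fin 2) (Fin 2) F) 0 0 ^ 2 ≠ 1 →
      (IsSquare ((g : Matrix (Fin 2) (Fin 2) F) 0 0) → χ g = 1) ∧ (¬ IsSquare ((g : Matrix (Fin 2) (Fin 2) F) 0 0) → χ g = -1)) ∧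
    (χ 1 = (((Fintype.card F - 1) / 2 : ℕ) : ℂ) → (∀ (c : F) (v : Fin 2 → F), v ≠ 0 → (g : Matrix (Fin 2) (Fin 2) F).mulVec v ≠ c • v) →
      (((g ^ ((Fintype.card F + 1) / 2)) : Matrix (Fin 2) (Fin 2) F) = 1 → χ g = -1) ∧ (((g ^ ((Fintype.card F + 1) / 2)) : Matrix (Fin 2) (Fin 2) F) ≠ 1 → χ g = 1)) := by
  classical
  have := Fintype.ofFinite (GL (Fin 2) F)
  have h2 := two_ne_zero_of_odd hodd
  refine ⟨fun hd h1 h3 h4 => ?_, fun hd he => ?_⟩
  · obtain ⟨w, hw⟩ := exists_ell_SL (F := F)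
    have hm := diag_mul_of_mem_BS h3
    have hne : (g : M2 F) 0 0 ≠ (g : M2 F) 1 1 := fun e => h4 (by rw [sq]; nth_rw 2 [e]; exact hm)
    obtain ⟨α, ψ, h5, h6, H⟩ := halves_WS_of_degree hw hχ hodd hq hd
    have h7 := (H.eq_half h2 (g := g) (Or.inr fun e => hne ?_)).2
    · rw [WS_split α hne (trace_fin_two _) hm] at h7
      have h8 : α ((g : M2 F) 0 0) * α ((g : M2 F) 1 1) = 1 := by rw [← map_mul, hm, map_one]
      have h9 := quad_apply h5 h6 (left_ne_zero_of_mul_eq_one hm)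
      refine ⟨fun h => ?_, fun h => ?_⟩
      · rw [h9.1 h] at h7 h8
        linear_combination (-1 / 2) * h7 + (1 / 2) * h8
      · rw [h9.2 h] at h7 h8
        linear_combination (-1 / 2) * h7 - (1 / 2) * h8
    · rw [trace_fin_two] at e
      have : ((g : M2 F) 0 0 - (g : M2 F) 1 1) ^ 2 = 0 := by linear_combination e - 4 * hm
      exact sub_eq_zero.1 ((pow_eq_zero_iff two_ne_zero).1 this)
  · have he := (ell_iff _).2 he
    have h4 : (g : M2 F).trace ^ 2 ≠ 4 := fun e => he.disc_ne_zero (by rw [e, g.2]; ring)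
    obtain ⟨θ, ψ, h5, h6, H⟩ := halves_cuspS_of_degree he hχ hodd hq hd
    have h7 := (H.eq_half h2 (g := g) (Or.inr h4)).2
    let z : C2 g := ⟨g, Subgroup.mem_centralizer_singleton_iff.2 rfl⟩
    have h8 := cuspS_ell he θ (z := z) he.not_isScal
    rw [show cuspS he θ z = _ from h7, Units.val_inv_eq_inv_val] at h8
    have := isCyclic_cent_SL_ell he
    have h9 := quadC_apply (m := (Fintype.card F + 1) / 2)
      (by rw [card_cent_SL_ell he]; obtain ⟨k, hk⟩ := hodd; omega) h5 h6 z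
    have h10 : z ^ ((Fintype.card F + 1) / 2) = 1 ↔ (g : M2 F) ^ ((Fintype.card F + 1) / 2) = 1 :=
      ⟨fun h => congrArg (fun x : C2 g => (x.1 : M2 F)) h, fun h => Subtype.ext (Subtype.ext h)⟩
    refine ⟨fun h => ?_, fun h => ?_⟩
    · rw [h9.1 (h10.2 h)] at h8
      linear_combination (1 / 2) * h8
    · rw [h9.2 (fun e => h (h10.1 e))] at h8
      linear_combination (1 / 2) * h8

end Cfsg.Agent.S2435
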