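import Cfsg.Statements.S2436
import Cfsg.Agent.S2299
import Cfsg.Agent.S2325
import Cfsg.Agent.S2431
import Cfsg.Agent.H6.Extension
import Cfsg.Agent.H10.SL2Sylow

set_option autoImplicit false
open Cfsg

namespace Cfsg.Agent.S2436

open H24 H5 Subgroup
open scoped MatrixGroups OnePoint commutatorElement

section
variable {G : Type*} [Group G] [Finite G]

/-- number of irreducible characters with degree satisfying `P` -/
noncomputable abbrev cn (G : Type*) [Group G] (P : ℕ → Prop) : ℕ :=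
  Nat.card {χ : IrrCharacter G // P (charDegree (χ : G → ℂ))}

omit [Finite G] in
theorem cn_congr {H : Type*} [Group H] (e : G ≃* H) (P : ℕ → Prop) : cn G P = cn H P :=
  Nat.card_congr (Equiv.subtypeEquiv ⟨fun χ => ⟨fun x => χ.1 (e.symm x), χ.2.comp_equiv e.symm⟩,
    fun χ => ⟨fun x => χ.1 (e x), χ.2.comp_equiv e⟩, fun χ => by ext; simp, fun χ => by ext; simp⟩
    fun χ => by simp [charDegree])

theorem cn_sum (P : ℕ → Prop) (D : Finset ℕ) (h : ∀ χ : IrrCharacter G, P (charDegree χ.1) ↔ charDegree χ.1 ∈ D) :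
    cn G P = ∑ d ∈ D, cn G (· = d) := by
  classical
  simp only [cn, Nat.card_eq_fintype_card, Fintype.card_subtype]
  rw [Finset.card_eq_sum_card_fiberwise (f := fun χ => charDegree χ.1) (t := D) fun χ hχ => (h χ).1 (by simpa using hχ)]
  refine Finset.sum_congr rfl fun d hd => congrArg _ ?_
  ext χ
  simp only [Finset.mem_filter, Finset.mem_univ, true_and]
  exact ⟨And.right, fun e => ⟨(h χ).2 (e ▸ hd), e⟩⟩

theorem cn_all (P : ℕ → Prop) (h : ∀ χ : IrrCharacter G, P (charDegree χ.1)) : cn G P = Nat.card (ConjClasses G) :=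
  (Nat.card_congr (Equiv.subtypeUnivEquiv h)).trans card_irr_eq_card_conjClasses

theorem sum_sq (D : Finset ℕ) (h : ∀ χ : IrrCharacter G, charDegree χ.1 ∈ D) :
    ∑ d ∈ D, cn G (· = d) * d ^ 2 = Nat.card G := by
  classical
  have := sum_sq_degrees (G := G)
  simp only [← fun χ : IrrCharacter G => χ.2.coe_charDegree] at this
  norm_cast at this
  rw [← this, ← Finset.sum_fiberwise_of_maps_to (g := fun χ => charDegree χ.1) (t := D) fun χ _ => h χ]
  refine Finset.sum_congr rfl fun d _ => ?_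
  rw [Finset.sum_congr rfl (g := fun _ => d ^ 2) fun χ hχ => by rw [(Finset.mem_filter.1 hχ).2], Finset.sum_const,
    smul_eq_mul, cn, Nat.card_eq_fintype_card, Fintype.card_subtype]

omit [Finite G] in
theorem cn_eq {d : ℕ} {z : ℂ} (hz : z = d) : cn G (· = d) = Nat.card {χ : IrrCharacter G // χ.1 1 = z} :=
  Nat.card_congr (Equiv.subtypeEquivRight fun χ => by rw [← χ.2.coe_charDegree, hz, Nat.cast_inj])

theorem cn_abel {l : ℕ} [Fact l.Prime] (S : Sylow l G) (h : ∀ a ∈ (S : Subgroup G), ∀ b ∈ (S : Subgroup G), a * b = b * a) :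
    cn (normalizer ((S : Subgroup G) : Set G)) (¬ l ∣ ·) = Nat.card (ConjClasses (normalizer ((S : Subgroup G) : Set G))) :=
  cn_all _ fun χ hd => S.not_dvd_index ((hd.trans (H6.ito_degree_dvd ((S : Subgroup G).subgroupOf _)
    (fun _ ha _ hb => Subtype.ext (h _ ha _ hb)) χ.2)).trans (relIndex_dvd_index_of_le le_normalizer))

end

variable {F : Type*} [Field F] [Fintype F]

theorem deg_cases (hodd : Odd (Fintype.card F)) (χ : IrrCharacter SL(2, F)) : charDegree χ.1 = 1 ∨
    charDegree χ.1 = Fintype.card F ∨ charDegree χ.1 = Fintype.card F + 1 ∨ charDegree χ.1 = Fintype.card F - 1 ∨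
    charDegree χ.1 = (Fintype.card F + 1) / 2 ∨ charDegree χ.1 = (Fintype.card F - 1) / 2 := by
  have := (S2299.result hodd).1 _ χ.2
  rw [← χ.2.coe_charDegree, ← Nat.cast_pred Fintype.card_pos] at this
  exact_mod_cast this

theorem comm_eq {S : Sylow 2 SL(2, F)} (h2 : (2 : F) ≠ 0) (cS : Nat.card S = 8)
    (cN : Nat.card (normalizer ((S : Subgroup SL(2, F)) : Set SL(2, F))) = 24)
    (hC : centralizer ((S : Subgroup SL(2, F)) : Set SL(2, F)) = center SL(2, F)) :
    (commutator (normalizer ((S : Subgroup SL(2, F)) : Set SL(2, F)))).index = 3 := by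
  set N := normalizer ((S : Subgroup SL(2, F)) : Set SL(2, F))
  let T := (S : Subgroup SL(2, F)).subgroupOf N
  have cT : Nat.card T = 8 := (Nat.card_congr (subgroupOfEquivOfLe le_normalizer).toEquiv).trans cS
  have iT : T.index = 3 := by have := T.index_mul_card; rw [cT, cN] at this; omega
  have : Fact (Nat.Prime 3) := ⟨Nat.prime_three⟩
  have l : commutator N ≤ T := by
    have := isCyclic_of_prime_card (α := N ⧸ T) iT
    exact Normal.quotient_commutative_iff_commutator_le.1 ⟨⟨this.commGroup.mul_comm⟩⟩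
  rcases l.eq_or_lt with e | l'
  · rw [e, iT]
  have d : Nat.card (commutator N) ∣ 2 ^ 2 := by
    obtain ⟨k, hk, e⟩ := (Nat.dvd_prime_pow Nat.prime_two).1 ((card_dvd_of_le l).trans (cT.trans rfl : _ = 2 ^ 3).dvd)
    have : Nat.card (commutator N) ≠ Nat.card T := fun e => l'.ne (eq_of_le_of_card_ge l e.ge)
    exact e ▸ pow_dvd_pow 2 (Nat.le_of_lt_succ (hk.lt_of_ne (by rintro rfl; omega)))
  have ab : ∀ a ∈ commutator N, ∀ b ∈ commutator N, a * b = b * a := fun a ha b hb => by
    obtain ⟨k, hk, e⟩ := (Nat.dvd_prime_pow Nat.prime_two).1 d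
    refine congrArg Subtype.val (?_ : (⟨a, ha⟩ * ⟨b, hb⟩ : commutator N) = ⟨b, hb⟩ * ⟨a, ha⟩)
    interval_cases k
    · exact (Nat.card_eq_one_iff_unique.1 e).1.elim _ _
    · exact (isCyclic_of_prime_card (p := 2) e).commGroup.mul_comm _ _
    · exact (IsPGroup.isMulCommutative_of_card_eq_prime_sq e).is_comm.comm _ _
  obtain ⟨w, hw⟩ := exists_prime_orderOf_dvd_card' (G := N) 3 (by rw [cN]; norm_num)
  have w3 : w ^ 3 = 1 := hw ▸ pow_orderOf_eq_one w
  have c4 : ∀ c ∈ commutator N, c ^ 4 = 1 := fun c hc =>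
    congrArg Subtype.val (orderOf_dvd_iff_pow_eq_one.1 ((_root_.orderOf_dvd_natCard (⟨c, hc⟩ : commutator N)).trans d) :)
  have k : ∀ c ∈ commutator N, w * c = c * w := fun c hc => by
    by_cases s : IsScal (c.1 : M2 F)
    · exact Subtype.ext (Subtype.ext (s.commute _).symm)
    have : c.1 * c.1 = -1 := (eq_of_sq_eq_one h2 (by
      rw [← pow_two, ← pow_mul]; exact congrArg Subtype.val (c4 c hc))).resolve_left fun e =>
        s ((isScal_SL_iff _).2 (eq_of_sq_eq_one h2 ((pow_two _).trans e)))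
    rcases (rs_of_trace_zero h2 (H10.trace_eq_zero_of_mul_self this)).eq_or_eq_inv (y := (w * c * w⁻¹).1)
      (mem_centralizer_singleton_iff.2 (congrArg Subtype.val (ab _ (Normal.conj_mem inferInstance c hc w) c hc)))
      (trace_conj_SL _ _) with e | e
    · exact mul_inv_eq_iff_eq_mul.1 (Subtype.ext e)
    have e : w * c * w⁻¹ = c⁻¹ := Subtype.ext e
    have : w ^ 2 * c = c * w ^ 2 := by
      rw [← mul_inv_eq_iff_eq_mul, show w ^ 2 * c * (w ^ 2)⁻¹ = w * (w * c * w⁻¹) * w⁻¹ by rw [pow_two]; group, e,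
        show w * c⁻¹ * w⁻¹ = (w * c * w⁻¹)⁻¹ by group, e, inv_inv]
    rw [show w = (w ^ 2) ^ 2 by rw [← pow_mul, pow_succ, w3, one_mul]]
    exact (Commute.pow_left this 2).eq
  have : w.1 ∈ center SL(2, F) := hC ▸ fun s hs => by
    let s' : N := ⟨s, le_normalizer hs⟩
    have hc : ⁅s'⁻¹, w⁆ ∈ commutator N := commutator_mem_commutator trivial trivial
    have e : s'⁻¹ * w * s' = ⁅s'⁻¹, w⁆ * w := by group
    have t : (s'⁻¹ * w * s') ^ 3 = 1 := by simpa [w3] using conj_pow (a := s'⁻¹) (b := w) (i := 3)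
    rw [e, (Commute.symm (k _ hc)).mul_pow, w3, mul_one] at t
    have := c4 _ hc
    rw [pow_succ, t, one_mul, commutatorElement_eq_one_iff_commute] at this
    exact congrArg Subtype.val (Commute.inv_left_iff.1 this).eq
  have : w ^ 2 = 1 := Subtype.ext (by
    rcases (isScal_SL_iff _).1 ((mem_center_SL_iff _).1 this) with e | e <;> simp [e])
  exact absurd (hw ▸ orderOf_dvd_of_pow_eq_one this) (by norm_num)

/-- Let F be a finite field with q elements, q odd, ℓ any prime and S a Sylow ℓ-subgroup of SL₂ over F with normaliser N. Then SL₂ and N have the same number of irreducible complex characters of degree not divisible by ℓ (the McKay equality holds for SL₂ over F at every prime). -/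
theorem result {F : Type*} [Field F] [Fintype F] (hodd : Odd (Fintype.card F)) (ℓ : ℕ) [Fact ℓ.Prime] (S : Sylow ℓ (Matrix.SpecialLinearGroup (Fin 2) F)) :
    Nat.card {χ : Cfsg.IrrCharacter (Matrix.SpecialLinearGroup (Fin 2) F) // ¬ ℓ ∣ Cfsg.charDegree (χ : Matrix.SpecialLinearGroup (Fin 2) F → ℂ)} =
      Nat.card {ψ : Cfsg.IrrCharacter (Subgroup.normalizer ((S : Subgroup (Matrix.SpecialLinearGroup (Fin 2) F)) : Set (Matrix.SpecialLinearGroup (Fin 2) F))) //
        ¬ ℓ ∣ Cfsg.charDegree (ψ : Subgroup.normalizer ((S : Subgroup (Matrix.SpecialLinearGroup (Fin 2) F)) : Set (Matrix.SpecialLinearGroup (Fin 2) F)) → ℂ)} := by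
  classical
  change cn _ (¬ ℓ ∣ ·) = cn _ (¬ ℓ ∣ ·)
  have h2 := two_ne_zero_of_odd hodd
  have pl : ℓ.Prime := Fact.out
  have l1 : ¬ ℓ ∣ 1 := pl.not_dvd_one
  have dc := deg_cases hodd
  have cG := H10.card_SL2 (F := F)
  have q1 := Fintype.one_lt_card (α := F)
  have qo := Nat.odd_iff.1 hodd
  have hA : (Fintype.card F + 1) / 2 ∣ Fintype.card F + 1 := Nat.div_dvd_of_dvd (by omega)
  have hB : (Fintype.card F - 1) / 2 ∣ Fintype.card F - 1 := Nat.div_dvd_of_dvd (by omega)
  have n1 : ℓ ∣ Fintype.card F → ¬ ℓ ∣ Fintype.card F + 1 := fun a b => l1 ((Nat.dvd_add_right a).1 b)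
  have n2 : ℓ ∣ Fintype.card F → ¬ ℓ ∣ Fintype.card F - 1 := fun a b => l1 ((Nat.dvd_add_right b).1 (by
    rwa [Nat.sub_add_cancel q1.le]))
  by_cases hN : normalizer ((S : Subgroup SL(2, F)) : Set SL(2, F)) = ⊤
  · exact cn_congr (topEquiv.symm.trans (MulEquiv.subgroupCongr hN.symm)) _
  by_cases hp : ℓ ∣ Fintype.card F
  · obtain ⟨p, _⟩ := CharP.exists F
    obtain ⟨n, pp, hn⟩ := FiniteField.card F p
    obtain rfl := (Nat.prime_dvd_prime_iff_eq pl pp).1 (pl.dvd_of_dvd_pow (hn ▸ hp))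
    have h := H10.centralP'_SL (F := F) ℓ
    obtain ⟨x, hx⟩ := h.exists_sylow_eq S
    obtain ⟨s, rfl⟩ := H10.exists_SL2_smul_infty x
    have e : normalizer ((S : Subgroup SL(2, F)) : Set SL(2, F)) = (BS F).map (MulAut.conj s).toMonoidHom := by
      ext g
      rw [hx, h.mem_normalizer_pAt_iff (hx ▸ fun e => hN (by rw [e]; exact normalizer_eq_top _)), mem_map_equiv, mem_BS,
        ← inv_smul_eq_iff, ← mul_smul, ← mul_smul, ← map_inv, ← map_mul, ← map_mul, MulAut.conj_symm_apply]
      generalize s⁻¹ * g * s = y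
      obtain ⟨a, b, c, d, _, rfl⟩ := H10.slMk_surj y
      rw [H10.toPGL_slMk, H10.mob_smul_infty_eq_infty_iff]; rfl
    rw [cn_abel S fun a ha b hb => by
      rw [hx] at ha hb
      exact h.commute ha.2.choose_spec hb.2.choose_spec ha.1 hb.1, ← cn_all (fun _ => True) fun _ => trivial,
      cn_congr ((MulEquiv.subgroupCongr e).trans ((MulAut.conj s).subgroupMap _).symm),
      cn_all (fun _ => True) fun _ => trivial,
      card_conjClasses_BS h2]
    have := Fintype.ofFinite SL(2, F)
    obtain ⟨w, hw, -⟩ := H10.exists_ell_SL2 (F := F)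
    have k : ∀ χ : IrrCharacter SL(2, F), (¬ ℓ ∣ charDegree χ.1) ↔ χ ≠ ⟨StS, isIrr_StS⟩ := fun χ => not_congr
      ⟨fun d => Subtype.ext (eq_StS_of_degree hw χ.2 (by
        rw [← χ.2.coe_charDegree, Nat.cast_inj]
        rcases dc χ with e | e | e | e | e | e <;> rw [e] at d
        exacts [absurd d l1, e, absurd d (n1 hp), absurd d (n2 hp), absurd (d.trans hA) (n1 hp),
          absurd (d.trans hB) (n2 hp)])), by
        rintro rfl; rwa [charDegree_eq_of_apply_one StS_one]⟩
    rw [cn, Nat.card_congr (Equiv.subtypeEquivRight k), Nat.card_eq_fintype_card, Fintype.card_subtype_compl,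
      ← Nat.card_eq_fintype_card, card_irr_eq_card_conjClasses, S2325.result hodd]
    simp
  have c24 : ℓ = 2 → Fintype.card F % 8 = 3 ∨ Fintype.card F % 8 = 5 → Nat.card S = 8 := by
    rintro rfl h
    obtain ⟨n, hn⟩ := S.isPGroup'.exists_card_eq
    have : Nat.card SL(2, F) % 16 = 8 := by
      obtain ⟨r, hr⟩ : ∃ r, Fintype.card F = r + 1 := ⟨_, (Nat.sub_add_cancel q1.le).symm⟩
      rw [cG, hr, Nat.add_sub_cancel]
      have : r % 16 = 2 ∨ r % 16 = 4 ∨ r % 16 = 10 ∨ r % 16 = 12 := by omega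
      rcases this with h | h | h | h <;> simp [Nat.mul_mod, Nat.add_mod, h]
    have d1 : 2 ^ 3 ∣ Nat.card S := S.pow_dvd_card_of_pow_dvd_card (by omega)
    have d2 := (S : Subgroup SL(2, F)).card_subgroup_dvd_card
    rw [hn] at d1 d2 ⊢
    have := (Nat.pow_dvd_pow_iff_le_right one_lt_two).1 d1
    have : ¬ 4 ≤ n := fun h => by have := (pow_dvd_pow 2 h).trans d2; omega
    rw [show n = 3 by omega]; rfl
  have o2 : ℓ ≠ 2 → ℓ ∣ Fintype.card F - 1 ∨ ℓ ∣ Fintype.card F + 1 := fun _ => by
    by_contra! k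
    have : ¬ ℓ ∣ Nat.card SL(2, F) := by rw [cG]; simp [pl.dvd_mul, hp, k]
    obtain ⟨n, hn⟩ := S.isPGroup'.exists_card_eq
    obtain rfl : n = 0 := by_contra fun n0 => this ((dvd_pow_self _ n0).trans (hn ▸ card_subgroup_dvd_card _))
    exact hN (by rw [card_eq_one.1 hn]; exact normalizer_eq_top _)
  have q5 : 5 ≤ Fintype.card F := by
    by_contra k
    have q3 : Fintype.card F = 3 := by omega
    by_cases l2 : ℓ = 2
    · subst l2
      exact hN (eq_top_of_card_eq _ (by rw [(S2431.result hodd S).2.2 (by omega), c24 rfl (by omega), cG, q3]))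
    · rw [q3] at o2
      exact l2 ((Nat.prime_dvd_prime_iff_eq pl Nat.prime_two).1 ((o2 l2).elim id fun h => pl.dvd_of_dvd_pow (n := 2) h))
  obtain ⟨m1, m2, m3, m4, m5, m6⟩ := (S2299.result hodd).2 q5
  rw [← cn_eq Nat.cast_one.symm] at m1
  rw [← cn_eq rfl] at m2 m5 m6
  rw [← cn_eq (Nat.cast_add_one _).symm] at m3
  rw [← cn_eq (Nat.cast_pred Fintype.card_pos).symm] at m4
  have s4 : ∀ {a b c d : ℕ} (f : ℕ → ℕ), a < b → b < c → c < d → ∑ i ∈ {a, b, c, d}, f i = f a + f b + f c + f d :=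
    fun f _ _ _ => by rw [Finset.sum_insert (by simp; omega), Finset.sum_insert (by simp; omega),
      Finset.sum_pair (by omega)]; ring
  by_cases l2 : ℓ = 2
  · subst l2
    trans 4
    · rw [cn_sum _ {1, if Fintype.card F % 4 = 1 then (Fintype.card F + 1) / 2 else (Fintype.card F - 1) / 2,
        Fintype.card F} fun χ => by have := dc χ; simp; split_ifs <;> omega,
        Finset.sum_insert (by simp; split_ifs <;> omega), Finset.sum_pair (by split_ifs <;> omega), m1, m2]
      split_ifs <;> omega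
    obtain ⟨hC, h1, h3⟩ := S2431.result hodd S
    by_cases h : Fintype.card F % 8 = 1 ∨ Fintype.card F % 8 = 7
    · rw [cn_congr (MulEquiv.subgroupCongr (h1 h))]
      obtain ⟨t, -, t0, hle, hn⟩ := sylow_two h2 S
      have hr := rs_of_trace_zero h2 t0
      have i2 := hr.index_subgroupOf hle hn
      have : ((C2 t).subgroupOf S).Normal := normal_of_index_eq_two i2
      have d : ∀ χ : IrrCharacter S, charDegree χ.1 ∈ ({1, 2} : Finset ℕ) := fun χ => by
        simpa using (Nat.dvd_prime Nat.prime_two).1 ((H6.ito_degree_dvd ((C2 t).subgroupOf S)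
          (fun _ ha _ hb => Subtype.ext (C2_comm hr.not_isScal ha hb)) χ.2).trans i2.dvd)
      have e1 := sum_sq _ d
      have e2 := (cn_all (fun _ => True) fun _ => trivial).symm.trans (cn_sum _ _ fun χ => (iff_true_intro (d χ)).symm)
      have e3 := hr.card_conjClasses_of_le h2 hle hn (neg_one_mem_sylow_two S)
      rw [cn_sum _ {1} fun χ => by have := d χ; simp at this ⊢; omega]
      simp only [Finset.sum_pair (show 1 ≠ 2 by omega), Finset.sum_singleton] at e1 e2 ⊢
      omega
    have h : Fintype.card F % 8 = 3 ∨ Fintype.card F % 8 = 5 := by omega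
    have cN := h3 h
    rw [c24 rfl h] at cN
    have e1 := (cn_eq Nat.cast_one.symm).trans (card_linear_irr.trans (comm_eq h2 (c24 rfl h) cN hC))
    generalize hn : normalizer ((S : Subgroup SL(2, F)) : Set SL(2, F)) = N at cN e1
    have d : ∀ χ : IrrCharacter N, charDegree χ.1 ∈ ({1, 2, 3, 4} : Finset ℕ) := fun χ => by
      have := Finset.single_le_sum (f := fun d => cn N (· = d) * d ^ 2) (fun _ _ => Nat.zero_le _)
        (Finset.mem_image_of_mem (fun χ : IrrCharacter N => charDegree χ.1) (Finset.mem_univ χ))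
      rw [sum_sq _ fun χ => Finset.mem_image_of_mem (fun χ : IrrCharacter N => charDegree χ.1) (Finset.mem_univ χ),
        cN] at this
      have p : 0 < cn N (· = charDegree χ.1) := Nat.card_pos_iff.2 ⟨⟨⟨χ, rfl⟩⟩, inferInstance⟩
      have := (Nat.le_mul_of_pos_left _ p).trans this
      have := χ.2.charDegree_pos
      have : charDegree χ.1 < 5 := by nlinarith
      simp; omega
    have e2 := sum_sq _ d
    rw [cn_sum _ {1, 3} fun χ => by have := d χ; simp at this ⊢; omega, Finset.sum_pair (by omega)]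
    rw [s4 _ (by omega) (by omega) (by omega)] at e2
    omega
  obtain ⟨g, hr, gS, hle, c1, c2⟩ := sylow_odd l2 S (o2 l2)
  have e := hr.card_conjClasses_norm h2
  rw [cn_abel S fun a ha b hb => C2_comm hr.not_isScal (hle ha) (hle hb), hr.normalizer_eq gS hle]
  have cp := (Nat.coprime_primes pl Nat.prime_two).2 l2
  have n3 : ℓ ∣ Fintype.card F - 1 → ¬ ℓ ∣ Fintype.card F + 1 := fun a b => l2 ((Nat.prime_dvd_prime_iff_eq pl
    Nat.prime_two).1 ((Nat.dvd_add_right a).1 (by rwa [show Fintype.card F - 1 + 2 = Fintype.card F + 1 by omega])))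
  rcases o2 l2 with h | h
  · have h' : ℓ ∣ (Fintype.card F - 1) / 2 := cp.dvd_of_dvd_mul_left (by rwa [Nat.mul_div_cancel' (by omega)])
    rw [cn_sum _ {1, (Fintype.card F + 1) / 2, Fintype.card F, Fintype.card F + 1} fun χ => by
      rcases dc χ with e | e | e | e | e | e <;> simp [e, l1, hp, n3 h, h, h', mt (dvd_trans · hA) (n3 h)] <;> omega,
      s4 _ (by omega) (by omega) (by omega)]
    have := c1 h
    omega
  · have h' : ℓ ∣ (Fintype.card F + 1) / 2 := cp.dvd_of_dvd_mul_left (by rwa [Nat.mul_div_cancel' (by omega)])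
    have n4 := mt n3 (not_not.2 h)
    rw [cn_sum _ {1, (Fintype.card F - 1) / 2, Fintype.card F - 1, Fintype.card F} fun χ => by
      rcases dc χ with e | e | e | e | e | e <;> simp [e, l1, hp, n4, h, h', mt (dvd_trans · hB) n4] <;> omega,
      s4 _ (by omega) (by omega) (by omega)]
    have := c2 h
    omega

end Cfsg.Agent.S2436
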