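import Cfsg.Statements.S2438
import Cfsg.Agent.H24.SL2Table

set_option autoImplicit false
open Cfsg

namespace Cfsg.Agent.S2438

open H24 H5 Matrix

/-- Let F be a finite field with q elements, q odd, q ≥ 5, U the upper unitriangular subgroup of SL₂ over F, and χ an irreducible complex character. The sum of the values of χ over U equals 2q, q, 0, q, 0 according as the degree of χ is q + 1, q, q − 1, (q + 1)/2, (q − 1)/2; so among these five degrees the sum vanishes exactly for the degrees q − 1 and (q − 1)/2, i.e. the irreducible characters of those two degrees are the ones whose restriction to U does not contain the trivial character (the cuspidal characters), while those of degree q + 1, q and (q + 1)/2 are not cuspidal. -/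
theorem result {F : Type*} [Field F] [Fintype F] [DecidableEq F] (hodd : Odd (Fintype.card F)) (hq : 5 ≤ Fintype.card F)
    (χ : Matrix.SpecialLinearGroup (Fin 2) F → ℂ) (hχ : Cfsg.IsIrrCharacter (Matrix.SpecialLinearGroup (Fin 2) F) χ) :
    (χ 1 = (Fintype.card F : ℂ) + 1 →
      (∑ g : Matrix.SpecialLinearGroup (Fin 2) F, if (g : Matrix (Fin 2) (Fin 2) F) 1 0 = 0 ∧ (g : Matrix (Fin 2) (Fin 2) F) 0 0 = 1 ∧ (g : Matrix (Fin 2) (Fin 2) F) 1 1 = 1 then χ g else 0) = 2 * (Fintype.card F : ℂ)) ∧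
    (χ 1 = (Fintype.card F : ℂ) →
      (∑ g : Matrix.SpecialLinearGroup (Fin 2) F, if (g : Matrix (Fin 2) (Fin 2) F) 1 0 = 0 ∧ (g : Matrix (Fin 2) (Fin 2) F) 0 0 = 1 ∧ (g : Matrix (Fin 2) (Fin 2) F) 1 1 = 1 then χ g else 0) = (Fintype.card F : ℂ)) ∧
    (χ 1 = (Fintype.card F : ℂ) - 1 →
      (∑ g : Matrix.SpecialLinearGroup (Fin 2) F, if (g : Matrix (Fin 2) (Fin 2) F) 1 0 = 0 ∧ (g : Matrix (Fin 2) (Fin 2) F) 0 0 = 1 ∧ (g : Matrix (Fin 2) (Fin 2) F) 1 1 = 1 then χ g else 0) = 0) ∧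
    (χ 1 = (((Fintype.card F + 1) / 2 : ℕ) : ℂ) →
      (∑ g : Matrix.SpecialLinearGroup (Fin 2) F, if (g : Matrix (Fin 2) (Fin 2) F) 1 0 = 0 ∧ (g : Matrix (Fin 2) (Fin 2) F) 0 0 = 1 ∧ (g : Matrix (Fin 2) (Fin 2) F) 1 1 = 1 then χ g else 0) = (Fintype.card F : ℂ)) ∧
    (χ 1 = (((Fintype.card F - 1) / 2 : ℕ) : ℂ) →
      (∑ g : Matrix.SpecialLinearGroup (Fin 2) F, if (g : Matrix (Fin 2) (Fin 2) F) 1 0 = 0 ∧ (g : Matrix (Fin 2) (Fin 2) F) 0 0 = 1 ∧ (g : Matrix (Fin 2) (Fin 2) F) 1 1 = 1 then χ g else 0) = 0) := by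
  have h2 := two_ne_zero_of_odd hodd
  obtain ⟨w, hw⟩ := exists_ell_SL (F := F)
  have key : (∑ g : Matrix.SpecialLinearGroup (Fin 2) F, if (g : M2 F) 1 0 = 0 ∧ (g : M2 F) 0 0 = 1 ∧
      (g : M2 F) 1 1 = 1 then χ g else 0) = ∑ t : F, χ (upSL 1 t (mul_one 1)) := by
    symm
    refine Fintype.sum_of_injective (fun t => upSL 1 t (mul_one 1))
      (fun a b e => congrArg (fun z : Matrix.SpecialLinearGroup (Fin 2) F => (z : M2 F) 0 1) e) _ _ ?_ ?_
    · intro g hg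
      exact if_neg fun h => hg ⟨(g : M2 F) 0 1, SL_ext (ext2 h.2.1.symm rfl h.1.symm h.2.2.symm)⟩
    · intro t
      exact (if_pos ⟨rfl, rfl, rfl⟩).symm
  have k2 : ∀ (φ : Matrix.SpecialLinearGroup (Fin 2) F → ℂ) (c : ℂ),
      (∀ g : Matrix.SpecialLinearGroup (Fin 2) F, ¬ IsScal (g : M2 F) → (g : M2 F).trace = 1 + 1 → φ g = c) →
      ∑ t : F, φ (upSL 1 t (mul_one 1)) = φ 1 + ((Fintype.card F : ℂ) - 1) * c := by
    intro φ c h
    rw [← sum_ite_zero]
    refine Finset.sum_congr rfl fun t _ => ?_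
    split_ifs with ht
    · congr 1
      apply SL_ext; apply ext2 <;> simp [upSL, ht]
    · exact h _ (by rwa [isScal_upSL_iff]) (trace_upSL _ _ _)
  have k3 : ∀ α : MulChar F ℂ, ∑ t : F, WS α (upSL 1 t (mul_one 1)) = 2 * Fintype.card F := fun α => by
    rw [k2 _ 1 fun g h1 h3 => by rw [WS_par α h1 h3 (mul_one 1), map_one], WS_one]; ring
  have k4 : ∀ θ, ∑ t : F, cuspS hw θ (upSL 1 t (mul_one 1)) = 0 := fun θ => by
    rw [k2 _ (-1) fun g h1 h3 => cuspS_unip hw θ h1 h3, cuspS_one]; ring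
  rw [key]
  refine ⟨fun h => ?_, fun h => ?_, fun h => ?_, fun h => ?_, fun h => ?_⟩
  · obtain ⟨α, -, rfl⟩ := eq_WS_of_degree hw hχ h
    exact k3 α
  · rw [eq_StS_of_degree hw hχ h, k2 _ 0 fun g h1 h3 => StS_par h1 h3 (mul_one 1), StS_one]; ring
  · obtain ⟨θ, -, rfl⟩ := eq_cuspS_of_degree hw hχ (by omega) h
    exact k4 θ
  · obtain ⟨α, ψ, -, -, H⟩ := halves_WS_of_degree hw hχ hodd hq h
    have := H.sum_upSL h2
    rw [k3] at this
    linear_combination (-1 / 2) * this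
  · obtain ⟨α, ψ, -, -, H⟩ := halves_cuspS_of_degree hw hχ hodd hq h
    have := H.sum_upSL h2
    rw [k4] at this
    linear_combination (-1 / 2) * this

end Cfsg.Agent.S2438
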