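import Cfsg.Statements.S2442
import Cfsg.Agent.H19.Gr2

set_option autoImplicit false
open scoped MatrixGroups
open Cfsg

namespace Cfsg.Agent.S2442

open Classical in
/-- Let F be a finite field with q elements and n ≥ 2. Call a complex character χ of GL_n over F cuspidal when, for every 0 < m < n, the sum of χ over the subgroup of matrices that agree with the identity outside the upper right m × (n − m) block vanishes (the restriction of χ to the unipotent radical of each maximal standard parabolic subgroup contains no principal constituent). Then GL_n has at least φ(qⁿ − 1)/n distinct cuspidal irreducible characters of degree (q − 1)(q² − 1)⋯(q^(n−1) − 1), φ being Euler's function (in particular at least one). -/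
theorem result {F : Type*} [Field F] [Fintype F] [DecidableEq F] (n : ℕ) (hn : 2 ≤ n) :
    Nat.totient (Fintype.card F ^ n - 1) / n ≤
      Nat.card {χ : Cfsg.IrrCharacter (GL (Fin n) F) //
        (χ : GL (Fin n) F → ℂ) 1 = ∏ i ∈ Finset.Ico 1 n, ((Fintype.card F : ℂ) ^ i - 1) ∧
        ∀ m : ℕ, 0 < m → m < n →
          (∑ g : GL (Fin n) F,
            if (∀ i j : Fin n, ¬ (i.val < m ∧ m ≤ j.val) → (g : Matrix (Fin n) (Fin n) F) i j = (1 : Matrix (Fin n) (Fin n) F) i j)
            then (χ : GL (Fin n) F → ℂ) g else 0) = 0} := by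
  obtain ⟨χ, h⟩ := H19.Gr.cuspidal (F := F) hn
  refine Nat.div_le_of_le_mul ((Finset.card_le_mul_card_image (f := χ) _ n fun ψ hψ => ?_).trans (Nat.mul_le_mul_left n ?_))
  · obtain ⟨a, ha, rfl⟩ := Finset.mem_image.1 hψ
    refine (Finset.card_le_card (t := (Finset.range n).image fun i => Fintype.card F ^ i * a % (Fintype.card F ^ n - 1)) fun c hc => ?_).trans
      (Finset.card_image_le.trans (Finset.card_range n).le)
    simp only [Finset.mem_filter, Finset.mem_range] at ha hc
    obtain ⟨i, hi, e⟩ := (h c hc.1.2).2.2.2 a ha.2 hc.2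
    exact Finset.mem_image.2 ⟨i, Finset.mem_range.2 hi, Eq.trans e.symm (Nat.mod_eq_of_lt hc.1.1)⟩
  rw [← Nat.card_eq_finsetCard]
  have k (ψ) (hψ : ψ ∈ Finset.image χ {a ∈ Finset.range (Fintype.card F ^ n - 1) | (Fintype.card F ^ n - 1).Coprime a}) :
      ∃ a, (Fintype.card F ^ n - 1).Coprime a ∧ ψ = χ a := by
    obtain ⟨a, ha, rfl⟩ := Finset.mem_image.1 hψ
    exact ⟨a, (Finset.mem_filter.1 ha).2, rfl⟩
  refine Nat.card_le_card_of_injective (fun ψ => ⟨⟨ψ.1, ?_⟩, ?_, fun m h0 h1 => ?_⟩) fun _ _ e => Subtype.ext (congrArg (·.1.1) e) <;>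
    obtain ⟨a, ha, e⟩ := k _ ψ.2
  · exact e ▸ (h a ha).1
  · exact (congrFun e 1).trans (h a ha).2.1
  · obtain ⟨b, c, hb, e'⟩ := (h a ha).2.2.1
    simp only [e, e']
    convert H19.Gr.cusp hb c h0 h1

end Cfsg.Agent.S2442
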