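import Cfsg.Statements.S2500
import Cfsg.Agent.H16.Cv5

set_option autoImplicit false
open Cfsg

namespace Cfsg.Agent.S2500


/-- The infinite families of simple groups with normal covering number 2. For a finite field F: each of PSL_2(F) (|F| ≥ 4), PSL_3(F), PSL_4(F), PSU_4 over F (|F| = q²), PSU_3 over F when |F| = q² with q a power of 3, PSp_{2m}(F) for |F| even, m ≥ 2 and (m, |F|) ≠ (2, 2), PSp_6(F) for |F| a power of 3, and G_2(F) (automorphisms of the split octonions) for |F| = 2^a ≥ 4 is the union of the conjugates of two proper subgroups: there are proper subgroups H, K such that every element is conjugate into H or into K. -/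
theorem result {F : Type} [Field F] [Fintype F] :
    (4 ≤ Fintype.card F → (∃ H K : Subgroup (Matrix.ProjectiveSpecialLinearGroup (Fin 2) F), H ≠ ⊤ ∧ K ≠ ⊤ ∧ ∀ g : (Matrix.ProjectiveSpecialLinearGroup (Fin 2) F), ∃ x : (Matrix.ProjectiveSpecialLinearGroup (Fin 2) F), x * g * x⁻¹ ∈ H ∨ x * g * x⁻¹ ∈ K)) ∧
    (∃ H K : Subgroup (Matrix.ProjectiveSpecialLinearGroup (Fin 3) F), H ≠ ⊤ ∧ K ≠ ⊤ ∧ ∀ g : (Matrix.ProjectiveSpecialLinearGroup (Fin 3) F), ∃ x : (Matrix.ProjectiveSpecialLinearGroup (Fin 3) F), x * g * x⁻¹ ∈ H ∨ x * g * x⁻¹ ∈ K) ∧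
    (∃ H K : Subgroup (Matrix.ProjectiveSpecialLinearGroup (Fin 4) F), H ≠ ⊤ ∧ K ≠ ⊤ ∧ ∀ g : (Matrix.ProjectiveSpecialLinearGroup (Fin 4) F), ∃ x : (Matrix.ProjectiveSpecialLinearGroup (Fin 4) F), x * g * x⁻¹ ∈ H ∨ x * g * x⁻¹ ∈ K) ∧
    (∀ q : ℕ, Fintype.card F = q ^ 2 → (∃ H K : Subgroup (Cfsg.PSU 4 F q), H ≠ ⊤ ∧ K ≠ ⊤ ∧ ∀ g : (Cfsg.PSU 4 F q), ∃ x : (Cfsg.PSU 4 F q), x * g * x⁻¹ ∈ H ∨ x * g * x⁻¹ ∈ K)) ∧
    (∀ q a : ℕ, Fintype.card F = q ^ 2 → 1 ≤ a → q = 3 ^ a → (∃ H K : Subgroup (Cfsg.PSU 3 F q), H ≠ ⊤ ∧ K ≠ ⊤ ∧ ∀ g : (Cfsg.PSU 3 F q), ∃ x : (Cfsg.PSU 3 F q), x * g * x⁻¹ ∈ H ∨ x * g * x⁻¹ ∈ K)) ∧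
    (∀ m : ℕ, 2 ≤ m → ¬ Odd (Fintype.card F) → ¬ (m = 2 ∧ Fintype.card F = 2) → (∃ H K : Subgroup (Cfsg.PSp m F), H ≠ ⊤ ∧ K ≠ ⊤ ∧ ∀ g : (Cfsg.PSp m F), ∃ x : (Cfsg.PSp m F), x * g * x⁻¹ ∈ H ∨ x * g * x⁻¹ ∈ K)) ∧
    (∀ a : ℕ, 1 ≤ a → Fintype.card F = 3 ^ a → (∃ H K : Subgroup (Cfsg.PSp 3 F), H ≠ ⊤ ∧ K ≠ ⊤ ∧ ∀ g : (Cfsg.PSp 3 F), ∃ x : (Cfsg.PSp 3 F), x * g * x⁻¹ ∈ H ∨ x * g * x⁻¹ ∈ K)) ∧
    (∀ a : ℕ, 2 ≤ a → Fintype.card F = 2 ^ a → (∃ H K : Subgroup (Cfsg.Lie.G2 F), H ≠ ⊤ ∧ K ≠ ⊤ ∧ ∀ g : (Cfsg.Lie.G2 F), ∃ x : (Cfsg.Lie.G2 F), x * g * x⁻¹ ∈ H ∨ x * g * x⁻¹ ∈ K)) := by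
  refine ⟨fun _ => H16.Cv.psl2, H16.Cv.psl3, H16.Cv.psl4, fun q hq => ?_, fun q a hq ha h3 => ?_,
    fun m hm h1 h2 => ?_, fun a ha h => ?_, fun a ha h => ?_⟩
  · obtain ⟨σ, h1, hσ, hne⟩ := H11.exists_frob hq
    have hS := H11.stdUnit_nondeg hσ hne (Fin 4)
    exact ((H16.Cv.su4 hne hS (by simp)).quot (hS.unit_isSimple hne (q := q) (by simpa using hq)
      (by simp) (by simp)).1).equiv (H11.centerQuotCongr (H11.suEquiv hσ hne h1 4)).symm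
  · obtain ⟨σ, h1, hσ, hne⟩ := H11.exists_frob hq
    have : CharP F 3 := charP_of_card_eq_prime_pow (p := 3) (f := a * 2) (by rw [hq, h3, pow_mul])
    have hS := H11.stdUnit_nondeg hσ hne (Fin 3)
    have hG := (hS.unit_isSimple hne (q := q) (by simpa using hq) (by simp) (by
      rintro ⟨-, h⟩
      have := Nat.pow_le_pow_right (show 0 < 3 by omega) ha
      omega)).1
    exact ((H16.Cv.su3 hne hS h1 h3 (by simp) hG).quot hG).equiv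
      (H11.centerQuotCongr (H11.suEquiv hσ hne h1 3)).symm
  · have : CharP F 2 := by
      have := FiniteField.even_card_iff_char_two (F := F)
      rw [Nat.not_odd_iff_even, Nat.even_iff] at h1
      exact ringChar.of_eq (this.2 h1)
    refine ((H16.Cv.sp_even hm).quot ((H11.stdSymp_nondeg m).symp_commutator_eq_top ?_)).equiv
      (H11.centerQuotCongr (H11.spEquiv m F)).symm
    rw [H11.finrank_sum_fun]
    by_cases h3 : m = 2
    · have := Fintype.one_lt_card (α := F)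
      exact Or.inr (Or.inl ⟨by omega, H11.exists_ne_zero_ne_one (by
        rw [Nat.card_eq_fintype_card]; omega)⟩)
    · exact Or.inl (by omega)
  · have : CharP F 3 := charP_of_card_eq_prime_pow (p := 3) h
    have hS := H11.stdSymp_nondeg (F := F) 3
    have h6 := H11.finrank_sum_fun (F := F) 3
    exact ((H16.Cv.sp6 hS h6).quot (hS.symp_commutator_eq_top (Or.inl h6.ge))).equiv
      (H11.centerQuotCongr (H11.spEquiv 3 F)).symm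
  · have : CharP F 2 := charP_of_card_eq_prime_pow (p := 2) h
    exact H16.Cv.g2 (H11.exists_ne_zero_ne_one (by
      have := Nat.pow_le_pow_right (show 0 < 2 by omega) ha
      rw [Nat.card_eq_fintype_card]; omega))

end Cfsg.Agent.S2500
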