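import Cfsg.Statements.S2531


set_option autoImplicit false
open Cfsg

namespace Cfsg.Agent.S2531

open Projectivization in
theorem cnt {F V : Type*} [Field F] [Finite F] [AddCommGroup V] [Module F V] [Finite V] (W : Submodule F V)
    (hW : W ≠ ⊥) : (({x : Projectivization F V | x.rep ∈ W}.ncard : ℕ) : F) = 1 := by
  have e : {x : Projectivization F V | x.rep ∈ W} = Set.range (map W.subtype W.injective_subtype) := by
    ext x
    constructor
    · intro h
      exact ⟨mk F ⟨x.rep, h⟩ fun e => x.rep_nonzero (congrArg Subtype.val e), by rw [map_mk]; exact x.mk_rep⟩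
    · rintro ⟨y, rfl⟩
      induction y using Projectivization.ind with
      | h v hv =>
        rw [map_mk]
        obtain ⟨a, ha⟩ := exists_smul_eq_mk_rep F (W.subtype v) (fun e => hv (Subtype.ext e))
        show Projectivization.rep _ ∈ W
        rw [← ha]
        exact W.smul_mem _ v.2
  rw [e, Set.ncard_range_of_injective (map_injective _ _)]
  have := Fintype.ofFinite F
  have h1 := congrArg (Nat.cast : ℕ → F) (card' F W)
  have h2 : Module.finrank F W ≠ 0 := by rwa [Ne, Submodule.finrank_eq_zero]
  rw [Module.natCard_eq_pow_finrank (K := F)] at h1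
  push_cast [Nat.cast_sub (Finite.one_lt_card (α := F)).le] at h1
  rw [Nat.card_eq_fintype_card (α := F), FiniteField.cast_card_eq_zero, zero_pow h2] at h1
  linear_combination h1


/-- Let `F` be a finite field and `n ≥ 3`. No set of permutations of the points of the projective space of `Fⁿ`, each induced by an invertible semilinear transformation of `Fⁿ` (so a subset of the full projective semilinear group), is sharply 2-transitive on the points: it is impossible that for all pairs of distinct points `(a, b)` and `(c, d)` exactly one member of the set sends `a` to `c` and `b` to `d`. -/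
theorem result {F : Type*} [Field F] [Finite F]
    (n : ℕ) (hn : 3 ≤ n) (S : Set (Equiv.Perm (Projectivization F (Fin n → F))))
    (hS : ∀ s ∈ S, ∃ (σ : F ≃+* F) (f : (Fin n → F) →ₛₗ[(σ : F →+* F)] (Fin n → F)) (hf : Function.Injective f),
      ∀ x, s x = Projectivization.map f hf x) :
    ¬ (∀ a b c d : Projectivization F (Fin n → F), a ≠ b → c ≠ d →
        ∃! s, s ∈ S ∧ s a = c ∧ s b = d) := by
  classical
  intro h
  have := Fintype.ofFinite (Projectivization F (Fin n → F))
  let o : Fin n := ⟨0, by omega⟩
  have ne : ∀ φ ψ : (Fin n → F) →ₗ[F] F, LinearMap.ker φ ⊓ LinearMap.ker ψ ≠ ⊥ := fun φ ψ e => by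
    rw [← LinearMap.ker_prod, LinearMap.ker_eq_bot] at e
    have := LinearMap.finrank_le_finrank_of_injective e
    simp at this
    omega
  let H : Finset (Projectivization F (Fin n → F)) := {x | x.rep o = 0}
  have cn : ∀ (W : Submodule F (Fin n → F)) (T : Finset (Projectivization F (Fin n → F))), W ≠ ⊥ →
      (∀ x, x ∈ T ↔ x.rep ∈ W) → (T.card : F) = 1 := fun W T hW hT => by
    rw [← cnt W hW, ← Set.ncard_coe_finset]
    congr 2
    exact Set.ext hT
  have cH : (H.card : F) = 1 := cn _ _ (ne (.proj o) (.proj o)) fun x => by simp [H]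
  have cU : ((Finset.univ : Finset (Projectivization F (Fin n → F))).card : F) = 1 :=
    cn ⊤ _ (ne_bot_of_le_ne_bot (ne 0 0) le_top) fun x => by simp
  let p := Projectivization.mk F (Pi.single o (1 : F) : Fin n → F) (by simp)
  have pH : ∀ x ∈ H, p ≠ x := by
    rintro x hx rfl
    obtain ⟨a, ha⟩ := Projectivization.exists_smul_eq_mk_rep F (Pi.single o (1 : F) : Fin n → F) (by simp)
    simp [H, p, ← ha, Units.smul_def] at hx
  obtain ⟨b, hb⟩ : H.Nonempty := Finset.card_pos.1 (Nat.pos_of_ne_zero fun e => by simp [e] at cH)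
  let T : Finset (Equiv.Perm (Projectivization F (Fin n → F))) := {s | s ∈ S ∧ s p = p}
  have cT : (T.card : F) = 0 := by
    rw [Finset.card_bij (t := Finset.univ.erase p) (fun s _ => s b), Finset.card_erase_of_mem (Finset.mem_univ _),
      Nat.cast_sub (Finset.card_pos.2 ⟨p, Finset.mem_univ _⟩), cU, Nat.cast_one, sub_self]
    · intro s hs
      simp only [T, Finset.mem_filter, Finset.mem_univ, true_and] at hs
      exact Finset.mem_erase.2 ⟨fun e => pH b hb (s.injective (hs.2.trans e.symm)), Finset.mem_univ _⟩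
    · intro s hs t ht e
      simp only [T, Finset.mem_filter, Finset.mem_univ, true_and] at hs ht
      exact (h p b p (t b) (pH b hb) fun k => pH b hb (t.injective (ht.2.trans k))).unique ⟨hs.1, hs.2, e⟩
        ⟨ht.1, ht.2, rfl⟩
    · intro d hd
      obtain ⟨s, hs, -⟩ := h p b p d (pH b hb) (Finset.mem_erase.1 hd).1.symm
      exact ⟨s, by simp [T, hs], hs.2.2⟩
  have c1 : ∀ x ∈ H, (T.filter fun s => s x ∈ H).card = H.card := fun x hx => by
    refine Finset.card_bij (fun s _ => s x) (fun s hs => (Finset.mem_filter.1 hs).2) (fun s hs t ht e => ?_)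
      fun d hd => ?_
    · simp only [T, Finset.mem_filter, Finset.mem_univ, true_and] at hs ht
      exact (h p x p (t x) (pH x hx) (pH _ ht.2)).unique ⟨hs.1.1, hs.1.2, e⟩ ⟨ht.1.1, ht.1.2, rfl⟩
    · obtain ⟨s, hs, -⟩ := h p x p d (pH x hx) (pH d hd)
      exact ⟨s, by simp [T, hs, hd], hs.2.2⟩
  have c2 : ∀ s ∈ T, ((H.filter fun x => s x ∈ H).card : F) = 1 := fun s hs => by
    obtain ⟨σ, f, hf, e⟩ := hS s (Finset.mem_filter.1 hs).2.1
    let ψ : (Fin n → F) →ₗ[F] F := ⟨⟨fun v => σ.symm (f v o), fun v w => by simp⟩, fun c v => by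
      simp [LinearMap.map_smulₛₗ]⟩
    refine cn _ _ (ne (.proj o) ψ) fun x => ?_
    obtain ⟨a, ha⟩ := Projectivization.exists_smul_eq_mk_rep F (f x.rep) fun k => x.rep_nonzero (hf (by simp [k]))
    have : s x = Projectivization.mk F (f x.rep) fun k => x.rep_nonzero (hf (by simp [k])) := by
      rw [e, ← Projectivization.map_mk f hf _ x.rep_nonzero, x.mk_rep]
    simp [H, this, ← ha, ψ, Units.smul_def]
  have := congrArg (Nat.cast : ℕ → F) (Finset.sum_card_bipartiteAbove_eq_sum_card_bipartiteBelow
    (s := T) (t := H) fun s x => s x ∈ H)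
  simp only [Finset.bipartiteAbove, Finset.bipartiteBelow] at this
  rw [Finset.sum_congr rfl c1, Nat.cast_sum, Finset.sum_congr rfl c2] at this
  simp [cT, cH] at this

end Cfsg.Agent.S2531
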