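import Cfsg.Statements.S2532
import Mathlib

set_option autoImplicit false
open Cfsg

namespace Cfsg.Agent.S2532

open MulAction Equiv Equiv.Perm

/-- There is a function `f` of two natural-number arguments such that, whenever `m ≥ f(n, r)`, every subgroup of order `n` of the alternating group of degree `m` centralizes some subgroup of that alternating group isomorphic to the alternating group of degree `r`. -/
theorem result :
    ∃ f : ℕ → ℕ → ℕ, ∀ (m r : ℕ) (H : Subgroup ↥(alternatingGroup (Fin m))), f (Nat.card H) r ≤ m →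
      ∃ K : Subgroup ↥(alternatingGroup (Fin m)), Nonempty (↥K ≃* ↥(alternatingGroup (Fin r))) ∧
        K ≤ Subgroup.centralizer (H : Set ↥(alternatingGroup (Fin m))) := by
  classical
  refine ⟨fun n r => 2 ^ n * r * n + 1, fun m r H hm => ?_⟩
  let Ω := Quotient (orbitRel H (Fin m))
  have := Fintype.ofFinite (Subgroup H)
  have := Fintype.ofFinite Ω
  have h1 : m ≤ Fintype.card Ω * Nat.card H := by
    have := Nat.card_le_card_of_surjective (fun x : Ω × H => x.2 • x.1.out) fun x => by
      obtain ⟨g, hg⟩ := orbitRel_apply.1 (Quotient.exact (Quotient.out_eq (Quotient.mk _ x : Ω)).symm)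
      exact ⟨(_, g), hg⟩
    simpa using this
  have h2 : Fintype.card (Subgroup H) ≤ 2 ^ Nat.card H := by
    simpa using Nat.card_le_card_of_injective _ (SetLike.coe_injective (A := Subgroup H))
  obtain ⟨D, hD⟩ := Fintype.exists_lt_card_fiber_of_mul_lt_card (fun ω : Ω => stabilizer H ω.out) (n := r)
    ((Nat.mul_le_mul_right _ h2).trans_lt (Nat.lt_of_mul_lt_mul_right (hm.trans h1)))
  obtain ⟨ι⟩ : Nonempty (Fin r ↪ _) := Function.Embedding.nonempty_of_card_le
    ((Fintype.card_fin r).trans_le (hD.le.trans (Fintype.card_coe _).ge))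
  have hι : ∀ i, stabilizer H (ι i).1.out = D := fun i => (Finset.mem_filter.1 (ι i).2).2
  have := Fintype.ofFinite (H ⧸ D)
  have o : ∀ i (g k : H), g • (ι i).1.out = k • (ι i).1.out ↔ (g : H ⧸ D) = k := fun i g k => by
    rw [QuotientGroup.eq, ← SetLike.ext_iff.1 (hι i), mem_stabilizer_iff, mul_smul, inv_smul_eq_iff, eq_comm]
  let e : Fin r × (H ⧸ D) ↪ Fin m := ⟨fun x => x.2.out • (ι x.1).1.out, fun x y h => by
    have : x.1 = y.1 := ι.injective (Subtype.ext (Quotient.out_equiv_out.1 (orbitRel_apply.2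
      ⟨x.2.out⁻¹ * y.2.out, (mul_smul ..).trans (inv_smul_eq_iff.2 h.symm)⟩)))
    exact Prod.ext this (Quotient.out_equiv_out.1 (Quotient.exact ((o y.1 _ _).1 (by simpa only [this] using h))))⟩
  have he : ∀ (g : H) i c, g • e (i, c) = e (i, g • c) := fun g i c =>
    (mul_smul ..).symm.trans ((o _ _ _).2 (by simp [← smul_eq_mul]))
  let φ : Perm (Fin r) →* Perm (Fin m) := (viaEmbeddingHom e).comp
    (MonoidHom.mk' (fun σ => prodCongrLeft fun _ => σ) fun _ _ => rfl)
  let ψ : alternatingGroup (Fin r) →* alternatingGroup (Fin m) :=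
    (φ.comp (Subgroup.subtype _)).codRestrict _ fun σ => by
      change sign (viaEmbedding (prodCongrLeft fun _ => σ.1) e) = 1
      simp only [viaEmbedding, sign_extendDomain]
      convert (sign_prodCongrLeft fun _ : H ⧸ D => σ.1).trans (c := 1) (by simp [mem_alternatingGroup.1 σ.2])
  refine ⟨ψ.range, ⟨(MonoidHom.ofInjective fun a b h => Subtype.ext (Equiv.ext fun i => ?_)).symm⟩, ?_⟩
  · exact congrArg (fun σ : Perm _ => (σ (i, ((1 : H) : H ⧸ D))).1) (viaEmbeddingHom_injective e (congrArg Subtype.val h))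
  rintro _ ⟨σ, rfl⟩ g hg
  refine Subtype.ext (Equiv.ext fun x => ?_)
  change (⟨g, hg⟩ : H) • viaEmbedding _ e x = viaEmbedding _ e ((⟨g, hg⟩ : H) • x)
  by_cases hx : x ∈ Set.range e
  · obtain ⟨⟨i, c⟩, rfl⟩ := hx
    rw [he, viaEmbedding_apply, viaEmbedding_apply]
    exact he ..
  · rw [viaEmbedding_apply_of_notMem _ _ _ hx, viaEmbedding_apply_of_notMem]
    rintro ⟨⟨i, c⟩, h⟩
    exact hx ⟨_, (he _ i c).symm.trans (inv_smul_eq_iff.2 h)⟩

end Cfsg.Agent.S2532
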