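import Cfsg.Statements.S2533

set_option autoImplicit false
open Cfsg

namespace Cfsg.Agent.S2533

open Matrix

variable {F : Type} [Field F] {k : ℕ}

variable (F) in
/-- inversion action -/
def act : ℤˣ →* MulAut (Multiplicative (Fin 3 → F)) :=
  (MulAutMultiplicative _).symm.toMonoidHom.comp (DistribMulAction.toAddAut _ _)

/-- three arrows -/
def N (k : ℕ) (v : Fin 3 → F) : Matrix (Fin (k + 2 + 1)) (Fin (k + 2)) F := fun i j =>
  (if i = j.castSucc then v 0 else 0) + (if i = j.succ then v 1 else 0) + if i = 0 ∧ j = 1 then v 2 else 0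

variable (F) in
/-- the module -/
def ρ (k : ℕ) : Multiplicative (Fin 3 → F) ⋊[act F] ℤˣ →* Matrix (Fin (k + 2) ⊕ Fin (k + 2 + 1)) (Fin (k + 2) ⊕ Fin (k + 2 + 1)) F where
  toFun h := fromBlocks 1 0 (N k h.left.toAdd) (((h.right : ℤ) : F) • 1)
  map_one' := by
    rw [← fromBlocks_one]
    congr 1
    · ext; simp [N]
    · simp
  map_mul' a b := by
    rw [fromBlocks_multiply]
    congr 1 <;> try simp [smul_smul, mul_comm]
    ext i j
    change N k (a.left.toAdd + a.right • b.left.toAdd) i j = _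
    simp only [N, Units.smul_def, Matrix.add_apply, Matrix.smul_apply, Pi.add_apply, Pi.mul_apply, Pi.intCast_apply, zsmul_eq_mul,
      smul_eq_mul]
    split_ifs <;> ring

theorem key (h2 : (2 : F) ≠ 0) {g : Matrix _ _ F} (hg : g.det ≠ 0) (h : ∀ x, ∃ c : F, ρ F k x * g = c • (g * ρ F k x)) :
    ∃ c : F, g = c • 1 := by
  obtain ⟨c, hc⟩ := h (.inr (-1))
  have t : (ρ F k (.inr (-1))).trace = -1 := by simp [ρ, trace, Fintype.sum_sum_type]; ring
  have := congrArg (fun x => (x * g⁻¹).trace) hc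
  simp only [mul_nonsing_inv_cancel_right _ _ hg.isUnit, smul_mul_assoc, trace_smul] at this
  rw [trace_mul_cycle, nonsing_inv_mul _ hg.isUnit, one_mul, t] at this
  obtain rfl : 1 = c := by simpa using this
  rw [← fromBlocks_toBlocks g] at hc h hg ⊢
  generalize g.toBlocks₁₁ = X, g.toBlocks₁₂ = b, g.toBlocks₂₁ = c, g.toBlocks₂₂ = Y at *
  have n0 : N k (0 : Fin 3 → F) = 0 := by ext; simp [N]
  simp [ρ, fromBlocks_multiply, n0] at hc
  have z : ∀ {α β : Type} {a : Matrix α β F}, a = -a → a = 0 := fun e =>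
    (smul_eq_zero.1 ((two_smul F _).trans (add_eq_zero_iff_eq_neg.2 e))).resolve_left h2
  obtain rfl := z hc.1
  obtain rfl := z hc.2.symm
  have e : ∀ v : Fin 3 → F, N k v * X = Y * N k v := fun v => by
    obtain ⟨c, hc⟩ := h (.inl (.ofAdd v))
    simp [ρ, fromBlocks_multiply, fromBlocks_smul] at hc
    have : c = 1 := by
      by_contra c1
      have : Y = 0 := (smul_eq_zero.1 (show (1 - c) • Y = 0 by rw [sub_smul, ← hc.2.2]; simp)).resolve_left
        (sub_ne_zero.2 (Ne.symm c1))
      simp [this] at hg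
    exact hc.2.1.trans (by rw [this, one_smul])
  have e1 := fun i j => congrFun (congrFun (e ![1, 0, 0]) i) j
  have e2 := fun i j => congrFun (congrFun (e ![0, 1, 0]) i) j
  simp [Matrix.mul_apply, N] at e1 e2
  have h1 : ∀ i j, Y i.castSucc j.castSucc = X i j := fun i j => by simpa using (e1 i.castSucc j).symm
  have h3 : ∀ i j, Y i.succ j.succ = X i j := fun i j => by simpa using (e2 i.succ j).symm
  have l1 : ∀ i j, i ≤ j → Y i j = if i = j then Y 0 0 else 0 := fun i => by
    induction i using Fin.induction with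
    | zero => exact fun j _ => j.cases (by simp) fun j => by simpa [(Fin.succ_ne_zero _).symm] using (e2 0 j).symm
    | succ i ih =>
      intro j hj
      obtain ⟨j, rfl⟩ := Fin.exists_succ_eq.2 (ne_of_gt (i.succ_pos.trans_le hj))
      rw [h3, ← h1, ih _ (by simpa using hj)]
      simp
  have l2 : ∀ i j, j < i → Y i j = 0 := fun i => by
    induction i using Fin.reverseInduction with
    | last =>
      intro j hj
      obtain ⟨j, rfl⟩ := Fin.exists_castSucc_eq.2 hj.ne
      simpa [(Fin.castSucc_ne_last _).symm] using (e1 (.last _) j).symm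
    | cast i ih =>
      intro j hj
      obtain ⟨j, rfl⟩ := Fin.exists_castSucc_eq.2 (hj.trans i.castSucc_lt_last).ne
      rw [h1, ← h3, ih _ (by simpa using hj)]
  have l : ∀ i j, Y i j = if i = j then Y 0 0 else 0 := fun i j =>
    (le_or_gt i j).elim (l1 i j) fun h => by rw [l2 i j h, if_neg h.ne']
  refine ⟨Y 0 0, ?_⟩
  rw [← fromBlocks_one, fromBlocks_smul, smul_zero, smul_zero]
  congr 1 <;> ext i j
  · rw [← h3, l]; simp [one_apply]
  · rw [l]; simp [one_apply]

/-- For every odd prime `p` there is a finite group `H` of order `2p³` which, for infinitely many `n`, embeds in the projective special linear group `PSL(n, p)` as a subgroup with trivial centralizer. -/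
theorem result
    (p : ℕ) [Fact p.Prime] (hp : p ≠ 2) :
    ∃ (H : Type) (_ : Group H) (_ : Finite H), Nat.card H = 2 * p ^ 3 ∧
      ∀ N : ℕ, ∃ n, N ≤ n ∧ ∃ φ : H →* Matrix.ProjectiveSpecialLinearGroup (Fin n) (ZMod p),
        Function.Injective φ ∧ Subgroup.centralizer (φ.range : Set (Matrix.ProjectiveSpecialLinearGroup (Fin n) (ZMod p))) = ⊥ := by
  have h2 : (2 : ZMod p) ≠ 0 := fun e =>
    hp ((Nat.prime_dvd_prime_iff_eq Fact.out Nat.prime_two).1 ((ZMod.natCast_eq_zero_iff 2 p).1 e))
  refine ⟨Multiplicative (Fin 3 → ZMod p) ⋊[act _] ℤˣ, inferInstance, .of_equiv _ SemidirectProduct.equivProd.symm,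
    by simp [SemidirectProduct.card, mul_comm], fun n => ⟨2 * n + 1 + 2 + (2 * n + 1 + 2 + 1), by omega, ?_⟩⟩
  let e := reindexAlgEquiv (ZMod p) (ZMod p) (finSumFinEquiv (m := 2 * n + 1 + 2) (n := 2 * n + 1 + 2 + 1))
  let ψ : Multiplicative (Fin 3 → ZMod p) ⋊[act _] ℤˣ →* Matrix.SpecialLinearGroup (Fin _) (ZMod p) :=
    ⟨⟨fun x => ⟨e (ρ _ _ x), by
      rw [det_reindexAlgEquiv]
      rcases Int.units_eq_one_or x.right with h | h <;> simp [ρ, h, det_neg, pow_succ, pow_mul]⟩,
      Subtype.ext (by simp)⟩, fun a b => Subtype.ext ((congrArg e (map_mul _ a b)).trans (map_mul e _ _))⟩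
  refine ⟨(QuotientGroup.mk' _).comp ψ, (injective_iff_map_eq_one _).2 fun x hx => ?_, eq_bot_iff.2 fun g hg => ?_⟩
  · obtain ⟨r, -, hr⟩ := Matrix.SpecialLinearGroup.mem_center_iff.1 ((QuotientGroup.eq_one_iff _).1 hx)
    have : ρ _ _ x = r • 1 := e.injective (hr.symm.trans (by simp [scalar_apply, smul_one_eq_diagonal, e]))
    have k := fun i j => congrFun (congrFun this i) j
    have k1 := k (.inl 0) (.inl 0)
    have k2 := k (.inr 0) (.inr 0)
    have k3 := k (.inr 0) (.inl 0)
    have k4 := k (.inr 1) (.inl 0)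
    have k5 := k (.inr 0) (.inl 1)
    simp [ρ, N] at k1 k2 k3 k4 k5
    simp [k4] at k5
    refine SemidirectProduct.ext (Multiplicative.toAdd.injective (funext fun i => by fin_cases i <;> assumption)) ?_
    rcases Int.units_eq_one_or x.right with h | h
    · exact h
    · exact absurd (by simp [h, ← k1] at k2; linear_combination -k2) h2
  obtain ⟨g, rfl⟩ := QuotientGroup.mk_surjective g
  obtain ⟨c, hc⟩ := key h2 (g := e.symm g.1) (by
    rw [← det_reindexAlgEquiv (ZMod p) (ZMod p) finSumFinEquiv]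
    exact fun k => one_ne_zero ((g.2.symm.trans (by simp [e])).trans k)) fun x => by
    have := hg _ ⟨x, rfl⟩
    obtain ⟨r, -, hr⟩ := Matrix.SpecialLinearGroup.mem_center_iff.1 (QuotientGroup.eq.1 this.symm)
    refine ⟨r, e.injective ?_⟩
    have : ψ x * g = g * ψ x * ((g * ψ x)⁻¹ * (ψ x * g)) := by group
    have := congrArg Subtype.val this
    rw [Matrix.SpecialLinearGroup.coe_mul (g * ψ x), ← hr] at this
    change e _ * g.1 = g.1 * e _ * _ at this
    simpa [scalar_apply, ← smul_one_eq_diagonal] using this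
  refine (QuotientGroup.eq_one_iff _).2 (Subgroup.mem_center_iff.2 fun x => Subtype.ext ?_)
  simp [show g.1 = c • 1 by simpa using congrArg e hc]

end Cfsg.Agent.S2533
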