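import Cfsg.Statements.S2534
import Cfsg.Agent.H23.HallS2

set_option autoImplicit false
open Cfsg

namespace Cfsg.Agent.S2534

open H18 H23 Subgroup

/-- For `n ≥ 5` and a set of primes `π`, the alternating group of degree `n` satisfies the full Sylow analogue for `π` (its maximal `π`-subgroups are pairwise conjugate; for a finite group this says Hall `π`-subgroups exist, are all conjugate, and contain every `π`-subgroup up to conjugacy) if and only if either at most one prime of `π` divides its order or every prime dividing its order lies in `π`. -/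
theorem result (n : ℕ) (hn : 5 ≤ n) (π : Set ℕ) :
    Cfsg.IsDPiGroup π ↥(alternatingGroup (Fin n)) ↔
      ((∀ r s : ℕ, r.Prime → s.Prime → r ∈ π → s ∈ π → r ∣ Nat.card ↥(alternatingGroup (Fin n)) → s ∣ Nat.card ↥(alternatingGroup (Fin n)) → r = s) ∨
        ∀ r : ℕ, r.Prime → r ∣ Nat.card ↥(alternatingGroup (Fin n)) → r ∈ π) := by
  constructor
  · intro h
    obtain ⟨P, a, b⟩ := hall_of_dpi h
    rcases hall_cases le_rfl (hall_map_subtype.2 (hall_top_iff.1 a)) with c | c | ⟨O, c, d⟩
    · exact Or.inl fun r s d e f g i j => c r s d e f g (le_of_dvd_card d i) (le_of_dvd_card e j)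
    · exact Or.inr fun r d e => c r d (le_of_dvd_card d e)
    obtain ⟨K, e, f, i⟩ := not_le_W (Fintype.card_fin n ▸ c)
    obtain ⟨g, j⟩ := b (K.subgroupOf _) (f.of_dvd (Nat.card_congr (subgroupOfEquivOfLe e).toEquiv).dvd)
    have k := map_mono (f := (alternatingGroup (Fin n)).subtype) j
    rw [subgroupOf_map_subtype, ← cj_map_subtype, d, ← conj_W (O' := g.1 '' O) fun x => g.1.injective.mem_set_image] at k
    exact absurd ((le_inf le_rfl e).trans (k.trans inf_le_left)) (i _ (Set.ncard_image_of_injective _ g.1.injective))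
  · rintro (h | h)
    · obtain ⟨P, a, b⟩ := one_prime (M := (⊤ : Subgroup (alternatingGroup (Fin n)))) (by rwa [card_top])
      exact dpi_of ⟨P, a.pi, fun K c => (b K le_top c).imp fun g e => e.2⟩
    · exact dpi_of ⟨⊤, by rwa [PiGrp, card_top], fun K _ => ⟨1, by simp⟩⟩

end Cfsg.Agent.S2534
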