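import Cfsg.Statements.S2535
import Cfsg.Agent.H23.HallS2

set_option autoImplicit false
open Cfsg

namespace Cfsg.Agent.S2535

open H18 H23

/-- For every `n` and every set of primes `π`, the following are equivalent for the symmetric group `S` of degree `n` and its alternating subgroup `A`: `S` has a Hall `π`-subgroup; `S` has a Hall `π`-subgroup and all of them are conjugate; `A` has a Hall `π`-subgroup; `A` has a Hall `π`-subgroup and all of them are conjugate. -/
theorem result (n : ℕ) (π : Set ℕ) :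
    (Cfsg.IsEPiGroup π (Equiv.Perm (Fin n)) ↔ Cfsg.IsCPiGroup π (Equiv.Perm (Fin n))) ∧
    (Cfsg.IsEPiGroup π (Equiv.Perm (Fin n)) ↔ Cfsg.IsEPiGroup π ↥(alternatingGroup (Fin n))) ∧
    (Cfsg.IsEPiGroup π ↥(alternatingGroup (Fin n)) ↔ Cfsg.IsCPiGroup π ↥(alternatingGroup (Fin n))) := by
  refine ⟨⟨fun h => ⟨h, fun H K a b => ?_⟩, fun h => h.1⟩, ⟨fun ⟨K, a⟩ => ⟨K.subgroupOf _, ?_⟩, fun ⟨M, h⟩ => ?_⟩,
    ⟨fun h => ⟨h, fun H K a b => ?_⟩, fun h => h.1⟩⟩
  · exact (hall_conj_sym le_top (hall_top_iff.2 a) (hall_top_iff.2 b)).imp fun g e => e.2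
  · rw [← hall_map_subtype, Subgroup.subgroupOf_map_subtype]
    exact (hall_top_iff.2 a).inf_nml nml_top
  · exact (hall_ext le_rfl (hall_map_subtype.2 h)).imp fun K e => hall_top_iff.1 e.1
  · obtain ⟨g, c, d⟩ := hall_conj_sym le_rfl (hall_map_subtype.2 a) (hall_map_subtype.2 b)
    exact ⟨⟨g, c⟩, Subgroup.map_injective (Subgroup.subtype_injective _) (d.trans (cj_map_subtype ⟨g, c⟩ H))⟩

end Cfsg.Agent.S2535
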