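import Cfsg.Statements.S2536
import Cfsg.Agent.H23.HallS2

set_option autoImplicit false
open Cfsg

namespace Cfsg.Agent.S2536

open H18 H23

/-- Let `π` be a set of primes and `n` a natural number such that at least two primes of `π` divide `n!` but not every prime dividing `n!` lies in `π`. Then the symmetric group of degree `n` has a Hall `π`-subgroup if and only if either `n` is prime and the primes of `π` dividing `n!` are exactly the primes smaller than `n` (a point stabilizer is then such a subgroup), or `n ∈ {7, 8}` and the primes of `π` dividing `n!` are exactly 2 and 3. -/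
theorem result (n : ℕ) (π : Set ℕ)
    (h2 : ∃ r s : ℕ, r.Prime ∧ s.Prime ∧ r ≠ s ∧ r ∈ π ∧ s ∈ π ∧ r ≤ n ∧ s ≤ n)
    (hns : ∃ r : ℕ, r.Prime ∧ r ≤ n ∧ r ∉ π) :
    Cfsg.IsEPiGroup π (Equiv.Perm (Fin n)) ↔
      ((n.Prime ∧ ∀ r : ℕ, r.Prime → r ≤ n → (r ∈ π ↔ r < n)) ∨
       ((n = 7 ∨ n = 8) ∧ ∀ r : ℕ, r.Prime → r ≤ n → (r ∈ π ↔ (r = 2 ∨ r = 3)))) := by
  have key : ∀ k, Res π n k → IsEPiGroup π (Equiv.Perm (Fin n)) := fun k h => by
    obtain ⟨O, -, rfl⟩ := Set.exists_subset_card_eq (s := (Set.univ : Set (Fin n))) (n := k) (by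
      have := h.mem.2.2.1; simp; omega)
    exact ⟨_, hall_top_iff.1 (hall_W (by rwa [Fintype.card_fin]))⟩
  obtain ⟨t, h3, h4, h5⟩ := hns
  constructor
  · rintro ⟨H, hH⟩
    rcases hall_class n (Fin n) ⊤ H (by simp) le_top (hall_top_iff.2 hH) h2 with a | ⟨O, a | a, -⟩
    · exact absurd (a t h3 h4) h5
    · exact Or.inl ⟨a.1, a.2.2.2⟩
    · exact Or.inr ⟨by omega, a.2⟩
  · rintro (⟨a, b⟩ | ⟨rfl | rfl, b⟩)
    · refine key 1 (Or.inl ⟨a, rfl, by_contra fun e => ?_, b⟩)
      obtain ⟨r, s, c1, c2, c3, c4, c5, c6, c7⟩ := h2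
      have := (b r c1 c6).1 c4
      have := (b s c2 c7).1 c5
      have := c1.two_le
      have := c2.two_le
      rcases prime_le_four a (by omega) with rfl | rfl <;> omega
    · exact key 3 (Or.inr ⟨by omega, b⟩)
    · exact key 4 (Or.inr ⟨by omega, b⟩)

end Cfsg.Agent.S2536
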