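import Cfsg.Statements.S2537
import Cfsg.Agent.H10.Klein
import Cfsg.Agent.H23.FT1
import Mathlib.NumberTheory.LegendreSymbol.QuadraticChar.GaussSum

set_option autoImplicit false
open Cfsg

namespace Cfsg.Agent.S2537

open Subgroup Matrix H10
open scoped MatrixGroups

theorem cop {x l : ℕ} (hx : ∀ r : ℕ, r.Prime → r ∣ x → r = 2 ∨ r = 3) (h2 : ¬ 2 ∣ l) (h3 : ¬ 3 ∣ l) :
    x.Coprime l := Nat.coprime_of_dvd fun r hr hd => by rcases hx r hr hd with rfl | rfl <;> assumption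

theorem s23 {a b r : ℕ} (hr : r.Prime) (h : r ∣ 2 ^ a * 3 ^ b) : r = 2 ∨ r = 3 :=
  ((Nat.Prime.dvd_mul hr).1 h).imp
    (fun h => (Nat.prime_dvd_prime_iff_eq hr Nat.prime_two).1 (hr.dvd_of_dvd_pow h))
    (fun h => (Nat.prime_dvd_prime_iff_eq hr Nat.prime_three).1 (hr.dvd_of_dvd_pow h))

theorem part {n : ℕ} (hn : n ≠ 0) :
    ∃ r, n = 2 ^ n.factorization 2 * 3 ^ n.factorization 3 * r ∧ ¬ 2 ∣ r ∧ ¬ 3 ∣ r := by
  obtain ⟨r, hr⟩ : 2 ^ n.factorization 2 * 3 ^ n.factorization 3 ∣ n :=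
    Nat.Coprime.mul_dvd_of_dvd_of_dvd (Nat.Coprime.pow _ _ (by decide)) (Nat.ordProj_dvd n 2) (Nat.ordProj_dvd n 3)
  refine ⟨r, hr, ?_, ?_⟩ <;> rintro ⟨s, rfl⟩
  · exact Nat.pow_succ_factorization_not_dvd hn Nat.prime_two
      ⟨3 ^ n.factorization 3 * s, hr.trans (by ring)⟩
  · exact Nat.pow_succ_factorization_not_dvd hn Nat.prime_three
      ⟨2 ^ n.factorization 2 * s, hr.trans (by ring)⟩

/-- Let `F` be a finite field with `q` elements of characteristic `p ≥ 5`, and `ε = 1` if `q ≡ 1 (mod 4)`, `ε = -1` otherwise. Then `PSL(2, F)` has a Hall `{2, 3}`-subgroup if and only if `3` divides `q − ε`, or the `{2,3}`-part of `q² − 1` is 24, or the `{2,3}`-part of `q² − 1` is 48 (the `{2,3}`-part of `m` being the largest divisor of `m` with no prime factor other than 2 and 3). -/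
theorem result {F : Type*} [Field F] [Fintype F] {p : ℕ} [Fact p.Prime] [CharP F p]
    (hp : 5 ≤ p) (q : ℕ) (hq : Fintype.card F = q) :
    (∃ H : Subgroup (Matrix.ProjectiveSpecialLinearGroup (Fin 2) F), Cfsg.IsPiHall ({2, 3} : Set ℕ) H) ↔
      (3 ∣ q - 1 ∧ q % 4 = 1) ∨ (3 ∣ q + 1 ∧ q % 4 = 3) ∨
        2 ^ (q ^ 2 - 1).factorization 2 * 3 ^ (q ^ 2 - 1).factorization 3 = 24 ∨
        2 ^ (q ^ 2 - 1).factorization 2 * 3 ^ (q ^ 2 - 1).factorization 3 = 48 := by
  classical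
  replace hq := hq.symm
  have hpp : p.Prime := Fact.out
  obtain ⟨e, -, he⟩ := FiniteField.card F p
  have hqp : ∀ r : ℕ, r.Prime → r ∣ q → r = p := fun r hr h =>
    (Nat.prime_dvd_prime_iff_eq hr hpp).1 (hr.dvd_of_dvd_pow (he ▸ hq ▸ h))
  have q2 : ¬ 2 ∣ q := fun h => by have := hqp 2 Nat.prime_two h; omega
  have q3 : ¬ 3 ∣ q := fun h => by have := hqp 3 Nat.prime_three h; omega
  have q1 : 1 < q := hq ▸ Fintype.one_lt_card (α := F)
  have h2 : (2 : F) ≠ 0 := fun h => by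
    have := Nat.le_of_dvd two_pos ((CharP.cast_eq_zero_iff F p 2).1 (by exact_mod_cast h)); omega
  have hg : Nat.gcd 2 (q - 1) = 2 := Nat.gcd_eq_left (by omega)
  have hsq : q ^ 2 - 1 = (q - 1) * (q + 1) := by
    rw [mul_comm, ← Nat.sq_sub_sq, one_pow]
  obtain ⟨r, hr, r2, r3⟩ := part (n := q ^ 2 - 1) (by rw [hsq]; exact Nat.mul_ne_zero (by omega) (by omega))
  set m := 2 ^ (q ^ 2 - 1).factorization 2 * 3 ^ (q ^ 2 - 1).factorization 3 with hm
  have hG := card_PSL2 (F := F)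
  rw [← hq, hg, mul_assoc, ← hsq, hr] at hG
  have qr2 : ¬ 2 ∣ q * r := by rw [Nat.prime_two.dvd_mul]; tauto
  have qr3 : ¬ 3 ∣ q * r := by rw [Nat.prime_three.dvd_mul]; tauto
  have hall : ∀ H : Subgroup PSL(2, F), Cfsg.IsPiHall ({2, 3} : Set ℕ) H ↔ 2 * Nat.card H = m := by
    intro H
    have h1 : 2 * Nat.card H * H.index = m * (q * r) := by rw [mul_assoc, H.card_mul_index, hG]; ring
    constructor
    · rintro ⟨a, b⟩
      have a' : ∀ s : ℕ, s.Prime → s ∣ 2 * Nat.card H → s = 2 ∨ s = 3 := fun s hs h =>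
        ((Nat.Prime.dvd_mul hs).1 h).elim (fun h => Or.inl ((Nat.prime_dvd_prime_iff_eq hs Nat.prime_two).1 h))
          (a s hs)
      exact Nat.dvd_antisymm ((cop a' qr2 qr3).dvd_of_dvd_mul_right (Dvd.intro _ h1))
        ((cop (fun s => s23) (b 2 Nat.prime_two (by simp)) (b 3 Nat.prime_three (by simp))).dvd_of_dvd_mul_right
          (Dvd.intro _ h1.symm))
    · intro h
      rw [← h] at h1
      have h3 := Nat.eq_of_mul_eq_mul_left (Nat.mul_pos two_pos Nat.card_pos) h1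
      refine ⟨fun s hs hd => s23 hs (hm ▸ h ▸ hd.mul_left 2), ?_⟩
      rintro s - (rfl | rfl) <;> rw [h3] <;> assumption
  have m8 : 8 ∣ m := (Nat.Coprime.pow_left 3 ((Nat.Prime.coprime_iff_not_dvd Nat.prime_two).2 r2)).dvd_of_dvd_mul_right
    (by rw [← hr, hsq]
        obtain ⟨k, hk⟩ : ∃ k, q = 4 * k + 1 ∨ q = 4 * k + 3 := ⟨q / 4, by omega⟩
        rcases hk with hk | hk <;> rw [hk]
        · exact ⟨k * (2 * k + 1), by rw [Nat.add_sub_cancel]; ring⟩
        · exact ⟨(2 * k + 1) * (k + 1), by rw [show 4 * k + 3 - 1 = 4 * k + 2 by omega]; ring⟩)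
  have m3 : 3 ∣ m := ((Nat.Prime.coprime_iff_not_dvd Nat.prime_three).2 r3).dvd_of_dvd_mul_right
    (by rw [← hr, hsq, Nat.prime_three.dvd_mul]; rcases (by omega : q % 3 = 1 ∨ q % 3 = 2) with h | h <;> omega)
  constructor
  · rintro ⟨H, hH⟩
    have hc := (hall H).1 hH
    have hpH : ¬ p ∣ Nat.card H := fun h => by rcases hH.1 p hpp h with rfl | rfl <;> omega
    let e1 := H.equivMapOfInjective _ (ι_injective (K := F))
    have hc' : Nat.card (H.map (ι F)) = Nat.card H := (Nat.card_congr e1.toEquiv).symm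
    rcases dickson_PGL_coprime p (H.map (ι F)) (hc' ▸ hpH) with h | ⟨A, hA, hi, -⟩ | ⟨⟨e⟩⟩ | ⟨⟨e⟩⟩ | ⟨⟨e⟩⟩
    · exfalso
      have := card_cyclic_PSL2_dvd p (H.map (ι F)).subtype (subtype_injective _) (fun a => map_ι_le H a.2)
        (hc' ▸ hpH)
      rw [← hq, hg, hc'] at this
      have a1 : m.Coprime r := cop (fun s => s23) r2 r3
      rcases this with h | h
      · obtain ⟨k, hk⟩ : m ∣ q + 1 := by
          rw [← hc, ← Nat.mul_div_cancel' (show 2 ∣ q + 1 by omega)]; exact Nat.mul_dvd_mul_left 2 h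
        rw [hsq, hk, mul_comm, mul_assoc] at hr
        have := Nat.eq_of_mul_eq_mul_left (by positivity) hr
        exact r2 (this ▸ Dvd.dvd.mul_left (by omega) _)
      · obtain ⟨k, hk⟩ : m ∣ q - 1 := by
          rw [← hc, ← Nat.mul_div_cancel' (show 2 ∣ q - 1 by omega)]; exact Nat.mul_dvd_mul_left 2 h
        rw [hsq, hk, mul_assoc] at hr
        have := Nat.eq_of_mul_eq_mul_left (by positivity) hr
        exact r2 (this ▸ Dvd.dvd.mul_left (by omega) _)
    · have h1 := A.card_mul_index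
      rw [hi, hc'] at h1
      have := card_cyclic_PSL2_dvd p ((H.map (ι F)).subtype.comp A.subtype)
        ((subtype_injective _).comp (subtype_injective _)) (fun a => map_ι_le H a.1.2)
        (fun h => hpH (h.trans (Dvd.intro _ h1)))
      rw [← hq, hg] at this
      have h6 : 6 ∣ Nat.card A := by omega
      rcases this with h | h <;> have := h6.trans h <;> omega
    · rw [← hc, ← hc', Nat.card_congr e.toEquiv, card_alt_four]; simp
    · rw [← hc, ← hc', Nat.card_congr e.toEquiv, card_perm_four]; simp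
    · have := hH.1 5 Nat.prime_five (by rw [← hc', Nat.card_congr e.toEquiv, card_alt_five]; decide)
      simp at this
  have dih : ∀ (D : Subgroup PSL(2, F)) (k l : ℕ), Nonempty (D ≃* DihedralGroup k) → q ^ 2 - 1 = 2 * k * (2 * l) →
      ¬ 2 ∣ l → ¬ 3 ∣ l → ∃ H : Subgroup PSL(2, F), Cfsg.IsPiHall ({2, 3} : Set ℕ) H := by
    rintro D k l ⟨e⟩ hkl l2 l3
    have := isSolvable_dihedral k
    have hD : Group.IsSolvable D := Group.isSolvable_of_isSolvable_injective (f := e.toMonoidHom) e.injective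
    obtain ⟨H, hH⟩ := H23.hall_exists ({2, 3} : Set ℕ) hD
    refine ⟨H, H18.hall_top_iff.1 (hH.of_idx le_top ?_)⟩
    have h1 := D.card_mul_index
    rw [Nat.card_congr e.toEquiv, DihedralGroup.nat_card] at h1
    have k0 : 0 < k := by
      rcases Nat.eq_zero_or_pos k with rfl | h
      · rw [hsq] at hkl; simp at hkl; omega
      · exact h
    have h3 : D.index = q * l := by
      rw [← hr, hkl, ← h1] at hG
      exact Nat.eq_of_mul_eq_mul_left (show 0 < 2 * (2 * k) by omega) (by rw [mul_assoc, hG]; ring)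
    rw [relIndex_top_right, h3]
    rintro s hs hd (rfl | rfl) <;> rw [Nat.Prime.dvd_mul hs] at hd <;> tauto
  rintro (⟨a, b⟩ | ⟨a, b⟩ | h | h)
  · obtain ⟨D, -, -, -, -, e⟩ := exists_dihedral_split (F := F) (by omega)
    rw [← hq, hg] at e
    exact dih D _ ((q + 1) / 2) e (by rw [hsq, Nat.mul_div_cancel' (by omega), Nat.mul_div_cancel' (by omega)])
      (by omega) (by omega)
  · obtain ⟨D, -, -, -, -, e⟩ := exists_dihedral_nonsplit (F := F)
    rw [← hq, hg] at e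
    exact dih D _ ((q - 1) / 2) e
      (by rw [hsq, Nat.mul_div_cancel' (by omega), Nat.mul_div_cancel' (by omega), mul_comm]) (by omega) (by omega)
  · obtain ⟨a, c, hac⟩ := exists_root_of_odd h2 (1 : F)
    obtain ⟨H, ⟨e⟩⟩ := exists_A4_of_root hac
    exact ⟨H, (hall H).2 (by rw [Nat.card_congr e.toEquiv, card_alt_four, h])⟩
  · obtain ⟨τ, hτ⟩ : IsSquare (2 : F) := FiniteField.isSquare_two_iff.2 (by
      rw [← hq]
      rw [h, hsq] at hr
      constructor <;> intro h8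
      · obtain ⟨k, hk⟩ : ∃ k, q = 8 * k + 3 := ⟨q / 8, by omega⟩
        rw [hk, show 8 * k + 3 - 1 = 8 * k + 2 by omega] at hr
        have : 8 * (k * k) + 6 * k + 1 = 6 * r := by nlinarith
        omega
      · obtain ⟨k, hk⟩ : ∃ k, q = 8 * k + 5 := ⟨q / 8, by omega⟩
        rw [hk, show 8 * k + 5 - 1 = 8 * k + 4 by omega] at hr
        have : 8 * (k * k) + 10 * k + 3 = 6 * r := by nlinarith
        omega)
    obtain ⟨a, c, hac⟩ := exists_root_of_odd h2 τ
    obtain ⟨H, ⟨e⟩⟩ := exists_S4_of_root h2 (by rw [sq, ← hτ]) hac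
    exact ⟨H, (hall H).2 (by rw [Nat.card_congr e.toEquiv, card_perm_four, h])⟩

end Cfsg.Agent.S2537
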