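import Cfsg.Statements.S2540
import Cfsg.Agent.H10.SL

set_option autoImplicit false
open Cfsg

open Subgroup Matrix Matrix.SpecialLinearGroup

namespace Cfsg.Agent.S2540

/-- Let F be a finite field and n ≥ 1, excluding the case n = 2 with #F ≤ 3. A subgroup of GL_n(F) that is normalized by every element of SL_n(F) either consists of scalar matrices or contains SL_n(F). -/
theorem result {F : Type*} [Field F] [Fintype F] (n : ℕ) (hn : 1 ≤ n) (hex : ¬ (n = 2 ∧ Fintype.card F ≤ 3)) (G : Subgroup (Matrix.GeneralLinearGroup (Fin n) F)) (hG : ∀ s : Matrix.SpecialLinearGroup (Fin n) F, ∀ g ∈ G, (Matrix.SpecialLinearGroup.toGL s) * g * (Matrix.SpecialLinearGroup.toGL s)⁻¹ ∈ G) : (∀ g ∈ G, ∃ c : F, (g : Matrix (Fin n) (Fin n) F) = c • (1 : Matrix (Fin n) (Fin n) F)) ∨ (Matrix.SpecialLinearGroup.toGL : Matrix.SpecialLinearGroup (Fin n) F →* _).range ≤ G := by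
  by_cases h1 : n = 1
  · subst h1
    exact .inl fun g _ => ⟨g 0 0, by ext i j; rw [Subsingleton.elim i 0, Subsingleton.elim j 0]; simp⟩
  have : Nontrivial (Fin n) := Fin.nontrivial_iff_two_le.2 (by omega)
  have hp : commutator (SpecialLinearGroup (Fin n) F) = ⊤ := by
    by_cases h2 : n = 2
    · subst h2
      classical
      obtain ⟨a, ha⟩ : ∃ a : F, a ∉ ({0, 1, -1} : Finset F) := by
        by_contra h; push Not at h
        exact hex ⟨rfl, (Finset.card_le_card (fun a _ => h a : Finset.univ ⊆ _)).trans Finset.card_le_three⟩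
      simp only [Finset.mem_insert, Finset.mem_singleton, not_or] at ha
      exact SL2.commutator_eq_top ha.1 (by rw [Ne, sq_eq_one_iff]; tauto)
    · exact H10.commutator_SL_eq_top (by simp; omega)
  have := H10.PSL_isSimpleGroup_of_perfect hp
  let f : SpecialLinearGroup (Fin n) F →* GL (Fin n) F := toGL
  have hN : (G.comap f).Normal := ⟨fun x hx s => by simpa [f] using hG s _ hx⟩
  rcases IsSimpleGroup.eq_bot_or_eq_top_of_normal ((G.comap f).map (QuotientGroup.mk' (center _)))
    (hN.map _ (QuotientGroup.mk'_surjective _)) with h | h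
  · rw [Subgroup.map_eq_bot_iff, QuotientGroup.ker_mk'] at h
    have hS : f.range.Normal := by rw [H10.range_toGL]; infer_instance
    have h2 : ⁅⁅f.range, G⁆, f.range⁆ = ⊥ := by
      rw [commutator_eq_bot_iff_le_centralizer, commutator_le]
      rintro _ ⟨s, rfl⟩ g hg _ ⟨t, rfl⟩
      obtain ⟨u, hu⟩ := commutator_le_left f.range G (commutator_mem_commutator ⟨s, rfl⟩ hg)
      rw [← hu, ← map_mul, ← map_mul, Subgroup.mem_center_iff.1 (h (show f u ∈ G from hu ▸ mul_mem (hG s g hg) (inv_mem hg)))]
    have h3 := commutator_commutator_eq_bot_of_rotate h2 (commutator_comm f.range G ▸ h2)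
    rw [MonoidHom.range_eq_map, ← map_commutator, ← _root_.commutator_def, hp, commutator_eq_bot_iff_le_centralizer] at h3
    refine .inl fun g hg => ?_
    obtain ⟨c, hc⟩ := mem_range_scalar_of_commute_transvectionStruct (M := (g : Matrix (Fin n) (Fin n) F)) fun t =>
      (congrArg Units.val (h3 ⟨⟨t.toMatrix, t.det⟩, mem_top _, rfl⟩ g hg)).symm
    exact ⟨c, by rw [← hc, scalar_apply, smul_one_eq_diagonal]⟩
  · have h2 := congrArg (comap (QuotientGroup.mk' _)) h
    rw [comap_map_eq, QuotientGroup.ker_mk', comap_top] at h2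
    have := Normal.commutator_le_of_self_sup_commutative_eq_top h2 inferInstance
    rw [hp] at this
    exact .inr fun _ ⟨s, e⟩ => e ▸ this (mem_top s)

end Cfsg.Agent.S2540
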