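import Cfsg.Statements.S2542
import Cfsg.Agent.H10.PSLx
import Cfsg.Agent.H10.Small
import Cfsg.Agent.H16.PrimeDeg
import Cfsg.Agent.H22.PGLMax

set_option autoImplicit false
open Cfsg

namespace Cfsg.Agent.S2542

open H10 Subgroup in

/-- Let F be a field with 11 elements. PSL_2(F) has a subgroup H of index 11 isomorphic to the alternating group A_5, and the action of PSL_2(F) on the cosets of H is 2-transitive (of degree 11). -/
theorem result {F : Type*} [Field F] [Fintype F] (hF : Fintype.card F = 11) : ∃ H : Subgroup (Matrix.ProjectiveSpecialLinearGroup (Fin 2) F), H.index = 11 ∧ Nonempty (H ≃* alternatingGroup (Fin 5)) ∧ MulAction.IsMultiplyPretransitive (Matrix.ProjectiveSpecialLinearGroup (Fin 2) F) ((Matrix.ProjectiveSpecialLinearGroup (Fin 2) F) ⧸ H) 2 := by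
  classical
  have h2 : (2 : F) ≠ 0 := Ring.two_ne_zero fun h => by have := FiniteField.even_card_of_char_two h; omega
  obtain ⟨τ, hτ⟩ := H22.exists_golden (K := F) (by rw [hF]; decide)
  obtain ⟨a, c, k⟩ := exists_root_of_odd h2 τ
  obtain ⟨H, ⟨e⟩⟩ := exists_A5_of_root hτ k
  have h3 := H.card_mul_index
  rw [(Nat.card_congr e.toEquiv).trans card_alt_five', card_PSL2_of 660 hF rfl] at h3
  have h4 : H.index = 11 := by omega
  have := Matrix.ProjectiveSpecialLinearGroup.rank_two_simple (F := F) (by rw [Nat.card_eq_fintype_card]; omega)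
  have : Fact (Nat.Prime 11) := ⟨by norm_num⟩
  have := Fintype.ofFinite (_ ⧸ H)
  have : FaithfulSMul _ (_ ⧸ H) := ⟨fun h => (MonoidHom.ker_eq_bot_iff (MulAction.toPermHom _ (_ ⧸ H))).1
    (H.normalCore_eq_ker ▸ normalCore_eq_bot_of_simple fun e => by simp [e] at h4) (Equiv.ext h)⟩
  exact ⟨H, h4, ⟨e⟩, H16.burnside_prime_degree (p := 11) (Nat.card_eq_fintype_card.symm.trans h4)
    (not_isSolvable_PSL2 (by omega))⟩

end Cfsg.Agent.S2542
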