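import Cfsg.Statements.S2543
import Cfsg.Agent.H16.M24x
import Cfsg.Agent.H28.GR
import Cfsg.Agent.H15.StdAlt5
import Cfsg.Agent.H10.PSL2Sub
import Cfsg.Agent.L.Out2

set_option autoImplicit false
open scoped Pointwise
open Cfsg

namespace Cfsg.Agent.S2543

open H14 H15 H16.MX MulAction
set_option maxRecDepth 100000

abbrev LL : Subgroup M24 := G11 ⊓ stabilizer M24 (none : GolayPt)
theorem cardL : Nat.card LL = 660 := by
  rw [LL, ← P11d_top]
  exact (congrArg (fun H : Subgroup M24 => Nat.card H) (M11d.stab0 P11d P11d_rels)).trans (M11d.card1 P11d P11d_rels)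
def cL : Lv := .cons 3 [[21, 8, 20, 10]] [[0], [0], [4], [6], [0], [2]] (.cons 1 [[16, 21, 19, 4]] [[0], [4], [0], [2], [4]]
  (.cons 2 [[13, 10, 9, 20]] [[0], [2]] (.cons 4 [[16, 21, 19]] [[0]] .nil)))
def vL : List (List Word) := [[[], [1], [0], [1, 1], [2, 1], [0, 0], [3, 0], [2, 0], [7, 1, 1], [2, 0, 0], [7, 3, 0]],
  [[], [1], [0], [3, 1], [5, 1], [3, 0], [1, 3, 1], [0, 3, 1], [1, 5, 1], [3, 5, 1]], [[], [1], [3, 1]], [[], [1]]]
theorem le_L {ws : List Word} (h : (invChk M24c.nets ws 0x5335f && invChk M24c.nets ws (bit 0)) = true ∧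
    invChk M24c.nets ws (bit 23) = true) : sub M0.gen ws ≤ LL := le_inf (le_G11 h.1) (le_G23 h.2)
theorem eqL : sub M0.gen cL.gens = LL :=
  (M0.eq_sub_of_low (le_L (by decide +kernel)) cardL.le (by decide +kernel)).1
theorem covL : Cover M0.gen LL (cL.trs vL) :=
  M0.cover_of_low cL vL (le_L (by decide +kernel)) cardL.le (by decide +kernel)
noncomputable abbrev y : M24 := H14.ev M0.gen [5]
theorem ord_y : orderOf y = 5 := M0.orderOf_prime (D := 5) (by norm_num) (by norm_num) (by norm_num) (by decide +kernel)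

theorem three : ∀ x ∈ LL, orderOf x = 3 → x • gp 3 = gp 3 ∨ x • gp 15 = gp 15 ∨
    ∀ A : Subgroup M24, y ∈ A → x ∈ A → 11 ∣ Nat.card A :=
  covL.all (F := arF 24 M24c.nets 5) (A := arI 24 5) (f := fun w A =>
    !Nat.beq (runW (arF 24 M24c.nets 5) (powW w (Nat.pred 3)) A) (arI 24 5) || (tb (agr 24 5 A (arI 24 5)) 3 ||
      (tb (agr 24 5 A (arI 24 5)) 15 || [[0, 0, 2], [0, 0, 2, 1, 2], [0, 0, 2, 1, 3]].any fun v =>
        PM.ordChk 24 M24c.nets 5 (flat [[5], w] v) 11 [11]))) (by decide +kernel) fun w hw ho => by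
    simp only [Bool.or_eq_true, Bool.not_eq_true', List.any_eq_true] at hw
    rcases hw with h | h | h | ⟨v, -, h⟩
    · exact absurd ((M0.arW_pow_iff (D := 5) (by norm_num) (by norm_num) (by norm_num) w).2
        (ho ▸ pow_orderOf_eq_one _)) (Nat.ne_of_beq_eq_false h)
    · exact .inl ((M0.mem_S_fix (D := 5) (by norm_num) w _).1 ((M0.mem_S_dec (by norm_num)).2 h))
    · exact .inr (.inl ((M0.mem_S_fix (D := 5) (by norm_num) w _).1 ((M0.mem_S_dec (by norm_num)).2 h)))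
    · exact .inr (.inr fun A h1 h2 => dvd_card_of ((sub_le _).2 (fa_cons h1 (fa_cons h2 fa_nil)) (ev_flat_mem _ _ v))
        (M0.orderOf_prime (D := 5) (by norm_num) (by norm_num) (by norm_num) h))

/-- what is needed about one of the two orbits of length eleven -/
def Side (i D : ℕ) : Prop := (∀ p, p ∈ bset D ↔ ∃ g ∈ LL, g • gp i = p) ∧
  Nonempty ((LL ⊓ stabilizer M24 (gp i) : Subgroup M24) ≃* alternatingGroup (Fin 5)) ∧
  (∀ q, LL ⊓ stabilizer M24 (gp i) ≤ stabilizer M24 q → q ∈ bset (0x800001 ||| bit i)) ∧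
  ∀ A ≤ LL, Nat.card A = 60 → y ∈ A → ∀ x ∈ A, orderOf x = 3 → x • gp i = gp i → A = LL ⊓ stabilizer M24 (gp i)

theorem side {i D : ℕ} (hi : i < 24) (sc W : List Word) (l : List (ℕ × ℕ × List Word))
    (h1 : PM.orbChk 24 M24c.nets cL.gens i D sc = true) (h2 : pop 24 D = 11)
    (h3 : relsChk 24 M24c.nets 5 (idArr 24 5 5 0) (L.flatR W StdAlt5.allRels) = true)
    (h4 : (invChk M24c.nets W 0x5335f && invChk M24c.nets W (bit 0)) = true ∧ invChk M24c.nets W (bit 23) = true)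
    (h5 : invChk M24c.nets ([5] :: W) (bit i) = true)
    (h6 : Nat.land (agr 24 5 (arW 24 M24c.nets 5 (getL [] W 0)) (arI 24 5))
      (agr 24 5 (arW 24 M24c.nets 5 (getL [] W 1)) (arI 24 5)) &&&
      (agr 24 5 (arW 24 M24c.nets 5 (getL [] W 2)) (arI 24 5)) = 0x800001 ||| bit i)
    (h7 : l.all (fun o => PM.orbChk 24 M24c.nets [[5]] o.1 o.2.1 o.2.2) = true)
    (h8 : (l.map (·.2.1)).foldr Nat.lor 0 = D)
    (h9 : ∀ m ∈ unions (l.map (·.2.1)), pop 24 m ∣ 4 → m = bit i) : Side i D := by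
  have a1 : orb LL (gp i) = M0.S D := Set.ext fun p => by rw [M0.orb_of_chk h1, eqL]; rfl
  have a2 : Nat.card (LL ⊓ stabilizer M24 (gp i) : Subgroup M24) = 60 := by
    have := card_orb LL (gp i)
    rw [a1, M0.ncard_S, h2, cardL] at this
    omega
  have a0 := M0.fix_sound hi h5
  have a3 : sub M0.gen W ≤ LL ⊓ stabilizer M24 (gp i) :=
    le_inf (le_L h4) ((sub_mono _ fun _ => List.mem_cons_of_mem _).trans a0)
  have a4 : ∀ q, LL ⊓ stabilizer M24 (gp i) ≤ stabilizer M24 q → q ∈ bset (0x800001 ||| bit i) := fun q hq => by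
    have k := fun j => (M0.mem_S_fix (D := 5) (by norm_num) _ q).2 (hq (a3 (ev_getL_mem _ W j)))
    rw [← h6]
    exact mem_S_iff.1 ((M0.mem_S_land _ _ _).2 ⟨(M0.mem_S_land _ _ _).2 ⟨k 0, k 1⟩, k 2⟩)
  refine ⟨fun p => mem_S_iff.symm.trans (Set.ext_iff.1 a1 p).symm, ?_, a4, fun A hA hc hy x hx ho hf => ?_⟩
  · obtain ⟨S⟩ := StdAlt5.std
    obtain ⟨φ, b1, b2⟩ := StdAlt5.hom' S (L.loc M0.gen W) (L.rels_loc (M0.rels_of_idArr (by norm_num) h3))
    have b3 : Function.Injective φ := (MonoidHom.ker_eq_bot_iff _).1 (φ.normal_ker.eq_bot_or_eq_top.resolve_right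
      fun k => by
        have k2 : ∀ j < 6, H14.ev M0.gen (getL [] W j) = 1 := fun j hj => (b2 j hj).symm.trans (k.ge trivial)
        have k3 := fun q j hj => (M0.mem_S_fix (D := 5) (by norm_num) _ q).2 (by rw [k2 j hj, one_smul])
        have k4 : ∀ q, q ∈ bset (0x800001 ||| bit i) := fun q => h6 ▸ mem_S_iff.1 ((M0.mem_S_land _ _ _).2
          ⟨(M0.mem_S_land _ _ _).2 ⟨k3 q 0 (by norm_num), k3 q 1 (by norm_num)⟩, k3 q 2 (by norm_num)⟩)
        exact (show ∀ i < 24, ¬ ∀ q, q ∈ bset (0x800001 ||| bit i) by decide +kernel) i hi k4)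
    have b4 : φ.range = LL ⊓ stabilizer M24 (gp i) := eq_of_le_of_card (by norm_num) (by
      rw [b1, sub_le]
      intro w hw
      obtain ⟨j, -, rfl⟩ := List.mem_map.1 hw
      exact ev_single (L.loc M0.gen W) j ▸ a3 (ev_getL_mem _ W j))
      ((Nat.card_congr (MonoidHom.ofInjective b3).toEquiv).symm.trans S.card) a2
    exact ⟨((MonoidHom.ofInjective b3).trans (MulEquiv.subgroupCongr b4)).symm⟩
  · obtain ⟨m, hm, e⟩ := inv_union' M0 l h7 (O := orb A (gp i))
      fun g hg => orb_inv g (by rw [sub_single] at hg; exact Subgroup.zpowers_le_of_mem hy hg)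
    rw [h8, Set.inter_eq_left.2 (by rintro _ ⟨g, hg, rfl⟩; exact a1.le ⟨g, hA hg, rfl⟩)] at e
    have b1 := card_orb A (gp i)
    obtain ⟨r, hr⟩ := (show Nat.Coprime 5 3 by norm_num).mul_dvd_of_dvd_of_dvd
      (dvd_card_of (H := A ⊓ stabilizer M24 (gp i)) ⟨hy, a0 (ev_getL_mem _ _ 0)⟩ ord_y)
      (dvd_card_of (H := A ⊓ stabilizer M24 (gp i)) ⟨hx, hf⟩ ho)
    rw [e, M0.ncard_S, hc, hr] at b1
    rw [h9 m hm ⟨r, by nlinarith⟩] at e
    exact eq_of_le_of_card (by norm_num) (le_inf hA fun g hg =>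
      (M0.mem_S_bit hi).1 (e ▸ orb_inv g hg _ (orb_self A _))) hc a2

theorem s1 : Side 3 0x5335e := side (by norm_num) [[0], [0, 0], [2], [0], [2], [0]]
  [[16, 21, 19, 5], [10, 20, 8, 20, 7], [6, 11, 12, 19, 11], [9, 10, 12, 4, 19], [8, 11, 2, 9, 2], [16, 21, 19, 4]]
  [(3, 0x8, []), (1, 0x40056, [[0], [0, 0], [0]]), (8, 0x13300, [[0], [1, 1], [0]])]
  (by decide +kernel) (by decide +kernel) (by decide +kernel) (by decide +kernel) (by decide +kernel)
  (by decide +kernel) (by decide +kernel) (by decide +kernel) (by decide +kernel)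
theorem s2 : Side 15 0x7acca0 := side (by norm_num) [[2], [6], [0], [4], [0]]
  [[4, 18, 10, 18], [2, 8, 11, 2, 9], [5, 11, 21, 9, 20], [11, 21, 9, 20, 5], [17, 4, 14, 18], [5, 19, 11, 19]]
  [(15, 0x8000, []), (5, 0x3004a0, [[0], [1, 1], [0]]), (11, 0x4a4800, [[0], [0, 0], [0]])]
  (by decide +kernel) (by decide +kernel) (by decide +kernel) (by decide +kernel) (by decide +kernel)
  (by decide +kernel) (by decide +kernel) (by decide +kernel) (by decide +kernel)

theorem sixty {A : Subgroup M24} (h : A ≤ LL) (hc : Nat.card A = 60) :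
    ∃ g ∈ LL, cj g A = LL ⊓ stabilizer M24 (gp 3) ∨ cj g A = LL ⊓ stabilizer M24 (gp 15) := by
  have := Fact.mk Nat.prime_five
  obtain ⟨g, hg, k⟩ := sylow_conj (p := 5) (k := 1) (m := 132) (X := Subgroup.zpowers y)
    (sub_single M0.gen _ ▸ le_L (by decide +kernel)) h
    (pgroup_of_card (k := 1) (by rw [Nat.card_zpowers, ord_y]; rfl)) cardL (by norm_num) (by rw [hc]; norm_num)
  rw [← card_cj g] at hc
  obtain ⟨x, hx, ho⟩ := exists_ord (H := cj g A) Nat.prime_three (by rw [hc]; norm_num)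
  have hy := k (Subgroup.mem_zpowers _)
  refine ⟨g, hg, ?_⟩
  rcases three x (cj_le hg h hx) ho with e | e | e
  · exact .inl (s1.2.2.2 _ (cj_le hg h) hc hy x hx ho e)
  · exact .inr (s2.2.2.2 _ (cj_le hg h) hc hy x hx ho e)
  · exact absurd (e _ hy hx) (by rw [hc]; norm_num)

theorem main {G : Type*} [Group G] (e : G ≃* LL) :
    Nat.card {H : Subgroup G // Nonempty (H ≃* alternatingGroup (Fin 5))} = 22 ∧
      ∃ H K : Subgroup G, Nonempty (H ≃* alternatingGroup (Fin 5)) ∧ Nonempty (K ≃* alternatingGroup (Fin 5)) ∧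
        (∀ g : G, MulAut.conj g • H ≠ K) ∧ ∀ L : Subgroup G, Nonempty (L ≃* alternatingGroup (Fin 5)) →
          ∃ g : G, MulAut.conj g • L = H ∨ MulAut.conj g • L = K := by
  let φ : G →* M24 := LL.subtype.comp e.toMonoidHom
  have inj : Function.Injective φ := LL.subtype_injective.comp e.injective
  have sur : ∀ g ∈ LL, ∃ a, φ a = g := fun g hg => ⟨e.symm ⟨g, hg⟩, by simp [φ]⟩
  have mem : ∀ a, φ a ∈ LL := fun a => (e a).2
  let St : GolayPt → Subgroup G := fun p => (stabilizer M24 p).comap φ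
  have c1 : ∀ g p, MulAut.conj g • St p = St (φ g • p) := fun g p => by
    ext x
    simp [St, Subgroup.mem_pointwise_smul_iff_inv_smul_mem, mul_smul, inv_smul_eq_iff]
  have c2 : ∀ p, (St p).map φ = LL ⊓ stabilizer M24 p := fun p => by
    rw [Subgroup.map_comap_eq]; congr 1
    exact le_antisymm (by rintro _ ⟨a, rfl⟩; exact mem a) sur
  have c3 : ∀ {i D}, Side i D → ∀ p ∈ bset D, Nonempty (St p ≃* alternatingGroup (Fin 5)) := fun h p hp => by
    obtain ⟨g, hg, rfl⟩ := (h.1 p).1 hp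
    obtain ⟨a, rfl⟩ := sur g hg
    obtain ⟨f⟩ := h.2.1
    exact ⟨((MulEquiv.subgroupCongr (c1 a _).symm).trans (Subgroup.equivSMul _ _).symm).trans
      ((((St _).equivMapOfInjective φ inj).trans (MulEquiv.subgroupCongr (c2 _))).trans f)⟩
  have c4 : ∀ {i D}, Side i D → ∀ q, St (gp i) = St q → q ∈ bset (0x800001 ||| bit i) := fun h q k =>
    h.2.2.1 q (by rw [← c2, k, c2]; exact inf_le_right)
  have c5 : ∀ L : Subgroup G, Nonempty (L ≃* alternatingGroup (Fin 5)) →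
      ∃ g : G, MulAut.conj g • L = St (gp 3) ∨ MulAut.conj g • L = St (gp 15) := fun L ⟨f⟩ => by
    obtain ⟨S⟩ := StdAlt5.std
    obtain ⟨g, hg, k⟩ := sixty (A := L.map φ) (by rintro _ ⟨a, -, rfl⟩; exact mem a)
      ((Subgroup.card_map_of_injective inj).trans ((Nat.card_congr f.toEquiv).trans S.card))
    obtain ⟨a, rfl⟩ := sur g hg
    have : (MulAut.conj a⁻¹ • L).map φ = cj (φ a) (L.map φ) := by
      ext x
      refine ⟨?_, fun ⟨b, hb, k⟩ => ⟨a⁻¹ * b * a, ?_, by simp [k, mul_assoc]⟩⟩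
      · rintro ⟨b, hb, rfl⟩
        have := Subgroup.mem_pointwise_smul_iff_inv_smul_mem.1 hb
        rw [map_inv, inv_inv] at this
        exact ⟨a * b * a⁻¹, this, by simp⟩
      · refine Subgroup.mem_pointwise_smul_iff_inv_smul_mem.2 ?_
        rw [map_inv, inv_inv, MulAut.smul_def, MulAut.conj_apply]
        simpa [mul_assoc] using hb
    rw [← this, ← c2, ← c2] at k
    exact ⟨a⁻¹, k.imp (fun k => Subgroup.map_injective inj k) fun k => Subgroup.map_injective inj k⟩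
  have m1 : gp 3 ∈ bset 0x5335e := by decide +kernel
  have m2 : gp 15 ∈ bset 0x7acca0 := by decide +kernel
  have c6 : ∀ {i D}, Side i D → ∀ g, φ g • gp i ∈ bset D := fun h g => (h.1 _).2 ⟨_, mem g, rfl⟩
  have c7 : ∀ g p, p ∈ bset 0x7ffffe → φ g • p ∈ bset 0x7ffffe := fun g p hp => by
    rcases (show ∀ p ∈ bset 0x7ffffe, p ∈ bset 0x5335e ∨ p ∈ bset 0x7acca0 by decide +kernel) p hp with k | k
    · obtain ⟨a, ha, rfl⟩ := (s1.1 p).1 k
      exact bset_subset (by decide +kernel) ((s1.1 _).2 ⟨_, mul_mem (mem g) ha, mul_smul _ _ _⟩)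
    · obtain ⟨a, ha, rfl⟩ := (s2.1 p).1 k
      exact bset_subset (by decide +kernel) ((s2.1 _).2 ⟨_, mul_mem (mem g) ha, mul_smul _ _ _⟩)
  have c8 : ∀ {i D}, i < 24 → Side i D → ∀ p ∈ bset D, ∀ q ∈ bset 0x7ffffe, St p = St q → p = q :=
    fun {i D} hi h p hp q hq k => by
    obtain ⟨g, hg, rfl⟩ := (h.1 p).1 hp
    obtain ⟨a, rfl⟩ := sur g hg
    have k2 := c4 h (φ a⁻¹ • q) (by rw [← c1, ← k, c1, ← mul_smul, ← map_mul, inv_mul_cancel, map_one, one_smul])
    rw [← (show ∀ i < 24, ∀ q ∈ bset 0x7ffffe, q ∈ bset (0x800001 ||| bit i) → q = gp i by decide +kernel) i hi _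
      (c7 _ _ hq) k2, map_inv, smul_inv_smul]
  have c9 : ∀ p ∈ bset 0x7ffffe, p ∈ bset 0x5335e ∨ p ∈ bset 0x7acca0 := by decide +kernel
  refine ⟨?_, St (gp 3), St (gp 15), c3 s1 _ m1, c3 s2 _ m2, fun g k => ?_, c5⟩
  · rw [← Nat.card_congr (Equiv.ofBijective (fun p : bset 0x7ffffe => (⟨St p, (c9 p p.2).elim (c3 s1 p) (c3 s2 p)⟩ :
      {H : Subgroup G // Nonempty (H ≃* alternatingGroup (Fin 5))})) ⟨fun p q k => Subtype.ext ((c9 p p.2).elim
        (fun h => c8 (by norm_num) s1 p h q q.2 (congrArg Subtype.val k))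
        fun h => c8 (by norm_num) s2 p h q q.2 (congrArg Subtype.val k)), fun L => ?_⟩),
      Nat.card_eq_fintype_card, Fintype.card_coe, card_bset]
    · decide +kernel
    obtain ⟨g, k | k⟩ := c5 L.1 L.2
    · exact ⟨⟨φ g⁻¹ • gp 3, c7 _ _ (by decide +kernel)⟩, Subtype.ext (show St (φ g⁻¹ • gp 3) = L.1 by
        rw [← c1, ← k, map_inv, inv_smul_smul])⟩
    · exact ⟨⟨φ g⁻¹ • gp 15, c7 _ _ (by decide +kernel)⟩, Subtype.ext (show St (φ g⁻¹ • gp 15) = L.1 by
        rw [← c1, ← k, map_inv, inv_smul_smul])⟩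
  · rw [c1] at k
    exact absurd (c8 (by norm_num) s1 _ (c6 s1 g) _ (by decide +kernel) k ▸ c6 s1 g) (by decide +kernel)


/-- Let F be a field with 11 elements. PSL_2(F) has exactly 22 subgroups isomorphic to the alternating group A_5, and they form two conjugacy classes: there are two such subgroups that are not conjugate, and every such subgroup is conjugate to one of these two. -/
theorem result {F : Type*} [Field F] [Fintype F] (hF : Fintype.card F = 11) : Nat.card {H : Subgroup (Matrix.ProjectiveSpecialLinearGroup (Fin 2) F) // Nonempty (H ≃* alternatingGroup (Fin 5))} = 22 ∧ ∃ H K : Subgroup (Matrix.ProjectiveSpecialLinearGroup (Fin 2) F), Nonempty (H ≃* alternatingGroup (Fin 5)) ∧ Nonempty (K ≃* alternatingGroup (Fin 5)) ∧ (∀ g : Matrix.ProjectiveSpecialLinearGroup (Fin 2) F, MulAut.conj g • H ≠ K) ∧ ∀ L : Subgroup (Matrix.ProjectiveSpecialLinearGroup (Fin 2) F), Nonempty (L ≃* alternatingGroup (Fin 5)) → ∃ g : Matrix.ProjectiveSpecialLinearGroup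 (Fin 2) F, MulAut.conj g • L = H ∨ MulAut.conj g • L = K := by
  obtain ⟨e⟩ := H28.l2_11
  obtain ⟨f⟩ := H10.PSL2_congr (FiniteField.ringEquivOfCardEq (hF.trans (ZMod.card 11).symm))
  exact main (f.trans e.symm)

end Cfsg.Agent.S2543
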