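import Cfsg.Statements.S2548
import Cfsg.Agent.H24.StSm
import Cfsg.Agent.S0299
import Cfsg.Agent.S0302
import Cfsg.Agent.S0305

set_option autoImplicit false
open Cfsg

namespace Cfsg.Agent.S2548

open H24

/-- Let F be a finite field of characteristic p and consider the group PΩ⁺_{2m}(F) of the hyperbolic quadratic form Σ x_i y_i with m ≥ 1, where Ω denotes the commutator subgroup of the full isometry group. This group has an irreducible complex character χ whose degree equals the order of a Sylow p-subgroup (equal to q^(m(m−1)) when #F = q, except in the degenerate case m = 2, q = 2, where this commutator subgroup has order 18 and its Sylow 2-subgroups have order 2) and whose restriction to any Sylow p-subgroup P is the regular character of P: χ vanishes on the non-identity elements of P. (This is the Steinberg character.) -/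
theorem result {F : Type*} [Field F] [Fintype F] (p : ℕ) [Fact p.Prime] [CharP F p] (m : ℕ) (hm : 1 ≤ m) : ∃ χ : Cfsg.POmega F (Cfsg.quadFormPlus m F) → ℂ, Cfsg.IsIrrCharacter (Cfsg.POmega F (Cfsg.quadFormPlus m F)) χ ∧ ∀ P : Sylow p (Cfsg.POmega F (Cfsg.quadFormPlus m F)), χ 1 = Nat.card P ∧ ∀ x : Cfsg.POmega F (Cfsg.quadFormPlus m F), x ∈ P → x ≠ 1 → χ x = 0 := by
  rcases hm.eq_or_lt with rfl | h
  · exact (hs_dih (Cfsg.Agent.S0305.result rfl).some).out
  rcases (show 2 ≤ m from h).eq_or_lt with rfl | h3
  · rcases (show 2 ≤ Fintype.card F from Fintype.one_lt_card).eq_or_lt with e | e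
    · exact ((hs_four_two e.symm).of_equiv (H11.pomegaEquiv (H11.qPlus 2 F))).out
    · exact (((hs_PSL F le_rfl).prod (hs_PSL F le_rfl)).of_equiv (Cfsg.Agent.S0299.result e).some).out
  rcases (show 3 ≤ m from h3).eq_or_lt with rfl | h4
  · exact ((hs_PSL F (by simp)).of_equiv Cfsg.Agent.S0302.result.some).out
  · exact (hs_group.of_equiv (exists_isoD (F := F) h3 h4).some.symm).out

end Cfsg.Agent.S2548
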