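import Cfsg.Statements.S2549
import Cfsg.Agent.H24.StSm
import Cfsg.Agent.S0300
import Cfsg.Agent.S0303
import Cfsg.Agent.S0306

set_option autoImplicit false
open Cfsg

namespace Cfsg.Agent.S2549

open H24

/-- Let F be a finite field of characteristic p and consider the group PΩ⁻_{2m+2}(F) of the quadratic form Σ_{i<m} x_i y_i + (z₁² + a z₁ z₂ + b z₂²) with anisotropic binary part, m ≥ 0. This group has an irreducible complex character χ whose degree equals the order of a Sylow p-subgroup (namely q^(m(m+1)) when #F = q) and whose restriction to any Sylow p-subgroup P is the regular character of P: χ vanishes on the non-identity elements of P. (This is the Steinberg character.) -/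
theorem result {F : Type*} [Field F] [Fintype F] (p : ℕ) [Fact p.Prime] [CharP F p] (m : ℕ) (a b : F) (hab : ∀ z₁ z₂ : F, z₁ ^ 2 + a * z₁ * z₂ + b * z₂ ^ 2 = 0 → z₁ = 0 ∧ z₂ = 0) : ∃ χ : Cfsg.POmega F (Cfsg.quadFormMinus m F a b) → ℂ, Cfsg.IsIrrCharacter (Cfsg.POmega F (Cfsg.quadFormMinus m F a b)) χ ∧ ∀ P : Sylow p (Cfsg.POmega F (Cfsg.quadFormMinus m F a b)), χ 1 = Nat.card P ∧ ∀ x : Cfsg.POmega F (Cfsg.quadFormMinus m F a b), x ∈ P → x ≠ 1 → χ x = 0 := by
  obtain ⟨k, -, hk⟩ := FiniteField.card F p
  have := Fintype.ofFinite (GaloisField p (k * 2))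
  have e : Fintype.card (GaloisField p (k * 2)) = Fintype.card F ^ 2 := by
    rw [← Nat.card_eq_fintype_card, GaloisField.card p _ (by simp), hk, pow_mul]
  rcases m with _ | _ | _ | m
  · exact (hs_dih (Cfsg.Agent.S0306.result rfl a b hab).some).out
  · exact ((hs_PSL _ le_rfl).of_equiv (Cfsg.Agent.S0300.result rfl e a b hab).some).out
  · exact ((hs_PSU _ e (by simp)).of_equiv (Cfsg.Agent.S0303.result rfl e a b hab).some).out
  · exact (hs_minus F (by simp) hab).out

end Cfsg.Agent.S2549
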