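import Cfsg.Statements.S2551
import Cfsg.Agent.H15.StdL42
import Cfsg.Agent.H15.StdAlt7
import Cfsg.Agent.H15.Emb2
import Cfsg.Agent.H14.MachT
import Cfsg.Agent.H25.Fish
import Cfsg.Agent.S0256
-- import your own Cfsg.Agent.* helpers here

set_option autoImplicit false
open Cfsg

namespace Cfsg.Agent.S2551

/-- Let F be the field with 2 elements. GL_4(F) (≅ A_8) has a subgroup isomorphic to the alternating group A_7, and every such subgroup acts 2-transitively on the 15 non-zero vectors of F⁴: any ordered pair of distinct non-zero vectors is carried to any other by some element of the subgroup. -/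
theorem result {F : Type*} [Field F] [Fintype F] (hF : Fintype.card F = 2) : (∃ H : Subgroup (Matrix.GeneralLinearGroup (Fin 4) F), Nonempty (H ≃* alternatingGroup (Fin 7))) ∧ ∀ H : Subgroup (Matrix.GeneralLinearGroup (Fin 4) F), Nonempty (H ≃* alternatingGroup (Fin 7)) → ∀ v w v' w' : Fin 4 → F, v ≠ 0 → w ≠ 0 → v ≠ w → v' ≠ 0 → w' ≠ 0 → v' ≠ w' → ∃ g ∈ H, (g : Matrix (Fin 4) (Fin 4) F).mulVec v = v' ∧ (g : Matrix (Fin 4) (Fin 4) F).mulVec w = w' := by
  obtain ⟨a, ha⟩ := H15.ar_2 hF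
  obtain ⟨S, g, h1, h2, h3⟩ := H15.StdL42.core ha (H15.mem_gl (Equiv.refl (Fin 4)) ha.1 (L := H15.StdL42.As)
    (by decide +kernel)) _ H15.hq_id (H15.bd_gl hF (by decide +kernel))
  obtain ⟨S'⟩ := H15.StdL42.std hF
  obtain ⟨T⟩ := H15.StdAlt7.std
  obtain ⟨e⟩ := Cfsg.Agent.S0256.result hF
  obtain ⟨e'⟩ := S.iso S'
  have := S.faithful
  have := S.finite
  have := alternatingGroup.isSimpleGroup (α := Fin 7) (by simp)
  have := alternatingGroup.isSimpleGroup (α := Fin 8) (by simp)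
  have := (e'.trans e).isSimpleGroup
  have R := H15.StdL42.rels_of_all S.rels
  constructor
  · obtain ⟨r, n⟩ := H15.sub_of_chk (H15.base_of_fix S.M S.top (H15.StdL42.fixw0 S.M R))
      (C := 64) (D := 4) (W := [[0, 4, 6, 10], [14, 6, 0, 13], [4, 8, 6, 12, 8, 6, 12, 4], [4, 12, 6, 8, 2, 6, 12, 8],
        [6, 0, 8, 6, 10, 4, 8, 6], [13, 6, 8, 13, 8, 6, 8, 13], [0, 8, 2, 6, 12, 8, 12, 6], [10, 8, 6, 0, 2, 12],
        [0, 12, 8, 6, 12, 8, 6, 0], [10, 12, 8, 6, 8, 12, 8, 6], [12, 6, 0, 14]])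
      (rels := H15.StdAlt7.allRels) (c := 0) (by decide +kernel)
    obtain ⟨φ, -, h⟩ := H15.StdAlt7.hom' T _ r
    exact ⟨_, ⟨(MonoidHom.ofInjective (H15.inj_of_simple φ (g := T.M.gen 0) (by rwa [h 0 (by decide)]))).symm⟩⟩
  rintro H ⟨i⟩
  have hH : H.index = 8 := by
    have := H.card_mul_index
    rw [Nat.card_congr i.toEquiv, T.card, S.card] at this
    omega
  have c := H25.compl8 hH (H15.StdL42.card3 S.M R) (u := H14.ev S.M.gen [4]) fun x hx x1 => by
    rw [H15.StdL42.ext3 S.M R] at hx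
    obtain ⟨s, hs, k, hk, k', hk', rfl⟩ := ((H15.StdL42.res3 S.M R).dc x hx).resolve_left fun h =>
      x1 (by simpa [H15.StdL42.ws4] using h)
    simp only [H15.StdL42.ws4, H14.sub_nil, Subgroup.mem_bot] at hk hk'
    obtain ⟨c, -, hc⟩ := List.any_eq_true.1 (List.all_eq_true.1 (by decide +kernel : H15.StdL42.lev3.sos.all (fun s =>
      [[], [2, 0], [2, 8], [2, 0, 8], [2], [2, 0, 2], [2, 0, 8, 6]].any fun c => H14.relsChk 15 H15.StdL42.nets 4
        (H14.idArr 15 4 4 0) [(H14.conjW [4] c, H15.StdL42.lev3.soU H15.StdL42.ws4 s)]) = true) s hs)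
    have := S.M.rels_of_chk (H15.StdL42.sep S.M) hc _ (List.mem_singleton_self _)
    rw [hk, hk', one_mul, mul_one, ← this, H14.ev_conjW]
    exact isConj_iff.2 ⟨_, rfl⟩
  have t : MulAction.IsMultiplyPretransitive _ (H15.Pt S.π) 2 := H14.PM.MT.isMultiplyPretransitive S.M
    (S.M.mt_step (fun _ _ _ _ => S.M.mem_S_full' _) le_top (H15.StdL42.orb1 S.M R) (bs := [0]) (by decide +kernel)
      (S.M.mt_step (fun _ _ _ _ => S.M.mem_S_full' _) le_top (H15.StdL42.orb0 S.M R) (by decide +kernel)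
        (S.M.mt_nil _ _))) rfl
  have n01 : S.M.dec 0 ≠ S.M.dec 1 := fun e => by
    have := congrArg S.M.enc e
    rw [S.M.enc_dec 0 (by decide), S.M.enc_dec 1 (by decide)] at this
    omega
  have t' : ∀ x y, x ≠ y → ∃ h ∈ H, h • S.M.dec 0 = x ∧ h • S.M.dec 1 = y := fun x y hxy => by
    obtain ⟨k, e1, e2⟩ := H16.exists_smul2 t n01 hxy
    obtain ⟨h, hh, u, hu, rfl⟩ := c k
    rw [mul_smul] at e1 e2
    rw [S.M.fix_sound (b := 0) (by decide) (by decide +kernel) hu] at e1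
    rw [S.M.fix_sound (b := 1) (by decide) (by decide +kernel) hu] at e2
    exact ⟨h, hh, e1, e2⟩
  have top : H14.sub g (H14.lets 6) = ⊤ := by
    rw [eq_top_iff, ← S.top, ← H15.StdL42.orig_eq S.rels]
    exact H14.sub_lets_le fun l hl => (h1 l hl).1 ▸ H14.gen_mem_lets hl
  let f : H15.Pt S.π → Fin 4 → F := fun i => a.toV (Equiv.refl _) (a.vec 4 H15.StdL42.V (show Fin 15 from i))
  have one : ∀ x y : Fin 4 → F, x ∈ a.ray [1] y ↔ x = y := fun x y => by simp [H15.Ar.ray, a.v_one]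
  have act : ∀ (x : Matrix.GeneralLinearGroup (Fin 4) F) (i : H15.Pt S.π), x.1.mulVec (f i) = f (x • i) := fun x i =>
    (one _ _).1 ((Set.ext_iff.1 (h3 x (top ▸ Subgroup.mem_top x) i) _).1 ⟨f i, (one _ _).2 rfl, rfl⟩)
  have inj : Function.Injective f := fun i j h => Fin.ext (h2.inj i.2 j.2 (congrArg (H15.rayP _ a [1]) h))
  have nz : ∀ i, f i ≠ 0 := fun i h => by
    obtain ⟨j, hj⟩ : ∃ j, j ≠ i := exists_ne (show Fin 15 from i)
    obtain ⟨k, e1, -⟩ := H16.exists_smul2 t hj.symm hj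
    exact hj (inj (by rw [← e1, ← act, h, Matrix.mulVec_zero]))
  have sur : ∀ v, v ≠ 0 → ∃ i, f i = v := fun v hv => by
    classical
    have : Set.range f = {0}ᶜ := Set.eq_of_subset_of_ncard_le (by rintro _ ⟨i, rfl⟩; exact nz i) (by
      rw [Set.ncard_range_of_injective inj, Set.ncard_compl, Set.ncard_singleton, show Nat.card (H15.Pt S.π) = 15 from
        Nat.card_fin 15]; simp [hF])
    exact this.ge hv
  intro v w v' w' hv hw hvw hv' hw' hvw'
  obtain ⟨⟨i, rfl⟩, j, rfl⟩ := And.intro (sur v hv) (sur w hw)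
  obtain ⟨⟨i', rfl⟩, j', rfl⟩ := And.intro (sur v' hv') (sur w' hw')
  obtain ⟨k, hk, e1, e2⟩ := t' i j fun e => hvw (congrArg f e)
  obtain ⟨k', hk', e3, e4⟩ := t' i' j' fun e => hvw' (congrArg f e)
  exact ⟨k' * k⁻¹, mul_mem hk' (inv_mem hk), by rw [act, ← e1, mul_smul, inv_smul_smul, e3],
    by rw [act, ← e2, mul_smul, inv_smul_smul, e4]⟩

end Cfsg.Agent.S2551
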