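import Cfsg.Statements.S2552
import Cfsg.Agent.H11.ED2

set_option autoImplicit false
open Cfsg

namespace Cfsg.Agent.S2552

/-- Let F be a finite field and n ≥ 1. For every k, the special linear group SL_n(F) acts transitively on the set of k-dimensional subspaces of F^n: any two subspaces of the same dimension are carried onto each other by some matrix of determinant 1. -/
theorem result {F : Type*} [Field F] [Fintype F] (n : ℕ) (hn : 1 ≤ n) (U₁ U₂ : Submodule F (Fin n → F)) (h : Module.finrank F U₁ = Module.finrank F U₂) : ∃ g : Matrix.SpecialLinearGroup (Fin n) F, U₁.map ((Matrix.SpecialLinearGroup.toLin' g : (Fin n → F) ≃ₗ[F] (Fin n → F)) : (Fin n → F) →ₗ[F] (Fin n → F)) = U₂ := by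
  open Polynomial in
  have : Nonempty (Fin n) := ⟨⟨0, hn⟩⟩
  obtain ⟨U', hU⟩ := U₁.exists_isCompl
  obtain ⟨e, he⟩ := Submodule.exists_linearEquiv_restrict_eq (LinearEquiv.ofFinrankEq U₁ U₂ h)
  have h1 : H11.SS (U₁.projection U' hU) := H11.ss_of_squarefree
    (p := Polynomial.X * (Polynomial.X - 1))
    (squarefree_mul_iff.2 ⟨(Polynomial.irreducible_X.coprime_iff_not_dvd.2 (by
      simp [Polynomial.X_dvd_iff])).isRelPrime, Polynomial.irreducible_X.squarefree,
      H11.irreducible_X_sub_one.squarefree⟩) (by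
      simp [mul_sub, (Submodule.isIdempotentElem_projection hU).eq])
  obtain ⟨c, hc, h2⟩ := h1.detC ((LinearEquiv.det e)⁻¹ : Fˣ)
  obtain ⟨A, hA⟩ := H11.mE_surj ((e : Module.End F _) * c)
  have h3 : A.det = 1 := by
    rw [← H11.det_mE, hA, map_mul, h2, ← LinearEquiv.coe_det, Units.mul_inv]
  refine ⟨⟨A, h3⟩, Submodule.eq_of_le_of_finrank_eq ?_ (by rw [LinearEquiv.finrank_map_eq, h])⟩
  rintro _ ⟨v, hv, rfl⟩
  change H11.mE A v ∈ _
  have h4 : c v ∈ U₁ := by
    rw [← show _ = v from Submodule.projection_apply_left hU ⟨v, hv⟩, ← Module.End.mul_apply, hc.eq]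
    exact Submodule.projection_apply_mem hU _
  rw [hA]
  exact he ⟨_, h4⟩ ▸ Subtype.prop _

end Cfsg.Agent.S2552
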