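import Cfsg.Statements.S2561
import Cfsg.Agent.H11.Perm

set_option autoImplicit false
open Cfsg

namespace Cfsg.Agent.S2561

/-- Fix the non-singular alternating form on the 2m-dimensional space over the field of two elements obtained by polarizing the plus-type form Σ xᵢyᵢ (m ≥ 1). The functions q on the space with q(u + v) = q(u) + q(v) + f(u, v) (the quadratic forms polarizing to f) number 2^(2m); each is equivalent under an invertible linear map either to the plus-type form or to the minus-type form Σ xᵢyᵢ + (z₁² + z₁z₂ + z₂²); and those of plus type number 2^(2m−1) + 2^(m−1), those of minus type 2^(2m−1) − 2^(m−1). -/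
theorem result (m : ℕ) (hm : 1 ≤ m) :
    Nat.card {q : (Fin m ⊕ Fin m → ZMod 2) → ZMod 2 // (∀ u v : (Fin m ⊕ Fin m → ZMod 2), q (u + v) = q u + q v + (Cfsg.quadFormPlus m (ZMod 2) (u + v) - Cfsg.quadFormPlus m (ZMod 2) u - Cfsg.quadFormPlus m (ZMod 2) v))} = 2 ^ (2 * m) ∧
    (∀ q : (Fin m ⊕ Fin m → ZMod 2) → ZMod 2, (∀ u v : (Fin m ⊕ Fin m → ZMod 2), q (u + v) = q u + q v + (Cfsg.quadFormPlus m (ZMod 2) (u + v) - Cfsg.quadFormPlus m (ZMod 2) u - Cfsg.quadFormPlus m (ZMod 2) v)) →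
      (∃ g : (Fin m ⊕ Fin m → ZMod 2) ≃ₗ[ZMod 2] (Fin m ⊕ Fin m → ZMod 2), ∀ v, q v = Cfsg.quadFormPlus m (ZMod 2) (g v)) ∨
      (∃ g : (Fin m ⊕ Fin m → ZMod 2) ≃ₗ[ZMod 2] ((Fin (m - 1) ⊕ Fin (m - 1)) ⊕ Fin 2 → ZMod 2), ∀ v, q v = Cfsg.quadFormMinus (m - 1) (ZMod 2) 1 1 (g v))) ∧
    Nat.card {q : (Fin m ⊕ Fin m → ZMod 2) → ZMod 2 // (∀ u v : (Fin m ⊕ Fin m → ZMod 2), q (u + v) = q u + q v + (Cfsg.quadFormPlus m (ZMod 2) (u + v) - Cfsg.quadFormPlus m (ZMod 2) u - Cfsg.quadFormPlus m (ZMod 2) v)) ∧ ∃ g : (Fin m ⊕ Fin m → ZMod 2) ≃ₗ[ZMod 2] (Fin m ⊕ Fin m → ZMod 2), ∀ v, q v = Cfsg.quadFormPlus m (ZMod 2) (g v)} = 2 ^ (2 * m - 1) + 2 ^ (m - 1) ∧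
    Nat.card {q : (Fin m ⊕ Fin m → ZMod 2) → ZMod 2 // (∀ u v : (Fin m ⊕ Fin m → ZMod 2), q (u + v) = q u + q v + (Cfsg.quadFormPlus m (ZMod 2) (u + v) - Cfsg.quadFormPlus m (ZMod 2) u - Cfsg.quadFormPlus m (ZMod 2) v)) ∧ ∃ g : (Fin m ⊕ Fin m → ZMod 2) ≃ₗ[ZMod 2] ((Fin (m - 1) ⊕ Fin (m - 1)) ⊕ Fin 2 → ZMod 2), ∀ v, q v = Cfsg.quadFormMinus (m - 1) (ZMod 2) 1 1 (g v)} = 2 ^ (2 * m - 1) - 2 ^ (m - 1) := by
  have hS := H11.sPlus_nondeg m (ZMod 2)
  have hd := H11.finrank_sum_fun (F := ZMod 2) m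
  have hT := H11.sPlus_hasTS m (ZMod 2)
  have hN := H11.sMinus_not_hasTS' hm H11.aniso_two
  have key : ∀ T : H11.PForm (H11.orthP (ZMod 2)) (Fin m ⊕ Fin m → ZMod 2), T.Nondeg →
      (T.Eqv (H11.sPlus m _) ↔ T.HasTS m) ∧
      (T.Eqv (H11.sMinus (m - 1) _ 1 1) ↔ ¬ T.HasTS m) := fun T h =>
    ⟨⟨fun e => e.symm.hasTS hT, h.eqv_sPlus hd⟩, ⟨fun e h' => hN (e.hasTS h'), fun h' =>
      H11.PForm.orth_eqv_even m h (H11.sMinus_nondeg _ H11.aniso_two) hd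
        (H11.finrank_minus_fun' hm) (by tauto)⟩⟩
  have h0 := H11.PForm.orth_cnt_even 0 m hS hd
  have h1 := H11.PForm.orth_cnt_even 1 m hS hd
  rw [if_pos hT, H11.PForm.orth_cnt_def] at h0 h1
  obtain ⟨k, rfl⟩ : ∃ k, m = k + 1 := ⟨m - 1, by omega⟩
  simp only [Nat.card_zmod, if_true, one_ne_zero, if_false] at h0 h1
  have h2 : 2 * (k + 1) - 1 = 2 * k + 1 := by omega
  refine ⟨?_, fun q hq => ?_, (H11.card_polar_eq hS _).trans ?_, (H11.card_polar_eq hS _).trans ?_⟩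
  · have := H11.card_polar_eq hS fun _ => True
    simp only [and_true] at this
    refine this.trans ?_
    simp [two_mul]
  · have := key (H11.orthTwo (H11.sPlus _ (ZMod 2)) q hq) hS
    simp only [H11.PForm.orth_eqv_iff] at this
    exact (em _).imp this.1.2 this.2.2
  · refine (Nat.card_congr (Equiv.subtypeEquivRight
      (q := fun w => (H11.sPlus (k + 1) (ZMod 2)).q w = 0) fun w =>
      (H11.PForm.orth_eqv_iff (S := H11.shift _ w) (T := H11.sPlus _ _)).symm.trans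
        ((key (H11.shift (H11.sPlus _ _) w) hS).1.trans (by
          rw [← H11.shift_hasTS_iff hS hd]; simp [hT])))).trans ?_
    rw [h2]
    zify
    simp only [pow_succ, mul_add, Nat.add_sub_cancel] at h0 ⊢
    push_cast at h0
    linarith
  · refine (Nat.card_congr (Equiv.subtypeEquivRight
      (q := fun w => (H11.sPlus (k + 1) (ZMod 2)).q w = 1) fun w =>
      (H11.PForm.orth_eqv_iff (S := H11.shift _ w) (T := H11.sMinus _ _ 1 1)).symm.trans
        ((key (H11.shift (H11.sPlus _ _) w) hS).2.trans (by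
          rw [← (by decide : ∀ a : ZMod 2, ¬ a = 0 ↔ a = 1), ← H11.shift_hasTS_iff hS hd]
          simp [hT])))).trans ?_
    rw [h2]
    refine Nat.eq_sub_of_add_eq ?_
    zify
    simp only [pow_succ, mul_add, Nat.add_sub_cancel] at h1 ⊢
    push_cast at h1
    linarith

end Cfsg.Agent.S2561
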