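import Cfsg.Statements.S2562
import Cfsg.Agent.H11.Perm

set_option autoImplicit false
open Cfsg

namespace Cfsg.Agent.S2562

/-- Witt indices over the field of two elements, m ≥ 1: for the plus-type form Σ xᵢyᵢ in dimension 2m some m-dimensional subspace is totally singular and no totally singular subspace has larger dimension; for the minus-type form Σ xᵢyᵢ + (z₁² + z₁z₂ + z₂²) in dimension 2m the maximal dimension of a totally singular subspace is m − 1. -/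
theorem result (m : ℕ) (hm : 1 ≤ m) :
    (∃ U : Submodule (ZMod 2) (Fin m ⊕ Fin m → ZMod 2), (∀ u ∈ U, Cfsg.quadFormPlus m (ZMod 2) u = 0) ∧ Module.finrank (ZMod 2) ↥U = m) ∧
    (∀ U : Submodule (ZMod 2) (Fin m ⊕ Fin m → ZMod 2), (∀ u ∈ U, Cfsg.quadFormPlus m (ZMod 2) u = 0) → Module.finrank (ZMod 2) ↥U ≤ m) ∧
    (∃ U : Submodule (ZMod 2) ((Fin (m - 1) ⊕ Fin (m - 1)) ⊕ Fin 2 → ZMod 2), (∀ u ∈ U, Cfsg.quadFormMinus (m - 1) (ZMod 2) 1 1 u = 0) ∧ Module.finrank (ZMod 2) ↥U = m - 1) ∧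
    (∀ U : Submodule (ZMod 2) ((Fin (m - 1) ⊕ Fin (m - 1)) ⊕ Fin 2 → ZMod 2), (∀ u ∈ U, Cfsg.quadFormMinus (m - 1) (ZMod 2) 1 1 u = 0) → Module.finrank (ZMod 2) ↥U ≤ m - 1) := by
  have hS := H11.sMinus_nondeg (m - 1) H11.aniso_two
  refine ⟨?_, fun U hU => ?_, ?_, fun U hU => ?_⟩
  · obtain ⟨U, hU, h⟩ := H11.sPlus_hasTS m (ZMod 2)
    exact ⟨U, H11.PForm.orth_ts_iff.1 hU, h⟩
  · have := (H11.PForm.orth_ts_iff (S := H11.sPlus m _).2 hU).two_mul_finrank_le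
      (H11.sPlus_nondeg m _)
    rw [H11.finrank_sum_fun] at this
    omega
  · obtain ⟨U, hU, h⟩ := H11.sMinus_hasTS (m - 1) (1 : ZMod 2) 1
    exact ⟨U, H11.PForm.orth_ts_iff.1 hU, h⟩
  · by_contra h
    exact H11.sMinus_not_hasTS (m - 1) H11.aniso_two (H11.PForm.HasTS.mono
      ⟨U, H11.PForm.orth_ts_iff.2 hU, rfl⟩ (by omega))

end Cfsg.Agent.S2562
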