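import Cfsg.Statements.S2566
import Cfsg.Agent.H11.Perm

set_option autoImplicit false
open Cfsg

namespace Cfsg.Agent.S2566

/-- The full orthogonal group of the plus-type form x₁y₁ + x₂y₂ in dimension 4 over the field of two elements has order 72 and is isomorphic to the wreath product of the symmetric group of degree 3 by a group of order 2: it has a normal subgroup isomorphic to the direct product of two symmetric groups of degree 3, of index 2, whose two direct factors are interchanged by conjugation by some element. -/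
theorem result :
    Nat.card ↥(Cfsg.isometryGroup (ZMod 2) (Cfsg.quadFormPlus 2 (ZMod 2))) = 72 ∧
    ∃ (A B : Subgroup ↥(Cfsg.isometryGroup (ZMod 2) (Cfsg.quadFormPlus 2 (ZMod 2)))),
      Nonempty (↥A ≃* Equiv.Perm (Fin 3)) ∧ Nonempty (↥B ≃* Equiv.Perm (Fin 3)) ∧ A ⊓ B = ⊥ ∧ (∀ a ∈ A, ∀ b ∈ B, a * b = b * a) ∧
      (A ⊔ B).index = 2 ∧ ∃ g : ↥(Cfsg.isometryGroup (ZMod 2) (Cfsg.quadFormPlus 2 (ZMod 2))), A.map (MulAut.conj g).toMonoidHom = B := by
  let Q := H11.qMinus 0 (ZMod 2) 1 1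
  have hQ : (H11.orthS Q).Nondeg := H11.sMinus_nondeg 0 H11.aniso_two
  have hO := H11.oSum_qSum Q Q
  have hT := hO.nondeg hQ hQ
  obtain ⟨a⟩ := H11.isom_minus_two hQ (Or.inl rfl) (H11.finrank_minus_fun 0)
    (H11.sMinus_not_hasTS 0 H11.aniso_two)
  obtain ⟨e⟩ := (hT.eqv_sPlus (m := 2) (by simp) ⟨LinearMap.range (H11.sumInl _ _ _ +
    H11.sumInr _ _ _), H11.PForm.orth_ts_iff.2 (by
      rintro _ ⟨x, rfl⟩
      rw [LinearMap.add_apply, H11.sumInl_add_sumInr]
      exact CharTwo.add_self_eq_zero (Q x)), by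
      rw [LinearMap.finrank_range_of_inj fun x y h => funext fun i => by
        simpa [H11.sumInl, H11.sumInr] using congrFun h (Sum.inl i)]
      simp⟩).nonempty_mulEquiv
  obtain ⟨φ, hφ, -⟩ := hO.exists_hom hQ hQ
  simp only [H11.sumInl_add_sumInr] at hφ
  let e' : _ ≃* Cfsg.isometryGroup (ZMod 2) (Cfsg.quadFormPlus 2 (ZMod 2)) := e.trans (H11.orthEquiv (H11.qPlus 2 (ZMod 2))).symm
  let Φ := e'.toMonoidHom.comp φ
  have hΦ : Function.Injective Φ := e'.injective.comp ((injective_iff_map_eq_one φ).2 fun p hp => by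
    have : ∀ x y, Sum.elim (p.1.1 x) (p.2.1 y) = Sum.elim x y := fun x y => by rw [← hφ, hp]; rfl
    ext x i
    · exact congrFun (this x 0) (Sum.inl i)
    · exact congrFun (this 0 x) (Sum.inr i))
  let g : (H11.orthS (H11.qSum Q Q)).Isom := ⟨LinearEquiv.funCongrLeft _ _ (Equiv.sumComm _ _),
    H11.PForm.orth_isIsom (S := H11.orthS (H11.qSum Q Q)) (T := H11.orthS (H11.qSum Q Q))
      (f := (LinearEquiv.funCongrLeft _ _ (Equiv.sumComm _ _)).toLinearMap)
      fun x => add_comm (Q (x ∘ Sum.inr)) (Q (x ∘ Sum.inl))⟩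
  have hg : ∀ s, e' g * Φ (s, 1) * (e' g)⁻¹ = Φ (1, s) := fun s => by
    rw [mul_inv_eq_iff_eq_mul]
    refine (map_mul e' _ _).symm.trans ((congrArg e' (H11.PForm.isom_ext fun x => ?_)).trans
      (map_mul e' _ _))
    have h1 : ∀ x y, g.1 (Sum.elim x y) = Sum.elim y x := fun x y => by ext (i | i) <;> rfl
    rw [← Sum.elim_comp_inl_inr x]
    simp only [H11.PForm.isom_mul_apply, hφ, h1]
  have hc : Nat.card ↥(Cfsg.isometryGroup (ZMod 2) (Cfsg.quadFormPlus 2 (ZMod 2))) = 72 := by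
    refine (Nat.card_congr (H11.orthEquiv (H11.qPlus 2 (ZMod 2))).toEquiv).trans ?_
    rw [(H11.sPlus_nondeg 2 _).orth_card_plus (by norm_num) (H11.finrank_sum_fun 2)
      (H11.sPlus_hasTS 2 _)]
    simp
  refine ⟨hc, (Φ.comp (MonoidHom.inl _ _)).range, (Φ.comp (MonoidHom.inr _ _)).range,
    ⟨(MonoidHom.ofInjective (f := Φ.comp (MonoidHom.inl _ _))
      (hΦ.comp (Prod.mk_left_injective 1))).symm.trans a⟩,
    ⟨(MonoidHom.ofInjective (f := Φ.comp (MonoidHom.inr _ _))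
      (hΦ.comp (Prod.mk_right_injective 1))).symm.trans a⟩, ?_, ?_, ?_,
    e' g, ?_⟩
  · rw [eq_bot_iff]
    rintro _ ⟨⟨s, rfl⟩, t, ht⟩
    have : 1 = s := (Prod.ext_iff.1 (hΦ ht)).1
    rw [← this, map_one]
    exact Subgroup.one_mem _
  · rintro _ ⟨s, rfl⟩ _ ⟨t, rfl⟩
    simp only [MonoidHom.comp_apply, ← map_mul]
    simp
  · have h0 : (MonoidHom.inl (H11.orthS Q).Isom (H11.orthS Q).Isom).range ⊔
        (MonoidHom.inr _ _).range = ⊤ := eq_top_iff.2 fun p _ =>
      p.fst_mul_snd ▸ Subgroup.mul_mem_sup ⟨p.1, rfl⟩ ⟨p.2, rfl⟩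
    rw [MonoidHom.range_comp, MonoidHom.range_comp, ← Subgroup.map_sup, h0,
      ← MonoidHom.range_eq_map]
    have := Φ.range.card_mul_index
    rw [← Nat.card_congr (MonoidHom.ofInjective hΦ).toEquiv, Nat.card_prod,
      Nat.card_congr a.toEquiv, Nat.card_perm] at this
    have h6 : (Nat.card (Fin (2 * 1 + 1))).factorial = 6 := by simp; decide
    rw [h6] at this
    have := this.trans hc
    omega
  · ext x
    constructor
    · rintro ⟨_, ⟨s, rfl⟩, rfl⟩
      exact ⟨s, (hg s).symm⟩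
    · rintro ⟨s, rfl⟩
      exact ⟨_, ⟨s, rfl⟩, hg s⟩

end Cfsg.Agent.S2566
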