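import Cfsg.Statements.S2567
import Cfsg.Agent.H11.ED2

set_option autoImplicit false
open Cfsg

namespace Cfsg.Agent.S2567

/-- Lifting elements of prime order from PGL to GL: let F be a finite field with q elements, r a prime not dividing q − 1, and x an element of order r in GL_n(F) modulo its centre (the scalar matrices). Then x has exactly one preimage in GL_n(F) of order r. -/
theorem result {F : Type*} [Field F] [Fintype F] {q n r : ℕ} (hF : Fintype.card F = q) (hr : r.Prime) (hdiv : ¬ r ∣ q - 1) (x : GL (Fin n) F ⧸ Subgroup.center (GL (Fin n) F)) (hx : orderOf x = r) : ∃! g : GL (Fin n) F, (QuotientGroup.mk g : GL (Fin n) F ⧸ Subgroup.center (GL (Fin n) F)) = x ∧ orderOf g = r := by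
  have hz : ∀ z ∈ Subgroup.center (GL (Fin n) F), z ^ (q - 1) = 1 := fun z hz => by
    rw [Matrix.GeneralLinearGroup.center_eq_range_scalar] at hz
    obtain ⟨a, rfl⟩ := hz
    rw [← map_pow, ← hF, ← Nat.card_eq_fintype_card, ← Nat.card_units, pow_card_eq_one', map_one]
  have hc : r.Coprime (q - 1) := hr.coprime_iff_not_dvd.2 hdiv
  have := Fact.mk hr
  obtain ⟨g, rfl⟩ := QuotientGroup.mk_surjective x
  obtain ⟨k, hk⟩ : ∃ k, (q - 1) * k ≡ 1 [MOD r] :=
    (Nat.exists_mul_mod_eq_one_of_coprime hc.symm hr.one_lt).imp fun k hk => by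
      rw [Nat.ModEq, hk.2, Nat.mod_eq_of_lt hr.one_lt]
  have h1 : (QuotientGroup.mk (g ^ ((q - 1) * k)) : _ ⧸ Subgroup.center (GL (Fin n) F)) = g := by
    rw [QuotientGroup.mk_pow, pow_eq_pow_iff_modEq.2 (hx ▸ hk), pow_one]
  refine ⟨g ^ ((q - 1) * k), ⟨h1, orderOf_eq_prime ?_ fun h => ?_⟩, fun g' ⟨h2, h3⟩ => ?_⟩
  · rw [← pow_mul, mul_comm, pow_mul, pow_mul, hz _ ((QuotientGroup.eq_one_iff _).1 (by
      rw [QuotientGroup.mk_pow, ← hx, pow_orderOf_eq_one])), one_pow]
  · rw [← h1, h, QuotientGroup.mk_one, orderOf_one] at hx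
    exact hr.one_lt.ne hx
  · have h4 := QuotientGroup.eq.1 h2
    have h5 : g = g' * (g'⁻¹ * g) := by group
    rw [h5, Commute.mul_pow (Subgroup.mem_center_iff.1 h4 g'), pow_mul (g'⁻¹ * g), hz _ h4, one_pow,
      mul_one, pow_eq_pow_iff_modEq.2 (h3 ▸ hk), pow_one]

end Cfsg.Agent.S2567
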