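import Cfsg.Statements.S2568
import Cfsg.Agent.H11.ED3

set_option autoImplicit false
open Cfsg

namespace Cfsg.Agent.S2568

/-- Number of conjugacy classes of elements of a given prime order r, coprime to the characteristic, in GL_n(q): if i is the multiplicative order of q modulo r and t = (r − 1)/i, the classes correspond to the non-zero t-tuples of natural numbers (a_1, …, a_t) with i(a_1 + ⋯ + a_t) ≤ n (a_j is the multiplicity of the j-th Frobenius orbit of nontrivial r-th roots of unity among the eigenvalues), so there are exactly C(⌊n/i⌋ + t, t) − 1 of them. -/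
theorem result {F : Type*} [Field F] [Fintype F] {p q : ℕ} [Fact p.Prime] [CharP F p] (hF : Fintype.card F = q) (n r i t : ℕ) (hr : r.Prime) (hrp : r ≠ p) (hi : i = orderOf (q : ZMod r)) (ht : t * i = r - 1) : Nat.card {C : ConjClasses (GL (Fin n) F) // ∃ g : GL (Fin n) F, ConjClasses.mk g = C ∧ orderOf g = r} = Nat.choose (n / i + t) t - 1 := by
  have h0 : (r : F) ≠ 0 := H11.natCast_ne_zero_of_prime p hr hrp
  have := Fact.mk hr
  obtain ⟨h1, h2⟩ := H11.PhiF_spec (F := F) hr h0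
  rw [Nat.card_eq_fintype_card, hF, ← hi] at h1 h2
  have hi0 : 0 < i := Nat.pos_of_ne_zero fun h => by have := hr.two_le; simp [h] at ht; omega
  rw [H11.card_classes _ (fun g => H11.nED (H11.mE g.1)) fun g g' _ _ =>
    H11.gl_isConj_iff.trans (H11.sim_iff_nED rfl), ← Nat.eq_of_mul_eq_mul_right hi0 (h2.trans ht.symm),
    ← H11.card_ms_pos_le]
  have h3 := fun s => H11.sum_natDegree_PhiF (F := F) (s := s) hr h0
  rw [Nat.card_eq_fintype_card, hF, ← hi] at h3
  refine Nat.card_congr (Equiv.subtypeEquivRight fun s => ⟨?_, fun ⟨h4, h5, h6⟩ => ?_⟩)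
  · rintro ⟨g, hg, rfl⟩
    rw [← H11.orderOf_mE_gl] at hg
    have h4 := H11.mem_PhiF_of_pow hr h0 (hg ▸ pow_orderOf_eq_one _)
    refine ⟨h4, Multiset.card_pos.2 fun h => ?_, (Nat.le_div_iff_mul_le hi0).2 ?_⟩
    · rw [H11.nED_eq_zero.1 h, orderOf_one] at hg
      exact hr.one_lt.ne hg
    · obtain ⟨a, ha⟩ := H11.ED_eq_nED (H11.mE g.1)
      have := H11.finrank_eq_nED ha
      rw [h3 _ h4, Module.finrank_fin_fun] at this
      omega
  · obtain ⟨f, rfl⟩ := H11.exists_nED (V := Fin n → F) (s := s) (fun P hP => H11.PP.of_irr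
      (H11.mem_PhiF.1 (h4 P hP)).2.1 (H11.mem_PhiF.1 (h4 P hP)).1)
      (fun h => H11.X_sub_one_notMem_PhiF hr h0 (h4 _ h))
      (by rw [h3 _ h4, Module.finrank_fin_fun]; exact (Nat.le_div_iff_mul_le hi0).1 h6)
    have h7 := H11.pow_eq_one_of_nED h4
    obtain ⟨A, rfl⟩ := H11.mE_surj f
    obtain ⟨g, rfl⟩ := H11.isUnit_mE.1 (IsUnit.of_pow_eq_one h7 hr.ne_zero)
    exact ⟨g, H11.orderOf_mE_gl g ▸ orderOf_eq_prime h7 fun h => by
      simp [H11.nED_eq_zero.2 h] at h5, rfl⟩

end Cfsg.Agent.S2568
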