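import Cfsg.Statements.S2570
import Cfsg.Agent.H11.ED2

set_option autoImplicit false
open Cfsg

namespace Cfsg.Agent.S2570

/-- Number of conjugacy classes of elements of order p in GL_n over a finite field of characteristic p: they correspond to the Jordan types, that is, to the partitions of n with all parts at most p other than the partition into ones, so there are (number of partitions of n with parts ≤ p) − 1 of them. -/
theorem result {F : Type*} [Field F] [Fintype F] {p : ℕ} [Fact p.Prime] [CharP F p] (n : ℕ) : Nat.card {C : ConjClasses (GL (Fin n) F) // ∃ g : GL (Fin n) F, ConjClasses.mk g = C ∧ orderOf g = p} = (Finset.univ.filter (fun μ : Nat.Partition n => ∀ a ∈ μ.parts, a ≤ p)).card - 1 := by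
  have hp : p.Prime := Fact.out
  have h0 : ∀ g : GL (Fin n) F, orderOf g = p → (H11.mE g.1 - 1) ^ p = 0 := fun g hg => by
    simpa using (H11.pow_char_pow_eq_one_iff p (j := 1) (f := H11.mE g.1)).1 (by
      rw [pow_one, ← hg, ← H11.orderOf_mE_gl, pow_orderOf_eq_one])
  rw [H11.card_classes _ (fun g => H11.JT (H11.mE g.1)) fun g g' hg hg' =>
    H11.gl_isConj_iff.trans (H11.Unip.sim_iff ⟨_, h0 g hg⟩ ⟨_, h0 g' hg'⟩)]
  rw [← Finset.card_erase_of_mem (a := Nat.Partition.ofSums n (Multiset.replicate n 1) (by simp))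
    (by simp [Multiset.mem_replicate, hp.one_le]), ← Fintype.card_coe, ← Nat.card_eq_fintype_card]
  have h1 : (Nat.Partition.ofSums n (Multiset.replicate n 1) (by simp)).parts =
      Multiset.replicate n 1 := by simp [Multiset.filter_eq_self, Multiset.mem_replicate]
  symm
  refine Nat.card_congr (Equiv.ofBijective (fun μ => ⟨μ.1.parts, ?_⟩) ⟨fun μ ν h =>
    Subtype.ext (Nat.Partition.ext congr($h.1)), ?_⟩)
  · obtain ⟨μ, hμ⟩ := μ
    simp only [Finset.mem_erase, Finset.mem_filter, Finset.mem_univ, true_and] at hμ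
    obtain ⟨f, h2, h3⟩ := H11.exists_JT (F := F) (V := Fin n → F) (μ := μ.parts)
      (fun k => μ.parts_pos) (by simp [μ.parts_sum])
    obtain ⟨g, hg⟩ := H11.exists_gl_sim (ι := Fin n) h2.isUnit (by simp)
    have h4 := hg.symm.unip h2
    refine ⟨g, ?_, hg.JT_eq.trans h3⟩
    rw [← H11.orderOf_mE_gl]
    refine orderOf_eq_prime ?_ fun h => hμ.1 (Nat.Partition.ext ?_)
    · simpa using (H11.pow_char_pow_eq_one_iff p (j := 1)).2 (h4.pow_eq_zero_iff.2 (by
        simpa [hg.JT_eq, h3] using hμ.2))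
    · rw [h1]
      simpa [← h3, ← hg.JT_eq] using (H11.JT_of_sq (f := H11.mE g.1) (r := 0) (by simp [h])
        (by simp [h])).2
  · rintro ⟨_, g, hg, rfl⟩
    have h2 : H11.Unip _ := ⟨_, h0 g hg⟩
    refine ⟨⟨⟨_, H11.JT_pos, by simpa using H11.JT_sum (H11.mE g.1)⟩, ?_⟩, rfl⟩
    simp only [Finset.mem_erase, Finset.mem_filter, Finset.mem_univ, true_and]
    refine ⟨fun h => ?_, h2.pow_eq_zero_iff.1 (h0 g hg)⟩
    have h3 := (h2.pow_eq_zero_iff (m := 1)).2 fun k hk => by
      rw [show H11.JT _ = _ from congrArg Nat.Partition.parts h, h1] at hk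
      exact (Multiset.eq_of_mem_replicate hk).le
    rw [pow_one, sub_eq_zero] at h3
    rw [← H11.orderOf_mE_gl, h3, orderOf_one] at hg
    exact hp.one_lt.ne hg

end Cfsg.Agent.S2570
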