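import Cfsg.Statements.S2571
import Cfsg.Agent.H11.ED3

set_option autoImplicit false
open Cfsg

namespace Cfsg.Agent.S2571

/-- Centraliser of a regular unipotent element in GL_n(q): if u is an invertible n × n matrix over the field with q elements, n ≥ 1, with (u − 1)^n = 0 and rank(u − 1) = n − 1 (a single unipotent Jordan block), then its centraliser in GL_n(q) has order (q − 1) q^(n−1). -/
theorem result {F : Type*} [Field F] [Fintype F] {q n : ℕ} (hF : Fintype.card F = q) (hn : 1 ≤ n) (u : GL (Fin n) F) (hnil : ((u : Matrix (Fin n) (Fin n) F) - 1) ^ n = 0) (hreg : ((u : Matrix (Fin n) (Fin n) F) - 1).rank = n - 1) : Nat.card ↥(Subgroup.centralizer ({u} : Set (GL (Fin n) F))) = (q - 1) * q ^ (n - 1) := by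
  have h1 : H11.Unip (H11.mE u.1) := H11.unip_mE.2 ⟨n, hnil⟩
  have h2 := H11.rank_add_ker (u.1 - 1)
  rw [H11.mE_sub, H11.mE_one, hreg, Fintype.card_fin] at h2
  have h3 := h1.JT_eq_singleton (by omega)
  obtain ⟨n, rfl⟩ := Nat.exists_eq_add_one_of_ne_zero (show n ≠ 0 by omega)
  have h4 : H11.JT (1 : Module.End F (Fin 0 → F)) = 0 := Multiset.eq_zero_of_forall_notMem
    fun k hk => by
      have := Multiset.single_le_sum (by simp) _ hk
      have := H11.JT_pos hk
      simp_all [H11.JT_sum]
  rw [Nat.card_congr (H11.centGL u).toEquiv, h1.cG_rec (g := (1 : Module.End F (Fin 0 → F)))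
    ⟨1, by simp⟩ (d := n) (by simpa [h4] using h3) (by simp [h4]), h3]
  simp [hF, pow_succ', Nat.sub_mul]

end Cfsg.Agent.S2571
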