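import Cfsg.Statements.S2572
import Cfsg.Agent.H11.ED3

set_option autoImplicit false
open Cfsg

namespace Cfsg.Agent.S2572

/-- Centraliser of a transvection in GL_n(q), n ≥ 2: if t − 1 has rank one and square zero, the centraliser of t in GL_n(q) has order q^(2n−3) (q − 1) |GL_(n−2)(q)| (a group of order q^(2n−3) extended by GL_1(q) × GL_(n−2)(q)). -/
theorem result {F : Type*} [Field F] [Fintype F] {q n : ℕ} (hF : Fintype.card F = q) (hn : 2 ≤ n) (t : GL (Fin n) F) (ht : Cfsg.IsTransvection (t : Matrix (Fin n) (Fin n) F)) : Nat.card ↥(Subgroup.centralizer ({t} : Set (GL (Fin n) F))) = q ^ (2 * n - 3) * (q - 1) * ∏ i : Fin (n - 2), (q ^ (n - 2) - q ^ (i : ℕ)) := by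
  have h0 : (H11.mE t.1 - 1) ^ 2 = 0 := by rw [H11.mE_sub_one_pow, pow_two, ht.2, H11.mE_zero]
  have h2 := (H11.JT_of_sq h0 ((H11.rank_sub_one _).symm.trans ht.1)).2
  obtain ⟨n, rfl⟩ := Nat.exists_eq_add_of_le' hn
  have h4 := (H11.JT_of_sq (f := (1 : Module.End F (Fin n → F))) (r := 0) (by simp) (by simp)).2
  have h5 : Nat.card (H11.cG (1 : Module.End F (Fin n → F))) = Nat.card (GL (Fin n) F) := by
    rw [Nat.card_congr H11.glEquiv.toEquiv, show H11.cG _ = ⊤ from top_unique fun _ _ _ => rfl,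
      Subgroup.card_top]
  rw [Nat.card_congr (H11.centGL t).toEquiv, H11.Unip.cG_rec ⟨2, h0⟩
    (g := (1 : Module.End F (Fin n → F))) ⟨1, by simp⟩ (d := 1) (by simpa [h4] using h2)
    (by simp +contextual [h4, Multiset.mem_replicate]), h2, h5, Matrix.card_GL_field]
  simp only [hF, Nat.card_eq_fintype_card, Module.finrank_fin_fun, Multiset.count_add,
    Multiset.count_replicate, Nat.add_sub_cancel]
  rw [show 2 * (n + 2) - 3 = (n + 1) + n by omega, pow_add q (n + 1) n, pow_succ q (n + 1)]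
  simp only [Nat.reduceAdd, if_true, OfNat.one_ne_ofNat, if_false, add_zero, Nat.add_one_sub_one,
    ← Nat.mul_sub_one]
  change _ = _ * ∏ i : Fin n, (q ^ n - q ^ (i : ℕ))
  ring

end Cfsg.Agent.S2572
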