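import Cfsg.Statements.S2573
import Cfsg.Agent.H11.ED2

set_option autoImplicit false
open Cfsg

namespace Cfsg.Agent.S2573

/-- The invariant subspaces of a regular unipotent matrix form a chain: over a finite field, if u is an n × n matrix with (u − 1)^n = 0 and rank(u − 1) = n − 1, then every subspace W of F^n with u W ⊆ W is the kernel of (u − 1)^(dim W); so u has at most one invariant subspace of each dimension. -/
theorem result {F : Type*} [Field F] [Finite F] {n : ℕ} (u : Matrix (Fin n) (Fin n) F) (hnil : (u - 1) ^ n = 0) (hreg : (u - 1).rank = n - 1) (W : Submodule F (Fin n → F)) (hW : ∀ v ∈ W, u.mulVec v ∈ W) : W = LinearMap.ker (Matrix.mulVecLin ((u - 1) ^ Module.finrank F W)) := by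
  have h1 : H11.Unip (H11.mE u) := H11.unip_mE.2 ⟨n, hnil⟩
  have h2 : ∀ v ∈ W, H11.mE u v ∈ W := hW
  have h3 : ∀ v ∈ W, (H11.mE u - 1) v ∈ W := fun v hv => W.sub_mem (hW v hv) hv
  have h4 : H11.Unip ((H11.mE u).restrict h2) :=
    (Module.End.isNilpotent.restrict h3 h1 :)
  have h5 := h4.pow_finrank
  change W = LinearMap.ker (H11.mE _)
  rw [← H11.mE_sub_one_pow]
  refine Submodule.eq_of_le_of_finrank_le (fun v hv => ?_) ?_
  · rw [show (H11.mE u).restrict h2 - 1 = (H11.mE u - 1).restrict h3 from rfl,
      Module.End.pow_restrict] at h5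
    exact congr(($h5 ⟨v, hv⟩).1)
  · have h6 := h1.card_JT_add
    rw [← H11.rank_sub_one, hreg, Module.finrank_fin_fun] at h6
    rw [h1.finrank_ker]
    refine (Multiset.sum_le_card_nsmul _ (Module.finrank F W) (by simp +contextual)).trans ?_
    rcases Nat.eq_zero_or_pos n with rfl | hn
    · simp_all
    · simp [show (H11.JT (H11.mE u)).card = 1 by omega]

end Cfsg.Agent.S2573
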