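import Cfsg.Statements.S2574
import Cfsg.Agent.H11.Reg


set_option autoImplicit false
open Cfsg

namespace Cfsg.Agent.S2574

/-- A regular unipotent element of the symplectic group has totally isotropic small invariant subspaces: over a finite field, if u ∈ Sp_2m(F) satisfies (u − 1)^(2m) = 0 and rank(u − 1) = 2m − 1, and W is a u-invariant subspace with 2 dim W ≤ 2m, then the alternating form vanishes identically on W. -/
theorem result {F : Type*} [Field F] [Finite F] {m : ℕ} (u : Matrix.symplecticGroup (Fin m) F) (hnil : ((u : Matrix (Fin m ⊕ Fin m) (Fin m ⊕ Fin m) F) - 1) ^ (2 * m) = 0) (hreg : ((u : Matrix (Fin m ⊕ Fin m) (Fin m ⊕ Fin m) F) - 1).rank = 2 * m - 1) (W : Submodule F (Fin m ⊕ Fin m → F)) (hW : ∀ v ∈ W, (u : Matrix (Fin m ⊕ Fin m) (Fin m ⊕ Fin m) F).mulVec v ∈ W) (hdim : 2 * Module.finrank F W ≤ 2 * m) : ∀ v ∈ W, ∀ w ∈ W, Cfsg.sympForm m F v w = 0 := by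
  rcases m.eq_zero_or_pos with rfl | hm
  · simp [H11.sympForm_eq]
  have h : H11.Reg (H11.PForm.iE (H11.spEquiv m F u)) := H11.reg_of_rank (H11.unip_mE.2 ⟨_, hnil⟩) (by simpa)
    (by rw [H11.iE_spEquiv, ← H11.rank_sub_one, hreg, H11.finrank_sum_fun])
  have h1 : ∀ w ∈ W, ((H11.PForm.iE (H11.spEquiv m F u) - 1) ^ m) w = 0 := fun w hw => by
    have h3 : ∀ v ∈ W, (H11.PForm.iE (H11.spEquiv m F u) - 1) v ∈ W := fun v hv => W.sub_mem (hW v hv) hv
    have h5 := (h.unip.restrict hW).pow_finrank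
    change LinearMap.restrict _ h3 ^ _ = 0 at h5
    rw [Module.End.pow_restrict] at h5
    rw [← pow_sub_mul_pow _ (show Module.finrank F W ≤ m by omega), Module.End.mul_apply, show (_ ^ _ : Module.End F _) w = 0 from congr(($h5 ⟨w, hw⟩).1), map_zero]
  intro v hv w hw
  obtain ⟨x, rfl⟩ := (h.ker_eq (j := m) (k := m) (by simp)).ge (h1 v hv)
  exact (H11.stdSymp_h ..).symm.trans (H11.PForm.h_range_ker _ x (h1 w hw))

end Cfsg.Agent.S2574
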