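import Cfsg.Statements.S2575
import Cfsg.Agent.H11.ED2

set_option autoImplicit false
open Cfsg

namespace Cfsg.Agent.S2575

theorem neg_one_pow_iff {F : Type*} [Field F] [Fintype F] {q : ℕ} (hF : Fintype.card F = q)
    (hq : Odd q) {n : ℕ} (hn : 1 ≤ n) :
    (∃ c : F, c ^ n = -1) ↔ padicValNat 2 n < padicValNat 2 (q - 1) := by
  have hq1 : 1 < q := hF ▸ Fintype.one_lt_card
  have h2 : (-1 : F) ≠ 1 := fun h => H11.two_ne_zero_iff_odd.2 (hF ▸ hq) (by linear_combination -h)
  have hc : ∀ c : F, c ≠ 0 → c ^ (q - 1) = 1 := fun c hc => hF ▸ FiniteField.pow_card_sub_one_eq_one c hc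
  obtain ⟨a, m, hm, h3⟩ := Nat.exists_eq_two_pow_mul_odd (show n ≠ 0 by omega)
  obtain ⟨b, k, hk, h4⟩ := Nat.exists_eq_two_pow_mul_odd (show q - 1 ≠ 0 by omega)
  have v : ∀ {a m : ℕ}, Odd m → padicValNat 2 (2 ^ a * m) = a := fun {a m} hm => by
    rw [padicValNat.mul (by simp) hm.pos.ne', padicValNat.prime_pow,
      padicValNat.eq_zero_of_not_dvd hm.not_two_dvd_nat, add_zero]
  rw [h4, h3, v hm, v hk]
  refine ⟨fun ⟨c, h⟩ => not_le.1 fun h5 => h2 ?_, fun h5 => ?_⟩
  · obtain ⟨d, rfl⟩ := Nat.exists_eq_add_of_le h5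
    have h0 : c ≠ 0 := by rintro rfl; simp [hm.pos.ne'] at h
    rw [← hk.neg_one_pow, ← h, ← pow_mul, show 2 ^ (b + d) * m * k = (q - 1) * (2 ^ d * m) by
      rw [h4]; ring, pow_mul, hc c h0, one_pow]
  · obtain ⟨d, rfl⟩ := Nat.exists_eq_add_of_lt h5
    obtain ⟨g, hg⟩ := IsCyclic.exists_ofOrder_eq_natCard (α := Fˣ)
    rw [Nat.card_units, Nat.card_eq_fintype_card, hF, h4, ← orderOf_units] at hg
    have h6 : (g : F) ^ (2 ^ (a + d) * k) = -1 := by
      refine (sq_eq_one_iff.1 ?_).resolve_left fun h => ?_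
      · rw [← pow_mul, ← pow_orderOf_eq_one (g : F), hg]; congr 1; ring
      · have := Nat.le_of_dvd (by have := hk.pos; positivity) (hg ▸ orderOf_dvd_of_pow_eq_one h)
        have : 0 < 2 ^ (a + d) * k := by have := hk.pos; positivity
        rw [pow_succ] at *
        linarith
    exact ⟨g ^ (2 ^ d * k), by rw [← hm.neg_one_pow, ← h6, ← pow_mul, ← pow_mul]; congr 1; ring⟩

/-- Which diagonal involutions of PGL_n(q) lie in PSL_n(q), q odd: for the diagonal matrix t with i entries −1 and n − i entries 1, some non-zero scalar multiple of t has determinant one if and only if i is even or the 2-part of q − 1 exceeds the 2-part of n (that is, −1 is an n-th power in the field exactly in the latter case). -/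
theorem result {F : Type*} [Field F] [Fintype F] {q : ℕ} (hF : Fintype.card F = q) (hq : Odd q) {n : ℕ} (hn : 1 ≤ n) (i : ℕ) (hi : i ≤ n) : (∃ c : F, c ≠ 0 ∧ (c • Matrix.diagonal (fun j : Fin n => if (j : ℕ) < i then (-1 : F) else 1)).det = 1) ↔ (Even i ∨ padicValNat 2 n < padicValNat 2 (q - 1)) := by
  have h1 : ∀ c : F, (c • Matrix.diagonal (fun j : Fin n => if (j : ℕ) < i then (-1 : F) else 1)).det =
      c ^ n * (-1) ^ i := fun c => by
    rw [Matrix.det_smul, Matrix.det_diagonal, Finset.prod_ite, Finset.prod_const, Fin.card_filter_val_lt]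
    simp [hi]
  simp only [h1, ← neg_one_pow_iff hF hq hn]
  rcases Nat.even_or_odd i with h | h
  · simpa [h] using ⟨1, by simp⟩
  · simp only [h.neg_one_pow, Nat.not_even_iff_odd.2 h, false_or]
    refine ⟨fun ⟨c, _, h⟩ => ⟨c, by linear_combination -h⟩, fun ⟨c, h⟩ => ⟨c, ?_, by simp [h]⟩⟩
    rintro rfl
    simp [show n ≠ 0 by omega] at h

end Cfsg.Agent.S2575
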