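import Cfsg.Statements.S2576
import Cfsg.Agent.H11.ED2

set_option autoImplicit false
open Cfsg

namespace Cfsg.Agent.S2576

/-- Which involutions of PGL_2m(q) coming from a scalar of the quadratic extension field lie in PSL_2m(q), q odd: let μ generate the Sylow 2-subgroup of the multiplicative group of the field with q elements (μ has order the 2-part of q − 1) and let t be the block-diagonal matrix with m diagonal blocks [[0, 1], [μ, 0]] (so t² is the scalar μ and t is an involution modulo scalars). Then some non-zero scalar multiple of t has determinant one if and only if q ≡ 3 (mod 4) or the 2-part of q − 1 is less than the 2-part of 2m. -/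
theorem result {F : Type*} [Field F] [Fintype F] {q : ℕ} (hF : Fintype.card F = q) (hq : Odd q) {m : ℕ} (hm : 1 ≤ m) (μ : F) (hμ : orderOf μ = 2 ^ padicValNat 2 (q - 1)) : (∃ c : F, c ≠ 0 ∧ (c • Matrix.blockDiagonal (fun _ : Fin m => !![(0 : F), 1; μ, 0])).det = 1) ↔ (q % 4 = 3 ∨ padicValNat 2 (q - 1) < padicValNat 2 (2 * m)) := by
  have hq1 : 1 < q := hF ▸ Fintype.one_lt_card
  have h1 : ∀ c : F, (c • Matrix.blockDiagonal (fun _ : Fin m => !![(0 : F), 1; μ, 0])).det =
      c ^ (2 * m) * (-μ) ^ m := fun c => by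
    rw [Matrix.det_smul, Matrix.det_blockDiagonal]; simp
  have hc : ∀ c : F, c ≠ 0 → c ^ (q - 1) = 1 := fun c hc => hF ▸ FiniteField.pow_card_sub_one_eq_one c hc
  obtain ⟨a, l, hl, h3⟩ := Nat.exists_eq_two_pow_mul_odd (show m ≠ 0 by omega)
  obtain ⟨b, k, hk, h4⟩ := Nat.exists_eq_two_pow_mul_odd (show q - 1 ≠ 0 by omega)
  have v : ∀ {a m : ℕ}, Odd m → padicValNat 2 (2 ^ a * m) = a := fun {a m} hm => by
    rw [padicValNat.mul (by simp) hm.pos.ne', padicValNat.prime_pow,
      padicValNat.eq_zero_of_not_dvd hm.not_two_dvd_nat, add_zero]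
  simp only [h1]
  rw [h4, v hk] at hμ
  rw [h4, h3, v hk, ← mul_assoc, ← pow_succ', v hl]
  obtain ⟨r, hr⟩ := hq
  obtain ⟨s, hs⟩ := hk
  rcases b with _ | _ | b
  · omega
  · have : μ = -1 := (sq_eq_one_iff.1 (by simpa [hμ] using pow_orderOf_eq_one μ)).resolve_left
      fun h => by simp [h] at hμ
    exact iff_of_true ⟨1, by simp [this]⟩ (Or.inl (by omega))
  · rw [or_iff_right (by
      rw [show 2 ^ (b + 1 + 1) * k = 4 * (2 ^ b * k) by ring] at h4; omega)]
    refine ⟨fun ⟨c, h0, h⟩ => not_le.1 fun h5 => ?_, fun h5 => ⟨1, one_ne_zero, ?_⟩⟩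
    · obtain ⟨d, hd⟩ := Nat.exists_eq_add_of_le h5
      have h6 := congr($h ^ (2 ^ d * k))
      rw [mul_pow, ← pow_mul, ← pow_mul, show 2 ^ (a + 1) * l * (2 ^ d * k) = (q - 1) * l by
        rw [h4, hd]; ring, pow_mul, hc c h0, show 2 ^ a * l * (2 ^ d * k) = 2 ^ (b + 1) * (l * k) by
        rw [show b + 1 = a + d by omega]; ring, Even.neg_pow (by simp [Nat.even_mul, Nat.even_pow]),
        one_pow, one_pow, one_mul, ← orderOf_dvd_iff_pow_eq_one, hμ, pow_succ,
        Nat.mul_dvd_mul_iff_left (by positivity)] at h6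
      exact (hl.mul ⟨s, hs⟩).not_two_dvd_nat h6
    · obtain ⟨d, rfl⟩ := Nat.exists_eq_add_of_le (Nat.lt_succ_iff.1 h5)
      rw [one_pow, one_mul, Even.neg_pow (by simp [Nat.even_mul, Nat.even_pow]), pow_add, mul_assoc,
        pow_mul, ← hμ, pow_orderOf_eq_one, one_pow]

end Cfsg.Agent.S2576
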