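import Cfsg.Statements.S2578
import Cfsg.Agent.H11.Rg

set_option autoImplicit false
open Cfsg

namespace Cfsg.Agent.S2578

/-- Regular unipotent classes of SL_n(q): for n ≥ 2 over the field with q elements, the matrices u of determinant one with (u − 1)^n = 0 and rank(u − 1) = n − 1 form a single GL_n(q)-class which splits into exactly gcd(n, q − 1) conjugacy classes of SL_n(q). -/
theorem result {F : Type*} [Field F] [Fintype F] {q : ℕ} (hF : Fintype.card F = q) {n : ℕ} (hn : 2 ≤ n) : Nat.card {C : ConjClasses (Matrix.SpecialLinearGroup (Fin n) F) // ∃ u : Matrix.SpecialLinearGroup (Fin n) F, ConjClasses.mk u = C ∧ ((u : Matrix (Fin n) (Fin n) F) - 1) ^ n = 0 ∧ ((u : Matrix (Fin n) (Fin n) F) - 1).rank = n - 1} = Nat.gcd n (q - 1) := by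
  have h0 := zero_lt_two.trans_le hn
  have : NeZero n := ⟨h0.ne'⟩
  obtain ⟨g, hg⟩ := H11.sl_reg (F := F) h0
  simp only [H11.reg_mE_iff h0 (Fintype.card_fin n)]
  rw [← hF, ← Nat.card_eq_fintype_card, ← Nat.card_units]
  have e : ∀ g : Matrix.SpecialLinearGroup (Fin n) F, (H10.SLEquivKerDet g).1.1 = g.1 := fun _ => rfl
  refine (H11.card_classes_equiv (H10.SLEquivKerDet (ι := Fin n) (R := F))
    (q := fun g => H11.Reg (H11.mE g.1.1)) fun _ => by rw [e]).trans ?_
  rw [← e] at hg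
  generalize H10.SLEquivKerDet g = g at hg
  refine H11.card_ker_split Matrix.GeneralLinearGroup.det_surjective rfl g
    (fun y => ⟨fun h => H11.gl_isConj_iff.2 (hg.sim h rfl), fun h => (H11.gl_isConj_iff.1 h).reg hg⟩)
    fun a => ⟨fun ⟨c, h1, h2⟩ => ?_, fun ⟨b, hb⟩ => ?_⟩
  · obtain ⟨l, r, h3, h4⟩ := hg.exists_eq (c := H11.mE c.1) (by
      rw [commute_iff_eq, ← H11.mE_mul, ← H11.mE_mul]
      exact congrArg (fun x => H11.mE x.1) (Subgroup.mem_centralizer_singleton_iff.1 h1))
    have := hg.unip.det_eq h3 l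
    rw [← h4, H11.det_mE, Module.finrank_fin_fun] at this
    exact ⟨.mk0 l fun e => c.det_ne_zero (by simp [this, e, h0.ne']), Units.ext (by simp [← h2, this])⟩
  · obtain ⟨k, h1, h2⟩ := H11.DetC.exists_gl (a := b ^ n) (hg.unip.detC (k := n) (by simp [hg.jt]) b)
    exact ⟨k, Subgroup.mem_centralizer_singleton_iff.2 (Units.ext h1), h2.trans hb⟩

end Cfsg.Agent.S2578
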