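import Cfsg.Statements.S2579
import Cfsg.Agent.H11.ED2

set_option autoImplicit false
open Cfsg

namespace Cfsg.Agent.S2579

/-- In SL_n(F) with n ≥ 3, over a finite field F, any two transvections (matrices t with t − 1 of rank one and square zero) are conjugate by an element of SL_n(F). -/
theorem result {F : Type*} [Field F] [Finite F] {n : ℕ} (hn : 3 ≤ n) (s t : Matrix.SpecialLinearGroup (Fin n) F) (hs : Cfsg.IsTransvection (s : Matrix (Fin n) (Fin n) F)) (ht : Cfsg.IsTransvection (t : Matrix (Fin n) (Fin n) F)) : IsConj s t := by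
  have h0 : ∀ {s : Matrix (Fin n) (Fin n) F}, Cfsg.IsTransvection s → (H11.mE s - 1) ^ 2 = 0 :=
    fun hs => by rw [H11.mE_sub_one_pow, pow_two, hs.2, H11.mE_zero]
  have h2 := (H11.JT_of_sq (h0 hs) ((H11.rank_sub_one _).symm.trans hs.1)).2
  have h4 := (H11.JT_of_sq (h0 ht) ((H11.rank_sub_one _).symm.trans ht.1)).2
  have h1 : H11.Unip _ := ⟨2, h0 hs⟩
  refine H11.sl_isConj (fun a => ?_) ((h1.sim_iff ⟨2, h0 ht⟩).2 (h2.trans h4.symm))
  simpa using h1.detC (k := 1) (by rw [h2]; simp [Multiset.mem_replicate]; omega) a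

end Cfsg.Agent.S2579
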