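import Cfsg.Statements.S2582
import Cfsg.Agent.H11.Reg

set_option autoImplicit false
open Cfsg

namespace Cfsg.Agent.S2582

/-- Which unipotent Jordan types occur in the finite symplectic group: over a finite field, a unipotent matrix with Jordan block sizes d_1, …, d_t (sum 2m, all at least 1) is similar to an element of Sp_2m(F) if and only if every odd block size occurs an even number of times. -/
theorem result {F : Type*} [Field F] [Fintype F] {m t : ℕ} (d : Fin t → ℕ) (hd : ∀ k, 1 ≤ d k) (hsum : ∑ k, d k = 2 * m) : (∃ e : ((k : Fin t) × Fin (d k)) ≃ (Fin m ⊕ Fin m), ∃ A : Matrix.symplecticGroup (Fin m) F, IsConj (Matrix.reindex e e (Cfsg.jordanTypeMatrix d F)) (A : Matrix (Fin m ⊕ Fin m) (Fin m ⊕ Fin m) F)) ↔ ∀ j : ℕ, Odd j → Even (Finset.univ.filter (fun k : Fin t => d k = j)).card := by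
  refine ⟨fun ⟨e, A, h⟩ j hj => ?_, fun h => ?_⟩
  · rw [H11.jt_conj_iff hd, ← H11.iE_spEquiv] at h
    rw [← H11.count_map_univ, ← h.2]; exact H11.symp_par (H11.stdSymp_nondeg m) h.1 hj
  obtain ⟨V, _, _, _, S, g, h1, h2, h3⟩ := H11.md_symp (F := F) (μ := Finset.univ.val.map d) (by simpa [Nat.succ_le_iff] using hd) (by
    simpa only [H11.count_map_univ])
  obtain ⟨k, hk⟩ := (H11.PForm.symp_eqv (2 * m) h1 (H11.stdSymp_nondeg m) (by rw [← H11.JT_sum, h3]; exact hsum)
    (H11.finrank_sum_fun m)).exists_isim g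
  obtain ⟨A, rfl⟩ := (H11.spEquiv m F).surjective k
  exact ⟨Fintype.equivOfCardEq (by simp [hsum, two_mul]), A, (H11.jt_conj_iff hd _).2 ⟨hk.sim.unip h2, hk.sim.JT_eq.symm.trans h3⟩⟩

end Cfsg.Agent.S2582
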