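import Cfsg.Statements.S2583
import Cfsg.Agent.H11.Reg

set_option autoImplicit false
open Cfsg

namespace Cfsg.Agent.S2583

/-- Which unipotent Jordan types occur in a finite orthogonal group in odd characteristic: over a finite field of odd order, a unipotent matrix with Jordan block sizes d_1, …, d_t (sum n, all at least 1) is similar to an isometry of some quadratic form on F^n with non-degenerate polar form if and only if every even block size occurs an even number of times. -/
theorem result {F : Type*} [Field F] [Fintype F] (h2 : (2 : F) ≠ 0) {n t : ℕ} (d : Fin t → ℕ) (hd : ∀ k, 1 ≤ d k) (hsum : ∑ k, d k = n) : (∃ Q : QuadraticForm F (Fin n → F), (QuadraticMap.polarBilin Q).Nondegenerate ∧ ∃ e : ((k : Fin t) × Fin (d k)) ≃ Fin n, ∃ A : ↥(Cfsg.isometryGroup F ⇑Q), IsConj (Matrix.reindex e e (Cfsg.jordanTypeMatrix d F)) ((A : Matrix.GeneralLinearGroup (Fin n) F) : Matrix (Fin n) (Fin n) F)) ↔ ∀ j : ℕ, Even j → 0 < j → Even (Finset.univ.filter (fun k : Fin t => d k = j)).card := by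
  refine ⟨fun ⟨Q, hQ, e, A, h⟩ j hj _ => ?_, fun h => ?_⟩
  · rw [H11.jt_conj_iff hd, ← H11.iE_orthEquiv] at h
    rw [← H11.count_map_univ, ← h.2]; exact H11.orth_par (H11.orthS_nondeg hQ) h2 h.1 hj
  obtain ⟨Q, hQ, A, hA⟩ := (H11.md_orth (F := F) (μ := Finset.univ.val.map d) (by simpa [Nat.succ_le_iff] using hd) h2 fun j hj => by
    rcases j.eq_zero_or_pos with rfl | e
    · rw [Multiset.count_eq_zero.2 (by simpa using fun k => Nat.ne_of_gt (hd k))]; simp
    · simpa only [H11.count_map_univ] using h j hj e).exists_quad hsum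
  exact ⟨Q, hQ, Fintype.equivOfCardEq (by simp [hsum]), A, (H11.jt_conj_iff hd _).2 hA⟩

end Cfsg.Agent.S2583
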