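import Cfsg.Statements.S2584
import Cfsg.Agent.H11.Reg

set_option autoImplicit false
open Cfsg

namespace Cfsg.Agent.S2584

/-- Which unipotent Jordan types occur in a finite orthogonal group in characteristic two: over a finite field of characteristic 2 and in even dimension 2m, a unipotent matrix with Jordan block sizes d_1, …, d_t (sum 2m, all at least 1) is similar to an isometry of some quadratic form on F^(2m) with non-degenerate polar form if and only if every odd block size occurs an even number of times (the same condition as for the symplectic group, which contains these orthogonal groups). -/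
theorem result {F : Type*} [Field F] [Fintype F] [CharP F 2] {m t : ℕ} (d : Fin t → ℕ) (hd : ∀ k, 1 ≤ d k) (hsum : ∑ k, d k = 2 * m) : (∃ Q : QuadraticForm F (Fin (2 * m) → F), (QuadraticMap.polarBilin Q).Nondegenerate ∧ ∃ e : ((k : Fin t) × Fin (d k)) ≃ Fin (2 * m), ∃ A : ↥(Cfsg.isometryGroup F ⇑Q), IsConj (Matrix.reindex e e (Cfsg.jordanTypeMatrix d F)) ((A : Matrix.GeneralLinearGroup (Fin (2 * m)) F) : Matrix (Fin (2 * m)) (Fin (2 * m)) F)) ↔ ∀ j : ℕ, Odd j → Even (Finset.univ.filter (fun k : Fin t => d k = j)).card := by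
  refine ⟨fun ⟨Q, hQ, e, A, h⟩ j hj => ?_, fun h => ?_⟩
  · rw [H11.jt_conj_iff hd, ← H11.iE_orthEquiv] at h
    have hA : Q.polarBilin.IsAlt := fun x => by simp [two_smul, CharTwo.add_self_eq_zero]
    rw [← H11.count_map_univ, ← h.2]
    exact H11.symp_par (H11.sympS_nondeg hA hQ) (g := ⟨_, H11.PForm.symp_isIsom (H11.orthEquiv Q A).2.h_eq⟩) h.1 hj
  obtain ⟨Q, hQ, A, hA⟩ := (H11.md_orth_two (F := F) (μ := Finset.univ.val.map d) (by simpa [Nat.succ_le_iff] using hd) CharTwo.two_eq_zero (by
    simpa only [H11.count_map_univ])).exists_quad hsum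
  exact ⟨Q, hQ, Fintype.equivOfCardEq (by simp [hsum]), A, (H11.jt_conj_iff hd _).2 hA⟩

end Cfsg.Agent.S2584
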