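import Cfsg.Statements.S2586
import Cfsg.Agent.H11.ED2

set_option autoImplicit false
open Cfsg

namespace Cfsg.Agent.S2586

/-- Over a finite field, every element of the symplectic group Sp_2m(F) is conjugate by an invertible matrix to its inverse. -/
theorem result {F : Type*} [Field F] [Finite F] {m : ℕ} (A : Matrix.symplecticGroup (Fin m) F) : IsConj (A : Matrix (Fin m ⊕ Fin m) (Fin m ⊕ Fin m) F) ((A⁻¹ : Matrix.symplecticGroup (Fin m) F) : Matrix (Fin m ⊕ Fin m) (Fin m ⊕ Fin m) F) := by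
  refine (H11.isConj_mat_iff.2 (H11.sim_transpose _)).trans ?_
  obtain ⟨J, hJ⟩ := (Matrix.isUnit_iff_isUnit_det (Matrix.J (Fin m) F)).2 (Matrix.isUnit_det_J _ _)
  refine ⟨J, ?_⟩
  rw [SemiconjBy, hJ, SymplecticGroup.coe_inv, mul_assoc, Matrix.J_squared]
  simp

end Cfsg.Agent.S2586
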