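import Cfsg.Statements.S2587
import Cfsg.Agent.H11.ThC

set_option autoImplicit false
open Cfsg

namespace Cfsg.Agent.S2587

/-- Conjugacy in the finite general unitary group is controlled by the general linear group: two elements of GU_n(q) (the invertible matrices over the field with q² elements preserving the Hermitian form Σ u_i v_i^q) are conjugate in GU_n(q) if and only if they are conjugate in GL_n(q²). -/
theorem result {K : Type*} [Field K] [Fintype K] {q n : ℕ} (hK : Fintype.card K = q ^ 2) (A B : ↥(Cfsg.GU n K q)) : IsConj A B ↔ IsConj (A : GL (Fin n) K) (B : GL (Fin n) K) := by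
  obtain ⟨σ, hq, hσ, hne⟩ := H11.exists_frob hK
  rw [← H11.isConj_mulEquiv_iff (H11.guEquiv hσ hne hq n), H11.gl_isConj_iff,
    ← H11.iE_guEquiv hσ hne hq, ← H11.iE_guEquiv hσ hne hq]
  exact ⟨H11.PForm.sim_of_isConj, fun h => H11.PForm.isim_iff_isConj.1 (H11.PForm.unit_isim hne
    (H11.stdUnit_nondeg _ _ _) (H11.stdUnit_nondeg _ _ _) h)⟩

end Cfsg.Agent.S2587
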