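import Cfsg.Statements.S2588
import Cfsg.Agent.H11.ThC

set_option autoImplicit false
open Cfsg

namespace Cfsg.Agent.S2588

/-- An invertible matrix A over the field with q² elements is conjugate in GL_n(q²) to an element of the general unitary group GU_n(q) (isometries of the Hermitian form Σ u_i v_i^q) if and only if A is similar to the inverse transpose of its entrywise q-th power (A ~ A^(−qT), the image of A under the map sending a matrix to the inverse transpose of its entrywise q-th power — inverse transpose composed with the field automorphism — whose fixed points form GU_n(q)). -/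
theorem result {K : Type*} [Field K] [Fintype K] {q n : ℕ} (hK : Fintype.card K = q ^ 2) (A : GL (Fin n) K) : (∃ B : ↥(Cfsg.GU n K q), IsConj A (B : GL (Fin n) K)) ↔ IsConj (A : Matrix (Fin n) (Fin n) K) (((A : Matrix (Fin n) (Fin n) K).map (fun x : K => x ^ q)).transpose)⁻¹ := by
  obtain ⟨σ, hq, hσ, hne⟩ := H11.exists_frob hK
  rw [show (fun x : K => x ^ q) = σ from (funext hq).symm, ← H11.coe_dG, H11.isConj_mat_iff,
    ← H11.dl_iff_sim hσ]
  refine ⟨fun ⟨B, h⟩ => (H11.gl_isConj_iff.1 h).symm.dl ?_, fun h => ?_⟩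
  · rw [← H11.iE_guEquiv hσ hne hq]; exact (H11.stdUnit_nondeg _ _ _).dl _
  · obtain ⟨T, hT, g, hg⟩ := h.unit_exists hσ hne
    obtain ⟨k, hk⟩ := (H11.PForm.unit_eqv hne _ hT (H11.stdUnit_nondeg hσ hne (Fin n)) rfl
      rfl).exists_isim g
    obtain ⟨B, rfl⟩ := (H11.guEquiv hσ hne hq n).surjective k
    exact ⟨B, H11.gl_isConj_iff.2 (by simpa only [hg, H11.iE_guEquiv] using hk.sim)⟩

end Cfsg.Agent.S2588
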