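import Cfsg.Statements.S2590
import Cfsg.Agent.H11.ThC

set_option autoImplicit false
open Cfsg

namespace Cfsg.Agent.S2590

/-- Two semisimple elements of odd order of a finite orthogonal group (isometry group of a quadratic form on F^n with non-degenerate polar form, F finite of characteristic p; the elements have odd order prime to p) are conjugate in the orthogonal group if and only if they are conjugate in GL_n(F). -/
theorem result {F : Type*} [Field F] [Fintype F] {p : ℕ} [Fact p.Prime] [CharP F p] {n : ℕ} (Q : QuadraticForm F (Fin n → F)) (hQ : (QuadraticMap.polarBilin Q).Nondegenerate) (A B : ↥(Cfsg.isometryGroup F ⇑Q)) (hodd : Odd (orderOf A)) (hA : (orderOf A).Coprime p) : IsConj A B ↔ IsConj ((A : Matrix.GeneralLinearGroup (Fin n) F) : Matrix (Fin n) (Fin n) F) ((B : Matrix.GeneralLinearGroup (Fin n) F) : Matrix (Fin n) (Fin n) F) := by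
  rw [← H11.isConj_mulEquiv_iff (H11.orthEquiv Q), H11.isConj_mat_iff, ← H11.iE_orthEquiv,
    ← H11.iE_orthEquiv]
  exact ⟨H11.PForm.sim_of_isConj, fun h => H11.PForm.isim_iff_isConj.1 (H11.PForm.isim_of_fix
    (H11.orthS_nondeg hQ) (H11.orthS_nondeg hQ) (.refl _) h ((H11.ss_iff_coprime p
      (H11.PForm.isUnit_iE _)).1 (by rwa [H11.PForm.orderOf_iE, MulEquiv.orderOf_eq]))
      (H11.PForm.fix_of_coprime (by simpa using hodd)))⟩

end Cfsg.Agent.S2590
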