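import Cfsg.Statements.S2591
import Cfsg.Agent.H11.Uni2

set_option autoImplicit false
open Cfsg

namespace Cfsg.Agent.S2591

/-- Over a finite field of odd order and for m ≥ 1, the regular unipotent elements of Sp_2m(F) (u − 1 nilpotent of rank 2m − 1, a single Jordan block) form exactly two conjugacy classes of Sp_2m(F) (one class under the similarity group, which splits in two). -/
theorem result {F : Type*} [Field F] [Fintype F] {q : ℕ} (hF : Fintype.card F = q) (hq : Odd q) {m : ℕ} (hm : 1 ≤ m) : Nat.card {C : ConjClasses ↥(Matrix.symplecticGroup (Fin m) F) // ∃ u : Matrix.symplecticGroup (Fin m) F, ConjClasses.mk u = C ∧ ((u : Matrix (Fin m ⊕ Fin m) (Fin m ⊕ Fin m) F) - 1) ^ (2 * m) = 0 ∧ ((u : Matrix (Fin m ⊕ Fin m) (Fin m ⊕ Fin m) F) - 1).rank = 2 * m - 1} = 2 := by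
  classical
  have h2 : (2 : F) ≠ 0 := H11.two_ne_zero_iff_odd.2 (hF ▸ hq)
  have h := H11.symp_UJ h2 (μ := {2 * m}) (by simpa) fun i hi => by
    rw [Multiset.count_singleton, if_neg (by rintro rfl; exact Nat.not_odd_iff_even.2 (even_two_mul m) hi)]; simp
  rw [H11.symp_card _ (A := H11.UJ _ {2 * m}) (fun g => ?_) (fun x hx => by rw [hx]; simp), Set.ncard_def, h]
  · simp [Finset.filter_singleton]
  rw [H11.reg_mE_iff (by omega) (by simp [two_mul]), ← H11.iE_spEquiv]
  exact ⟨fun h => h.unip.JD_eq.trans (by rw [h.jt]; simp [two_mul]),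
    fun h => ⟨(H11.unip_of_JD h).1, (H11.unip_of_JD h).2.trans (by simp [two_mul])⟩⟩

end Cfsg.Agent.S2591
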