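import Cfsg.Statements.S2592
import Cfsg.Agent.H11.Uni

set_option autoImplicit false
open Cfsg

namespace Cfsg.Agent.S2592

open H11 H11.PForm Module in
theorem aux {F V : Type*} [Field F] [Finite F] [AddCommGroup V] [Module F V] [FiniteDimensional F V]
    (h2 : (2 : F) ≠ 0) {S : PForm (sympP F) V} (hS : S.Nondeg) {g : S.Isom} (h : Reg (iE g)) {m : ℕ}
    (hV : finrank F V = 2 * m) : Nat.card (Subgroup.centralizer {g}) = 2 * Nat.card F ^ m := by
  let A : F → Submodule F (End F V) := fun e =>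
    { carrier := {a | Commute a (iE g) ∧ ∀ x y, S.h (a x) y = e * S.h x (a y)}
      add_mem' := fun ha hb => ⟨ha.1.add_left hb.1, fun x y => by simp [ha.2, hb.2, mul_add]⟩
      zero_mem' := by simp
      smul_mem' := fun c a ha => ⟨ha.1.smul_left c, fun x y => by simp [ha.2, mul_left_comm]⟩ }
  have hc : ∀ {a b : End F V}, Commute a (iE g) → Commute b (iE g) → Commute a b := fun ha hb => by
    obtain ⟨p, rfl⟩ := h.exists_aeval ha
    obtain ⟨q, rfl⟩ := h.exists_aeval hb
    exact (Commute.all p q).map _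
  have hu : ∀ {r} (l t : F), Commute r (iE g) → (IsUnit (l • 1 + (iE g - 1) * r + t • 1) ↔ l + t ≠ 0) :=
    fun l t hr => by
      rw [add_right_comm, ← add_smul, LinearMap.isUnit_iff_isUnit_det, h.unip.det_eq hr]
      simp [h.pos.ne']
  obtain ⟨w, hw⟩ : ∃ w, ∀ v, ∃ p, Polynomial.aeval (iE g) p w = v := by
    obtain ⟨e, he⟩ := (sim_blk_of_ED (f := iE g) (by rw [h.unip.ED_eq, h.jt]; rfl)).symm
    refine ⟨e 1, fun v => ?_⟩
    obtain ⟨p, hp⟩ := Ideal.Quotient.mk_surjective (e.symm v)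
    exact ⟨p, (aeval_intertwine (e := e.toLinearMap) he p 1).symm.trans (e.eq_symm_apply.1
      ((aeval_blk_mk _ p 1).trans (by rwa [mul_one])))⟩
  have h3 : ∀ e, finrank F ((A e).map (LinearMap.applyₗ w)) ≤ m := fun e => by
    suffices (A e).map (LinearMap.applyₗ w) ≤ S.perp ((A e).map (LinearMap.applyₗ w)) by
      have := Submodule.finrank_mono this
      have := hS.finrank_perp ((A e).map (LinearMap.applyₗ w)); omega
    rintro _ ⟨a, ha, rfl⟩ _ ⟨b, hb, rfl⟩
    have h4 := S.symp_symm (a w) (b w)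
    have h5 : a (b w) = b (a w) := congr($((hc ha.1 hb.1).eq) w)
    rw [ha.2, h5, ← hb.2] at h4
    exact mul_left_cancel₀ h2 (show 2 * S.h (b w) (a w) = _ by linear_combination h4)
  have h4 : (A 1).map (LinearMap.applyₗ w) ⊔ (A (-1)).map (LinearMap.applyₗ w) = ⊤ :=
    Submodule.eq_top_iff'.2 fun v => by
      obtain ⟨p, rfl⟩ := hw v
      rw [Polynomial.aeval_eq_sum_range, LinearMap.sum_apply]
      refine Submodule.sum_mem _ fun i _ => Submodule.smul_mem _ _ ?_
      have h1 := (Commute.refl g).pow_left i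
      rw [← iE_pow]
      generalize g ^ i = k at h1
      have : ∀ e : F, e * e = 1 → iE k + e • iE k⁻¹ ∈ A e := fun e he =>
        ⟨(h1.map S.iEH).add_left ((h1.inv_left.map S.iEH).smul_left e), fun x y => by
          simpa [mul_add, ← mul_assoc, he, add_comm] using congrArg₂ (· + e * ·) (isom_h_left k x y)
            (isom_h_right k x y).symm⟩
      refine Submodule.mem_sup.2 ⟨_, Submodule.smul_mem _ (2 : F)⁻¹ ⟨_, this _ (by simp), rfl⟩, _,
        Submodule.smul_mem _ (2 : F)⁻¹ ⟨_, this _ (by simp), rfl⟩, ?_⟩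
      rw [← smul_add, inv_smul_eq_iff₀ h2]; simp [two_smul]; abel
  have h5 : Nat.card (A (-1)) = Nat.card F ^ m := by
    have := Submodule.finrank_add_le_finrank_add_finrank ((A 1).map (LinearMap.applyₗ w))
      ((A (-1)).map (LinearMap.applyₗ w))
    rw [h4, finrank_top] at this
    rw [Module.natCard_eq_pow_finrank (K := F), ← LinearMap.finrank_range_of_inj
      (f := (LinearMap.applyₗ w).domRestrict (A (-1))) ((injective_iff_map_eq_zero _).2 fun a ha => ?_),
      LinearMap.range_domRestrict, (h3 (-1)).antisymm (by have := h3 1; omega)]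
    ext v
    obtain ⟨p, rfl⟩ := hw v
    exact (aeval_intertwine (e := a.1) (fun x => congr($(a.2.1.eq) x)) p w).trans
      (by rw [show a.1 w = 0 from ha]; simp)
  have h6 : ∀ a ∈ A (-1), IsUnit (1 - a) := fun a ha => by
    obtain ⟨l, r, hr, rfl⟩ := h.exists_eq ha.1
    obtain ⟨w, hw⟩ := hS.exists_top h
    set v := ((iE g - 1) ^ (finrank F V - 1)) w
    have h1 : (iE g - 1) v = 0 := by
      rw [← End.mul_apply, ← pow_succ', Nat.sub_add_cancel h.pos, h.unip.pow_finrank]; rfl
    have h3 := ha.2 w v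
    have h4 := h_range_ker g (k := 1) (r w) (y := v) (by rwa [pow_one])
    rw [pow_one] at h4
    rw [LinearMap.add_apply _ _ v, ← (hr.sub_right (.one_right r)).eq, End.mul_apply, h1,
      (hr.sub_right (.one_right r)).eq] at h3
    simp only [map_zero, add_zero, map_add, map_smul, LinearMap.add_apply, End.mul_apply, End.one_apply,
      LinearMap.smul_apply, smul_eq_mul, h4] at h3
    obtain rfl : l = 0 := mul_right_cancel₀ hw (mul_left_cancel₀ h2 (by linear_combination h3))
    simpa [← sub_eq_add_neg] using ((hu 0 (-1) hr).2 (by simp)).neg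
  let K := {c : S.Isom | Commute c g ∧ IsUnit (iE c + 1)}
  have h7 : K.encard = (A (-1) : Set (End F V)).encard := by
    refine le_antisymm (encard_le_of_rel (fun a c => a ∈ A (-1) ∧ iE c * (1 - a) = 1 + a) ?_
      fun a c c' h h' => iE_inj.1 ((h6 a h.1).mul_right_cancel (h.2.trans h'.2.symm)))
      (encard_le_of_rel (fun c a => IsUnit (iE c + 1) ∧ (iE c + 1) * a = iE c - 1) (fun a ha => ?_)
        fun c a a' h h' => h.1.mul_left_cancel (h.2.trans h'.2.symm))
    · rintro c ⟨h1, u, hu⟩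
      have h3 : Commute u.1 (iE g) := hu ▸ (h1.map S.iEH).add_left (.one_left _)
      have h4 : Commute (iE c - 1) (iE g) := (h1.map S.iEH).sub_left (.one_left _)
      have h5 : ∀ x, ((iE c - 1) * u⁻¹.1) (c.1 x + x) = c.1 x - x := fun x => by
        have := congr($(Units.mul_inv_cancel_right (iE c - 1) u⁻¹) x)
        rwa [inv_inv, hu] at this
      have h7 : ∀ x, ∃ y, c.1 y + y = x := fun x => ((End.isUnit_iff _).1 (hu ▸ u.isUnit)).2 x
      have h8 : (iE c - 1) * u⁻¹.1 ∈ A (-1) := ⟨h4.mul_left h3.units_inv_left, fun x y => by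
        obtain ⟨x, rfl⟩ := h7 x
        obtain ⟨y, rfl⟩ := h7 y
        rw [h5, h5]; simp; ring⟩
      refine ⟨_, h8, h8, LinearMap.ext fun x => ?_⟩
      obtain ⟨x, rfl⟩ := h7 x
      rw [End.mul_apply, LinearMap.sub_apply, LinearMap.add_apply, h5]; simp
    · obtain ⟨u, hu⟩ := h6 a ha
      have h3 : Commute u.1 (iE g) := hu ▸ (Commute.one_left _).sub_left ha.1
      have h5 : ∀ x, ((1 + a) * u⁻¹.1) (x - a x) = x + a x := fun x => by
        have := congr($(Units.mul_inv_cancel_right (1 + a) u⁻¹) x)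
        rwa [inv_inv, hu] at this
      have h7 : ∀ x, ∃ y, y - a y = x := fun x => ((End.isUnit_iff _).1 (hu ▸ u.isUnit)).2 x
      let c := mkIsom hS ((1 + a) * u⁻¹.1) (symp_isIsom fun x y => by
        obtain ⟨x, rfl⟩ := h7 x
        obtain ⟨y, rfl⟩ := h7 y
        rw [h5, h5]; simp [ha.2]; ring)
      have h8 : (iE c + 1) * (1 - a) = (2 : F) • 1 := LinearMap.ext fun x =>
        (congrArg (· + (x - a x)) (h5 x)).trans (by simp [two_smul])
      have h9 : IsUnit (iE c + 1) := (h6 a ha).mul_right_iff.1 (by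
        rw [h8, ← Algebra.algebraMap_eq_smul_one]; exact (IsUnit.mk0 _ h2).map _)
      exact ⟨c, ⟨iE_inj.1 (((Commute.one_left _).add_left ha.1).mul_left h3.units_inv_left), h9⟩, h9,
        by rw [mul_sub, mul_one, two_smul] at h8; linear_combination (norm := abel) -h8⟩
  have h8 : ∀ c : S.Isom, Commute c g → (c ∈ K ↔ S.neg1 * c ∉ K) := fun c hc => by
    obtain ⟨l, r, hr, e⟩ := h.exists_eq (hc.map S.iEH)
    have h1 := hu l 1 hr
    have h3 := hu l (-1) hr
    rw [← e, one_smul] at h1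
    rw [← e, ← IsUnit.neg_iff, show -(_ + _) = iE (S.neg1 * c) + 1 by ext; simp [add_comm]; rfl] at h3
    simp only [K, Set.mem_ofPred_eq, hc, (neg1_comm g).mul_left hc, true_and, h3]
    refine Iff.trans h1 ?_
    rcases mul_self_eq_one_iff.1 (hS.reg_norm h hr e) with rfl | rfl <;> simp [one_add_one_eq_two, h2,
      ← two_mul]
  have h9 : (Subgroup.centralizer {g} : Set S.Isom) = K ∪ (S.neg1 * ·) '' K := Set.ext fun c => by
    rw [SetLike.mem_coe, Subgroup.mem_centralizer_singleton_iff]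
    refine ⟨fun hc => (em _).imp_right fun h => ⟨_, not_not.1 (mt (h8 c hc).2 h), ?_⟩, ?_⟩
    · simp only; rw [← mul_assoc, ← sq, neg1_sq, one_mul]
    rintro (h | ⟨c, h, rfl⟩)
    exacts [h.1, (neg1_comm g).mul_left h.1]
  have : Finite (End F V) := Module.finite_of_finite F
  rw [← h5, ← SetLike.coe_sort_coe, ← SetLike.coe_sort_coe (A _), Nat.card_coe_set_eq, Nat.card_coe_set_eq,
    Set.ncard_def, Set.ncard_def, h9, Set.encard_union_eq (Set.disjoint_right.2 ?_),
    (mul_right_injective _).encard_image, h7, ENat.toNat_add, two_mul]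
  exacts [(Set.toFinite _).encard_lt_top.ne, (Set.toFinite _).encard_lt_top.ne,
    by rintro _ ⟨c, h, rfl⟩; exact (h8 c h.1).1 h]

/-- Over a finite field with q elements, q odd, the centraliser in Sp_2m(F) (m ≥ 1) of a regular unipotent element (u − 1 nilpotent of rank 2m − 1) has order 2 q^m. -/
theorem result {F : Type*} [Field F] [Fintype F] {q : ℕ} (hF : Fintype.card F = q) (hq : Odd q) {m : ℕ} (hm : 1 ≤ m) (u : Matrix.symplecticGroup (Fin m) F) (hnil : ((u : Matrix (Fin m ⊕ Fin m) (Fin m ⊕ Fin m) F) - 1) ^ (2 * m) = 0) (hreg : ((u : Matrix (Fin m ⊕ Fin m) (Fin m ⊕ Fin m) F) - 1).rank = 2 * m - 1) : Nat.card ↥(Subgroup.centralizer ({u} : Set ↥(Matrix.symplecticGroup (Fin m) F))) = 2 * q ^ m := by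
  rw [H11.card_centralizer_equiv (H11.spEquiv m F), ← hF, ← Nat.card_eq_fintype_card]
  exact aux (H11.two_ne_zero_iff_odd.2 (hF ▸ hq)) (H11.stdSymp_nondeg m) (H11.iE_spEquiv u ▸
    (H11.reg_mE_iff (by omega) (by simp [two_mul])).1 ⟨hnil, hreg⟩) (by simp [two_mul])

end Cfsg.Agent.S2592
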