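import Cfsg.Statements.S2593
import Cfsg.Agent.H11.Inv2

set_option autoImplicit false
open Cfsg

namespace Cfsg.Agent.S2593

/-- Number of conjugacy classes of involutions in the symplectic group Sp_2m(F) over a finite field of characteristic two (m ≥ 1): for each s with 1 ≤ s ≤ m there is one class with rank(t − 1) = s if s is odd and two if s is even (according as v ↦ f(v, tv), f the symplectic form, vanishes identically or not), so m + ⌊m/2⌋ classes in all. -/
theorem result {F : Type*} [Field F] [Fintype F] [CharP F 2] {m : ℕ} (hm : 1 ≤ m) : Nat.card {C : ConjClasses ↥(Matrix.symplecticGroup (Fin m) F) // ∃ g : Matrix.symplecticGroup (Fin m) F, ConjClasses.mk g = C ∧ orderOf g = 2} = m + m / 2 := by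
  rw [H11.card_classes_equiv (H11.spEquiv m F) (q := fun g => orderOf g = 2) fun g => by
    rw [MulEquiv.orderOf_eq]]
  exact (H11.stdSymp_nondeg m).symp_card_classes (H11.finrank_sum_fun m)

end Cfsg.Agent.S2593
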