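import Cfsg.Statements.S2597
import Cfsg.Agent.H11.Inv2

set_option autoImplicit false
open Cfsg

namespace Cfsg.Agent.S2597

/-- Number of conjugacy classes of involutions in Ω⁺_2m(F) (the commutator subgroup of the orthogonal group of Σ x_i y_i) over a finite field F of characteristic two, m ≥ 1, excluding the case m = 2 over the field of two elements: the involutions of Ω are those with s = rank(t − 1) even, giving two O-classes for each even s with 2 ≤ s ≤ m, each of which is a single Ω-class except that for m even the class with s = m and v ↦ f(v, tv) identically zero splits in two; in all 2⌊m/2⌋ + 1 classes if m is even and 2⌊m/2⌋ if m is odd. -/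
theorem result {F : Type*} [Field F] [Fintype F] [CharP F 2] {m : ℕ} (hm : 1 ≤ m) (h : Fintype.card F ≠ 2 ∨ m ≠ 2) : Nat.card {C : ConjClasses ↥(Cfsg.Omega F (Cfsg.quadFormPlus m F)) // ∃ g : ↥(Cfsg.Omega F (Cfsg.quadFormPlus m F)), ConjClasses.mk g = C ∧ orderOf g = 2} = 2 * (m / 2) + (if Even m then 1 else 0) := by
  refine (H11.card_classes_order_equiv (H11.omegaEquiv (H11.qPlus m F)) 2).trans (((H11.sPlus_nondeg m F).omega_card_classes
      (H11.PForm.notO4_of_card (by simp; omega)) hm
      (H11.finrank_sum_fun m) (H11.sPlus_hasTS m F) fun h => ?_).trans (by simp; omega))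
  have := h.two_mul_le (H11.sPlus_nondeg m F)
  rw [H11.finrank_sum_fun] at this
  omega

end Cfsg.Agent.S2597
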