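import Cfsg.Statements.S2599


set_option autoImplicit false
open Cfsg

open QuadraticMap Matrix

namespace Cfsg.Agent.S2599

/-- An irreducible invariant subspace of a semisimple isometry is non-degenerate or totally singular: let Q be a quadratic form on F^n (F finite of characteristic p) with non-degenerate polar form f, x an isometry of Q of order prime to p, and U a non-zero x-invariant subspace containing no x-invariant subspace other than 0 and U. Then U meets its f-orthogonal trivially, or Q vanishes on U, or p = 2, U is a line spanned by a non-singular vector and x fixes U pointwise. -/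
theorem result {F : Type*} [Field F] [Fintype F] {p : ℕ} [Fact p.Prime] [CharP F p] {n : ℕ} (Q : QuadraticForm F (Fin n → F)) (hQ : (QuadraticMap.polarBilin Q).Nondegenerate) (x : ↥(Cfsg.isometryGroup F ⇑Q)) (hx : (orderOf x).Coprime p) (U : Submodule F (Fin n → F)) (hU0 : U ≠ ⊥) (hUx : ∀ u ∈ U, ((x : Matrix.GeneralLinearGroup (Fin n) F) : Matrix (Fin n) (Fin n) F).mulVec u ∈ U) (hirr : ∀ W : Submodule F (Fin n → F), W ≤ U → (∀ w ∈ W, ((x : Matrix.GeneralLinearGroup (Fin n) F) : Matrix (Fin n) (Fin n) F).mulVec w ∈ W) → W = ⊥ ∨ W = U) : U ⊓ LinearMap.BilinForm.orthogonal (QuadraticMap.polarBilin Q) U = ⊥ ∨ (∀ u ∈ U, Q u = 0) ∨ (p = 2 ∧ Module.finrank F U = 1 ∧ (∃ u ∈ U, Q u ≠ 0) ∧ ∀ u ∈ U, ((x : Matrix.GeneralLinearGroup (Fin n) F) : Matrix (Fin n) (Fin n) F).mulVec u = u) := by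
  classical
  set M : Matrix (Fin n) (Fin n) F := ((x : Matrix.GeneralLinearGroup (Fin n) F) : Matrix (Fin n) (Fin n) F)
  have hQx : ∀ u, Q (M *ᵥ u) = Q u := fun u => x.2 u u
  have hf : ∀ u v, polar Q (M *ᵥ u) (M *ᵥ v) = polar Q u v := fun u v => by
    simp only [polar, ← mulVec_add, hQx]
  have hinj : Function.Injective (fun u : U => (⟨M *ᵥ u, hUx u u.2⟩ : U)) := fun u v h =>
    Subtype.ext (mulVec_injective_of_isUnit (x : Matrix.GeneralLinearGroup (Fin n) F).isUnit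
      (congrArg Subtype.val h))
  have hsurj := Finite.injective_iff_surjective.1 hinj
  rcases hirr (U ⊓ LinearMap.BilinForm.orthogonal (polarBilin Q) U) inf_le_left (fun w hw =>
    ⟨hUx w hw.1, fun v hv => by
      obtain ⟨v, rfl⟩ : ∃ v' : U, M *ᵥ v' = v := by
        obtain ⟨v', h⟩ := hsurj ⟨v, hv⟩
        exact ⟨v', congrArg Subtype.val h⟩
      exact (hf _ _).trans (hw.2 v v.2)⟩) with h | h
  · exact .inl h
  right
  have h0 : ∀ u ∈ U, ∀ v ∈ U, polar Q u v = 0 := fun u hu v hv => (h.ge hv).2 u hu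
  have hadd : ∀ u ∈ U, ∀ v ∈ U, Q (u + v) = Q u + Q v := fun u hu v hv => by
    have := h0 u hu v hv
    rw [polar] at this
    linear_combination this
  let W : Submodule F (Fin n → F) := ⟨⟨⟨{u | u ∈ U ∧ Q u = 0}, fun {a b} ha hb =>
    ⟨add_mem ha.1 hb.1, by rw [hadd a ha.1 b hb.1, ha.2, hb.2, add_zero]⟩⟩, zero_mem _, map_zero _⟩,
    fun c {a} ha => ⟨U.smul_mem c ha.1, by rw [QuadraticMap.map_smul, ha.2, smul_zero]⟩⟩
  rcases hirr W (fun u hu => hu.1) (fun w hw => ⟨hUx w hw.1, (hQx w).trans hw.2⟩) with hW | hW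
  swap
  · exact .inl fun u hu => (hW.ge hu).2
  right
  have hW' : ∀ u ∈ U, Q u = 0 → u = 0 := fun u hu h => hW.le (show u ∈ W from ⟨hu, h⟩)
  obtain ⟨u, hu, u0⟩ := U.exists_mem_ne_zero_of_ne_bot hU0
  have Qu : Q u ≠ 0 := fun e => u0 (hW' u hu e)
  have h2 : (2 : F) = 0 := by
    have := h0 u hu u hu
    rw [polar_self, two_nsmul, ← two_mul] at this
    exact (mul_eq_zero.1 this).resolve_right Qu
  have hp : p = 2 := (Nat.prime_dvd_prime_iff_eq Fact.out Nat.prime_two).1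
    ((CharP.cast_eq_zero_iff F p 2).1 h2)
  subst hp
  have hsub : ∀ a ∈ U, ∀ b ∈ U, Q a = Q b → a = b := fun a ha b hb e =>
    sub_eq_zero.1 (hW' _ (sub_mem ha hb) (by
      rw [sub_eq_add_neg, hadd a ha _ (neg_mem hb), QuadraticMap.map_neg, e, ← two_mul, h2, zero_mul]))
  refine ⟨rfl, ?_, ⟨u, hu, Qu⟩, fun v hv => hsub _ (hUx v hv) v hv (hQx v)⟩
  refine finrank_eq_one_iff'.2 ⟨⟨u, hu⟩, fun e => u0 (congrArg Subtype.val e), fun v => ?_⟩
  obtain ⟨c, hc⟩ := (frobeniusEquiv F 2).surjective (Q v / Q u)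
  refine ⟨c, Subtype.ext (hsub _ (U.smul_mem c hu) _ v.2 ?_)⟩
  rw [QuadraticMap.map_smul, ← pow_two, smul_eq_mul, show c ^ 2 = Q v / Q u from hc, div_mul_cancel₀ _ Qu]

end Cfsg.Agent.S2599
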