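import Cfsg.Statements.S2600
import Cfsg.Agent.H25.Sp4
-- import your own Cfsg.Agent.* helpers here

set_option autoImplicit false
open Cfsg

namespace Cfsg.Agent.S2600

/-- Outer automorphism group of PSp_4(q) for q = 2^f even: it is cyclic of order 2f, generated by the class of the exceptional (graph-field) automorphism whose square is the Frobenius field automorphism. -/
theorem result {F : Type*} [Field F] [Fintype F] {f : ℕ} (hf : 1 ≤ f) (hF : Fintype.card F = 2 ^ f) : IsCyclic (Cfsg.Out (Cfsg.PSp 2 F)) ∧ Nat.card (Cfsg.Out (Cfsg.PSp 2 F)) = 2 * f := by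
  haveI : Fact (Nat.Prime 2) := ⟨Nat.prime_two⟩
  haveI := H25.charP_of_card hF
  obtain ⟨ψ, -⟩ := H25.exists_isoC2 (F := F)
  have := H25.out_B2_cyclic (F := F)
  refine ⟨isCyclic_of_surjective _ (H25.outCongr ψ).surjective, ?_⟩
  rw [← Nat.card_congr (H25.outCongr ψ).toEquiv, H25.card_out_B2 2, H25.gcd_two_card, if_pos rfl,
    if_pos CharTwo.two_eq_zero, mul_one, H25.card_ringAut hF]

end Cfsg.Agent.S2600
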