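import Cfsg.Statements.S2601
import Cfsg.Agent.H25.PSLOut2
-- import your own Cfsg.Agent.* helpers here

set_option autoImplicit false
open Cfsg

namespace Cfsg.Agent.S2601

/-- Structure of the outer automorphism group of PSL_n(q), n ≥ 3, q = p^f: it has a normal cyclic subgroup of order gcd(n, q − 1) (the diagonal automorphisms) whose quotient is the direct product of a cyclic group of order f (field automorphisms) and a group of order 2 (the inverse-transpose graph automorphism). -/
theorem result {F : Type*} [Field F] [Fintype F] {p f n : ℕ} [Fact p.Prime] (hf : 1 ≤ f) (hF : Fintype.card F = p ^ f) (hn : 3 ≤ n) : ∃ φ : Cfsg.Out (Matrix.ProjectiveSpecialLinearGroup (Fin n) F) →* Multiplicative (ZMod f × ZMod 2), Function.Surjective φ ∧ IsCyclic φ.ker ∧ Nat.card φ.ker = Nat.gcd n (p ^ f - 1) := by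
  obtain ⟨φ, h1, h2, h3⟩ := H25.out_PSL (ι := Fin n) (F := F) (by simpa using hn)
  obtain ⟨e1⟩ := H25.ringAut_equiv_zmod hF
  obtain ⟨e2⟩ := H25.unitsInt_equiv_zmod
  let e := (e1.prodCongr e2).trans (MulEquiv.prodMultiplicative (ZMod f) (ZMod 2)).symm
  refine ⟨e.toMonoidHom.comp φ, e.surjective.comp h1, ?_⟩
  rw [H25.ker_comp_equiv]
  exact ⟨h2, by rw [h3, Nat.card_eq_fintype_card, hF, Fintype.card_fin]⟩

end Cfsg.Agent.S2601
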