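import Cfsg.Statements.S2603
import Cfsg.Agent.H25.OutSU
-- import your own Cfsg.Agent.* helpers here

set_option autoImplicit false
open Cfsg

namespace Cfsg.Agent.S2603

/-- Structure of the outer automorphism group of PSU_n(q), n ≥ 3, (n, q) ≠ (3, 2), q = p^f, realised over the field with q² elements: it has a normal cyclic subgroup of order gcd(n, q + 1) (diagonal automorphisms) with cyclic quotient of order 2f (generated by the Frobenius field automorphism of the field with q² elements, whose f-th power is the graph automorphism). -/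
theorem result {K : Type*} [Field K] [Fintype K] {p f q n : ℕ} [Fact p.Prime] (hf : 1 ≤ f) (hq : q = p ^ f) (hK : Fintype.card K = q ^ 2) (hn : 3 ≤ n) (h32 : ¬ (n = 3 ∧ q = 2)) : ∃ φ : Cfsg.Out (Cfsg.PSU n K q) →* Multiplicative (ZMod (2 * f)), Function.Surjective φ ∧ IsCyclic φ.ker ∧ Nat.card φ.ker = Nat.gcd n (q + 1) := by
  obtain ⟨σ, hq', hσ, hne⟩ := H11.exists_frob hK
  have hF' : Nat.card K = q ^ 2 := by rw [Nat.card_eq_fintype_card, hK]
  have h4 : n = 3 → Nat.card K ≠ 4 := fun h3 h => h32 ⟨h3, by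
    rw [hF'] at h; exact Nat.pow_left_injective two_ne_zero h⟩
  obtain ⟨φ, h1, h2⟩ := (H25.suCtx hσ hne hq' hn).exists_out_fld (H25.suCtx_hE hσ hne hq' hn)
    (by simpa using hn) (H25.suPhi_surj hσ hne hq' hn h4)
  obtain ⟨e⟩ := H25.ringAut_equiv_zmod (F := K) (p := p) (f := 2 * f) (by rw [hK, hq, ← pow_mul, mul_comm])
  refine ⟨e.toMonoidHom.comp φ, e.surjective.comp fun τ => ⟨_, h1 (H25.inrG (H25.su_rat hσ hne τ))⟩, ?_⟩
  rw [H25.ker_comp_equiv, h2]
  exact H25.out_diag_PSU hσ hne hq' hn hF'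

end Cfsg.Agent.S2603
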