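import Cfsg.Statements.S2605
import Cfsg.Agent.H25.OutO1
-- import your own Cfsg.Agent.* helpers here

set_option autoImplicit false
open Cfsg

namespace Cfsg.Agent.S2605

/-- Outer automorphism group of PΩ⁻_2m(q), m ≥ 4, q = 2^f: cyclic of order 2f, generated by a semilinear map inducing the Frobenius automorphism of the field (its f-th power is a graph automorphism, an orthogonal transvection). -/
theorem result {F : Type*} [Field F] [Fintype F] {f m : ℕ} (hf : 1 ≤ f) (hF : Fintype.card F = 2 ^ f) (hm : 4 ≤ m) (a b : F) (hab : ∀ z₁ z₂ : F, z₁ ^ 2 + a * z₁ * z₂ + b * z₂ ^ 2 = 0 → z₁ = 0 ∧ z₂ = 0) : IsCyclic (Cfsg.Out (Cfsg.POmega F (Cfsg.quadFormMinus (m - 1) F a b))) ∧ Nat.card (Cfsg.Out (Cfsg.POmega F (Cfsg.quadFormMinus (m - 1) F a b))) = 2 * f := by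
  obtain ⟨m, rfl⟩ : ∃ n, m = n + 1 := ⟨m - 1, by omega⟩
  haveI : Fact (Nat.Prime 2) := ⟨Nat.prime_two⟩
  have h2 := (H25.two_eq_zero_iff hF).2 rfl
  have h5 := H25.minus_h5 (show 2 ≤ m by omega)
  let C := H25.oCtx (Q := H11.qMinus m F a b) (H11.sMinus_nondeg m hab) h5
  have hs := H25.minus_surj hab (show 3 ≤ m by omega)
  have h := C.card_Out (H25.oCtx_hE _ h5) (by omega) (H25.minus_fld_surj hab) hs
  rw [C.card_od_even _ h5 (H25.minus_even m), H25.card_ringAut hF, if_pos h2] at h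
  exact ⟨(C.out_twisted (H25.oCtx_hE _ h5) h5 (H25.minus_even m) hs (H25.minus_fld_surj hab)
    (fun x g h1 h3 => H25.dk_pow_even (by omega) hab x h1 h3) (Or.inl h2) rfl).1 h2, h⟩

end Cfsg.Agent.S2605
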