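import Cfsg.Statements.S2606
import Cfsg.Agent.H25.OutO1
-- import your own Cfsg.Agent.* helpers here

set_option autoImplicit false
open Cfsg

namespace Cfsg.Agent.S2606

/-- Outer automorphism group of PΩ⁻_2m(q), m ≥ 4, q = p^f odd: it is dihedral of order 8 times cyclic of order f when q ≡ 3 (mod 4) and m is odd, and otherwise the direct product of a group of order 2 with a cyclic group of order 2f. -/
theorem result {F : Type*} [Field F] [Fintype F] {p f m : ℕ} [Fact p.Prime] (hf : 1 ≤ f) (hF : Fintype.card F = p ^ f) (hp : p ≠ 2) (hm : 4 ≤ m) (a b : F) (hab : ∀ z₁ z₂ : F, z₁ ^ 2 + a * z₁ * z₂ + b * z₂ ^ 2 = 0 → z₁ = 0 ∧ z₂ = 0) : if p ^ f % 4 = 3 ∧ Odd m then Nonempty (Cfsg.Out (Cfsg.POmega F (Cfsg.quadFormMinus (m - 1) F a b)) ≃* DihedralGroup 4 × Multiplicative (ZMod f)) else Nonempty (Cfsg.Out (Cfsg.POmega F (Cfsg.quadFormMinus (m - 1) F a b)) ≃* Multiplicative (ZMod 2 × ZMod (2 * f))) := by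
  obtain ⟨m, rfl⟩ : ∃ n, m = n + 1 := ⟨m - 1, by omega⟩
  have h2 : (2 : F) ≠ 0 := mt (H25.two_eq_zero_iff hF).1 hp
  have h5 := H25.minus_h5 (show 2 ≤ m by omega)
  let C := H25.oCtx (Q := H11.qMinus m F a b) (H11.sMinus_nondeg m hab) h5
  have hs := H25.minus_surj hab (show 3 ≤ m by omega)
  have hn := H25.negOne_minus' (show 2 ≤ m by omega) h2 hab
  rw [Nat.card_eq_fintype_card, hF, and_comm, ← Nat.not_odd_iff_even, ← Nat.odd_add_one] at hn
  split_ifs with h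
  · obtain ⟨e⟩ := C.out_equiv_prod (H25.oCtx_hE _ h5) (by omega) hs (C.exists_central_lift _ h5
      (H25.minus_even m) h2 (hn.2 h) (H25.minus_fld_surj hab) (Or.inl (by
        rw [H25.card_ringAut hF]
        exact ((H25.pow_mod_four (q := p) ((Fact.out : p.Prime).odd_of_ne_two hp) f).1.1 h.1).1)))
    obtain ⟨e1⟩ := C.od_equiv_d8 (H25.oCtx_hE _ h5) h5 (H25.minus_even m) h2 (hn.2 h)
    obtain ⟨e2⟩ := H25.ringAut_equiv_zmod hF
    exact ⟨e.trans (e1.prodCongr e2)⟩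
  · exact (C.out_twisted (H25.oCtx_hE _ h5) h5 (H25.minus_even m) hs (H25.minus_fld_surj hab)
      (fun x g h1 h3 => H25.dk_pow_even (by omega) hab x h1 h3) (Or.inr (mt hn.1 h)) (H25.card_ringAut hF)).2 h2

end Cfsg.Agent.S2606
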