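import Cfsg.Statements.S2607
import Cfsg.Agent.H25.OutD4
-- import your own Cfsg.Agent.* helpers here

set_option autoImplicit false
open Cfsg

namespace Cfsg.Agent.S2607

/-- Outer automorphism group of PΩ⁺_2m(q), q = 2^f: for m ≥ 5 it is the direct product of a group of order 2 (graph automorphism, an orthogonal transvection) and a cyclic group of order f (field automorphisms); for m = 4 triality enlarges it to S_3 × C_f. -/
theorem result {F : Type*} [Field F] [Fintype F] {f m : ℕ} (hf : 1 ≤ f) (hF : Fintype.card F = 2 ^ f) (hm : 4 ≤ m) : if m = 4 then Nonempty (Cfsg.Out (Cfsg.POmega F (Cfsg.quadFormPlus m F)) ≃* Equiv.Perm (Fin 3) × Multiplicative (ZMod f)) else Nonempty (Cfsg.Out (Cfsg.POmega F (Cfsg.quadFormPlus m F)) ≃* Multiplicative (ZMod 2 × ZMod f)) := by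
  haveI : Fact (Nat.Prime 2) := ⟨Nat.prime_two⟩
  have h2 := (H25.two_eq_zero_iff hF).2 rfl
  obtain ⟨e2⟩ := H25.ringAut_equiv_zmod hF
  split_ifs with h
  · subst h
    obtain ⟨ψ, -⟩ := H12.exists_iso_D4 (F := F)
    obtain ⟨e⟩ := H25.out_D4.1 h2
    exact ⟨(H25.outCongr ψ).symm.trans (e.trans ((MulEquiv.refl _).prodCongr e2))⟩
  have h5 := H25.plus_h5 (show 3 ≤ m by omega)
  have : Nonempty (Fin m ⊕ Fin m) := ⟨.inl ⟨0, by omega⟩⟩
  let C := H25.oCtx (Q := H11.qPlus m F) (H11.sPlus_nondeg m F) h5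
  obtain ⟨e⟩ := C.out_split (H25.oCtx_hE _ h5) h5 (H25.plus_even m) (H25.plus_surj (by omega)) (H25.sPlus_rat m)
  obtain ⟨e1⟩ := H25.equiv_two ((C.card_od_even (H25.oCtx_hE _ h5) h5 (H25.plus_even m)).trans (if_pos h2))
  exact ⟨e.trans ((e1.prodCongr e2).trans (MulEquiv.prodMultiplicative _ _).symm)⟩

end Cfsg.Agent.S2607
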