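import Cfsg.Statements.S2609
import Cfsg.Agent.H11.Orth2

set_option autoImplicit false
open Cfsg

namespace Cfsg.Agent.S2609

/-- Spinor norm criterion for Ω over a finite field of odd order: let Q be a quadratic form on F^n, n ≥ 2, with non-degenerate polar form, and let g be an isometry written as a product of reflections in non-singular vectors v_1, …, v_k. Then g lies in Ω (the commutator subgroup of the orthogonal group) if and only if k is even and Q(v_1)⋯Q(v_k) is a square; in particular, for g of determinant one, whether that product is a square does not depend on the chosen factorisation (it is the spinor norm of g). -/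
theorem result {F : Type*} [Field F] [Fintype F] (h2 : (2 : F) ≠ 0) {n : ℕ} (hn : 2 ≤ n) (Q : QuadraticForm F (Fin n → F)) (hQ : (QuadraticMap.polarBilin Q).Nondegenerate) (g : ↥(Cfsg.isometryGroup F ⇑Q)) (vs : List (Fin n → F)) (hvs : ∀ v ∈ vs, Q v ≠ 0) (hg : ((g : Matrix.GeneralLinearGroup (Fin n) F) : Matrix (Fin n) (Fin n) F) = (vs.map (fun v => Cfsg.reflectionMatrix ⇑Q v)).prod) : g ∈ Cfsg.Omega F ⇑Q ↔ (Even vs.length ∧ IsSquare (vs.map (fun v => Q v)).prod) := by
  have hS := H11.orthS_nondeg hQ
  have key : ∀ vs : List (Fin n → F), (∀ v ∈ vs, Q v ≠ 0) → ∃ k : (H11.orthS Q).Isom,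
      (∀ x, k.1 x = (vs.map (fun v => Cfsg.reflectionMatrix ⇑Q v)).prod.mulVec x) ∧
      hS.dick k = (-1) ^ vs.length ∧ (vs.map (fun v => Q v)).prod ≠ 0 ∧
      hS.spin k = H11.sqSign (vs.map (fun v => Q v)).prod := by
    intro vs
    induction vs with
    | nil => exact fun _ => ⟨1, by simp, by simp, by simp, by simp [H11.sqSign_one]⟩
    | cons v vs ih =>
      intro h
      obtain ⟨k, h1, h3, h4, h5⟩ := ih fun w hw => h w (by simp [hw])
      have hv := h v (by simp)
      refine ⟨(H11.orthS Q).refl v * k, fun x => ?_, ?_, ?_, ?_⟩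
      · rw [H11.PForm.isom_mul_apply, h1, H11.refl_eq_mulVec, List.map_cons, List.prod_cons,
          Matrix.mulVec_mulVec]
      · rw [map_mul, h3, hS.dick_refl hv, List.length_cons, pow_succ']
      · rw [List.map_cons, List.prod_cons]; exact mul_ne_zero hv h4
      · rw [map_mul, h5, hS.spin_refl hv, List.map_cons, List.prod_cons, H11.sqSign_mul hv h4]; rfl
  obtain ⟨k, h1, h3, -, h5⟩ := key vs hvs
  rw [H11.mem_Omega_iff, (H11.coe_eq_iff_eq Q g h1).1 hg,
    hS.mem_commutator_iff (H11.PForm.notO4_of_two_ne h2), h3, h5, H11.sqSign_eq_one_iff,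
    neg_one_pow_eq_one_iff_even (by decide)]

end Cfsg.Agent.S2609
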