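import Cfsg.Statements.S2611
import Cfsg.Agent.H11.Levi

set_option autoImplicit false
open Cfsg

namespace Cfsg.Agent.S2611

/-- For the hyperbolic quadratic form Σ x_i y_i on F^(2m) (F finite, m ≥ 1, excluding m = 2 over the field of two elements) and an invertible m × m matrix A, the block-diagonal isometry diag(A, (A⁻¹)ᵀ), which stabilises the two maximal totally singular subspaces x = 0 and y = 0, lies in Ω⁺_2m(F) (the commutator subgroup of the orthogonal group) if and only if det A is a square in F. -/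
theorem result {F : Type*} [Field F] [Fintype F] {m : ℕ} (hm : 1 ≤ m) (h : Fintype.card F ≠ 2 ∨ m ≠ 2) (A : GL (Fin m) F) : (∃ g : ↥(Cfsg.isometryGroup F (Cfsg.quadFormPlus m F)), g ∈ Cfsg.Omega F (Cfsg.quadFormPlus m F) ∧ ((g : Matrix.GeneralLinearGroup (Fin m ⊕ Fin m) F) : Matrix (Fin m ⊕ Fin m) (Fin m ⊕ Fin m) F) = Matrix.fromBlocks (A : Matrix (Fin m) (Fin m) F) 0 0 ((A : Matrix (Fin m) (Fin m) F)⁻¹).transpose) ↔ IsSquare (A : Matrix (Fin m) (Fin m) F).det := by
  have h4 : (H11.sPlus m F).NotO4 := H11.PForm.notO4_of_card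
    (h.imp_right fun h => by rw [H11.finrank_sum_fun]; omega)
  refine (H11.exists_Omega_iff (H11.qPlus m F) (g₀ := H11.leviO m F A) fun x => by
    rw [H11.leviO_apply, H11.leviGL_coe]).trans ?_
  rw [(H11.sPlus_nondeg m F).mem_commutator_iff h4, H11.spin_leviO, H11.dick_leviO h4,
    H11.sqSign_eq_one_iff]
  simp

end Cfsg.Agent.S2611
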