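import Cfsg.Statements.S2612
import Cfsg.Agent.H11.Orth2

set_option autoImplicit false
open Cfsg

namespace Cfsg.Agent.S2612

/-- For the hyperbolic quadratic form Σ x_i y_i on F^(2m) (F finite, m ≥ 1, excluding m = 2 over the field of two elements), Ω⁺_2m(F) (the commutator subgroup of the orthogonal group) contains an element interchanging the two complementary maximal totally singular subspaces {y = 0} and {x = 0} if and only if m is even (dimension divisible by 4). -/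
theorem result {F : Type*} [Field F] [Fintype F] {m : ℕ} (hm : 1 ≤ m) (h : Fintype.card F ≠ 2 ∨ m ≠ 2) : (∃ g : ↥(Cfsg.isometryGroup F (Cfsg.quadFormPlus m F)), g ∈ Cfsg.Omega F (Cfsg.quadFormPlus m F) ∧ (∀ v : Fin m ⊕ Fin m → F, (∀ i, v (Sum.inr i) = 0) → ∀ i, (((g : Matrix.GeneralLinearGroup (Fin m ⊕ Fin m) F) : Matrix (Fin m ⊕ Fin m) (Fin m ⊕ Fin m) F).mulVec v) (Sum.inl i) = 0) ∧ (∀ v : Fin m ⊕ Fin m → F, (∀ i, v (Sum.inl i) = 0) → ∀ i, (((g : Matrix.GeneralLinearGroup (Fin m ⊕ Fin m) F) : Matrix (Fin m ⊕ Fin m) (Fin m ⊕ Fin m) F).mulVec v) (Sum.inr i) = 0)) ↔ Even m := by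
  have hS := H11.sPlus_nondeg m F
  have h4 : (H11.sPlus m F).NotO4 :=
    H11.PForm.notO4_of_card (by rw [H11.finrank_sum_fun]; omega)
  have hU := H11.sPlus_maxTS_inr (F := F) m
  have key : ∀ g : (H11.sPlus m F).Isom,
      (∀ v : Fin m ⊕ Fin m → F, (∀ i, v (Sum.inr i) = 0) → ∀ i, g.1 v (Sum.inl i) = 0) →
      (hS.dick g = 1 ↔ Even m) := fun g hg => by
    rw [hS.dick_eq_one_iff_maxTS h4 hU, (H11.sPlus_maxTS_iff.1 hU).1,
      Submodule.finrank_eq_zero.2, Nat.sub_zero]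
    rw [eq_bot_iff]
    rintro _ ⟨h1, x, hx, rfl⟩
    exact funext (Sum.rec (hg x (H11.mem_ker_funLeft.1 hx)) (H11.mem_ker_funLeft.1 h1))
  constructor
  · rintro ⟨g, h1, h2, -⟩
    exact (key (H11.orthEquiv (H11.qPlus m F) g) h2).1
      ((hS.mem_commutator_iff h4 _).1 ((H11.mem_Omega_iff (H11.qPlus m F) g).1 h1)).1
  · intro he
    let s : (H11.sPlus m F).Isom := ⟨LinearEquiv.funCongrLeft F F (Equiv.sumComm _ _),
      H11.PForm.orth_isIsom (f := (LinearEquiv.funCongrLeft F F (Equiv.sumComm _ _)).toLinearMap)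
        fun x => by simp [H11.qPlus_apply, mul_comm]⟩
    have hs : ∀ v k, s.1 v k = v k.swap := fun _ _ => rfl
    obtain ⟨c, hc⟩ := hS.exists_sqSign_eq_spin s
    have H := H11.sPlus_isHyp (F := F) ⟨0, hm⟩
    have h1 := hS.mul_mem_commutator h4 (g := s) (t := H.tor c)
      (by rw [hS.dick_tor, (key s fun v hv i => by simp [hs, hv]).2 he]) (by rw [hS.spin_tor, hc])
    refine ⟨(H11.orthEquiv (H11.qPlus m F)).symm (s * H.tor c),
      (H11.mem_Omega_iff (H11.qPlus m F) _).2 (by simpa using h1), fun v hv i => ?_,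
      fun v hv i => ?_⟩ <;>
    erw [← H11.orthEquiv_apply (H11.qPlus m F), MulEquiv.apply_symm_apply] <;>
    simp [hs, H.orth_tor_apply, hv]

end Cfsg.Agent.S2612
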