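import Cfsg.Statements.S2613
import Cfsg.Agent.H11.Orth2

set_option autoImplicit false
open Cfsg

namespace Cfsg.Agent.S2613

/-- For the hyperbolic form Σ x_j y_j on F^(2m), F finite with q elements, q odd, and 1 ≤ i ≤ m: the involution negating the first i hyperbolic pairs (x_j, y_j ↦ −x_j, −y_j for j < i) and fixing the rest lies in Ω⁺_2m(q) (commutator subgroup of the orthogonal group) if and only if q^i ≡ 1 (mod 4); its (−1)-eigenspace is a hyperbolic 2i-space. -/
theorem result {F : Type*} [Field F] [Fintype F] {q : ℕ} (hF : Fintype.card F = q) (hq : Odd q) {m : ℕ} (i : ℕ) (hi : 1 ≤ i) (him : i ≤ m) : (∃ g : ↥(Cfsg.isometryGroup F (Cfsg.quadFormPlus m F)), g ∈ Cfsg.Omega F (Cfsg.quadFormPlus m F) ∧ ((g : Matrix.GeneralLinearGroup (Fin m ⊕ Fin m) F) : Matrix (Fin m ⊕ Fin m) (Fin m ⊕ Fin m) F) = Matrix.diagonal (fun k : Fin m ⊕ Fin m => if (Sum.elim (fun j : Fin m => (j : ℕ)) (fun j : Fin m => (j : ℕ)) k) < i then (-1 : F) else 1)) ↔ q ^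 i % 4 = 1 := by
  subst hF
  have hS := H11.sPlus_nondeg m F
  have h2 : (2 : F) ≠ 0 := H11.two_ne_zero_iff_odd.2 hq
  obtain ⟨g, h1, h3, h4⟩ := hS.exists_neg_pairs _ _ (H11.sPlus_isHyp (F := F) (m := m))
    (Finset.univ.filter fun j : Fin m => (j : ℕ) < i) fun j k hjk => by simp [hjk]
  refine (H11.exists_Omega_iff (H11.qPlus m F) (g₀ := g) fun x => ?_).trans ?_
  · ext (k | k) <;> rw [Matrix.mulVec_diagonal] <;> by_cases hk : (k : ℕ) < i <;>
      simp [h1, Pi.single_apply, Finset.sum_apply, hk] <;> ring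
  · rw [hS.mem_commutator_iff (H11.PForm.notO4_of_two_ne h2), h3, h4, Fin.card_filter_val_lt,
      min_eq_right him, (H11.sqSign_neg_one_pow h2 i).1]
    simp

end Cfsg.Agent.S2613
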