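import Cfsg.Statements.S2614
import Cfsg.Agent.H11.Orth2

set_option autoImplicit false
open Cfsg

namespace Cfsg.Agent.S2614

/-- For the form x_0² + Σ x_j y_j on F^(2m+1), F finite with q elements, q odd, and 1 ≤ i ≤ m: the involution of determinant one negating the first i hyperbolic pairs (and fixing x_0 and the other pairs) lies in Ω_(2m+1)(q) (commutator subgroup of the orthogonal group) if and only if q^i ≡ 1 (mod 4); its (−1)-eigenspace is a hyperbolic 2i-space. -/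
theorem result {F : Type*} [Field F] [Fintype F] {q : ℕ} (hF : Fintype.card F = q) (hq : Odd q) {m : ℕ} (i : ℕ) (hi : 1 ≤ i) (him : i ≤ m) : (∃ g : ↥(Cfsg.isometryGroup F (Cfsg.quadFormOdd m F)), g ∈ Cfsg.Omega F (Cfsg.quadFormOdd m F) ∧ ((g : Matrix.GeneralLinearGroup (Unit ⊕ (Fin m ⊕ Fin m)) F) : Matrix (Unit ⊕ (Fin m ⊕ Fin m)) (Unit ⊕ (Fin m ⊕ Fin m)) F) = Matrix.diagonal (fun k : Unit ⊕ (Fin m ⊕ Fin m) => if (Sum.elim (fun _ : Unit => i) (Sum.elim (fun j : Fin m => (j : ℕ)) (fun j : Fin m => (j : ℕ))) k) < i then (-1 : F) else 1)) ↔ q ^ i % 4 = 1 := by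
  subst hF
  have h2 : (2 : F) ≠ 0 := H11.two_ne_zero_iff_odd.2 hq
  have hS := H11.sOdd_nondeg m h2
  obtain ⟨g, h1, h3, h4⟩ := hS.exists_neg_pairs _ _ (H11.sOdd_isHyp (F := F) (m := m))
    (Finset.univ.filter fun j : Fin m => (j : ℕ) < i) fun j k hjk => by simp [hjk]
  refine (H11.exists_Omega_iff (H11.qOdd m F) (g₀ := g) fun x => ?_).trans ?_
  · ext (k | k | k) <;> rw [Matrix.mulVec_diagonal]
    · simp [h1, Finset.sum_apply]
    all_goals
      by_cases hk : (k : ℕ) < i <;> simp [h1, Pi.single_apply, Finset.sum_apply, hk] <;> ring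
  · rw [hS.mem_commutator_iff (H11.PForm.notO4_of_two_ne h2), h3, h4, Fin.card_filter_val_lt,
      min_eq_right him, (H11.sqSign_neg_one_pow h2 i).1]
    simp

end Cfsg.Agent.S2614
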