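import Cfsg.Statements.S2615
import Cfsg.Agent.H11.Orth2

set_option autoImplicit false
open Cfsg

namespace Cfsg.Agent.S2615

/-- For an elliptic form Σ_(j<m−1) x_j y_j + (z₁² + a z₁z₂ + b z₂²) (anisotropic binary part) on F^(2m), F finite with q elements, q odd, and 1 ≤ i ≤ m − 1: the involution negating the first i hyperbolic pairs and fixing the rest lies in Ω⁻_2m(q) (commutator subgroup of the orthogonal group) if and only if q^i ≡ 1 (mod 4). -/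
theorem result {F : Type*} [Field F] [Fintype F] {q : ℕ} (hF : Fintype.card F = q) (hq : Odd q) {m : ℕ} (a b : F) (hab : ∀ z₁ z₂ : F, z₁ ^ 2 + a * z₁ * z₂ + b * z₂ ^ 2 = 0 → z₁ = 0 ∧ z₂ = 0) (i : ℕ) (hi : 1 ≤ i) (him : i + 1 ≤ m) : (∃ g : ↥(Cfsg.isometryGroup F (Cfsg.quadFormMinus (m - 1) F a b)), g ∈ Cfsg.Omega F (Cfsg.quadFormMinus (m - 1) F a b) ∧ ((g : Matrix.GeneralLinearGroup ((Fin (m - 1) ⊕ Fin (m - 1)) ⊕ Fin 2) F) : Matrix ((Fin (m - 1) ⊕ Fin (m - 1)) ⊕ Fin 2) ((Fin (m - 1) ⊕ Fin (m - 1)) ⊕ Fin 2) F) = Matrix.diagonal (fun k : (Fin (m - 1) ⊕ Fin (m - 1)) ⊕ Fin 2 => if (Sum.elim (Sum.elim (fun j : Fin (m - 1) => (j : ℕ)) (fun j : Fin (m - 1) => (j : ℕ))) (fun _ : Fin 2 => i) k) < i then (-1 : F) else 1)) ↔ q ^ i % 4 = 1 := by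
  subst hF
  have h2 : (2 : F) ≠ 0 := H11.two_ne_zero_iff_odd.2 hq
  have hS := H11.sMinus_nondeg (m - 1) hab
  obtain ⟨g, h1, h3, h4⟩ := hS.exists_neg_pairs _ _ (H11.sMinus_isHyp (m := m - 1) a b)
    (Finset.univ.filter fun j : Fin (m - 1) => (j : ℕ) < i) fun j k hjk => by simp [hjk]
  refine (H11.exists_Omega_iff (H11.qMinus (m - 1) F a b) (g₀ := g) fun x => ?_).trans ?_
  · ext ((k | k) | k) <;> rw [Matrix.mulVec_diagonal]
    rotate_right
    · simp [h1, Finset.sum_apply]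
    all_goals
      by_cases hk : (k : ℕ) < i <;> simp [h1, Pi.single_apply, Finset.sum_apply, hk] <;> ring
  · rw [hS.mem_commutator_iff (H11.PForm.notO4_of_two_ne h2), h3, h4, Fin.card_filter_val_lt,
      min_eq_right (by omega), (H11.sqSign_neg_one_pow h2 i).1]
    simp

end Cfsg.Agent.S2615
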