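import Cfsg.Statements.S2616
import Cfsg.Agent.H11.Orth2

set_option autoImplicit false
open Cfsg

namespace Cfsg.Agent.S2616

/-- Standard bases of a non-degenerate quadratic space of even dimension 2m over a finite field: either there is a hyperbolic basis e_i, f_i (Q(e_i) = Q(f_i) = 0, B(e_i, f_j) = δ_ij, the e's pairwise orthogonal and the f's pairwise orthogonal, B the polar form), or there is an elliptic basis: hyperbolic pairs e_i, f_i for i < m − 1 together with x, y orthogonal to them with Q(x) = 1, B(x, y) = 1, Q(y) = ζ where t² + t + ζ has no root in the field. -/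
theorem result {F V : Type*} [Field F] [Finite F] [AddCommGroup V] [Module F V] [FiniteDimensional F V] {m : ℕ} (hm : 1 ≤ m) (hV : Module.finrank F V = 2 * m) (Q : QuadraticForm F V) (hQ : (QuadraticMap.polarBilin Q).Nondegenerate) : (∃ b : Module.Basis (Fin m ⊕ Fin m) F V, (∀ i, Q (b (Sum.inl i)) = 0 ∧ Q (b (Sum.inr i)) = 0) ∧ (∀ i j, QuadraticMap.polar ⇑Q (b (Sum.inl i)) (b (Sum.inr j)) = if i = j then 1 else 0) ∧ (∀ i j, QuadraticMap.polar ⇑Q (b (Sum.inl i)) (b (Sum.inl j)) = 0 ∧ QuadraticMap.polar ⇑Q (b (Sum.inr i)) (b (Sum.inr j)) = 0)) ∨ (∃ (b : Module.Basis ((Fin (m - 1) ⊕ Fin (m - 1)) ⊕ Fin 2) F V) (ζ : F), (∀ t : F, t ^ 2 + t + ζ ≠ 0) ∧ (∀ i, Q (b (Sum.inl (Sum.inl i))) = 0 ∧ Q (b (Sum.inl (Sum.inr i))) = 0) ∧ (∀ i j, QuadraticMap.polar ⇑Q (b (Sum.inl (Sum.inl i))) (b (Sum.inl (Sum.inr j))) = if i = j then 1 else 0) ∧ (∀ i j, QuadraticMap.polar ⇑Q (b (Sum.inl (Sum.inl i))) (b (Sum.inl (Sum.inl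 j))) = 0 ∧ QuadraticMap.polar ⇑Q (b (Sum.inl (Sum.inr i))) (b (Sum.inl (Sum.inr j))) = 0) ∧ (∀ i (k : Fin 2), QuadraticMap.polar ⇑Q (b (Sum.inl (Sum.inl i))) (b (Sum.inr k)) = 0 ∧ QuadraticMap.polar ⇑Q (b (Sum.inl (Sum.inr i))) (b (Sum.inr k)) = 0) ∧ Q (b (Sum.inr 0)) = 1 ∧ QuadraticMap.polar ⇑Q (b (Sum.inr 0)) (b (Sum.inr 1)) = 1 ∧ Q (b (Sum.inr 1)) = ζ) := by
  have hS := H11.orthS_nondeg hQ
  by_cases h : (H11.orthS Q).HasTS m
  · obtain ⟨e, he⟩ := (hS.eqv_sPlus hV h).symm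
    have h1 : ∀ x, Q (e x) = H11.qPlus m F x := he.orth_q
    have h2 : ∀ x y, QuadraticMap.polar Q (e x) (e y) = QuadraticMap.polar (H11.qPlus m F) x y :=
      he.h_eq
    exact Or.inl ⟨(Pi.basisFun F _).map e, by simp [h1], by simp [h2, Pi.single_apply],
      by simp [h2]⟩
  · obtain ⟨ζ, hζ⟩ := H11.exists_aniso_poly (F := F)
    obtain ⟨e, he⟩ := (hS.eqv_sMinus (m := m - 1) (by omega) (by rwa [Nat.sub_add_cancel hm])
      (H11.aniso_of_poly hζ)).symm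
    have h1 : ∀ x, Q (e x) = H11.qMinus (m - 1) F 1 ζ x := he.orth_q
    have h2 : ∀ x y, QuadraticMap.polar Q (e x) (e y) =
        QuadraticMap.polar (H11.qMinus (m - 1) F 1 ζ) x y := he.h_eq
    exact Or.inr ⟨(Pi.basisFun F _).map e, ζ, hζ, by simp [h1], by simp [h2, Pi.single_apply],
      by simp [h2], by simp [h2], by simp [h1], by simp [h2], by simp [h1]⟩

end Cfsg.Agent.S2616
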