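import Cfsg.Statements.S2618
import Cfsg.Agent.H11.Orth2

set_option autoImplicit false
open Cfsg

namespace Cfsg.Agent.S2618

/-- Standard (parabolic) basis of a non-degenerate quadratic space of odd dimension 2m + 1 over a finite field (the non-degeneracy of the polar form forces the characteristic to be odd): there is a basis e_i, f_i (i < m), x with Q(e_i) = Q(f_i) = 0, B(e_i, f_j) = δ_ij (B the polar form), the e's pairwise orthogonal and the f's pairwise orthogonal, x orthogonal to all of them and Q(x) ≠ 0. -/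
theorem result {F V : Type*} [Field F] [Finite F] [AddCommGroup V] [Module F V] [FiniteDimensional F V] {m : ℕ} (hV : Module.finrank F V = 2 * m + 1) (Q : QuadraticForm F V) (hQ : (QuadraticMap.polarBilin Q).Nondegenerate) : ∃ b : Module.Basis (Unit ⊕ (Fin m ⊕ Fin m)) F V, Q (b (Sum.inl ())) ≠ 0 ∧ (∀ i, QuadraticMap.polar ⇑Q (b (Sum.inl ())) (b (Sum.inr (Sum.inl i))) = 0 ∧ QuadraticMap.polar ⇑Q (b (Sum.inl ())) (b (Sum.inr (Sum.inr i))) = 0) ∧ (∀ i, Q (b (Sum.inr (Sum.inl i))) = 0 ∧ Q (b (Sum.inr (Sum.inr i))) = 0) ∧ (∀ i j, QuadraticMap.polar ⇑Q (b (Sum.inr (Sum.inl i))) (b (Sum.inr (Sum.inr j))) = if i = j then 1 else 0) ∧ (∀ i j, QuadraticMap.polar ⇑Q (b (Sum.inr (Sum.inl i))) (b (Sum.inr (Sum.inl j))) = 0 ∧ QuadraticMap.polar ⇑Q (b (Sum.inr (Sum.inr i))) (b (Sum.inr (Sum.inr j))) = 0) := by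
  have hS := H11.orthS_nondeg hQ
  have h0 := hS.two_ne_zero_of_odd (by simp [hV])
  obtain ⟨c, hc, e, he⟩ := (H11.sOdd_nondeg m h0).exists_eqv_scale hS
    (by simp [H11.finrank_odd_fun, -Module.finrank_fintype_fun_eq_card])
    (by rw [hV, H11.finrank_odd_fun])
  have h1 : ∀ x, Q (e x) = c * H11.qOdd m F x := he.orth_q
  have h2 : ∀ x y, QuadraticMap.polar Q (e x) (e y) =
      c * QuadraticMap.polar (H11.qOdd m F) x y := he.h_eq
  refine ⟨((Pi.basisFun F _).map e).unitsSMul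
    (Sum.elim 1 (Sum.elim 1 fun _ => (Units.mk0 c hc)⁻¹)), ?_, ?_, ?_, ?_, ?_⟩ <;>
  simp [Module.Basis.unitsSMul_apply, h1, h2, hc, Units.smul_def, QuadraticMap.map_smul,
    Pi.single_apply]

end Cfsg.Agent.S2618
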