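import Cfsg.Statements.S2619
import Cfsg.Agent.H11.Orth2

set_option autoImplicit false
open Cfsg

namespace Cfsg.Agent.S2619

/-- Over a finite field of characteristic two, given an alternating bilinear form B on a finite-dimensional space, a basis (v_i) and scalars (λ_i), there is exactly one quadratic form whose polar form is B and whose value at each v_i is λ_i. -/
theorem result {F V ι : Type*} [Field F] [Finite F] [CharP F 2] [AddCommGroup V] [Module F V] [Fintype ι] (b : Module.Basis ι F V) (B : LinearMap.BilinForm F V) (hB : B.IsAlt) (c : ι → F) : ∃! Q : QuadraticForm F V, QuadraticMap.polarBilin Q = B ∧ ∀ i, Q (b i) = c i := by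
  classical
  let := LinearOrder.lift' _ (Fintype.equivFin ι).injective
  obtain ⟨B', hB'⟩ : ∃ B' : LinearMap.BilinForm F V, ∀ i j, B' (b i) (b j) =
      if i < j then B (b i) (b j) else if i = j then c i else 0 :=
    ⟨b.constr F fun i => b.constr F fun j => _, fun i j => by
      rw [Module.Basis.constr_basis, Module.Basis.constr_basis]⟩
  have h1 : QuadraticMap.polarBilin (LinearMap.BilinMap.toQuadraticMap B') = B := by
    rw [LinearMap.BilinMap.polarBilin_toQuadraticMap]
    refine b.ext fun i => b.ext fun j => ?_
    rcases lt_trichotomy i j with h | rfl | h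
    · simp [hB', h, h.not_gt, h.ne']
    · simp [CharTwo.add_self_eq_zero, hB.self_eq_zero]
    · simp [hB', h, h.not_gt, h.ne', ← hB.neg_eq (b j) (b i), CharTwo.neg_eq]
  have h2 : ∀ i, LinearMap.BilinMap.toQuadraticMap B' (b i) = c i := fun i => by simp [hB']
  refine ⟨_, ⟨h1, h2⟩, fun Q hQ => QuadraticMap.ext fun x => ?_⟩
  exact (H11.PForm.isIsom_of_basis (S := H11.orthS (LinearMap.BilinMap.toQuadraticMap B'))
    (T := H11.orthS Q) b LinearMap.id
    (fun i j => congrArg (fun B : LinearMap.BilinForm F V => B (b i) (b j)) (hQ.1.trans h1.symm))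
    (fun i => by simp [hQ.2, hB'])).orth_q x

end Cfsg.Agent.S2619
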