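import Cfsg.Statements.S2623
import Cfsg.Agent.H11.Orth2

set_option autoImplicit false
open Cfsg

namespace Cfsg.Agent.S2623

/-- Over a finite field of odd order, two quadratic forms on F^n with non-degenerate polar forms are isometric (related by an invertible linear change of variables) if and only if their discriminants (determinants of the Gram matrices of their polar forms) lie in the same square class. -/
theorem result {F : Type*} [Field F] [Fintype F] (h2 : (2 : F) ≠ 0) {n : ℕ} (Q₁ Q₂ : QuadraticForm F (Fin n → F)) (h₁ : (QuadraticMap.polarBilin Q₁).Nondegenerate) (h₂ : (QuadraticMap.polarBilin Q₂).Nondegenerate) : (∃ g : (Fin n → F) ≃ₗ[F] (Fin n → F), ∀ v, Q₂ (g v) = Q₁ v) ↔ IsSquare ((Matrix.of (fun i j : Fin n => QuadraticMap.polar ⇑Q₁ (Pi.single i 1) (Pi.single j 1))).det * (Matrix.of (fun i j : Fin n => QuadraticMap.polar ⇑Q₂ (Pi.single i 1) (Pi.single j 1))).det) := by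
  have hS := H11.orthS_nondeg h₁
  have hT := H11.orthS_nondeg h₂
  obtain ⟨a1, a2⟩ := hS.sqSign_det_gram h2 (Pi.basisFun F _)
  obtain ⟨b1, b2⟩ := hT.sqSign_det_gram h2 (Pi.basisFun F _)
  simp only [Pi.basisFun_apply, H11.orthS_h] at a1 a2 b1 b2
  rw [← H11.sqSign_eq_one_iff, H11.sqSign_mul a1 b1, a2, b2, mul_mul_mul_comm, Int.units_mul_self,
    one_mul, mul_eq_one_iff_eq_inv, Int.units_inv_eq_self]
  exact ⟨fun ⟨g, hg⟩ => H11.PForm.Eqv.disc_eq ⟨g, H11.PForm.orth_isIsom (f := g.toLinearMap) hg⟩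
    hS hT, fun h => (H11.PForm.orth_eqv_of_disc h2 _ hS hT rfl rfl h).imp fun g hg => hg.orth_q⟩

end Cfsg.Agent.S2623
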