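import Cfsg.Statements.S2625
import Cfsg.Agent.H11.Orth2

set_option autoImplicit false
open Cfsg

namespace Cfsg.Agent.S2625

/-- For a quadratic form Q on F^n with non-degenerate polar form, F finite and n odd (so |F| is odd), the multiplier of any similarity is a square: if g is an invertible linear map with Q(g v) = c·Q(v) for all v then c is a square. -/
theorem result {F : Type*} [Field F] [Fintype F] {n : ℕ} (hn : Odd n) (Q : QuadraticForm F (Fin n → F)) (hQ : (QuadraticMap.polarBilin Q).Nondegenerate) (g : (Fin n → F) ≃ₗ[F] (Fin n → F)) (c : F) (hg : ∀ v, Q (g v) = c * Q v) : IsSquare c := by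
  by_cases hc : c = 0
  · exact ⟨0, by simp [hc]⟩
  have hS := H11.orthS_nondeg hQ
  have ho : Odd (Module.finrank F (Fin n → F)) := by simpa using hn
  have h := H11.PForm.Eqv.disc_eq ⟨g, H11.PForm.orth_isIsom (f := g.toLinearMap) hg⟩
    (hS.scale hc) hS
  rw [hS.disc_scale (hS.two_ne_zero_of_odd ho) hc, mul_eq_right, Int.units_pow_eq_pow_mod_two,
    Nat.odd_iff.1 ho, pow_one] at h
  exact H11.sqSign_eq_one_iff.1 h

end Cfsg.Agent.S2625
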