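import Cfsg.Statements.S2626
import Cfsg.Agent.H11.Orth2

set_option autoImplicit false
open Cfsg

namespace Cfsg.Agent.S2626

/-- Ω of an orthogonal direct sum contains the product of the Ω's: for quadratic forms Q₁ on F^k and Q₂ on F^l with non-degenerate polar forms (F finite) and Q = Q₁ ⊕ Q₂ on F^(k+l), if g₁ lies in Ω(Q₁) and g₂ in Ω(Q₂) (commutator subgroups of the orthogonal groups) then the block-diagonal isometry diag(g₁, g₂) lies in Ω(Q). -/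
theorem result {F : Type*} [Field F] [Fintype F] {k l : ℕ} (Q₁ : QuadraticForm F (Fin k → F)) (Q₂ : QuadraticForm F (Fin l → F)) (h₁ : (QuadraticMap.polarBilin Q₁).Nondegenerate) (h₂ : (QuadraticMap.polarBilin Q₂).Nondegenerate) (g₁ : ↥(Cfsg.isometryGroup F ⇑Q₁)) (g₂ : ↥(Cfsg.isometryGroup F ⇑Q₂)) (hg₁ : g₁ ∈ Cfsg.Omega F ⇑Q₁) (hg₂ : g₂ ∈ Cfsg.Omega F ⇑Q₂) : ∃ g : ↥(Cfsg.isometryGroup F (fun v : Fin k ⊕ Fin l → F => Q₁ (v ∘ Sum.inl) + Q₂ (v ∘ Sum.inr))), g ∈ Cfsg.Omega F (fun v : Fin k ⊕ Fin l → F => Q₁ (v ∘ Sum.inl) + Q₂ (v ∘ Sum.inr)) ∧ ((g : Matrix.GeneralLinearGroup (Fin k ⊕ Fin l) F) : Matrix (Fin k ⊕ Fin l) (Fin k ⊕ Fin l) F) = Matrix.fromBlocks ((g₁ : Matrix.GeneralLinearGroup (Fin k) F) : Matrix (Fin k) (Fin k) F) 0 0 ((g₂ : Matrix.GeneralLinearGroup (Fin l) F) : Matrix (Fin l) (Fin l) F) := by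
  obtain ⟨φ, h3, -⟩ := (H11.oSum_qSum Q₁ Q₂).exists_hom (H11.orthS_nondeg h₁) (H11.orthS_nondeg h₂)
  refine (H11.exists_Omega_iff (H11.qSum Q₁ Q₂)
    (g₀ := φ (H11.orthEquiv Q₁ g₁, H11.orthEquiv Q₂ g₂)) fun x => ?_).2 ?_
  · rw [Matrix.fromBlocks_mulVec]
    conv_lhs => rw [← Sum.elim_comp_inl_inr x, ← H11.sumInl_add_sumInr, h3, H11.sumInl_add_sumInr]
    simp
  · refine (Subgroup.map_le_iff_le_comap.1 ((map_commutator_eq _ φ).le.trans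
      (Subgroup.commutator_mono le_top le_top))) ?_
    rw [commutator_def, ← Subgroup.top_prod_top, Subgroup.commutator_prod_prod]
    exact ⟨(H11.mem_Omega_iff Q₁ g₁).1 hg₁, (H11.mem_Omega_iff Q₂ g₂).1 hg₂⟩

end Cfsg.Agent.S2626
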