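import Cfsg.Statements.S2627
import Cfsg.Agent.H11.Orth2

set_option autoImplicit false
open Cfsg

namespace Cfsg.Agent.S2627

/-- For an orthogonal direct sum Q = Q₁ ⊕ Q₂ of quadratic forms with non-degenerate polar forms over a finite field, an isometry g₁ of Q₁ extended by the identity on the second summand lies in Ω(Q) (the commutator subgroup of the orthogonal group of Q) if and only if g₁ lies in Ω(Q₁). (Excluded: the field of two elements when the first summand or the whole space has dimension 4, where the commutator subgroup of O⁺₄(2) is smaller than the group usually called Ω.) -/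
theorem result {F : Type*} [Field F] [Fintype F] {k l : ℕ} (h : Fintype.card F ≠ 2 ∨ (k ≠ 4 ∧ k + l ≠ 4)) (Q₁ : QuadraticForm F (Fin k → F)) (Q₂ : QuadraticForm F (Fin l → F)) (h₁ : (QuadraticMap.polarBilin Q₁).Nondegenerate) (h₂ : (QuadraticMap.polarBilin Q₂).Nondegenerate) (g₁ : ↥(Cfsg.isometryGroup F ⇑Q₁)) : (∃ g : ↥(Cfsg.isometryGroup F (fun v : Fin k ⊕ Fin l → F => Q₁ (v ∘ Sum.inl) + Q₂ (v ∘ Sum.inr))), g ∈ Cfsg.Omega F (fun v : Fin k ⊕ Fin l → F => Q₁ (v ∘ Sum.inl) + Q₂ (v ∘ Sum.inr)) ∧ ((g : Matrix.GeneralLinearGroup (Fin k ⊕ Fin l) F) : Matrix (Fin k ⊕ Fin l) (Fin k ⊕ Fin l) F) = Matrix.fromBlocks ((g₁ : Matrix.GeneralLinearGroup (Fin k) F) : Matrix (Fin k) (Fin k) F) 0 0 1) ↔ g₁ ∈ Cfsg.Omega F ⇑Q₁ := by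
  have s₁ := H11.orthS_nondeg h₁
  have s₂ := H11.orthS_nondeg h₂
  obtain ⟨φ, h3, h4, h5⟩ := (H11.oSum_qSum Q₁ Q₂).exists_hom s₁ s₂
  refine (H11.exists_Omega_iff (H11.qSum Q₁ Q₂)
    (g₀ := φ (H11.orthEquiv Q₁ g₁, 1)) fun x => ?_).trans ?_
  · rw [Matrix.fromBlocks_mulVec]
    conv_lhs => rw [← Sum.elim_comp_inl_inr x, ← H11.sumInl_add_sumInr, h3, H11.sumInl_add_sumInr]
    simp
  · rw [H11.mem_Omega_iff, s₁.mem_commutator_iff (H11.PForm.notO4_of_card (by simp; tauto)),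
      ((H11.oSum_qSum Q₁ Q₂).nondeg s₁ s₂).mem_commutator_iff
        (H11.PForm.notO4_of_card (by simp; tauto)), h4, h5]
    simp

end Cfsg.Agent.S2627
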