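import Cfsg.Statements.S2632
import Cfsg.Agent.H11.Orth2

set_option autoImplicit false
open Cfsg

namespace Cfsg.Agent.S2632

/-- Ω is transitive on non-degenerate subspaces of each isometry type: for a quadratic form Q on F^n, n ≥ 3, with non-degenerate polar form (F finite; excluding dimension 4 over the field of two elements), if U and W are subspaces on which the polar form is non-degenerate and there is a Q-preserving linear isomorphism U → W, then some element of Ω (the commutator subgroup of the orthogonal group) carries U to W. (In dimension 2 this fails: Ω can be {±1}, which fixes every line.) -/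
theorem result {F : Type*} [Field F] [Fintype F] {n : ℕ} (hn : 3 ≤ n) (h : Fintype.card F ≠ 2 ∨ n ≠ 4) (Q : QuadraticForm F (Fin n → F)) (hQ : (QuadraticMap.polarBilin Q).Nondegenerate) (U W : Submodule F (Fin n → F)) (hU : U ⊓ LinearMap.BilinForm.orthogonal (QuadraticMap.polarBilin Q) U = ⊥) (hW : W ⊓ LinearMap.BilinForm.orthogonal (QuadraticMap.polarBilin Q) W = ⊥) (e : U ≃ₗ[F] W) (he : ∀ u : U, Q (e u : Fin n → F) = Q (u : Fin n → F)) : ∃ g : ↥(Cfsg.isometryGroup F ⇑Q), g ∈ Cfsg.Omega F ⇑Q ∧ U.map (Matrix.mulVecLin ((g : Matrix.GeneralLinearGroup (Fin n) F) : Matrix (Fin n) (Fin n) F)) = W := by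
  have hS := H11.orthS_nondeg hQ
  obtain ⟨g, hg⟩ := hS.witt_subspace U (W.subtype ∘ₗ e.toLinearMap)
    (W.subtype_injective.comp e.injective) (H11.PForm.orth_isIsom he)
  obtain ⟨k, h1, h2⟩ := hS.omega_trans_nondeg (H11.PForm.notO4_of_card (by simpa using h))
    (by simpa using hn) (U := U) ((H11.PForm.restrict_nondeg_iff _ _).2 (disjoint_iff.2 hU)) g
  refine H11.exists_Omega_map Q h1 (h2.trans (le_antisymm ?_ fun w hw => ?_))
  · rintro _ ⟨u, hu, rfl⟩
    exact (hg ⟨u, hu⟩).symm ▸ (e ⟨u, hu⟩).2
  · exact ⟨_, (e.symm ⟨w, hw⟩).2, (hg _).trans (by simp)⟩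

end Cfsg.Agent.S2632
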