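import Cfsg.Statements.S2634
import Cfsg.Agent.H11.Orth2

set_option autoImplicit false
open Cfsg

namespace Cfsg.Agent.S2634

/-- Over a finite field of characteristic two, Ω (the commutator subgroup of the orthogonal group of a quadratic form Q on F^n with non-degenerate polar form; excluding dimension 4 over the field of two elements) acts transitively on the non-singular 1-spaces: for u, v with Q(u) ≠ 0 and Q(v) ≠ 0 some element of Ω carries the line through u to the line through v. -/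
theorem result {F : Type*} [Field F] [Fintype F] [CharP F 2] {n : ℕ} (h : Fintype.card F ≠ 2 ∨ n ≠ 4) (Q : QuadraticForm F (Fin n → F)) (hQ : (QuadraticMap.polarBilin Q).Nondegenerate) (u v : Fin n → F) (hu : Q u ≠ 0) (hv : Q v ≠ 0) : ∃ g : ↥(Cfsg.isometryGroup F ⇑Q), g ∈ Cfsg.Omega F ⇑Q ∧ (F ∙ ((g : Matrix.GeneralLinearGroup (Fin n) F) : Matrix (Fin n) (Fin n) F).mulVec u) = F ∙ v := by
  have hS := H11.orthS_nondeg hQ
  have h2 : (2 : F) = 0 := CharTwo.two_eq_zero
  obtain ⟨c, hc, h1⟩ := H11.exists_sq_mul_of_sqSign_eq hv hu (by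
    rw [H11.sqSign_eq_one_iff.2 (H11.isSquare_of_two_eq_zero h2 _),
      H11.sqSign_eq_one_iff.2 (H11.isSquare_of_two_eq_zero h2 _)])
  have hu0 : u ≠ 0 := by rintro rfl; simp at hu
  have hv0 : v ≠ 0 := by rintro rfl; simp at hv
  obtain ⟨g, hg⟩ := hS.witt_vec hu0 (smul_ne_zero hc hv0)
    (by simp [h1, QuadraticMap.map_smul, pow_two])
  obtain ⟨k, h3, h4⟩ : ∃ k : (H11.orthS Q).Isom, hS.dick k = 1 ∧ (F ∙ k.1 u) = F ∙ v := by
    rcases Int.units_eq_one_or (hS.dick g) with h | h
    · exact ⟨g, h, by rw [hg, Submodule.span_singleton_smul_eq hc.isUnit]⟩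
    · exact ⟨g * (H11.orthS Q).refl u, by simp [h, hS.dick_refl hu], by
        rw [H11.PForm.isom_mul_apply, H11.PForm.refl_apply_self hu, map_neg, hg, ← neg_smul,
          Submodule.span_singleton_smul_eq (neg_ne_zero.2 hc).isUnit]⟩
  refine ⟨(H11.orthEquiv Q).symm k, ?_, by rwa [← H11.orthEquiv_apply, MulEquiv.apply_symm_apply]⟩
  rwa [H11.mem_Omega_iff, MulEquiv.apply_symm_apply,
    hS.orth_commutator_eq_ker_dick h2 (H11.PForm.notO4_of_card (by simpa using h))]

end Cfsg.Agent.S2634
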