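import Cfsg.Statements.S2636
import Cfsg.Agent.H25.Descent
-- import your own Cfsg.Agent.* helpers here

set_option autoImplicit false
open Cfsg

namespace Cfsg.Agent.S2636

/-- Centraliser of a field automorphism in PGL_n: let F be the field with q = q₀^r elements, σ a field automorphism of F of prime order r (so its fixed field has q₀ elements) and n ≥ 1. The invertible matrices g whose entrywise image under σ is a scalar multiple of g — those whose coset modulo scalars is fixed by σ — number (q − 1)/(q₀ − 1) · |GL_n(q₀)|; equivalently the centraliser in PGL_n(q) of the induced automorphism has the order of PGL_n(q₀). -/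
theorem result {F : Type*} [Field F] [Fintype F] {q₀ r n : ℕ} (hr : r.Prime) (hn : 1 ≤ n) (hF : Fintype.card F = q₀ ^ r) (σ : F ≃+* F) (hσ : orderOf σ = r) : Nat.card {g : GL (Fin n) F // ∃ c : F, c ≠ 0 ∧ (g : Matrix (Fin n) (Fin n) F).map σ = c • (g : Matrix (Fin n) (Fin n) F)} = (q₀ ^ r - 1) / (q₀ - 1) * ∏ i : Fin n, (q₀ ^ n - q₀ ^ (i : ℕ)) := by
  haveI : Nonempty (Fin n) := ⟨⟨0, hn⟩⟩
  haveI := Fintype.ofFinite (H25.fixF σ)
  have hj : ∀ x, σ x = x ↔ ∃ y, (H25.fixF σ).subtype y = x := fun x =>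
    ⟨fun h => ⟨⟨x, H25.mem_fixF.2 h⟩, rfl⟩, fun ⟨y, hy⟩ => hy ▸ H25.mem_fixF.1 y.2⟩
  have hq : Fintype.card (H25.fixF σ) = q₀ := by
    have := H25.card_fixF σ
    rw [hσ, Nat.card_eq_fintype_card, Nat.card_eq_fintype_card, hF] at this
    exact Nat.pow_left_injective hr.ne_zero this
  let ψ : Fˣ × GL (Fin n) (H25.fixF σ) →* GL (Fin n) F :=
    MonoidHom.noncommCoprod (Matrix.GeneralLinearGroup.scalar (Fin n))
      (Matrix.GeneralLinearGroup.map (H25.fixF σ).subtype)
      (fun a d => Matrix.GeneralLinearGroup.scalar_commute a _)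
  have hψ : ∀ a d, ψ (a, d) = Matrix.GeneralLinearGroup.scalar (Fin n) a *
    Matrix.GeneralLinearGroup.map (H25.fixF σ).subtype d := fun a d => rfl
  have h1 : Nat.card {g : GL (Fin n) F // ∃ c : F, c ≠ 0 ∧
      (g : Matrix (Fin n) (Fin n) F).map σ = c • (g : Matrix (Fin n) (Fin n) F)} = Nat.card ψ.range := by
    refine Nat.card_congr (Equiv.subtypeEquivRight fun g => ⟨?_, ?_⟩)
    · rintro ⟨c, -, hc⟩
      obtain ⟨a, d, e⟩ := H25.exists_scalar_mul_map hj hc
      exact ⟨(a, d), e.symm⟩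
    · rintro ⟨⟨a, d⟩, rfl⟩
      refine ⟨σ a / a, by simp, ?_⟩
      rw [← H25.coe_mapAut, hψ, map_mul, H25.mapAut_map hj, H25.mapAut_scalar]
      simp [Matrix.scalar_apply, ← Matrix.smul_eq_diagonal_mul, smul_smul]
  let κ : (H25.fixF σ)ˣ →* Fˣ × GL (Fin n) (H25.fixF σ) :=
    (Units.map ((H25.fixF σ).subtype : H25.fixF σ →* F)).prod
      ((Matrix.GeneralLinearGroup.scalar (Fin n)).comp invMonoidHom)
  have hκ : Function.Injective κ := fun a b h =>
    Units.map_injective (H25.fixF σ).subtype.injective (congrArg Prod.fst h)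
  have h2 : ψ.ker = κ.range := by
    ext ⟨a, d⟩
    rw [MonoidHom.mem_ker, hψ]
    constructor
    · intro h
      rw [mul_eq_one_iff_inv_eq, ← map_inv] at h
      obtain ⟨b, hb, rfl⟩ := H25.map_eq_scalar h.symm
      exact ⟨b⁻¹, by simp [κ, hb]⟩
    · rintro ⟨b, hb⟩
      obtain ⟨h1, h2⟩ := Prod.ext_iff.1 hb
      have h1' : a = Units.map ((H25.fixF σ).subtype : H25.fixF σ →* F) b := h1.symm
      have h2' : d = Matrix.GeneralLinearGroup.scalar (Fin n) b⁻¹ := h2.symm
      rw [h1', h2', Matrix.GeneralLinearGroup.map_scalar, ← map_mul, map_inv, mul_inv_cancel, map_one]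
  have h3 := Subgroup.card_mul_index ψ.ker
  rw [Subgroup.index_ker, h2, ← Nat.card_congr (MonoidHom.ofInjective hκ).toEquiv, Nat.card_prod,
    Nat.card_units, Nat.card_units, Matrix.card_GL_field, Nat.card_eq_fintype_card,
    Nat.card_eq_fintype_card (α := F), hq, hF] at h3
  have h4 : 0 < q₀ - 1 := by
    have : 1 < Fintype.card (H25.fixF σ) := Fintype.one_lt_card
    omega
  obtain ⟨k, hk⟩ : q₀ - 1 ∣ q₀ ^ r - 1 := Nat.sub_one_dvd_pow_sub_one q₀ r
  rw [h1, hk, Nat.mul_div_cancel_left _ h4]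
  rw [hk, mul_assoc] at h3
  exact Nat.eq_of_mul_eq_mul_left h4 h3

end Cfsg.Agent.S2636
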