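import Cfsg.Statements.S2677
import Cfsg.Agent.S0277
import Cfsg.Agent.H25.Descent
import Cfsg.Agent.H11.Scal
import Cfsg.Agent.H11.Kinds

set_option autoImplicit false
open Cfsg

namespace Cfsg.Agent.S2677

open Matrix in
theorem mem_GU {F : Type*} [Field F] {n q : ℕ} {τ : F →+* F} (hτ : ∀ x, τ x = x ^ q)
    (g : GL (Fin n) F) : g ∈ Cfsg.GU n F q ↔ g.1ᵀ * g.1.map τ = 1 := by
  have e : ∀ u v, Cfsg.hermForm n F q (g.1 *ᵥ u) (g.1 *ᵥ v) =
      u ⬝ᵥ ((g.1ᵀ * g.1.map τ) *ᵥ (τ ∘ v)) := fun u v => by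
    rw [← mulVec_mulVec, dotProduct_mulVec, vecMul_transpose]
    simp only [Cfsg.hermForm, ← hτ, dotProduct, RingHom.map_mulVec]
  change (∀ u v, Cfsg.hermForm n F q (g.1 *ᵥ u) (g.1 *ᵥ v) = _) ↔ _
  simp only [e]
  constructor
  · intro h
    ext i j
    have h1 := h (Pi.single i 1) (Pi.single j 1)
    have h2 : τ ∘ (Pi.single j 1 : Fin n → F) = Pi.single j 1 := by
      ext k; by_cases h : k = j <;> simp [h]
    rw [h2] at h1
    simp only [Cfsg.hermForm, ← hτ] at h1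
    rw [Finset.sum_eq_single i (fun b _ hb => by simp [hb]) (by simp)] at h1
    by_cases h : i = j <;> simpa [h, one_apply] using h1
  · intro h u v
    simp [h, Cfsg.hermForm, ← hτ, dotProduct]

theorem cast_gu {q : ℕ} (hq : 1 ≤ q) (n : ℕ) :
    ((q ^ (n * (n - 1) / 2) * ∏ i ∈ Finset.range n,
      (if Even i then q ^ (i + 1) + 1 else q ^ (i + 1) - 1) : ℕ) : ℤ) =
    (q : ℤ) ^ (n * (n - 1) / 2) * ∏ i : Fin n, ((q : ℤ) ^ ((i : ℕ) + 1) - (-1) ^ ((i : ℕ) + 1)) := by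
  rw [Fin.prod_univ_eq_prod_range (fun i => (q : ℤ) ^ (i + 1) - (-1) ^ (i + 1)), Nat.cast_mul,
    Nat.cast_pow, Nat.cast_prod]
  refine congrArg _ (Finset.prod_congr rfl fun i _ => ?_)
  split_ifs with h
  · rw [h.add_one.neg_one_pow]; simp
  · rw [(Nat.not_even_iff_odd.1 h).add_one.neg_one_pow, Nat.cast_sub (Nat.one_le_pow _ _ hq)]; simp

/-- Centraliser of a field automorphism of odd prime order in PGU_n(q): let q = q₀^r with r an odd prime, K the field with q² elements and σ a field automorphism of K of order r (fixed field of order q₀²). The elements g of GU_n(q) whose entrywise image under σ is a scalar multiple of g — those whose coset modulo the q + 1 unitary scalars is fixed by σ — number (q + 1)/(q₀ + 1) · |GU_n(q₀)|; equivalently the centraliser in PGU_n(q) of the induced automorphism has the order of PGU_n(q₀). -/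
theorem result {K : Type*} [Field K] [Fintype K] {q₀ q r n : ℕ} (hr : r.Prime) (hr2 : r ≠ 2) (hn : 1 ≤ n) (hq : q = q₀ ^ r) (hK : Fintype.card K = q ^ 2) (σ : K ≃+* K) (hσ : orderOf σ = r) : (Nat.card {g : ↥(Cfsg.GU n K q) // ∃ c : K, c ≠ 0 ∧ ((g : GL (Fin n) K) : Matrix (Fin n) (Fin n) K).map σ = c • ((g : GL (Fin n) K) : Matrix (Fin n) (Fin n) K)} : ℤ) = ((q + 1) / (q₀ + 1) : ℕ) * ((q₀ : ℤ) ^ (n * (n - 1) / 2) * ∏ i : Fin n, ((q₀ : ℤ) ^ ((i : ℕ) + 1) - (-1) ^ ((i : ℕ) + 1))) := by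
  haveI : Nonempty (Fin n) := ⟨⟨0, hn⟩⟩
  haveI := Fintype.ofFinite (H25.fixF σ)
  have hj : ∀ x, σ x = x ↔ ∃ y, (H25.fixF σ).subtype y = x := fun x =>
    ⟨fun h => ⟨⟨x, H25.mem_fixF.2 h⟩, rfl⟩, fun ⟨y, hy⟩ => hy ▸ H25.mem_fixF.1 y.2⟩
  have hq0 : Fintype.card (H25.fixF σ) = q₀ ^ 2 := by
    have := H25.card_fixF σ
    rw [hσ, Nat.card_eq_fintype_card, Nat.card_eq_fintype_card, hK, hq, ← pow_mul, mul_comm,
      pow_mul] at this
    exact Nat.pow_left_injective hr.ne_zero this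
  generalize H25.fixF σ = K₀ at *
  obtain ⟨τ, hτ, hτ2, hτ3⟩ := H11.exists_frob hK
  obtain ⟨τ₀, hτ₀, hτ₀2, hτ₀3⟩ := H11.exists_frob hq0
  have hK' : Nat.card K = q ^ 2 := by rw [Nat.card_eq_fintype_card, hK]
  have hK₀ : Nat.card K₀ = q₀ ^ 2 := by rw [Nat.card_eq_fintype_card, hq0]
  have hc : ∀ x : K₀, τ x = τ₀ x := fun x => by
    obtain ⟨k, hk⟩ := hr.odd_of_ne_two hr2
    rw [hτ, hτ₀, hq, hk, pow_succ, pow_mul, pow_mul, ← hq0, ← SubmonoidClass.coe_pow,
      FiniteField.pow_card_pow, SubmonoidClass.coe_pow]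
  let ψ : H11.normOne τ × Cfsg.GU n K₀ q₀ →* GL (Fin n) K :=
    MonoidHom.noncommCoprod ((Matrix.GeneralLinearGroup.scalar (Fin n)).comp (Subgroup.subtype _))
      ((Matrix.GeneralLinearGroup.map K₀.subtype).comp (Subgroup.subtype _))
      (fun a d => Matrix.GeneralLinearGroup.scalar_commute a.1 _)
  have hψ : ∀ a d, ψ (a, d) = Matrix.GeneralLinearGroup.scalar (Fin n) a.1 *
    Matrix.GeneralLinearGroup.map K₀.subtype d.1 := fun a d => rfl
  have hv : ∀ (a : Kˣ) (d : GL (Fin n) K₀), (Matrix.GeneralLinearGroup.scalar (Fin n) a *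
      Matrix.GeneralLinearGroup.map K₀.subtype d).1 = (a : K) • d.1.map K₀.subtype := fun a d => by
    simp [Matrix.scalar_apply, ← Matrix.smul_eq_diagonal_mul]
  have hu : ∀ (a : Kˣ) (d : GL (Fin n) K₀), Matrix.GeneralLinearGroup.scalar (Fin n) a *
      Matrix.GeneralLinearGroup.map K₀.subtype d ∈ Cfsg.GU n K q ↔
      (τ a * a) • (d.1.transpose * d.1.map τ₀).map K₀.subtype = 1 := fun a d => by
    rw [mem_GU hτ, hv, Matrix.map_mul, Matrix.transpose_smul, Matrix.transpose_map,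
      show ((a : K) • d.1.map K₀.subtype).map τ = τ a • (d.1.map τ₀).map K₀.subtype by
        ext i j; simp [hc], Matrix.smul_mul, Matrix.mul_smul, smul_smul, mul_comm]
  have h1 : Nat.card {g : Cfsg.GU n K q // ∃ c : K, c ≠ 0 ∧
      ((g : GL (Fin n) K) : Matrix (Fin n) (Fin n) K).map σ =
        c • ((g : GL (Fin n) K) : Matrix (Fin n) (Fin n) K)} = Nat.card ψ.range := by
    refine Nat.card_congr ((Equiv.subtypeSubtypeEquivSubtypeInter (· ∈ Cfsg.GU n K q)
      (fun g => ∃ c : K, c ≠ 0 ∧ (g : Matrix (Fin n) (Fin n) K).map σ =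
        c • (g : Matrix (Fin n) (Fin n) K))).trans (Equiv.subtypeEquivRight fun g => ⟨?_, ?_⟩))
    · rintro ⟨hg, c, -, hc'⟩
      obtain ⟨a, d, rfl⟩ := H25.exists_scalar_mul_map hj hc'
      rw [hu] at hg
      let i : Fin n := ⟨0, hn⟩
      let μ : K₀ := (d.1.transpose * d.1.map τ₀) i i
      have h2 : τ a * a * μ = 1 := by simpa using congrFun (congrFun hg i) i
      have h3 : μ ≠ 0 := by rintro h; simp [h] at h2
      have h4 : τ₀ μ = μ := Subtype.ext (by
        have h5 := congrArg τ h2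
        rw [map_mul, map_mul, hτ2, map_one, hc, mul_comm (a : K), ← h2] at h5
        exact mul_left_cancel₀ (left_ne_zero_of_mul_eq_one h2) h5)
      obtain ⟨b, hb⟩ := H11.exists_norm_eq hτ₀2 hτ₀3 h4
      have h5 : b ≠ 0 := by rintro rfl; simp [← hb] at h3
      have h6 : (b : K) ≠ 0 := by simpa using h5
      have h7 : τ (a * b : K) * (a * b) = 1 := by
        rw [map_mul, hc, ← h2, ← hb]; push_cast; ring
      refine ⟨(⟨a * Units.mk0 (b : K) h6, by simpa [H11.mem_normOne] using h7⟩,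
        ⟨Matrix.GeneralLinearGroup.scalar (Fin n) (Units.mk0 b⁻¹ (inv_ne_zero h5)) * d, ?_⟩), ?_⟩
      · rw [mem_GU hτ₀]
        refine Matrix.map_injective K₀.subtype.injective ?_
        have h8 : (Matrix.GeneralLinearGroup.scalar (Fin n) (Units.mk0 b⁻¹ (inv_ne_zero h5)) * d).1 = b⁻¹ • d.1 := by
          simp [Matrix.scalar_apply, ← Matrix.smul_eq_diagonal_mul]
        have h9 : τ a * a = ((τ₀ b)⁻¹ * b⁻¹ : K₀) := by
          rw [← mul_inv, hb, eq_inv_of_mul_eq_one_left h2]; simp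
        beta_reduce
        rw [h8, Matrix.map_one _ (map_zero _) (map_one _), ← hg, h9, Matrix.transpose_smul,
          show (b⁻¹ • d.1).map τ₀ = (τ₀ b)⁻¹ • d.1.map τ₀ by ext i j; simp,
          Matrix.smul_mul, Matrix.mul_smul, smul_smul, mul_comm b⁻¹]
        ext i j; simp
      · rw [hψ]
        refine Units.ext ?_
        rw [hv, hv]
        ext i j
        simp [Matrix.scalar_apply, ← Matrix.smul_eq_diagonal_mul, h6, mul_assoc]
    · rintro ⟨⟨a, d⟩, rfl⟩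
      refine ⟨?_, σ a.1 / a.1, by simp, ?_⟩
      · rw [hψ, hu, H11.mem_normOne.1 a.2, (mem_GU hτ₀ _).1 d.2]
        simp
      · rw [← H25.coe_mapAut, hψ, map_mul, H25.mapAut_map hj, H25.mapAut_scalar]
        simp [Matrix.scalar_apply, ← Matrix.smul_eq_diagonal_mul, smul_smul]
  have hs : ∀ b : K₀ˣ, b ∈ H11.normOne τ₀ → Matrix.GeneralLinearGroup.scalar (Fin n) b ∈
      Cfsg.GU n K₀ q₀ := fun b hb => by
    rw [mem_GU hτ₀]
    simp [Matrix.scalar_apply, Matrix.diagonal_map, mul_comm (b : K₀), H11.mem_normOne.1 hb]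
  have hs' : ∀ b : K₀ˣ, Units.map (K₀.subtype : K₀ →* K) b ∈ H11.normOne τ ↔
      b ∈ H11.normOne τ₀ := fun b => by
    rw [H11.mem_normOne, H11.mem_normOne, ← Subtype.val_inj]
    simp [hc]
  have h2 : Nat.card ψ.ker = Nat.card (H11.normOne τ₀) := by
    refine (Nat.card_congr (Equiv.ofBijective (fun b => ⟨(⟨_, (hs' b.1).2 b.2⟩,
      ⟨_, hs _ (Subgroup.inv_mem _ b.2)⟩), by
        rw [MonoidHom.mem_ker, hψ, Matrix.GeneralLinearGroup.map_scalar, ← map_mul, map_inv,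
          mul_inv_cancel, map_one]⟩) ⟨fun a b h => ?_, ?_⟩)).symm
    · exact Subtype.ext (Units.map_injective K₀.subtype.injective
        (congrArg (fun x => x.1.1.1) h))
    · rintro ⟨⟨⟨a, ha⟩, d, hd⟩, h⟩
      rw [MonoidHom.mem_ker, hψ, mul_eq_one_iff_inv_eq, ← map_inv] at h
      obtain ⟨b, hb, rfl⟩ := H25.map_eq_scalar h.symm
      obtain rfl : a = Units.map (K₀.subtype : K₀ →* K) b⁻¹ := by simp [hb]
      exact ⟨⟨b⁻¹, (hs' _).1 ha⟩, by simp⟩
  have h3 := Subgroup.card_mul_index ψ.ker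
  rw [Subgroup.index_ker, h2, Nat.card_prod, H11.card_normOne_unit hτ2 hτ3 hK',
    H11.card_normOne_unit hτ₀2 hτ₀3 hK₀, Cfsg.Agent.S0277.result hq0] at h3
  obtain ⟨k, hk⟩ : q₀ + 1 ∣ q + 1 := by
    simpa [hq] using (hr.odd_of_ne_two hr2).nat_add_dvd_pow_add_pow q₀ 1
  rw [h1, hk, Nat.mul_div_cancel_left _ (Nat.succ_pos _),
    ← cast_gu (by have := H11.two_le_of_card_sq hK₀; omega), ← Nat.cast_mul]
  rw [hk, mul_assoc] at h3
  rw [Nat.eq_of_mul_eq_mul_left (Nat.succ_pos _) h3]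

end Cfsg.Agent.S2677
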