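import Cfsg.Statements.S2637
import Cfsg.Agent.H11.Res
import Cfsg.Agent.S2677

set_option autoImplicit false
open Cfsg

namespace Cfsg.Agent.S2637

open H11 Polynomial Module in
theorem sim_of_irr {F : Type*} [Field F] {V W : Type*} [AddCommGroup V] [Module F V]
    [AddCommGroup W] [Module F W] [FiniteDimensional F V] [FiniteDimensional F W] {P : F[X]}
    (hP : Irreducible P) (hm : P.Monic) {f : End F V} {g : End F W} (hf : aeval f P = 0)
    (hg : aeval g P = 0) (h : finrank F V = finrank F W) : Sim f g := by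
  have key : ∀ s : Multiset F[X], (∀ Q ∈ s, PP Q) → (∀ Q ∈ s, Q ∣ P) →
      s = Multiset.replicate s.card P := fun s h1 h2 => Multiset.eq_replicate_card.2 fun Q hQ => by
    refine eq_of_monic_of_associated (h1 Q hQ).monic hm
      ((hP.dvd_iff.1 (h2 Q hQ)).resolve_left fun hu => ?_).symm
    obtain ⟨π, e, h3, h4, rfl⟩ := h1 Q hQ
    exact h4.not_isUnit ((isUnit_pow_succ_iff).1 hu)
  have h1 := key _ (pp_ED f) (aeval_eq_zero_iff_ED.1 hf)
  have h2 := key _ (pp_ED g) (aeval_eq_zero_iff_ED.1 hg)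
  rw [finrank_eq_ED f, finrank_eq_ED g, h1, h2] at h
  simp only [Multiset.map_replicate, Multiset.sum_replicate, smul_eq_mul] at h
  rw [sim_iff_ED, h1, h2, Nat.eq_of_mul_eq_mul_right hP.natDegree_pos h]

/-- Centraliser of a fixed-point-free element of order three in Sp_2m(q) when q ≡ 2 (mod 3): if x ∈ Sp_2m(F) (|F| = q, m ≥ 1) satisfies x³ = 1 and x − 1 is invertible, then its centraliser in Sp_2m(F) has the order of the unitary group GU_m(q), namely q^(m(m−1)/2) Π_(i=1)^m (q^i − (−1)^i) (x lies in the centre of a subgroup GU_m(q) of Sp_2m(q)). -/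
theorem result {F : Type*} [Field F] [Fintype F] {q : ℕ} (hF : Fintype.card F = q) (hq : q % 3 = 2) {m : ℕ} (hm : 1 ≤ m) (x : Matrix.symplecticGroup (Fin m) F) (hx3 : x ^ 3 = 1) (hfpf : IsUnit ((x : Matrix (Fin m ⊕ Fin m) (Fin m ⊕ Fin m) F) - 1)) : (Nat.card ↥(Subgroup.centralizer ({x} : Set ↥(Matrix.symplecticGroup (Fin m) F))) : ℤ) = (q : ℤ) ^ (m * (m - 1) / 2) * ∏ i : Fin m, ((q : ℤ) ^ ((i : ℕ) + 1) - (-1) ^ ((i : ℕ) + 1)) := by
  classical
  have hroot : ∀ c : F, c ^ 2 + c + 1 ≠ 0 := fun c hc => by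
    have h1 : c ^ 3 = 1 := by linear_combination (c - 1) * hc
    have h2 : c ≠ 0 := by rintro rfl; simp at h1
    have h3 : c ^ (q - 1) = 1 := hF ▸ FiniteField.pow_card_sub_one_eq_one c h2
    rw [show q - 1 = 3 * (q / 3) + 1 by omega, pow_succ, pow_mul, h1, one_pow, one_mul] at h3
    have h4 : ((q : ℕ) : F) = 0 := hF ▸ FiniteField.cast_card_eq_zero F
    rw [show q = 3 * (q / 3) + 2 by omega] at h4
    rw [h3] at hc
    push_cast at h4
    exact one_ne_zero (α := F) (by linear_combination hc - h4 + (q / 3 : ℕ) * hc)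
  let P : Polynomial F := Polynomial.X ^ 2 + Polynomial.X + 1
  have hPm : P.Monic := by unfold P; monicity!
  have hPd : P.natDegree = 2 := by unfold P; compute_degree!
  have hP : Irreducible P := by
    refine (Polynomial.Monic.irreducible_iff_roots_eq_zero_of_degree_le_three hPm (by omega)
      (by omega)).2 (Multiset.eq_zero_of_forall_notMem fun c hc => hroot c ?_)
    simpa [P] using (Polynomial.mem_roots hPm.ne_zero).1 hc
  obtain ⟨K, _, _, _, ω, hω, hK2⟩ := H11.exists_root_field hP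
  rw [hPd] at hK2
  have := Fintype.ofFinite K
  have hK : Fintype.card K = q ^ 2 := by rw [Module.card_eq_pow_finrank (K := F), hF, hK2]
  have hK' : Nat.card K = q ^ 2 := by rw [Nat.card_eq_fintype_card, hK]
  obtain ⟨σ, hσq, hσσ, hne⟩ := H11.exists_frob hK
  have hfix : ∀ x, σ x = x ↔ ∃ a, algebraMap F K a = x := fun x => by
    rw [hσq, ← H11.fix_iff_mem_range, Nat.card_eq_fintype_card, hF]
  have hσ : ∀ a, σ (algebraMap F K a) = algebraMap F K a := fun a => (hfix _).2 ⟨a, rfl⟩
  have hω' : ω ^ 2 + ω + 1 = 0 := by simpa [P] using hω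
  have hω1 : σ ω * ω = 1 := by
    have h1 : ω ^ 3 = 1 := by linear_combination (ω - 1) * hω'
    rw [hσq, ← pow_succ, show q + 1 = 3 * (q / 3 + 1) by omega, pow_mul, h1, one_pow]
  have hω0 : ω ≠ 0 := right_ne_zero_of_mul_eq_one hω1
  have hspan : ∀ c : K, ∃ a b : F, a • (1 : K) + b • ω = c := fun c => by
    have h1 : LinearIndependent F ![(1 : K), ω] := by
      refine (LinearIndependent.pair_iff' one_ne_zero).2 fun a ha => hroot a ?_
      rw [← ha, ← Algebra.algebraMap_eq_smul_one] at hω'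
      exact (algebraMap F K).injective (by simpa using hω')
    have h2 := h1.span_eq_top_of_card_eq_finrank (by simp [hK2])
    rw [Matrix.range_cons_cons_empty] at h2
    exact Submodule.mem_span_pair.1 (h2 ▸ Submodule.mem_top)
  obtain ⟨l, hl, hl'⟩ := H11.exists_dual_vanish hK2
  let S := H11.stdUnit hσσ hne (Fin m)
  have hS : S.Nondeg := H11.stdUnit_nondeg hσσ hne _
  let T := H11.sympS (H11.trB hσ S l) fun x => by
    obtain ⟨a, ha⟩ := (hfix _).1 (S.unit_h_self_fixed x)
    rw [H11.trB_apply, ← ha, hl']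
  have hT : T.Nondeg := H11.trB_sep hσ hS hl
  let ρ := H11.resI S T fun g => H11.PForm.symp_isIsom fun x y => congrArg l (H11.PForm.isom_h g x y)
  let w := S.scal ⟨Units.mk0 ω hω0, hω1⟩
  have hw : ∀ v, (ρ w).1 v = ω • v := fun v => rfl
  have h1 : Nat.card (Subgroup.centralizer {ρ w}) = Nat.card S.Isom := by
    refine (Nat.card_congr (Equiv.ofBijective (fun g : S.Isom => (⟨ρ g,
      Subgroup.mem_centralizer_singleton_iff.2 (H11.PForm.isom_ext fun v => map_smul g.1 ω v)⟩ :
      Subgroup.centralizer {ρ w})) ⟨fun a b h => ?_, ?_⟩)).symm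
    · exact H11.resI_injective _ _ _ (congrArg Subtype.val h)
    · rintro ⟨k, hk⟩
      have h2 : ∀ v, k.1 (ω • v) = ω • k.1 v := fun v =>
        congrArg (fun g : T.Isom => g.1 v) (Subgroup.mem_centralizer_singleton_iff.1 hk)
      have h3 : ∀ (c : K) v, k.1 (c • v) = c • k.1 v := fun c v => by
        obtain ⟨a, b, rfl⟩ := hspan c
        simp only [add_smul, smul_assoc, one_smul, map_add, map_smul, h2]
      let k' : (Fin m → K) ≃ₗ[K] (Fin m → K) := { k.1 with map_smul' := h3 }
      refine ⟨⟨k', H11.PForm.unit_isIsom fun x y => ?_⟩, Subtype.ext (H11.PForm.isom_ext fun v => rfl)⟩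
      change S.h (k.1 x) (k.1 y) = S.h x y
      by_contra h4
      refine hl (LinearMap.ext fun c => ?_)
      have h5 : l (S.h (k.1 x) (k.1 ((c / (S.h (k.1 x) (k.1 y) - S.h x y)) • y))) = l (S.h x _) :=
        H11.PForm.isom_h k x _
      rw [h3, S.h_smul_right, S.h_smul_right, ← sub_eq_zero, ← map_sub, ← mul_sub,
        div_mul_cancel₀ _ (sub_ne_zero.2 h4)] at h5
      exact h5
  have hx : Polynomial.aeval (H11.mE x.1) P = 0 := by
    rw [H11.aeval_mE, H11.mE_eq_zero]
    have h2 : x.1 ^ 3 = 1 := congrArg Subtype.val hx3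
    refine hfpf.mul_right_eq_zero.1 ?_
    simp only [P, map_add, map_pow, Polynomial.aeval_X, map_one]
    rw [← sub_eq_zero] at h2
    rw [← h2]; noncomm_ring
  have hx' : Polynomial.aeval (H11.PForm.iE (ρ w)) P = 0 := by
    refine LinearMap.ext fun v => ?_
    simp only [P, map_add, map_mul, Polynomial.aeval_X, map_one, pow_two]
    change ω • ω • v + ω • v + v = 0
    rw [smul_smul, ← pow_two, ← add_smul]
    nth_rewrite 2 [← one_smul K v]
    rw [← add_smul, hω', zero_smul]
  have h2 := sim_of_irr hP hPm hx hx' (by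
    rw [H11.finrank_sum_fun, ← Module.finrank_mul_finrank F K, hK2, Module.finrank_fin_fun])
  rw [← H11.iE_spEquiv] at h2
  have h3 := H11.PForm.isim_of_isUnit (H11.stdSymp_nondeg m) hT h2
    (H11.isUnit_sq_sub_one (m := 3) (by decide) (by
      rw [← H11.PForm.iE_pow, ← map_pow, hx3, map_one, H11.PForm.iE_one]) (by
      rw [H11.iE_spEquiv, ← H11.mE_one, ← H11.mE_sub, H11.isUnit_mE]; exact hfpf))
  rw [H11.card_centralizer_equiv (H11.spEquiv m F), h3.card_centralizer, h1,
    H11.PForm.unit_card_Isom hne hK' m hS (by simp), H11.guOrd,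
    Cfsg.Agent.S2677.cast_gu (by omega)]

end Cfsg.Agent.S2637
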