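import Cfsg.Statements.S2638
import Cfsg.Agent.H11.ED3

set_option autoImplicit false
open Cfsg

namespace Cfsg.Agent.S2638

/-- If an element x of GL_n(q), n ≥ 1, has prime order r and the multiplicative order of q modulo r is n (r is a primitive prime divisor of q^n − 1, so x acts irreducibly), then the centraliser of x in GL_n(q) is cyclic of order q^n − 1 (the multiplicative group of the field with q^n elements, a Singer cycle). -/
theorem result {F : Type*} [Field F] [Fintype F] {p q : ℕ} [Fact p.Prime] [CharP F p] (hF : Fintype.card F = q) {n r : ℕ} (hn : 1 ≤ n) (hr : r.Prime) (hrp : r ≠ p) (hi : orderOf (q : ZMod r) = n) (x : GL (Fin n) F) (hx : orderOf x = r) : IsCyclic ↥(Subgroup.centralizer ({x} : Set (GL (Fin n) F))) ∧ Nat.card ↥(Subgroup.centralizer ({x} : Set (GL (Fin n) F))) = q ^ n - 1 := by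
  classical
  have h0 : (r : F) ≠ 0 := H11.natCast_ne_zero_of_prime p hr hrp
  rw [← H11.orderOf_mE_gl] at hx
  have h4 := H11.mem_PhiF_of_pow hr h0 (hx ▸ pow_orderOf_eq_one _)
  obtain ⟨a, ha⟩ := H11.ED_eq_nED (H11.mE x.1)
  have h1 := H11.finrank_eq_nED ha
  rw [H11.sum_natDegree_PhiF hr h0 h4, Module.finrank_fin_fun, Nat.card_eq_fintype_card, hF,
    hi] at h1
  have h2 := Multiset.card_pos.2 fun h : H11.nED (H11.mE x.1) = 0 => by
    rw [H11.nED_eq_zero.1 h, orderOf_one] at hx
    exact hr.one_lt.ne hx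
  obtain ⟨P, hP⟩ := Multiset.card_eq_one.1 (show (H11.nED (H11.mE x.1)).card = 1 by nlinarith)
  rw [hP] at h1 ha h4
  rw [show a = 0 by simpa using h1, Multiset.replicate_zero, zero_add] at ha
  have h5 := H11.sim_blk_of_ED ha
  have e := (H11.centGL x).trans (h5.cG.some.trans (H11.centBlk P).symm)
  have h6 := (H11.mem_PhiF.1 (h4 P (by simp))).1
  have : (Ideal.span {if P = 0 then 1 else P}).IsMaximal := by
    rw [if_neg h6.ne_zero]; exact PrincipalIdealRing.isMaximal_of_irreducible h6
  let := Ideal.Quotient.field (Ideal.span {if P = 0 then 1 else P})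
  have : Finite (H11.Blk P) := Module.finite_of_finite F
  refine ⟨isCyclic_of_surjective e.symm e.symm.surjective, ?_⟩
  rw [Nat.card_congr e.toEquiv, Nat.card_units, Module.natCard_eq_pow_finrank (K := F),
    ← h5.finrank_eq, Module.finrank_fin_fun, Nat.card_eq_fintype_card, hF]

end Cfsg.Agent.S2638
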