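import Cfsg.Statements.S2639
import Cfsg.Agent.H11.Res

set_option autoImplicit false
open Cfsg

namespace Cfsg.Agent.S2639

/-- The unitary group embeds in the symplectic group of twice the dimension over the subfield: for a field K with q² elements and a field F with q elements (isomorphic to the subfield of K of order q), there is an injective homomorphism GU_m(q) → Sp_2m(F). -/
theorem result {K F : Type*} [Field K] [Fintype K] [Field F] [Fintype F] {q : ℕ} (hK : Fintype.card K = q ^ 2) (hF : Fintype.card F = q) (m : ℕ) : ∃ φ : ↥(Cfsg.GU m K q) →* ↥(Matrix.symplecticGroup (Fin m) F), Function.Injective φ := by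
  obtain ⟨_, σ, h2, h3, h4, h5, h6⟩ := H11.exists_quad_setup hF hK
  obtain ⟨l, h7, h8⟩ := H11.exists_dual_vanish h2
  obtain ⟨θ, h9, h10⟩ := H11.exists_mem_unit_Λ h4 h5
  obtain ⟨φ, hφ⟩ := H11.exists_res_sp (fun a => (h6 _).2 ⟨a, rfl⟩) (H11.stdUnit_nondeg h4 h5 (Fin m)) h7
    (fun x => by
      obtain ⟨a, ha⟩ := (h6 _).1 ((H11.stdUnit h4 h5 (Fin m)).unit_h_self_fixed x)
      rw [← ha, h8]) (m := m) (by rw [← Module.finrank_mul_finrank F K, h2]; simp)
  exact ⟨φ.comp (H11.guEquiv h4 h5 h3 m).toMonoidHom, hφ.comp (H11.guEquiv h4 h5 h3 m).injective⟩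

end Cfsg.Agent.S2639
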