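import Cfsg.Statements.S2642
import Cfsg.Agent.H11.ThC
import Cfsg.Agent.S2570

set_option autoImplicit false
open Cfsg

namespace Cfsg.Agent.S2642

/-- Number of conjugacy classes of elements of order p in the general unitary group GU_n(q), q a power of p: every unipotent Jordan type occurs and the classes correspond to the partitions of n with all parts at most p other than the all-ones partition, exactly as in GL_n; so there are (number of partitions of n with parts ≤ p) − 1 classes. -/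
theorem result {K : Type*} [Field K] [Fintype K] {p q n : ℕ} [Fact p.Prime] [CharP K p] (hK : Fintype.card K = q ^ 2) : Nat.card {C : ConjClasses ↥(Cfsg.GU n K q) // ∃ g : ↥(Cfsg.GU n K q), ConjClasses.mk g = C ∧ orderOf g = p} = (Finset.univ.filter (fun μ : Nat.Partition n => ∀ a ∈ μ.parts, a ≤ p)).card - 1 := by
  obtain ⟨σ, hq, hσ, hne⟩ := H11.exists_frob hK
  rw [← S2570.result (F := K) (p := p) n, H11.card_classes _
    (fun g : Cfsg.GU n K q => ConjClasses.mk g.1) fun g k _ _ => ?_]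
  · refine Nat.card_congr (Equiv.subtypeEquivRight fun C => ⟨fun ⟨g, h1, h2⟩ =>
      ⟨g, h2, by simpa using h1⟩, fun ⟨g, h1, h2⟩ => ?_⟩)
    obtain ⟨T, hT, k, hk⟩ := (H11.Unip.dl hσ ((H11.unip_iff_orderOf p (f := H11.mE g.1)).2
      ⟨1, by rw [H11.orderOf_mE_gl, h2, pow_one]⟩)).unit_exists hσ hne
    obtain ⟨l, hl⟩ := (H11.PForm.unit_eqv hne _ hT (H11.stdUnit_nondeg hσ hne (Fin n)) rfl
      rfl).exists_isim k
    obtain ⟨B, rfl⟩ := (H11.guEquiv hσ hne hq n).surjective l
    have h3 : IsConj g B.1 := H11.gl_isConj_iff.2 (by simpa only [hk, H11.iE_guEquiv] using hl.sim)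
    refine ⟨B, ?_, h1 ▸ (ConjClasses.mk_eq_mk_iff_isConj.2 h3).symm⟩
    obtain ⟨c, hc⟩ := isConj_iff.1 h3
    rw [← Subgroup.orderOf_coe, ← hc, ← h2]
    exact (MulAut.conj c).orderOf_eq g
  · rw [ConjClasses.mk_eq_mk_iff_isConj, ← H11.isConj_mulEquiv_iff (H11.guEquiv hσ hne hq n),
      H11.gl_isConj_iff, ← H11.iE_guEquiv hσ hne hq, ← H11.iE_guEquiv hσ hne hq]
    exact ⟨H11.PForm.sim_of_isConj, fun h => H11.PForm.isim_iff_isConj.1 (H11.PForm.unit_isim hne
      (H11.stdUnit_nondeg _ _ _) (H11.stdUnit_nondeg _ _ _) h)⟩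

end Cfsg.Agent.S2642
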