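import Cfsg.Statements.S2643
import Cfsg.Agent.H11.Rg
import Cfsg.Agent.H11.Shp3

set_option autoImplicit false
open Cfsg

namespace Cfsg.Agent.S2643

/-- Regular unipotent classes of SU_n(q), n ≥ 2: the elements u of the special unitary group (isometries of Σ u_i v_i^q of determinant one over the field with q² elements) with (u − 1)^n = 0 and rank(u − 1) = n − 1 form exactly gcd(n, q + 1) conjugacy classes of SU_n(q). -/
theorem result {K : Type*} [Field K] [Fintype K] {q n : ℕ} (hK : Fintype.card K = q ^ 2) (hn : 2 ≤ n) : Nat.card {C : ConjClasses ↥(Cfsg.SU n K q) // ∃ u : ↥(Cfsg.SU n K q), ConjClasses.mk u = C ∧ (((u : GL (Fin n) K) : Matrix (Fin n) (Fin n) K) - 1) ^ n = 0 ∧ (((u : GL (Fin n) K) : Matrix (Fin n) (Fin n) K) - 1).rank = n - 1} = Nat.gcd n (q + 1) := by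
  have h0 := zero_lt_two.trans_le hn
  obtain ⟨σ, hq, hσ, hne⟩ := H11.exists_frob hK
  have hS := H11.stdUnit_nondeg hσ hne (Fin n)
  obtain ⟨g, hg⟩ := hS.unit_reg hne (by simpa)
  simp only [H11.reg_mE_iff h0 (Fintype.card_fin n)]
  rw [← H11.card_normOne_unit hσ hne (Nat.card_eq_fintype_card.trans hK)]
  have : NeZero n := ⟨h0.ne'⟩
  refine (H11.card_classes_equiv (H11.suEquiv hσ hne hq n) (q := fun g => H11.Reg (H11.PForm.iE g.1))
    fun _ => Iff.rfl).trans <| H11.card_ker_split (φ := (H11.PForm.detHom _).codRestrict _ hS.det_mem_normOne) (fun a => ?_)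
    (MonoidHom.ker_codRestrict ..).symm ⟨g, Units.ext ((H11.PForm.det_iE g).symm.trans hg.unip.det)⟩
    (fun y => ⟨fun h => H11.PForm.isim_iff_isConj.1 (H11.PForm.unit_isim hne hS hS (hg.sim h rfl)),
      fun h => (H11.PForm.sim_of_isConj h).reg hg⟩) fun a => ⟨fun ⟨c, h1, h2⟩ => ?_, fun ⟨b, hb⟩ => ?_⟩
  · obtain ⟨v, hv⟩ := hS.unit_exists_h_ne hne
    obtain ⟨g, -, h, -⟩ := H11.PForm.exists_det_eq_of_ne hv a
    exact ⟨g, Subtype.ext h⟩
  · obtain ⟨l, r, h3, h4⟩ := hg.exists_eq (c := H11.PForm.iE c) (congrArg H11.PForm.iE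
      (Subgroup.mem_centralizer_singleton_iff.1 h1))
    have h5 := hS.reg_norm hg h3 h4
    have := hg.unip.det_eq h3 l
    rw [← h4, H11.PForm.det_iE, Module.finrank_fin_fun] at this
    exact ⟨⟨.mk0 l (right_ne_zero_of_mul_eq_one h5), h5⟩, Subtype.ext (Units.ext (by simp [← h2, this]))⟩
  · exact (hS.unit_exists_det hne hg.mem_JD b).imp fun _ h => ⟨h.1, Subtype.ext (by simp [h.2, ← hb])⟩

end Cfsg.Agent.S2643
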