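import Cfsg.Statements.S2644
import Cfsg.Agent.H11.Inv2

set_option autoImplicit false
open Cfsg

namespace Cfsg.Agent.S2644

/-- In the special unitary group SU_n(q) with n ≥ 3 (isometries of Σ u_i v_i^q of determinant one over the field with q² elements), any two transvections (elements t with t − 1 of rank one and square zero) are conjugate. -/
theorem result {K : Type*} [Field K] [Fintype K] {q n : ℕ} (hK : Fintype.card K = q ^ 2) (hn : 3 ≤ n) (s t : ↥(Cfsg.SU n K q)) (hs : Cfsg.IsTransvection (((s : GL (Fin n) K) : Matrix (Fin n) (Fin n) K))) (ht : Cfsg.IsTransvection (((t : GL (Fin n) K) : Matrix (Fin n) (Fin n) K))) : IsConj s t := by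
  obtain ⟨σ, hq, hσ, hne⟩ := H11.exists_frob hK
  have hS := H11.stdUnit_nondeg hσ hne (Fin n)
  let e := H11.suEquiv hσ hne hq n
  have h0 : ∀ a : SU n K q, IsTransvection ((a : GL (Fin n) K) : Matrix (Fin n) (Fin n) K) →
      H11.PForm.Quad (e a).1 ∧ Module.finrank K (H11.PForm.res (e a).1) = 1 := fun a ha => by
    refine ⟨H11.PForm.quad_iff.2 fun x => ?_,
      (H11.rank_eq_finrank_res (H11.suEquiv_apply hσ hne hq n a)).symm.trans ha.1⟩
    have := congrArg (fun M => M.mulVec x) ha.2
    simp only [← Matrix.mulVec_mulVec, Matrix.sub_mulVec, Matrix.one_mulVec, Matrix.zero_mulVec,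
      Matrix.mulVec_sub, Matrix.SpecialLinearGroup.coe_GL_coe_matrix] at this
    simp only [e, H11.suEquiv_apply, Matrix.mulVec_sub]
    exact sub_eq_zero.1 (neg_eq_zero.1 (Eq.trans (by abel) this))
  obtain ⟨k, hk, h⟩ := hS.unit_exists_conj_SIsom hne (h0 s hs).1
    ((hS.unit_isConj_iff_quad hne (h0 s hs).1 (h0 t ht).1).2 ((h0 s hs).2.trans (h0 t ht).2.symm))
    (Or.inl (by rw [(h0 s hs).2, Module.finrank_fin_fun]; omega))
  exact (H11.isConj_equiv_iff e).1 (isConj_iff.2 ⟨⟨k, hk⟩, Subtype.ext h⟩)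

end Cfsg.Agent.S2644
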