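import Cfsg.Statements.S2645
import Cfsg.Agent.H11.ThC

set_option autoImplicit false
open Cfsg

namespace Cfsg.Agent.S2645

/-- Number of conjugacy classes of elements of odd prime order r, r different from the characteristic, in the symplectic group Sp_2m(q): let i be the multiplicative order of q modulo r and t = (r − 1)/i. If i is odd the eigenvalue orbits pair off (Λ ≠ Λ⁻¹) and the classes correspond to the non-zero (t/2)-tuples (a_j) with 2i Σ a_j ≤ 2m, giving C(⌊m/i⌋ + t/2, t/2) − 1 classes; if i is even (Λ = Λ⁻¹) they correspond to the non-zero t-tuples with i Σ a_j ≤ 2m, giving C(⌊2m/i⌋ + t, t) − 1 classes. -/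
theorem result {F : Type*} [Field F] [Fintype F] {p q : ℕ} [Fact p.Prime] [CharP F p] (hF : Fintype.card F = q) (m r i t : ℕ) (hr : r.Prime) (hr2 : r ≠ 2) (hrp : r ≠ p) (hi : i = orderOf (q : ZMod r)) (ht : t * i = r - 1) : Nat.card {C : ConjClasses ↥(Matrix.symplecticGroup (Fin m) F) // ∃ g : Matrix.symplecticGroup (Fin m) F, ConjClasses.mk g = C ∧ orderOf g = r} = if Odd i then Nat.choose (m / i + t / 2) (t / 2) - 1 else Nat.choose (2 * m / i + t) t - 1 := by
  have h0 := H11.natCast_ne_zero_of_prime (F := F) p hr hrp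
  rw [← hF, ← Nat.card_eq_fintype_card] at hi
  have h1 := H11.orderOf_card_ne_zero hr h0
  have h2 : (H11.PhiF F r).card = t := Nat.eq_of_mul_eq_mul_right (Nat.pos_of_ne_zero h1)
    (by rw [(H11.PhiF_spec hr h0).2, ← hi, ht])
  rw [H11.card_classes_order_equiv (H11.spEquiv m F), (H11.stdSymp_nondeg m).card_classes_prime hr
    hr2 h0 (· * i ≤ 2 * m) fun s hs hd => by
      rw [(H11.stdSymp_nondeg m).real_iff_le (fun _ _ hT =>
        H11.PForm.symp_exists_compl (H11.stdSymp_nondeg m) hT) hr hr2 h0 s hs hd, hi]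
      simp [two_mul]]
  obtain ⟨T, -, h3, h4⟩ := H11.card_dual_ms (σ := RingHom.id F) (fun _ => rfl) hr h0
    fun P hP => H11.dualP_id_eq_self_iff hr hr2 h0 hP
  rw [← hi] at h1 h3 h4
  split_ifs with h
  · obtain ⟨h5, h6⟩ := h4 (Nat.not_even_iff_odd.2 h)
    rw [h6 fun k => 0 < k ∧ k * i ≤ 2 * m, ← h2, ← h5, ← H11.card_ms_pos_le]
    simp [Nat.le_div_iff_mul_le (Nat.pos_of_ne_zero h1), mul_assoc]
  · obtain ⟨h5, h6⟩ := h3 (Nat.not_odd_iff_even.1 h)
    rw [h6 fun k => 0 < k ∧ k * i ≤ 2 * m, ← h2, ← h5, ← H11.card_ms_pos_le]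
    simp [Nat.le_div_iff_mul_le (Nat.pos_of_ne_zero h1)]

end Cfsg.Agent.S2645
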