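import Cfsg.Statements.S2646
import Cfsg.Agent.H2.GuC

set_option autoImplicit false
open Cfsg

namespace Cfsg.Agent.S2646

/-- Order of the centraliser in the general unitary group GU_n(q) of a unipotent element of given Jordan type: if u ∈ GU_n(q) (isometries of Σ u_i v_i^q over the field with q² elements) is similar to the unipotent matrix with a_i Jordan blocks of size i (all sizes at least 1), then its centraliser in GU_n(q) has order q^γ · Π_i |GU_(a_i)(q)| with γ = 2 Σ_(i<j) i a_i a_j + Σ_i (i − 1) a_i², the same exponent as in GL_n(q), where |GU_a(q)| = q^(a(a−1)/2) Π_(k=1)^a (q^k − (−1)^k). -/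
theorem result {K : Type*} [Field K] [Fintype K] {q n t : ℕ} (hK : Fintype.card K = q ^ 2) (d : Fin t → ℕ) (hd : ∀ k, 1 ≤ d k) (e : ((k : Fin t) × Fin (d k)) ≃ Fin n) (u : ↥(Cfsg.GU n K q)) (hu : IsConj (Matrix.reindex e e (Cfsg.jordanTypeMatrix d K)) ((u : GL (Fin n) K) : Matrix (Fin n) (Fin n) K)) : (Nat.card ↥(Subgroup.centralizer ({u} : Set ↥(Cfsg.GU n K q))) : ℤ) = (q : ℤ) ^ (2 * (∑ i ∈ Finset.range (Finset.univ.sup d + 1), ∑ j ∈ Finset.range (Finset.univ.sup d + 1), if i < j then i * (Finset.univ.filter (fun k : Fin t => d k = i)).card * (Finset.univ.filter (fun k : Fin t => d k = j)).card else 0) + ∑ i ∈ Finset.range (Finset.univ.sup d + 1), (i - 1) * (Finset.univ.filter (fun k : Fin t => d k = i)).card ^ 2) * ∏ i ∈ Finset.range (Finset.univ.sup d + 1), ((q : ℤ) ^ ((Finset.univ.filter (fun k : Fin t => d k = i)).card * ((Finset.univ.filter (fun k : Fin t => d k = i)).card - 1) / 2) * ∏ j : Fin (Finset.univ.filter (fun k : Fin t => d k = i)).card, ((q : ℤ) ^ ((j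 : ℕ) + 1) - (-1) ^ ((j : ℕ) + 1))) := by
  obtain ⟨σ, hq, hσ, hne⟩ := H11.exists_frob hK
  obtain ⟨h1, h2⟩ := H11.JT_jordanTypeMatrix (F := K) hd
  have h0 := (H11.sim_reindex e _).trans (H11.isConj_mat_iff.1 hu)
  rw [← H11.iE_guEquiv hσ hne hq] at h0
  rw [h0.JT_eq] at h2
  have h3 := H2.Gu.card_cent hne (q := q) (by rw [Nat.card_eq_fintype_card, hK])
    (Finset.univ.sup d + 1) _ (H11.stdUnit_nondeg hσ hne _) (h0.unip h1) rfl fun k hk => by
    rw [h2] at hk
    obtain ⟨i, -, rfl⟩ := Multiset.mem_map.1 hk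
    exact Nat.lt_succ_of_le (Finset.le_sup (Finset.mem_univ i))
  have h4 : ∀ i, (Finset.univ.val.map d).count i = (Finset.univ.filter fun k => d k = i).card :=
    fun i => by rw [Multiset.count_map]; simp only [eq_comm (a := i)]; rfl
  rw [h2, H11.gam] at h3
  simp only [h4] at h3
  rw [H11.card_centralizer_equiv (H11.guEquiv hσ hne hq n), h3]
  rfl

end Cfsg.Agent.S2646
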