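import Cfsg.Statements.S2657
import Cfsg.Agent.H12.Sec

set_option autoImplicit false
open scoped MatrixGroups
open Cfsg

namespace Cfsg.Agent.S2657
open H12 H13 Cfsg.Lie

/-- Alternating sections of the groups of type F₄. Let `F` be a finite field of characteristic `p` and let `G` be the Chevalley group of type F₄ over `F`. If some subgroup of `G` has a quotient isomorphic to the alternating group of degree `r`, then `r` is at most 10, or 11 in characteristic 11. (Only an upper bound is asserted.) -/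
theorem result {F : Type*} [Field F] [Fintype F] (p : ℕ) [Fact p.Prime] [CharP F p]
    (r : ℕ) (H : Subgroup ↥(Cfsg.Lie.chevF4.group F)) (K : Subgroup ↥H) [K.Normal]
    (h : Nonempty (↥H ⧸ K ≃* ↥(alternatingGroup (Fin r)))) :
    r ≤ 10 + (if p = 11 then 1 else 0) := by
  by_contra! hr
  obtain ⟨e⟩ := h
  have hf := H.subtype_injective
  have k : ∀ {y g : H} {k n : ℕ}, orderOf y = n ∧ g * y * g⁻¹ = y ^ k → n.Coprime p → ∃ f ∈ [[-1, 0, 0, 0, 1], [-1, -1, 0, 1, 1], [-1, 1, 0, -1, 1],
      [1, 0, 0, 0, 1], [1, 0, -1, 0, 1]], (n : ℤ) ∣ revE k f := fun {y g k n} h hn => by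
    obtain ⟨w, hw⟩ := exists_W_of_conj p smithF4 (by decide) (y := y.1) (g := g.1) (k := k) (by rwa [Subgroup.orderOf_coe, h.1]) (congrArg Subtype.val h.2)
    obtain ⟨f, h1, h2⟩ := relF4 w
    exact ⟨f, h1, by simpa [h.1] using hw f h2⟩
  have f11 : Fact (Nat.Prime 11) := ⟨by norm_num⟩
  have f7 : Fact (Nat.Prime 7) := ⟨by norm_num⟩
  have f5 : Fact (Nat.Prime 5) := ⟨by norm_num⟩
  split_ifs at hr with hp
  · subst hp
    obtain ⟨π, ι, hι, h⟩ := alt_range e (show 12 ≤ r by omega)
    obtain ⟨a, a', b, s1, s2, s3, h1, h2, h3, h4, h5, h6, h7⟩ := perm12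
    obtain ⟨y, g, h8⟩ := sec_two π (r := 7) (s := 5) (comm_F4 hf (p := 11) (by decide) (by decide)) (comm_F4 hf (p := 11) (by decide) (by decide))
      (by decide) (h a s1) (h a' s2) (h b s3) ((orderOf_injective ι hι a).trans (orderOf_eq_prime h1 h2))
      ((orderOf_injective ι hι a').trans (orderOf_eq_prime h3 h4)) (Commute.map h5 ι) (k := 17) (by simpa using congrArg ι h6) (by simpa using congrArg ι h7)
    exact absurd (k h8 (by norm_num)) (by decide)
  · obtain ⟨π, ι, hι, h⟩ := alt_range e (show 11 ≤ r by omega)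
    obtain ⟨a, b, s1, s2, h1, h2, h3⟩ := perm11
    obtain ⟨y, g, h8⟩ := sec_one π (r := 11) (comm_F4 hf (p := p) (Ne.symm hp) (by decide)) (h a s1) (h b s2)
      ((orderOf_injective ι hι a).trans (orderOf_eq_prime h1 h2)) (k := 3) (by simpa using congrArg ι h3)
    exact absurd (k h8 ((Nat.coprime_primes f11.out Fact.out).2 (Ne.symm hp))) (by decide)

end Cfsg.Agent.S2657
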