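import Cfsg.Statements.S2658
import Cfsg.Agent.H12.Sec2
import Cfsg.Agent.H12.SpG2
import Cfsg.Agent.S1059

set_option autoImplicit false
open scoped MatrixGroups
open Cfsg

namespace Cfsg.Agent.S2658
open H12 H13 Cfsg.Lie

/-- Alternating sections of the groups of type G₂. Let `F` be a finite field of characteristic `p` and let `G` be the Chevalley group of type G₂ over `F`. If some subgroup of `G` has a quotient isomorphic to the alternating group of degree `r`, then `r` is at most 6, or 7 in characteristic 5. (Only an upper bound is asserted.) -/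
theorem result {F : Type*} [Field F] [Fintype F] (p : ℕ) [Fact p.Prime] [CharP F p]
    (r : ℕ) (H : Subgroup ↥(Cfsg.Lie.chevG2.group F)) (K : Subgroup ↥H) [K.Normal]
    (h : Nonempty (↥H ⧸ K ≃* ↥(alternatingGroup (Fin r)))) :
    r ≤ 6 + (if p = 5 then 1 else 0) := by
  by_contra! hr
  obtain ⟨e⟩ := h
  split_ifs at hr with hp
  · subst hp
    obtain ⟨π, ι, hι, h⟩ := alt_range e (show 8 ≤ r by omega)
    have hi := cov_gr.hi_of_ker (F := F) r3_gr (smithG2.ker_eq_bot (by decide) _)
    refine no_A8 hi (Pi.evalMonoidHom _ ⟨0, by decide⟩) (Pi.evalMonoidHom _ ⟨1, by decide⟩) (fun x _ h1 h2 => funext fun i : Fin 2 => ?_) ?_ H.subtype_injective π hι h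
    · fin_cases i; exacts [h1, h2]
    obtain ⟨n, -, hn⟩ := FiniteField.card F 5
    have c := r3_gr.hprod.range.card_mul_index.trans (Cfsg.Agent.S1059.result (F := F) rfl)
    rw [← Nat.card_congr (MonoidHom.ofInjective hi).toEquiv, Nat.card_fun, Nat.card_units, Nat.card_eq_fintype_card, Nat.card_eq_fintype_card] at c
    obtain ⟨t, ht⟩ := Nat.exists_eq_add_of_le' (Fintype.one_lt_card (α := F))
    have h8 : ((t + 2 : ℕ) : ZMod 8) = 1 ∨ ((t + 2 : ℕ) : ZMod 8) = 5 := by
      rw [← ht, hn, Nat.cast_pow]; induction (n : ℕ) with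
      | zero => simp
      | succ n ih => rw [pow_succ]; rcases ih with h | h <;> rw [h] <;> decide
    rw [ht, show (t + 2) ^ 2 - 1 = (t + 1) * (t + 2 + 1) from Nat.sub_eq_of_eq_add (by ring),
      show (t + 2) ^ 6 - 1 = (t + 1) * ((t + 2) ^ 2 + (t + 2) + 1) * ((t + 2) ^ 3 + 1) from Nat.sub_eq_of_eq_add (by ring)] at c
    rw [show Subgroup.index _ = (t + 2) ^ 6 * (t + 2 + 1) * ((t + 2) ^ 2 + (t + 2) + 1) * ((t + 2) ^ 3 + 1) from
      Nat.eq_of_mul_eq_mul_left (by positivity : 0 < (t + 1) ^ 2) (c.trans (by ring)), ← ZMod.natCast_eq_zero_iff]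
    generalize t + 2 = s at h8
    push_cast
    rcases h8 with h | h <;> rw [h] <;> decide
  · obtain ⟨π, ι, hι, h⟩ := alt_range e (show 7 ≤ r by omega)
    obtain ⟨a, b, s1, s2, h1, h2, h3⟩ := perm54
    obtain ⟨y, g, h4, h5⟩ := sec_one π (r := 5) (comm_of_mem (chevG2, [2, 6]) (by simp) H.subtype_injective (p := p) (Ne.symm hp) (by decide)) (h a s1) (h b s2)
      ((orderOf_injective ι hι a).trans (orderOf_eq_prime h1 h2)) (k := 2) (by simpa using congrArg ι h3)
    obtain ⟨w, hw⟩ := exists_W_of_conj p smithG2 (by decide) (y := y.1) (g := g.1) (k := 2) (by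
      rw [Subgroup.orderOf_coe, h4]; exact (Nat.coprime_primes Nat.prime_five Fact.out).2 (Ne.symm hp)) (congrArg Subtype.val h5)
    obtain ⟨f, h6, h7⟩ := (relG2 w).1
    have := hw f h7
    rw [Subgroup.orderOf_coe, h4] at this
    clear h7; revert f; decide

end Cfsg.Agent.S2658
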