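import Cfsg.Statements.S2660
import Cfsg.Agent.H12.Sec2
import Cfsg.Agent.S1067

set_option autoImplicit false
open scoped MatrixGroups
open Cfsg

namespace Cfsg.Agent.S2660
open H12 H13 Cfsg.Lie

/-- Alternating sections of the triality-twisted groups ³D₄. Let `q = p^a` be a prime power and `K` a field with `q³` elements, and let `G` be the twisted group ³D₄(q) realised over `K`. If some subgroup of `G` has a quotient isomorphic to the alternating group of degree `r`, then `r` is at most 6, or 7 in characteristic 5. (Only an upper bound is asserted.) -/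
theorem result {K : Type*} [Field K] [Fintype K] (p a : ℕ) [Fact p.Prime] [CharP K p]
    (ha : 1 ≤ a) (hK : Fintype.card K = (p ^ a) ^ 3) (r : ℕ) (H : Subgroup ↥(Cfsg.Lie.twistedD4 K (p ^ a))) (N : Subgroup ↥H) [N.Normal]
    (h : Nonempty (↥H ⧸ N ≃* ↥(alternatingGroup (Fin r)))) :
    r ≤ 6 + (if p = 5 then 1 else 0) := by
  by_contra! hr
  obtain ⟨e⟩ := h
  have hq : IsPrimePow (p ^ a) := (Fact.out : p.Prime).isPrimePow.pow (by omega)
  obtain ⟨φ, hφ⟩ := exists_frob hq three_ne_zero hK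
  split_ifs at hr with hp
  · subst hp
    obtain ⟨π, ι, hι, h⟩ := alt_range e (show 8 ≤ r by omega)
    let τ : (tw4 φ).T1 →* twistedD4 K (5 ^ a) := (r3_ad.hprod.comp (tw4 φ).T1.subtype).codRestrict _ fun x => ((H4_eq hφ hK).ge ⟨x, x.2, rfl⟩).2
    have hi : Function.Injective τ := (injective_iff_map_eq_one _).2 fun x hx =>
      Subtype.ext ((ker_T14 hφ).le ⟨cov_ad.hl_mem_ker.1 (congrArg Subtype.val hx), x.2⟩)
    refine no_A8 (F := K) hi ((Pi.evalMonoidHom (fun _ => Kˣ) (n4 0)).comp (Subgroup.subtype _)) ((Pi.evalMonoidHom (fun _ => Kˣ) (n4 1)).comp (Subgroup.subtype _))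
      (fun x _ h1 h2 => Subtype.ext (funext fun i : Fin 4 => ?_)) ?_ H.subtype_injective π hι h
    · obtain ⟨b1, -, b3, -⟩ := (mem_T14 hφ).1 x.2
      rw [show x.1 (n4 0) = 1 from h1, one_pow] at b1
      rw [b1, one_pow] at b3
      fin_cases i; exacts [h1, h2, b1, b3]
    have c := τ.range.card_mul_index.trans (Cfsg.Agent.S1067.result hq hK)
    rw [← Nat.card_congr (MonoidHom.ofInjective hi).toEquiv, card_T14 hφ hK] at c
    have h8 : ((5 ^ a : ℕ) : ZMod 8) = 1 ∨ ((5 ^ a : ℕ) : ZMod 8) = 5 := by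
      rw [Nat.cast_pow]; generalize a = b; induction b with
      | zero => simp
      | succ n ih => rw [pow_succ]; rcases ih with h | h <;> rw [h] <;> decide
    generalize τ.range.index = m at c
    obtain ⟨t, ht⟩ := Nat.exists_eq_add_of_le' hq.two_le
    rw [ht] at h8
    rw [ht, show (t + 2) ^ 2 - 1 = (t + 1) * (t + 2 + 1) from Nat.sub_eq_of_eq_add (by ring),
      show (t + 2) ^ 6 - 1 = (t + 1) * ((t + 2) ^ 2 + (t + 2) + 1) * ((t + 2) ^ 3 + 1) from Nat.sub_eq_of_eq_add (by ring)] at c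
    rw [show m = (t + 2) ^ 12 * (t + 2 + 1) * ((t + 2) ^ 3 + 1) * ((t + 2) ^ 8 + (t + 2) ^ 4 + 1) from
      Nat.eq_of_mul_eq_mul_left (by positivity : 0 < (t + 1) ^ 2 * ((t + 2) ^ 2 + (t + 2) + 1)) (c.trans (by ring)), ← ZMod.natCast_eq_zero_iff]
    generalize t + 2 = s at h8
    push_cast
    rcases h8 with h | h <;> rw [h] <;> decide
  · have f5 : Fact (Nat.Prime 5) := ⟨by norm_num⟩
    have hle : twistedD4 K (p ^ a) ≤ chevD4.group K := fun g hg => group_eq (D := chevD4) (F := K) ▸ ((adm4 hφ hK).le hg).1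
    obtain ⟨π, ι, hι, h⟩ := alt_range e (show 7 ≤ r by omega)
    obtain ⟨a, b, s1, s2, h1, h2, h3⟩ := perm54
    obtain ⟨y, g, h4, h5⟩ := sec_one π (r := 5) (comm_of_mem (chevD4, [2, 4, 4, 6]) (by simp) (f := (Subgroup.inclusion hle).comp H.subtype)
      ((Subgroup.inclusion_injective hle).comp H.subtype_injective) (p := p) (Ne.symm hp) (by decide)) (h a s1) (h b s2)
      ((orderOf_injective ι hι a).trans (orderOf_eq_prime h1 h2)) (k := 2) (by simpa using congrArg ι h3)
    exact no_54 hK hp ((Subgroup.orderOf_coe y).trans h4) (congrArg Subtype.val h5)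

end Cfsg.Agent.S2660
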