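import Cfsg.Statements.S2661
import Cfsg.Agent.H12.Sec
import Cfsg.Agent.H12.TwF4

set_option autoImplicit false
open scoped MatrixGroups
open Cfsg

namespace Cfsg.Agent.S2661
open H12 H13 Cfsg.Lie

/-- Alternating sections of the large Ree groups ²F₄. Let `m ≥ 1`, let `K` be a field with `2^(2m+1)` elements and let `G` be the large Ree group ²F₄(2^(2m+1)) realised over `K`. If some subgroup of `G` has a quotient isomorphic to the alternating group of degree `r`, then `r ≤ 6`. (Only an upper bound is asserted.) -/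
theorem result {K : Type*} [Field K] [Fintype K] {m : ℕ} (hm : 1 ≤ m)
    (hK : Fintype.card K = 2 ^ (2 * m + 1)) (r : ℕ) (H : Subgroup ↥(Cfsg.Lie.twistedF4 K (2 ^ m))) (N : Subgroup ↥H) [N.Normal]
    (h : Nonempty (↥H ⧸ N ≃* ↥(alternatingGroup (Fin r)))) :
    r ≤ 6 := by
  by_contra! hr
  obtain ⟨e⟩ := h
  obtain ⟨_, φ, hφ, h2⟩ := exists_frob2 hK
  have adm := admF h2 hφ
  have f7 : Fact (Nat.Prime 7) := ⟨by norm_num⟩
  have hle : twistedF4 K (2 ^ m) ≤ chevF4.group K := fun g hg => group_eq (D := chevF4) (F := K) ▸ (adm.le hg).1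
  obtain ⟨π, ι, hι, h⟩ := alt_range e (show 7 ≤ r by omega)
  obtain ⟨a, b, s1, s2, h1, h3, h4⟩ := perm7
  obtain ⟨y, g, h5, h6⟩ := sec_one π (r := 7) (comm_F4 (F := K) (f := (Subgroup.inclusion hle).comp H.subtype)
    ((Subgroup.inclusion_injective hle).comp H.subtype_injective) (p := 2) (r := 7) (by decide) (by decide)) (h a s1) (h b s2) ((orderOf_injective ι hι a).trans (orderOf_eq_prime h1 h3)) (k := 2)
    (by simpa using congrArg ι h4)
  obtain ⟨S, hS⟩ := H17.exists_isSyl 7 ((adS chevF4 K).H ⊓ twistedF4 K (2 ^ m))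
  have h7 : orderOf y.1.1 = 7 := by rw [Subgroup.orderOf_coe, Subgroup.orderOf_coe, h5]
  by_cases e : ¬ 7 ∣ ((adS chevF4 K).H ⊓ twistedF4 K (2 ^ m)).relIndex (twistedF4 K (2 ^ m))
  · obtain ⟨x, hx, h8⟩ := (hS.trans inf_le_right e).exists_le_cj (H17.isPGroup_zpowers_of_orderOf h7) (Subgroup.zpowers_le.2 y.1.2)
    obtain ⟨ψ⟩ := weylF
    have h9 : ∀ n, (x⁻¹ * y.1.1 * x) ^ n = x⁻¹ * y.1.1 ^ n * x := fun n => by simpa using conj_pow (a := x⁻¹) (b := y.1.1) (i := n)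
    have := Tw.dvd_of_conj cov_ad r3_ad (τ := (twF φ).toTw) (e := 8) (fun w hw => congrArg Subtype.val (ψ.injective (a₁ := ⟨w, hw⟩ ^ 8) (a₂ := 1) (by
      rw [map_pow, map_one]; generalize ψ _ = d; revert d; decide))) (g := x⁻¹ * g.1.1 * x) (y := x⁻¹ * y.1.1 * x)
      (adm.le (mul_mem (mul_mem (inv_mem hx) g.1.2) hx)) (hS.le (H17.mem_cj.1 (h8 (Subgroup.mem_zpowers _)))).1 (k := 2) (by
        rw [h9, ← show g.1.1 * y.1.1 * g.1.1⁻¹ = y.1.1 ^ 2 from congrArg (·.1.1) h6]; group)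
    rw [h9, mul_left_inj, mul_right_inj] at this
    exact absurd (h7 ▸ pow_eq_pow_iff_modEq.1 (this.trans (pow_one _).symm)) (by decide)
  have h9 := Subgroup.relIndex_mul_relIndex ⊥ _ _ bot_le (inf_le_right : (adS chevF4 K).H ⊓ twistedF4 K (2 ^ m) ≤ _)
  rw [Subgroup.relIndex_bot_left, Subgroup.relIndex_bot_left, card_HF h2 hφ, card_F h2 hφ] at h9
  obtain ⟨t, ht⟩ : ∃ t, Nat.card K = t + 2 := Nat.exists_eq_add_of_le' Finite.one_lt_card
  have h10 : ((t + 2 : ℕ) : ZMod 7) ^ 3 = 1 := by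
    rw [← ht, Nat.card_eq_fintype_card, hK, Nat.cast_pow, ← pow_mul, mul_comm, pow_mul]; exact one_pow _
  rw [ht, show (t + 2) ^ 4 - 1 = (t + 1) * (t + 2 + 1) * ((t + 2) ^ 2 + 1) from Nat.sub_eq_of_eq_add (by ring)] at h9
  rw [show Subgroup.relIndex _ _ = (t + 2) ^ 12 * (t + 2 + 1) * ((t + 2) ^ 2 + 1) * ((t + 2) ^ 3 + 1) * ((t + 2) ^ 6 + 1) from
    Nat.eq_of_mul_eq_mul_left (by positivity : 0 < (t + 1) ^ 2) (h9.trans (by simp; ring)), not_not, ← ZMod.natCast_eq_zero_iff] at e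
  generalize t + 2 = s at e h10
  push_cast at e
  exact zmod7 _ h10 e

end Cfsg.Agent.S2661
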