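import Cfsg.Statements.S2665


set_option autoImplicit false
open scoped MatrixGroups
open Cfsg

namespace Cfsg.Agent.S2665

open Polynomial in
theorem fix {K V : Type*} [Field K] [IsAlgClosed K] [AddCommGroup V] [Module K V] [Module.Finite K V] {p : ℕ}
    [Fact p.Prime] [CharP K p] {f : ℕ} (hf : 1 ≤ f) (φ : V →ₛₗ[iterateFrobenius K p f] V) (hφ : Function.Injective φ)
    {v : V} (hv : v ≠ 0) : ∃ w, w ≠ 0 ∧ φ w = w := by
  classical
  have ex : ∃ m, ∃ a : ℕ → K, (∃ i < m, a i ≠ 0) ∧ ∑ i ∈ Finset.range m, a i • φ^[i] v = 0 := by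
    obtain ⟨s, g, h, i, hi, h'⟩ := not_linearIndependent_iff.1
      (Module.Finite.not_linearIndependent_of_infinite (R := K) fun i : ℕ => φ^[i] v)
    refine ⟨s.sup id + 1, fun i => if i ∈ s then g i else 0, ⟨i, Nat.lt_succ_of_le (Finset.le_sup (f := id) hi), by
      simpa [hi] using h'⟩, ?_⟩
    rw [← h, ← Finset.sum_subset (s₁ := s) (fun i hi => Finset.mem_range.2 (Nat.lt_succ_of_le (Finset.le_sup (f := id) hi)))
      fun i _ hi => by simp [hi]]
    exact Finset.sum_congr rfl fun i hi => by simp [hi]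
  obtain ⟨a, ⟨j, hj, aj⟩, ha⟩ := Nat.find_spec ex
  obtain ⟨m, hm⟩ := Nat.exists_eq_succ_of_ne_zero (Nat.ne_zero_of_lt hj)
  have mn := Nat.find_min ex (hm ▸ m.lt_succ_self)
  rw [hm] at ha
  have ha' := ha
  rw [Finset.sum_range_succ] at ha
  have am : a m ≠ 0 := fun e => mn ⟨a, ⟨j, lt_of_le_of_ne (by omega) fun k => aj (k ▸ e), aj⟩, by simpa [e] using ha⟩
  let c : ℕ → K[X] := fun n => n.rec 0 fun i r => r ^ p ^ f + C (a i) * X
  have cs : ∀ i, c (i + 1) = c i ^ p ^ f + C (a i) * X := fun i => rfl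
  have p0 := (Fact.out : p.Prime).ne_zero
  have q0 : p ^ f ≠ 0 := pow_ne_zero _ p0
  have f0 : f ≠ 0 := by omega
  have c1 : ∀ i, (derivative (c (i + 1))).eval 0 = a i := fun i => by
    simp [cs, derivative_pow, show f ≠ 0 by omega]
  have cz : ∀ i, c i = 0 → ∀ j < i, a j = 0 := fun i => by
    induction i with
    | zero => simp
    | succ i ih =>
      intro h j hj
      have : a i = 0 := by rw [← c1, h]; simp
      rcases (Nat.lt_succ_iff.1 hj).eq_or_lt with rfl | hj
      exacts [this, ih (by simpa [cs, this, p0] using h) j hj]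
  have c0 : ∀ i, X ∣ c i := fun i => by
    induction i with
    | zero => exact dvd_zero _
    | succ i ih => exact cs _ ▸ dvd_add (dvd_pow ih q0) (dvd_mul_left _ _)
  obtain ⟨r, hr⟩ := c0 (m + 1)
  have r0 : r.eval 0 = a m := by rw [← c1, hr]; simp
  obtain ⟨t, ht⟩ := IsAlgClosed.exists_root r fun e => hv (by
    rw [eq_C_of_degree_eq_zero e, eval_C] at r0
    rw [eq_C_of_degree_eq_zero e, r0, cs, mul_comm, add_eq_right, pow_eq_zero_iff q0] at hr
    rw [Finset.sum_eq_zero fun i hi => by simp [cz m hr i (Finset.mem_range.1 hi)], zero_add, smul_eq_zero] at ha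
    exact (hφ.iterate m) ((ha.resolve_left am).trans (Function.iterate_fixed (map_zero φ) m).symm))
  have t0 : t ≠ 0 := fun e => am (r0.symm.trans (e ▸ ht.eq_zero))
  have ct : (c (m + 1)).eval t = 0 := by simp [hr, ht.eq_zero]
  refine ⟨∑ i ∈ Finset.range m, (c (i + 1)).eval t • φ^[i] v, fun e => mn ⟨_, ?_, e⟩, ?_⟩
  · by_contra! k
    cases m with
    | zero => simp [c, p0, t0, am] at ct
    | succ m => rw [cs (m + 1)] at ct; simp [k m m.lt_succ_self, p0, t0, am] at ct
  have : ∑ i ∈ Finset.range (m + 1), (c (i + 1)).eval t • φ^[i] v =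
      ∑ i ∈ Finset.range (m + 1), (c i).eval t ^ p ^ f • φ^[i] v := by
    simp only [cs, eval_add, add_smul, Finset.sum_add_distrib, eval_pow, eval_mul, eval_C, eval_X, mul_comm _ t,
      mul_smul, ← Finset.smul_sum, ha', smul_zero, add_zero]
  rw [Finset.sum_range_succ, ct, zero_smul, add_zero, Finset.sum_range_succ'] at this
  rw [map_sum, this]
  simp [c, p0, map_smulₛₗ, iterateFrobenius_def, Function.iterate_succ_apply', -Function.iterate_succ]

/-- The Lang–Steinberg Theorem for the general linear group. Let `K` be an algebraically closed field of prime characteristic `p`, let `q = p^f` with `f ≥ 1`, and let `σ` be the endomorphism of GL_n(K) raising every matrix entry to the `q`-th power. Then every element `g` of GL_n(K) can be written `g = x · σ(x)⁻¹` for some `x` in GL_n(K): the map `x ↦ x σ(x)⁻¹` is surjective. -/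
theorem result {K : Type*} [Field K] [IsAlgClosed K] (p : ℕ) [Fact p.Prime] [CharP K p]
    (f : ℕ) (hf : 1 ≤ f) (n : ℕ) (g : GL (Fin n) K) :
    ∃ x : GL (Fin n) K, g = x * (Matrix.GeneralLinearGroup.map (iterateFrobenius K p f) x)⁻¹ := by
  classical
  let φ : (Fin n → K) →ₛₗ[iterateFrobenius K p f] (Fin n → K) :=
    { toFun := fun v => g.1.mulVec (iterateFrobenius K p f ∘ v)
      map_add' := fun a b => by rw [← Matrix.mulVec_add]; congr 1; ext; simp
      map_smul' := fun c a => by rw [← Matrix.mulVec_smul]; congr 1; ext; simp }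
  have inj : Function.Injective φ := fun a b h => funext fun i => (iterateFrobenius K p f).injective
    (congrFun (Matrix.mulVec_injective_iff_isUnit.2 g.isUnit h) i)
  have q1 : 1 < p ^ f := Nat.one_lt_pow (by omega) (Fact.out : p.Prime).one_lt
  let W := Submodule.span K {v | φ v = v}
  have k : ∀ ε : K, ∀ u ∈ W, ∀ c : K, ∃ w ∈ W, φ w - ε • w = c • u := fun ε u hu => by
    induction hu using Submodule.span_induction with
    | mem x hx =>
      intro c
      obtain ⟨s, hs⟩ := IsAlgClosed.exists_root (Polynomial.X ^ p ^ f - (Polynomial.C ε * Polynomial.X + Polynomial.C c))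
        (by rw [Polynomial.degree_sub_eq_left_of_degree_lt] <;> rw [Polynomial.degree_X_pow]
            · exact_mod_cast (by omega : p ^ f ≠ 0)
            · exact Polynomial.degree_linear_le.trans_lt (by exact_mod_cast q1))
      refine ⟨s • x, W.smul_mem s (Submodule.subset_span hx), ?_⟩
      rw [map_smulₛₗ, hx.out, smul_smul, ← sub_smul, iterateFrobenius_def]
      simp only [Polynomial.IsRoot.def, Polynomial.eval_sub, Polynomial.eval_add, Polynomial.eval_pow, Polynomial.eval_X,
        Polynomial.eval_mul, Polynomial.eval_C] at hs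
      rw [show s ^ p ^ f - ε * s = c by linear_combination hs]
    | zero => exact fun c => ⟨0, zero_mem _, by simp⟩
    | add x y _ _ hx hy =>
      intro c
      obtain ⟨a, h1, h2⟩ := hx c
      obtain ⟨b, h3, h4⟩ := hy c
      exact ⟨a + b, add_mem h1 h3, by rw [map_add, smul_add, smul_add, ← h2, ← h4]; abel⟩
    | smul a x _ hx => exact fun c => by simpa [smul_smul] using hx (c * a)
  have hW : W ≤ W.comap φ := Submodule.span_le.2 fun v hv => Submodule.subset_span (s := {v | φ v = v})
    (show φ (φ v) = φ v by rw [hv.out, hv.out])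
  have top : W = ⊤ := by
    by_contra! n
    obtain ⟨v, -, hv⟩ := SetLike.not_le_iff_exists.1 (mt top_le_iff.1 n)
    obtain ⟨w, w0, hw⟩ := fix hf (W.mapQ W φ hW) ((injective_iff_map_eq_zero _).2 fun a h => by
      obtain ⟨a, rfl⟩ := W.mkQ_surjective a
      obtain ⟨b, h1, h2⟩ := k 0 _ ((Submodule.Quotient.mk_eq_zero W).1 h) 1
      exact (Submodule.Quotient.mk_eq_zero W).2 (inj (by simpa using h2 : φ b = φ a) ▸ h1))
      (mt (Submodule.Quotient.mk_eq_zero W).1 hv)
    obtain ⟨w, rfl⟩ := W.mkQ_surjective w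
    obtain ⟨b, h1, h2⟩ := k 1 _ ((Submodule.Quotient.eq W).1 hw) 1
    refine w0 ((Submodule.Quotient.mk_eq_zero W).2 ?_)
    have : w - b ∈ W := Submodule.subset_span (show φ (w - b) = w - b by
      rw [map_sub, sub_eq_sub_iff_sub_eq_sub, ← one_smul K w, ← one_smul K b]; simpa using h2.symm)
    simpa using add_mem this h1
  obtain ⟨s, h1, h2, h3⟩ := exists_linearIndependent K {v | φ v = v}
  let b := Module.Basis.mk h3 (by rw [Subtype.range_coe_subtype, Set.setOf_mem_eq, h2]; exact top.ge)
  let b' := b.reindex (b.indexEquiv (Pi.basisFun K (Fin n)))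
  haveI := (Pi.basisFun K (Fin n)).invertibleToMatrix b'
  have hb : ∀ j, φ (b' j) = b' j := fun j => by
    rw [Module.Basis.reindex_apply, Module.Basis.mk_apply]
    exact h1 (Subtype.prop _)
  clear_value b'
  let x : GL (Fin n) K := unitOfInvertible ((Pi.basisFun K (Fin n)).toMatrix b')
  have hx : ∀ i j, x.1 i j = b' j i := fun i j => by simp [x, Module.Basis.toMatrix_apply]
  refine ⟨x, eq_mul_inv_of_mul_eq (Matrix.GeneralLinearGroup.ext fun i j => ?_)⟩
  rw [hx, ← hb, Matrix.GeneralLinearGroup.coe_mul, Matrix.mul_apply]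
  exact Finset.sum_congr rfl fun l _ => by simp [hx]

end Cfsg.Agent.S2665
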