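import Cfsg.Statements.S2668
import Cfsg.Agent.H11.Shin

set_option autoImplicit false
open Cfsg

namespace Cfsg.Agent.S2668

/-- Shintani descent and powers (abstract form). Let `σ` be an automorphism of a group `X`, `e ≥ 1` and `d ≥ 1`, let `g` be fixed by `σᵉ` and let `a` satisfy `g = a σ(a)⁻¹`, so that the Shintani map of `(X, σ, e)` sends the class of `g σ` to the class of `x = σᵉ(a)⁻¹ a`. Put `h = g σ(g) ⋯ σ^(d-1)(g)`, the part in `X` of the `d`-th power `(g σ)^d = h σ^d`. Then `h = a σ^d(a)⁻¹` (so `a` also serves for `h` with respect to `σ^d`), `h` is fixed by `(σ^d)ᵉ`, and `(σ^d)ᵉ(a)⁻¹ a = x^d`: the Shintani map of `(X, σ^d, e)` sends the class of `(g σ)^d` to the class of `x^d`. (When `d` divides `e`, the Shintani map of `(X, σ^d, e/d)` sends it to the class of `x` itself, since `(σ^d)^(e/d) = σᵉ`.) -/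
theorem result {X : Type*} [Group X] (σ : MulAut X) (e d : ℕ) (he : 1 ≤ e) (hd : 1 ≤ d)
    (g : X) (hg : g ∈ (MulEquiv.toMonoidHom (σ ^ e)).eqLocus (MonoidHom.id X)) (a : X) (ha : g = a * (σ a)⁻¹) :
    ((List.range d).map (fun i => (σ ^ i) g)).prod = a * ((σ ^ d) a)⁻¹ ∧
      ((List.range d).map (fun i => (σ ^ i) g)).prod ∈ (MulEquiv.toMonoidHom ((σ ^ d) ^ e)).eqLocus (MonoidHom.id X) ∧
      (((σ ^ d) ^ e) a)⁻¹ * a = (((σ ^ e) a)⁻¹ * a) ^ d := by
  subst ha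
  have h1 := H11.shin_iff (e := e) a |>.1 hg
  have h2 : ∀ d, ((σ ^ e) ^ d) a = a * ((((σ ^ e) a)⁻¹ * a) ^ d)⁻¹ := fun d => by
    induction d with
    | zero => simp
    | succ d ih =>
      rw [pow_succ', MulAut.mul_apply, ih, map_mul, map_inv, map_pow, H11.shin_fix h1, pow_succ, mul_inv_rev]
      simp [mul_assoc]
  have h3 : ((σ ^ d) ^ e) a = a * ((((σ ^ e) a)⁻¹ * a) ^ d)⁻¹ := by
    rw [← h2, ← pow_mul, ← pow_mul, mul_comm]
  refine ⟨H11.shin_prod a d, ?_, by rw [h3]; group⟩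
  rw [H11.shin_prod]
  change ((σ ^ d) ^ e) _ = a * _
  rw [H11.shin_iff, h3, show (a * ((((σ ^ e) a)⁻¹ * a) ^ d)⁻¹)⁻¹ * a = (((σ ^ e) a)⁻¹ * a) ^ d by group,
    map_pow, H11.shin_fix h1]

end Cfsg.Agent.S2668
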