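import Cfsg.Statements.S2669
import Cfsg.Agent.H11.Shin

set_option autoImplicit false
open Cfsg

namespace Cfsg.Agent.S2669

/-- Shintani descent preserves numbers of fixed points on coset spaces (abstract form). Let `σ` be an automorphism of a group `X` and `e ≥ 1`; write `G` for the fixed points of `σᵉ` and `H` for the fixed points of `σ`, and assume `G` is finite. Let `Y` be a `σ`-stable subgroup of `X` on which the maps `a ↦ a σ(a)⁻¹` and `a ↦ a σᵉ(a)⁻¹` are surjective (as for a closed connected `σ`-stable subgroup of an algebraic group). Let `g ∈ G`, let `a ∈ X` satisfy `g = a σ(a)⁻¹` and put `x = σᵉ(a)⁻¹ a` (the Shintani image, an element of `H`). The element `g σ` of the semidirect product acts on the cosets of `Y ∩ G` in `G` by `k (Y ∩ G) ↦ g σ(k) (Y ∩ G)`, fixing that coset exactly when `k⁻¹ g σ(k) ∈ Y`; and `x` fixes the coset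 `h (Y ∩ H)` of `H` exactly when `h⁻¹ x h ∈ Y`. Then the two numbers of fixed cosets agree; in cross-multiplied form, `#{k ∈ G : k⁻¹ g σ(k) ∈ Y} · |Y ∩ H| = #{h ∈ H : h⁻¹ x h ∈ Y} · |Y ∩ G|`. -/
theorem result {X : Type*} [Group X] (σ : MulAut X) (e : ℕ) (he : 1 ≤ e)
    [Finite ↥((MulEquiv.toMonoidHom (σ ^ e)).eqLocus (MonoidHom.id X))]
    (Y : Subgroup X) (hY : ∀ y : X, y ∈ Y ↔ σ y ∈ Y)
    (hYL : ∀ y ∈ Y, ∃ a ∈ Y, y = a * (σ a)⁻¹) (hYLe : ∀ y ∈ Y, ∃ a ∈ Y, y = a * ((σ ^ e) a)⁻¹)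
    (g : X) (hg : g ∈ (MulEquiv.toMonoidHom (σ ^ e)).eqLocus (MonoidHom.id X)) (a : X) (ha : g = a * (σ a)⁻¹) :
    Nat.card {k : ↥((MulEquiv.toMonoidHom (σ ^ e)).eqLocus (MonoidHom.id X)) // (k : X)⁻¹ * g * σ k ∈ Y} *
        Nat.card ↥(Y ⊓ (MulEquiv.toMonoidHom σ).eqLocus (MonoidHom.id X)) =
      Nat.card {h : ↥((MulEquiv.toMonoidHom σ).eqLocus (MonoidHom.id X)) // (h : X)⁻¹ * (((σ ^ e) a)⁻¹ * a) * h ∈ Y} *
        Nat.card ↥(Y ⊓ (MulEquiv.toMonoidHom (σ ^ e)).eqLocus (MonoidHom.id X)) := by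
  subst ha
  let Ω := {p : X × X // (σ ^ e) p.1 = p.1 ∧ p.2 ∈ Y ∧ σ (a⁻¹ * p.1 * p.2) = a⁻¹ * p.1 * p.2}
  have hYe : ∀ y ∈ Y, ∀ e, (σ ^ e) y ∈ Y := fun y hy e => by
    induction e with
    | zero => exact hy
    | succ e ih => rw [pow_succ', MulAut.mul_apply]; exact (hY _).1 ih
  have k1 : ∀ k y : X, σ (a⁻¹ * k * y) = a⁻¹ * k * y ↔ y * (σ y)⁻¹ = k⁻¹ * (a * (σ a)⁻¹) * σ k := fun k y => by
    rw [← H11.shin_twist, eq_mul_inv_iff_mul_eq, eq_comm, ← eq_inv_mul_iff_mul_eq, mul_assoc k⁻¹]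
  have k2 : ∀ h y : X, σ h = h → ((σ ^ e) (a * h * y⁻¹) = a * h * y⁻¹ ↔
      y⁻¹ * ((σ ^ e) y⁻¹)⁻¹ = (h⁻¹ * (((σ ^ e) a)⁻¹ * a) * h)⁻¹) := fun h y hh => by
    rw [H11.shin_conj hh, ← inv_inj (a := y⁻¹ * _), inv_inv, mul_assoc h⁻¹, eq_inv_mul_iff_mul_eq,
      eq_mul_inv_iff_mul_eq, eq_comm]
    simp
  rw [← H11.card_fib (Ω := Ω) (fun p => ⟨⟨p.1.1, p.2.1⟩, by
      rw [← (k1 _ _).1 p.2.2.2]; exact Y.mul_mem p.2.2.1 (Y.inv_mem ((hY _).1 p.2.2.1))⟩) fun k => ?_,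
    ← H11.card_fib (Ω := Ω) (fun p => ⟨⟨_, p.2.2.2⟩, by
      rw [← Y.inv_mem_iff, ← (k2 _ p.1.2 p.2.2.2).1 (by simpa [mul_assoc] using p.2.1)]
      exact Y.mul_mem (Y.inv_mem p.2.2.1) (Y.inv_mem (hYe _ (Y.inv_mem p.2.2.1) _))⟩) fun h => ?_]
  · obtain ⟨c, hc, hc'⟩ := hYLe _ (Y.inv_mem h.2)
    obtain ⟨φ⟩ := H11.card_lang (σ ^ e) Y hc hc'
    refine ⟨Equiv.trans ?_ φ⟩
    refine ⟨fun p => ⟨p.1.1.2⁻¹, Y.inv_mem p.1.2.2.1, ?_⟩, fun y => ⟨⟨(a * h.1 * y, y.1⁻¹),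
      ?_, Y.inv_mem y.2.1, ?_⟩, ?_⟩, fun p => ?_, fun y => by simp⟩
    · obtain ⟨p, rfl⟩ := p
      exact (k2 _ _ p.2.2.2).1 (by simpa [mul_assoc] using p.2.1)
    · simpa using (k2 h.1 y.1⁻¹ h.1.2).2 (by simpa using y.2.2)
    · have : σ h.1 = h.1 := h.1.2
      simpa [mul_assoc] using this
    · ext; simp [mul_assoc]
    · ext
      · simp [← p.2, mul_assoc]
      · simp
  · obtain ⟨c, hc, hc'⟩ := hYL _ k.2
    obtain ⟨φ⟩ := H11.card_lang σ Y hc hc'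
    refine ⟨Equiv.trans ?_ φ⟩
    refine ⟨fun p => ⟨p.1.1.2, p.1.2.2.1, ?_⟩, fun y => ⟨⟨(k.1, y.1),
      k.1.2, y.2.1, (k1 _ _).2 y.2.2⟩, rfl⟩, fun p => ?_, fun y => rfl⟩
    · obtain ⟨p, rfl⟩ := p
      exact (k1 _ _).1 p.2.2.2
    · ext
      · simp [← p.2]
      · simp

end Cfsg.Agent.S2669
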