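import Cfsg.Statements.S2671
import Cfsg.Agent.H11.ThC

set_option autoImplicit false
open Cfsg

namespace Cfsg.Agent.S2671

/-- Number of conjugacy classes of elements of odd prime order r in the general unitary group GU_n(q), for r not dividing q(q + 1): let i be the multiplicative order of q modulo r, b = i if i is odd and b = i/2 if i is even, and s = (r − 1)/b. If i ≢ 2 (mod 4) the eigenvalue orbits pair off into dual pairs of totally isotropic blocks and there are C(⌊n/(2b)⌋ + s/2, s/2) − 1 classes; if i ≡ 2 (mod 4) each orbit gives a non-degenerate block of dimension i/2 and there are C(⌊2n/i⌋ + s, s) − 1 classes. -/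
theorem result {K : Type*} [Field K] [Fintype K] {p q n r i b s : ℕ} [Fact p.Prime] [CharP K p] (hK : Fintype.card K = q ^ 2) (hr : r.Prime) (hr2 : r ≠ 2) (hrp : r ≠ p) (hi : i = orderOf (q : ZMod r)) (hi2 : i ≠ 2) (hb : b = if Odd i then i else i / 2) (hs : s * b = r - 1) : Nat.card {C : ConjClasses ↥(Cfsg.GU n K q) // ∃ g : ↥(Cfsg.GU n K q), ConjClasses.mk g = C ∧ orderOf g = r} = if i % 4 = 2 then Nat.choose (2 * n / i + s) s - 1 else Nat.choose (n / (2 * b) + s / 2) (s / 2) - 1 := by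
  obtain ⟨σ, hq, hσ, hne⟩ := H11.exists_frob hK
  have h0 := H11.natCast_ne_zero_of_prime (F := K) p hr hrp
  obtain ⟨e, he⟩ : ∃ e, q = p ^ e := by
    obtain ⟨k, hp, hk⟩ := FiniteField.card K p
    exact ((Nat.dvd_prime_pow hp).1 (hk ▸ hK ▸ dvd_pow_self q two_ne_zero)).imp fun _ h => h.2
  have hc : (Nat.card K : ZMod r) = (q : ZMod r) ^ 2 := by simp [hK]
  have h1 := H11.orderOf_card_ne_zero hr h0
  have h7 : orderOf (Nat.card K : ZMod r) = b := by
    rw [hc, orderOf_pow' _ two_ne_zero, ← hi, hb]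
    split_ifs with h
    · rw [h.coprime_two_right, Nat.div_one]
    · rw [Nat.gcd_eq_right (Nat.not_odd_iff_even.1 h).two_dvd]
  have h2 : (H11.PhiF K r).card = s := Nat.eq_of_mul_eq_mul_right (Nat.pos_of_ne_zero h1)
    (by rw [(H11.PhiF_spec hr h0).2, h7, hs])
  rw [H11.card_classes_order_equiv (H11.guEquiv hσ hne hq n),
    (H11.stdUnit_nondeg hσ hne _).card_classes_prime hr hr2 h0 (· * b ≤ n) fun s hs hd => by
      rw [(H11.stdUnit_nondeg hσ hne _).real_iff_le (fun _ _ hT =>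
        H11.PForm.unit_exists_compl hne (H11.stdUnit_nondeg hσ hne _) hT) hr hr2 h0 s hs hd, h7]
      simp]
  rw [h7] at h1
  obtain ⟨T, -, h3, h4⟩ := H11.card_dual_ms hσ hr h0 (b := i % 4 = 2) fun P hP => by
    rw [H11.dualP_eq_self_iff hσ p (e := e) (he ▸ hq) hr h0 hP, hc, ← he, hi,
      H11.exists_pow_eq_neg_iff hr hr2 fun h => h1 (by simp [hb, hi, h])]
  split_ifs with h
  · obtain ⟨h5, h6⟩ := h3 h
    rw [h6 fun k => 0 < k ∧ k * b ≤ n, ← h2, ← h5, ← H11.card_ms_pos_le,
      show i = 2 * b by rw [hb, if_neg (by grind)]; omega, Nat.mul_div_mul_left _ _ two_pos]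
    simp [Nat.le_div_iff_mul_le (Nat.pos_of_ne_zero h1)]
  · obtain ⟨h5, h6⟩ := h4 h
    rw [h6 fun k => 0 < k ∧ k * b ≤ n, ← h2, ← h5, ← H11.card_ms_pos_le]
    simp [Nat.le_div_iff_mul_le (show 0 < 2 * b by omega), mul_assoc, mul_left_comm]

end Cfsg.Agent.S2671
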