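import Cfsg.Statements.S2672
import Cfsg.Agent.H2.Pgl
import Cfsg.Agent.S2587
import Cfsg.Agent.H11.Scal

set_option autoImplicit false
open Cfsg

namespace Cfsg.Agent.S2672

/-- Number of conjugacy classes of elements of odd prime order r in PGU_n(q) = GU_n(q)/scalars (n ≥ 3) when r divides q + 1: as in the linear case with q − 1 replaced by q + 1, the classes correspond to the rotation orbits on r-tuples of eigenvalue multiplicities summing to n with every entry < n, plus r − 1 further classes when r divides n; in all (C(n+r−1, r−1) − r − [r ∣ n])/r + r·[r ∣ n]. -/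
theorem result {K : Type*} [Field K] [Fintype K] {q n r : ℕ} (hK : Fintype.card K = q ^ 2) (hn : 3 ≤ n) (hr : r.Prime) (hr2 : r ≠ 2) (hrq : r ∣ q + 1) : Nat.card {C : ConjClasses (↥(Cfsg.GU n K q) ⧸ Subgroup.center ↥(Cfsg.GU n K q)) // ∃ g : ↥(Cfsg.GU n K q) ⧸ Subgroup.center ↥(Cfsg.GU n K q), ConjClasses.mk g = C ∧ orderOf g = r} = (Nat.choose (n + r - 1) (r - 1) - r - (if r ∣ n then 1 else 0)) / r + r * (if r ∣ n then 1 else 0) := by
  obtain ⟨σ, hq, hσ, hne⟩ := H11.exists_frob hK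
  have hK' : Nat.card K = q ^ 2 := by rw [Nat.card_eq_fintype_card, hK]
  have hq2 := H11.two_le_of_card_sq hK'
  have hm : ∀ c : Kˣ, c ∈ H11.normOne σ ↔ c ^ (q + 1) = 1 := fun c => by
    rw [H11.mem_normOne, hq, ← pow_succ, Units.ext_iff]; simp
  have h : H2.Pg.PS (Cfsg.GU n K q).subtype (H11.normOne σ) := by
    refine ⟨Subtype.val_injective, fun g g' h => (Cfsg.Agent.S2587.result hK g g').2 h, ?_, ?_⟩
    · intro g c hc
      have h1 := g.2 (Pi.single ⟨0, by omega⟩ 1) (Pi.single ⟨0, by omega⟩ 1)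
      change Cfsg.hermForm n K q (Matrix.mulVec (g.1.1) _) (Matrix.mulVec (g.1.1) _) = _ at h1
      change g.1.1 = _ at hc
      rw [hc] at h1
      simp only [Cfsg.hermForm, ← hq, Matrix.smul_mulVec, Matrix.one_mulVec, Pi.smul_apply,
        smul_eq_mul, map_mul] at h1
      rw [Finset.sum_eq_single ⟨0, by omega⟩ (fun b _ hb => by simp [hb]) (by simp),
        Finset.sum_eq_single ⟨0, by omega⟩ (fun b _ hb => by simp [hb]) (by simp)] at h1
      rw [H11.mem_normOne, mul_comm]
      simpa using h1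
    · intro τ d hd
      refine ⟨⟨H2.Pg.monU τ d, fun u v => ?_⟩, rfl⟩
      change Cfsg.hermForm n K q (Matrix.mulVec (H2.Pg.mon τ fun i => (d i : K)) _)
        (Matrix.mulVec (H2.Pg.mon τ fun i => (d i : K)) _) = _
      simp only [Cfsg.hermForm, ← hq]
      rw [← Equiv.sum_comp τ]
      refine Finset.sum_congr rfl fun i _ => ?_
      rw [H2.Pg.mon_mulVec, H2.Pg.mon_mulVec, map_mul]
      linear_combination (u i * σ (v i)) * H11.mem_normOne.1 (hd i)
  refine h.card_cls (by omega) hr (by rwa [H11.card_normOne_unit hσ hne hK']) fun c hc => ?_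
  rw [hm] at hc ⊢
  have h1 : (c ^ (q + 1)) ^ (q - 1) = 1 := by
    rw [← pow_mul, show (q + 1) * (q - 1) = Nat.card Kˣ by
      rw [Nat.card_units, hK', ← Nat.sq_sub_sq], pow_card_eq_one']
  have h2 : (c ^ (q + 1)) ^ r = 1 := by rw [← pow_mul, mul_comm, pow_mul, hc]
  have h3 : r.Coprime (q - 1) := (Nat.Prime.coprime_iff_not_dvd hr).2 fun h4 => hr2
    ((Nat.prime_dvd_prime_iff_eq hr Nat.prime_two).1 (by
      have := Nat.dvd_sub hrq h4
      rwa [show q + 1 - (q - 1) = 2 by omega] at this))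
  exact (pow_eq_one_iff_of_coprime h3).1 ⟨h2, h1⟩

end Cfsg.Agent.S2672
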