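import Cfsg.Statements.S2673
import Cfsg.Agent.H11.ThC

set_option autoImplicit false
open Cfsg

namespace Cfsg.Agent.S2673

/-- Number of conjugacy classes of elements of odd prime order r ≠ p in the orthogonal group O_(2m+1)(q) of x_0² + Σ x_j y_j, q odd: with i the multiplicative order of q mod r and t = (r − 1)/i, there are C(⌊m/i⌋ + t/2, t/2) − 1 classes if i is odd (dual pairs of totally singular i-blocks) and C(⌊(2m+1)/i⌋ + t, t) − 1 if i is even (elliptic i-blocks). -/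
theorem result {F : Type*} [Field F] [Fintype F] {p q : ℕ} [Fact p.Prime] [CharP F p] (hF : Fintype.card F = q) (hq : Odd q) (m r i t : ℕ) (hr : r.Prime) (hr2 : r ≠ 2) (hrp : r ≠ p) (hi : i = orderOf (q : ZMod r)) (ht : t * i = r - 1) : Nat.card {C : ConjClasses ↥(Cfsg.isometryGroup F (Cfsg.quadFormOdd m F)) // ∃ g : ↥(Cfsg.isometryGroup F (Cfsg.quadFormOdd m F)), ConjClasses.mk g = C ∧ orderOf g = r} = if Odd i then Nat.choose (m / i + t / 2) (t / 2) - 1 else Nat.choose ((2 * m + 1) / i + t) t - 1 := by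
  have h0 := H11.natCast_ne_zero_of_prime (F := F) p hr hrp
  rw [← hF, ← Nat.card_eq_fintype_card] at hi hq
  have h1 := H11.orderOf_card_ne_zero hr h0
  have h2 : (H11.PhiF F r).card = t := Nat.eq_of_mul_eq_mul_right (Nat.pos_of_ne_zero h1)
    (by rw [(H11.PhiF_spec hr h0).2, ← hi, ht])
  have hS := H11.sOdd_nondeg (F := F) m (mt (H11.two_eq_zero_iff_pow le_rfl).1 (by grind))
  refine (H11.card_classes_order_equiv (H11.orthEquiv (H11.qOdd m F)) r).trans ?_
  rw [hS.card_classes_prime hr hr2 h0 (· * i ≤ 2 * m) fun s hs hd => by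
      rw [hS.orth_real_iff hr hr2 h0 s hs hd, hi, H11.finrank_odd_fun]
      grind]
  obtain ⟨T, -, h3, h4⟩ := H11.card_dual_ms (σ := RingHom.id F) (fun _ => rfl) hr h0
    fun P hP => H11.dualP_id_eq_self_iff hr hr2 h0 hP
  rw [← hi] at h1 h3 h4
  split_ifs with h
  · obtain ⟨h5, h6⟩ := h4 (Nat.not_even_iff_odd.2 h)
    rw [h6 fun k => 0 < k ∧ k * i ≤ 2 * m, ← h2, ← h5, ← H11.card_ms_pos_le]
    simp [Nat.le_div_iff_mul_le (Nat.pos_of_ne_zero h1), mul_assoc]
  · obtain ⟨h5, h6⟩ := h3 (Nat.not_odd_iff_even.1 h)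
    rw [h6 fun k => 0 < k ∧ k * i ≤ 2 * m, ← h2, ← h5, ← H11.card_ms_pos_le]
    have : ∀ k, k * i ≤ 2 * m + 1 ↔ k * i ≤ 2 * m := fun k => by
      have := (Nat.not_odd_iff_even.1 h).mul_left k
      grind
    simp [Nat.le_div_iff_mul_le (Nat.pos_of_ne_zero h1), this]

end Cfsg.Agent.S2673
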