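import Cfsg.Statements.S2674
import Cfsg.Agent.H11.ThC

set_option autoImplicit false
open Cfsg

namespace Cfsg.Agent.S2674

theorem aux {c i m : ℕ} (hi : i ≠ 0) (b : ℕ → Prop) : (c * i < m ∨ c * i = m ∧ ¬ b c) ↔
    c ≤ m / i ∧ (i ∣ m ∧ b (m / i) → c ≠ m / i) := by
  rw [Nat.le_div_iff_mul_le (Nat.pos_of_ne_zero hi), le_iff_lt_or_eq]
  refine ⟨?_, fun ⟨h1, h2⟩ => h1.imp_right fun h => ⟨h, fun h3 => ?_⟩⟩
  · rintro (h | ⟨rfl, h⟩)
    · exact ⟨.inl h, fun ⟨h1, _⟩ h2 => by rw [h2, Nat.div_mul_cancel h1] at h; omega⟩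
    · simp [h, hi]
  · subst h; simp [hi, h3] at h2

theorem aux2 {c i m : ℕ} (hi : i ≠ 0) (h : c * i = 2 * m) : i ∣ m ↔ Even c := by
  refine ⟨fun ⟨k, hk⟩ => ⟨k, Nat.eq_of_mul_eq_mul_right (Nat.pos_of_ne_zero hi) ?_⟩,
    fun ⟨k, hk⟩ => ⟨k, ?_⟩⟩
  · rw [h, hk]; ring
  · rw [hk] at h; linarith

/-- Number of conjugacy classes of elements of odd prime order r ≠ p in the orthogonal group O⁺_2m(q) of Σ x_j y_j (m ≥ 1): with i the multiplicative order of q mod r and t = (r − 1)/i — if i is odd, C(⌊m/i⌋ + t/2, t/2) − 1; if i is even, C(⌊2m/i⌋ + t, t) − 1 minus, when i divides 2m with odd quotient, the C(2m/i + t − 1, t − 1) tuples using the whole space (an odd number of elliptic i-blocks fills an elliptic, not a hyperbolic, space). -/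
theorem result {F : Type*} [Field F] [Fintype F] {p q : ℕ} [Fact p.Prime] [CharP F p] (hF : Fintype.card F = q) (m r i t : ℕ) (hm : 1 ≤ m) (hr : r.Prime) (hr2 : r ≠ 2) (hrp : r ≠ p) (hi : i = orderOf (q : ZMod r)) (ht : t * i = r - 1) : Nat.card {C : ConjClasses ↥(Cfsg.isometryGroup F (Cfsg.quadFormPlus m F)) // ∃ g : ↥(Cfsg.isometryGroup F (Cfsg.quadFormPlus m F)), ConjClasses.mk g = C ∧ orderOf g = r} = if Odd i then Nat.choose (m / i + t / 2) (t / 2) - 1 else Nat.choose (2 * m / i + t) t - 1 - (if i ∣ 2 * m ∧ Odd (2 * m / i) then Nat.choose (2 * m / i + t - 1) (t - 1) else 0) := by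
  have h0 := H11.natCast_ne_zero_of_prime (F := F) p hr hrp
  rw [← hF, ← Nat.card_eq_fintype_card] at hi
  have h1 := H11.orderOf_card_ne_zero hr h0
  have h2 : (H11.PhiF F r).card = t := Nat.eq_of_mul_eq_mul_right (Nat.pos_of_ne_zero h1)
    (by rw [(H11.PhiF_spec hr h0).2, ← hi, ht])
  have hS := H11.sPlus_nondeg m F
  rw [← hi] at h1
  refine (H11.card_classes_order_equiv (H11.orthEquiv (H11.qPlus m F)) r).trans ?_
  rw [hS.card_classes_prime hr hr2 h0 (fun c => c * i < 2 * m ∨ c * i = 2 * m ∧ ¬ Odd c)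
    fun s hs hd => by
      rw [hS.orth_real_iff hr hr2 h0 s hs hd, ← hi, show Module.finrank F _ = 2 * m by
        simp [two_mul]]
      simp only [Nat.mul_right_inj two_ne_zero, exists_eq_left', H11.sPlus_hasTS, if_true,
        ← orderOf_dvd_iff_pow_eq_one, ← hi, Nat.not_odd_iff_even]
      exact or_congr_right (and_congr_right (aux2 h1))]
  obtain ⟨T, h7, h3, h4⟩ := H11.card_dual_ms (σ := RingHom.id F) (fun _ => rfl) hr h0
    fun P hP => H11.dualP_id_eq_self_iff hr hr2 h0 hP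
  rw [← hi] at h3 h4
  by_cases h : Odd i
  · obtain ⟨h5, h6⟩ := h4 (Nat.not_even_iff_odd.2 h)
    rw [if_pos h, h6 fun c => 0 < c ∧ (c * i < 2 * m ∨ c * i = 2 * m ∧ ¬ Odd c), ← h2, ← h5,
      ← H11.card_ms_pos_le]
    simp [Nat.le_div_iff_mul_le (Nat.pos_of_ne_zero h1), mul_assoc, ← le_iff_lt_or_eq]
  · obtain ⟨h5, h6⟩ := h3 (Nat.not_odd_iff_even.1 h)
    rw [if_neg h, h6 fun c => 0 < c ∧ (c * i < 2 * m ∨ c * i = 2 * m ∧ ¬ Odd c), ← h2, ← h5,
      ← H11.card_ms_pos_cond T h7]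
    simp only [aux h1 Odd]

end Cfsg.Agent.S2674
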