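import Cfsg.Statements.S2675
import Cfsg.Agent.H11.ThC
import Cfsg.Agent.S2674

set_option autoImplicit false
open Cfsg

namespace Cfsg.Agent.S2675

/-- Number of conjugacy classes of elements of odd prime order r ≠ p in the orthogonal group O⁻_2m(q) of an elliptic form Σ_(j<m−1) x_j y_j + z₁² + a z₁z₂ + c z₂² (binary part anisotropic, m ≥ 1): with i the multiplicative order of q mod r and t = (r − 1)/i — if i is odd, C(⌊m/i⌋ + t/2, t/2) − 1 minus, when i divides m, the C(m/i + t/2 − 1, t/2 − 1) tuples filling the whole space (dual pairs of totally singular blocks fill a hyperbolic space); if i is even, C(⌊2m/i⌋ + t, t) − 1 minus, when i divides 2m with even quotient, the C(2m/i + t − 1, t − 1) tuples filling the whole space with an even number of elliptic blocks. -/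
theorem result {F : Type*} [Field F] [Fintype F] {p q : ℕ} [Fact p.Prime] [CharP F p] (hF : Fintype.card F = q) (m r i t : ℕ) (hm : 1 ≤ m) (a c : F) (hac : ∀ z₁ z₂ : F, z₁ ^ 2 + a * z₁ * z₂ + c * z₂ ^ 2 = 0 → z₁ = 0 ∧ z₂ = 0) (hr : r.Prime) (hr2 : r ≠ 2) (hrp : r ≠ p) (hi : i = orderOf (q : ZMod r)) (ht : t * i = r - 1) : Nat.card {C : ConjClasses ↥(Cfsg.isometryGroup F (Cfsg.quadFormMinus (m - 1) F a c)) // ∃ g : ↥(Cfsg.isometryGroup F (Cfsg.quadFormMinus (m - 1) F a c)), ConjClasses.mk g = C ∧ orderOf g = r} = if Odd i then Nat.choose (m / i + t / 2) (t / 2) - 1 - (if i ∣ m then Nat.choose (m / i + t / 2 - 1) (t / 2 - 1) else 0) else Nat.choose (2 * m / i + t) t - 1 - (if i ∣ 2 * m ∧ Even (2 * m / i) then Nat.choose (2 * m / i + t - 1) (t - 1) else 0) := by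
  have h0 := H11.natCast_ne_zero_of_prime (F := F) p hr hrp
  rw [← hF, ← Nat.card_eq_fintype_card] at hi
  have h1 := H11.orderOf_card_ne_zero hr h0
  have h2 : (H11.PhiF F r).card = t := Nat.eq_of_mul_eq_mul_right (Nat.pos_of_ne_zero h1)
    (by rw [(H11.PhiF_spec hr h0).2, ← hi, ht])
  have hS := H11.sMinus_nondeg (m - 1) hac
  rw [← hi] at h1
  have := Fact.mk hr
  have : Fact (2 < r) := ⟨lt_of_le_of_ne hr.two_le hr2.symm⟩
  refine (H11.card_classes_order_equiv (H11.orthEquiv (H11.qMinus (m - 1) F a c)) r).trans ?_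
  rw [hS.card_classes_prime hr hr2 h0 (fun c => c * i < 2 * m ∨ c * i = 2 * m ∧ ¬ Even c)
    fun s hs hd => by
      rw [hS.orth_real_iff hr hr2 h0 s hs hd, ← hi, H11.finrank_minus_fun' hm]
      simp only [Nat.mul_right_inj two_ne_zero, exists_eq_left', H11.sMinus_not_hasTS' hm hac,
        if_false]
      refine or_congr_right (and_congr_right fun h => ?_)
      rw [← S2674.aux2 h1 h, hi, orderOf_dvd_iff_pow_eq_one]
      exact ⟨fun h3 h4 => ZMod.neg_one_ne_one (h3.symm.trans h4), (sq_eq_one_iff.1 (by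
        rw [← pow_mul', ← h, hi, pow_mul', pow_orderOf_eq_one, one_pow])).resolve_left⟩]
  obtain ⟨T, h7, h3, h4⟩ := H11.card_dual_ms (σ := RingHom.id F) (fun _ => rfl) hr h0
    fun P hP => H11.dualP_id_eq_self_iff hr hr2 h0 hP
  rw [← hi] at h3 h4
  by_cases h : Odd i
  · obtain ⟨h5, h6⟩ := h4 (Nat.not_even_iff_odd.2 h)
    rw [if_pos h, h6 fun c => 0 < c ∧ (c * i < 2 * m ∨ c * i = 2 * m ∧ ¬ Even c), ← h2, ← h5,
      ← H11.card_ms_pos_cond T h7]
    simp [← fun c => (S2674.aux (c := c) (m := m) h1 fun _ => True).trans (by rw [and_true]),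
      mul_assoc]
  · obtain ⟨h5, h6⟩ := h3 (Nat.not_odd_iff_even.1 h)
    rw [if_neg h, h6 fun c => 0 < c ∧ (c * i < 2 * m ∨ c * i = 2 * m ∧ ¬ Even c), ← h2, ← h5,
      ← H11.card_ms_pos_cond T h7]
    simp only [S2674.aux h1 Even]

end Cfsg.Agent.S2675
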