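import Cfsg.Statements.S2676
import Cfsg.Agent.H11.Uni2

set_option autoImplicit false
open Classical
open Cfsg

namespace Cfsg.Agent.S2676

/-- Number of conjugacy classes of elements of order p in Sp_2m(q), q a power of the odd prime p: the classes correspond to the signed partitions of 2m — partitions with all parts at most p in which every odd part has even multiplicity, each even part size that occurs carrying a sign — other than the all-ones partition; so the count is the sum over such partitions of 2^(number of distinct even parts), minus one. -/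
theorem result {F : Type*} [Field F] [Fintype F] {p : ℕ} [Fact p.Prime] [CharP F p] (hp : p ≠ 2) (m : ℕ) : Nat.card {C : ConjClasses ↥(Matrix.symplecticGroup (Fin m) F) // ∃ g : Matrix.symplecticGroup (Fin m) F, ConjClasses.mk g = C ∧ orderOf g = p} = (∑ μ ∈ Finset.univ.filter (fun μ : Nat.Partition (2 * m) => (∀ a ∈ μ.parts, a ≤ p) ∧ ∀ j : ℕ, Odd j → Even (μ.parts.count j)), 2 ^ ((μ.parts.toFinset.filter (fun j : ℕ => Even j)).card)) - 1 := by
  classical
  have hp' : p.Prime := Fact.out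
  have h2 : (2 : F) ≠ 0 := fun e => hp ((Nat.prime_dvd_prime_iff_eq hp' Nat.prime_two).1
    ((CharP.cast_eq_zero_iff F p 2).1 e))
  have hS := H11.stdSymp_nondeg (F := F) m
  set T := Finset.univ.filter fun μ : Nat.Partition (2 * m) => (∀ a ∈ μ.parts, a ≤ p) ∧
    ∀ j : ℕ, Odd j → Even (μ.parts.count j) with hT
  have h1 : ∀ g : (H11.stdSymp m F).Isom, H11.cls hS g ∈ ⋃ μ ∈ T, H11.UJ _ μ.parts ↔ g ^ p = 1 := fun g => by
    rw [← H11.PForm.iE_inj, H11.PForm.iE_pow, H11.PForm.iE_one, ← pow_one p, H11.pow_char_pow_eq_one_iff,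
      pow_one]
    simp only [Set.mem_iUnion, hT, Finset.mem_filter, Finset.mem_univ, true_and]
    refine ⟨fun ⟨μ, h, h'⟩ => (H11.UJ.pow h').2 h.1, fun h => ?_⟩
    have h3 : H11.Unip (H11.PForm.iE g) := ⟨p, h⟩
    exact ⟨⟨_, H11.JT_pos, (H11.JT_sum _).trans (by simp [two_mul])⟩,
      ⟨h3.pow_eq_zero_iff.1 h, fun j => H11.symp_par hS h3⟩, h3.JD_eq⟩
  have h3 : (⋃ μ ∈ T, H11.UJ (H11.sympP F) μ.parts).encard =
      (∑ μ ∈ T, 2 ^ (μ.parts.toFinset.filter Even).card : ℕ) := by
    refine (T.finite_toSet.encard_biUnion fun μ _ ν _ e => Set.disjoint_left.2 fun x h h' =>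
      e (Nat.Partition.ext (Multiset.map_injective (Prod.mk_right_injective _) (h.symm.trans h')))).trans ?_
    rw [finsum_mem_coe_finset, Nat.cast_sum]
    exact Finset.sum_congr rfl fun μ h => H11.symp_UJ h2 (fun _ => μ.parts_pos) (Finset.mem_filter.1 h).2.2
  rw [H11.symp_card _ (A := (⋃ μ ∈ T, H11.UJ _ μ.parts) \ {H11.cls hS 1}) (fun g => ?_) fun x hx => ?_,
    Set.ncard_diff_singleton_of_mem ((h1 1).2 (one_pow _)), Set.ncard_def, h3, ENat.toNat_coe]
  · rw [Set.mem_diff, h1, Set.mem_singleton_iff, H11.cls_eq, H11.PForm.isim_iff_isConj, isConj_one_left,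
      ← map_pow, MulEquiv.map_eq_one_iff, MulEquiv.map_eq_one_iff]
    exact ⟨fun h => ⟨h ▸ pow_orderOf_eq_one g, fun e => hp'.ne_one (by simp [← h, e])⟩,
      fun h => orderOf_eq_prime h.1 h.2⟩
  · obtain ⟨μ, -, h⟩ := Set.mem_iUnion₂.1 hx.1
    rw [show x.JD = _ from h]; simp [H11.dm, μ.parts_sum]

end Cfsg.Agent.S2676
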