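import Cfsg.Statements.S2678
import Cfsg.Agent.H11.Res

set_option autoImplicit false
open Cfsg

namespace Cfsg.Agent.S2678

/-- Field-extension embedding of symplectic groups: for a field K with q² elements and a field F with q elements there is an injective homomorphism Sp_2a(K) → Sp_4a(F). -/
theorem result {K F : Type*} [Field K] [Fintype K] [Field F] [Fintype F] {q : ℕ} (hK : Fintype.card K = q ^ 2) (hF : Fintype.card F = q) (a : ℕ) : ∃ φ : ↥(Matrix.symplecticGroup (Fin a) K) →* ↥(Matrix.symplecticGroup (Fin (2 * a)) F), Function.Injective φ := by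
  obtain ⟨_, σ, h2, -⟩ := H11.exists_quad_setup hF hK
  obtain ⟨l, h7, -⟩ := H11.exists_dual_vanish h2
  obtain ⟨φ, hφ⟩ := H11.exists_res_sp (F := F) (K := K) (σ := RingHom.id K) (fun _ => rfl) (H11.stdSymp_nondeg (F := K) a) h7
    (fun x => by rw [H11.PForm.symp_h_self, map_zero]) (m := 2 * a)
    (by rw [← Module.finrank_mul_finrank F K, h2, H11.finrank_sum_fun])
  exact ⟨φ.comp (H11.spEquiv a K).toMonoidHom, hφ.comp (H11.spEquiv a K).injective⟩

end Cfsg.Agent.S2678
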