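import Cfsg.Statements.S2679
import Cfsg.Agent.H11.Res
import Cfsg.Agent.H25.OrtX

set_option autoImplicit false
open Cfsg

namespace Cfsg.Agent.S2679

/-- An elliptic orthogonal group embeds in the hyperbolic orthogonal group of the same dimension over the quadratic extension: for a field F with q elements and a field K with q² elements there is an injective homomorphism from O⁻_2m(F) (isometries of Σ_(j<m−1) x_j y_j + z₁² + a z₁z₂ + c z₂², binary part anisotropic) to O⁺_2m(K) (isometries of Σ_(j<m) x_j y_j over K). -/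
theorem result {F K : Type*} [Field F] [Fintype F] [Field K] [Fintype K] {q : ℕ} (hF : Fintype.card F = q) (hK : Fintype.card K = q ^ 2) {m : ℕ} (hm : 1 ≤ m) (a c : F) (hac : ∀ z₁ z₂ : F, z₁ ^ 2 + a * z₁ * z₂ + c * z₂ ^ 2 = 0 → z₁ = 0 ∧ z₂ = 0) : ∃ φ : ↥(Cfsg.isometryGroup F (Cfsg.quadFormMinus (m - 1) F a c)) →* ↥(Cfsg.isometryGroup K (Cfsg.quadFormPlus m K)), Function.Injective φ := by
  obtain ⟨_, h2⟩ := H11.exists_alg (F := F) (K := K) (m := 2) (by simp [hF, hK])
  obtain ⟨-, τ, h3, h4⟩ := H25.exists_hj_of_algebra h2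
  obtain ⟨t, ht⟩ := H25.exists_root h4 (by simp [h3]) a c
  obtain ⟨m, rfl⟩ := Nat.exists_eq_add_of_le' hm
  have D := H25.sMinus_desc (algebraMap F K) m a c
  obtain ⟨e⟩ := ((D.nondeg_up (H11.sMinus_nondeg m hac)).eqv_sPlus (H11.finrank_minus_fun m)
    (H25.sMinus_hasTS_of_root m ht)).nonempty_mulEquiv
  refine ⟨((e.trans (H11.orthEquiv (H11.qPlus _ K)).symm).toMonoidHom.comp D.isoMap).comp
    (H11.orthEquiv (H11.qMinus m F a c)).toMonoidHom, ((e.trans (H11.orthEquiv (H11.qPlus _ K)).symm).injective.comp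
    fun g k h => H11.PForm.isom_ext fun v => funext fun i => (algebraMap F K).injective ?_).comp
      (H11.orthEquiv (H11.qMinus m F a c)).injective⟩
  exact congrFun ((D.isoMap_jv g v).symm.trans (h ▸ D.isoMap_jv k v)) i

end Cfsg.Agent.S2679
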