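import Cfsg.Statements.S2682
import Cfsg.Agent.H11.Inv2

set_option autoImplicit false
open Cfsg

namespace Cfsg.Agent.S2682

/-- Centraliser order of an involution t of Sp_2m(q), q even, with s = rank(t − 1) even and f(v, tv) ≠ 0 for some v, f the symplectic form (type c_s): |C(t)| = q^(2ms − (3s² − 3s)/2 − 1) · |Sp_(s−2)(q)| · |Sp_(2m−2s)(q)|. -/
theorem result {F : Type*} [Field F] [Fintype F] [CharP F 2] {q : ℕ} (hF : Fintype.card F = q) {m s : ℕ} (t : Matrix.symplecticGroup (Fin m) F) (ht : t ^ 2 = 1) (hs : ((t : Matrix (Fin m ⊕ Fin m) (Fin m ⊕ Fin m) F) - 1).rank = s) (heven : Even s) (hna : ∃ v : Fin m ⊕ Fin m → F, Cfsg.sympForm m F v ((t : Matrix (Fin m ⊕ Fin m) (Fin m ⊕ Fin m) F).mulVec v) ≠ 0) : Nat.card ↥(Subgroup.centralizer ({t} : Set ↥(Matrix.symplecticGroup (Fin m) F))) = q ^ (2 * m * s - (3 * s ^ 2 - 3 * s) / 2 - 1) * ((q : ℕ) ^ (((s - 2) / 2) ^ 2) * ∏ i : Fin ((s -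 2) / 2), (q ^ (2 * ((i : ℕ) + 1)) - 1)) * ((q : ℕ) ^ ((m - s) ^ 2) * ∏ i : Fin (m - s), (q ^ (2 * ((i : ℕ) + 1)) - 1)) := by
  have hS := H11.stdSymp_nondeg (F := F) m
  rw [H11.rank_eq_finrank_res (H11.spEquiv_apply m t)] at hs
  have h1 := H11.quad_of_sq (H11.spEquiv m F) ht
  have h2 : ¬ H11.PForm.Alt (H11.spEquiv m F t) := fun h =>
    hna.elim fun x hx => hx ((H11.stdSymp_h _ _ _).symm.trans (h x))
  obtain ⟨k, rfl⟩ := heven.two_dvd
  rcases k with _ | k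
  · exact (h2 fun x => by simp [H11.PForm.res_eq_bot_iff.1 (Submodule.finrank_eq_zero.1 hs),
      H11.PForm.symp_h_self]).elim
  have h3 := h1.symp_card_fix hS (H11.finrank_sum_fun m) hs
  rw [H11.card_centralizer_equiv (H11.spEquiv m F), (hS.card_centralizer_two h1 k).2.2 hs h2,
    h3.2, Nat.card_eq_fintype_card, hF, show (2 * (k + 1) - 2) / 2 = k by omega, ← H11.spOrd_eq,
    ← H11.spOrd_eq]
  obtain ⟨r, rfl⟩ := Nat.exists_eq_add_of_le h3.1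
  have h4 : 2 * (2 * (k + 1) + r) * (2 * (k + 1)) = 8 * (k * k) + 16 * k + 8 + 4 * (r * k) + 4 * r := by
    ring
  have h5 : 3 * (2 * (k + 1)) ^ 2 = 12 * (k * k) + 24 * k + 12 := by ring
  rw [h4, h5, show ∀ a b : ℕ, 8 * a + 16 * k + 8 + b + 4 * r - (12 * a + 24 * k + 12 - 3 * (2 * (k + 1))) / 2 - 1
    = 2 * k + 1 + (8 * a + 16 * k + 8 + b + 4 * r - (12 * a + 24 * k + 12 - 2 * (k + 1)) / 2) by omega]
  ring

end Cfsg.Agent.S2682
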