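import Cfsg.Statements.S2683
import Cfsg.Agent.H11.Inv2

set_option autoImplicit false
open Cfsg

namespace Cfsg.Agent.S2683

/-- For the hyperbolic form Σ x_j y_j on F^(2m) over a finite field with q elements, q even (excluding m = 2 over the field of two elements), and an involution x of the orthogonal group with s = rank(x − 1) odd (type b_s; such x lie outside Ω): the elements of Ω (the commutator subgroup of the orthogonal group) commuting with x number q^(2m(s−1) − (3s² − 3s)/2) · |Sp_(s−1)(q)| · |Sp_(2m−2s)(q)|, where |Sp_2k(q)| = q^(k²) Π_(i=1)^k (q^(2i) − 1). -/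
theorem result {F : Type*} [Field F] [Fintype F] [CharP F 2] {q : ℕ} (hF : Fintype.card F = q) {m s : ℕ} (h : Fintype.card F ≠ 2 ∨ m ≠ 2) (x : ↥(Cfsg.isometryGroup F (Cfsg.quadFormPlus m F))) (hx : x ^ 2 = 1) (hs : (((x : Matrix.GeneralLinearGroup (Fin m ⊕ Fin m) F) : Matrix (Fin m ⊕ Fin m) (Fin m ⊕ Fin m) F) - 1).rank = s) (hodd : Odd s) : Nat.card {g : ↥(Cfsg.Omega F (Cfsg.quadFormPlus m F)) // (g : ↥(Cfsg.isometryGroup F (Cfsg.quadFormPlus m F))) * x = x * (g : ↥(Cfsg.isometryGroup F (Cfsg.quadFormPlus m F)))} = q ^ (2 * m * (s - 1) - (3 * s ^ 2 - 3 * s) / 2) * ((q : ℕ) ^ (((s - 1) / 2) ^ 2) * ∏ i : Fin ((s - 1) / 2), (q ^ (2 * ((i : ℕ) + 1)) - 1)) * ((q : ℕ) ^ ((m - s) ^ 2) * ∏ i : Fin (m - s), (q ^ (2 * ((i : ℕ) + 1)) - 1)) := by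
  have hS := H11.sPlus_nondeg m F
  have h4 : (H11.sPlus m F).NotO4 := H11.PForm.notO4_of_card (by simp; omega)
  replace hs := (H11.rank_eq_finrank_res (H11.orthEquiv_apply (H11.qPlus m F) x)).symm.trans hs
  have h1 := H11.quad_of_sq (H11.orthEquiv (H11.qPlus m F)) hx
  have h2 : ¬ H11.PForm.Alt (H11.orthEquiv (H11.qPlus m F) x) := fun h =>
    Nat.not_even_iff_odd.2 hodd (hs ▸ h.even hS)
  obtain ⟨k, rfl⟩ := hodd
  have h3 := (H11.card_comm_ker _ (hS.orth_commutator_eq_ker_dick CharTwo.two_eq_zero h4) _).1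
    (h1.exists_dick hS fun h => h2 (H11.PForm.alt_iff_ts.2 h.ts))
  rw [(hS.card_centralizer_two h1 k).1 hs, (h1.orth_card_fix hS h2 (H11.finrank_sum_fun m) hs).2,
    Nat.card_eq_fintype_card, hF] at h3
  rw [show (2 * k + 1 - 1) / 2 = k by omega, ← H11.spOrd_eq, ← H11.spOrd_eq,
    show 3 * (2 * k + 1) ^ 2 - 3 * (2 * k + 1) = 3 * (2 * k + 1) * (2 * k) from
      Nat.sub_eq_of_eq_add (by ring), Nat.add_sub_cancel]
  refine (H11.card_Omega_comm (H11.qPlus m F) x).trans (Nat.eq_of_mul_eq_mul_left two_pos ?_)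
  rw [← h3]; ring

end Cfsg.Agent.S2683
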