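import Cfsg.Statements.S2684
import Cfsg.Agent.H11.Inv2

set_option autoImplicit false
open Cfsg

namespace Cfsg.Agent.S2684

/-- For the hyperbolic form Q = Σ x_j y_j on F^(2m) over a finite field with q elements, q even (excluding m = 2 over the field of two elements), and an involution x ≠ 1 of the orthogonal group with s = rank(x − 1) even and Q vanishing on the image of x − 1 (equivalently f(v, xv) = 0 for all v, where f(u, w) = Q(u + w) − Q(u) − Q(w) is the bilinear form of Q; type a_s, which lies in Ω): its centraliser in Ω (the commutator subgroup of the orthogonal group) has order q^(2ms − (3s² + s)/2) · |Sp_s(q)| · |Ω⁺_(2m−2s)(q)|, where |Ω⁺_2k(q)| = q^(k(k−1)) (q^k − 1) Π_(i=1)^(k−1) (q^(2i) − 1) for k ≥ 1 and the last factor is 1 when s = m. -/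
theorem result {F : Type*} [Field F] [Fintype F] [CharP F 2] {q : ℕ} (hF : Fintype.card F = q) {m s : ℕ} (h : Fintype.card F ≠ 2 ∨ m ≠ 2) (x : ↥(Cfsg.isometryGroup F (Cfsg.quadFormPlus m F))) (hx : x ^ 2 = 1) (hx1 : x ≠ 1) (hs : (((x : Matrix.GeneralLinearGroup (Fin m ⊕ Fin m) F) : Matrix (Fin m ⊕ Fin m) (Fin m ⊕ Fin m) F) - 1).rank = s) (heven : Even s) (halt : ∀ v : Fin m ⊕ Fin m → F, Cfsg.quadFormPlus m F ((((x : Matrix.GeneralLinearGroup (Fin m ⊕ Fin m) F) : Matrix (Fin m ⊕ Fin m) (Fin m ⊕ Fin m) F) - 1).mulVec v) = 0) : Nat.card {g : ↥(Cfsg.Omega F (Cfsg.quadFormPlus m F)) // (g : ↥(Cfsg.isometryGroup F (Cfsg.quadFormPlus m F))) * x = x * (g : ↥(Cfsg.isometryGroup F (Cfsg.quadFormPlus m F)))} = q ^ (2 * m * s - (3 * s ^ 2 + s) / 2) * ((q : ℕ) ^ ((s / 2) ^ 2) * ∏ i : Fin (s / 2), (q ^ (2 * ((i : ℕ) + 1)) - 1)) * (if s = m then 1 else q ^ ((m - s) * (m - s - 1)) * (q ^ (m - s) - 1) * ∏ i : Fin (m - s - 1), (q ^ (2 * ((i : ℕ) + 1)) - 1)) :=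 by
  have hS := H11.sPlus_nondeg m F
  have h4 : (H11.sPlus m F).NotO4 := H11.PForm.notO4_of_card (by simp; omega)
  replace hs := (H11.rank_eq_finrank_res (H11.orthEquiv_apply (H11.qPlus m F) x)).symm.trans hs
  have h1 := H11.quad_of_sq (H11.orthEquiv (H11.qPlus m F)) hx
  have h2 : (H11.sPlus m F).TS (H11.PForm.res (H11.orthEquiv (H11.qPlus m F) x)) :=
    H11.PForm.orth_ts_iff.2 (H11.range_eq_res (H11.orthEquiv_apply (H11.qPlus m F) x) ▸ by
      rintro _ ⟨v, rfl⟩; exact halt v)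
  obtain ⟨k, rfl⟩ := heven.two_dvd
  have h3 := H11.card_comm_ker _ (hS.orth_commutator_eq_ker_dick CharTwo.two_eq_zero h4)
    (H11.orthEquiv (H11.qPlus m F) x)
  obtain ⟨X, h5, h6, h7, h8⟩ := H11.PForm.exists_card_fix_TS _ hS h2 hs
  rw [H11.finrank_sum_fun] at h7
  obtain ⟨r, rfl⟩ := Nat.exists_eq_add_of_le (show 2 * k ≤ m by omega)
  have h9 : Module.finrank F X = 2 * r := by omega
  have h10 : (2 * k).choose 2 + k = 2 * (k * k) := by
    rw [Nat.choose_two_right, mul_assoc, Nat.mul_div_cancel_left _ two_pos]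
    rcases k with _ | k <;> simp [mul_add]; ring
  have h11 : 2 * (2 * k + r) * (2 * k) = 8 * (k * k) + 2 * k * (2 * r) := by ring
  have h12 : 3 * (2 * k) ^ 2 = 12 * (k * k) := by ring
  rw [(hS.card_centralizer_two h1 k).2.1 hs (H11.PForm.alt_iff_ts.2 h2), h8, h9,
    Nat.card_eq_fintype_card (α := F), hF] at h3
  rw [show 2 * k / 2 = k by omega, ← H11.spOrd_eq, Nat.add_sub_cancel_left,
    show 2 * (2 * k + r) * (2 * k) - (3 * (2 * k) ^ 2 + 2 * k) / 2 =
      2 * k * (2 * r) + (2 * k).choose 2 by omega]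
  refine (H11.card_Omega_comm (H11.qPlus _ F) x).trans ?_
  split_ifs with h13
  · obtain rfl : r = 0 := by omega
    have : Subsingleton X := Module.finrank_zero_iff.1 h9
    rw [← h3.2 fun c hc => ?_, H11.PForm.card_Isom_of_subsingleton]
    · simp [mul_comm]
    · rw [MonoidHom.mem_ker, hS.dick_eq_one_iff_maxTS h4 ⟨h2, by rw [hs, H11.finrank_sum_fun]; rfl⟩,
        H11.PForm.mem_stab_iff_map.1 (H11.PForm.centralizer_le_stab_res _ hc), inf_idem,
        Nat.sub_self]
      exact Even.zero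
  · have h14 := h2.hasTS_compl hS (h2.perp_eq_sup hS h5 h6 (by rw [hs, H11.finrank_sum_fun]; omega)).2
      (H11.sPlus_hasTS _ F)
    rw [hs, Nat.add_sub_cancel_left] at h14
    refine Nat.eq_of_mul_eq_mul_left two_pos ?_
    rw [← h3.1 (h1.exists_dick hS fun h => h13 ?_), h5.orth_card_plus (by omega) h9 h14,
      Nat.card_eq_fintype_card (α := F), hF, Finset.prod_range]
    · simp; ring
    · have := h.dim
      rw [hs, H11.finrank_sum_fun] at this
      omega

end Cfsg.Agent.S2684
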