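import Cfsg.Statements.S2685
import Cfsg.Agent.H11.Inv2

set_option autoImplicit false
open Cfsg

namespace Cfsg.Agent.S2685

/-- For the hyperbolic form Q = Σ x_j y_j on F^(2m) over a finite field with q elements, q even (excluding m = 2 over the field of two elements), and an involution x of the orthogonal group with s = rank(x − 1) even and Q not vanishing on the image of x − 1 (f(v, xv) ≠ 0 for some v, where f(u, w) = Q(u + w) − Q(u) − Q(w) is the bilinear form of Q; type c_s, which lies in Ω): its centraliser in Ω (the commutator subgroup of the orthogonal group) has order q^(2m(s−1) − (3s² − 5s)/2 − 1) · |Sp_(s−2)(q)| · |Sp_(2m−2s)(q)|. -/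
theorem result {F : Type*} [Field F] [Fintype F] [CharP F 2] {q : ℕ} (hF : Fintype.card F = q) {m s : ℕ} (h : Fintype.card F ≠ 2 ∨ m ≠ 2) (x : ↥(Cfsg.isometryGroup F (Cfsg.quadFormPlus m F))) (hx : x ^ 2 = 1) (hs : (((x : Matrix.GeneralLinearGroup (Fin m ⊕ Fin m) F) : Matrix (Fin m ⊕ Fin m) (Fin m ⊕ Fin m) F) - 1).rank = s) (heven : Even s) (hna : ∃ v : Fin m ⊕ Fin m → F, Cfsg.quadFormPlus m F ((((x : Matrix.GeneralLinearGroup (Fin m ⊕ Fin m) F) : Matrix (Fin m ⊕ Fin m) (Fin m ⊕ Fin m) F) - 1).mulVec v) ≠ 0) : Nat.card {g : ↥(Cfsg.Omega F (Cfsg.quadFormPlus m F)) // (g : ↥(Cfsg.isometryGroup F (Cfsg.quadFormPlus m F))) * x = x * (g : ↥(Cfsg.isometryGroup F (Cfsg.quadFormPlus m F)))} = q ^ (2 * m * (s - 1) - (3 * s ^ 2 - 5 * s) / 2 - 1) * ((q : ℕ) ^ (((s - 2) / 2) ^ 2) * ∏ i : Fin ((s - 2) / 2), (q ^ (2 * ((i : ℕ) + 1)) - 1)) * ((q : ℕ) ^ ((m - s) ^ 2) * ∏ i : Fin (m - s), (q ^ (2 * ((i : ℕ) + 1))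 - 1)) := by
  have hS := H11.sPlus_nondeg m F
  have h4 : (H11.sPlus m F).NotO4 := H11.PForm.notO4_of_card (by simp; omega)
  replace hs := (H11.rank_eq_finrank_res (H11.orthEquiv_apply (H11.qPlus m F) x)).symm.trans hs
  have h1 := H11.quad_of_sq (H11.orthEquiv (H11.qPlus m F)) hx
  have h2 : ¬ H11.PForm.Alt (H11.orthEquiv (H11.qPlus m F) x) := fun h => hna.elim fun v hv =>
    hv (H11.PForm.orth_ts_iff.1 (H11.PForm.alt_iff_ts.1 h) _
      (H11.range_eq_res (H11.orthEquiv_apply (H11.qPlus m F) x) ▸ ⟨v, rfl⟩))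
  obtain ⟨k, rfl⟩ := heven.two_dvd
  rcases k with _ | k
  · exact (h2 (H11.PForm.alt_iff_ts.2 (Submodule.finrank_eq_zero.1 hs ▸ H11.PForm.ts_bot))).elim
  have h3 := (H11.card_comm_ker _ (hS.orth_commutator_eq_ker_dick CharTwo.two_eq_zero h4) _).1
    (h1.exists_dick hS fun h => h2 (H11.PForm.alt_iff_ts.2 h.ts))
  have h5 := h1.orth_card_fix hS h2 (s := 2 * k + 1) (H11.finrank_sum_fun m) hs
  rw [(hS.card_centralizer_two h1 k).2.2 hs h2, h5.2, Nat.card_eq_fintype_card, hF] at h3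
  obtain ⟨r, rfl⟩ := Nat.exists_eq_add_of_lt h5.1
  have h6 : 2 * (2 * k + 1 + r + 1) * (2 * k + 1) = 8 * (k * k) + 12 * k + 4 + 4 * (r * k) + 2 * r := by
    ring
  have h7 : 3 * (2 * (k + 1)) ^ 2 = 12 * (k * k) + 24 * k + 12 := by ring
  have h8 : 3 * (2 * k + 1 + 1) * (2 * k + 1) = 12 * (k * k) + 18 * k + 6 := by ring
  rw [show (2 * (k + 1) - 2) / 2 = k by omega, ← H11.spOrd_eq, ← H11.spOrd_eq,
    show 2 * (k + 1) - 1 = 2 * k + 1 by omega, show 2 * (2 * k + 1 + r + 1) * (2 * k + 1) -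
      (3 * (2 * (k + 1)) ^ 2 - 5 * (2 * (k + 1))) / 2 - 1 = 2 * k + 1 + (2 * (2 * k + 1 + r + 1) *
        (2 * k + 1) - 3 * (2 * k + 1 + 1) * (2 * k + 1) / 2) by omega]
  refine (H11.card_Omega_comm (H11.qPlus _ F) x).trans (Nat.eq_of_mul_eq_mul_left two_pos ?_)
  rw [← h3, show 2 * (k + 1) = 2 * k + 1 + 1 by ring]; ring

end Cfsg.Agent.S2685
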