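import Cfsg.Statements.S2689
import Cfsg.Agent.H25.PSLOut
-- import your own Cfsg.Agent.* helpers here

set_option autoImplicit false
open Cfsg

namespace Cfsg.Agent.S2689

/-- The automorphism group of a simple projective special linear group PSL_n(F) over a finite field (n ≥ 2; |F| ≥ 4 when n = 2) is generated by the automorphisms induced by invertible semilinear maps of F^n (the image of the projective semilinear group) together with the inverse-transpose automorphism. -/
theorem result {F : Type*} [Field F] [Fintype F] {p f : ℕ} [Fact p.Prime] (hF : Fintype.card F = p ^ f) (hf : 1 ≤ f) {n : ℕ} (hn : 2 ≤ n) (hs : n = 2 → 4 ≤ Fintype.card F) :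
    Cfsg.gammaPSL n F ⊔ Cfsg.autSubgroupOf (fun β : Matrix.ProjectiveSpecialLinearGroup (Fin n) F ≃* Matrix.ProjectiveSpecialLinearGroup (Fin n) F => Cfsg.IsInverseTransposeAutPSL β) = ⊤ := by
  haveI : Nontrivial (Fin n) := Fin.nontrivial_iff_two_le.2 hn
  rw [eq_top_iff]
  intro β _
  obtain ⟨⟨g, σ, ε⟩, rfl⟩ := H25.pslPhi_surj β
  have e : (⟨g, σ, ε⟩ : H25.ExtL (Fin n) F) = ⟨g, σ, 1⟩ * SemidirectProduct.inr (1, ε) := by
    ext <;> simp
  rw [e, map_mul]
  refine Subgroup.mul_mem_sup (Subgroup.subset_closure ⟨g, σ, (H25.isInduced_iff _ _ _).2 rfl⟩) ?_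
  rcases Int.units_eq_one_or ε with rfl | rfl
  · exact (map_one (H25.pslPhi (Fin n) F)).symm ▸ one_mem _
  · exact Subgroup.subset_closure ((H25.isInvT_iff _).2 rfl)

end Cfsg.Agent.S2689
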