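import Cfsg.Statements.S2692
import Cfsg.Agent.H25.OutSU
-- import your own Cfsg.Agent.* helpers here

set_option autoImplicit false
open Cfsg

namespace Cfsg.Agent.S2692

/-- Every automorphism of a simple PSU_n(q), n ≥ 3, (n, q) ≠ (3, 2), realised over the field F with q² elements, is a product δ φ of an inner-diagonal automorphism δ (induced by a general unitary matrix) and a standard field automorphism φ (one automorphism of F applied to every entry, possibly the identity; the standard field automorphisms of even order are the graph automorphisms here). -/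
theorem result {F : Type*} [Field F] [Fintype F] {p f q : ℕ} [Fact p.Prime] (hq : q = p ^ f) (hf : 1 ≤ f) (hF : Fintype.card F = q ^ 2) {n : ℕ} (hn : 3 ≤ n) (hs : ¬ (n = 3 ∧ q = 2)) (β : MulAut (Cfsg.PSU n F q)) :
    ∃ (δ φ : MulAut (Cfsg.PSU n F q)) (σ : F ≃+* F), Cfsg.IsInnerDiagonalAutPSU δ ∧ Cfsg.IsFieldAutPSUOf σ φ ∧ β = δ * φ := by
  obtain ⟨σ, hq', hσ, hne⟩ := H11.exists_frob hF
  have hF' : Nat.card F = q ^ 2 := by rw [Nat.card_eq_fintype_card, hF]
  have h4 : n = 3 → Nat.card F ≠ 4 := fun h3 h => hs ⟨h3, by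
    rw [hF'] at h; exact Nat.pow_left_injective two_ne_zero h⟩
  obtain ⟨x, rfl⟩ := H25.suPhi_surj hσ hne hq' hn h4 β
  refine ⟨_, _, x.1.right, (H25.su_inndiag_iff hσ hne hq' hn _).2 ⟨⟨_, H25.left_mem_GS x (H25.su_rat hσ hne _)⟩, rfl⟩,
    (H25.su_std_iff hσ hne hq' hn _ _).2 rfl, ?_⟩
  conv_lhs => rw [H25.eq_gsI_mul x (H25.su_rat hσ hne _), map_mul]
  rfl

end Cfsg.Agent.S2692
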