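import Cfsg.Statements.S2697
import Cfsg.Agent.H25.GrPSL
-- import your own Cfsg.Agent.* helpers here

set_option autoImplicit false
open Cfsg

namespace Cfsg.Agent.S2697

/-- Let T = PSL_n(F) be simple over a finite field (n ≥ 2; |F| ≥ 4 when n = 2) and let x be a field automorphism or a graph-field automorphism of T of prime order r. Then an element y of the coset Inndiag(T)·x (that is, y = δ x with δ in the inner-diagonal group, the image of PGL_n(F)) has order r if and only if y is conjugate to x by an element of Inndiag(T). -/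
theorem result {F : Type*} [Field F] [Fintype F] {p f : ℕ} [Fact p.Prime] (hF : Fintype.card F = p ^ f) (hf : 1 ≤ f) {n : ℕ} (hn : 2 ≤ n) (hs : n = 2 → 4 ≤ Fintype.card F) (x δ : MulAut (Matrix.ProjectiveSpecialLinearGroup (Fin n) F)) (hx : Cfsg.IsFieldAutClassPSL x ∨ Cfsg.IsGraphFieldAutClassPSL x) {r : ℕ} (hr : r.Prime) (hxr : orderOf x = r) (hδ : δ ∈ Cfsg.inndiagPSL n F) :
    orderOf (δ * x) = r ↔ Cfsg.IsConjUnder (Cfsg.inndiagPSL n F) x (δ * x) := by
  haveI : Nontrivial (Fin n) := Fin.nontrivial_iff_two_le.2 hn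
  rw [H25.inndiagPSL_eq] at hδ ⊢
  rcases hx with ⟨α, σ, -, hσ⟩ | hx
  · rw [H25.isStdField_iff, ← H25.pslGamma_inr] at hσ
    have h1 : orderOf σ = r := by
      rw [← H25.orderOf_pslGamma_inr (ι := Fin n), ← hσ, ← hxr]
      exact (MulAut.conj α).orderOf_eq x
    refine H25.isConjUnder_iff_orderOf _ hσ hxr hδ ?_
    rintro _ ⟨d, rfl⟩ h
    rw [← H25.pslGamma_inl, ← map_mul] at h ⊢
    have h2 : (SemidirectProduct.inl d * SemidirectProduct.inr σ : H25.GammaL (Fin n) F).right = σ := one_mul σ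
    have := H25.lang_PSL_field _ (by rw [h2, h1]; exact h)
    rwa [h2] at this
  obtain ⟨h3, g, σ, α, h1, rfl, h2⟩ := H25.graphField_data hx
  have h3 : 3 ≤ Fintype.card (Fin n) := by simpa using h3
  obtain rfl : r = 2 := hr.eq_two_or_odd'.resolve_right fun ho => by
    obtain ⟨c, hc⟩ := (H25.pslPhi_eq_iff h3 1 (⟨g, (σ, -1)⟩ ^ r)).1 (by rw [map_pow, map_one, ← hxr, pow_orderOf_eq_one])
    have := congrArg (fun e => (SemidirectProduct.rightHom e).2) hc
    simp only [map_pow] at this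
    simp [ho.neg_one_pow] at this
  have h4 := ((H25.gam_sq h3 σ g).1 (orderOf_dvd_iff_pow_eq_one.1 (dvd_of_eq hxr))).1
  refine H25.isConjUnder_iff_orderOf _ h2 hxr hδ ?_
  rintro _ ⟨d, rfl⟩ h
  rw [H25.gam_eq, map_one, one_mul, ← H25.gam_eq] at h
  rw [H25.gam_eq 1, map_one, one_mul, ← H25.gam_eq]
  simpa [H25.gam_eq 1] using H25.lang_gam h3 (fun a => RingEquiv.congr_fun h4 a)
    (fun h => h1 (RingEquiv.ext fun a => RingHom.congr_fun h a)) h

end Cfsg.Agent.S2697
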