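import Cfsg.Statements.S2698
import Cfsg.Agent.H25.PSLField
-- import your own Cfsg.Agent.* helpers here

set_option autoImplicit false
open Cfsg

namespace Cfsg.Agent.S2698

/-- Let T = PSL_n(F) be simple over the field F with p^f elements (n ≥ 2; p^f ≥ 4 when n = 2), G = Inndiag(T) the image of PGL_n(F) in Aut(T), and x a field automorphism of T of prime order r. Then r divides f; the centralizer C_G(x) is isomorphic to PGL_n(F₀) for the subfield size |F₀| = p^(f/r); and the G-class of x is the union of exactly gcd(n, (p^f − 1)/(p^(f/r) − 1)) classes under conjugation by T (the inner automorphism group). -/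
theorem result {F : Type*} [Field F] [Fintype F] {p f : ℕ} [Fact p.Prime] (hF : Fintype.card F = p ^ f) (hf : 1 ≤ f) {n : ℕ} (hn : 2 ≤ n) (hs : n = 2 → 4 ≤ Fintype.card F) (x : MulAut (Matrix.ProjectiveSpecialLinearGroup (Fin n) F)) (hx : Cfsg.IsFieldAutClassPSL x) {r : ℕ} (hr : r.Prime) (hxr : orderOf x = r) (F₀ : Type*) [Field F₀] [Fintype F₀] (hF₀ : Fintype.card F₀ = p ^ (f / r)) :
    r ∣ f ∧ Nonempty (↥(Cfsg.inndiagPSL n F ⊓ Subgroup.centralizer {x}) ≃* Matrix.ProjGenLinGroup (Fin n) F₀) ∧ Cfsg.splitClassCount (Cfsg.inndiagPSL n F) (Cfsg.Inn (Matrix.ProjectiveSpecialLinearGroup (Fin n) F)) x = Nat.gcd n ((p ^ f - 1) / (p ^ (f / r) - 1)) := by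
  haveI : Nontrivial (Fin n) := Fin.nontrivial_iff_two_le.2 hn
  obtain ⟨α, σ, -, hσ⟩ := hx
  rw [H25.isStdField_iff, ← H25.pslGamma_inr] at hσ
  have h1 : orderOf σ = r := by
    rw [← H25.orderOf_pslGamma_inr (ι := Fin n), ← hσ, ← hxr]
    exact (MulAut.conj α).orderOf_eq x
  have h2 : r ∣ f := h1 ▸ H25.orderOf_dvd_of_card hF σ
  obtain ⟨j, hj⟩ := H25.exists_emb σ F₀ (by
    rw [Nat.card_eq_fintype_card, Nat.card_eq_fintype_card, hF₀, hF, h1, ← pow_mul,
      Nat.div_mul_cancel h2])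
  rw [H25.inndiagPSL_eq]
  refine ⟨h2, ?_, ?_⟩
  · obtain ⟨e⟩ := H25.centralizer_conj_equiv (H25.pslDiag (Fin n) F).range α x
    rw [hσ] at e
    obtain ⟨e'⟩ := H25.cent_PSL_field (ι := Fin n) hj
    exact ⟨e.trans e'⟩
  · rw [← H25.splitClassCount_conj _ _ H25.inn_le_range_pslDiag α x, hσ, H25.split_PSL_field hj,
      Nat.card_eq_fintype_card, Nat.card_eq_fintype_card, hF₀, hF, Fintype.card_fin]

end Cfsg.Agent.S2698
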