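import Cfsg.Statements.S2704
import Cfsg.Agent.H25.GrPSL
-- import your own Cfsg.Agent.* helpers here

set_option autoImplicit false
open Cfsg

namespace Cfsg.Agent.S2704

/-- Let T = PSL_n(F) over the field F with p^f elements, n ≥ 3, and G = Inndiag(T) the image of PGL_n(F). If x is an involutory graph-field automorphism of T then f is even; x is G-conjugate to every other involutory graph-field automorphism; C_G(x) is isomorphic to the projective general unitary group PGU_n(q₀) with q₀² = p^f, realised over F itself through the Hermitian form Σ uᵢ vᵢ^{q₀}; and the G-class of x is the union of exactly gcd(n, q₀ − 1) T-classes. -/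
theorem result {F : Type*} [Field F] [Fintype F] {p f : ℕ} [Fact p.Prime] (hF : Fintype.card F = p ^ f) (hf : 1 ≤ f) {n : ℕ} (hn : 3 ≤ n) (x : MulAut (Matrix.ProjectiveSpecialLinearGroup (Fin n) F)) (hx : Cfsg.IsGraphFieldAutClassPSL x) (hx2 : orderOf x = 2) :
    Even f ∧ (∀ y : MulAut (Matrix.ProjectiveSpecialLinearGroup (Fin n) F), Cfsg.IsGraphFieldAutClassPSL y → orderOf y = 2 → Cfsg.IsConjUnder (Cfsg.inndiagPSL n F) x y) ∧ Nonempty (↥(Cfsg.inndiagPSL n F ⊓ Subgroup.centralizer {x}) ≃* Cfsg.PGU n F (p ^ (f / 2))) ∧ Cfsg.splitClassCount (Cfsg.inndiagPSL n F) (Cfsg.Inn (Matrix.ProjectiveSpecialLinearGroup (Fin n) F)) x = Nat.gcd n (p ^ (f / 2) - 1) := by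
  have h3 : 3 ≤ Fintype.card (Fin n) := by simpa using hn
  haveI : Nontrivial (Fin n) := Fin.nontrivial_iff_two_le.2 (by omega)
  have key : ∀ {g : GL (Fin n) F} {σ : F ≃+* F}, orderOf (H25.gam g σ) = 2 → H25.gam g σ ^ 2 = 1 ∧ σ ^ 2 = 1 :=
    fun {g σ} h => have := orderOf_dvd_iff_pow_eq_one.1 (dvd_of_eq h); ⟨this, pow_two σ ▸ ((H25.gam_sq h3 σ g).1 this).1⟩
  obtain ⟨-, g, σ, α, h1, rfl, h2⟩ := H25.graphField_data hx
  have hσ : ∀ a, (σ : F →+* F) ((σ : F →+* F) a) = a := fun a => RingEquiv.congr_fun (key hx2).2 a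
  have hne : (σ : F →+* F) ≠ RingHom.id F := fun h => h1 (RingEquiv.ext fun a => RingHom.congr_fun h a)
  have hf2 : 2 ∣ f := H25.orderOf_frob hσ hne ▸ H25.orderOf_dvd_of_card hF σ
  have hq : Nat.card F = (p ^ (f / 2)) ^ 2 := by
    rw [← pow_mul, Nat.div_mul_cancel hf2, Nat.card_eq_fintype_card, hF]
  rw [H25.inndiagPSL_eq]
  refine ⟨even_iff_two_dvd.2 hf2, fun y hy hy2 => ?_, ?_, ?_⟩
  · obtain ⟨-, g', σ', -, h1', rfl, -⟩ := H25.graphField_data hy
    haveI := H25.isCyclic_ringAut (F := F)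
    obtain rfl := H25.eq_of_sq_of_cyclic (key hx2).2 (key hy2).2 h1 h1'
    obtain ⟨a, ha, e⟩ := H25.lang_gam h3 hσ hne (key hx2).1
    obtain ⟨b, hb, e'⟩ := H25.lang_gam h3 hσ hne (key hy2).1
    exact ⟨b * a⁻¹, mul_mem hb (inv_mem ha), by rw [e, e']; group⟩
  · obtain ⟨e⟩ := H25.centralizer_conj_equiv (H25.pslDiag (Fin n) F).range α (H25.gam g σ)
    rw [h2, H25.cent_gam_one h3 hσ hne, ← show GU n F (p ^ (f / 2)) = _ from Subgroup.ext fun _ =>
      H25.mem_GU_iff hσ hne (H11.unit_σ_eq hσ hne hq)] at e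
    obtain ⟨e'⟩ := H25.map_pslDiag_equiv h3 (GU n F (p ^ (f / 2)))
    exact ⟨e.trans e'⟩
  · rw [← H25.splitClassCount_conj _ _ H25.inn_le_range_pslDiag α, h2, H25.split_gam_one h3 hσ hne hq, Fintype.card_fin]

end Cfsg.Agent.S2704
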