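import Cfsg.Statements.S2705
import Cfsg.Agent.H25.OutSU
-- import your own Cfsg.Agent.* helpers here

set_option autoImplicit false
open Cfsg

namespace Cfsg.Agent.S2705

/-- Let T = PSU_n(q) be simple (n ≥ 3, (n, q) ≠ (3, 2), q = p^f), realised over the field F with q² elements, G = Inndiag(T) the image of PGU_n(q) in Aut(T), and x a field automorphism of T (conjugate to a standard field automorphism of odd order) of odd prime order r. Then r divides f; C_G(x) is isomorphic to PGU_n(q₀) with q₀ = p^(f/r), realised over a field F₀ with q₀² elements; and the G-class of x is the union of exactly gcd(n, (q + 1)/(q₀ + 1)) T-classes. -/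
theorem result {F : Type*} [Field F] [Fintype F] {p f q : ℕ} [Fact p.Prime] (hq : q = p ^ f) (hf : 1 ≤ f) (hF : Fintype.card F = q ^ 2) {n : ℕ} (hn : 3 ≤ n) (hs : ¬ (n = 3 ∧ q = 2)) (x : MulAut (Cfsg.PSU n F q)) (hx : Cfsg.IsFieldAutClassPSU x) {r : ℕ} (hr : r.Prime) (hro : Odd r) (hxr : orderOf x = r) (F₀ : Type*) [Field F₀] [Fintype F₀] (hF₀ : Fintype.card F₀ = p ^ (2 * (f / r))) :
    r ∣ f ∧ Nonempty (↥(Cfsg.inndiagPSU n F q ⊓ Subgroup.centralizer {x}) ≃* Cfsg.PGU n F₀ (p ^ (f / r))) ∧ Cfsg.splitClassCount (Cfsg.inndiagPSU n F q) (Cfsg.Inn (Cfsg.PSU n F q)) x = Nat.gcd n ((q + 1) / (p ^ (f / r) + 1)) := by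
  obtain ⟨σ, hq', hσ, hne⟩ := H11.exists_frob hF
  have hF' : Nat.card F = q ^ 2 := by rw [Nat.card_eq_fintype_card, hF]
  have h4 : n = 3 → Nat.card F ≠ 4 := fun h3 h => hs ⟨h3, by
    rw [hF'] at h; exact Nat.pow_left_injective two_ne_zero h⟩
  rw [H25.inndiagPSU_eq hσ hne hq' hn]
  haveI := (H25.suCtx hσ hne hq' hn).normal_range_PhiS (H25.suCtx_hE hσ hne hq' hn)
    (H25.suPhi_surj hσ hne hq' hn h4)
  obtain ⟨α, φ, τ, -, ho, hφ, hτ⟩ := hx
  rw [H25.su_std_iff hσ hne hq' hn] at hφ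
  subst hφ
  have h1 : orderOf τ = r := by
    rw [← (H25.suCtx hσ hne hq' hn).orderOf_Phi_inr (H25.suCtx_hE hσ hne hq' hn) (by simpa using hn)
      (H25.su_rat hσ hne τ), ← hτ, ← hxr]
    exact (MulAut.conj α).orderOf_eq x
  have h2 : r ∣ f := by
    have := h1 ▸ H25.orderOf_dvd_of_card (p := p) (f := 2 * f) (by rw [hF, hq, ← pow_mul, mul_comm]) τ
    exact hro.coprime_two_right.dvd_of_dvd_mul_left this
  have hF₀' : Fintype.card F₀ = (p ^ (f / r)) ^ 2 := by rw [hF₀, ← pow_mul, mul_comm]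
  have h3 : q = (p ^ (f / r)) ^ r := by rw [← pow_mul, Nat.div_mul_cancel h2, hq]
  obtain ⟨j, hj⟩ := H25.exists_emb τ F₀ (by
    rw [Nat.card_eq_fintype_card, hF', hF₀', h1, h3, ← pow_mul, ← pow_mul _ r, mul_comm])
  obtain ⟨σ₀, a1, a2, a3⟩ := H11.exists_frob hF₀'
  have hP := H25.unit_compat hσ hq' a2 a1 hro h3 j
  refine ⟨h2, ?_, ?_⟩
  · obtain ⟨e⟩ := H25.centralizer_conj_equiv (H25.suPhiS hσ hne hq' hn).range α x
    rw [hτ] at e
    obtain ⟨e'⟩ := H25.cent_PSU hσ hne hq' hn a2 a3 hP hj a1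
    exact ⟨e.trans e'⟩
  · rw [← H25.splitClassCount_conj _ _ ((H25.suCtx hσ hne hq' hn).inn_le_range_PhiS _) α x, hτ,
      H25.split_PSU hσ hne hq' hn a2 a3 hP hj, H11.card_normOne_unit hσ hne hF',
      H11.card_normOne_unit a2 a3 (by rw [Nat.card_eq_fintype_card, hF₀'])]

end Cfsg.Agent.S2705
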