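import Cfsg.Statements.S2710
import Cfsg.Agent.H25.GrPSU
-- import your own Cfsg.Agent.* helpers here

set_option autoImplicit false
open Cfsg

namespace Cfsg.Agent.S2710

/-- Let T = PSU_n(q) with n ≥ 4 divisible by 4 (n = 2m) and q odd, realised over the field F with q² elements, G = Inndiag(T) the image of PGU_n(q), and φ the standard field automorphism of T attached to the q-th power map of F (it induces inverse-transpose on the unitary matrices and is a graph automorphism). Its centralizer in G is isomorphic to the projective conformal orthogonal group of the plus-type form Σ xᵢ yᵢ in dimension n over a field F₀ with q elements. (Dimensions n ≡ 2 (mod 4) are not covered.) -/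
theorem result {F : Type*} [Field F] [Fintype F] {q : ℕ} (hodd : Odd q) (hF : Fintype.card F = q ^ 2) {n m : ℕ} (hm : 2 ≤ m) (hnm : n = 2 * m) (h4 : 4 ∣ n) (F₀ : Type*) [Field F₀] [Fintype F₀] (hF₀ : Fintype.card F₀ = q) (σ : F ≃+* F) (hσ : ∀ a : F, σ a = a ^ q) (φ : MulAut (Cfsg.PSU n F q)) (hφ : Cfsg.IsFieldAutPSUOf σ φ) :
    Nonempty (↥(Cfsg.inndiagPSU n F q ⊓ Subgroup.centralizer {φ}) ≃* Cfsg.PGO F₀ (Cfsg.quadFormPlus m F₀)) := by
  have hn : 3 ≤ n := by omega
  have hF' : Nat.card F = q ^ 2 := Nat.card_eq_fintype_card.trans hF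
  obtain ⟨τ, j, h1, hτ, hne, hj⟩ := H25.exists_frob' hF' hF₀
  obtain rfl : σ = τ := RingEquiv.ext fun a => (hσ a).trans (h1 a).symm
  haveI : Nonempty (Fin n) := ⟨⟨0, by omega⟩⟩
  rw [H25.inndiagPSU_eq hτ hne h1 hn]
  refine (((H25.suCtx hτ hne h1 hn).grU hj (H25.suCtx_hE hτ hne h1 hn) (by simpa using hn) hne).type
    (H11.two_ne_zero_iff_odd.2 (hF₀ ▸ hodd)) (m := m) (by omega) (by simpa using hnm) (B := Matrix.toBilin' 1)
    ⟨_, 1, 1, (H25.su_std_iff hτ hne h1 hn σ φ).1 hφ, by simp, fun u v => ?_, fun x hx => funext fun i => ?_⟩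
    fun u v => by simp [Matrix.toBilin'_apply']).1 ?_
  · simp [H11.stdUnit_h, Matrix.toBilin'_apply', H25.jv, (hj _).2 ⟨_, rfl⟩, dotProduct]
  · simpa [-Matrix.mulVec_single, Matrix.toBilin'_apply'] using hx (Pi.single i 1)
  · obtain ⟨k, rfl⟩ : ∃ k, m = 2 * k := ⟨m / 2, by omega⟩
    obtain ⟨t, rfl⟩ := hodd
    rw [Nat.card_eq_fintype_card, hF₀, pow_mul, Nat.pow_mod, show (2 * t + 1) ^ 2 = 1 + 4 * (t ^ 2 + t) by ring]
    simp

end Cfsg.Agent.S2710
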