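import Cfsg.Statements.S2711
import Cfsg.Agent.H25.OutSU
-- import your own Cfsg.Agent.* helpers here

set_option autoImplicit false
open Cfsg

namespace Cfsg.Agent.S2711

/-- Let T = PSU_n(q) be simple (n ≥ 3, (n,q) ≠ (3,2)), realised over the field F with q² elements, and let x be a field automorphism of T (conjugate to a standard field automorphism of odd order) of prime order r. Then an element y of the coset Inndiag(T)·x (y = δ x with δ in the image of PGU_n(q)) has order r if and only if y is conjugate to x by an element of Inndiag(T). (T has no graph-field automorphisms.) -/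
theorem result {F : Type*} [Field F] [Fintype F] {p f q : ℕ} [Fact p.Prime] (hq : q = p ^ f) (hf : 1 ≤ f) (hF : Fintype.card F = q ^ 2) {n : ℕ} (hn : 3 ≤ n) (hs : ¬ (n = 3 ∧ q = 2)) (x δ : MulAut (Cfsg.PSU n F q)) (hx : Cfsg.IsFieldAutClassPSU x) {r : ℕ} (hr : r.Prime) (hxr : orderOf x = r) (hδ : δ ∈ Cfsg.inndiagPSU n F q) :
    orderOf (δ * x) = r ↔ Cfsg.IsConjUnder (Cfsg.inndiagPSU n F q) x (δ * x) := by
  obtain ⟨σ, hq', hσ, hne⟩ := H11.exists_frob hF
  have hF' : Nat.card F = q ^ 2 := by rw [Nat.card_eq_fintype_card, hF]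
  have h4 : n = 3 → Nat.card F ≠ 4 := fun h3 h => hs ⟨h3, by
    rw [hF'] at h; exact Nat.pow_left_injective two_ne_zero h⟩
  rw [H25.inndiagPSU_eq hσ hne hq' hn] at hδ ⊢
  haveI := (H25.suCtx hσ hne hq' hn).normal_range_PhiS (H25.suCtx_hE hσ hne hq' hn)
    (H25.suPhi_surj hσ hne hq' hn h4)
  obtain ⟨α, φ, τ, -, ho, hφ, hτ⟩ := hx
  rw [H25.su_std_iff hσ hne hq' hn] at hφ
  subst hφ
  have h1 : orderOf τ = r := by
    rw [← (H25.suCtx hσ hne hq' hn).orderOf_Phi_inr (H25.suCtx_hE hσ hne hq' hn) (by simpa using hn)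
      (H25.su_rat hσ hne τ), ← hτ, ← hxr]
    exact (MulAut.conj α).orderOf_eq x
  refine H25.isConjUnder_iff_orderOf _ hτ hxr hδ ?_
  rintro _ ⟨g, rfl⟩ h
  have := H25.lang_PSU hσ hne hq' hn hF' (H25.gsI _ g * H25.inrG (H25.su_rat hσ hne τ)) (by simpa using ho)
    (by simpa [h1] using h)
  simpa using this

end Cfsg.Agent.S2711
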