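import Cfsg.Statements.S2712
import Cfsg.Agent.H25.OutSp
-- import your own Cfsg.Agent.* helpers here

set_option autoImplicit false
open Cfsg

namespace Cfsg.Agent.S2712

/-- Let T = PSp_{2m}(F) be simple over the field F with p^f elements (m ≥ 2, (2m, |F|) ≠ (4, 2)), G = Inndiag(T) the image of the projective conformal symplectic group PGSp_{2m}(F), and x a field automorphism of T of prime order r. Then r divides f; C_G(x) is isomorphic to PGSp_{2m}(F₀) for a field F₀ with p^(f/r) elements; and the G-class of x is the union of exactly gcd(gcd(2, p^f − 1), r) T-classes. -/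
theorem result {F : Type*} [Field F] [Fintype F] {p f : ℕ} [Fact p.Prime] (hF : Fintype.card F = p ^ f) (hf : 1 ≤ f) {m : ℕ} (hm : 2 ≤ m) (hs : m = 2 → 3 ≤ Fintype.card F) (x : MulAut (Cfsg.PSp m F)) (hx : Cfsg.IsFieldAutClassPSp x) {r : ℕ} (hr : r.Prime) (hxr : orderOf x = r) (F₀ : Type*) [Field F₀] [Fintype F₀] (hF₀ : Fintype.card F₀ = p ^ (f / r)) :
    r ∣ f ∧ Nonempty (↥(Cfsg.inndiagPSp m F ⊓ Subgroup.centralizer {x}) ≃* Cfsg.PGSp m F₀) ∧ Cfsg.splitClassCount (Cfsg.inndiagPSp m F) (Cfsg.Inn (Cfsg.PSp m F)) x = Nat.gcd (Nat.gcd 2 (p ^ f - 1)) r := by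
  rw [H25.inndiagPSp_eq hm]
  haveI := H25.normal_range_spPhiS (F := F) hm
  obtain ⟨α, σ, -, hσ⟩ := hx
  rw [H25.sp_std_iff hm] at hσ
  have h1 : orderOf σ = r := by
    rw [← (H25.spCtx F hm).orderOf_Phi_inr (H25.spCtx_hE hm) (H25.sp_card3 hm) (H25.sp_rat σ), ← hσ, ← hxr]
    exact (MulAut.conj α).orderOf_eq x
  have h2 : r ∣ f := h1 ▸ H25.orderOf_dvd_of_card hF σ
  obtain ⟨j, hj⟩ := H25.exists_emb σ F₀ (by
    rw [Nat.card_eq_fintype_card, Nat.card_eq_fintype_card, hF₀, hF, h1, ← pow_mul,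
      Nat.div_mul_cancel h2])
  refine ⟨h2, ?_, ?_⟩
  · obtain ⟨e⟩ := H25.centralizer_conj_equiv (H25.spPhiS F hm).range α x
    rw [hσ] at e
    obtain ⟨e'⟩ := H25.cent_PSp hm hj
    exact ⟨e.trans e'⟩
  · rw [← H25.splitClassCount_conj _ _ ((H25.spCtx F hm).inn_le_range_PhiS _) α x, hσ, H25.split_PSp hm hj,
      Nat.card_eq_fintype_card, Nat.card_eq_fintype_card, hF₀, hF]
    have h3 : 2 ≤ p ^ (f / r) := hF₀ ▸ Fintype.one_lt_card
    have := H25.gcd_two_geom h3 hr.one_le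
    rwa [← pow_mul, Nat.div_mul_cancel h2] at this

end Cfsg.Agent.S2712
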