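import Cfsg.Statements.S2713
import Cfsg.Agent.H25.OutSp
-- import your own Cfsg.Agent.* helpers here

set_option autoImplicit false
open Cfsg

namespace Cfsg.Agent.S2713

/-- Let T = PSp_{2m}(F) be simple over a finite field (m ≥ 2, (2m, |F|) ≠ (4, 2)) and let x be a field automorphism of T of prime order r. Then an element y of the coset Inndiag(T)·x (y = δ x with δ in the image of the projective conformal symplectic group) has order r if and only if y is conjugate to x by an element of Inndiag(T). -/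
theorem result {F : Type*} [Field F] [Fintype F] {m : ℕ} (hm : 2 ≤ m) (hs : m = 2 → 3 ≤ Fintype.card F) (x δ : MulAut (Cfsg.PSp m F)) (hx : Cfsg.IsFieldAutClassPSp x) {r : ℕ} (hr : r.Prime) (hxr : orderOf x = r) (hδ : δ ∈ Cfsg.inndiagPSp m F) :
    orderOf (δ * x) = r ↔ Cfsg.IsConjUnder (Cfsg.inndiagPSp m F) x (δ * x) := by
  rw [H25.inndiagPSp_eq hm] at hδ ⊢
  haveI := H25.normal_range_spPhiS (F := F) hm
  obtain ⟨α, σ, -, hσ⟩ := hx
  rw [H25.sp_std_iff hm] at hσ
  have h1 : orderOf σ = r := by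
    rw [← (H25.spCtx F hm).orderOf_Phi_inr (H25.spCtx_hE hm) (H25.sp_card3 hm) (H25.sp_rat σ), ← hσ, ← hxr]
    exact (MulAut.conj α).orderOf_eq x
  refine H25.isConjUnder_iff_orderOf _ hσ hxr hδ ?_
  rintro _ ⟨g, rfl⟩ h
  have := H25.lang_PSp hm (H25.gsI _ g * H25.inrG (H25.sp_rat σ)) (by simpa [h1] using h)
  simpa using this

end Cfsg.Agent.S2713
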