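import Cfsg.Statements.S2714
import Cfsg.Agent.H25.OutO3
-- import your own Cfsg.Agent.* helpers here

set_option autoImplicit false
open Cfsg

namespace Cfsg.Agent.S2714

/-- Let T = Ω_{2m+1}(F) (m ≥ 3, |F| = p^f odd; realised as PΩ of the form x₀² + Σ xᵢ yᵢ), G = Inndiag(T) the image of the conformal orthogonal group in Aut(T), and x a field automorphism of T of prime order r. Then r divides f; C_G(x) is isomorphic to Inndiag(Ω_{2m+1}(F₀)) for a field F₀ with p^(f/r) elements; and the G-class of x is a single T-class when r is odd and the union of exactly two T-classes when r = 2. -/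
theorem result {F : Type*} [Field F] [Fintype F] {p f : ℕ} [Fact p.Prime] (hF : Fintype.card F = p ^ f) (hf : 1 ≤ f) (hodd : Odd (Fintype.card F)) {m : ℕ} (hm : 3 ≤ m) (x : MulAut (Cfsg.POmega F (Cfsg.quadFormOdd m F))) (hx : Cfsg.IsFieldAutClassPOmega (Cfsg.quadFormOdd m F) x) {r : ℕ} (hr : r.Prime) (hxr : orderOf x = r) (F₀ : Type*) [Field F₀] [Fintype F₀] (hF₀ : Fintype.card F₀ = p ^ (f / r)) :
    r ∣ f ∧ Nonempty (↥(Cfsg.inndiagPOmegaOdd m F ⊓ Subgroup.centralizer {x}) ≃* ↥(Cfsg.inndiagPOmegaOdd m F₀)) ∧ (Odd r → Cfsg.splitClassCount (Cfsg.inndiagPOmegaOdd m F) (Cfsg.Inn (Cfsg.POmega F (Cfsg.quadFormOdd m F))) x = 1) ∧ (r = 2 → Cfsg.splitClassCount (Cfsg.inndiagPOmegaOdd m F) (Cfsg.Inn (Cfsg.POmega F (Cfsg.quadFormOdd m F))) x = 2) := by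
  have h2 := H11.two_ne_zero_iff_odd.2 hodd
  have h5 := H25.odd_h5 (show 2 ≤ m by omega)
  have hS := H11.sOdd_nondeg m h2
  let C := H25.oCtx (Q := H11.qOdd m F) hS h5
  have hE := H25.oCtx_hE (Q := H11.qOdd m F) hS h5
  haveI := C.normal_range_PhiS hE (H25.odd_surj hS hm)
  obtain ⟨α, φ, σ, -, h1, hσ⟩ := hx
  obtain rfl := (H25.o_std_iff (Q := H11.qOdd m F) hS h5 (H25.sOdd_rat m σ) _).1 h1
  have h1 : orderOf σ = r := (C.orderOf_Phi_inr hE (by omega) (H25.sOdd_rat m σ)).symm.trans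
    ((congrArg _ hσ.symm).trans (((MulAut.conj α).orderOf_eq x).trans hxr))
  obtain ⟨h4, j, hj⟩ := H25.exists_emb' hF h1 F₀ hF₀
  have hS₀ := (H25.sOdd_desc j m).nondeg hS
  obtain ⟨⟨e⟩, h6⟩ := H25.conj_transfer (C.PhiS hE).range (Inn _) (α := α) (x := x) hσ
  have h7 := C.split_odd hE h5 hj (H25.sOdd_desc j m) (H25.sOdd_rat m σ) (H25.odd_odd m)
  obtain ⟨e'⟩ := C.cent_equiv hE (by omega) (H25.sOdd_rat m σ) (H25.orth_compat j) hj (H25.sOdd_desc j m)
    (H25.oPhiS hS₀ h5).rangeRestrict (MonoidHom.rangeRestrict_surjective _) fun d =>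
      Subtype.ext_iff.trans ((H25.oCtx hS₀ h5).PhiS_eq_one _ (by omega) d)
  rw [H25.inndiagOdd_eq hS h5]
  exact ⟨h4, ⟨(e.trans e').trans (MulEquiv.subgroupCongr (H25.inndiagOdd_eq hS₀ h5).symm)⟩,
    fun h => h6.trans (h7.1 (h1 ▸ h)), fun h => h6.trans (h7.2 (by simp [h1, h]))⟩

end Cfsg.Agent.S2714
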