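import Cfsg.Statements.S2716
import Cfsg.Agent.H25.OutO3
-- import your own Cfsg.Agent.* helpers here

set_option autoImplicit false
open Cfsg

namespace Cfsg.Agent.S2716

/-- Let T = PΩ⁻_{2m+2}(F) (m ≥ 3, |F| = p^f; the form Σ xᵢ yᵢ + z₁² + a z₁ z₂ + b z₂² with anisotropic binary part), G = Inndiag(T), and x a field automorphism of T of prime order r. Then r is odd and divides f; C_G(x) is isomorphic to Inndiag(PΩ⁻_{2m+2}(F₀)) for a field F₀ with p^(f/r) elements and some anisotropic binary part over F₀; and the G-class of x is a single T-class. -/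
theorem result {F : Type*} [Field F] [Fintype F] {p f : ℕ} [Fact p.Prime] (hF : Fintype.card F = p ^ f) (hf : 1 ≤ f) {m : ℕ} (hm : 3 ≤ m) (a b : F) (hab : (∀ z₁ z₂ : F, z₁ ^ 2 + a * z₁ * z₂ + b * z₂ ^ 2 = 0 → z₁ = 0 ∧ z₂ = 0)) (x : MulAut (Cfsg.POmega F (Cfsg.quadFormMinus m F a b))) (hx : Cfsg.IsFieldAutClassPOmegaMinus m x) {r : ℕ} (hr : r.Prime) (hxr : orderOf x = r) (F₀ : Type*) [Field F₀] [Fintype F₀] (hF₀ : Fintype.card F₀ = p ^ (f / r)) :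
    Odd r ∧ r ∣ f ∧ (∃ a₀ b₀ : F₀, (∀ z₁ z₂ : F₀, z₁ ^ 2 + a₀ * z₁ * z₂ + b₀ * z₂ ^ 2 = 0 → z₁ = 0 ∧ z₂ = 0) ∧ Nonempty (↥(Cfsg.inndiagPOmegaMinus m F a b ⊓ Subgroup.centralizer {x}) ≃* ↥(Cfsg.inndiagPOmegaMinus m F₀ a₀ b₀))) ∧ Cfsg.splitClassCount (Cfsg.inndiagPOmegaMinus m F a b) (Cfsg.Inn (Cfsg.POmega F (Cfsg.quadFormMinus m F a b))) x = 1 := by
  obtain ⟨a', b', h, σ, ha, hb, ψ, -, ho, h1, h2⟩ := H25.minus_class hm hab hx
  have h5 := H25.minus_h5 (show 2 ≤ m by omega)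
  have h6 : orderOf σ = r := ((H25.oCtx (Q := H11.qMinus m F a' b') (H11.sMinus_nondeg m h) h5).orderOf_Phi_inr
    _ (by omega) (H25.sMinus_rat m ha hb)).symm.trans
      ((congrArg _ h1.symm).trans (((MulAut.congr ψ).orderOf_eq x).trans hxr))
  obtain ⟨h4, j, hj⟩ := H25.exists_emb' hF h6 F₀ hF₀
  obtain ⟨a₀, rfl⟩ := (hj _).1 ha
  obtain ⟨b₀, rfl⟩ := (hj _).1 hb
  let C := H25.oCtx (Q := H11.qMinus m F (j a₀) (j b₀)) (H11.sMinus_nondeg m h) h5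
  have hE := H25.oCtx_hE (Q := H11.qMinus m F (j a₀) (j b₀)) (H11.sMinus_nondeg m h) h5
  have h0 : H11.Aniso a₀ b₀ := fun z w e => by simpa using h (j z) (j w) (by simpa using congrArg j e)
  obtain ⟨e⟩ := H25.cent_congr _ h2 x
  obtain ⟨e'⟩ := C.cent_ker_equiv hE h5 (H25.minus_even m) hj (H25.sMinus_desc j m a₀ b₀) (H25.sMinus_rat m ha hb)
    (H25.oCtx (Q := H11.qMinus m F₀ a₀ b₀) (H11.sMinus_nondeg m h0) h5) (H25.oCtx_hE _ h5)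
  rw [H25.split_congr _ h2 (H25.inn_congr ψ)]
  rw [h1] at e ⊢
  refine ⟨h6 ▸ ho, h4, ⟨a₀, b₀, h0, ?_⟩,
    C.split_even_one hE h5 _ hj (H25.sMinus_desc j m a₀ b₀) _ (Or.inl ho)⟩
  exact ⟨(e.trans e').trans (MulEquiv.subgroupCongr (H25.inndiagMinus_eq (H11.sMinus_nondeg m h0) h5).symm)⟩

end Cfsg.Agent.S2716
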