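import Cfsg.Statements.S2717
import Cfsg.Agent.H25.OutO3
-- import your own Cfsg.Agent.* helpers here

set_option autoImplicit false
open Cfsg

namespace Cfsg.Agent.S2717

set_option maxHeartbeats 4000000 in

/-- Let T = PΩ⁺_{2m}(F) with m ≥ 5 (dimension 2m ≠ 8) and |F| = p^f, G = Inndiag(T), and x an involutory graph-field automorphism of T. Then f is even; any two involutory graph-field automorphisms of T are G-conjugate; C_G(x) is isomorphic to Inndiag(PΩ⁻_{2m}(F₀)) for a field F₀ with p^(f/2) elements (some anisotropic binary part over F₀); and the G-class of x is the union of exactly c T-classes with c = 1 if p = 2, c = 4 if p is odd, m is odd and p^(f/2) ≡ 1 (mod 4), and c = 2 otherwise. -/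
theorem result {F : Type*} [Field F] [Fintype F] {p f : ℕ} [Fact p.Prime] (hF : Fintype.card F = p ^ f) (hf : 1 ≤ f) {m : ℕ} (hm : 5 ≤ m) (x : MulAut (Cfsg.POmega F (Cfsg.quadFormPlus m F))) (hx : Cfsg.IsGraphFieldAutClassPOmegaPlus m x) (hx2 : orderOf x = 2) (F₀ : Type*) [Field F₀] [Fintype F₀] (hF₀ : Fintype.card F₀ = p ^ (f / 2)) :
    Even f ∧ (∀ y : MulAut (Cfsg.POmega F (Cfsg.quadFormPlus m F)), Cfsg.IsGraphFieldAutClassPOmegaPlus m y → orderOf y = 2 → Cfsg.IsConjUnder (Cfsg.inndiagPOmegaPlus m F) x y) ∧ (∃ a₀ b₀ : F₀, (∀ z₁ z₂ : F₀, z₁ ^ 2 + a₀ * z₁ * z₂ + b₀ * z₂ ^ 2 = 0 → z₁ = 0 ∧ z₂ = 0) ∧ Nonempty (↥(Cfsg.inndiagPOmegaPlus m F ⊓ Subgroup.centralizer {x}) ≃* ↥(Cfsg.inndiagPOmegaMinus (m - 1) F₀ a₀ b₀))) ∧ (p = 2 → Cfsg.splitClassCount (Cfsg.inndiagPOmegaPlus m F) (Cfsg.Inn (Cfsg.POmega F (Cfsg.quadFormPlus m F))) x = 1) ∧ ((p ≠ 2 ∧ Odd m ∧ p ^ (f / 2) % 4 = 1) → Cfsg.splitClassCount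 (Cfsg.inndiagPOmegaPlus m F) (Cfsg.Inn (Cfsg.POmega F (Cfsg.quadFormPlus m F))) x = 4) ∧ ((p ≠ 2 ∧ ¬ (Odd m ∧ p ^ (f / 2) % 4 = 1)) → Cfsg.splitClassCount (Cfsg.inndiagPOmegaPlus m F) (Cfsg.Inn (Cfsg.POmega F (Cfsg.quadFormPlus m F))) x = 2) := by
  obtain ⟨m, rfl⟩ : ∃ n, m = n + 1 := ⟨m - 1, by omega⟩
  have h5 := H25.plus_h5 (show 3 ≤ m + 1 by omega)
  have h5' := H25.minus_h5 (show 2 ≤ m by omega)
  let C := H25.oCtx (Q := H11.qPlus (m + 1) F) (H11.sPlus_nondeg _ F) h5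
  have hE := H25.oCtx_hE (Q := H11.qPlus (m + 1) F) (H11.sPlus_nondeg _ F) h5
  obtain ⟨y, rfl, h1, h3⟩ := H25.plus_gclass hm hx
  have h2 := C.orderOf_right hE (by omega) h1 Nat.prime_two hx2
  obtain ⟨h4, j, hj⟩ := H25.exists_emb' hF h2 F₀ hF₀
  obtain ⟨ζ, hζ⟩ := H11.exists_aniso_poly (F := F₀)
  have h0 := H11.aniso_of_poly hζ
  have D := H25.sMinus_desc j m 1 ζ
  have hS := D.nondeg_up (H11.sMinus_nondeg m h0)
  have hτ := H25.sMinus_rat m ((hj _).2 ⟨1, rfl⟩) ((hj _).2 ⟨ζ, rfl⟩)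
  obtain ⟨U, hU, h6⟩ := H25.exists_maxTS_minus hj (by simp [h2]) m 1 ζ
  have hi := hS.eqv_sPlus (H11.finrank_minus_fun m) ⟨U, hU.ts, h6⟩
  have hy : C.Phi hE y ^ orderOf y.1.right = 1 := 
    orderOf_dvd_iff_pow_eq_one.1 (dvd_of_eq (hx2.trans h2.symm))
  let C' := H25.eCtx hS h5'
  have hE' := H25.eCtx_hE hS h5'
  obtain ⟨Θ, e1, e2, e3⟩ := C'.exists_model hE' h5' (H25.minus_even m) C hE h5 (H25.plus_even _) hj D hτ hi rfl hy
    fun U hU => iff_of_false (by simp [h3 U hU]) (by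
      have := hU.dim
      rw [show Module.finrank F U = m + 1 by simp at this; omega]
      exact H11.sMinus_not_hasTS m h0)
  obtain ⟨e⟩ := H25.cent_congr _ e3 (C'.Phi hE' (H25.inrG hτ))
  have h7 := H25.split_congr _ e3 e2 (C'.Phi hE' (H25.inrG hτ))
  rw [e1] at e h7
  obtain ⟨e'⟩ := C'.cent_ker_equiv hE' h5' (H25.minus_even m) hj D hτ
    (H25.oCtx (Q := H11.qMinus m F₀ 1 ζ) (H11.sMinus_nondeg m h0) h5') (H25.oCtx_hE _ h5')
  have h8 : p ≠ 2 → _ = if Odd (m + 1) ∧ p ^ (f / 2) % 4 = 1 then 4 else 2 := fun hp => by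
    have h9 := mt (H25.two_eq_zero_iff hF).1 hp
    refine h7.symm.trans ((C'.split_even_two hE' h5' (H25.minus_even m) hj D hτ h9 h2 ?_ (m := m)
      (by simp; omega)).trans ?_)
    · rw [← C'.comm_eq_E h5', hS.negOne_mem_plus h9 (H11.finrank_minus_fun m) ⟨U, hU.ts, h6⟩, Nat.pow_mod,
        H25.card_mod_four hj h9 h2]; simp
    · rw [if_neg (H11.sMinus_not_hasTS m h0), ← hF₀, ← Nat.card_eq_fintype_card]
      have := H25.sign_iff (mt (H25.two_map_iff j).2 h9) (m + 1)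
      refine if_congr ?_ rfl rfl
      rw [← not_iff_not, ← this, neg_one_mul, neg_eq_iff_eq_neg, ← ne_eq, Int.units_ne_iff_eq_neg, neg_neg]
  rw [H25.inndiagPlus_eq h5]
  refine ⟨even_iff_two_dvd.2 h4, fun y' h h' => ?_, ⟨1, ζ, h0, ?_⟩, fun hp => h7.symm.trans
    (C'.split_even_one hE' h5' _ hj D hτ (Or.inr ((H25.two_eq_zero_iff hF).2 hp))),
    fun h => (h8 h.1).trans (if_pos h.2), fun h => (h8 h.1).trans (if_neg h.2)⟩
  · obtain ⟨y', rfl, h9, h10⟩ := H25.plus_gclass hm h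
    have h11 := C.orderOf_right hE (by omega) h9 Nat.prime_two h'
    haveI := H25.isCyclic_ringAut (F := F)
    exact C.lang_even hE h5 _ (H25.eq_of_sq_of_cyclic (orderOf_dvd_iff_pow_eq_one.1 h11.dvd)
      (orderOf_dvd_iff_pow_eq_one.1 h2.dvd) h9 h1)
      hy (orderOf_dvd_iff_pow_eq_one.1 (dvd_of_eq (h'.trans h2.symm))) fun U hU => (h3 U hU).trans (h10 U hU).symm
  · exact ⟨(e.symm.trans e').trans (MulEquiv.subgroupCongr (H25.inndiagMinus_eq (H11.sMinus_nondeg m h0) h5').symm)⟩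

end Cfsg.Agent.S2717
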