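import Cfsg.Statements.S2718
import Cfsg.Agent.H21.Og2

set_option autoImplicit false
open Cfsg

namespace Cfsg.Agent.S2718

/-- Let T = PΩ⁺_{2m}(F) with m ≥ 4 and |F| = q odd, G = Inndiag(T), and γ an involutory graph automorphism of T induced by a similarity (one interchanging the two classes of maximal totally singular subspaces). Then the G-class of γ is either a single T-class or the union of exactly two T-classes, and it is the union of two unless m is odd and q ≡ 3 (mod 4). -/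
theorem result {F : Type*} [Field F] [Fintype F] (hodd : Odd (Fintype.card F)) {m : ℕ} (hm : 4 ≤ m) (γ : MulAut (Cfsg.POmega F (Cfsg.quadFormPlus m F))) (hγ : Cfsg.IsSimilarityGraphAutPOmegaPlus m γ) (hγ2 : orderOf γ = 2) :
    (Cfsg.splitClassCount (Cfsg.inndiagPOmegaPlus m F) (Cfsg.Inn (Cfsg.POmega F (Cfsg.quadFormPlus m F))) γ = 1 ∨ Cfsg.splitClassCount (Cfsg.inndiagPOmegaPlus m F) (Cfsg.Inn (Cfsg.POmega F (Cfsg.quadFormPlus m F))) γ = 2) ∧ (¬ (Odd m ∧ Fintype.card F % 4 = 3) → Cfsg.splitClassCount (Cfsg.inndiagPOmegaPlus m F) (Cfsg.Inn (Cfsg.POmega F (Cfsg.quadFormPlus m F))) γ = 2) := by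
  haveI : Nonempty (Fin m ⊕ Fin m) := ⟨.inl ⟨0, by omega⟩⟩
  have h2 := H11.two_ne_zero_iff_odd.2 hodd
  have h5 := H25.plus_h5 (show 3 ≤ m by omega)
  have hS := H11.sPlus_nondeg m F
  have hn := H25.negOne_plus' (show 3 ≤ m by omega) h2
  rw [Nat.card_eq_fintype_card] at hn
  obtain ⟨g, h1, h3, h4⟩ := hγ
  let d : H25.GS (H11.orthS (H11.qPlus m F)) := ⟨g, H25.mem_GS_o.2 h1⟩
  obtain rfl := (H25.o_induced_iff' hS h5 d γ).1 h4
  have h6 := (Int.units_eq_one_or _).resolve_left (mt (H25.preserves_iff (Q := H11.qPlus m F) hS h5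
    (H25.plus_even m) (H11.sPlus_maxTS_inl m) d).2 h3)
  rw [H25.inndiagPlus_eq h5]
  have := H21.Og.split (H25.oCtx (Q := H11.qPlus m F) hS h5) (H25.oCtx_hE hS h5) h5 (H25.plus_even m) h2 h6
    (hγ2 ▸ pow_orderOf_eq_one _)
  exact ⟨this.1, fun h => this.2 (.inl (hn.2 h))⟩

end Cfsg.Agent.S2718
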