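import Cfsg.Statements.S2719
import Cfsg.Agent.H21.Og2

set_option autoImplicit false
open Cfsg

namespace Cfsg.Agent.S2719

/-- Let T = PΩ⁻_{2m+2}(F) with m ≥ 3 and |F| = q odd (form with anisotropic binary part z₁² + a z₁ z₂ + b z₂²), G = Inndiag(T), and γ an involutory graph automorphism of T (an automorphism in the image of the semisimilarity group, not inner-diagonal, of order 2). Then the G-class of γ is either a single T-class or the union of exactly two T-classes, and it is the union of two unless m is even and q ≡ 1 (mod 4). -/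
theorem result {F : Type*} [Field F] [Fintype F] (hodd : Odd (Fintype.card F)) {m : ℕ} (hm : 3 ≤ m) (a b : F) (hab : (∀ z₁ z₂ : F, z₁ ^ 2 + a * z₁ * z₂ + b * z₂ ^ 2 = 0 → z₁ = 0 ∧ z₂ = 0)) (γ : MulAut (Cfsg.POmega F (Cfsg.quadFormMinus m F a b))) (hγ : Cfsg.IsGraphAutClassPOmegaMinus m a b γ) (hγ2 : orderOf γ = 2) :
    (Cfsg.splitClassCount (Cfsg.inndiagPOmegaMinus m F a b) (Cfsg.Inn (Cfsg.POmega F (Cfsg.quadFormMinus m F a b))) γ = 1 ∨ Cfsg.splitClassCount (Cfsg.inndiagPOmegaMinus m F a b) (Cfsg.Inn (Cfsg.POmega F (Cfsg.quadFormMinus m F a b))) γ = 2) ∧ (¬ (Even m ∧ Fintype.card F % 4 = 1) → Cfsg.splitClassCount (Cfsg.inndiagPOmegaMinus m F a b) (Cfsg.Inn (Cfsg.POmega F (Cfsg.quadFormMinus m F a b))) γ = 2) := by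
  have h2 := H11.two_ne_zero_iff_odd.2 hodd
  have h5 := H25.minus_h5 (show 2 ≤ m by omega)
  have hS := H11.sMinus_nondeg m hab
  have hn := H25.negOne_minus' (show 2 ≤ m by omega) h2 hab
  rw [Nat.card_eq_fintype_card] at hn
  obtain ⟨h1, h3, -⟩ := hγ
  rw [show gammaPOmega F (quadFormMinus m F a b) = _ from H25.gammaPOmega_eq (Q := H11.qMinus m F a b) hS h5] at h1
  rw [H25.inndiagMinus_eq hS h5] at h3 ⊢
  obtain ⟨y, rfl⟩ := h1
  let C := H25.oCtx (Q := H11.qMinus m F a b) hS h5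
  have hE := H25.oCtx_hE (Q := H11.qMinus m F a b) hS h5
  have h7 : C.Phi hE y ^ 2 = 1 := orderOf_dvd_iff_pow_eq_one.1 (dvd_of_eq hγ2)
  obtain ⟨d, rfl⟩ : y ∈ (H25.gsI _).range := by
    rw [← H25.ker_fld]
    by_contra h4
    have h6 := C.orderOf_right hE (by omega) h4 Nat.prime_two hγ2
    obtain ⟨c, hc⟩ := (C.Phi_eq_one hE (by omega) (y ^ 2)).1 ((map_pow _ _ _).trans h7)
    simpa using H25.dk_pow_even (show 2 ≤ m by omega) hab y (by simp [h6]) (g := H25.scS _ c) (by rw [h6]; exact hc)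
  have h6 := (Int.units_eq_one_or (C.dk h5 (H25.minus_even m) d)).resolve_left fun h => h3 ⟨d, h, rfl⟩
  have := H21.Og.split C hE h5 (H25.minus_even m) h2 h6 h7
  refine ⟨this.1, fun h => this.2 ?_⟩
  rcases Nat.even_or_odd m with e | ⟨k, e⟩
  · refine .inl (hn.2 ⟨e, ?_⟩)
    have := Nat.odd_iff.1 hodd
    have : ¬ Fintype.card F % 4 = 1 := fun h' => h ⟨e, h'⟩
    omega
  · exact .inr ⟨k + 1, by simp; omega⟩

end Cfsg.Agent.S2719
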