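import Cfsg.Statements.S2723
import Cfsg.Agent.H25.OutO1
-- import your own Cfsg.Agent.* helpers here

set_option autoImplicit false
open Cfsg

namespace Cfsg.Agent.S2723

/-- Let T = PΩ⁺_{2m}(F) with m ≥ 4 and |F| = q odd. The image of the special orthogonal group in Aut(T) contains the inner automorphism group T with index 1 (they coincide) when m is odd and q ≡ 3 (mod 4), and with index 2 otherwise (the index is 2 exactly when the discriminant of the form is a square). -/
theorem result {F : Type*} [Field F] [Fintype F] (hodd : Odd (Fintype.card F)) {m : ℕ} (hm : 4 ≤ m) :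
    ((Odd m ∧ Fintype.card F % 4 = 3) → (Cfsg.Inn (Cfsg.POmega F (Cfsg.quadFormPlus m F))).relIndex (Cfsg.psoAut F (Cfsg.quadFormPlus m F)) = 1) ∧ (¬ (Odd m ∧ Fintype.card F % 4 = 3) → (Cfsg.Inn (Cfsg.POmega F (Cfsg.quadFormPlus m F))).relIndex (Cfsg.psoAut F (Cfsg.quadFormPlus m F)) = 2) := by
  haveI : Nonempty (Fin m ⊕ Fin m) := ⟨.inl ⟨0, by omega⟩⟩
  have h2 := H11.two_ne_zero_iff_odd.2 hodd
  have h5 := H25.plus_h5 (show 3 ≤ m by omega)
  have hS := H11.sPlus_nondeg m F
  have hn := H25.negOne_plus' (show 3 ≤ m by omega) h2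
  rw [Nat.card_eq_fintype_card] at hn
  have he := H25.plus_even m
  let C := H25.oCtx (Q := H11.qPlus m F) hS h5
  have hE := H25.oCtx_hE (Q := H11.qPlus m F) hS h5
  rw [show psoAut F (quadFormPlus m F) = _ from H25.psoAut_eq (Q := H11.qPlus m F) hS h5]
  exact ⟨fun h => (C.pso_relIndex hE h5 he h2).trans (if_neg fun h' => hn.1 h' h),
    fun h => (C.pso_relIndex hE h5 he h2).trans (if_pos (hn.2 h))⟩

end Cfsg.Agent.S2723
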