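import Cfsg.Statements.S2725
import Cfsg.Agent.H25.OutO1
-- import your own Cfsg.Agent.* helpers here

set_option autoImplicit false
open Cfsg

namespace Cfsg.Agent.S2725

/-- Let T = PΩ⁺_{2m}(F) with m ≥ 4 and |F| = q odd. The inner-diagonal group G = Inndiag(T) (image of the class-preserving similarities) taken modulo the inner automorphism group T is cyclic of order 2 when m is odd and q ≡ 3 (mod 4), cyclic of order 4 when m is odd and q ≡ 1 (mod 4), and elementary abelian of order 4 when m is even. -/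
theorem result {F : Type*} [Field F] [Fintype F] (hodd : Odd (Fintype.card F)) {m : ℕ} (hm : 4 ≤ m) :
    ((Odd m ∧ Fintype.card F % 4 = 3) → (∃ φ : ↥(Cfsg.inndiagPOmegaPlus m F) →* Multiplicative (ZMod 2), Function.Surjective φ ∧ φ.ker = (Cfsg.Inn (Cfsg.POmega F (Cfsg.quadFormPlus m F))).subgroupOf (Cfsg.inndiagPOmegaPlus m F))) ∧ ((Odd m ∧ Fintype.card F % 4 = 1) → (∃ φ : ↥(Cfsg.inndiagPOmegaPlus m F) →* Multiplicative (ZMod 4), Function.Surjective φ ∧ φ.ker = (Cfsg.Inn (Cfsg.POmega F (Cfsg.quadFormPlus m F))).subgroupOf (Cfsg.inndiagPOmegaPlus m F))) ∧ (Even m → (∃ φ : ↥(Cfsg.inndiagPOmegaPlus m F) →* Multiplicative (ZMod 2 × ZMod 2), Function.Surjective φ ∧ φ.ker = (Cfsg.Inn (Cfsg.POmega F (Cfsg.quadFormPlus m F))).subgroupOf (Cfsg.inndiagPOmegaPlus m F))) := by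
  haveI : Nonempty (Fin m ⊕ Fin m) := ⟨.inl ⟨0, by omega⟩⟩
  have h2 := H11.two_ne_zero_iff_odd.2 hodd
  have h5 := H25.plus_h5 (show 3 ≤ m by omega)
  have hS := H11.sPlus_nondeg m F
  have hn := H25.negOne_plus' (show 3 ≤ m by omega) h2
  rw [Nat.card_eq_fintype_card] at hn
  have he := H25.plus_even m
  let C := H25.oCtx (Q := H11.qPlus m F) hS h5
  have hE := H25.oCtx_hE (Q := H11.qPlus m F) hS h5
  have hc : Fintype.card (Fin m ⊕ Fin m) / 2 = m := by simp; omega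
  rw [H25.inndiagPlus_eq h5]
  exact ⟨fun h => H25.exists_hom_of_map_equiv (C.PhiS hE) _ (Inn _) (H25.equiv_two (C.ker_two hE h5 he h2 fun h' => hn.1 h' h)),
    fun h => H25.exists_hom_of_map_equiv (C.PhiS hE) _ (Inn _) (C.ker_cyc hE h5 he h2 (hn.2 (by omega)) (hc.symm ▸ h.1)),
    fun h => H25.exists_hom_of_map_equiv (C.PhiS hE) _ (Inn _) (C.ker_klein hE h5 he h2
      (hn.2 fun h' => Nat.not_odd_iff_even.2 h h'.1) (hc.symm ▸ h))⟩

end Cfsg.Agent.S2725
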