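import Cfsg.Statements.S2726
import Cfsg.Agent.H25.OutO1
-- import your own Cfsg.Agent.* helpers here

set_option autoImplicit false
open Cfsg

namespace Cfsg.Agent.S2726

/-- Let T = PΩ⁻_{2m+2}(F) with m ≥ 3 and |F| = q odd (form with anisotropic binary part). Inside Aut(T), the image G̃ of the conformal orthogonal group of the form modulo the image of the special orthogonal group is elementary abelian of order 4. -/
theorem result {F : Type*} [Field F] [Fintype F] (hodd : Odd (Fintype.card F)) {m : ℕ} (hm : 3 ≤ m) (a b : F) (hab : (∀ z₁ z₂ : F, z₁ ^ 2 + a * z₁ * z₂ + b * z₂ ^ 2 = 0 → z₁ = 0 ∧ z₂ = 0)) :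
    (∃ φ : ↥(Cfsg.pgoAut F (Cfsg.quadFormMinus m F a b)) →* Multiplicative (ZMod 2 × ZMod 2), Function.Surjective φ ∧ φ.ker = (Cfsg.psoAut F (Cfsg.quadFormMinus m F a b)).subgroupOf (Cfsg.pgoAut F (Cfsg.quadFormMinus m F a b))) := by
  have h2 := H11.two_ne_zero_iff_odd.2 hodd
  have h5 := H25.minus_h5 (show 2 ≤ m by omega)
  have hS := H11.sMinus_nondeg m hab
  have hn := H25.negOne_minus' (show 2 ≤ m by omega) h2 hab
  rw [Nat.card_eq_fintype_card] at hn
  have he := H25.minus_even m
  let C := H25.oCtx (Q := H11.qMinus m F a b) hS h5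
  have hE := H25.oCtx_hE (Q := H11.qMinus m F a b) hS h5
  rw [show pgoAut F (quadFormMinus m F a b) = _ from H25.pgoAut_eq (Q := H11.qMinus m F a b) hS h5,
    show psoAut F (quadFormMinus m F a b) = _ from H25.psoAut_eq (Q := H11.qMinus m F a b) hS h5]
  exact C.pgo_pso hE h5 he h2

end Cfsg.Agent.S2726
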