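import Cfsg.Statements.S2727
import Cfsg.Agent.H25.OutO1
-- import your own Cfsg.Agent.* helpers here

set_option autoImplicit false
open Cfsg

namespace Cfsg.Agent.S2727

/-- Let T = PΩ⁻_{2m+2}(F) with m ≥ 3 and |F| = q odd (form with anisotropic binary part). The image of the special orthogonal group in Aut(T) contains the inner automorphism group T with index 2 when m is even and q ≡ 3 (mod 4), and coincides with it otherwise (the index is 2 exactly when the discriminant of the form is a square). -/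
theorem result {F : Type*} [Field F] [Fintype F] (hodd : Odd (Fintype.card F)) {m : ℕ} (hm : 3 ≤ m) (a b : F) (hab : (∀ z₁ z₂ : F, z₁ ^ 2 + a * z₁ * z₂ + b * z₂ ^ 2 = 0 → z₁ = 0 ∧ z₂ = 0)) :
    ((Even m ∧ Fintype.card F % 4 = 3) → (Cfsg.Inn (Cfsg.POmega F (Cfsg.quadFormMinus m F a b))).relIndex (Cfsg.psoAut F (Cfsg.quadFormMinus m F a b)) = 2) ∧ (¬ (Even m ∧ Fintype.card F % 4 = 3) → (Cfsg.Inn (Cfsg.POmega F (Cfsg.quadFormMinus m F a b))).relIndex (Cfsg.psoAut F (Cfsg.quadFormMinus m F a b)) = 1) := by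
  have h2 := H11.two_ne_zero_iff_odd.2 hodd
  have h5 := H25.minus_h5 (show 2 ≤ m by omega)
  have hS := H11.sMinus_nondeg m hab
  have hn := H25.negOne_minus' (show 2 ≤ m by omega) h2 hab
  rw [Nat.card_eq_fintype_card] at hn
  have he := H25.minus_even m
  let C := H25.oCtx (Q := H11.qMinus m F a b) hS h5
  have hE := H25.oCtx_hE (Q := H11.qMinus m F a b) hS h5
  rw [show psoAut F (quadFormMinus m F a b) = _ from H25.psoAut_eq (Q := H11.qMinus m F a b) hS h5]
  exact ⟨fun h => (C.pso_relIndex hE h5 he h2).trans (if_pos (hn.2 h)),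
    fun h => (C.pso_relIndex hE h5 he h2).trans (if_neg (mt hn.1 h))⟩

end Cfsg.Agent.S2727
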