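import Cfsg.Statements.S2729
import Cfsg.Agent.H25.OutO1
-- import your own Cfsg.Agent.* helpers here

set_option autoImplicit false
open Cfsg

namespace Cfsg.Agent.S2729

/-- Let T = PΩ⁻_{2m+2}(F) with m ≥ 3 and |F| = q odd (form with anisotropic binary part). The inner-diagonal group G = Inndiag(T) (image of the class-preserving similarities) taken modulo the inner automorphism group T is cyclic of order 4 when m is even and q ≡ 3 (mod 4), and of order 2 otherwise. -/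
theorem result {F : Type*} [Field F] [Fintype F] (hodd : Odd (Fintype.card F)) {m : ℕ} (hm : 3 ≤ m) (a b : F) (hab : (∀ z₁ z₂ : F, z₁ ^ 2 + a * z₁ * z₂ + b * z₂ ^ 2 = 0 → z₁ = 0 ∧ z₂ = 0)) :
    ((Even m ∧ Fintype.card F % 4 = 3) → (∃ φ : ↥(Cfsg.inndiagPOmegaMinus m F a b) →* Multiplicative (ZMod 4), Function.Surjective φ ∧ φ.ker = (Cfsg.Inn (Cfsg.POmega F (Cfsg.quadFormMinus m F a b))).subgroupOf (Cfsg.inndiagPOmegaMinus m F a b))) ∧ (¬ (Even m ∧ Fintype.card F % 4 = 3) → (∃ φ : ↥(Cfsg.inndiagPOmegaMinus m F a b) →* Multiplicative (ZMod 2), Function.Surjective φ ∧ φ.ker = (Cfsg.Inn (Cfsg.POmega F (Cfsg.quadFormMinus m F a b))).subgroupOf (Cfsg.inndiagPOmegaMinus m F a b))) := by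
  have h2 := H11.two_ne_zero_iff_odd.2 hodd
  have h5 := H25.minus_h5 (show 2 ≤ m by omega)
  have hS := H11.sMinus_nondeg m hab
  have hn := H25.negOne_minus' (show 2 ≤ m by omega) h2 hab
  rw [Nat.card_eq_fintype_card] at hn
  have he := H25.minus_even m
  let C := H25.oCtx (Q := H11.qMinus m F a b) hS h5
  have hE := H25.oCtx_hE (Q := H11.qMinus m F a b) hS h5
  have hc : Fintype.card ((Fin m ⊕ Fin m) ⊕ Fin 2) / 2 = m + 1 := by simp; omega
  rw [H25.inndiagMinus_eq hS h5]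
  exact ⟨fun h => H25.exists_hom_of_map_equiv (C.PhiS hE) _ (Inn _) (C.ker_cyc hE h5 he h2 (hn.2 h) (hc.symm ▸ h.1.add_one)),
    fun h => H25.exists_hom_of_map_equiv (C.PhiS hE) _ (Inn _) (H25.equiv_two (C.ker_two hE h5 he h2 (mt hn.1 h)))⟩

end Cfsg.Agent.S2729
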