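import Cfsg.Statements.S2734
import Cfsg.Agent.H12.Fold

set_option autoImplicit false
open Cfsg

namespace Cfsg.Agent.S2734
open H12 H13 Cfsg.Lie

/-- In the Chevalley group of type D₄ over a finite field F (the matrix group generated by the root elements), a graph automorphism attached to a symmetry π of the Dynkin diagram (sending each fundamental root element x_p(t) to x_{π(p)}(t) and each x_{−p}(t) to x_{−π(p)}(t)) that has order 3 — a standard triality graph automorphism, π being a 3-cycle of the three outer nodes — has fixed-point subgroup isomorphic to the Chevalley group of type G₂ over F. -/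
theorem result {F : Type*} [Field F] [Fintype F] (τ : MulAut ↥(Cfsg.Lie.chevD4.group F)) (hτ : Cfsg.Lie.chevD4.IsGraphAut τ) (hτ3 : orderOf τ = 3) :
    Nonempty (↥(MonoidHom.eqLocus τ.toMonoidHom (MonoidHom.id ↥(Cfsg.Lie.chevD4.group F))) ≃* ↥(Cfsg.Lie.chevG2.group F)) := by
  obtain ⟨π, h2, h3⟩ := H24.isGraphAut_iff.1 hτ
  obtain ⟨l, hl, h4⟩ := H24.exists_has H24.sym_D4 h2
  have c := H24.cpres_D4 l hl
  have m : H24.Mon τ π 1 1 := ⟨fun i t => by simpa [c.graphExp h4] using (h3 i t).1, fun i t => by simpa [c.graphExp h4] using (h3 i t).2⟩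
  have key : ∀ {σ : MulAut (chevD4.group F)} {ρ : Equiv.Perm (I chevD4)}, H24.Mon σ ρ 1 1 → H24.Has ρ [2, 1, 3, 0] → (∀ a, τ a = a ↔ σ a = a) →
      Nonempty (↥(MonoidHom.eqLocus τ.toMonoidHom (MonoidHom.id ↥(Cfsg.Lie.chevD4.group F))) ≃* ↥(Cfsg.Lie.chevG2.group F)) := fun {σ ρ} a b d => by
    have c := H24.cpres_D4 [2, 1, 3, 0] (by decide)
    obtain ⟨e⟩ := fix_equiv (τ := (tw4 (.id F)).toTw) (α := σ) (A := MonoidHom.eqLocus τ.toMonoidHom (.id _)) (fun x => by
      rw [fix_eq chk_gD4a sim_gD4a (Or.inl rfl) (α := σ) (fun i t => ⟨by simpa [c.graphExp b] using a.pos i t, by simpa [c.graphExp b] using a.neg i t⟩)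
        b c (by decide)]; exact adTw_σ ..) d
    exact ⟨e.trans fixD4.some⟩
  have m2 : H24.Mon (τ * τ) (π * π) 1 1 := by simpa [Pi.one_def] using m.mul m
  have k2 : l.length = 4 → H24.Has (π * π) (l.map fun i => l.getD i 0) := h4.mul h4
  have k3 : ¬ H24.Has (π * π) (List.range 4) := fun h => by
    have := orderOf_dvd_of_pow_eq_one ((sq τ).trans ((h.eq H24.has_one ▸ m2).ext H24.Mon.one))
    rw [hτ3] at this; omega
  simp only [H24.LD4, List.mem_cons, List.not_mem_nil, or_false] at hl
  rcases hl with rfl | rfl | rfl | rfl | rfl | rfl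
  exacts [(k3 (k2 rfl)).elim, key m h4 fun _ => Iff.rfl, key m2 (k2 rfl) fun a => ⟨fun h => by simp [h], fun h => by
    have := congrArg (· a) (hτ3 ▸ pow_orderOf_eq_one τ); simpa [pow_three, show τ (τ a) = a from h] using this⟩, (k3 (k2 rfl)).elim, (k3 (k2 rfl)).elim,
    (k3 (k2 rfl)).elim]

end Cfsg.Agent.S2734
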