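import Cfsg.Statements.S2735
import Cfsg.Agent.H25.OutO3
-- import your own Cfsg.Agent.* helpers here

set_option autoImplicit false
open Cfsg

namespace Cfsg.Agent.S2735

/-- Let T = Ω_{2m+1}(F) (m ≥ 3, |F| odd) and x a field automorphism of T of prime order r. Then an element y of the coset Inndiag(T)·x (y = δ x with δ induced by a similarity of the form) has order r if and only if y is conjugate to x by an element of Inndiag(T). (T has no graph or graph-field automorphisms.) -/
theorem result {F : Type*} [Field F] [Fintype F] (hodd : Odd (Fintype.card F)) {m : ℕ} (hm : 3 ≤ m) (x δ : MulAut (Cfsg.POmega F (Cfsg.quadFormOdd m F))) (hx : Cfsg.IsFieldAutClassPOmega (Cfsg.quadFormOdd m F) x) {r : ℕ} (hr : r.Prime) (hxr : orderOf x = r) (hδ : δ ∈ Cfsg.inndiagPOmegaOdd m F) :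
    orderOf (δ * x) = r ↔ Cfsg.IsConjUnder (Cfsg.inndiagPOmegaOdd m F) x (δ * x) := by
  have h2 := H11.two_ne_zero_iff_odd.2 hodd
  have h5 := H25.odd_h5 (show 2 ≤ m by omega)
  have hS := H11.sOdd_nondeg m h2
  let C := H25.oCtx (Q := H11.qOdd m F) hS h5
  have hE := H25.oCtx_hE (Q := H11.qOdd m F) hS h5
  rw [H25.inndiagOdd_eq hS h5] at hδ ⊢
  haveI := C.normal_range_PhiS hE (H25.odd_surj hS hm)
  obtain ⟨α, φ, σ, -, h1, hσ⟩ := hx
  obtain rfl := (H25.o_std_iff (Q := H11.qOdd m F) hS h5 (H25.sOdd_rat m σ) _).1 h1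
  have h1 : orderOf σ = r := (C.orderOf_Phi_inr hE (by omega) (H25.sOdd_rat m σ)).symm.trans
    ((congrArg _ hσ.symm).trans (((MulAut.conj α).orderOf_eq x).trans hxr))
  refine H25.isConjUnder_iff_orderOf (C.PhiS hE).range hσ hxr hδ ?_
  rintro _ ⟨g, rfl⟩ h
  simpa using C.lang_odd hE h5 (H25.odd_odd m) (y := H25.inrG (H25.sOdd_rat m σ))
    (y' := H25.gsI _ g * H25.inrG (H25.sOdd_rat m σ)) (by simp)
    (by rw [SemidirectProduct.right_inr, ← C.orderOf_Phi_inr hE (by omega) (H25.sOdd_rat m σ), pow_orderOf_eq_one])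
    (by simpa [h1] using h)

end Cfsg.Agent.S2735
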