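import Cfsg.Statements.S2736
import Cfsg.Agent.H25.OutO3
-- import your own Cfsg.Agent.* helpers here

set_option autoImplicit false
open Cfsg

namespace Cfsg.Agent.S2736

/-- Let T = PΩ⁺_{2m}(F) with m ≥ 5 (dimension ≠ 8) and x a field automorphism or a graph-field automorphism of T of prime order r. Then an element y of the coset Inndiag(T)·x (y = δ x with δ induced by a class-preserving similarity) has order r if and only if y is conjugate to x by an element of Inndiag(T). -/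
theorem result {F : Type*} [Field F] [Fintype F] {m : ℕ} (hm : 5 ≤ m) (x δ : MulAut (Cfsg.POmega F (Cfsg.quadFormPlus m F))) (hx : Cfsg.IsFieldAutClassPOmega (Cfsg.quadFormPlus m F) x ∨ Cfsg.IsGraphFieldAutClassPOmegaPlus m x) {r : ℕ} (hr : r.Prime) (hxr : orderOf x = r) (hδ : δ ∈ Cfsg.inndiagPOmegaPlus m F) :
    orderOf (δ * x) = r ↔ Cfsg.IsConjUnder (Cfsg.inndiagPOmegaPlus m F) x (δ * x) := by
  haveI : Nonempty (Fin m ⊕ Fin m) := ⟨.inl ⟨0, by omega⟩⟩
  have h5 := H25.plus_h5 (show 3 ≤ m by omega)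
  let C := H25.oCtx (Q := H11.qPlus m F) (H11.sPlus_nondeg m F) h5
  have hE := H25.oCtx_hE (Q := H11.qPlus m F) (H11.sPlus_nondeg m F) h5
  rw [H25.inndiagPlus_eq h5] at hδ ⊢
  obtain ⟨y, rfl, h1⟩ : ∃ y, x = C.Phi hE y ∧ y.1.right ≠ 1 :=
    hx.elim (fun h => (H25.plus_class hm h).imp fun _ h => ⟨h.1, h.2.1⟩)
      fun h => (H25.plus_gclass hm h).imp fun _ h => ⟨h.1, h.2.1⟩
  obtain ⟨g, hg, rfl⟩ := hδ
  have h2 := C.orderOf_right hE (by omega) h1 hr hxr
  refine ⟨fun h => ?_, fun ⟨k, _, e⟩ => (congrArg _ e).trans (((MulAut.conj k).orderOf_eq _).trans hxr)⟩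
  have := C.lang_even hE h5 (H25.plus_even m) (y := y) (y' := H25.gsI _ g * y) (by simp)
    (by rw [h2, ← hxr]; exact pow_orderOf_eq_one _) (by rw [h2, ← h, map_mul]; exact pow_orderOf_eq_one _)
    fun U hU => by rw [map_mul, H25.par_gsI _ h5 (H25.plus_even m), hg, one_mul]
  rwa [map_mul] at this

end Cfsg.Agent.S2736
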