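import Cfsg.Statements.S2737
import Cfsg.Agent.H25.OutO3
-- import your own Cfsg.Agent.* helpers here

set_option autoImplicit false
open Cfsg

namespace Cfsg.Agent.S2737

/-- Let T = PΩ⁻_{2m+2}(F) (m ≥ 3; form with anisotropic binary part) and x a field automorphism of T of prime order r. Then an element y of the coset Inndiag(T)·x has order r if and only if y is conjugate to x by an element of Inndiag(T). (T has no graph-field automorphisms.) -/
theorem result {F : Type*} [Field F] [Fintype F] {m : ℕ} (hm : 3 ≤ m) (a b : F) (hab : (∀ z₁ z₂ : F, z₁ ^ 2 + a * z₁ * z₂ + b * z₂ ^ 2 = 0 → z₁ = 0 ∧ z₂ = 0)) (x δ : MulAut (Cfsg.POmega F (Cfsg.quadFormMinus m F a b))) (hx : Cfsg.IsFieldAutClassPOmegaMinus m x) {r : ℕ} (hr : r.Prime) (hxr : orderOf x = r) (hδ : δ ∈ Cfsg.inndiagPOmegaMinus m F a b) :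
    orderOf (δ * x) = r ↔ Cfsg.IsConjUnder (Cfsg.inndiagPOmegaMinus m F a b) x (δ * x) := by
  obtain ⟨a', b', h, σ, ha, hb, ψ, -, -, h1, h2⟩ := H25.minus_class hm hab hx
  have h5 := H25.minus_h5 (show 2 ≤ m by omega)
  let C := H25.oCtx (Q := H11.qMinus m F a' b') (H11.sMinus_nondeg m h) h5
  have hE := H25.oCtx_hE (Q := H11.qMinus m F a' b') (H11.sMinus_nondeg m h) h5
  refine ⟨fun h3 => ?_, fun ⟨k, _, e⟩ => (congrArg _ e).trans (((MulAut.conj k).orderOf_eq _).trans hxr)⟩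
  rw [H25.isConjUnder_congr _ h2, map_mul, h1]
  rw [h2] at hδ
  rw [← (MulAut.congr ψ).orderOf_eq, map_mul, h1] at h3
  rw [← (MulAut.congr ψ).orderOf_eq, h1] at hxr
  obtain ⟨g, hg, h4⟩ := hδ
  have h6 := (C.orderOf_Phi_inr hE (by omega) (H25.sMinus_rat m ha hb)).symm.trans hxr
  have := C.lang_even hE h5 (H25.minus_even m) (y := H25.inrG (H25.sMinus_rat m ha hb))
    (y' := H25.gsI _ g * H25.inrG (H25.sMinus_rat m ha hb)) (by simp)
    (orderOf_dvd_iff_pow_eq_one.1 (dvd_of_eq (hxr.trans h6.symm)))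
    (orderOf_dvd_iff_pow_eq_one.1 (dvd_of_eq (by
      rw [map_mul, show C.Phi hE (H25.gsI _ g) = _ from h4]; exact h3.trans h6.symm)))
    fun U hU => (H25.not_maxTS_minus h U hU).elim
  rwa [map_mul, show C.Phi hE (H25.gsI _ g) = _ from h4] at this

end Cfsg.Agent.S2737
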