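import Cfsg.Statements.S2738
import Cfsg.Agent.H10.SL

set_option autoImplicit false
open Cfsg

open Subgroup
open scoped commutatorElement

namespace Cfsg.Agent.S2738

theorem aux {G : Type*} [Group G] {K : Subgroup G} (hK : (center G).IsComplement' K) :
    commutator G ≤ K := by
  rw [commutator_def, commutator_le]
  intro a _ b _
  obtain ⟨⟨⟨z, hz⟩, ⟨k, hk⟩⟩, rfl, -⟩ := hK.existsUnique a
  obtain ⟨⟨⟨w, hw⟩, ⟨l, hl⟩⟩, rfl, -⟩ := hK.existsUnique b
  have : ⁅z * k, w * l⁆ = k * l * (k⁻¹ * l⁻¹) := by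
    have hz := mem_center_iff.1 hz
    rw [commutatorElement_def, ← hz, ← mem_center_iff.1 hw, mul_inv_rev, mul_inv_rev]
    calc _ = k * (z * (l * w)) * (z⁻¹ * (k⁻¹ * w⁻¹)) * l⁻¹ := by simp only [mul_assoc]
      _ = k * (l * w * z) * (z⁻¹ * (w⁻¹ * k⁻¹)) * l⁻¹ := by
        rw [hz, mem_center_iff.1 (inv_mem hw)]
      _ = k * l * w * w⁻¹ * k⁻¹ * l⁻¹ := by group
      _ = _ := by group
  exact this ▸ mul_mem (mul_mem hk hl) (mul_mem (inv_mem hk) (inv_mem hl))

/-- The special linear group SL(3, 4) has centre of order 3 and does not split over it: no subgroup is a complement to the centre (so SL(3, 4) is a non-split central extension of PSL(3, 4) by a group of order 3). -/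
theorem result (F : Type*) [Field F] [Fintype F] (hF : Fintype.card F = 4) : Nat.card ↥(Subgroup.center (Matrix.SpecialLinearGroup (Fin 3) F)) = 3 ∧ ¬ ∃ K : Subgroup (Matrix.SpecialLinearGroup (Fin 3) F), Subgroup.IsComplement' (Subgroup.center (Matrix.SpecialLinearGroup (Fin 3) F)) K := by
  have h3 : Nat.card ↥(center (Matrix.SpecialLinearGroup (Fin 3) F)) = 3 := by
    rw [H10.card_center_SL, Nat.card_eq_fintype_card, hF]; rfl
  refine ⟨h3, fun ⟨K, hK⟩ => ?_⟩
  have h1 := aux hK
  rw [H10.commutator_SL_eq_top (by simp), top_le_iff] at h1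
  have := hK.disjoint
  rw [h1, disjoint_top] at this
  simp [this] at h3

end Cfsg.Agent.S2738
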