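import Cfsg.Statements.S2739
import Cfsg.Agent.H19.U32

set_option autoImplicit false
open scoped Pointwise
open Cfsg

namespace Cfsg.Agent.S2739
open Matrix Subgroup
open scoped MatrixGroups Pointwise

theorem conj {F : Type*} [Field F] [Fintype F] (hF : Fintype.card F = 4) (h2 : (2 : F) = 0) {ω : F} (hω : ω ^ 2 + ω + 1 = 0)
    {A : Matrix (Fin 3) (Fin 3) F} (hd : A.det = 1) (ns : ∀ c d : F, c • A = d • 1 → c = 0) {z : F} (h : A * A * A = z • 1) (hz : z ^ 3 = 1) :
    ∃ g : SL(3, F), A * g.1 = g.1 * diagonal ![1, ω, ω ^ 2] := by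
  have one : ∀ d : F, d • (1 : Matrix (Fin 3) (Fin 3) F) = 0 → d = 0 := fun d h => by simpa using h
  have ch : A * A * A = A.trace • (A * A) - A.adjugate.trace • A + A.det • 1 := by
    ext i j
    fin_cases i <;> fin_cases j <;> simp [mul_apply, Fin.sum_univ_three, trace_fin_three, adjugate_fin_three, det_fin_three] <;> ring
  have dt : ∀ μ : F, (A - μ • 1).det = A.det - A.adjugate.trace * μ + A.trace * μ ^ 2 - μ ^ 3 := fun μ => by
    simp [trace_fin_three, adjugate_fin_three, det_fin_three]; ring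
  rw [hd] at ch dt
  generalize A.trace = t at ch dt
  generalize A.adjugate.trace = s at ch dt
  obtain ⟨rfl, rfl⟩ : t = 0 ∧ s = 0 := by
    by_cases e : t = 0
    · exact ⟨e, ns s (1 - z) (by rw [e] at ch; linear_combination (norm := module) ch - h)⟩
    have e1 : t • (A * A) = s • A + (z - 1) • 1 := by linear_combination (norm := module) h - ch
    have e2 : (s ^ 2 + t * (z - 1)) • A = (t ^ 2 * z - s * (z - 1)) • 1 := by
      have := congrArg (· * A) e1
      simp only [smul_mul_assoc, add_mul, one_mul, h] at this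
      linear_combination (norm := module) -t • this - s • e1
    have e3 := ns _ _ e2
    have e4 := one _ (by rw [← e2, e3, zero_smul])
    have t3 := FiniteField.pow_card_sub_one_eq_one t e
    have s4 := FiniteField.pow_card s
    rw [hF] at t3 s4
    grind
  have ev : ∀ i, ∃ v ≠ 0, A *ᵥ v = ![1, ω, ω ^ 2] i • v := fun i => by
    obtain ⟨v, a, b⟩ := exists_mulVec_eq_zero_iff.2 ((dt (![1, ω, ω ^ 2] i)).trans (by fin_cases i <;> simp <;> grind))
    exact ⟨v, a, by simpa [sub_mulVec, smul_mulVec, sub_eq_zero] using b⟩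
  choose v v0 hv using ev
  have ω1 : ω ≠ 1 := fun e => one_ne_zero (α := F) (by rw [e] at hω; linear_combination hω - h2)
  have li := Module.End.eigenvectors_linearIndependent' (toLin' A) ![1, ω, ω ^ 2] (fun i j e => by
    fin_cases i <;> fin_cases j <;> simp at e ⊢ <;> grind) v fun i => ⟨Module.End.mem_eigenspace_iff.2 (hv i), v0 i⟩
  have u : (of v)ᵀ.det ≠ 0 := by
    rw [det_transpose]; exact ((isUnit_iff_isUnit_det _).1 (linearIndependent_rows_iff_isUnit.1 li)).ne_zero
  refine ⟨⟨(of v)ᵀ * diagonal ![((of v)ᵀ.det)⁻¹, 1, 1], by simp [Fin.prod_univ_three, -det_transpose, u]⟩, ?_⟩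
  ext i j
  have := congrFun (hv j) i
  simp only [← mul_assoc, mul_diagonal]
  simp only [mulVec, dotProduct, Pi.smul_apply, smul_eq_mul] at this
  simp only [mul_apply, transpose_apply, of_apply, this]
  ring

/-- In the projective special linear group PSL(3, 4) all subgroups of order 3 are conjugate. -/
theorem result (F : Type*) [Field F] [Fintype F] (hF : Fintype.card F = 4) (X Y : Subgroup (Matrix.ProjectiveSpecialLinearGroup (Fin 3) F)) (hX : Nat.card ↥X = 3) (hY : Nat.card ↥Y = 3) : ∃ g : Matrix.ProjectiveSpecialLinearGroup (Fin 3) F, MulAut.conj g • X = Y := by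
  have := Fact.mk Nat.prime_three
  obtain ⟨h2, ω, hω⟩ := H19.U32.exists_ω hF
  let D : SL(3, F) := ⟨diagonal ![1, ω, ω ^ 2], by simp [Fin.prod_univ_three]; grind⟩
  have key : ∀ X : Subgroup PSL(3, F), Nat.card X = 3 → ∃ g : PSL(3, F), MulAut.conj g • X = zpowers (QuotientGroup.mk D) := fun X hX => by
    obtain ⟨x, rfl⟩ := X.isCyclic_iff_exists_zpowers_eq_top.1 (isCyclic_of_prime_card hX)
    obtain ⟨B, rfl⟩ := QuotientGroup.mk_surjective x
    rw [Nat.card_zpowers] at hX
    have h1 := pow_orderOf_eq_one (QuotientGroup.mk B : PSL(3, F))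
    rw [hX, ← QuotientGroup.mk_pow, QuotientGroup.eq_one_iff, Matrix.SpecialLinearGroup.mem_center_iff] at h1
    obtain ⟨z, hz, h1⟩ := h1
    have ns : ∀ c d : F, c • B.1 = d • 1 → c = 0 := fun c d h => by_contra fun e => by
      have : (QuotientGroup.mk B : PSL(3, F)) = 1 := (QuotientGroup.eq_one_iff _).2 (mem_center_iff.2 fun g => Subtype.ext
        (show g.1 * B.1 = B.1 * g.1 from smul_right_injective _ e (by
          change c • _ = c • _
          rw [← mul_smul_comm, ← smul_mul_assoc, h]; simp)))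
      rw [this, orderOf_one] at hX
      omega
    obtain ⟨g, hg⟩ := conj hF h2 hω B.2 ns (z := z) (by rw [← pow_three', ← Matrix.SpecialLinearGroup.coe_pow, ← h1]; simp [smul_eq_diagonal_mul])
      (by simpa using hz)
    refine ⟨QuotientGroup.mk g⁻¹, (MonoidHom.map_zpowers _ _).trans (congrArg zpowers (congrArg QuotientGroup.mk ?_))⟩
    change g⁻¹ * B * g⁻¹⁻¹ = D
    rw [inv_inv, mul_assoc, inv_mul_eq_iff_eq_mul]
    exact Subtype.ext hg
  obtain ⟨g, hg⟩ := key X hX
  obtain ⟨k, hk⟩ := key Y hY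
  exact ⟨k⁻¹ * g, by rw [map_mul, mul_smul, hg, ← hk, map_inv, inv_smul_smul]⟩

end Cfsg.Agent.S2739
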