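import Cfsg.Statements.S2752
import Cfsg.Agent.H27.StK
import Cfsg.Agent.H27.StW

set_option autoImplicit false
universe u
open Cfsg

namespace Cfsg.Agent.S2752

open H26 H27 Subgroup

/-- Let M be an elementary abelian 2-subgroup of a finite group L and G a subgroup of L acting faithfully on M by conjugation (G normalizes M and meets C(M) trivially). Assume O₂(G) = 1, the symmetric group of degree 3 is not involved in G, and every non-abelian composition factor of G is a Suzuki group Sz(2^(2n+1)) or a group PSL₂(3^(2n+1)). Then every elementary abelian 2-subgroup A of G satisfies |M / C_M(A)| ≥ |A|² and |[M, A]| ≥ |A|². -/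
theorem result {L : Type u} [Group L] [Finite L] (M G : Subgroup L) (hM : Cfsg.IsElementaryAbelian 2 M) (hGM : G ≤ Subgroup.normalizer (M : Set L)) (hf : G ⊓ Subgroup.centralizer (M : Set L) = ⊥) (ha : Cfsg.pCore 2 ↥G = ⊥) (hb : ¬ Cfsg.Involves (Equiv.Perm (Fin 3)) ↥G) (hc : Cfsg.IsCompositionKGroupWith Cfsg.IsSuzukiOrPSL2OddPowerThree ↥G) (A : Subgroup L) (hA : A ≤ G) (hAe : Cfsg.IsElementaryAbelian 2 A) : Nat.card A ^ 2 * Nat.card ↥(M ⊓ Subgroup.centralizer (A : Set L)) ≤ Nat.card M ∧ Nat.card A ^ 2 ≤ Nat.card ↥⁅M, A⁆ := by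
  obtain ⟨h1, h2⟩ := offender_bound hM hGM hf ha (kc_of_comp hc fun h => hb (H4.involves_iff.2 h)) A hA hAe
  refine ⟨?_, h2⟩
  rw [← card_mul_relIndex (𝐂 A) M, mul_comm, inf_comm]
  exact Nat.mul_le_mul_left _ h1

end Cfsg.Agent.S2752
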