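import Cfsg.Statements.S2758
import Cfsg.Agent.H27.StS

set_option autoImplicit false
open Cfsg

namespace Cfsg.Agent.S2758

open H26 H27 Subgroup

/-- For an odd prime p and a finite group G the following are equivalent: the dihedral group of order 2p is involved in G; some element of 2-power order normalizes but does not centralize some p-subgroup of G; some element of 2-power order inverts some nonidentity element of p-power order. -/
theorem result {G : Type*} [Group G] [Finite G] {p : ℕ} [Fact p.Prime] (hp : p ≠ 2) : (Cfsg.Involves (DihedralGroup p) G ↔ ∃ (x : G) (P : Subgroup G), (∃ k : ℕ, orderOf x = 2 ^ k) ∧ IsPGroup p ↥P ∧ x ∈ Subgroup.normalizer (P : Set G) ∧ x ∉ Subgroup.centralizer (P : Set G)) ∧ (Cfsg.Involves (DihedralGroup p) G ↔ ∃ x y : G, (∃ k : ℕ, orderOf x = 2 ^ k) ∧ (∃ k : ℕ, orderOf y = p ^ k) ∧ y ≠ 1 ∧ x * y * x⁻¹ = y⁻¹) := by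
  have : NeZero p := ⟨(Fact.out : p.Prime).ne_zero⟩
  have : Fact (Nat.Prime 2) := ⟨Nat.prime_two⟩
  have h1 : (DihedralGroup.r 1 : DihedralGroup p) ^ p = 1 := DihedralGroup.r_one_pow_n
  have h2 : (DihedralGroup.sr 0 : DihedralGroup p) * DihedralGroup.r 1 * (DihedralGroup.sr 0)⁻¹ =
      (DihedralGroup.r 1)⁻¹ := by simp
  have a : Involves (DihedralGroup p) G → ∃ (x : G) (P : Subgroup G), (∃ k : ℕ, orderOf x = 2 ^ k) ∧ IsPGroup p P ∧
      x ∈ 𝐍 P ∧ x ∉ 𝐂 P := fun h => by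
    obtain ⟨x, -, P, -, e⟩ := exists_act_of_sec h1 (τ := DihedralGroup.sr 0) (fun e => by
      rw [h2, inv_eq_iff_mul_eq_one, ← pow_two, ← orderOf_dvd_iff_pow_eq_one, DihedralGroup.orderOf_r_one] at e
      exact hp ((Nat.prime_dvd_prime_iff_eq Fact.out Nat.prime_two).1 e)) (fun g => by cases g <;> simp)
      (H4.involves_iff.1 h)
    exact ⟨x, P, orderOf_eq_pow_iff.2 e.1, e.2⟩
  have b : (∃ (x : G) (P : Subgroup G), (∃ k : ℕ, orderOf x = 2 ^ k) ∧ IsPGroup p P ∧ x ∈ 𝐍 P ∧ x ∉ 𝐂 P) →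
      ∃ x y : G, (∃ k : ℕ, orderOf x = 2 ^ k) ∧ (∃ k : ℕ, orderOf y = p ^ k) ∧ y ≠ 1 ∧ x * y * x⁻¹ = y⁻¹ := by
    rintro ⟨x, P, e1, e2, e3, e4⟩
    obtain ⟨k, e1⟩ := orderOf_eq_pow_iff.1 e1
    obtain ⟨j, y, hy, e⟩ := exists_inv_of_act k x (e1 ▸ one_mem _) e3 e4
    exact ⟨_, y, orderOf_eq_pow_iff.2 ⟨k, by rw [← pow_mul, mul_comm, pow_mul, e1, one_pow]⟩,
      orderOf_eq_pow_iff.2 (isPGroup_iff_mem.1 e2 y hy), e⟩
  have c : (∃ x y : G, (∃ k : ℕ, orderOf x = 2 ^ k) ∧ (∃ k : ℕ, orderOf y = p ^ k) ∧ y ≠ 1 ∧ x * y * x⁻¹ = y⁻¹) →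
      Involves (DihedralGroup p) G := by
    rintro ⟨x, y, -, e2, e3, e4⟩
    obtain ⟨k, e2⟩ := orderOf_eq_pow_iff.1 e2
    obtain ⟨j, e5, e6, e7⟩ := exists_prime_inv e2 e3 e4
    refine H4.involves_iff.2 ((sec_of_inv hp h1 (by simp [pow_two]) h2 (fun σ => ?_) e5 e6 e7).mono le_top)
    cases σ with
    | r i => exact ⟨i.val, 0, by simp⟩
    | sr i => exact ⟨(-i).val, 1, by simp⟩
  exact ⟨⟨a, c ∘ b⟩, b ∘ a, c⟩

end Cfsg.Agent.S2758
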