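import Cfsg.Statements.S2759
import Cfsg.Agent.H27.StS

set_option autoImplicit false
open Cfsg

namespace Cfsg.Agent.S2759

open H26 H27 Subgroup

/-- For a finite group G, the symmetric group of degree 4 is involved in G if and only if there is a 2-subgroup T of G such that the symmetric group of degree 3 is involved in N(T)/C(T). -/
theorem result {G : Type*} [Group G] [Finite G] : Cfsg.Involves (Equiv.Perm (Fin 4)) G ↔ ∃ T : Subgroup G, IsPGroup 2 ↥T ∧ Cfsg.Involves (Equiv.Perm (Fin 3)) (↥(Subgroup.normalizer (T : Set G)) ⧸ (Subgroup.centralizer (T : Set G)).subgroupOf (Subgroup.normalizer (T : Set G))) := by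
  have : Fact (Nat.Prime 2) := ⟨Nat.prime_two⟩
  have : Fact (Nat.Prime 3) := ⟨Nat.prime_three⟩
  rw [H4.involves_iff]
  constructor
  · intro h
    obtain ⟨K, -, f, hf⟩ := h
    let V : Subgroup (Equiv.Perm (Fin 4)) :=
      { carrier := {σ | σ * σ = 1 ∧ Equiv.Perm.sign σ = 1}
        one_mem' := by decide
        mul_mem' := by decide +revert +kernel
        inv_mem' := by decide +revert }
    have hV : ∀ σ ∈ V, σ ^ 2 ^ 1 = 1 := fun σ h => by rw [pow_one, pow_two]; exact h.1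
    have : V.Normal := ⟨(by decide +kernel : ∀ n : Equiv.Perm (Fin 4), n * n = 1 ∧ Equiv.Perm.sign n = 1 → ∀ g,
      (g * n * g⁻¹) * (g * n * g⁻¹) = 1 ∧ Equiv.Perm.sign (g * n * g⁻¹) = 1)⟩
    obtain ⟨T, hT⟩ := exists_isSyl 2 (V.comap f)
    have e1 : T.map f = V := by
      have := hT.map f
      rw [map_comap_eq_self_of_surjective hf] at this
      exact this.eq_of_isPGroup (isPGroup_iff_mem.2 fun σ h => ⟨1, hV σ h⟩)
    have e2 : (𝐍 T).map f = ⊤ := by
      have := congrArg (Subgroup.map f) (hT.frattini le_top (normalizer_eq_top _).ge)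
      rwa [Subgroup.map_sup, map_comap_eq_self_of_surjective hf, map_top_of_surjective f hf, top_inf_eq, ← e1,
        sup_eq_right.2 (map_mono le_normalizer)] at this
    have i := K.subtype_injective
    refine ⟨T.map K.subtype, hT.isP.map _, H4.involves_iff.2 ?_⟩
    set T' := T.map K.subtype
    let π := QuotientGroup.mk' ((𝐂 T').subgroupOf (𝐍 T'))
    let ι : 𝐍 T →* 𝐍 T' := (K.subtype.comp (𝐍 T).subtype).codRestrict _ fun g => (map_mem_normalizer_iff i).2 g.2
    have s3 : H4.Sec (Equiv.Perm (Fin 3)) (⊤ : Subgroup (Equiv.Perm (Fin 4) ⧸ V)) :=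
      (sec_S3_of_inv (x := QuotientGroup.mk (Equiv.swap 0 1 * Equiv.swap 1 2)) (g := QuotientGroup.mk (Equiv.swap 0 1))
        (fun e => absurd ((QuotientGroup.eq_one_iff (N := V) _).1 e).1 (by decide))
        (by rw [← QuotientGroup.mk_pow, show (Equiv.swap 0 1 * Equiv.swap 1 2 : Equiv.Perm (Fin 4)) ^ 3 = 1 by decide]; rfl)
        (by rw [← QuotientGroup.mk_inv, ← QuotientGroup.mk_inv, ← QuotientGroup.mk_mul, ← QuotientGroup.mk_mul]
            congr 1; decide)).mono le_top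
    refine H4.Sec.trans (H4.sec_of_rel ((π.comp ι).prod ((QuotientGroup.mk' V).comp (f.comp (𝐍 T).subtype))).range
      ?_ (fun x => ?_) fun _ _ => trivial) s3
    · rintro _ ⟨g, e⟩
      obtain ⟨e3, e4⟩ := Prod.ext_iff.1 e
      have e5 : f g ∈ 𝐂 V := e1 ▸ map_mem_cent f ((map_mem_centralizer_iff i).1
        ((QuotientGroup.eq_one_iff (N := (𝐂 T').subgroupOf (𝐍 T')) (ι g)).1 e3))
      refine e4.symm.trans ((QuotientGroup.eq_one_iff _).2 ?_)
      exact (by decide +kernel : ∀ σ : Equiv.Perm (Fin 4), (∀ τ : Equiv.Perm (Fin 4), τ * τ = 1 ∧ Equiv.Perm.sign τ = 1 →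
        τ * σ = σ * τ) → σ * σ = 1 ∧ Equiv.Perm.sign σ = 1) _ (mem_centralizer_iff.1 e5)
    · obtain ⟨σ, rfl⟩ := QuotientGroup.mk'_surjective V x
      obtain ⟨g, hg, rfl⟩ := e2.ge (mem_top σ)
      exact ⟨_, ⟨g, hg⟩, rfl⟩
  · rintro ⟨T, hT, h⟩
    obtain ⟨x, -, y, -, ⟨k, e1⟩, e2, e3, e4⟩ := exists_inv_of_S3 (H4.involves_iff.1 h)
    obtain ⟨x, rfl⟩ := QuotientGroup.mk'_surjective _ x
    obtain ⟨y, rfl⟩ := QuotientGroup.mk'_surjective _ y
    set π := QuotientGroup.mk' ((𝐂 T).subgroupOf (𝐍 T))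
    obtain ⟨m, j, hm, hj⟩ := exists_pow_pElement (p := 2) (isOfFinOrder_of_finite x)
    obtain ⟨l, hl⟩ := exists_pow_coprime (p := 2) (isOfFinOrder_of_finite y)
    have i := (𝐍 T).subtype_injective
    have k : ∀ g : 𝐍 T, g ∈ 𝐂 (T.subgroupOf (𝐍 T)) ↔ π g = 1 := fun g => by
      rw [← map_mem_centralizer_iff i, map_subgroupOf_eq_of_le le_normalizer]
      exact (QuotientGroup.eq_one_iff (N := (𝐂 T).subgroupOf (𝐍 T)) g).symm
    refine H4.Sec.mono (H4.sec_top_iff.1 (sec_S4_of_normal (T := T.subgroupOf (𝐍 T))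
      ((isPGroup_subgroupOf_iff le_normalizer).2 hT) hj hl ((k _).2 ?_) (fun e => e2 ?_) ((k _).2 ?_))) le_top
    · rw [← pow_mul, mul_comm, pow_mul, map_pow, map_pow, e3, one_pow]
    · rw [k, map_pow] at e
      exact eq_one_of_pow_coprime ((by decide : Nat.Coprime 3 2).pow_right l) e3 e
    · have := (zpow_conj_of_inv e4 m).2 ((Int.odd_coe_nat m).2 (Nat.coprime_two_right.1 hm))
      rw [zpow_natCast] at this
      rw [map_mul, map_mul, map_mul, map_inv, map_pow, map_pow, ← conj_pow, this, inv_pow, inv_mul_cancel]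

end Cfsg.Agent.S2759
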