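import Cfsg.Statements.S2762
import Cfsg.Agent.H26.Nat3
import Cfsg.Agent.H10.SL2Sylow
import Cfsg.Agent.H1.Cores

set_option autoImplicit false
open Cfsg

namespace Cfsg.Agent.S2762

open H26 Subgroup
open scoped Pointwise commutatorElement

section
open Matrix H4
open scoped MatrixGroups
variable {F : Type*} [Field F]

/-- an affine matrix -/
def aff0 (m : SL(2, F)) (c : Fin 2 → F) : SL(3, F) :=
  slOf !![m.1 0 0, m.1 0 1, c 0; m.1 1 0, m.1 1 1, c 1; 0, 0, 1] (by simp [det_fin_three, sl_det])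

theorem aff0_mul (m n : SL(2, F)) (c d : Fin 2 → F) : aff0 m c * aff0 n d = aff0 (m * n) (m • d + c) := by
  ext i j
  fin_cases i <;> fin_cases j <;> simp [aff0, mul_apply, Fin.sum_univ_succ, sl_smul_zero, sl_smul_one, add_assoc]

/-- an affine matrix in `Qd` -/
def aff (m : SL(2, F)) (c : Fin 2 → F) : qdOver F := ⟨aff0 m c, Subgroup.subset_closure ⟨rfl, rfl, rfl⟩⟩

theorem aff_mul (m n : SL(2, F)) (c d : Fin 2 → F) : aff m c * aff n d = aff (m * n) (m • d + c) :=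
  Subtype.ext (aff0_mul m n c d)

theorem aff_one : aff (1 : SL(2, F)) 0 = 1 := by
  ext i j
  fin_cases i <;> fin_cases j <;> simp [aff, aff0]

theorem aff_inv (m : SL(2, F)) (c : Fin 2 → F) : (aff m c)⁻¹ = aff m⁻¹ (-(m⁻¹ • c)) :=
  inv_eq_of_mul_eq_one_left (by rw [aff_mul, inv_mul_cancel, add_neg_cancel, aff_one])

theorem aff_inj {m n : SL(2, F)} {c d : Fin 2 → F} (h : aff m c = aff n d) : m = n ∧ c = d := by
  have e : ∀ i j, (aff m c).1.1 i j = (aff n d).1.1 i j := fun i j => by rw [h]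
  refine ⟨?_, vec_ext (e 0 2) (e 1 2)⟩
  ext i j
  fin_cases i <;> fin_cases j
  exacts [e 0 0, e 0 1, e 1 0, e 1 1]

theorem aff_surj (x : qdOver F) : ∃ m c, aff m c = x := by
  obtain ⟨x, hx⟩ := x
  induction hx using Subgroup.closure_induction with
  | mem x hx =>
    obtain ⟨a, b, c⟩ := hx
    have d := x.2
    rw [det_fin_three, a, b, c] at d
    refine ⟨slOf !![x.1 0 0, x.1 0 1; x.1 1 0, x.1 1 1] (by simpa [det_fin_two] using d), ![x.1 0 2, x.1 1 2], ?_⟩
    ext i j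
    fin_cases i <;> fin_cases j <;> simp [aff, aff0, a, b, c]
  | one => exact ⟨_, _, aff_one⟩
  | mul x y _ _ h k =>
    obtain ⟨m, c, h⟩ := h
    obtain ⟨n, d, k⟩ := k
    exact ⟨_, _, (aff_mul m n c d).symm.trans (by rw [h, k]; rfl)⟩
  | inv x _ h =>
    obtain ⟨m, c, h⟩ := h
    exact ⟨_, _, (aff_inv m c).symm.trans (by rw [h]; rfl)⟩

/-- the linear part -/
noncomputable def lin : qdOver F →* SL(2, F) := MonoidHom.mk' (fun x => (aff_surj x).choose) fun x y =>
  (aff_inj ((aff_surj (x * y)).choose_spec.choose_spec.trans (by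
    conv_lhs => rw [← (aff_surj x).choose_spec.choose_spec, ← (aff_surj y).choose_spec.choose_spec, aff_mul]))).1

theorem lin_aff (m : SL(2, F)) (c : Fin 2 → F) : lin (aff m c) = m :=
  (aff_inj (aff_surj (aff m c)).choose_spec.choose_spec).1

/-- the complement -/
def blk : SL(2, F) →* qdOver F := MonoidHom.mk' (fun m => aff m 0) fun m n => by rw [aff_mul, smul_zero, add_zero]

theorem aff_pow (c : Fin 2 → F) (n : ℕ) : aff 1 c ^ n = aff 1 (n • c) := by
  induction n with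
  | zero => rw [pow_zero, zero_smul, aff_one]
  | succ n ih => rw [pow_succ', ih, aff_mul, one_mul, one_smul, succ_nsmul]

theorem core_eq [Fintype F] {p : ℕ} [Fact p.Prime] [CharP F p] : pCore p (qdOver F) = lin.ker := by
  classical
  have s : Function.Surjective (lin (F := F)) := fun m => ⟨_, lin_aff m 0⟩
  refine le_antisymm ((Subgroup.map_eq_bot_iff _).1 (le_bot_iff.1 ?_)) (le_sSup ⟨inferInstance, fun ⟨x, hx⟩ => ⟨1, ?_⟩⟩)
  · have h1 := H10.card_sylow_SL2 (F := F) p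
    have h2 : 1 < Nat.card (Sylow p SL(2, F)) := by
      have : 0 < Nat.card F := Nat.card_pos
      omega
    obtain ⟨P, Q, hPQ⟩ := (Finite.one_lt_card_iff_nontrivial.1 h2).exists_pair_ne
    have := (pCore_normal p (qdOver F)).map _ s
    have k := (H1.pCore_isPGroup p (qdOver F)).map lin
    rw [← (H10.centralP'_SL (F := F) p).inf_eq_bot hPQ]
    exact le_inf (k.le_sylow_of_normal P) (k.le_sylow_of_normal Q)
  · obtain ⟨m, c, rfl⟩ := aff_surj x
    obtain rfl : m = 1 := (lin_aff m c).symm.trans hx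
    refine Subtype.ext ?_
    rw [SubgroupClass.coe_pow, pow_one, aff_pow, ← Nat.cast_smul_eq_nsmul F, CharP.cast_eq_zero, zero_smul, aff_one]
    rfl

end

/-- Structure of Qd over a finite field F of characteristic p (the affine subgroup of SL₃(F)): its largest normal p-subgroup is the group of translations (matrices with upper-left block the identity), the block-diagonal matrices form a complement isomorphic to SL₂(F), and the translation subgroup is a natural SL₂(F)-module for that complement. -/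
theorem result {F : Type*} [Field F] [Fintype F] {p : ℕ} [Fact p.Prime] [CharP F p] : (∀ M : ↥(Cfsg.qdOver F), M ∈ Cfsg.pCore p ↥(Cfsg.qdOver F) ↔ ((M : Matrix.SpecialLinearGroup (Fin 3) F) : Matrix (Fin 3) (Fin 3) F) 0 0 = 1 ∧ ((M : Matrix.SpecialLinearGroup (Fin 3) F) : Matrix (Fin 3) (Fin 3) F) 0 1 = 0 ∧ ((M : Matrix.SpecialLinearGroup (Fin 3) F) : Matrix (Fin 3) (Fin 3) F) 1 0 = 0 ∧ ((M : Matrix.SpecialLinearGroup (Fin 3) F) : Matrix (Fin 3) (Fin 3) F) 1 1 = 1) ∧ ∃ K : Subgroup ↥(Cfsg.qdOver F), (∀ M : ↥(Cfsg.qdOver F), M ∈ K ↔ ((M : Matrix.SpecialLinearGroup (Fin 3) F) : Matrix (Fin 3) (Fin 3) F) 0 2 = 0 ∧ ((M : Matrix.SpecialLinearGroup (Fin 3) F) : Matrix (Fin 3) (Fin 3) F) 1 2 = 0) ∧ K ⊓ Cfsg.pCore p ↥(Cfsg.qdOver F) = ⊥ ∧ K ⊔ Cfsg.pCore p ↥(Cfsg.qdOver F) = ⊤ ∧ Nonempty (↥K ≃* Matrix.SpecialLinearGroup (Fin 2) F) ∧ Cfsg.IsNaturalSL2Module F (Cfsg.pCore p ↥(Cfsg.qdOver F)) K := by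
  rw [core_eq]
  have mk : ∀ m c, aff (F := F) m c ∈ lin.ker ↔ m = 1 := fun m c => by rw [MonoidHom.mem_ker, lin_aff]
  have mb : ∀ m c, aff (F := F) m c ∈ blk.range ↔ c = 0 := fun m c =>
    ⟨fun ⟨n, e⟩ => (aff_inj e).2.symm, fun e => ⟨m, e ▸ rfl⟩⟩
  have i : Function.Injective (blk (F := F)) := fun m n e => (aff_inj e).1
  refine ⟨fun M => ?_, blk.range, fun M => ?_, eq_bot_iff.2 fun M ⟨h, k⟩ => ?_, eq_top_iff.2 fun M _ => ?_,
    ⟨(MonoidHom.ofInjective i).symm⟩, le_normalizer_of_normal, lin.comp (Subgroup.subtype _),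
    (AddEquiv.ofBijective (AddMonoidHom.mk' (fun c => Additive.ofMul (⟨aff 1 c, (mk _ _).2 rfl⟩ : lin.ker))
      fun c d => ?_) ⟨fun c d e => ?_, fun x => ?_⟩).symm, fun m => ⟨⟨_, m, rfl⟩, lin_aff m 0⟩, ?_, ?_⟩
  · obtain ⟨m, c, rfl⟩ := aff_surj M
    rw [mk]
    refine ⟨fun e => by subst e; exact ⟨rfl, rfl, rfl, rfl⟩, fun ⟨a, b, c, d⟩ => ?_⟩
    ext i j
    fin_cases i <;> fin_cases j
    exacts [a, b, c, d]
  · obtain ⟨m, c, rfl⟩ := aff_surj M
    rw [mb]
    exact ⟨fun e => by subst e; exact ⟨rfl, rfl⟩, fun ⟨a, b⟩ => vec_ext a b⟩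
  · obtain ⟨m, c, rfl⟩ := aff_surj M
    rw [(mb _ _).1 h, (mk _ _).1 k, aff_one]
    exact one_mem _
  · obtain ⟨m, c, rfl⟩ := aff_surj M
    have := mul_mem (mem_sup_right ((mk 1 c).2 rfl) : _ ∈ blk.range ⊔ lin.ker) (mem_sup_left ((mb m 0).2 rfl))
    rwa [aff_mul, one_mul, smul_zero, zero_add] at this
  · exact congrArg Additive.ofMul (Subtype.ext (show aff 1 (c + d) = aff 1 c * aff 1 d by
      rw [aff_mul, one_mul, one_smul, add_comm]))
  · exact (aff_inj (show aff 1 c = aff 1 d from congrArg (fun x => (Additive.toMul x).1) e)).2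
  · obtain ⟨x, hx⟩ := x
    obtain ⟨m, c, rfl⟩ := aff_surj x
    obtain rfl := (mk _ _).1 hx
    exact ⟨c, rfl⟩
  · ext ⟨_, m, rfl⟩
    refine ((mk m 0).trans ⟨fun e x hx => by subst e; simp, fun h => ?_⟩)
    have k : ∀ c : Fin 2 → F, m • c = c := fun c => by
      have : aff 1 c * aff m 0 = aff m 0 * aff 1 c := h _ ((mk 1 c).2 rfl)
      rw [aff_mul, aff_mul] at this
      simpa using (aff_inj this).2.symm
    ext i j
    have := congrFun (show m.1.mulVec _ = _ from k (Pi.single j 1)) i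
    simpa [Pi.single_apply, Matrix.one_apply] using this
  · rintro ⟨_, m, rfl⟩ ⟨x, hx⟩
    obtain ⟨n, c, rfl⟩ := aff_surj x
    obtain rfl := (mk _ _).1 hx
    refine ⟨⟨aff 1 (m • c), (mk _ _).2 rfl⟩, ?_, ?_⟩
    · show _ = aff m 0 * aff 1 c * (aff m 0)⁻¹
      simp [aff_inv, aff_mul]
    · have key : ∀ (e : (Fin 2 → F) ≃+ Additive (lin (F := F)).ker), (∀ c, e c = Additive.ofMul ⟨aff 1 c, (mk _ _).2 rfl⟩) →
          e.symm (Additive.ofMul ⟨aff 1 (m • c), (mk _ _).2 rfl⟩) = (lin (aff m 0)).1.mulVec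
            (e.symm (Additive.ofMul ⟨aff 1 c, hx⟩)) := fun e he => by
        rw [← he, ← he, e.symm_apply_apply, e.symm_apply_apply, lin_aff]
        rfl
      exact key _ fun _ => rfl

end Cfsg.Agent.S2762
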