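import Cfsg.Statements.S2767
import Cfsg.Agent.H4.TA
import Cfsg.Agent.H4.G6
import Cfsg.Agent.H21.RED

set_option autoImplicit false
open Cfsg

namespace Cfsg.Agent.S2767

/-- Let S be a Sylow 2-subgroup of a finite group G and S₁, S₂ subgroups of S that are strongly closed in S with respect to G and centralize each other. Then the commutator subgroup of the normal closures ⟨S₁^G⟩ and ⟨S₂^G⟩ is contained in the product of the normal closure ⟨(S₁ ∩ S₂)^G⟩ with O_{2'}(G). -/
theorem result {G : Type*} [Group G] [Finite G] (S : Sylow 2 G) (S₁ S₂ : Subgroup G) (h₁ : Cfsg.IsStronglyClosed S₁ (S : Subgroup G)) (h₂ : Cfsg.IsStronglyClosed S₂ (S : Subgroup G)) (hc : ∀ a ∈ S₁, ∀ b ∈ S₂, a * b = b * a) : ⁅Subgroup.normalClosure (S₁ : Set G), Subgroup.normalClosure (S₂ : Set G)⁆ ≤ Subgroup.normalClosure ((S₁ ⊓ S₂ : Subgroup G) : Set G) ⊔ Cfsg.pPrimeCore 2 G := by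
  exact H4.Gs.s2767 S h₁ h₂ hc

end Cfsg.Agent.S2767
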