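import Cfsg.Statements.S2772
import Cfsg.Agent.H26.Sims

set_option autoImplicit false
open Cfsg

namespace Cfsg.Agent.S2772

open H26 Subgroup
open scoped Pointwise commutatorElement

/-- Sims' Theorem in local form: let H be a finite non-abelian simple group and G a maximal subgroup of H with C_G(O₂(G)) ≤ O₂(G), such that N_H(S) is not contained in G for a Sylow 2-subgroup S of G and G/O₂(G) is dihedral of order 2q for a prime q. Then G is isomorphic to the symmetric group of degree 4 or to its direct product with a group of order 2. -/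
theorem result {H : Type*} [Group H] [Finite H] [IsSimpleGroup H] (hna : ¬ IsMulCommutative H) (G : Subgroup H) (hG : IsCoatom G) (hchar : Subgroup.centralizer (Cfsg.pCore 2 ↥G : Set ↥G) ≤ Cfsg.pCore 2 ↥G) (S : Sylow 2 ↥G) (hN : ¬ Subgroup.normalizer (((S : Subgroup ↥G).map G.subtype : Subgroup H) : Set H) ≤ G) (q : ℕ) (hq : q.Prime) (hD : Nonempty (↥G ⧸ Cfsg.pCore 2 ↥G ≃* DihedralGroup q)) : Nonempty (↥G ≃* Equiv.Perm (Fin 4)) ∨ Nonempty (↥G ≃* Equiv.Perm (Fin 4) × Multiplicative (ZMod 2)) := by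
  set T := (S : Subgroup G).map G.subtype with hTe
  have hT : IsSyl 2 T G := isSyl_map_subtype S
  obtain ⟨s, d, h⟩ := dq_of_iso hT hq.two_le hD
  obtain ⟨y, hy, hyG⟩ := SetLike.not_le_iff_exists.1 hN
  have hc : CharPOf 2 G := fun x hx => by
    have : (⟨x, hx.1⟩ : G) ∈ Cfsg.pCore 2 G := hchar fun z hz => Subtype.ext (hx.2 z ⟨z, hz, rfl⟩)
    exact ⟨_, this, rfl⟩
  have hyT : cj y T = T := cj_eq_iff.2 hy
  have h' := h.conj y
  rw [hyT] at h'
  have hc' : CharPOf 2 (cj y G) := (charPOf_map_iff (conj_injective' y)).2 hc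
  have nb : ∀ N : Subgroup H, N ≤ G → ⊤ ≤ 𝐍 N → N = ⊥ := fun N h1 h2 =>
    ((normal_of_top_le_normalizer h2).eq_bot_or_eq_top).resolve_right fun e => hG.1 (top_le_iff.1 (e ▸ h1))
  have hs1 : s ≠ 1 := fun e => h.sQ (e ▸ one_mem _)
  have hne : ¬ cj y G ≤ G := fun e => hs1 (mem_bot.1 ((nb G le_rfl (hG.2 _ (lt_of_le_of_ne le_normalizer
    fun e' => hyG (e'.ge (mem_normalizer_of_cj_le e)))).ge).le (hT.le h.sT)))
  have free : ∀ N ≤ T, G ≤ 𝐍 N → cj y G ≤ 𝐍 N → N = ⊥ := fun N h1 h2 h3 => nb N (h1.trans hT.le)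
    (hG.2 _ (lt_of_le_of_ne h2 fun e => hne (h3.trans e.ge))).ge
  have hi : T.relIndex (cj y G) = q := by
    have := relIndex_mul_relIndex _ _ _ h'.syl.pCoreOf_le h'.syl.le
    rw [h'.two, h'.idx] at this; omega
  have hinf : T = G ⊓ cj y G := ((eq_or_eq_of_prime_relIndex (hi ▸ hq) (le_inf hT.le h'.syl.le) inf_le_right).resolve_right
    fun e => hne (e.ge.trans inf_le_left)).symm
  have nc0 : ¬ (G ≤ 𝐂 (oz T) ∨ cj y G ≤ 𝐂 (oz T)) := fun e => by
    have e2 : G ≤ 𝐂 (oz T) ↔ cj y G ≤ 𝐂 (oz T) := by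
      conv_rhs => rw [← hyT, ← cj_oz, ← cj_centralizer, cj_le_cj_iff]
    have := hT.finite
    exact omegaOne_center_ne_bot hT.isP (fun e => hs1 (mem_bot.1 (e.le h.sT))) (free _ (oz_le T)
      (le_normalizer_of_le_centralizer (e.elim id e2.2)) (le_normalizer_of_le_centralizer (e.elim e2.1 id)))
  have nc1 := fun e => nc0 (Or.inl e)
  have nc2 := fun e => nc0 (Or.inr e)
  have zq : ∀ {P}, CharPOf 2 P → IsSyl 2 T P → oz T ≤ Cfsg.pCoreOf 2 P := fun h1 h2 =>
    (omegaOne_le _ _).trans ((h1.center_le h2).trans inf_le_left)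
  have d1 := h.dih (zq hc hT) nc1
  have d2 := h'.dih (zq hc' h'.syl) nc2
  have h3 : q = 3 := by
    have k : ∀ {P s d}, DQ P T q s d → CharPOf 2 P → ¬ P ≤ 𝐂 (oz T) →
        (∀ x ∈ ncl (oz T) P, ∀ y ∈ ncl (oz T) P, x ∉ oz T → y ∉ oz T → x * y ∈ oz T) → q = 3 := fun h1 h2 h3 h4 =>
      by_contra fun e => h3 (h1.mem_c (mem_of_pow_mem_coprime ((Nat.coprime_primes hq Nat.prime_three).2 e)
        (le_c_oz T (h1.syl.pCoreOf_le h1.dn)) (h1.cube (zq h2 h1.syl) h4)))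
    obtain ⟨P, rfl | rfl, e⟩ := dih_index_two (hinf ▸ d1) (hinf ▸ d2) (hinf ▸ free) <;> rw [← hinf] at e
    exacts [k h hc nc1 e, k h' hc' nc2 e]
  subst h3
  exact (s3_amalgam_iso hinf ⟨inferInstance, hT, h.idx, hc, nc1⟩ ⟨inferInstance, h'.syl, h'.idx, hc', nc2⟩ free).imp
    And.left fun e => ⟨e.1.some.trans MulEquiv.prodComm⟩

end Cfsg.Agent.S2772
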