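import Cfsg.Statements.S2779
import Cfsg.Agent.H26.Nat3

set_option autoImplicit false
open Cfsg

namespace Cfsg.Agent.S2779

open H26 Subgroup
open scoped Pointwise commutatorElement

/-- Let L act on the elementary abelian p-group V (inside a finite group, by conjugation, faithfully) as SL₂(F) on its natural module, F a field with p^n elements, and let S be a Sylow p-subgroup of L. Then [V, S, S] = 1; |V| = p^(2n) and |C_V(S)| = p^n; and for every nonidentity s ∈ S and every v ∈ V outside C_V(S): C_V(s) = C_V(S) = [V, S] = [V, s] = the subgroup generated by the commutators [v, t], t ∈ S. -/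
theorem result {G : Type*} [Group G] [Finite G] {p : ℕ} [Fact p.Prime] {F : Type*} [Field F] [Fintype F] (n : ℕ) (hF : Fintype.card F = p ^ n) (V L : Subgroup G) (hnat : Cfsg.IsNaturalSL2Module F V L) (hf : L ⊓ Subgroup.centralizer (V : Set G) = ⊥) (S : Sylow p ↥L) (T : Subgroup G) (hT : T = ((S : Subgroup ↥L).map L.subtype)) : ⁅⁅V, T⁆, T⁆ = ⊥ ∧ Nat.card V = p ^ (2 * n) ∧ Nat.card ↥(V ⊓ Subgroup.centralizer ((T : Subgroup G) : Set G)) = p ^ n ∧ ∀ s ∈ T, s ≠ 1 → (V ⊓ Subgroup.centralizer ({s} : Set G)) = (V ⊓ Subgroup.centralizer ((T : Subgroup G) : Set G)) ∧ ⁅V, T⁆ = (V ⊓ Subgroup.centralizer ((T : Subgroup G) : Set G)) ∧ ⁅V, Subgroup.zpowers s⁆ = (V ⊓ Subgroup.centralizer ((T : Subgroup G) : Set G)) ∧ ∀ v ∈ V, v ∉ Subgroup.centralizer (T : Set G) → Subgroup.closure {x : G | ∃ t ∈ T, x = v * t * v⁻¹ * t⁻¹} = (V ⊓ Subgroup.centralizer ((T : Subgroup G) : Set G)) := by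
  have := charP_of_card (F := F) (p := p) (Nat.card_eq_fintype_card.trans hF)
  have hS : IsSyl p T L := hT ▸ isSyl_map_subtype S
  obtain ⟨ρ, ψ, h⟩ := isNat_iff.1 hnat
  obtain ⟨ρ, ψ, h⟩ := h.exists_std hS
  have e : h.ln = V ⊓ 𝐂 T := h.ln_eq (le_centralizer_iff.1 (commutator_eq_bot_iff'.1 (eq_bot_iff.2 h.comm_ln_le)))
  have k : ∀ s ∈ T, s ≠ 1 → ρ s ≠ 1 := fun s hs h1 h2 => h1 (mem_bot.1 (hf.le ⟨h.Tle hs, fun v hv =>
    commutatorElement_eq_one_iff_mul_comm.1 ((h.ρ_eq_one (h.Tle hs)).1 h2 v hv)⟩))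
  rw [← e]
  refine ⟨eq_bot_iff.2 ((commutator_mono h.comm_le_ln le_rfl).trans h.comm_ln_le), ?_, ?_, fun s hs h1 => ⟨?_,
    h.comm_le_ln.antisymm (sup_bot_eq ⁅V, T⁆ ▸ h.ln_le_comm'), ?_, fun v hv h2 => le_antisymm ?_ fun x hx => ?_⟩⟩
  · rw [h.card, card_bot, one_mul, Nat.card_eq_fintype_card, hF, ← pow_mul, mul_comm]
  · rw [h.card_ln, card_bot, one_mul, Nat.card_eq_fintype_card, hF]
  · refine le_antisymm (fun v hv => h.mem_ln_of_comm (h.Tle hs) (h.up s hs) (k s hs h1) hv.1 ?_) (e.le.trans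
      (inf_le_inf_left _ (centralizer_le (Set.singleton_subset_iff.2 hs))))
    exact commutatorElement_eq_one_iff_mul_comm.2 (hv.2 s rfl).symm
  · exact ((commutator_mono le_rfl (zpowers_le.2 hs)).trans h.comm_le_ln).antisymm
      (sup_bot_eq ⁅V, zpowers s⁆ ▸ h.ln_le_comm (h.Tle hs) (h.up s hs) (k s hs h1))
  · rw [closure_le]
    rintro _ ⟨t, ht, rfl⟩
    exact h.comm_mem_ln (h.Tle ht) (h.up t ht) hv
  · obtain ⟨t, ht, e1⟩ := h.exists_comm hv (fun k => h2 (e.le k).2) hx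
    exact subset_closure ⟨t, ht, (inv_mul_eq_one.1 ((h.ψ_eq (h.comm_mem (h.Tle ht) hv) hx.1).1 e1)).symm⟩

end Cfsg.Agent.S2779
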