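import Cfsg.Statements.S2780
import Cfsg.Agent.H26.Nat3

set_option autoImplicit false
open Cfsg

namespace Cfsg.Agent.S2780

open H26 Subgroup
open scoped Pointwise commutatorElement

/-- Let L act on the elementary abelian p-group V (inside a finite group, faithfully) as SL₂(F) on its natural module, F a field with p^n elements, S a Sylow p-subgroup of L. Then: for every g ∈ L not normalizing S, V is the internal direct product of C_V(S) and C_V(gSg⁻¹); every nonidentity element of L of order prime to p acts on V without nonidentity fixed points; and C_V(S) and V/C_V(S) are irreducible for N_L(S): the only N_L(S)-invariant subgroups of C_V(S) are 1 and C_V(S), and the only N_L(S)-invariant subgroups between C_V(S) and V are those two. -/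
theorem result {G : Type*} [Group G] [Finite G] {p : ℕ} [Fact p.Prime] {F : Type*} [Field F] [Fintype F] (n : ℕ) (hF : Fintype.card F = p ^ n) (V L : Subgroup G) (hnat : Cfsg.IsNaturalSL2Module F V L) (hf : L ⊓ Subgroup.centralizer (V : Set G) = ⊥) (S : Sylow p ↥L) (T : Subgroup G) (hT : T = ((S : Subgroup ↥L).map L.subtype)) : (∀ g ∈ L, g ∉ Subgroup.normalizer (T : Set G) → Cfsg.IsInternalDirectProduct (V ⊓ Subgroup.centralizer ((T : Subgroup G) : Set G)) (V ⊓ Subgroup.centralizer ((T.map (MulAut.conj g).toMonoidHom : Subgroup G) : Set G)) V) ∧ (∀ x ∈ L, x ≠ 1 → (orderOf x).Coprime p → (V ⊓ Subgroup.centralizer ({x} : Set G)) = ⊥) ∧ (∀ U : Subgroup G, U ≤ (V ⊓ Subgroup.centralizer ((T : Subgroup G) : Set G)) → L ⊓ Subgroup.normalizer (T : Set G) ≤ Subgroup.normalizer (U : Set G) → U = ⊥ ∨ U = (V ⊓ Subgroup.centralizer ((T : Subgroup G) : Set G))) ∧ (∀ U : Subgroup G, (V ⊓ Subgroup.centralizer ((T : Subgroup G) : Set G)) ≤ U → U ≤ V → L ⊓ Subgroup.normalizer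 (T : Set G) ≤ Subgroup.normalizer (U : Set G) → U = (V ⊓ Subgroup.centralizer ((T : Subgroup G) : Set G)) ∨ U = V) := by
  have := charP_of_card (F := F) (p := p) (Nat.card_eq_fintype_card.trans hF)
  have hS : IsSyl p T L := hT ▸ isSyl_map_subtype S
  obtain ⟨ρ, ψ, h⟩ := isNat_iff.1 hnat
  obtain ⟨ρ, ψ, h⟩ := h.exists_std hS
  have e : h.ln = V ⊓ 𝐂 T := h.ln_eq (le_centralizer_iff.1 (commutator_eq_bot_iff'.1 (eq_bot_iff.2 h.comm_ln_le)))
  have k : ∀ s ∈ L, ρ s = 1 → s = 1 := fun s hs h2 => mem_bot.1 (hf.le ⟨hs, fun v hv =>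
    commutatorElement_eq_one_iff_mul_comm.1 ((h.ρ_eq_one hs).1 h2 v hv)⟩)
  have n : ∀ g ∈ L, (ρ g).1 1 0 = 0 → g ∈ 𝐍 T := fun g hg => h.mem_normalizer (fun s hs h1 => k s hs h1 ▸ one_mem _) hg
  refine ⟨fun g hg h1 => ?_, fun x hx h1 h2 => eq_bot_iff.2 fun v hv => by_contra fun h3 => h1 ?_, fun U h1 h2 => ?_,
    fun U h1 h2 h3 => ?_⟩
  · rw [← cj_centralizer, ← cj_eq_of_mem_normalizer (h.nm hg), ← cj_inf, cj_eq_of_mem_normalizer (h.nm hg), ← e]
    have h2 := cj_le_of_mem_normalizer h.ln_le (h.nm hg)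
    exact ⟨h.ln_le, h2, fun a ha b hb => commutatorElement_eq_one_iff_mul_comm.1
      (h.comm_le (commutator_mem_commutator ha.1 (h2 hb))), h.inf_cj_ln hg (mt (n g hg) h1), h.sup_cj_ln hg (mt (n g hg) h1)⟩
  · have := k _ (pow_mem hx p) (h.pow_mem_of_fix hx hv.1 h3 (commutatorElement_eq_one_iff_mul_comm.2 (hv.2 x rfl).symm))
    exact orderOf_eq_one_iff.1 (h2.eq_one_of_dvd (orderOf_dvd_of_pow_eq_one this))
  · rw [← e] at h1 ⊢
    exact (h.irred_ln h1 fun g hg h0 => h2 ⟨hg, n g hg h0⟩).imp eq_bot_iff.2 fun k => h1.antisymm (sup_bot_eq U ▸ k)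
  · rw [← e] at h1 ⊢
    exact h.irred_ln' h1 h2 fun g hg h0 => h3 ⟨hg, n g hg h0⟩

end Cfsg.Agent.S2780
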