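import Cfsg.Statements.S2787
import Cfsg.Agent.H4.Quad
import Cfsg.Agent.H4.Factor
import Cfsg.Agent.H13.ReeInv

set_option autoImplicit false
open Cfsg

namespace Cfsg.Agent.S2787

open H4 H26 Subgroup Matrix
open scoped MatrixGroups

/-- elements of order at least four of a 2-subgroup commute -/
def D2 (Q : Type*) [Group Q] : Prop :=
  ∀ T : Subgroup Q, IsPGroup 2 T → ∀ x ∈ T, ∀ y ∈ T, x * x ≠ 1 → y * y ≠ 1 → x * y = y * x

theorem D2.of_equiv {Q Q' : Type*} [Group Q] [Group Q'] (h : D2 Q') (e : Q ≃* Q') : D2 Q := fun T hT x hx y hy h1 h2 =>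
  e.injective (by
    rw [map_mul, map_mul]
    exact h _ (hT.map (e : Q →* Q')) _ ⟨x, hx, rfl⟩ _ ⟨y, hy, rfl⟩ (fun h => h1 (e.injective (by simpa using h)))
      fun h => h2 (e.injective (by simpa using h)))

theorem mem_center_of_sq {F : Type*} [Field F] (h2 : (2 : F) ≠ 0) {a : SL(2, F)} (h : a * a = 1) :
    a ∈ center SL(2, F) := by
  have e := fun i j => congrFun (congrFun (show a.1 * a.1 = 1 from congrArg Subtype.val h) i) j
  have e0 := e 0 0
  have e1 := e 0 1
  have e2 := e 1 0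
  have d := a.2
  rw [det_fin_two] at d
  simp [mul_apply, Fin.sum_univ_two] at e0 e1 e2
  have t : a.1 0 0 + a.1 1 1 ≠ 0 := fun t => h2 (by linear_combination (a.1 0 0) * t - e0 - d)
  have b : a.1 0 1 = 0 := (mul_eq_zero.1 (by linear_combination e1)).resolve_left t
  have c : a.1 1 0 = 0 := (mul_eq_zero.1 (by linear_combination e2)).resolve_left t
  have f : a.1 1 1 = a.1 0 0 := by
    rw [b] at d e0
    linear_combination (a.1 0 0) * d - (a.1 1 1) * e0
  refine mem_center_iff.2 fun g => Subtype.ext (show g.1 * a.1 = a.1 * g.1 from ?_)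
  ext i j; fin_cases i <;> fin_cases j <;> simp [mul_apply, Fin.sum_univ_two, b, c, f, mul_comm]

theorem d2_PSL {F : Type*} [Field F] [Fintype F] (h2 : (2 : F) ≠ 0) : D2 PSL(2, F) := fun T hT x hx y hy h1 h3 => by
  have : Fact (Nat.Prime 2) := ⟨Nat.prime_two⟩
  obtain ⟨x, rfl⟩ := QuotientGroup.mk'_surjective _ x
  obtain ⟨y, rfl⟩ := QuotientGroup.mk'_surjective _ y
  have hZ : IsPGroup 2 (QuotientGroup.mk' (center SL(2, F))).ker := fun z => ⟨1, orderOf_dvd_iff_pow_eq_one.1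
    ((orderOf_dvd_natCard z).trans (by rw [QuotientGroup.ker_mk', H10.card_center_SL2]; exact Nat.gcd_dvd_left _ _))⟩
  have k : ∀ z : SL(2, F), QuotientGroup.mk' (center SL(2, F)) z * QuotientGroup.mk' _ z ≠ 1 → z * z * (z * z) ≠ 1 :=
    fun z h e => h ((QuotientGroup.eq_one_iff _).2 (mem_center_of_sq h2 e))
  rw [← map_mul, ← map_mul]
  congr 1
  rcases H10.isCyclic_or_quaternion_of_le_SL2 h2 _ (hT.comap_of_ker_isPGroup _ hZ) with h | ⟨n, -, ⟨e⟩⟩
  · exact congrArg Subtype.val (h.isMulCommutative.is_comm.comm (⟨x, hx⟩ : T.comap _) ⟨y, hy⟩)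
  · have k' : ∀ z : T.comap (QuotientGroup.mk' _), (z : SL(2, F)) * z * (z * z) ≠ 1 → ∃ i, e z = .a i := fun z h => by
      rcases hz : e z with i | i
      · exact ⟨i, rfl⟩
      · exact absurd (congrArg Subtype.val (show z * z * (z * z) = 1 from e.injective (by
          rw [map_mul, map_mul, hz, map_one, ← QuaternionGroup.xa_pow_four i]; simp only [pow_succ, pow_zero, one_mul,
            mul_assoc]))) h
    obtain ⟨i, hi⟩ := k' ⟨x, hx⟩ (k x h1)
    obtain ⟨j, hj⟩ := k' ⟨y, hy⟩ (k y h3)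
    exact congrArg Subtype.val (show (⟨x, hx⟩ * ⟨y, hy⟩ : T.comap _) = ⟨y, hy⟩ * ⟨x, hx⟩ from
      e.injective (by rw [map_mul, map_mul, hi, hj, QuaternionGroup.a_mul_a, QuaternionGroup.a_mul_a, add_comm]))

/-- Let p be a prime and let H act by conjugation on the elementary abelian p-subgroup V of a finite group, irreducibly (no H-invariant subgroups of V other than 1 and V) and nontrivially, and suppose H/C_H(V) is isomorphic to PSL₂(F) for a field F with p^n elements, p^n odd, or p = 3 and H/C_H(V) is isomorphic to a Ree group ²G₂(3^(2m+1)), m ≥ 1. Then no subgroup A of H acting nontrivially on V acts quadratically: [V, A, A] = 1 forces [V, A] = 1. -/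
theorem result {G : Type*} [Group G] [Finite G] {p : ℕ} [Fact p.Prime] (V H : Subgroup G) (hV : Cfsg.IsElementaryAbelian p V) (hHV : H ≤ Subgroup.normalizer (V : Set G)) (hirr : ∀ U : Subgroup G, U ≤ V → H ≤ Subgroup.normalizer (U : Set G) → U = ⊥ ∨ U = V) (hnt : ¬ H ≤ Subgroup.centralizer (V : Set G)) [hn : ((Subgroup.centralizer (V : Set G)).subgroupOf H).Normal] (hq : (∃ (F : Type) (_ : Field F) (_ : Fintype F) (n : ℕ), Fintype.card F = p ^ n ∧ Odd (Fintype.card F) ∧ Nonempty (↥H ⧸ (Subgroup.centralizer (V : Set G)).subgroupOf H ≃* Matrix.ProjectiveSpecialLinearGroup (Fin 2) F)) ∨ (p = 3 ∧ Cfsg.Lie.IsoRee (↥H ⧸ (Subgroup.centralizer (V : Set G)).subgroupOf H))) (A : Subgroup G) (hA : A ≤ H) (hquad : ⁅⁅V, A⁆, A⁆ = ⊥) : ⁅V, A⁆ = ⊥ := by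
  have : Fact (Nat.Prime 2) := ⟨Nat.prime_two⟩
  obtain ⟨hp2, hD⟩ : p ≠ 2 ∧ D2 (↥H ⧸ (Subgroup.centralizer (V : Set G)).subgroupOf H) := by
    rcases hq with ⟨F, _, _, n, h1, h2, ⟨e⟩⟩ | ⟨rfl, K, _, _, m, -, hK, ⟨e⟩⟩
    · refine ⟨?_, (d2_PSL (Ring.two_ne_zero fun h => ?_)).of_equiv e⟩
      · rintro rfl
        rcases n with _ | n
        · exact Fintype.one_lt_card.ne' h1
        · rw [h1] at h2; exact absurd h2 (by simp [Nat.odd_pow_iff])
      · have := FiniteField.even_card_of_char_two h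
        have := Nat.odd_iff.1 h2
        omega
    · have : H13.Ree.IsRee K m := ⟨hK⟩
      refine ⟨by decide, D2.of_equiv (fun T hT x hx y hy h _ => ?_) e⟩
      obtain ⟨S, hS⟩ := hT.exists_le_sylow
      exact absurd (H13.Ree.sq_of_mem_sylow S (hS hx)) h
  refine commutator_eq_bot_iff'.2 fun a ha => ?_
  obtain ⟨S, hS⟩ := exists_isSyl p H
  have hO := opMod_le_centralizer hS (le_normalizer_centralizer hHV) (centralizer_anti (inf_le_left : V ⊓ 𝐂 S ≤ V))
    (le_centralizer_iff.1 inf_le_right)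
  have h1 := inf_centralizer_ne_bot (elemAb_isPGroup hV) hS.isP (hS.le.trans hHV) fun e => hnt (by simp [e])
  have h2 := (hirr (V ⊓ 𝐂 (opMod p H (𝐂 V))) inf_le_left (le_normalizer_inf hHV (le_normalizer_centralizer
    (le_normalizer_opMod _ _ _)))).resolve_left fun e => h1 (eq_bot_iff.2 (e ▸ le_inf inf_le_left (le_centralizer_iff.1 hO)))
  refine le_centralizer_iff.1 (inf_eq_left.1 h2) (by_contra fun hn' => ?_)
  obtain ⟨L, hL, ψ, hψ, j, hj, hjV, e⟩ := natSec_of_not_mem_opMod hp2 hV hHV (hA ha) (quadratic_zpowers hquad ha) hn'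
  obtain ⟨Q, hQ, hc⟩ := exists_nonabelian_two_SL2 hp2
  obtain ⟨S, hS, hQS⟩ := exists_isSyl_ge hQ (le_top.trans (map_top_of_surjective ψ hψ).ge)
  obtain ⟨T, hT, rfl⟩ := IsSyl.exists_map_eq ψ hS
  let π := (QuotientGroup.mk' ((𝐂 V).subgroupOf H)).comp (inclusion hL)
  have k : ∀ l, π l = 1 → ψ l = 1 := fun l h => by
    have h : (l : G) ∈ 𝐂 V := (QuotientGroup.eq_one_iff (N := (𝐂 V).subgroupOf H) (inclusion hL l)).1 h
    refine Subtype.ext (toLin'.injective (LinearMap.ext fun v => ?_))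
    have := e l v
    rw [← h _ (hjV ⟨_, rfl⟩), mul_inv_cancel_right] at this
    exact (hj this).symm.trans (one_mulVec v).symm
  have two : (2 : ZMod p) ≠ 0 := fun h => hp2 ((Nat.prime_dvd_prime_iff_eq Fact.out Nat.prime_two).1
    ((ZMod.natCast_eq_zero_iff 2 p).1 (by exact_mod_cast h)))
  refine hc ⟨⟨fun x y => Subtype.ext (by_contra fun hxy => ?_)⟩⟩
  obtain ⟨x', hx, ex⟩ := hQS x.2
  obtain ⟨y', hy, ey⟩ := hQS y.2
  have := hD _ (hT.isP.map π) _ ⟨x', hx, rfl⟩ _ ⟨y', hy, rfl⟩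
    (fun h => hxy (mem_center_iff.1 (mem_center_of_sq two (by rw [← ex, ← map_mul, k _ (by rwa [map_mul])])) _).symm)
    fun h => hxy (mem_center_iff.1 (mem_center_of_sq two (by rw [← ey, ← map_mul, k _ (by rwa [map_mul])])) _)
  have := k (x' * y' * (y' * x')⁻¹) (by rw [map_mul, map_inv, map_mul, map_mul, this, mul_inv_cancel])
  rw [map_mul, map_inv, map_mul, map_mul, ex, ey, mul_inv_eq_one] at this
  exact hxy this

end Cfsg.Agent.S2787
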