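import Cfsg.Statements.S2788
import Cfsg.Agent.H19.ModB

set_option autoImplicit false
open Cfsg

namespace Cfsg.Agent.S2788

/-- Let H act faithfully by conjugation on the elementary abelian p-subgroup V of a finite group with H ≅ SL₂(F), F a field with p^n elements, S a Sylow p-subgroup of H, and A ≤ S a subgroup of order at least 3 acting quadratically on V ([V, A, A] = 1). Then |V/C_V(a)| ≥ p^n for every nonidentity a ∈ A. -/
theorem result {G : Type*} [Group G] [Finite G] {p : ℕ} [Fact p.Prime] (V H : Subgroup G) (hV : Cfsg.IsElementaryAbelian p V) (hHV : H ≤ Subgroup.normalizer (V : Set G)) (hf : H ⊓ Subgroup.centralizer (V : Set G) = ⊥) {F : Type*} [Field F] [Fintype F] (n : ℕ) (hF : Fintype.card F = p ^ n) (hiso : Nonempty (↥H ≃* Matrix.SpecialLinearGroup (Fin 2) F)) (S : Sylow p ↥H) (T : Subgroup G) (hT : T = ((S : Subgroup ↥H).map H.subtype)) (A : Subgroup G) (hA : A ≤ T) (hA3 : 3 ≤ Nat.card A) (hquad : ⁅⁅V, A⁆, A⁆ = ⊥) : ∀ a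 ∈ A, a ≠ 1 → p ^ n ≤ ((V ⊓ Subgroup.centralizer ({a} : Set G))).relIndex V := by
  open H19.MB Subgroup in
  obtain ⟨ε⟩ := hiso
  subst hT
  have := H25.charP_of_card hF
  have hp' : p.Prime := Fact.out
  intro a ha a1
  obtain ⟨s, hs, rfl⟩ := hA ha
  rw [ix_eq]
  by_cases h1 : n = 1
  · obtain ⟨d, d0, hd⟩ := ix_eq_pow hp' hV.2 hf s.2 a1
    exact hd ▸ Nat.pow_le_pow_right hp'.pos (by omega)
  have hn : 0 < n := Nat.pos_of_ne_zero fun e => Fintype.one_lt_card.ne' (by rw [hF, e, pow_zero])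
  obtain ⟨R, ho, hR, pp, hd⟩ := exists_pp_two hp' hn fun h => h1 h.1
  obtain ⟨k, hk⟩ := S.isPGroup' ⟨s, hs⟩
  have := (Gen.bound pp hp' hV.2 hHV hf (Gen.lift ε.toMonoidHom ε.surjective (sl2_gen (k := k) ho hR (hF ▸ hd)
    (fun e => a1 (congrArg Subtype.val (ε.map_eq_one_iff.1 e)))
    (by rw [← map_pow, show s ^ p ^ k = 1 from congrArg Subtype.val hk, map_one])))).1
  rw [pow_mul'] at this
  exact (Nat.pow_le_pow_iff_left two_ne_zero).1 this

end Cfsg.Agent.S2788
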