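import Cfsg.Statements.S2794
import Cfsg.Agent.H27.Qd

set_option autoImplicit false
open Cfsg

namespace Cfsg.Agent.S2794

open H26 H27 Subgroup

/-- For an odd prime p and a finite group G, the group Qd(p) is not involved in G if and only if in every section K/R of G, for every Sylow p-subgroup S* of K/R, the centre of J(S*) (J generated by the abelian subgroups of largest order) controls strong fusion in K/R. -/
theorem result {G : Type*} [Group G] [Finite G] {p : ℕ} [Fact p.Prime] (hp : p ≠ 2) : ¬ Cfsg.Involves ↥(Cfsg.qd p) G ↔ ∀ (K R : Subgroup G) [hR : (R.subgroupOf K).Normal], ∀ T : Sylow p (K ⧸ R.subgroupOf K), Cfsg.ControlsStrongFusion p (Cfsg.centerThompsonAOf (T : Subgroup (K ⧸ R.subgroupOf K))) := by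
  have hind : ∀ {X : Type _} [Group X] (S : Subgroup X),
      inducedFunctor (fun Q _ => centerThompsonOf 0 (⊤ : Subgroup Q)) S = centerThompsonAOf S := fun S => by
    rw [H4.centerThompsonAOf_eq]
    exact (H4.map_centerThompsonOf S.subtype_injective ⊤).trans (by rw [map_subtype_top])
  have hW : IsCharPFunctor p (fun Q _ => centerThompsonOf 0 (⊤ : Subgroup Q)) :=
    ⟨fun Q _ _ hQ _ => H4.centerThompsonOf_ne_bot (hQ.to_subgroup ⊤) top_ne_bot (dvd_zero p), fun Q R _ _ _ _ φ => by
      rw [H4.map_centerThompsonOf φ.injective, map_top_of_surjective _ φ.surjective]⟩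
  constructor
  · intro h K R _ T
    rw [← hind]
    refine controlsStrongFusion_of_sections hW (fun K R _ hC T => ?_) _ (involves_section K R) (isSyl_top T)
    rw [hind, H4.centerThompsonAOf_eq]
    exact H4.zj_top hp (Or.inl rfl) hC (H4.pStab_of_not_sec_qd hp fun h' =>
      h (Inv.trans (H4.involves_iff.2 h') (involves_section K R))) T
  · rintro h ⟨K, R, _, ⟨e⟩⟩
    obtain ⟨T⟩ := (inferInstance : Nonempty (Sylow p (K ⧸ R.subgroupOf K)))
    have hcf := isConjugacyFunctor_induced (G := K ⧸ R.subgroupOf K) hW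
    have h1 := (controlsStrongFusion_iff_ctl (isSyl_top T) (induced_le _ _) (cf_le_normalizer hcf T.isPGroup')).1
      (hind (T : Subgroup (K ⧸ R.subgroupOf K)) ▸ h K R T)
    rw [(qd_normalizer_eq e (isSyl_top T) (chIn_induced hW T.isPGroup')
      (cf_ne_bot hcf T.isPGroup' (sylow_ne_bot_of_equiv_qd e (isSyl_top T)))).1] at h1
    exact not_ctl_qd e (isSyl_top T) h1

end Cfsg.Agent.S2794
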