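import Cfsg.Statements.S2945
import Cfsg.Agent.H26.JC3

set_option autoImplicit false
open Cfsg

namespace Cfsg.Agent.S2945

open H26 Subgroup
open scoped Pointwise commutatorElement

open H4 in
theorem key {G : Type*} [Group G] [Finite G] {V E K : Subgroup G} (f : FFD 2 V E) (h1 : K ≤ 𝐍 V) (h2 : K ≤ 𝐍 E)
    (h3 : pResidualOf 2 K = K) (h4 : Four ⁅V, K⁆) : E ≤ 𝐍 ⁅V, K⁆ := by
  have hn : ∀ U ∈ Pl 2 V E, K ≤ 𝐍 U := fun U hU => by
    rw [← h3, pResidualOf_le_iff]
    intro k hk ho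
    by_contra e
    have hc := fun g (hg : g ∈ K) => Pl.conj hU (h1 hg) (h2 hg)
    have u4 := four_of_natSL hU.2
    have d : ∀ U ∈ Pl 2 V E, ∀ U' ∈ Pl 2 V E, U ≠ U' → ∀ x ∈ U', x ∈ 𝐂 (plE V E U') → x = 1 := fun U hU U' hU' _ x a b =>
      hU'.2.inf_centralizer.le ⟨a, b⟩
    have c : ∀ U ∈ Pl 2 V E, ∀ U' ∈ Pl 2 V E, U ≠ U' → U ≤ 𝐂 (plE V E U') := fun U hU U' hU' e =>
      le_centralizer_iff.1 (f.cent U hU U' hU' e)
    have n1 : U ≠ cj k U := fun e' => e (cj_eq_iff.1 e'.symm)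
    have n2 : U ≠ cj (k * k) U := fun e' => e (mem_of_pow_mem_coprime_orderOf ho (pow_two k ▸ cj_eq_iff.1 e'.symm))
    have n3 : cj k U ≠ cj (k * k) U := fun e' => n1 (cj_inj.1 (cj_mul k k U ▸ e'))
    have i1 : U ⊓ 𝐂 (zpowers k) = ⊥ := eq_bot_iff.2 fun u hu => d U hU _ (hc k hk) n1 u (by
      have := conj_mem_cj k hu.1
      rwa [mem_centralizer_zpowers.1 hu.2, mul_inv_cancel_right] at this) (c U hU _ (hc k hk) n1 hu.1)
    have i2 : ⁅U, zpowers k⁆ ≤ ⁅V, K⁆ := commutator_mono hU.1 (zpowers_le.2 hk)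
    -- the image of `u ↦ ⁅u, k⁆` is all of the four-group
    let φ : U → ↥⁅V, K⁆ := fun u => ⟨⁅(u : G), k⁆, i2 (commutator_mem_commutator u.2 (mem_zpowers k))⟩
    have := h4.finite
    have hφ : Function.Bijective φ := (Nat.bijective_iff_injective_and_card φ).2 ⟨fun a b e => Subtype.ext (by
      have e1 : (a : G) * k * (a : G)⁻¹ * k⁻¹ = b * k * (b : G)⁻¹ * k⁻¹ := congrArg Subtype.val e
      rw [mul_left_inj] at e1
      have e2 : ((b : G)⁻¹ * a) = 1 := i1.le ⟨U.mul_mem (U.inv_mem b.2) a.2, mem_centralizer_zpowers.2 (by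
        rw [show (b : G)⁻¹ * a * k = (b : G)⁻¹ * (a * k * (a : G)⁻¹) * a by group, e1]; group)⟩
      exact (inv_mul_eq_one.1 e2).symm), by rw [u4.card, h4.card]⟩
    obtain ⟨u, hu, u1⟩ := exists_ne_one_of_card (U := U) (by rw [u4.card]; norm_num)
    obtain ⟨v, hv⟩ := hφ.2 ⟨k * ⁅u, k⁆ * k⁻¹, conj_mem_of_mem_normalizer (le_normalizer_commutator_right V K hk)
      (i2 (commutator_mem_commutator hu (mem_zpowers k)))⟩
    have e1 : (v : G) * k * (v : G)⁻¹ * k⁻¹ = k * (u * k * u⁻¹ * k⁻¹) * k⁻¹ := congrArg Subtype.val hv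
    have e2 : k * k * u * (k * k)⁻¹ = (k * v * k⁻¹) * (v : G)⁻¹ * (k * u * k⁻¹) := by
      rw [show k * v * k⁻¹ * (v : G)⁻¹ = ((v : G) * k * (v : G)⁻¹ * k⁻¹)⁻¹ by group, e1]; simp [mul_assoc]
    refine u1 (conj_eq_one_iff.1 (d U hU _ (hc _ (mul_mem hk hk)) n2 _ (conj_mem_cj (k * k) hu) ?_))
    rw [e2]
    exact mul_mem (mul_mem (c _ (hc k hk) _ (hc _ (mul_mem hk hk)) n3 (conj_mem_cj k v.2))
      (inv_mem (c U hU _ (hc _ (mul_mem hk hk)) n2 v.2))) (c _ (hc k hk) _ (hc _ (mul_mem hk hk)) n3 (conj_mem_cj k hu))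
  by_cases e : ∀ U ∈ Pl 2 V E, K ≤ 𝐂 U
  · have e1 : sSup (Pl 2 V E) ≤ 𝐂 K := sSup_le fun U hU => le_centralizer_iff.1 (e U hU)
    have e2 : ⁅V, K⁆ ≤ V ⊓ 𝐂 E := commutator_le_of_le_sup_centralizer' f.span.ge e1
      (le_normalizer_of_le_comm f.ea.1 (sSup_le fun U hU => hU.1) inf_le_left)
      (le_normalizer_inf h1 (le_normalizer_centralizer h2))
    exact le_normalizer_of_le_centralizer (le_centralizer_iff.1 (e2.trans inf_le_right))
  · push Not at e
    obtain ⟨U, hU, e⟩ := e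
    have u4 := four_of_natSL hU.2
    rw [← h4.eq_of_le u4 ((u4.commutator_eq h3 (hn U hU) e).ge.trans (commutator_mono hU.1 le_rfl))]
    exact f.le_normalizer hU


/-- Let G be a finite group of characteristic 2 type in which every 2-local subgroup is solvable and the centralizer of Ω₁(Z(S)) lies in N_G(S) for every Sylow 2-subgroup S, and let T be a nontrivial 2-subgroup (below, J is the Thompson subgroup generated by the elementary abelian 2-subgroups of largest order), L a subgroup in which T is a Sylow 2-subgroup with J(T) not contained in O₂(L) and C_G(O₂(L)) ≤ O₂(L), and K ≤ L a subgroup that is subnormal in ⟨K, J(T)⟩. If for some conjugate Tᵍ of T, K is a J(Tᵍ)-component with J(Tᵍ) the Thompson subgroup of every Sylow 2-subgroup of N_G(W_K) containing J(Tᵍ) (W_K = [Ω₁(Z(O₂(K))), K]), then K is a J(T)-component. -/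
theorem result {G : Type*} [Group G] [Finite G] (hL : Cfsg.IsCharacteristicTwoType G) (hN : ∀ N : Subgroup G, Cfsg.IsTwoLocal N → Group.IsSolvable ↥N)
    (hZ : ∀ S : Sylow 2 G, Subgroup.centralizer (Cfsg.omegaCenterOf (S : Subgroup G) : Set G) ≤ Subgroup.normalizer ((S : Subgroup G) : Set G)) (T : Subgroup G) (hT : IsPGroup 2 ↥T) (hT1 : T ≠ ⊥) (L : Subgroup G) (hLT : L ∈ Cfsg.jOvergroups T)
    (K : Subgroup G) (hKL : K ≤ L) (hKsn : (K.subgroupOf (K ⊔ Cfsg.thompsonSubgroupOf 2 T)).IsSubnormal)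
    (g : G) (hKg : K ∈ Cfsg.jComponentsZero (T.map (MulAut.conj g).toMonoidHom)) : Cfsg.IsJComponent T K := by
  have hG := zn_of hL hN hZ
  obtain ⟨k, k0⟩ := (j0_iff (isPGroup_cj g hT)).1 hKg
  have s := isSylowTwoIn_iff.1 hLT.1
  refine (jc_iff hT).2 ?_
  suffices h : thompsonSubgroupOf 2 T ≤ 𝐍 (wOf K) by
    have := hG.jc_of_le k k0 (g := g⁻¹) (by rwa [← H4.cj_thompsonOf, cj_inv_cj])
    rwa [← H4.cj_thompsonOf, cj_inv_cj] at this
  set H := K ⊔ thompsonSubgroupOf 2 T with hH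
  have hHL : H ≤ L := sup_le hKL ((H4.thompsonOf_le 2 T).trans s.le)
  have sn : H2.SubnIn K H := H2.subnIn_iff.2 ⟨le_sup_left, hKsn⟩
  have q1 : pCoreOf 2 H ≤ 𝐍 K := k.res ▸ pCoreOf_le_normalizer_pResidualOf_of_subnIn sn
  have q2 : pCoreOf 2 H ≤ 𝐂 (wOf K) := k.four.le_c_of_normal k.res k.kw k.k_not_le (isPGroup_pCoreOf 2 H)
    (q1.trans (normalizer_le_normalizer_wOf K)) (le_sup_left.trans (le_normalizer_pCoreOf 2 H))
  have q3 : pCoreOf 2 K ≤ pCoreOf 2 H := pCoreOf_le_pCoreOf_of_subnIn sn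
  set Y := ncl (wOf K) H
  have y1 : Y ≤ eV H := ncl_le (le_oz k.four.ea ((wOf_le K).trans q3) (le_centralizer_iff.1 q2)) (le_n_eV H)
  have y2 : H ≤ 𝐍 Y := le_normalizer_ncl _ _
  have y3 : IsElementaryAbelian 2 Y := elemAb_mono (elemAb_oz _) y1
  have y4 : ⁅Y, K⁆ = wOf K := by
    refine le_antisymm ?_ (k.comm_w.ge.trans (commutator_mono (le_ncl _ _) le_rfl))
    have h2 : ⁅Y, K⁆ ≤ Y ⊓ K :=
      commutator_le_inf_of_le_normalizer (y1.trans ((eV_le H).trans q1)) (le_sup_left.trans y2)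
    rw [← k.comm_comm (elemAb_isPGroup y3) (le_sup_left.trans y2)]
    exact commutator_mono (h2.trans (le_oz (elemAb_mono y3 inf_le_left)
      ((le_inf inf_le_right (inf_le_left.trans (y1.trans (eV_le H)))).trans (inf_pCoreOf_le' le_sup_left))
      (inf_le_left.trans (y1.trans ((oz_le_c _).trans (centralizer_anti q3)))))) le_rfl
  have red : Red 2 H Y := fun N n1 n2 n3 => by
    have hK : K ≤ 𝐍 Y := le_sup_left.trans y2
    have m1 : H2.SubnIn (H4.mF Y K) (H4.mF Y H) := (sn.comap (𝐍 Y).subtype).map (H4.aF Y)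
    have m2 : IsPGroup 2 (H4.mF Y N) := isPGroup_map_iff_pResidualOf_le.2 (by
      rw [pResidualOf_subgroupOf (n1.trans y2), H4.aF_ker]; exact subgroupOf_mono _ n3)
    have m3 := (le_pCoreOf m2 (H4.mF_mono n1) (H4.mF_le_normalizer_mF n2)).trans
      (pCoreOf_le_normalizer_pResidualOf_of_subnIn m1)
    have m4 : pResidualOf 2 (H4.mF Y K) = H4.mF Y K := by
      rw [H4.mF, ← map_pResidualOf, pResidualOf_subgroupOf hK, k.res]
    rw [m4] at m3
    have m5 := le_normalizer_commutator ((H4.mF_le_normalizer le_rfl (n1.trans y2)).2 (n1.trans y2)) m3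
    rw [← H4.mI_commutator le_rfl hK, H4.mF_le_normalizer (commutator_le_of_le_normalizer hK) (n1.trans y2), y4] at m5
    have m6 := commutator_lt_of_pResidualOf_le k.four.isP m5 (n3.trans (centralizer_anti (le_ncl _ _))) k.four.ne_bot
    exact le_centralizer_iff.1 (ncl_le_centralizer (le_centralizer_iff.1 (commutator_eq_bot_iff'.1
      ((k.four.irr k.res k.kw k.k_not_le m6.le (le_normalizer_commutator k.kw (le_sup_left.trans n2))).resolve_right
        m6.ne))) n2)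
  have f := H4.FFD.of_mF y3 (sup_le ((H4.thompsonOf_le 2 H).trans y2) (inf_le_left.trans y2))
    (H4.ffd_thompson y3 (y1.trans ((eV_le H).trans (pCoreOf_le 2 H))) y2 ((hG.psol (inL_of_mem hLT)).mono hHL) red)
  have h1 := key f (le_sup_left.trans y2) (le_sup_left.trans (le_normalizer_sup (H4.le_normalizer_thompsonOf 2 H)
    (le_normalizer_inf le_normalizer (le_normalizer_centralizer y2)))) k.res (y4 ▸ k.four)
  rw [y4] at h1
  refine le_trans (H4.thompsonOf_le_iff.2 fun A hA => le_sup_of_le_left (H4.MaxEA.le_thompsonOf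
    (H4.MaxEA.of_le (H4.MaxEA.of_isSyl s hA) (le_sup_of_le_right (H4.MaxEA.le_thompsonOf hA)) hHL))) h1

end Cfsg.Agent.S2945
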