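import Cfsg.Statements.S2947
import Cfsg.Agent.H26.JC4

set_option autoImplicit false
open Cfsg

namespace Cfsg.Agent.S2947

open H26 Subgroup
open scoped Pointwise commutatorElement

/-- Let G be a finite group of characteristic 2 type in which every 2-local subgroup is solvable and the centralizer of Ω₁(Z(S)) lies in N_G(S) for every Sylow 2-subgroup S; suppose O₂(G) = 1, fix a Sylow 2-subgroup S and a 2-local subgroup M containing N_G(J(S)) (J the Thompson subgroup generated by the elementary abelian 2-subgroups of largest order). Then M is strongly embedded in G (a proper subgroup of even order whose intersection with each conjugate by an element outside M has odd order) if and only if no nontrivial 2-subgroup of M lies in a 2-local subgroup of G not contained in M. -/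
theorem result {G : Type*} [Group G] [Finite G] (hL : Cfsg.IsCharacteristicTwoType G) (hN : ∀ N : Subgroup G, Cfsg.IsTwoLocal N → Group.IsSolvable ↥N)
    (hZ : ∀ S : Sylow 2 G, Subgroup.centralizer (Cfsg.omegaCenterOf (S : Subgroup G) : Set G) ≤ Subgroup.normalizer ((S : Subgroup G) : Set G)) (hO : Cfsg.pCore 2 G = ⊥) (S : Sylow 2 G) (M : Subgroup G) (hM : Cfsg.IsTwoLocal M)
    (hMJ : Subgroup.normalizer (Cfsg.thompsonSubgroupOf 2 (S : Subgroup G) : Set G) ≤ M) :
    Cfsg.IsStronglyEmbedded M ↔ Cfsg.straddlingTwoSubgroups M = ∅ := by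
  have hG := zn_of hL hN hZ
  rw [← spe_iff_stronglyEmbedded]
  constructor
  · intro h
    refine Set.eq_empty_of_forall_notMem ?_
    rintro T ⟨h1, h2, h3, _, ⟨P, p1, p2, rfl⟩, h4, h5⟩
    have h6 : P ⊓ M ≠ ⊥ := fun e => inf_centralizer_ne_bot p1 h1 h4 p2 (le_bot_iff.1 (e ▸ inf_le_inf_left _
      ((le_inf le_top (centralizer_le_normalizer _)).trans (h.norm T h3 h1 h2))))
    have h7 : P ≤ M := by
      by_contra e
      exact (lt_inf_normalizer p1 (inf_lt_left.2 e)).not_ge (le_inf inf_le_left
        ((inf_le_inf_right _ le_top).trans (h.norm _ inf_le_right p1.to_inf_left h6)))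
    exact h5 ((le_inf le_top le_rfl).trans (h.norm P h7 p1 p2))
  · have s := (isSyl_top S).mono ((H4.le_normalizer_thompsonOf 2 _).trans hMJ) le_top
    exact spe_of_empty ((hG.inL hM).ne_top hO) (s.dvd_card fun e => (hG.inL hM).1 (le_bot_iff.1 (e ▸ s.pCoreOf_le)))

end Cfsg.Agent.S2947
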