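import Cfsg.Statements.S2951
import Cfsg.Agent.H26.JC4

set_option autoImplicit false
open Cfsg

namespace Cfsg.Agent.S2951

open H26 Subgroup
open scoped Pointwise commutatorElement

/-- Let G be a finite group of characteristic 2 type in which every 2-local subgroup is solvable and the centralizer of Ω₁(Z(S)) lies in N_G(S) for every Sylow 2-subgroup S; suppose O₂(G) = 1, fix a Sylow 2-subgroup S and a 2-local subgroup M containing N_G(J(S)) (J the Thompson subgroup generated by the elementary abelian 2-subgroups of largest order), and put Z = Ω₁(Z(S)). Let T ≤ S be maximal (for the order of a largest elementary abelian subgroup, then the order of J(T), then the order of T) among the nontrivial 2-subgroups of M lying in a 2-local subgroup not inside M, K a J(T)-component not contained in M with J(T) the Thompson subgroup of every Sylow 2-subgroup of N_G(W_K) containing J(T), and O₂(⟨K,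 T⟩) ≠ 1, L a maximal 2-local subgroup containing ⟨K, J(T)⟩ (there is only one), and Z₀ = Ω₁(Z(J(T))). Then Z₀ ∩ W_K ≠ 1, and one of: Z = Z₀ has order 2; Z = Z₀ has order 4 and T = S; Ω₁(Z(T)) = Z₀ has order 4 and C_L(Z₀) has index 2 in N_G(Z₀). -/
theorem result {G : Type*} [Group G] [Finite G] (hL : Cfsg.IsCharacteristicTwoType G) (hN : ∀ N : Subgroup G, Cfsg.IsTwoLocal N → Group.IsSolvable ↥N)
    (hZ : ∀ S : Sylow 2 G, Subgroup.centralizer (Cfsg.omegaCenterOf (S : Subgroup G) : Set G) ≤ Subgroup.normalizer ((S : Subgroup G) : Set G)) (hO : Cfsg.pCore 2 G = ⊥) (S : Sylow 2 G) (M : Subgroup G) (hM : Cfsg.IsTwoLocal M)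
    (hMJ : Subgroup.normalizer (Cfsg.thompsonSubgroupOf 2 (S : Subgroup G) : Set G) ≤ M) (T : Subgroup G) (hT : T ∈ Cfsg.maxStraddlingTwoSubgroups M)
    (hTS : T ≤ (S : Subgroup G)) (K : Subgroup G) (hK : K ∈ Cfsg.jComponentsOutside M T)
    (L : Subgroup G) (hLmax : Cfsg.IsMaximalTwoLocal L) (hKL : K ⊔ Cfsg.thompsonSubgroupOf 2 T ≤ L)
    (Z Z₀ : Subgroup G) (hZdef : Z = Cfsg.omegaCenterOf (S : Subgroup G)) (hZ₀ : Z₀ = Cfsg.omegaCenterOf (Cfsg.thompsonSubgroupOf 2 T)) :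
    Z₀ ⊓ Cfsg.wOf K ≠ ⊥ ∧
      ((Z = Z₀ ∧ Nat.card ↥Z₀ = 2) ∨ (Z = Z₀ ∧ Nat.card ↥Z₀ = 4 ∧ T = (S : Subgroup G)) ∨
        (Cfsg.omegaCenterOf T = Z₀ ∧ Nat.card ↥Z₀ = 4 ∧
          (L ⊓ Subgroup.centralizer (Z₀ : Set G)).relIndex (Subgroup.normalizer (Z₀ : Set G)) = 2)) := by
  have hG := zn_of hL hN hZ
  have s := isSyl_top S
  obtain ⟨L₀, l1, l2, -⟩ := (ts_of_max hT).exists_wu' s hMJ hG hK
  obtain rfl := l1.eq_of_max hLmax (le_sup_left.trans hKL) (le_sup_right.trans hKL)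
  obtain ⟨K', L', p⟩ := hG.exists_pr l1 l2 hO
  have e0 : Z₀ = oz T := hZ₀.trans (p.oz_eq hG).symm
  have z0 : Z ≤ Z₀ := hZdef ▸ e0 ▸ (hG.inL l1.loc).oz_le_oz l2 hTS
  have z1 : Z ≠ ⊥ := hZdef ▸ omegaOne_center_ne_bot s.isP fun e => hT.1.2.1 (le_bot_iff.1 (e ▸ hTS))
  have c0 := l1.jc.card_oz_inf
  have c1 := l1.jc.card_oz
  refine ⟨fun e => by rw [hZ₀] at e; change oz _ ⊓ _ = ⊥ at e; rw [e, card_bot] at c0; omega, ?_⟩
  rcases l1.card_cases p.w2 p.ne with c | c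
  · refine Or.inl ⟨eq_of_le_of_card_ge z0 ?_, hZ₀ ▸ c⟩
    have := (card_lt_of_lt (bot_lt_iff_ne_bot.2 z1))
    rw [card_bot] at this
    rw [hZ₀]; change Nat.card (oz _) ≤ _; omega
  rcases hTS.eq_or_lt with e | e
  · exact Or.inr (Or.inl ⟨by rw [hZdef, e0, e]; rfl, hZ₀ ▸ c, e⟩)
  refine Or.inr (Or.inr ⟨e0.symm, hZ₀ ▸ c, ?_⟩)
  change Z₀ = oz _ at hZ₀
  rw [← hZ₀] at c c1
  have f : Four Z₀ := ⟨c, fun w hw => by simpa [pow_two] using (elemAb_oz T).2 w (e0 ▸ hw)⟩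
  obtain ⟨g, hg, hg'⟩ := SetLike.exists_of_lt (lt_inf_normalizer s.isP e)
  have g1 := ZN.not_mem l2 s.isP hTS hg.1 hg'
  have p' := hG.pr_conj l1 l2 hg.2 g1
  obtain ⟨a, ha, a1⟩ := exists_ne_one_of_card (U := Z₀ ⊓ 𝐂 K) (by omega)
  obtain ⟨z, hz, z2⟩ := exists_ne_one_of_card (U := Z) fun e => z1 (card_eq_one.1 e)
  have gn : g ∈ 𝐍 Z₀ := e0 ▸ le_n_oz le_rfl hg.2
  have hb : g * a * g⁻¹ ∈ Z₀ ⊓ 𝐂 (cj g K) :=
    ⟨conj_mem_of_mem_normalizer gn ha.1, cj_centralizer g K ▸ conj_mem_cj g ha.2⟩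
  have b1 : g * a * g⁻¹ ≠ 1 := fun e => a1 (by simpa using e)
  have hc : 𝐂 Z₀ ≤ L := (centralizer_anti (zpowers_le.2 ha.1)).trans ((centralizer_le_normalizer _).trans
    (l1.n_le' (zpowers_ne_bot' a1) (zpowers_le.2 (hZ₀ ▸ ha))))
  have k : ∀ {K L}, WU (thompsonSubgroupOf 2 T) K L → IsSyl 2 T L → ∀ u ∈ Z₀ ⊓ 𝐂 K, ∀ x : G, x * z * x⁻¹ ≠ u := by
    rintro K L w t _ hu x rfl
    have h1 : cj x S ≤ L := by
      refine le_trans ?_ (w.n_le' (zpowers_ne_bot' fun e => z2 (by simpa using e)) (zpowers_le.2 (hZ₀ ▸ hu)))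
      rw [← cj_zpowers, ← cj_normalizer]
      exact cj_mono x (le_normalizer_of_le_centralizer ((le_c_oz _).trans (centralizer_anti (zpowers_le.2 (hZdef.le hz)))))
    have := t.card_le (isPGroup_cj x s.isP) h1
    rw [card_cj] at this
    exact (card_lt_of_lt e).not_ge this
  have n1 : 𝐍 Z₀ ≤ 𝐂 (zpowers z) := fun x hx => H4.mem_centralizer_zpowers.2 (by
    rcases f.mem_three (z0 hz) ha.1 hb.1 (conj_mem_of_mem_normalizer hx (z0 hz)) z2 a1 b1 (fun e => z2 (by simpa using e))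
      (by simpa using k l1 l2 a ha 1) (by simpa using k p'.w2 p'.s2 _ hb 1)
      (fun e => a1 ((l1.z_inf p'.w2 p'.ne).le (hZ₀ ▸ ⟨ha, e ▸ hb⟩))) with e | e | e
    · exact (mul_inv_eq_iff_eq_mul.1 e).symm
    · exact (k l1 l2 a ha x e).elim
    · exact (k p'.w2 p'.s2 _ hb x e).elim)
  have n2 : ⁅Z₀, 𝐍 Z₀⁆ ≤ zpowers z := f.commutator_le_of_card (zpowers_le.2 (z0 hz))
    (by rw [Nat.card_zpowers]; exact orderOf_eq_prime (f.ea.2 z (z0 hz)) z2) le_rfl (le_normalizer_of_le_centralizer n1)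
  have n3 : ∀ x ∈ 𝐍 Z₀, x * x ∈ 𝐂 Z₀ := fun x hx => pow_two x ▸ H4.quadratic_pow_mem f.ea.2 le_rfl
    (commutator_eq_bot_iff'.2 (n1.trans (centralizer_anti n2))) hx
  rw [inf_eq_right.2 hc]
  exact relIndex_eq_two_of (fun e => g1 (hc (e gn))) fun x hx y hy => f.two hx hy (n3 x hx) (n3 y hy) (n3 _ (mul_mem hx hy))

end Cfsg.Agent.S2951
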