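import Cfsg.Statements.S2953
import Cfsg.Agent.H26.JC4

set_option autoImplicit false
open Cfsg

namespace Cfsg.Agent.S2953

open H26 Subgroup
open scoped Pointwise commutatorElement

/-- Let G be a finite group of characteristic 2 type in which every 2-local subgroup is solvable and the centralizer of Ω₁(Z(S)) lies in N_G(S) for every Sylow 2-subgroup S; suppose O₂(G) = 1, fix a Sylow 2-subgroup S and a 2-local subgroup M containing N_G(J(S)) (J the Thompson subgroup generated by the elementary abelian 2-subgroups of largest order). Let T be maximal (for the order of a largest elementary abelian subgroup, then the order of J(T), then the order of T) among the nontrivial 2-subgroups of M lying in a 2-local subgroup not inside M. Then there are two distinct J(T)-components K₁, K₂ such that, with Pᵢ = ⟨Kᵢ, T⟩: C_G(O₂(Pᵢ)) ≤ O₂(Pᵢ), T is a Sylow 2-subgroup of Pᵢ, O₂(Pᵢ) has index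 6 in Pᵢ with Pᵢ/O₂(Pᵢ) non-abelian, [Ω₁(Z(T)), Pᵢ] ≠ 1, O₂(⟨P₁, P₂⟩) = 1, and each Pᵢ lies in exactly one maximal 2-local subgroup Lᵢ of G, in which T is a Sylow 2-subgroup. -/
theorem result {G : Type*} [Group G] [Finite G] (hL : Cfsg.IsCharacteristicTwoType G) (hN : ∀ N : Subgroup G, Cfsg.IsTwoLocal N → Group.IsSolvable ↥N)
    (hZ : ∀ S : Sylow 2 G, Subgroup.centralizer (Cfsg.omegaCenterOf (S : Subgroup G) : Set G) ≤ Subgroup.normalizer ((S : Subgroup G) : Set G)) (hO : Cfsg.pCore 2 G = ⊥) (S : Sylow 2 G) (M : Subgroup G) (hM : Cfsg.IsTwoLocal M)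
    (hMJ : Subgroup.normalizer (Cfsg.thompsonSubgroupOf 2 (S : Subgroup G) : Set G) ≤ M) (T : Subgroup G) (hT : T ∈ Cfsg.maxStraddlingTwoSubgroups M) :
    ∃ K₁ K₂ : Subgroup G, K₁ ≠ K₂ ∧ Cfsg.IsJComponent T K₁ ∧ Cfsg.IsJComponent T K₂ ∧
      Cfsg.pCoreOf 2 ((K₁ ⊔ T) ⊔ (K₂ ⊔ T)) = ⊥ ∧
      ∀ P ∈ [K₁ ⊔ T, K₂ ⊔ T],
        Subgroup.centralizer (Cfsg.pCoreOf 2 P : Set G) ≤ Cfsg.pCoreOf 2 P ∧ Cfsg.IsSylowTwoIn T P ∧
        (Cfsg.pCoreOf 2 P).relIndex P = 6 ∧ ¬ ⁅P, P⁆ ≤ Cfsg.pCoreOf 2 P ∧ ⁅Cfsg.omegaCenterOf T, P⁆ ≠ ⊥ ∧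
        ∃ L : Subgroup G, Cfsg.IsMaximalTwoLocal L ∧ P ≤ L ∧ Cfsg.IsSylowTwoIn T L ∧
          ∀ L' : Subgroup G, Cfsg.IsMaximalTwoLocal L' → P ≤ L' → L' = L := by
  have hG := zn_of hL hN hZ
  obtain ⟨K₁, K₂, L₁, L₂, p⟩ := (ts_of_max hT).exists_pr (isSyl_top S) hMJ hG hO
  have key : ∀ {K₁ K₂ L₁ L₂}, Pr T K₁ K₂ L₁ L₂ → ∀ P, P = K₁ ⊔ T →
      Subgroup.centralizer (Cfsg.pCoreOf 2 P : Set G) ≤ Cfsg.pCoreOf 2 P ∧ Cfsg.IsSylowTwoIn T P ∧
      (Cfsg.pCoreOf 2 P).relIndex P = 6 ∧ ¬ ⁅P, P⁆ ≤ Cfsg.pCoreOf 2 P ∧ ⁅Cfsg.omegaCenterOf T, P⁆ ≠ ⊥ ∧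
      ∃ L : Subgroup G, Cfsg.IsMaximalTwoLocal L ∧ P ≤ L ∧ Cfsg.IsSylowTwoIn T L ∧
        ∀ L' : Subgroup G, Cfsg.IsMaximalTwoLocal L' → P ≤ L' → L' = L := by
    rintro K₁ K₂ L₁ L₂ p _ rfl
    exact ⟨(p.c_le hG).trans p.core_le, isSylowTwoIn_iff.2 p.syl, (p.s3h hG).six, fun e => p.w1.jc.not_isP
      ((isPGroup_pCoreOf 2 _).to_le (p.w1.jc.comm.ge.trans ((commutator_mono le_sup_left
        ((H4.thompsonOf_le 2 T).trans le_sup_right)).trans e))), fun e => (p.s3h hG).nc (commutator_eq_bot_iff'.1 e),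
      L₁, p.w1.max, p.le, isSylowTwoIn_iff.2 p.s1, fun L' a b => p.w1.eq_of_max a (le_sup_left.trans b)
        ((H4.thompsonOf_le 2 T).trans (le_sup_right.trans b))⟩
  refine ⟨K₁, K₂, fun e => p.w1.not_le p.w2 p.ne (e ▸ p.w1.le), (jc_iff p.s1.isP).2 p.w1.jc, (jc_iff p.s1.isP).2 p.w2.jc,
    by_contra fun e => ?_, fun P hP => ?_⟩
  · have h := p.w1.n_le (isPGroup_pCoreOf 2 _) e ((le_sup_left.trans le_sup_left).trans (le_normalizer_pCoreOf 2 _))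
      ((((H4.thompsonOf_le 2 T).trans le_sup_right).trans le_sup_left).trans (le_normalizer_pCoreOf 2 _))
    exact p.w1.not_le p.w2 p.ne (((le_sup_left.trans le_sup_right).trans (le_normalizer_pCoreOf 2 _)).trans h)
  · simp only [List.mem_cons, List.not_mem_nil, or_false] at hP
    exact hP.elim (key p P) (key p.symm P)

end Cfsg.Agent.S2953
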