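import Cfsg.Statements.S3084
import Cfsg.Agent.H3.PGrpBasic

set_option autoImplicit false
open Cfsg

namespace Cfsg.Agent.S3084

open Finset

def s (t : ZMod 2) : ZMod 3 := if t = 0 then 1 else -1
theorem s_add : ∀ a b, s (a + b) = s a * s b := by decide
theorem s_zero : s 0 = 1 := rfl
theorem s_ne : ∀ a, s a ≠ 0 := by decide
theorem s_inj : ∀ {a b}, s a = s b → a = b := by decide
theorem s_surj : ∀ c ≠ 0, ∃ t, c = s t := by decide
theorem aa : ∀ a : ZMod 2, a + a = 0 := by decide

section
variable {U : Type*} [AddCommGroup U] [Module (ZMod 2) U] (β : U →ₗ[ZMod 2] U →ₗ[ZMod 2] ZMod 2)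

def e (u : U) : Module.End (ZMod 3) (U → ZMod 3) where
  toFun f x := s (β u x) * f (x + u)
  map_add' f g := by ext; simp [mul_add]
  map_smul' c f := by ext; simp [mul_left_comm]

theorem e_mul (u v : U) : e β u * e β v = s (β v u) • e β (u + v) := by
  refine LinearMap.ext fun f => funext fun x => ?_
  change s _ * (s _ * _) = s _ * (s _ * _)
  simp only [map_add, LinearMap.add_apply, s_add, add_assoc]; ring

theorem e_zero : e β 0 = 1 := LinearMap.ext fun f => funext fun x => by
  change s _ * _ = f x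
  simp [s_zero]

theorem e_sq (u : U) : e β u * e β u = s (β u u) • 1 := by rw [e_mul, ZModModule.add_self, e_zero]

theorem e_comm (u v : U) : e β u * e β v = s (β v u + β u v) • (e β v * e β u) := by
  rw [e_mul, e_mul, smul_smul, ← s_add, add_assoc, aa, add_zero, add_comm]

theorem conj (u w : U) : s (β w w) • (e β w * e β u * e β w) = s (β u w + β w u) • e β u := by
  rw [e_comm β w, smul_mul_assoc, mul_assoc, e_sq, mul_smul_comm, mul_one, smul_comm, smul_smul (s (β w w)), ← s_add, aa,
    s_zero, one_smul]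

variable [Fintype U] [DecidableEq U]

theorem coef (c : U → ZMod 3) (x : U) : (∑ u, c u • e β u) (Pi.single 0 1) x = c x * s (β x x) := by
  rw [LinearMap.sum_apply, Finset.sum_apply, sum_eq_single x]
  · change c x * (s _ * _) = _
    simp [ZModModule.add_self]
  · intro u _ h
    change c u * (s _ * _) = _
    rw [Pi.single_eq_of_ne fun e => h (by rw [eq_neg_of_add_eq_zero_right e, ZModModule.neg_eq_self]), mul_zero, mul_zero]
  · simp

theorem coef_inj {c d : U → ZMod 3} (h : ∑ u, c u • e β u = ∑ u, d u • e β u) : c = d := funext fun x =>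
  mul_right_cancel₀ (s_ne _) (by rw [← coef, h, coef])

theorem single (c : ZMod 3) (u : U) : ∑ v, (Pi.single u c : U → ZMod 3) v • e β v = c • e β u := by
  rw [sum_eq_single u (fun v _ h => by rw [Pi.single_eq_of_ne h, zero_smul]) (by simp), Pi.single_eq_same]

theorem uniq {t t' : ZMod 2} {u v : U} (h : s t • e β u = s t' • e β v) : u = v ∧ t = t' := by
  rw [← single, ← single] at h
  have := congrFun (coef_inj β h) u
  rw [Pi.single_eq_same] at this
  obtain rfl : u = v := by_contra fun h => s_ne _ (this.trans (Pi.single_eq_of_ne h _))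
  exact ⟨rfl, s_inj (by simpa using this)⟩

def Av : Module.End (ZMod 3) (U → ZMod 3) →ₗ[ZMod 3] Module.End (ZMod 3) (U → ZMod 3) :=
  ∑ w, s (β w w) • LinearMap.mulLeftRight (ZMod 3) (e β w, e β w)

omit [DecidableEq U] in
theorem Av_apply (y) : Av β y = ∑ w, s (β w w) • (e β w * y * e β w) := by
  simp [Av, LinearMap.sum_apply]

variable {β} (nd : ∀ u, (∀ w, β u w + β w u = 0) → u = 0)
include nd

theorem av (u : U) : Av β (e β u) = (if u = 0 then (Fintype.card U : ZMod 3) else 0) • 1 := by
  simp only [Av_apply, conj, ← sum_smul]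
  split_ifs with h
  · simp [h, s_zero, e_zero]
  obtain ⟨w, hw⟩ := not_forall.1 (mt (nd u) h)
  have e := Equiv.sum_comp (Equiv.addRight w) fun w => s (β u w + β w u)
  have e2 : ∀ x, s (β u (x + w) + β (x + w) u) = s (β u x + β x u) * s (β u w + β w u) := fun x => by
    rw [← s_add, map_add, map_add, LinearMap.add_apply, add_add_add_comm]
  simp only [Equiv.coe_addRight, e2, ← sum_mul] at e
  rw [show s (β u w + β w u) = -1 from if_neg hw] at e
  rw [(by decide : ∀ x : ZMod 3, x * -1 = x → x = 0) _ e, zero_smul, zero_smul]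

theorem lift (hc : (Fintype.card U : ZMod 3) ≠ 0) (k : U →ₗ[ZMod 2] U) (hk : ∀ u, β (k u) (k u) = β u u) :
    ∃ a : (Module.End (ZMod 3) (U → ZMod 3))ˣ, a.1 ∈ Submodule.span (ZMod 3) (Set.range (e β)) ∧
      ∀ u, ∃ t, a.1 * e β u = s t • (e β (k u) * a.1) := by
  obtain ⟨δ, hδ⟩ : ∃ δ : U →ₗ[ZMod 2] U →ₗ[ZMod 2] ZMod 2, δ + δ.flip = β.compl₁₂ k k + β := by
    let b := Module.finBasis (ZMod 2) U
    refine ⟨b.constr (ZMod 2) fun i => b.constr (ZMod 2) fun j => if i < j then (β.compl₁₂ k k + β) (b i) (b j) else 0,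
      b.ext fun i => b.ext fun j => ?_⟩
    simp only [LinearMap.add_apply, LinearMap.flip_apply, Module.Basis.constr_basis, LinearMap.compl₁₂_apply]
    rcases lt_trichotomy i j with h | rfl | h
    · rw [if_pos h, if_neg h.not_gt, add_zero]
    · rw [if_neg (lt_irrefl i), hk, aa, aa]
    · have := hk (b i + b j)
      simp only [map_add, LinearMap.add_apply, hk] at this
      rw [if_pos h, if_neg h.not_gt, zero_add]
      revert this
      generalize β (k (b i)) (k (b j)) = x1, β (k (b j)) (k (b i)) = x2, β (b i) (b j) = x3, β (b j) (b i) = x4,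
        β (b i) (b i) = x5, β (b j) (b j) = x6
      decide +revert
  have hδ : ∀ u v, δ u v + δ v u = β (k u) (k v) + β u v := fun u v => LinearMap.congr_fun₂ hδ u v
  let a := fun w => ∑ u, s (δ u u + β u u) • (e β (k u) * e β w * e β u)
  have a1 : ∀ w v, a w * e β v = s (δ v v) • (e β (k v) * a w) := fun w v => by
    simp only [a, sum_mul, mul_sum, smul_sum]
    refine (Equiv.sum_comp (Equiv.addLeft v) _).symm.trans (sum_congr rfl fun u _ => ?_)
    rw [smul_mul_assoc, mul_assoc, e_mul β _ v, mul_smul_comm, mul_smul_comm, ← mul_assoc, ← mul_assoc, e_mul β (k v),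
      smul_mul_assoc, smul_mul_assoc, smul_smul, smul_smul, smul_smul, ← s_add, ← s_add, ← s_add]
    simp only [Equiv.coe_addLeft, map_add, LinearMap.add_apply, add_right_comm v u v, ZModModule.add_self, zero_add]
    congr 2
    have := hδ u v
    revert this
    generalize δ u v = x1, δ v u = x2, β (k u) (k v) = x3, β u v = x4, δ v v = x5, δ u u = x6, β v v = x7, β v u = x8,
      β u u = x9
    decide +revert
  obtain ⟨w, hw⟩ : ∃ w, a w ≠ 0 := by
    by_contra! h
    have : ∑ w, s (β w w) • (a w * e β w) = (Fintype.card U : ZMod 3) • 1 := by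
      calc _ = ∑ u, s (δ u u + β u u) • (e β (k u) * Av β (e β u)) := by
            simp only [a, Av_apply, sum_mul, smul_sum, mul_sum]
            rw [sum_comm]
            refine sum_congr rfl fun u _ => sum_congr rfl fun w _ => ?_
            simp only [smul_mul_assoc, mul_smul_comm, mul_assoc]
            rw [smul_comm]
        _ = _ := by
            simp only [av nd]
            rw [sum_eq_single 0 (fun u _ h => by simp [h]) (by simp)]
            simp [s_zero, e_zero]
    simp only [h, zero_mul, smul_zero, sum_const_zero] at this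
    exact hc ((smul_eq_zero.1 this.symm).resolve_right one_ne_zero)
  have a2 : a w ∈ Submodule.span (ZMod 3) (Set.range (e β)) := Submodule.sum_mem _ fun u _ => by
    simp only [e_mul, smul_mul_assoc]
    exact Submodule.smul_mem _ _ (Submodule.smul_mem _ _ (Submodule.smul_mem _ _ (Submodule.subset_span ⟨_, rfl⟩)))
  have a3 := a1 w
  generalize a w = x at *
  obtain ⟨c, hx⟩ := (Submodule.mem_span_range_iff_exists_fun _).1 a2
  obtain ⟨u, hu⟩ : ∃ u, c u ≠ 0 := by
    by_contra! h
    exact hw (by simp [← hx, h])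
  have : (∑ w, s (β w w) • (s (δ w w) • (e β w * e β u * e β (k w)))) * x = (c u * s (β u u) * Fintype.card U) • 1 := by
    calc _ = Av β (e β u * x) := by simp only [Av_apply, sum_mul, smul_mul_assoc, mul_assoc, a3, mul_smul_comm]
      _ = _ := by
          simp only [← hx, mul_sum, mul_smul_comm, e_mul, map_sum, map_smul, av nd]
          rw [sum_eq_single u (fun v _ h => by
            rw [if_neg fun e => h (by rw [eq_neg_of_add_eq_zero_right e, ZModModule.neg_eq_self])]; simp) (by simp)]
          simp [ZModModule.add_self, smul_smul, mul_assoc]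
  have c0 : c u * s (β u u) * Fintype.card U ≠ 0 := mul_ne_zero (mul_ne_zero hu (s_ne _)) hc
  have : IsUnit x := IsUnit.of_mul_eq_one_right _ (by
    rw [← inv_smul_smul₀ c0 (1 : Module.End (ZMod 3) (U → ZMod 3)), ← this, ← smul_mul_assoc])
  exact ⟨this.unit, a2, fun u => ⟨_, a3 u⟩⟩

theorem ker {a : Module.End (ZMod 3) (U → ZMod 3)} (a0 : a ≠ 0) (ha : a ∈ Submodule.span (ZMod 3) (Set.range (e β)))
    (h : ∀ u, ∃ t, a * e β u = s t • (e β u * a)) : ∃ t u, a = s t • e β u := by
  obtain ⟨c, rfl⟩ := (Submodule.mem_span_range_iff_exists_fun _).1 ha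
  obtain ⟨u, hu⟩ : ∃ u, c u ≠ 0 := by
    by_contra! h
    exact a0 (by simp [h])
  obtain ⟨t, ht⟩ := s_surj _ hu
  refine ⟨t, u, (sum_eq_single u (fun v _ hv => ?_) (by simp)).trans (by rw [ht])⟩
  refine smul_eq_zero_of_left (by_contra fun hc => hv ?_) _
  refine (neg_eq_iff_add_eq_zero.2 (nd (u + v) fun w => ?_)).symm.trans (ZModModule.neg_eq_self u)
  obtain ⟨t, e1⟩ := h w
  have e2 : (∑ x, (c x * s (β x w + β w x)) • e β x) = ∑ x, (s t * c x) • e β x := by
    calc _ = s (β w w) • (e β w * ((∑ x, c x • e β x) * e β w)) := by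
          simp only [sum_mul, mul_sum, smul_sum, smul_mul_assoc, mul_smul_comm, ← mul_assoc, smul_comm (s (β w w)) (c _), conj,
            smul_smul (c _)]
      _ = _ := by
          rw [e1, mul_smul_comm, ← mul_assoc, e_sq, smul_mul_assoc, one_mul, smul_comm, smul_smul (s (β w w)), ← s_add, aa,
            s_zero, one_smul, smul_sum]
          simp only [smul_smul]
  have e3 := fun x => congrFun (coef_inj β e2) x
  have k : ∀ x, c x ≠ 0 → β x w + β w x = t := fun x h => s_inj (mul_left_cancel₀ h ((e3 x).trans (mul_comm ..)))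
  rw [map_add, map_add, LinearMap.add_apply, add_add_add_comm, k u hu, k v hc, aa]

theorem fin {K R : Type*} [Group K] [Group R] [Finite R] [Nontrivial U] (ρ : Representation (ZMod 2) K U) (π : R →* K)
    (θ : R →* Module.End (ZMod 3) (U → ZMod 3)) (h1 : Function.Surjective π)
    (h2 : ∀ r u, ∃ t, θ r * e β u = s t • (e β (ρ (π r) u) * θ r)) (h3 : ∀ r, π r = 1 → ∃ t u, θ r = s t • e β u)
    (h4 : ∀ t u, ∃ r, π r = 1 ∧ θ r = s t • e β u) (h5 : ∀ r, π r = 1 → θ r = 1 → r = 1) :
    ∃ (Q : Subgroup R) (hN : Q.Normal) (e : R ⧸ Q ≃* K) (χ : Q →* Multiplicative U), IsExtraspecial 2 Q ∧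
      Nat.card Q = 2 * Nat.card U ∧ Function.Surjective χ ∧ χ.ker = Subgroup.center Q ∧ (∀ (r : R) (a : Q),
        χ ⟨r * a * r⁻¹, hN.conj_mem (a : R) a.2 r⟩ = .ofAdd (ρ (e (r : R ⧸ Q)) (χ a).toAdd)) ∧
      ∀ a : Q, a * a = 1 ↔ β (χ a).toAdd (χ a).toAdd = 0 := by
  choose t u h3 using fun a : π.ker => h3 a a.2
  have inj : ∀ {a b : π.ker}, θ a = θ b → a = b := fun {a b} h => by
    rw [← mul_inv_eq_one]
    exact Subtype.ext (h5 _ (a * b⁻¹).2 (by rw [Subgroup.coe_mul, map_mul, h, ← map_mul]; simp))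
  have mu : ∀ a b : π.ker, θ a * θ b = s (t a + t b + β (u b) (u a)) • e β (u a + u b) := fun a b => by
    rw [h3, h3, smul_mul_smul_comm, e_mul, smul_smul, s_add, s_add]
  let χ : π.ker →* Multiplicative U := .mk' (fun a => .ofAdd (u a)) fun a b =>
    congrArg Multiplicative.ofAdd (uniq β ((h3 _).symm.trans ((map_mul θ a.1 b.1).trans (mu a b)))).1
  have hχ : ∀ a, (χ a).toAdd = u a := fun _ => rfl
  have sur : ∀ x y, ∃ a, t a = x ∧ u a = y := fun x y =>
    let ⟨r, e1, e2⟩ := h4 x y; ⟨⟨r, e1⟩, (uniq β ((h3 _).symm.trans e2)).symm⟩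
  have cm : ∀ a b : π.ker, a * b = b * a ↔ β (u a) (u b) + β (u b) (u a) = 0 := fun a b => by
    rw [add_eq_zero_iff_eq_neg, CharTwo.neg_eq]
    refine ⟨fun h => ?_, fun h => inj (by rw [Subgroup.coe_mul, Subgroup.coe_mul, map_mul, map_mul, mu, mu, h, add_comm (t a),
      add_comm (u a)])⟩
    have := (mu a b).symm.trans ((map_mul θ a.1 b.1).symm.trans ((congrArg (fun x : π.ker => θ x) h).trans
      ((map_mul θ b.1 a.1).trans (mu b a))))
    simpa [add_comm (t a), eq_comm] using (uniq β this).2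
  have hz : χ.ker = Subgroup.center π.ker := by
    ext a
    rw [Subgroup.mem_center_iff]
    refine ⟨fun h b => (cm b a).2 (by simp [show u a = 0 from h]), fun h => nd (u a) fun w => ?_⟩
    obtain ⟨b, -, rfl⟩ := sur 0 w
    exact (cm a b).1 (h b).symm
  have bij : Function.Bijective fun a => (t a, u a) := ⟨fun a b h => inj (by
    rw [h3, h3, (Prod.mk.inj h).1, (Prod.mk.inj h).2]), fun x => let ⟨a, e1, e2⟩ := sur x.1 x.2; ⟨a, Prod.ext e1 e2⟩⟩
  have cQ : Nat.card π.ker = 2 * Nat.card U := by rw [Nat.card_eq_of_bijective _ bij, Nat.card_prod, Nat.card_zmod]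
  have sχ : Function.Surjective χ := fun y => let ⟨a, _, e⟩ := sur 0 y.toAdd; ⟨a, congrArg Multiplicative.ofAdd e⟩
  have cZ : Nat.card (Subgroup.center π.ker) = 2 := by
    have := Subgroup.card_mul_index χ.ker
    rw [Subgroup.index_ker, MonoidHom.range_eq_top.2 sχ, Subgroup.card_top, cQ, hz] at this
    exact Nat.eq_of_mul_eq_mul_right Nat.card_pos this
  have sq1 : ∀ a : π.ker, a ^ 2 ∈ Subgroup.center π.ker := fun a => by
    rw [← hz, MonoidHom.mem_ker, map_pow, sq]; exact ZModModule.add_self (u a)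
  have p2 : IsPGroup 2 π.ker := fun a => ⟨2, by
    have := congrArg Subtype.val (pow_card_eq_one' (x := (⟨_, sq1 a⟩ : Subgroup.center π.ker)))
    rw [cZ] at this
    rw [sq, pow_mul]; exact this⟩
  have d1 : commutator π.ker ≤ Subgroup.center π.ker := hz ▸ Abelianization.commutator_subset_ker χ
  have d2 : commutator π.ker = Subgroup.center π.ker := Subgroup.eq_of_le_of_card_ge d1 (by
    obtain ⟨x, x0⟩ := exists_ne (0 : U)
    obtain ⟨a, -, rfl⟩ := sur 0 x
    rw [cZ]
    refine Finite.one_lt_card_iff_nontrivial.2 ((Subgroup.nontrivial_iff_ne_bot _).2 fun h => x0 ?_)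
    exact (hz.ge (((commutator_eq_bot_iff_center_eq_top _).1 h).ge (Subgroup.mem_top a)) : χ a = 1))
  refine ⟨π.ker, inferInstance, QuotientGroup.quotientKerEquivOfSurjective π h1, χ, ⟨⟨p2, le_antisymm
    ((H3.frattini_le_iff p2).2 ⟨d1, sq1⟩) (d2 ▸ H3.commutator_le_frattini p2), d2⟩, cZ⟩, cQ, sχ, hz, fun r a => ?_, fun a => ?_⟩
  · obtain ⟨x, hx⟩ := h2 r (u a)
    refine congrArg Multiplicative.ofAdd (uniq β (t' := t a + x) ((h3 _).symm.trans ?_)).1
    change θ (r * a * r⁻¹) = s _ • e β (ρ (π r) (u a))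
    rw [map_mul, map_mul, h3, mul_smul_comm, hx, smul_mul_assoc, smul_mul_assoc, mul_assoc, ← map_mul, mul_inv_cancel,
      map_one, mul_one, smul_smul, s_add]
  · have := mu a a
    rw [aa, zero_add, ZModModule.add_self, ← map_mul] at this
    refine ⟨fun h => ?_, fun h => inj ?_⟩
    · rw [← Subgroup.coe_mul, h, Subgroup.coe_one, map_one, ← e_zero β, ← one_smul (ZMod 3) (e β 0), ← s_zero, smul_smul,
        ← s_add, add_zero] at this
      exact (uniq β this).2.symm
    · rw [Subgroup.coe_mul, this, show β (u a) (u a) = 0 from h, s_zero, one_smul, e_zero, Subgroup.coe_one, map_one]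
end

/-- Let K be a group acting faithfully and linearly on a finite-dimensional vector space U of dimension 2n ≥ 2 over the field with two elements, preserving a quadratic form q whose polar bilinear form is non-degenerate and which vanishes on some n-dimensional subspace (a non-singular form of plus type). Then there is a finite group R with a normal extraspecial 2-subgroup Q of order 2^(2n+1), an isomorphism of R/Q with K, and a surjective homomorphism χ from Q onto (the additive group of) U with kernel the centre of Q, such that χ carries conjugation by any r in R to the action of the image of r in K, and an element a of Q squares to the identity exactly when q vanishes at χ(a). -/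
theorem result {K : Type*} [Group K] {U : Type*} [AddCommGroup U] [Module (ZMod 2) U] [Module.Finite (ZMod 2) U] (n : ℕ) (hn1 : 1 ≤ n) (hn : Module.finrank (ZMod 2) U = 2 * n) (ρ : Representation (ZMod 2) K U) (hρ : Function.Injective ρ) (q : QuadraticForm (ZMod 2) U) (hq : ∀ (k : K) (u : U), q (ρ k u) = q u) (hnd : (QuadraticMap.polarBilin q).Nondegenerate) (hplus : ∃ W : Submodule (ZMod 2) U, Module.finrank (ZMod 2) ↥W = n ∧ ∀ w ∈ W, q w = 0) : ∃ (R : Type) (_ : Group R) (_ : Finite R) (Q : Subgroup R) (hN : Q.Normal) (e : R ⧸ Q ≃* K) (χ : ↥Q →* Multiplicative U), Cfsg.IsExtraspecial 2 ↥Q ∧ Nat.card ↥Q = 2 ^ (2 * n + 1) ∧ Function.Surjective χ ∧ χ.ker = Subgroup.center ↥Q ∧ (∀ (r : R) (a : ↥Q), χ ⟨r * a * r⁻¹, hN.conj_mem (a : R) a.2 r⟩ = Multiplicative.ofAdd (ρ (e (r : R ⧸ Q)) (Multiplicative.toAdd (χ a)))) ∧ ∀ a : ↥Q, a * a = 1 ↔ q (Multiplicative.toAdd (χ a)) = 0 := by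
  classical
  have : Finite U := Module.finite_of_finite (ZMod 2)
  have := Fintype.ofFinite U
  have : Finite (Module.End (ZMod 2) U) := DFunLike.finite _
  have : Finite K := .of_injective _ hρ
  have : Finite (Module.End (ZMod 3) (U → ZMod 3)) := DFunLike.finite _
  have : Nontrivial U := Module.nontrivial_of_finrank_pos (R := ZMod 2) (by omega)
  have cU : Nat.card U = 2 ^ (2 * n) := by rw [Module.natCard_eq_pow_finrank (K := ZMod 2), hn, Nat.card_zmod]
  obtain ⟨β, rfl⟩ := LinearMap.BilinMap.toQuadraticMap_surjective q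
  have nd : ∀ u, (∀ w, β u w + β w u = 0) → u = 0 := fun u h => hnd.1 u fun w => by
    rw [QuadraticMap.polarBilin_apply_apply, LinearMap.BilinMap.polar_toQuadraticMap, h]
  let N : Submonoid (K × (Module.End (ZMod 3) (U → ZMod 3))ˣ) :=
    { carrier := {x | x.2.1 ∈ Submodule.span (ZMod 3) (Set.range (e β)) ∧
        ∀ u, ∃ t, x.2.1 * e β u = s t • (e β (ρ x.1 u) * x.2.1)}
      one_mem' := ⟨Submodule.subset_span ⟨0, e_zero β⟩, fun u => ⟨0, by simp [s_zero]⟩⟩
      mul_mem' := fun {a b} ha hb => ⟨by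
        obtain ⟨c, e1⟩ := (Submodule.mem_span_range_iff_exists_fun _).1 ha.1
        obtain ⟨d, e2⟩ := (Submodule.mem_span_range_iff_exists_fun _).1 hb.1
        simp only [Prod.snd_mul, Units.val_mul, ← e1, ← e2, sum_mul_sum, smul_mul_smul_comm, e_mul]
        exact Submodule.sum_mem _ fun _ _ => Submodule.sum_mem _ fun _ _ => Submodule.smul_mem _ _
          (Submodule.smul_mem _ _ (Submodule.subset_span ⟨_, rfl⟩)), fun u => by
        obtain ⟨t, e1⟩ := hb.2 u
        obtain ⟨t', e2⟩ := ha.2 (ρ b.1 u)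
        exact ⟨t + t', by
          rw [Prod.snd_mul, Units.val_mul, mul_assoc, e1, mul_smul_comm, ← mul_assoc, e2, smul_mul_assoc, smul_smul, s_add,
            Prod.fst_mul, map_mul, mul_assoc]; rfl⟩⟩ }
  let R : Subgroup (K × (Module.End (ZMod 3) (U → ZMod 3))ˣ) :=
    { N with inv_mem' := fun {g} hg =>
        (Submonoid.powers_le.2 hg : _ ≤ N) (mem_powers_iff_mem_zpowers.2 (inv_mem (Subgroup.mem_zpowers g))) }
  let φ := Shrink.mulEquiv.{0} (α := R)
  have : Finite (Shrink.{0} R) := .of_equiv _ φ.symm.toEquiv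
  obtain ⟨Q, hN, e, χ, k1, k2, k3⟩ := fin nd ρ (((MonoidHom.fst _ _).comp R.subtype).comp φ.toMonoidHom)
    ((Units.coeHom _).comp (((MonoidHom.snd _ _).comp R.subtype).comp φ.toMonoidHom)) (fun k => by
      obtain ⟨a, ha⟩ := lift nd (by
        rw [← Nat.card_eq_fintype_card, cU]; push_cast; exact pow_ne_zero _ (by decide)) (ρ k) (hq k)
      exact ⟨φ.symm ⟨(k, a), ha⟩, by simp⟩) (fun r => (φ r).2.2)
    (fun r hr => ker nd (φ r).1.2.ne_zero (φ r).2.1 fun u => by
      simpa [show (φ r).1.1 = 1 from hr] using (φ r).2.2 u) (fun t u => by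
      have : (s t • e β u) * (s (t + β u u) • e β u) = 1 := by
        rw [smul_mul_smul_comm, e_sq, smul_smul, ← s_add, ← s_add, ← add_assoc, aa, zero_add, aa, s_zero, one_smul]
      exact ⟨φ.symm ⟨(1, ⟨_, _, this, mul_eq_one_comm.1 this⟩), Submodule.smul_mem _ _ (Submodule.subset_span ⟨_, rfl⟩),
        fun v => ⟨_, by simp only [map_one, Module.End.one_apply, smul_mul_assoc, mul_smul_comm]; rw [e_comm, smul_comm]⟩⟩,
          by simp, by simp⟩) fun r h1 h2 => φ.injective (Subtype.ext (by rw [map_one]; exact Prod.ext h1 (Units.ext h2)))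
  exact ⟨_, inferInstance, this, Q, hN, e, χ, k1, by rw [k2, cU, pow_succ'], k3⟩

end Cfsg.Agent.S3084
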