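import Cfsg.Statements.S3085
import Mathlib

set_option autoImplicit false
open Cfsg

namespace Cfsg.Agent.S3085

/-- data of an extraspecial 2-group -/
structure ES {Q : Type*} [Group Q] (z : Q) : Prop where
  ne : z ≠ 1
  sq : z * z = 1
  cen : ∀ x, z * x = x * z
  cen' : ∀ x, (∀ y, x * y = y * x) → x = 1 ∨ x = z
  cm : ∀ x y : Q, x * y = y * x ∨ x * y = y * x * z

section
variable {Q : Type*} [Group Q] {z : Q}

/-- anticommuting -/
def An (z x y : Q) : Prop := x * y = y * x * z

lemma ES.not_both (h : ES z) {x y : Q} (h1 : x * y = y * x) (h2 : An z x y) : False := by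
  apply h.ne
  unfold An at h2
  rw [h1] at h2
  exact (mul_eq_left.mp h2.symm)

lemma ES.an_symm (h : ES z) {x y : Q} (h2 : An z x y) : An z y x := by
  unfold An at *
  rw [h2, mul_assoc, h.sq, mul_one]

lemma ES.cc {x y e : Q} (h1 : x * e = e * x) (h2 : y * e = e * y) : x * y * e = e * (x * y) := by
  rw [mul_assoc, h2, ← mul_assoc, h1, mul_assoc]

lemma ES.ac (h : ES z) {x y e : Q} (h1 : An z x e) (h2 : y * e = e * y) : An z (x * y) e := by
  unfold An at *
  rw [mul_assoc, h2, ← mul_assoc, h1, mul_assoc, h.cen y]; group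

lemma ES.ca {x y e : Q} (h1 : x * e = e * x) (h2 : An z y e) : An z (x * y) e := by
  unfold An at *
  rw [mul_assoc, h2, ← mul_assoc, ← mul_assoc, h1]; group

lemma ES.aa (h : ES z) {x y e : Q} (h1 : An z x e) (h2 : An z y e) : x * y * e = e * (x * y) := by
  unfold An at *
  calc x * y * e = x * (y * e) := by group
    _ = x * e * y * z := by rw [h2]; group
    _ = e * x * (z * y) * z := by rw [h1]; group
    _ = e * (x * y) * (z * z) := by rw [h.cen y]; group
    _ = _ := by rw [h.sq, mul_one]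

lemma ES.sq' (h : ES z) (x : Q) : x * x = 1 ∨ x * x = z := by
  apply h.cen'
  intro y
  rcases h.cm x y with h1 | h1
  · exact ES.cc h1 h1
  · exact h.aa h1 h1

lemma ES.conj (h : ES z) (v y : Q) : v * y * v⁻¹ = y ∨ v * y * v⁻¹ = y * z := by
  rcases h.cm v y with h1 | h1
  · left; rw [h1]; group
  · right; rw [h1, mul_assoc y, ← h.cen v]; group

open Classical in
/-- the transvection automorphism as a homomorphism -/
noncomputable def tauH (h : ES z) (e : Q) (he : e * e = z) : Q →* Q :=
  MonoidHom.mk' (fun x => if x * e = e * x then x else x * e) (by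
    intro x y
    rcases h.cm x e with h1 | h1 <;> rcases h.cm y e with h2 | h2
    · simp only [if_pos h1, if_pos h2, if_pos (ES.cc h1 h2)]
    · have h3 : ¬ (y * e = e * y) := fun k => h.not_both k h2
      have h4 : ¬ (x * y * e = e * (x * y)) := fun k => h.not_both k (ES.ca h1 h2)
      rw [if_pos h1, if_neg h3, if_neg h4, mul_assoc]
    · have h3 : ¬ (x * e = e * x) := fun k => h.not_both k h1
      have h4 : ¬ (x * y * e = e * (x * y)) := fun k => h.not_both k (h.ac h1 h2)
      rw [if_pos h2, if_neg h3, if_neg h4, mul_assoc, h2, mul_assoc]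
    · have h3 : ¬ (x * e = e * x) := fun k => h.not_both k h1
      have h4 : ¬ (y * e = e * y) := fun k => h.not_both k h2
      simp only [if_neg h3, if_neg h4, if_pos (h.aa h1 h2)]
      have h5 : y * e = e * y * z := h2
      calc x * y = x * y * (z * z) := by rw [h.sq, mul_one]
        _ = x * y * (e * e * z) := by rw [he]
        _ = x * (y * e) * (e * z) := by group
        _ = x * (e * y * z) * (e * z) := by rw [h5]
        _ = x * e * y * (z * e) * z := by group
        _ = x * e * (y * e) * (z * z) := by rw [h.cen e]; group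
        _ = _ := by rw [h.sq, mul_one])

lemma tauH_c (h : ES z) (e : Q) (he : e * e = z) {x : Q} (hx : x * e = e * x) :
    tauH h e he x = x := by
  simp [tauH, hx]

lemma tauH_a (h : ES z) (e : Q) (he : e * e = z) {x : Q} (hx : An z x e) :
    tauH h e he x = x * e := by
  have h3 : ¬ (x * e = e * x) := fun k => h.not_both k hx
  simp [tauH, h3]

/-- the transvection automorphism -/
noncomputable def tau [Finite Q] (h : ES z) (e : Q) (he : e * e = z) : MulAut Q :=
  MulEquiv.ofBijective (tauH h e he) (by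
    apply Finite.injective_iff_bijective.mp
    rw [injective_iff_map_eq_one]
    intro x hx
    rcases h.cm x e with h1 | h1
    · rwa [tauH_c h e he h1] at hx
    · rw [tauH_a h e he h1] at hx
      exfalso
      apply h.not_both _ h1
      rw [hx, eq_inv_of_mul_eq_one_left hx]; group)

lemma tau_c [Finite Q] (h : ES z) (e : Q) (he : e * e = z) {x : Q} (hx : x * e = e * x) :
    tau h e he x = x := tauH_c h e he hx

lemma tau_a [Finite Q] (h : ES z) (e : Q) (he : e * e = z) {x : Q} (hx : An z x e) :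
    tau h e he x = x * e := tauH_a h e he hx

lemma tau_sq [Finite Q] (h : ES z) (e : Q) (he : e * e = z) :
    tau h e he * tau h e he = MulAut.conj e := by
  ext x
  rw [MulAut.mul_apply, MulAut.conj_apply]
  rcases h.cm x e with h1 | h1
  · rw [tau_c h e he h1, tau_c h e he h1, ← h1]; group
  · rw [tau_a h e he h1, map_mul, tau_a h e he h1, tau_c h e he rfl]
    have h2 : e * x = x * e * z := h.an_symm h1
    rw [h2, mul_assoc x, he, mul_assoc x e, ← h.cen e]; group

lemma tau_comm [Finite Q] (h : ES z) (e f : Q) (he : e * e = z) (hf : f * f = z)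
    (hef : e * f = f * e) : tau h e he * tau h f hf = tau h f hf * tau h e he := by
  ext x
  rw [MulAut.mul_apply, MulAut.mul_apply]
  have h3 : tau h e he f = f := tau_c h e he hef.symm
  have h4 : tau h f hf e = e := tau_c h f hf hef
  rcases h.cm x e with h1 | h1 <;> rcases h.cm x f with h2 | h2
  · rw [tau_c h e he h1, tau_c h f hf h2, tau_c h e he h1]
  · rw [tau_c h e he h1, tau_a h f hf h2, map_mul, tau_c h e he h1, h3]
  · rw [tau_a h e he h1, tau_c h f hf h2, map_mul, tau_c h f hf h2, h4, tau_a h e he h1]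
  · rw [tau_a h e he h1, tau_a h f hf h2, map_mul, map_mul, tau_a h e he h1, tau_a h f hf h2,
      h3, h4, mul_assoc, hef, mul_assoc]

lemma ES.exists_an (h : ES z) {a : Q} (h1 : a ≠ 1) (h2 : a ≠ z) : ∃ x, An z x a := by
  by_contra hc
  push Not at hc
  have := h.cen' a (fun y => by
    rcases h.cm y a with k | k
    · exact k.symm
    · exact absurd k (hc y))
  tauto

lemma ES.sep (h : ES z) {e f : Q} (f1 : f ≠ 1) (f2 : f ≠ z) (g1 : e * f ≠ 1) (g2 : e * f ≠ z)
    (e1 : e ≠ 1) (e2 : e ≠ z) : ∃ x, x * e = e * x ∧ An z x f := by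
  by_contra hc
  push Not at hc
  have hc' : ∀ x, x * e = e * x → x * f = f * x := fun x hx => by
    rcases h.cm x f with k | k
    · exact k
    · exact absurd k (hc x hx)
  obtain ⟨y, hy⟩ := h.exists_an f1 f2
  obtain ⟨w, hw⟩ := h.exists_an g1 g2
  have hye : An z y e := by
    rcases h.cm y e with k | k
    · exact absurd hy (hc y k)
    · exact k
  rcases h.cm w e with k | k
  · exact h.not_both (ES.cc k.symm (hc' w k).symm).symm hw
  · have k2 := hc' _ (h.aa k hye)
    have k3 : An z w f := by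
      rcases h.cm w f with k4 | k4
      · exact absurd (ES.ca k4 hy) (fun k5 => h.not_both k2 k5)
      · exact k4
    exact h.not_both (h.aa (h.an_symm k) (h.an_symm k3)).symm hw

lemma main [Finite Q] (h : ES z) (L : Subgroup (MulAut Q)) (hL : (Cfsg.Inn Q).IsComplement' L)
    (e : Q) (he : e * e = z) :
    ∃ l : MulAut Q, l e = e * z ∧ ∀ f, f * f = z → e * f = f * e → e * f ≠ 1 → e * f ≠ z →
      l f = f := by
  have inj : ∀ a ∈ L, ∀ b ∈ L, (QuotientGroup.mk a : MulAut Q ⧸ Cfsg.Inn Q) = QuotientGroup.mk b →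
      a = b := by
    intro a ha b hb hab
    have h1 : a⁻¹ * b ∈ Cfsg.Inn Q ⊓ L :=
      ⟨QuotientGroup.eq.mp hab, L.mul_mem (L.inv_mem ha) hb⟩
    rw [hL.disjoint.eq_bot, Subgroup.mem_bot] at h1
    exact inv_mul_eq_one.mp h1
  have lift : ∀ (f : Q) (hf : f * f = z), ∃ l ∈ L,
      (QuotientGroup.mk l : MulAut Q ⧸ Cfsg.Inn Q) = QuotientGroup.mk (tau h f hf) ∧
      ∀ x, l x = tau h f hf x ∨ l x = tau h f hf x * z := by
    intro f hf
    obtain ⟨⟨i, l⟩, hil⟩ := hL.2 (tau h f hf)
    obtain ⟨i, g, rfl⟩ := i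
    simp only at hil
    refine ⟨l, l.2, ?_, ?_⟩
    · have : (QuotientGroup.mk (MulAut.conj g) : MulAut Q ⧸ Cfsg.Inn Q) = 1 :=
        (QuotientGroup.eq_one_iff _).mpr ⟨g, rfl⟩
      rw [← hil, QuotientGroup.mk_mul, this, one_mul]
    · intro x
      have : (l : MulAut Q) x = g⁻¹ * tau h f hf x * g⁻¹⁻¹ := by
        rw [← hil, MulAut.mul_apply, MulAut.conj_apply]; group
      rw [this]; exact h.conj _ _
  have nz : ∀ f : Q, f * f = z → f ≠ 1 ∧ f ≠ z := by
    intro f hf
    constructor
    · rintro rfl; exact h.ne (by simpa using hf.symm)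
    · rintro rfl; exact h.ne (by rw [← hf]; exact h.sq)
  obtain ⟨l, hl, hl1, hl2⟩ := lift e he
  have lz : l z = z := by
    rcases hl2 z with k | k
    · rw [k, tau_c h e he (h.cen e)]
    · rw [tau_c h e he (h.cen e), h.sq] at k
      exact absurd ((map_eq_one_iff _ l.injective).mp k) h.ne
  refine ⟨l, ?_, ?_⟩
  · have h1 : l * l = 1 := by
      apply inj _ (L.mul_mem hl hl) _ L.one_mem
      rw [QuotientGroup.mk_mul, hl1, ← QuotientGroup.mk_mul, tau_sq, QuotientGroup.mk_one]
      exact (QuotientGroup.eq_one_iff _).mpr ⟨e, rfl⟩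
    obtain ⟨x, hx⟩ := h.exists_an (nz e he).1 (nz e he).2
    have h2 : l (l x) = x := by rw [← MulAut.mul_apply, h1]; rfl
    rcases hl2 e with k | k
    · exfalso
      rw [tau_c h e he rfl] at k
      apply h.ne
      rcases hl2 x with k2 | k2
      · rw [tau_a h e he hx] at k2
        rw [k2, map_mul, k2, k, mul_assoc, he] at h2
        exact mul_eq_left.mp h2
      · rw [tau_a h e he hx] at k2
        rw [k2, map_mul, map_mul, k2, k, lz, mul_assoc (x * e), h.cen e, mul_assoc, mul_assoc,
          mul_assoc, h.sq, mul_one, he] at h2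
        exact mul_eq_left.mp h2
    · rwa [tau_c h e he rfl] at k
  · intro f hf hef g1 g2
    obtain ⟨m, hm, hm1, hm2⟩ := lift f hf
    have mz : m z = z := by
      rcases hm2 z with k | k
      · rw [k, tau_c h f hf (h.cen f)]
      · rw [tau_c h f hf (h.cen f), h.sq] at k
        exact absurd ((map_eq_one_iff _ m.injective).mp k) h.ne
    have h1 : l * m = m * l := by
      apply inj _ (L.mul_mem hl hm) _ (L.mul_mem hm hl)
      rw [QuotientGroup.mk_mul, QuotientGroup.mk_mul, hl1, hm1, ← QuotientGroup.mk_mul,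
        ← QuotientGroup.mk_mul, tau_comm h e f he hf hef]
    obtain ⟨x, hx1, hx2⟩ := h.sep (nz f hf).1 (nz f hf).2 g1 g2 (nz e he).1 (nz e he).2
    have h2 : l (m x) = m (l x) := by rw [← MulAut.mul_apply, h1]; rfl
    have k1 := hl2 x
    have k2 := hm2 x
    rw [tau_c h e he hx1] at k1
    rw [tau_a h f hf hx2] at k2
    rcases k1 with k1 | k1 <;> rcases k2 with k2 | k2
    · rw [k1, k2, map_mul, k1] at h2
      exact mul_left_cancel h2
    · rw [k1, k2, map_mul, map_mul, k1, lz] at h2
      exact mul_left_cancel (mul_right_cancel h2)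
    · rw [k1, k2, map_mul, map_mul, k1, k2, mz, mul_assoc, h.cen, ← mul_assoc] at h2
      exact mul_left_cancel (mul_right_cancel h2)
    · rw [k1, k2, map_mul, map_mul, map_mul, k1, k2, mz, lz, mul_assoc x z, h.cen,
        ← mul_assoc] at h2
      exact mul_left_cancel (mul_right_cancel (mul_right_cancel h2))

lemma exists_f (h : ES z) {a b c : Q} (haa : a * a = 1) (hbb : b * b = 1) (hcc : c * c = 1)
    (hab : a * b = b * a) (hac : a * c = c * a) (hbc : b * c = c * b)
    (a1 : a ≠ 1) (a2 : a ≠ z) (b1 : b ≠ 1) (b2 : b ≠ z) (ab1 : a * b ≠ 1) (ab2 : a * b ≠ z)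
    (hc : ∀ w, w = 1 ∨ w = a ∨ w = b ∨ w = a * b → c * w ≠ 1 ∧ c * w ≠ z) :
    ∃ f, f * f = z ∧ f * a = a * f ∧ f * b = b * f := by
  have key : ∃ y, y * a = a * y ∧ y * b = b * y ∧ An z y c := by
    obtain ⟨x1, p1, p2⟩ := h.sep (e := b) (f := a) a1 a2 (hab ▸ ab1) (hab ▸ ab2) b1 b2
    obtain ⟨x2, q1, q2⟩ := h.sep (e := a) (f := b) b1 b2 ab1 ab2 a1 a2
    have fin : ∀ w, (w = 1 ∨ w = a ∨ w = b ∨ w = a * b) → x1 * (c * w) = c * w * x1 →
        x2 * (c * w) = c * w * x2 → ∃ y, y * a = a * y ∧ y * b = b * y ∧ An z y c := by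
      intro w hw r1 r2
      obtain ⟨y0, hy0⟩ := h.exists_an (hc w hw).1 (hc w hw).2
      have s1 : ∃ y, y * a = a * y ∧ An z y (c * w) := by
        rcases h.cm y0 a with k | k
        · exact ⟨y0, k, hy0⟩
        · exact ⟨y0 * x1, h.aa k p2, h.ac hy0 r1⟩
      obtain ⟨y1, t1, t2⟩ := s1
      have s2 : ∃ y, y * a = a * y ∧ y * b = b * y ∧ An z y (c * w) := by
        rcases h.cm y1 b with k | k
        · exact ⟨y1, t1, k, t2⟩
        · exact ⟨y1 * x2, ES.cc t1 q1, h.aa k q2, h.ac t2 r2⟩
      obtain ⟨y, u1, u2, u3⟩ := s2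
      refine ⟨y, u1, u2, ?_⟩
      have u4 : y * w = w * y := by
        rcases hw with rfl | rfl | rfl | rfl
        · simp
        · exact u1
        · exact u2
        · exact (ES.cc u1.symm u2.symm).symm
      rcases h.cm y c with k | k
      · exact absurd u3 (fun k5 => h.not_both (ES.cc k.symm u4.symm).symm k5)
      · exact k
    rcases h.cm x1 c with k1 | k1 <;> rcases h.cm x2 c with k2 | k2
    · exact fin 1 (by simp) (by simpa using k1) (by simpa using k2)
    · exact fin b (by simp) (ES.cc k1.symm p1.symm).symm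
        (h.aa (h.an_symm k2) (h.an_symm q2)).symm
    · exact fin a (by simp) (h.aa (h.an_symm k1) (h.an_symm p2)).symm
        (ES.cc k2.symm q1.symm).symm
    · exact fin (a * b) (by simp)
        (h.aa (h.an_symm k1) (h.ac (h.an_symm p2) p1.symm)).symm
        (h.aa (h.an_symm k2) (ES.ca q1.symm (h.an_symm q2))).symm
  obtain ⟨y, y1, y2, y3⟩ := key
  rcases h.sq' y with k | k
  · refine ⟨y * c, ?_, ES.cc y1 hac.symm, ES.cc y2 hbc.symm⟩
    have y4 : c * y = y * c * z := h.an_symm y3
    calc y * c * (y * c) = y * (c * y) * c := by group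
      _ = y * y * c * (z * c) := by rw [y4]; group
      _ = y * y * (c * c) * z := by rw [h.cen c]; group
      _ = z := by rw [k, hcc]; group
  · exact ⟨y, k, y1, y2⟩
end

/-- Let Q be an extraspecial 2-group of order 2^(2n+1) with n ≥ 3 that is of plus type (it contains an elementary abelian subgroup of order 2^(n+1)). Then the group of inner automorphisms of Q has no complement in the full automorphism group of Q: the extension of the inner automorphism group (elementary abelian of order 2^(2n)) by the outer automorphism group (the orthogonal group of plus type) does not split. -/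
theorem result {Q : Type*} [Group Q] [Finite Q] (n : ℕ) (hn : 3 ≤ n) (hQ : Cfsg.IsExtraspecial 2 Q) (hcard : Nat.card Q = 2 ^ (2 * n + 1)) (hplus : ∃ E : Subgroup Q, Cfsg.IsElementaryAbelian 2 E ∧ Nat.card ↥E = 2 ^ (n + 1)) (L : Subgroup (MulAut Q)) : ¬ (Cfsg.Inn Q).IsComplement' L := by
  classical
  intro hL
  obtain ⟨⟨-, -, hcom⟩, hZ⟩ := hQ
  obtain ⟨E, ⟨hE1, hE2⟩, hE3⟩ := hplus
  obtain ⟨z0, hz0, hz0'⟩ := (Nat.card_eq_two_iff' (1 : Subgroup.center Q)).mp hZ
  have hcen : ∀ x ∈ Subgroup.center Q, x = 1 ∨ x = z0 := by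
    intro x hx
    by_cases k : (⟨x, hx⟩ : Subgroup.center Q) = 1
    · left; exact congrArg Subtype.val k
    · right; exact congrArg Subtype.val (hz0' _ k)
  have h : ES (z0 : Q) := by
    have hc : ∀ x, (z0 : Q) * x = x * z0 := fun x => (Subgroup.mem_center_iff.mp z0.2 x).symm
    have hne : (z0 : Q) ≠ 1 := fun k => hz0 (Subtype.ext k)
    refine ⟨hne, ?_, hc, ?_, ?_⟩
    · rcases hcen _ (Subgroup.mul_mem _ z0.2 z0.2) with k | k
      · exact k
      · exact absurd (mul_eq_left.mp k) hne
    · intro x hx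
      exact hcen x (Subgroup.mem_center_iff.mpr fun g => (hx g).symm)
    · intro x y
      have : x⁻¹ * y⁻¹ * x⁻¹⁻¹ * y⁻¹⁻¹ ∈ Subgroup.center Q := by
        rw [← hcom]; exact Subgroup.commutator_mem_commutator (Subgroup.mem_top _) (Subgroup.mem_top _)
      rcases hcen _ this with k | k
      · left
        calc x * y = y * x * (x⁻¹ * y⁻¹ * x⁻¹⁻¹ * y⁻¹⁻¹) := by group
          _ = _ := by rw [k, mul_one]
      · right
        calc x * y = y * x * (x⁻¹ * y⁻¹ * x⁻¹⁻¹ * y⁻¹⁻¹) := by group
          _ = _ := by rw [k]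
  generalize (z0 : Q) = z at h
  have big : ∀ s : Finset Q, s.card ≤ 8 → ∃ x ∈ E, x ∉ s := by
    intro s hs
    by_contra hc
    push Not at hc
    have h1 : Nat.card E ≤ s.card := by
      rw [← Nat.card_eq_finsetCard]
      exact Nat.card_le_card_of_injective (fun x : E => (⟨x.1, hc x.1 x.2⟩ : s))
        (fun x y k => Subtype.ext (congrArg (fun t : s => (t : Q)) k))
    have h2 : 2 ^ 4 ≤ 2 ^ (n + 1) := Nat.pow_le_pow_right (by norm_num) (by omega)
    omega
  have sq : ∀ x ∈ E, x * x = 1 := fun x hx => by rw [← pow_two]; exact hE2 x hx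
  have cm : ∀ x ∈ E, ∀ y ∈ E, x * y = y * x := fun x hx y hy =>
    congrArg Subtype.val (hE1.is_comm.comm (⟨x, hx⟩ : E) ⟨y, hy⟩)
  have can : ∀ x ∈ E, ∀ y ∈ E, (x * y = 1 → x = y) ∧ (x * y = z → x = y * z) := by
    intro x hx y hy
    constructor
    · intro k
      calc x = x * (y * y) := by rw [sq y hy, mul_one]
        _ = y := by rw [← mul_assoc, k, one_mul]
    · intro k
      calc x = x * (y * y) := by rw [sq y hy, mul_one]
        _ = y * z := by rw [← mul_assoc, k, h.cen]
  obtain ⟨a, ha, ha'⟩ := big {1, z} (Finset.card_le_two.trans (by norm_num))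
  obtain ⟨b, hb, hb'⟩ := big {1, z, a, a * z} (Finset.card_le_four.trans (by norm_num))
  obtain ⟨c, hc, hc'⟩ := big ({1, z, a, a * z} ∪ {b, b * z, a * b, a * b * z})
    ((Finset.card_union_le _ _).trans (by
      have := Finset.card_le_four (a := (1 : Q)) (b := z) (c := a) (d := a * z)
      have := Finset.card_le_four (a := b) (b := b * z) (c := a * b) (d := a * b * z)
      omega))
  simp only [Finset.mem_insert, Finset.mem_singleton, Finset.mem_union, not_or] at ha' hb' hc'
  have ab1 : a * b ≠ 1 := fun k => hb'.2.2.1 ((can a ha b hb).1 k).symm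
  have ab2 : a * b ≠ z := fun k => hb'.2.2.2 ((can b hb a ha).2 (by rw [cm b hb a ha, k]))
  obtain ⟨f, f1, f2, f3⟩ := exists_f h (sq a ha) (sq b hb) (sq c hc) (cm a ha b hb) (cm a ha c hc)
    (cm b hb c hc) ha'.1 ha'.2 hb'.1 hb'.2.1 ab1 ab2 (by
      rintro w (rfl | rfl | rfl | rfl)
      · simpa using ⟨hc'.1.1, hc'.1.2.1⟩
      · exact ⟨fun k => hc'.1.2.2.1 ((can c hc w ha).1 k), fun k => hc'.1.2.2.2 ((can c hc w ha).2 k)⟩
      · exact ⟨fun k => hc'.2.1 ((can c hc w hb).1 k), fun k => hc'.2.2.1 ((can c hc w hb).2 k)⟩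
      · exact ⟨fun k => hc'.2.2.2.1 ((can c hc _ (E.mul_mem ha hb)).1 k),
          fun k => hc'.2.2.2.2 ((can c hc _ (E.mul_mem ha hb)).2 k)⟩)
  have prod : ∀ u ∈ E, ∀ v ∈ E, f * u = u * f → f * u * (f * v) = u * v * z := by
    intro u _ v _ k
    calc f * u * (f * v) = f * (u * f) * v := by group
      _ = (f * f) * (u * v) := by rw [← k]; group
      _ = _ := by rw [f1, h.cen]
  have fab : f * (a * b) = a * b * f := (ES.cc f2.symm f3.symm).symm
  have hab := E.mul_mem ha hb
  obtain ⟨l, l1, l2⟩ := main h L hL (f * (a * b)) (by rw [prod _ hab _ hab fab, sq _ hab, one_mul])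
  have fix : ∀ u ∈ E, f * u = u * f → a * b * u ≠ 1 → a * b * u ≠ z → l (f * u) = f * u := by
    intro u hu k k1 k2
    apply l2
    · rw [prod _ hu _ hu k, sq _ hu, one_mul]
    · rw [prod _ hab _ hu fab, prod _ hu _ hab k, cm _ hab _ hu]
    · rw [prod _ hab _ hu fab]
      intro k3
      apply k2
      calc a * b * u = a * b * u * (z * z) := by rw [h.sq, mul_one]
        _ = z := by rw [← mul_assoc, k3, one_mul]
    · rw [prod _ hab _ hu fab]
      intro k3
      exact k1 (mul_eq_right.mp k3)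
  have e1 := fix 1 E.one_mem (by simp) (by simpa using ab1) (by simpa using ab2)
  have aba : a * b * a = b := by rw [cm a ha b hb, mul_assoc, sq a ha, mul_one]
  have abb : a * b * b = a := by rw [mul_assoc, sq b hb, mul_one]
  have e2 := fix a ha f2 (by rw [aba]; exact hb'.1) (by rw [aba]; exact hb'.2.1)
  have e3 := fix b hb f3 (by rw [abb]; exact ha'.1) (by rw [abb]; exact ha'.2)
  rw [mul_one] at e1
  rw [map_mul, e1] at e2 e3
  rw [map_mul, map_mul, e1, mul_left_cancel e2, mul_left_cancel e3] at l1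
  exact h.ne (mul_eq_left.mp l1.symm)

end Cfsg.Agent.S3085
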