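import Cfsg.Statements.S3099
import Cfsg.Agent.H22.Rank1

set_option autoImplicit false
open Cfsg

namespace Cfsg.Agent.S3099

/-- Let X be a finite perfect group of 2-rank exactly 1 (X has even order and contains no Klein four-group). Then X modulo its largest normal subgroup of odd order is isomorphic to the special linear group of dimension 2 over a field with q elements for some odd q > 3, or is a non-split double cover of the alternating group of degree 7. -/
theorem result {X : Type*} [Group X] [Finite X] (hP : Group.IsPerfect X) (h1 : Cfsg.PRankLE 2 1 X) (h2 : Even (Nat.card X)) :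
    (∃ (F : Type) (_ : Field F) (_ : Fintype F), Odd (Fintype.card F) ∧ 3 < Fintype.card F ∧
        Nonempty (X ⧸ Cfsg.oddCore X ≃* Matrix.SpecialLinearGroup (Fin 2) F)) ∨
      Cfsg.IsNonsplitDoubleCover (X ⧸ Cfsg.oddCore X) ↥(alternatingGroup (Fin 7)) := by
  exact H22.gw_rank_one (H22.u1_of_rank h1) h2.two_dvd

end Cfsg.Agent.S3099
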