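import Cfsg.Statements.S3103
import Cfsg.Agent.H3.B1
import Cfsg.Agent.H4.PSol
import Cfsg.Agent.S0256

set_option autoImplicit false
open Cfsg

namespace Cfsg.Agent.S3103

/-- Let X be a finite 2-constrained group with no nontrivial normal subgroup of odd order such that O₂(X) has sectional 2-rank at most 4. Then X/O₂(X) is isomorphic to a subgroup of the alternating group of degree 8. -/
theorem result {X : Type*} [Group X] [Finite X] (hc : Cfsg.IsPConstrained 2 X) (hO : Cfsg.oddCore X = ⊥)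
    (h4 : Cfsg.SectionalPRankLE 2 4 ↥(Cfsg.pCore 2 X)) :
    ∃ f : X ⧸ Cfsg.pCore 2 X →* ↥(alternatingGroup (Fin 8)), Function.Injective f := by
  open Subgroup H18 H3 in
  have z2 : ∀ x : ZMod 2, x ≠ 0 → x = 1 := by decide
  have := Fact.mk Nat.prime_two
  have hC : C(pCore 2 X) ≤ pCore 2 X := by
    have h : ⊤ ⊓ C(H17.oP 2 ⊤) ≤ H17.oP 2 ⊤ := (H4.isPConstrained_iff_of_eq_bot hO).1 hc
    rwa [H17.oP_top, top_inf_eq] at h
  have hQ : PiGrp {2} (pCore 2 X) := piGrp_of_isPGroup Nat.prime_two (H1.pCore_isPGroup 2 X)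
  have := normal_phi (U := pCore 2 X)
  let π := QuotientGroup.mk' Φ(pCore 2 X)
  let V := (pCore 2 X).map π
  have : V.Normal := Normal.map inferInstance _ (QuotientGroup.mk'_surjective _)
  have he : Elem 2 V := by
    refine ⟨?_, ?_⟩
    · rw [abel_iff_der, ← map_commutator, Subgroup.map_eq_bot_iff, QuotientGroup.ker_mk']
      exact hQ.der_le_phi Nat.prime_two
    · rintro _ ⟨u, hu, rfl⟩
      rw [← map_pow]; exact (QuotientGroup.eq_one_iff _).2 (hQ.pow_mem_phi Nat.prime_two hu)
  have hV : Nat.card V ≤ 2 ^ 4 := by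
    rw [← relIndex_ker, QuotientGroup.ker_mk', relIndex]
    have := sec_le (H := ⊤) (N := Φ(pCore 2 X).subgroupOf _) h4
      (commutator_le.2 fun a _ b _ => hQ.der_le_phi Nat.prime_two (commutator_mem_commutator a.2 b.2))
      fun y _ => hQ.pow_mem_phi Nat.prime_two y.2
    rwa [relIndex_top_right] at this
  have := he.1.comm
  obtain ⟨ρ, hρ⟩ := @exists_aut_GL V IsMulCommutative.instCommGroup _ 2 4 _ (fun v => Subtype.ext (he.2 v v.2)) hV
  obtain ⟨e⟩ := Cfsg.Agent.S0256.result (F := ZMod 2) (ZMod.card 2)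
  let s : GL (Fin 4) (ZMod 2) →* Matrix.SpecialLinearGroup (Fin 4) (ZMod 2) :=
    { toFun := fun g => ⟨g, by
        exact z2 _ g.det_ne_zero⟩
      map_one' := rfl
      map_mul' := fun _ _ => rfl }
  let f := e.toMonoidHom.comp ((QuotientGroup.mk' (center _)).comp (s.comp (ρ.comp ((MulAut.conjNormal (H := V)).comp π))))
  have hk : ∀ x, x ∈ pCore 2 X ↔ f x = 1 := fun x => by
    have h1 : f x = 1 ↔ MulAut.conjNormal (H := V) (π x) = 1 := by
      refine ⟨fun h => hρ ?_, fun h => by simp [f, h]⟩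
      obtain ⟨r, h1, h2⟩ := Matrix.SpecialLinearGroup.mem_center_iff.1
        ((QuotientGroup.eq_one_iff _).1 (e.map_eq_one_iff.1 h))
      rw [z2 r (by rintro rfl; simp at h1), map_one] at h2
      rw [map_one]
      exact Units.ext h2.symm
    refine ((SetLike.ext_iff.1 (cmod_phi hC) x).symm.trans ?_).trans h1.symm
    change π x ∈ C(V) ↔ _
    rw [mem_C]
    refine ⟨fun h => MulEquiv.ext fun v => Subtype.ext ?_, fun h v hv => ?_⟩
    · rw [MulAut.conjNormal_apply, ← h v v.2, mul_inv_cancel_right]; rfl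
    · have := congrArg Subtype.val (DFunLike.congr_fun h ⟨v, hv⟩)
      simp only [MulAut.conjNormal_apply, MulAut.one_apply, mul_inv_eq_iff_eq_mul] at this
      exact this.symm
  exact ⟨QuotientGroup.lift _ f fun x hx => (hk x).1 hx, by
    rw [← MonoidHom.ker_eq_bot_iff, eq_bot_iff]
    intro x hx
    obtain ⟨x, rfl⟩ := QuotientGroup.mk_surjective x
    exact (QuotientGroup.eq_one_iff _).2 ((hk x).2 hx)⟩

end Cfsg.Agent.S3103
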