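import Cfsg.Statements.S3106
import Cfsg.Agent.H22.R4b
import Cfsg.Agent.H4.PSol

set_option autoImplicit false
open Cfsg

namespace Cfsg.Agent.S3106

open H18 Subgroup H22.R4

/-- Let X be a finite nonsolvable 2-constrained group with no nontrivial normal subgroup of odd order and of sectional 2-rank at most 4, and suppose X/O₂(X) contains a subgroup isomorphic to the alternating group of degree 5. Then O₂(X) is elementary abelian of order 16, or O₂(X) is a central product of a quaternion group of order 8 and a dihedral group of order 8 (it has order 32 and is generated by two elementwise-commuting subgroups, one quaternion of order 8 and one dihedral of order 8, meeting in the centre). -/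
theorem result {X : Type*} [Group X] [Finite X] (hns : ¬ Group.IsSolvable X) (hc : Cfsg.IsPConstrained 2 X) (hO : Cfsg.oddCore X = ⊥)
    (h4 : Cfsg.SectionalPRankLE 2 4 X)
    (hQ : ∃ A : Subgroup (X ⧸ Cfsg.pCore 2 X), Nonempty (↥A ≃* ↥(alternatingGroup (Fin 5)))) :
    (Cfsg.IsElementaryAbelian 2 (Cfsg.pCore 2 X) ∧ Nat.card ↥(Cfsg.pCore 2 X) = 16) ∨
      (Nat.card ↥(Cfsg.pCore 2 X) = 32 ∧ ∃ A B : Subgroup ↥(Cfsg.pCore 2 X),
        Nonempty (↥A ≃* QuaternionGroup 2) ∧ Nonempty (↥B ≃* DihedralGroup 4) ∧ (∀ a ∈ A, ∀ b ∈ B, a * b = b * a) ∧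
          A ⊔ B = ⊤ ∧ A ⊓ B = Subgroup.center ↥(Cfsg.pCore 2 X)) := by
  have hC : C(pCore 2 X) ≤ pCore 2 X := by
    have h : ⊤ ⊓ C(H17.oP 2 ⊤) ≤ H17.oP 2 ⊤ := (H4.isPConstrained_iff_of_eq_bot hO).1 hc
    rwa [H17.oP_top, top_inf_eq] at h
  have pQ : PiGrp {2} (pCore 2 X) := piGrp_of_isPGroup Nat.prime_two (H1.pCore_isPGroup 2 X)
  obtain ⟨A, ⟨e⟩⟩ := hQ
  have sr := sr_of h4
  let π := QuotientGroup.mk' (pCore 2 X)
  let φ := e.toMonoidHom.comp (π.subgroupComap A)
  have hφ : Function.Surjective φ := e.surjective.comp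
    (π.subgroupComap_surjective_of_surjective A (QuotientGroup.mk'_surjective _))
  have mk : ∀ g, g ∈ φ.ker ↔ g.1 ∈ pCore 2 X := fun g => by
    rw [MonoidHom.mem_ker, ← QuotientGroup.eq_one_iff g.1]
    exact e.map_eq_one_iff.trans Subtype.ext_iff
  have le : ∀ g ∈ pCore 2 X, g ∈ A.comap π := fun g hg => by
    rw [mem_comap, show π g = 1 from (QuotientGroup.eq_one_iff g).2 hg]; exact one_mem _
  have eQ : φ.ker.map (A.comap π).subtype = pCore 2 X := by
    ext g; constructor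
    · rintro ⟨g, hg, rfl⟩; exact (mk g).1 hg
    · exact fun hg => ⟨⟨g, le g hg⟩, (mk _).2 hg, rfl⟩
  have pK : PiGrp {2} φ.ker := by rw [← eQ] at pQ; rwa [PiGrp, card_map_subtype] at pQ
  obtain ⟨f, t, θ, h⟩ := exists_st (sr.sub (A.comap π).subtype_injective) hφ pK fun g hg => (mk g).2 (hC (mem_C.2
    fun q hq => congrArg Subtype.val (mem_C.1 hg ⟨q, le q hq⟩ ((mk _).2 hq))))
  have h2 := card_phi _ rfl h
  rw [← card_map_subtype, ← phi_map pK, eQ] at h2
  have f5 : (f : X) ^ 5 = 1 := congrArg Subtype.val h.f5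
  rcases F5.ident ⟨sr, inferInstance, pQ, f5, nontriv (by norm_num) (by norm_num) pQ hC f5 fun d => by
    obtain ⟨x, hx, hx'⟩ := h.hf
    exact hx' (pK.der_le_phi Nat.prime_two (commutator_mem_commutator ((mk f).2 d) hx))⟩ h2 with
    ⟨h5, h6⟩ | ⟨h5, A, B, a1, b1, ⟨a2⟩, ⟨b2⟩, h6, h7, h8⟩
  · exact .inl ⟨⟨h5.abel.comm, h5.pow⟩, h6⟩
  · refine .inr ⟨h5, A.subgroupOf _, B.subgroupOf _, ⟨(subgroupOfEquivOfLe a1).trans a2⟩,
      ⟨(subgroupOfEquivOfLe b1).trans b2⟩, fun a ha b hb => Subtype.ext (comm_of_cent h6 ha hb), ?_, ?_⟩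
    · apply map_injective (pCore 2 X).subtype_injective
      rw [Subgroup.map_sup, subgroupOf_map_subtype, subgroupOf_map_subtype, inf_eq_left.2 a1, inf_eq_left.2 b1, h7,
        ← MonoidHom.range_eq_map, range_subtype]
    · apply map_injective (pCore 2 X).subtype_injective
      rw [Subgroup.map_inf _ _ _ (pCore 2 X).subtype_injective, subgroupOf_map_subtype, subgroupOf_map_subtype,
        inf_eq_left.2 a1, inf_eq_left.2 b1, h8, H21.map_center]

end Cfsg.Agent.S3106
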