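import Cfsg.Statements.S3110
import Cfsg.Agent.H17.SFG

set_option autoImplicit false
open Cfsg

namespace Cfsg.Agent.S3110

open H18 H17 Subgroup

/-- Let G be a finite group in which every 2-local subgroup is 2-constrained and some Sylow 2-subgroup has a self-centralizing abelian normal subgroup of 2-rank at least 3, and let S be any Sylow 2-subgroup of G. Then there is a subgroup W of G of odd order such that, for every subgroup B of S of 2-rank at least 2, W is generated by the largest normal odd-order subgroups O(C_G(b)) of the centralizers of the non-identity elements b of B, and W is normalized by the normalizer of every such B. -/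
theorem result {G : Type*} [Group G] [Finite G]
    (h2c : ∀ T : Subgroup G, IsPGroup 2 T → T ≠ ⊥ → Cfsg.IsPConstrained 2 ↥(Subgroup.normalizer (T : Set G)))
    (S : Sylow 2 G) (A : Subgroup ↥(S : Subgroup G)) (hAn : A.Normal) (hAab : IsMulCommutative ↥A)
    (hAC : Subgroup.centralizer (A : Set ↥(S : Subgroup G)) = A) (hA3 : ¬ Cfsg.PRankLE 2 2 ↥A) (S' : Sylow 2 G) :
    ∃ W : Subgroup G, Odd (Nat.card ↥W) ∧
      ∀ B : Subgroup G, B ≤ (S' : Subgroup G) → ¬ Cfsg.PRankLE 2 1 ↥B →
        W = (⨆ b : {b : G // b ∈ B ∧ b ≠ 1}, Cfsg.centralizerPPrimeCore 2 (b : G)) ∧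
        Subgroup.normalizer (B : Set G) ≤ Subgroup.normalizer (W : Set G) := by
  have p2 := Nat.prime_two
  have hS := hall_sylow_top p2 S'
  obtain ⟨E, hE, he, h3⟩ := exists_nml_elem S A hAn hAab hA3 hS
  have hs : GSF 2 S' (centralizerPPrimeCore 2) := gsf_core fun a b ha hb e => core_le_core (pLay_C1_of_constrained h2c
    (isPGroup_zpowers_of_orderOf hb) fun e => by simp [e] at hb) (isPGroup_zpowers_of_orderOf ha) e
  refine ⟨WB (centralizerPPrimeCore 2) E, Nat.odd_iff.2 (Nat.two_dvd_ne_zero.1 ((piNat_compl_iff p2).1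
    ((hs E hE.le he h3).mem_WB h3).pi)), fun B hB hr => ?_⟩
  have : WB (centralizerPPrimeCore 2) E = WB (centralizerPPrimeCore 2) B := by
    obtain ⟨V, hV, ev, h2⟩ := exists_elem_of_not_prankLE p2 hr
    refine le_antisymm ((hs.eq_of_normal hS.pi hE he h3 (hV.trans hB) ev h2.ge).ge.trans (WB_mono hV))
      (WB_le fun b hb h1 => ?_)
    have hb' : PiGrp {2} (zpowers b) := hS.pi.of_le (zpowers_le.2 (hB hb))
    obtain ⟨t, ht, t2⟩ := cauchy p2 (hb'.dvd_card (by simpa using h1))
    have t1 : t ≠ 1 := fun e => by simp [e] at t2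
    exact (le_inf le_rfl ((oQ_le 2 _).trans (C1_le_of_mem_zpowers ht))).trans ((core_le_core (pLay_C1_of_constrained h2c
      (isPGroup_zpowers_of_orderOf t2) t1) hb'.isPGroup (C1_le_of_mem_zpowers ht C1_self)).trans
      (hs.le_of_normal hS.pi hE he h3 (zpowers_le.2 (hB hb) ht) (t2 ▸ pow_orderOf_eq_one t) t1))
  exact ⟨this, this ▸ norm_WB core_conj⟩

end Cfsg.Agent.S3110
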