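import Cfsg.Statements.S3116
import Cfsg.Agent.H29.Sm

set_option autoImplicit false
open Cfsg

namespace Cfsg.Agent.S3116

theorem aux {X : Type*} [Group X] [Finite X] (h2 : IsPGroup 2 X) (x : X)
    (h1 : ∀ g, g ∉ Subgroup.zpowers x → orderOf g ≠ orderOf x)
    (h3 : ∀ g, g * x = x * g → g ∈ Subgroup.zpowers x) : IsPGroup 2 (MulAut X) := by
  have hc : ∀ (a : MulAut X), ∀ y ∈ Subgroup.zpowers x, a y ∈ Subgroup.zpowers x := by
    rintro a _ ⟨k, rfl⟩
    simp only [map_zpow]
    refine Subgroup.zpow_mem _ ?_ k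
    by_contra hn
    exact h1 _ hn (MulEquiv.orderOf_eq a x)
  intro a
  obtain ⟨n, hn⟩ := IsPGroup.iff_card.1 (h2.to_subgroup (Subgroup.zpowers x))
  have h4 : Nat.card (MulAut (Subgroup.zpowers x)) ∣ 2 ^ n := by
    rw [IsCyclic.card_mulAut, hn]
    rcases n with _ | n
    · simp
    · rw [Nat.totient_prime_pow_succ Nat.prime_two]; simp [pow_succ]
  have h5 : H29.resAut _ hc (a ^ 2 ^ n) = 1 := by
    rw [map_pow]; exact orderOf_dvd_iff_pow_eq_one.1 ((orderOf_dvd_natCard _).trans h4)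
  obtain ⟨k, hk⟩ := H29.aut_pow_eq_one_of_fix h2 (H := Subgroup.zpowers x)
    (fun g hg => h3 g (hg x (Subgroup.mem_zpowers x)).symm) (a ^ 2 ^ n) (fun y hy =>
      congrArg (fun b : MulAut (Subgroup.zpowers x) => ((b ⟨y, hy⟩ : Subgroup.zpowers x) : X)) h5)
  exact ⟨n + k, by rw [pow_add, pow_mul, hk]⟩

/-- The automorphism group of a dihedral 2-group of order at least 8, or of a quasi-dihedral (semidihedral) 2-group of order at least 16, is a 2-group. -/
theorem result {X : Type*} [Group X] [Finite X] (h2 : IsPGroup 2 X)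
    (h : (∃ n : ℕ, 4 ≤ n ∧ Nonempty (X ≃* DihedralGroup n)) ∨ Cfsg.IsQuasiDihedral X) : IsPGroup 2 (MulAut X) := by
  rcases h with ⟨n, hn, ⟨e⟩⟩ | ⟨n, hn, hc, x, y, hx, hy, hxy⟩
  · haveI : NeZero n := ⟨by omega⟩
    have h3 : IsPGroup 2 (MulAut (DihedralGroup n)) := by
      have hr : ∀ i : ZMod n, DihedralGroup.r i ∈ Subgroup.zpowers (DihedralGroup.r 1 : DihedralGroup n) :=
        fun i => ⟨i.val, by simp⟩
      refine aux (h2.of_equiv e) (DihedralGroup.r 1) ?_ ?_
      · rintro (i | i) hi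
        · exact absurd (hr i) hi
        · rw [DihedralGroup.orderOf_sr, DihedralGroup.orderOf_r_one]; omega
      · rintro (i | i) hi
        · exact hr i
        · simp only [DihedralGroup.sr_mul_r, DihedralGroup.r_mul_sr, DihedralGroup.sr.injEq] at hi
          have h4 : ((2 : ℕ) : ZMod n) = 0 := by push_cast; linear_combination hi
          have := Nat.le_of_dvd two_pos ((ZMod.natCast_eq_zero_iff _ _).1 h4)
          omega
    exact h3.of_equiv (MulAut.congr e).symm
  · obtain ⟨m, rfl⟩ : ∃ m, n = m + 3 := ⟨n - 3, by omega⟩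
    have hne : y * x ≠ x * y := fun h => by
      rw [h, mul_inv_cancel_right] at hxy
      have h1 : x ^ 1 = x ^ (2 ^ (m + 3 - 1) - 1) := by rw [pow_one]; exact hxy
      rw [pow_eq_pow_iff_modEq, hx] at h1
      have h3 : 0 < 2 ^ m := by positivity
      have h4 : 2 ^ (m + 3 - 1) = 4 * 2 ^ m := by rw [show m + 3 - 1 = m + 2 by omega]; ring
      have h5 : 2 ^ (m + 3) = 8 * 2 ^ m := by ring
      rw [h4, h5] at h1
      have := Nat.ModEq.eq_of_lt_of_lt h1 (by omega) (by omega)
      omega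
    have hi : (Subgroup.zpowers x).index = 2 := by
      have := (Subgroup.zpowers x).card_mul_index
      rw [Nat.card_zpowers, hx, hc, pow_succ 2 (m + 3)] at this
      exact Nat.eq_of_mul_eq_mul_left (by positivity) this
    have hyn : y ∉ Subgroup.zpowers x := by
      rintro ⟨k, rfl⟩
      exact hne (Commute.self_zpow x k).symm
    have hyy : y * y = 1 := by rw [← pow_two, ← hy, pow_orderOf_eq_one]
    have hout : ∀ g, g ∉ Subgroup.zpowers x → ∃ k : ℕ, g = x ^ k * y := fun g hg => by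
      have : g * y ∈ Subgroup.zpowers x := (Subgroup.mul_mem_iff_of_index_two hi).2 (iff_of_false hg hyn)
      obtain ⟨k, hk⟩ := (mem_powers_iff_mem_zpowers.2 this)
      exact ⟨k, by rw [show x ^ k = g * y from hk, mul_assoc, hyy, mul_one]⟩
    refine aux h2 x (fun g hg => ?_) (fun g hg => ?_)
    · obtain ⟨k, rfl⟩ := hout g hg
      have h1 : (x ^ k * y) ^ 2 = (x ^ 2 ^ (m + 2)) ^ k := by
        have h3 : y * x ^ k * y = (x ^ (2 ^ (m + 3 - 1) - 1)) ^ k := by
          rw [← hxy, conj_pow, inv_eq_of_mul_eq_one_left hyy]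
        calc (x ^ k * y) ^ 2 = x ^ k * (y * x ^ k * y) := by rw [pow_two]; simp only [mul_assoc]
          _ = (x * x ^ (2 ^ (m + 3 - 1) - 1)) ^ k := by rw [h3, (Commute.self_pow x _).mul_pow]
          _ = _ := by
            rw [← pow_succ', Nat.sub_add_cancel Nat.one_le_two_pow]; rfl
      have h3 : (x ^ k * y) ^ 4 = 1 := by
        rw [show 4 = 2 * 2 from rfl, pow_mul, h1, ← pow_mul, mul_comm k 2, pow_mul, ← pow_mul x, ← pow_succ,
          ← hx, pow_orderOf_eq_one, one_pow]
      have h4 := Nat.le_of_dvd (by norm_num) (orderOf_dvd_of_pow_eq_one h3)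
      have h5 : 0 < 2 ^ m := by positivity
      rw [hx, pow_add]; omega
    · by_contra hn
      obtain ⟨k, rfl⟩ := hout g hn
      apply hne
      rw [mul_assoc, ← mul_assoc x, (Commute.self_pow x k).eq, mul_assoc] at hg
      exact mul_left_cancel hg

end Cfsg.Agent.S3116
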