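import Cfsg.Statements.S3121
import Cfsg.Agent.H19.ZDR
import Cfsg.Agent.H17.Comp

set_option autoImplicit false
open Cfsg

namespace Cfsg.Agent.S3121

/-- Let G be a finite group whose generalized Fitting subgroup F*(G) is a non-abelian simple group, let H be a tightly embedded subgroup of G and N its normalizer. If H^g ∩ N has odd order for every element g of G outside N, then either H is normal in G or F*(G) has a strongly embedded subgroup. -/
theorem result {G : Type*} [Group G] [Finite G]
    (hF : IsSimpleGroup ↥(Cfsg.generalizedFittingSubgroup G)) (hF' : ¬ IsMulCommutative ↥(Cfsg.generalizedFittingSubgroup G))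
    (H : Subgroup G) (hH : Cfsg.IsTightlyEmbedded H)
    (hodd : ∀ g : G, g ∉ Subgroup.normalizer (H : Set G) →
      Odd (Nat.card ↥(H.map (MulAut.conj g).toMonoidHom ⊓ Subgroup.normalizer (H : Set G)))) :
    H.Normal ∨ ∃ M : Subgroup ↥(Cfsg.generalizedFittingSubgroup G), Cfsg.IsStronglyEmbedded M := by
  open H18 H9 H19 Subgroup in
  refine (em _).imp_right fun ne => ?_
  have h := fam_tight hH.1 ne hodd
  obtain ⟨s, hs, k⟩ := h.exists_inv
  have n : generalizedFittingSubgroup G ⊴ ⊤ := nml_top_iff.2 inferInstance
  have le : generalizedFittingSubgroup G ≤ closure (Cl H) := by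
    rcases simple_nml hF ((nml_Cl (Z := H)).inf_right le_top) with e | e
    · have c : closure (Cl H) ≤ generalizedFittingSubgroup G := (comm_eq_bot_iff.1 (le_bot_iff.1 ((le_inf
        (comm_le_left (le_top.trans nml_Cl.norm)) (comm_le_right (le_top.trans n.norm))).trans e.le))).trans
        (H17.centralizer_generalizedFittingSubgroup_le G)
      exact absurd (e.le ⟨subset_closure k, c (subset_closure k)⟩) k.2.1
    · exact e.ge.trans inf_le_left
  exact ⟨_, (h.sein (fun x hx => h.main (le hx)) (simple_even hF fun e => hF' e.comm) n).se⟩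

end Cfsg.Agent.S3121
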