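import Cfsg.Statements.S3356
import Cfsg.Agent.H16.Half
import Cfsg.Agent.H16.Regular
import Cfsg.Agent.H16.Centralizer

set_option autoImplicit false
open Cfsg

namespace Cfsg.Agent.S3356


/-- Let G be a finite 3/2-transitive permutation group: G acts faithfully and transitively on a finite set, the point stabilizers are non-trivial, and for each point a all orbits of G_a on the remaining points have the same size. Suppose G has a regular normal subgroup N and G is not a Frobenius group (some two-point stabilizer is non-trivial). Then N is an elementary abelian p-group for some prime p, and every non-trivial normal subgroup of G contains N (so N is the unique minimal normal subgroup). -/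
theorem result {G Ω : Type*} [Group G] [Finite G]
    [MulAction G Ω] [FaithfulSMul G Ω] [Finite Ω] (htrans : MulAction.IsPretransitive G Ω)
    (hne : ∀ a : Ω, MulAction.stabilizer G a ≠ ⊥)
    (hhalf : ∀ a b c : Ω, b ≠ a → c ≠ a →
      Nat.card (MulAction.orbit (MulAction.stabilizer G a) b) = Nat.card (MulAction.orbit (MulAction.stabilizer G a) c))
    (N : Subgroup G) [hN : N.Normal] (hNt : MulAction.IsPretransitive N Ω) (hNr : ∀ a : Ω, MulAction.stabilizer N a = ⊥)
    (hnotF : ∃ a b : Ω, a ≠ b ∧ MulAction.stabilizer G a ⊓ MulAction.stabilizer G b ≠ ⊥) :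
    (∃ p : ℕ, p.Prime ∧ IsMulCommutative N ∧ ∀ x ∈ N, x ^ p = 1) ∧
    (∀ M : Subgroup G, M.Normal → M ≠ ⊥ → N ≤ M) := by
  obtain ⟨a, b, hab, h2⟩ := hnotF
  have key : ∀ x ∈ N, Subgroup.centralizer {x} ⊓ MulAction.stabilizer G a =
      MulAction.stabilizer G (x • a) ⊓ MulAction.stabilizer G a := fun x hx => by
    ext s
    refine and_congr_left fun hs => ?_
    have hs : s • a = a := hs
    refine ⟨fun h => ?_, fun h => Subgroup.mem_centralizer_singleton_iff.2 (mul_inv_eq_iff_eq_mul.1
      (H16.eq_of_smul_eq_of_stabilizer_bot (hNr a) (hN.conj_mem x hx s) hx ?_))⟩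
    · show s • x • a = x • a
      rw [← mul_smul, Subgroup.mem_centralizer_singleton_iff.1 h, mul_smul, hs]
    · rw [mul_smul, mul_smul, inv_smul_eq_iff.2 hs.symm]; exact h
  obtain ⟨x₀, h0, rfl⟩ := H16.exists_mem_smul_eq N a b
  obtain ⟨h3, h4⟩ := H16.half_trans (N := N) (A := MulAction.stabilizer G a)
    (k := Nat.card (MulAction.orbit (MulAction.stabilizer G a) (x₀ • a))) (fun g _ x hx => hN.conj_mem x hx g)
    (fun x hx x1 => by
      rw [← Subgroup.inf_relIndex_right, key x hx, Subgroup.inf_relIndex_right,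
        hhalf a _ (x • a) hab.symm fun e => x1 (H16.eq_one_of_stabilizer_bot (hNr a) hx e),
        Nat.card_coe_set_eq, ← MulAction.index_stabilizer]
      rfl)
    (eq_bot_iff.2 fun c hc => H16.eq_one_of_commute_transitive N hc.1 hc.2) h0
    (by rintro rfl; exact hab (one_smul _ _).symm) (by rwa [key x₀ h0, inf_comm])
  refine ⟨h3, fun M hM hb => ?_⟩
  rcases h4 (M ⊓ N) inf_le_right (fun g _ x hx => ⟨hM.conj_mem x hx.1 g, hN.conj_mem x hx.2 g⟩) with h | h
  · obtain ⟨p, -, hc, -⟩ := h3
    have : Nonempty Ω := ⟨a⟩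
    refine absurd (eq_bot_iff.2 fun m hm => h ▸ ⟨hm, H16.mem_of_commute_transitive (α := Ω) N N
      (fun x hx y hy => congrArg Subtype.val (hc.is_comm.comm ⟨x, hx⟩ ⟨y, hy⟩)) fun n hn => ?_⟩) hb
    exact (Subgroup.commute_of_normal_of_disjoint M N hM hN (disjoint_iff.2 h) m n hm hn).symm
  · exact h ▸ inf_le_left

end Cfsg.Agent.S3356
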