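import Cfsg.Statements.S3357
import Cfsg.Agent.H16.FC
import Mathlib.FieldTheory.IsAlgClosed.AlgebraicClosure

set_option autoImplicit false
open Cfsg

namespace Cfsg.Agent.S3357

open Module in
theorem aux {G k U : Type*} [Group G] [Finite G] [Field k] [AddCommGroup U] [Module k U] [Nontrivial U]
    (τ : G →* Module.End k U) (h : ∀ g, g ≠ 1 → ∀ v, τ g v = v → v = 0) :
    ∃ (n : ℕ) (ρ : G →* GL (Fin n) k), 0 < n ∧ Function.Injective ρ ∧
      (∀ W : Submodule k (Fin n → k),
        (∀ g : G, ∀ w ∈ W, ((ρ g : GL (Fin n) k) : Matrix (Fin n) (Fin n) k).mulVec w ∈ W) → W = ⊥ ∨ W = ⊤) ∧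
      ∀ g : G, g ≠ 1 → ∀ v : Fin n → k,
        ((ρ g : GL (Fin n) k) : Matrix (Fin n) (Fin n) k).mulVec v = v → v = 0 := by
  classical
  have hex : ∃ n, ∃ W : Submodule k U, W ≠ ⊥ ∧ FiniteDimensional k W ∧ (∀ g, ∀ w ∈ W, τ g w ∈ W) ∧
      finrank k W = n := by
    obtain ⟨v, hv⟩ := exists_ne (0 : U)
    refine ⟨_, Submodule.span k (Set.range fun g => τ g v), fun e => hv ?_,
      FiniteDimensional.span_of_finite k (Set.finite_range _), fun g w hw => ?_, rfl⟩
    · have : v ∈ Submodule.span k (Set.range fun g => τ g v) := Submodule.subset_span ⟨1, by simp⟩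
      rwa [e] at this
    · have : (Submodule.span k (Set.range fun g => τ g v)).map (τ g) ≤ Submodule.span k (Set.range fun g => τ g v) := by
        rw [Submodule.map_span_le]
        rintro _ ⟨a, rfl⟩
        exact Submodule.subset_span ⟨g * a, by simp⟩
      exact this ⟨w, hw, rfl⟩
  obtain ⟨W, hW, hfd, hinv, hn⟩ := Nat.find_spec hex
  let σ : G →* Module.End k W :=
    { toFun := fun g => (τ g).restrict (hinv g)
      map_one' := by ext; simp
      map_mul' := fun a b => by ext; simp }
  let b := Module.finBasis k W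
  let ρ : G →* GL (Fin (finrank k W)) k :=
    MonoidHom.toHomUnits ((LinearMap.toMatrixAlgEquiv b).toMonoidHom.comp σ)
  have hρ : ∀ g (x : W), ((ρ g : GL _ k) : Matrix _ _ k).mulVec (b.equivFun x) = b.equivFun (σ g x) :=
    fun g x => LinearMap.toMatrix_mulVec_repr b b (σ g) x
  have hf : ∀ g : G, g ≠ 1 → ∀ v, ((ρ g : GL (Fin (finrank k W)) k) : Matrix (Fin (finrank k W)) (Fin (finrank k W)) k).mulVec v = v →
      v = 0 := fun g hg v hv => by
    obtain ⟨x, rfl⟩ := b.equivFun.surjective v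
    rw [hρ] at hv
    have : x = 0 := Subtype.ext (h g hg x (congrArg Subtype.val (b.equivFun.injective hv)))
    rw [this, map_zero]
  have := (Submodule.nontrivial_iff_ne_bot).2 hW
  refine ⟨_, ρ, finrank_pos, (injective_iff_map_eq_one ρ).2 fun g hg => ?_, fun W' hW' => ?_, hf⟩
  · by_contra h1
    obtain ⟨x, hx⟩ := exists_ne (0 : W)
    exact hx (b.equivFun.injective ((hf g h1 (b.equivFun x) (by rw [hg]; simp)).trans (map_zero _).symm))
  · by_cases h1 : W' = ⊥
    · exact Or.inl h1
    right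
    let W1 : Submodule k W := W'.comap b.equivFun.toLinearMap
    have h2 : W1.map W.subtype ≠ ⊥ := by
      obtain ⟨v, hv, hv0⟩ := (Submodule.ne_bot_iff _).1 h1
      obtain ⟨x, rfl⟩ := b.equivFun.surjective v
      refine (Submodule.ne_bot_iff _).2 ⟨x, ⟨x, hv, rfl⟩, fun e => hv0 ?_⟩
      rw [show x = 0 from Subtype.ext e, map_zero]
    have h3 := Nat.find_min' hex ⟨W1.map W.subtype, h2, inferInstance, (by
      rintro g _ ⟨x, hx, rfl⟩
      refine ⟨σ g x, ?_, rfl⟩
      have := hW' g _ hx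
      change _ ∈ W'
      rw [LinearEquiv.coe_coe, ← hρ]; exact this), rfl⟩
    rw [← hn, Submodule.finrank_map_subtype_eq] at h3
    have h4 : W1 = ⊤ := Submodule.eq_top_of_finrank_eq (le_antisymm (Submodule.finrank_le _) h3)
    rw [eq_top_iff]
    intro v _
    obtain ⟨x, rfl⟩ := b.equivFun.surjective v
    have : x ∈ W1 := h4 ▸ Submodule.mem_top
    exact this

/-- Let G be a finite group that occurs as a Frobenius complement. Then G has a faithful irreducible representation over an algebraic closure of the rationals in which no non-identity element of G has 1 as an eigenvalue: there are n ≥ 1 and an injective homomorphism ρ from G to GL(n) over that field, with no invariant subspace other than 0 and the whole space, such that for g ≠ 1 the only vector fixed by ρ(g) is 0. -/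
theorem result {G : Type*} [Group G] [Finite G]
    (hFC : ∃ (L : Type) (_ : Group L) (_ : Finite L) (H : Subgroup L), Cfsg.IsFrobeniusComplement H ∧ Nonempty (G ≃* H)) :
    ∃ (n : ℕ) (ρ : G →* GL (Fin n) (AlgebraicClosure ℚ)), 0 < n ∧ Function.Injective ρ ∧
      (∀ W : Submodule (AlgebraicClosure ℚ) (Fin n → AlgebraicClosure ℚ),
        (∀ g : G, ∀ w ∈ W, ((ρ g : GL (Fin n) (AlgebraicClosure ℚ)) : Matrix (Fin n) (Fin n) (AlgebraicClosure ℚ)).mulVec w ∈ W) → W = ⊥ ∨ W = ⊤) ∧
      ∀ g : G, g ≠ 1 → ∀ v : Fin n → AlgebraicClosure ℚ,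
        ((ρ g : GL (Fin n) (AlgebraicClosure ℚ)) : Matrix (Fin n) (Fin n) (AlgebraicClosure ℚ)).mulVec v = v → v = 0 := by
  obtain ⟨n, _, ρ, hρ⟩ := (H16.IsFC.fc hFC).elim
  have : Algebra.IsAlgebraic ℚ (AlgebraicClosure ℚ) := by
    convert AlgebraicClosure.isAlgebraic ℚ
    · rfl
    · exact Subsingleton.elim _ _
  let _ : Algebra (AlgebraicClosure ℚ) ℂ :=
    (IsAlgClosed.lift : AlgebraicClosure ℚ →ₐ[ℚ] ℂ).toRingHom.toAlgebra
  exact aux (U := Fin n → ℂ)
    { toFun := fun g => (ρ g).restrictScalars (AlgebraicClosure ℚ)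
      map_one' := by ext; simp
      map_mul' := fun a b => by ext; simp } hρ

end Cfsg.Agent.S3357
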