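import Cfsg.Statements.S3358
import Cfsg.Agent.H16.FCSolv
import Mathlib.GroupTheory.PresentedGroup

set_option autoImplicit false
open Cfsg

namespace Cfsg.Agent.S3358

open Subgroup in
theorem pres {G : Type*} [Group G] [Finite G] {x y : G} {r : ℕ} (ht : closure {x, y} = ⊤)
    (hr : x⁻¹ * y * x = y ^ r) (hc : Nat.Coprime (orderOf x) (orderOf y)) :
    Nonempty (G ≃* PresentedGroup
          ({FreeGroup.of (0 : Fin 2) ^ orderOf x, FreeGroup.of (1 : Fin 2) ^ orderOf y,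
            (FreeGroup.of (0 : Fin 2))⁻¹ * FreeGroup.of 1 * FreeGroup.of 0 * (FreeGroup.of (1 : Fin 2) ^ r)⁻¹} :
            Set (FreeGroup (Fin 2)))) := by
  set R : Set (FreeGroup (Fin 2)) := {FreeGroup.of (0 : Fin 2) ^ orderOf x, FreeGroup.of (1 : Fin 2) ^ orderOf y,
            (FreeGroup.of (0 : Fin 2))⁻¹ * FreeGroup.of 1 * FreeGroup.of 0 * (FreeGroup.of (1 : Fin 2) ^ r)⁻¹} with hR
  let a : PresentedGroup R := PresentedGroup.of 0
  let b : PresentedGroup R := PresentedGroup.of 1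
  have ha : a ^ orderOf x = 1 := PresentedGroup.one_of_mem (x := FreeGroup.of (0 : Fin 2) ^ orderOf x) (by simp [hR])
  have hb : b ^ orderOf y = 1 := PresentedGroup.one_of_mem (x := FreeGroup.of (1 : Fin 2) ^ orderOf y) (by simp [hR])
  have hab : a⁻¹ * b * a = b ^ r := mul_inv_eq_one.1 (PresentedGroup.one_of_mem
    (x := (FreeGroup.of (0 : Fin 2))⁻¹ * FreeGroup.of 1 * FreeGroup.of 0 * (FreeGroup.of (1 : Fin 2) ^ r)⁻¹)
    (by simp [hR]))
  have hrel : ∀ w ∈ R, FreeGroup.lift (![x, y]) w = 1 := by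
    intro w hw
    simp only [hR, Set.mem_insert_iff, Set.mem_singleton_iff] at hw
    rcases hw with rfl | rfl | rfl <;> simp [hr]
  let φ := PresentedGroup.toGroup hrel
  have φa : φ a = x := PresentedGroup.toGroup.of hrel
  have φb : φ b = y := PresentedGroup.toGroup.of hrel
  have htop : closure ({a, b} : Set (PresentedGroup R)) = ⊤ := by
    rw [eq_top_iff, ← PresentedGroup.closure_range_of, closure_le]
    rintro _ ⟨i, rfl⟩
    fin_cases i
    · exact subset_closure (Or.inl rfl)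
    · exact subset_closure (Or.inr rfl)
  have : Finite (zpowers b) := finite_zpowers.2 (isOfFinOrder_iff_pow_eq_one.2 ⟨_, orderOf_pos y, hb⟩)
  have hn : (zpowers b).Normal := by
    rw [← normalizer_eq_top_iff, eq_top_iff, ← htop, closure_le]
    rintro _ (rfl | rfl)
    · refine (Subgroup.inv_mem_iff _).1 (mem_normalizer_fintype ?_)
      rintro _ ⟨i, rfl⟩
      show a⁻¹ * b ^ i * a⁻¹⁻¹ ∈ zpowers b
      rw [← conj_zpow, inv_inv, hab]
      exact zpow_mem (pow_mem (mem_zpowers b) r) i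
    · exact le_normalizer (mem_zpowers _)
  refine ⟨(MulEquiv.ofBijective φ ⟨(injective_iff_map_eq_one φ).2 fun w hw => ?_, ?_⟩).symm⟩
  · have : w ∈ zpowers a ⊔ zpowers b := by
      refine (?_ : ⊤ ≤ zpowers a ⊔ zpowers b) trivial
      rw [← htop, closure_le]
      rintro _ (rfl | rfl)
      exacts [mem_sup_left (mem_zpowers _), mem_sup_right (mem_zpowers _)]
    obtain ⟨_, ⟨i, rfl⟩, _, ⟨j, rfl⟩, rfl⟩ := mem_sup_of_normal_right.1 this
    simp only [map_mul, map_zpow, φa, φb] at hw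
    have h1 : x ^ i = 1 := by
      refine orderOf_eq_one_iff.1 (Nat.eq_one_of_dvd_coprimes hc
        (orderOf_dvd_of_mem_zpowers (zpow_mem (mem_zpowers x) i)) (orderOf_dvd_of_mem_zpowers ?_))
      rw [eq_inv_of_mul_eq_one_left hw]
      exact inv_mem (zpow_mem (mem_zpowers y) j)
    rw [h1, one_mul] at hw
    obtain ⟨i, rfl⟩ := orderOf_dvd_iff_zpow_eq_one.2 h1
    obtain ⟨j, rfl⟩ := orderOf_dvd_iff_zpow_eq_one.2 hw
    simp only [zpow_mul, zpow_natCast, ha, hb, one_zpow, mul_one]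
  · rw [← MonoidHom.range_eq_top, MonoidHom.range_eq_map, ← htop, MonoidHom.map_closure, Set.image_pair, φa, φb, ht]

open Subgroup in
theorem rad {G : Type*} [Group G] [Finite G] (h : H16.FC G) {x y : G} {r : ℕ} (hn : (zpowers y).Normal)
    (hr : x⁻¹ * y * x = y ^ r) :
    r ^ (orderOf x / ∏ p ∈ (orderOf x).primeFactors, p) % orderOf y = 1 % orderOf y := by
  have h1 : ∀ k : ℕ, (x ^ k)⁻¹ * y * x ^ k = y ^ r ^ k := fun k => by
    induction k with
    | zero => simp
    | succ k ih =>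
      rw [show (x ^ (k + 1))⁻¹ * y * x ^ (k + 1) = x⁻¹ * ((x ^ k)⁻¹ * y * x ^ k) * x⁻¹⁻¹ by group, ih,
        ← conj_pow, inv_inv, hr, ← pow_mul, pow_succ']
  let ψ : G →* MulAut (zpowers y) := MulAut.conjNormal
  have h2 : ∀ k : ℕ, orderOf (ψ x) ∣ k ↔ Commute (x ^ k) y := fun k => by
    rw [orderOf_dvd_iff_pow_eq_one, ← map_pow]
    constructor
    · intro e
      exact mul_inv_eq_iff_eq_mul.1 (congrArg Subtype.val (MulEquiv.congr_fun e ⟨y, mem_zpowers y⟩))
    · intro e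
      ext ⟨_, i, rfl⟩
      exact mul_inv_eq_iff_eq_mul.2 (e.zpow_right i)
  obtain ⟨e, he⟩ := orderOf_map_dvd ψ x
  have h3 : ∏ p ∈ (orderOf x).primeFactors, p ∣ e := by
    refine Finset.prod_primes_dvd _ (fun p hp => (Nat.prime_of_mem_primeFactors hp).prime) fun p hp => ?_
    have hp1 := Nat.prime_of_mem_primeFactors hp
    have hp2 := Nat.dvd_of_mem_primeFactors hp
    have h4 := (h2 (orderOf x / p)).2 (h.commute_of_prime
      (by rw [orderOf_pow_orderOf_div (orderOf_pos x).ne' hp2]; exact hp1) (hn.conj_mem _ (mem_zpowers y) _))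
    have h5 := Nat.mul_dvd_mul_right h4 p
    rw [Nat.div_mul_cancel hp2] at h5
    exact Nat.dvd_of_mul_dvd_mul_left (orderOf_pos (ψ x)) (he ▸ h5)
  obtain ⟨c, hc⟩ := h3
  have h4 : Commute (x ^ (orderOf x / ∏ p ∈ (orderOf x).primeFactors, p)) y := (h2 _).1 ⟨c, by
    refine Nat.div_eq_of_eq_mul_left (Finset.prod_pos fun p hp => (Nat.prime_of_mem_primeFactors hp).pos) ?_
    generalize ∏ p ∈ (orderOf x).primeFactors, p = q at hc
    rw [he, hc]; ring⟩
  have h5 := h1 (orderOf x / ∏ p ∈ (orderOf x).primeFactors, p)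
  rw [mul_assoc, ← h4.eq, inv_mul_cancel_left] at h5
  exact pow_eq_pow_iff_modEq.1 (h5.symm.trans (pow_one y).symm)

/-- Structure of solvable Frobenius complements. Let G be a finite solvable group that occurs as a Frobenius complement. Then G has a normal subgroup G₀ such that G/G₀ is isomorphic to a subgroup of Sym(4) (G₀ is the kernel of a homomorphism to Sym(4)), all Sylow subgroups of G₀ are cyclic, and G₀ has a presentation ⟨x, y | x^n = 1, y^m = 1, x⁻¹ y x = y^r⟩ with n, m ≥ 1, gcd(r − 1, m) = gcd(n, m) = 1 and r^(n/n′) ≡ 1 (mod m), where n′ is the product of the distinct primes dividing n. -/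
theorem result {G : Type*} [Group G] [Finite G] (hsol : Group.IsSolvable G)
    (hFC : ∃ (L : Type) (_ : Group L) (_ : Finite L) (H : Subgroup L), Cfsg.IsFrobeniusComplement H ∧ Nonempty (G ≃* H)) :
    ∃ G₀ : Subgroup G, G₀.Normal ∧
      (∃ f : G →* Equiv.Perm (Fin 4), f.ker = G₀) ∧
      (∀ (p : ℕ) [Fact p.Prime] (P : Sylow p G₀), IsCyclic P) ∧
      ∃ n m r : ℕ, 0 < n ∧ 0 < m ∧ Nat.Coprime (r - 1) m ∧ Nat.Coprime n m ∧ 1 ≤ r ∧
        r ^ (n / ∏ p ∈ n.primeFactors, p) % m = 1 % m ∧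
        Nonempty (G₀ ≃* PresentedGroup
          ({FreeGroup.of (0 : Fin 2) ^ n, FreeGroup.of (1 : Fin 2) ^ m,
            (FreeGroup.of (0 : Fin 2))⁻¹ * FreeGroup.of 1 * FreeGroup.of 0 * (FreeGroup.of (1 : Fin 2) ^ r)⁻¹} :
            Set (FreeGroup (Fin 2)))) := by
  have h := H16.IsFC.fc hFC
  obtain ⟨N, h1, h2, h3⟩ := h.solvable_cases hsol
  obtain ⟨x, y, r, k1, k2, k3, k4, k5, k6, -⟩ := H16.zgroup_gens (G := N)
  refine ⟨N, h1, ?_, fun p _ P => inferInstance, _, _, r, orderOf_pos x, orderOf_pos y, k4, k5, k6,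
    rad (h.subgroup N) k2 k3, pres k1 k3 k5⟩
  rcases h3 with rfl | ⟨f, -, rfl⟩ | ⟨f, -, rfl⟩ | ⟨f, -, rfl⟩
  · exact ⟨1, MonoidHom.ker_one⟩
  · let g : DihedralGroup 2 →* Equiv.Perm (Fin 4) := MonoidHom.mk' (fun d => match d with
      | .r i => (Equiv.swap 0 1 * Equiv.swap 2 3) ^ i.val
      | .sr i => Equiv.swap 0 2 * Equiv.swap 1 3 * (Equiv.swap 0 1 * Equiv.swap 2 3) ^ i.val) (by decide)
    exact ⟨g.comp f, MonoidHom.ker_comp_of_injective f g (by decide)⟩
  · exact ⟨(alternatingGroup (Fin 4)).subtype.comp f,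
      MonoidHom.ker_comp_of_injective f _ (Subgroup.subtype_injective _)⟩
  · exact ⟨f, rfl⟩

end Cfsg.Agent.S3358
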