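import Cfsg.Statements.S3361
import Cfsg.Agent.H16.NF3

set_option autoImplicit false
open Cfsg

namespace Cfsg.Agent.S3361


/-- Let q be a prime and V a non-trivial finite vector space over the field with q elements, and let G be a finite solvable group acting faithfully and linearly on V and regularly on the non-zero vectors (transitively, with only the identity fixing a non-zero vector). Then either V can be identified with the additive group of a finite field F so that every element of G acts as x ↦ a·σ(x) (a ∈ F, σ a field automorphism), or V has 5^2, 7^2, 11^2 or 23^2 elements. Moreover, if q ≠ 2 then G has a normal subgroup of index 2, except that when V has 25 elements G may be isomorphic to SL(2,3) and when V has 121 elements G may be isomorphic to SL(2,3) × C₅. -/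
theorem result
    (q : ℕ) [Fact q.Prime] {V : Type*} [AddCommGroup V] [Module (ZMod q) V] [Finite V] [Nontrivial V]
    {G : Type*} [Group G] [Finite G] (hsol : Group.IsSolvable G)
    (ρ : G →* (V ≃ₗ[ZMod q] V)) (hρ : Function.Injective ρ)
    (htrans : ∀ v w : V, v ≠ 0 → w ≠ 0 → ∃ g : G, ρ g v = w)
    (hreg : ∀ v : V, v ≠ 0 → ∀ g : G, ρ g v = v → g = 1) :
    ((∃ (F : Type) (_ : Field F) (_ : Fintype F) (e : V ≃+ F),
        ∀ g : G, ∃ (a : F) (σ : F ≃+* F), ∀ v : V, e (ρ g v) = a * σ (e v)) ∨
      Nat.card V ∈ ({25, 49, 121, 529} : Set ℕ)) ∧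
    (q ≠ 2 → (∃ N : Subgroup G, N.Normal ∧ N.index = 2) ∨
      (Nat.card V = 25 ∧ Nonempty (G ≃* Matrix.SpecialLinearGroup (Fin 2) (ZMod 3))) ∨
      (Nat.card V = 121 ∧ Nonempty (G ≃* Matrix.SpecialLinearGroup (Fin 2) (ZMod 3) × Multiplicative (ZMod 5)))) := by
  have h : H16.NF (H16.toRep ρ) := ⟨fun g hg v e => by_contra fun hv => hg (hreg v hv g e), htrans⟩
  refine ⟨?_, h.index_two hsol⟩
  rcases h.cases with ⟨A, hA, hc, hirr⟩ | ⟨h3, Q, i, j, hQ, q⟩ | ⟨f, hf, -⟩
  · obtain ⟨F, _, _, ι, σ, d⟩ := H16.exists_field_cover _ A (H16.comm_iff_le_cent.1 inferInstance)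
      (H16.cover_of_trans A h.trans)
    obtain ⟨e, he⟩ := d.semilinear hirr
    exact Or.inl ⟨F, _, inferInstance, e, fun g => (he g).imp fun a ha => ⟨σ g, ha⟩⟩
  · obtain ⟨-, -, -, -, -, h5, -, h7⟩ := h.of_Q8 q
    right
    rcases h7 with rfl | rfl | rfl | rfl | rfl <;> simp_all
  · exact absurd hsol (H16.not_solvable_of_SL25 hf)

end Cfsg.Agent.S3361
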