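import Cfsg.Statements.S3374
import Cfsg.Agent.H16.SL25

set_option autoImplicit false
open Cfsg

namespace Cfsg.Agent.S3374

open scoped Pointwise

instance fact11 : Fact (Nat.Prime 11) := ⟨by norm_num⟩

abbrev SL211 := Matrix.SpecialLinearGroup (Fin 2) (ZMod 11)

def a11 : SL211 := ⟨!![0, -1; 1, 0], by decide⟩
def b11 : SL211 := ⟨!![0, 3; 7, 10], by decide⟩

theorem rel : a11 ^ 4 = 1 ∧ a11 ^ 2 * b11 = b11 * a11 ^ 2 ∧ b11 ^ 3 = 1 ∧ (a11 * b11) ^ 5 = 1 ∧ a11 ^ 2 ≠ 1 := by
  decide +kernel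

theorem unip (g : SL211) (v : Fin 2 → ZMod 11) (hv : v ≠ 0) (h : g.1.mulVec v = v) : g ^ 11 = 1 := by
  have h1 : (g.1 - 1).det = 0 := Matrix.exists_mulVec_eq_zero_iff.1 ⟨v, hv, by rw [Matrix.sub_mulVec, h]; simp⟩
  have h2 := g.2
  rw [Matrix.det_fin_two] at h1 h2
  simp at h1
  have h3 : (g.1 - 1) ^ 2 = 0 := by
    ext i j
    fin_cases i <;> fin_cases j <;> simp [pow_two, Matrix.mul_apply, Fin.sum_univ_two]
    · linear_combination (-g.1 0 0) * h1 + (g.1 0 0 - 1) * h2
    · linear_combination (-g.1 0 1) * h1 + (g.1 0 1) * h2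
    · linear_combination (-g.1 1 0) * h1 + (g.1 1 0) * h2
    · linear_combination (-g.1 1 1) * h1 + (g.1 1 1 - 1) * h2
  apply Subtype.ext
  have h4 := sub_pow_char_of_commute (p := 11) (Commute.one_right g.1)
  have h5 : (g.1 - 1) ^ 11 = 0 := pow_eq_zero_of_le (by norm_num) h3
  rw [h5, one_pow] at h4
  exact (sub_eq_zero.1 h4.symm)

/-- SL(2,5) occurs as a Frobenius complement: there is a finite group L with a subgroup H isomorphic to SL(2,5) which is a non-trivial proper subgroup meeting each conjugate gHg⁻¹ with g outside H trivially. -/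
theorem result :
    ∃ (L : Type) (_ : Group L) (_ : Finite L) (H : Subgroup L),
      Cfsg.IsFrobeniusComplement H ∧ Nonempty (H ≃* Matrix.SpecialLinearGroup (Fin 2) (ZMod 5)) := by
  obtain ⟨f, hf, -⟩ := H16.exists_injective_SL25 rel.1 rel.2.1 rel.2.2.1 rel.2.2.2.1 rel.2.2.2.2
  let V := Multiplicative (Fin 2 → ZMod 11)
  let φ : H16.SL25 →* MulAut V :=
    { toFun := fun g => AddEquiv.toMultiplicative (Matrix.SpecialLinearGroup.toLin' (f g)).toAddEquiv
      map_one' := by rw [map_one, map_one]; rfl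
      map_mul' := fun a b => by rw [map_mul, map_mul]; rfl }
  have hφ : ∀ g (v : V), φ g v = v → g = 1 ∨ v = 1 := fun g v h => by
    by_cases hv : v = 1
    · exact Or.inr hv
    left
    have h1 := unip (f g) v.toAdd hv h
    rw [← map_pow, map_eq_one_iff f hf] at h1
    have h2 := orderOf_dvd_natCard g
    rw [H16.card_SL25] at h2
    exact orderOf_eq_one_iff.1 (Nat.eq_one_of_dvd_coprimes (by norm_num : Nat.Coprime 11 120)
      (orderOf_dvd_of_pow_eq_one h1) h2)
  haveI : Finite (V ⋊[φ] H16.SL25) := Finite.of_equiv _ SemidirectProduct.equivProd.symm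
  have hM : ∀ x : V ⋊[φ] H16.SL25, x ∈ (SemidirectProduct.inr : H16.SL25 →* V ⋊[φ] H16.SL25).range ↔ x.left = 1 :=
    fun x => ⟨by rintro ⟨g, rfl⟩; rfl, fun h => ⟨x.right, SemidirectProduct.ext h.symm rfl⟩⟩
  refine ⟨V ⋊[φ] H16.SL25, inferInstance, inferInstance, SemidirectProduct.inr.range, ⟨fun h => ?_, fun h => ?_,
    fun g hg => ?_⟩, ⟨(MonoidHom.ofInjective SemidirectProduct.inr_injective).symm⟩⟩
  · have : (SemidirectProduct.inr (-1) : V ⋊[φ] H16.SL25) ∈ (⊥ : Subgroup _) := h ▸ ⟨_, rfl⟩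
    exact H16.SL25_neg_one_ne ((map_eq_one_iff _ SemidirectProduct.inr_injective).1 this)
  · have := (hM (SemidirectProduct.inl (Multiplicative.ofAdd 1))).1 (h ▸ Subgroup.mem_top _)
    have h2 : (1 : ZMod 11) = 0 := congrFun this 0
    exact absurd h2 (by decide)
  · rw [eq_bot_iff]
    rintro _ ⟨h1, _, ⟨y, rfl⟩, rfl⟩
    rw [hM] at hg
    have h2 := (hM _).1 h1
    simp only [MulAut.smul_def, MulDistribMulAction.toMonoidEnd_apply, MulDistribMulAction.toMonoidHom_apply,
      MulAut.conj_apply, SemidirectProduct.mul_left, SemidirectProduct.left_inr, map_one, mul_one,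
      SemidirectProduct.mul_right, SemidirectProduct.right_inr, SemidirectProduct.inv_left, map_inv] at h2
    rw [mul_inv_eq_one, ← map_inv, ← MulAut.mul_apply, ← map_mul] at h2
    rcases hφ _ _ h2.symm with h | h
    · have : y = 1 := by simpa using h
      simp [this]
    · exact absurd h hg

end Cfsg.Agent.S3374
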