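import Cfsg.Statements.S3375
import Mathlib

set_option autoImplicit false
open Cfsg

namespace Cfsg.Agent.S3375

theorem aux {H : Type*} [Group H] [Finite H] (γ : MulAut H) (h2 : ∀ x, γ (γ x) = x)
    (hc : Nat.card {h : H // γ h = h} = 2) (M : Subgroup H) (hM : M.index = 2) (hi : ∀ a, a ∈ M ↔ γ a ∈ M) :
    ∀ a ∈ M, γ a = a⁻¹ := by
  let C : Subgroup H := γ.toMonoidHom.eqLocus (MonoidHom.id H)
  have hC : Nat.card C = 2 := hc
  let f : H ⧸ C → M := Quotient.lift (fun h => ⟨h * (γ h)⁻¹, by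
      rw [Subgroup.mul_mem_iff_of_index_two hM, inv_mem_iff]; exact hi h⟩) (fun a b hab => by
    have h1 : γ (a⁻¹ * b) = a⁻¹ * b := QuotientGroup.leftRel_apply.1 hab
    apply Subtype.ext
    show a * (γ a)⁻¹ = b * (γ b)⁻¹
    rw [map_mul, map_inv, inv_mul_eq_iff_eq_mul] at h1
    rw [h1]; group)
  have hf : Function.Injective f := by
    intro a b
    refine Quotient.inductionOn₂ a b fun a b h => Quotient.sound (QuotientGroup.leftRel_apply.2 ?_)
    have h1 : a * (γ a)⁻¹ = b * (γ b)⁻¹ := congrArg Subtype.val h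
    show γ (a⁻¹ * b) = a⁻¹ * b
    rw [map_mul, map_inv]
    calc (γ a)⁻¹ * γ b = a⁻¹ * (a * (γ a)⁻¹) * γ b := by group
      _ = _ := by rw [h1]; group
  have hcard : Nat.card (H ⧸ C) = Nat.card M := by
    have h1 := C.card_mul_index
    have h3 := M.card_mul_index
    rw [← Subgroup.index_eq_card]
    rw [hC] at h1; rw [hM] at h3
    omega
  have hs := ((Nat.bijective_iff_injective_and_card f).2 ⟨hf, hcard⟩).2
  intro a ha
  obtain ⟨q, hq⟩ := hs ⟨a, ha⟩
  obtain ⟨h, rfl⟩ := QuotientGroup.mk_surjective q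
  have : h * (γ h)⁻¹ = a := congrArg Subtype.val hq
  rw [← this, map_mul, map_inv, h2]; group

/-- Let γ be an automorphism of order 2 of a finite group H. (i) If γ fixes only the identity, then H is abelian and γ inverts every element. (ii) If γ has exactly two fixed points and H has a subgroup of index 2, then H has a γ-invariant abelian subgroup of index 2 on which γ acts by inversion. -/
theorem result {H : Type*} [Group H] [Finite H] (γ : MulAut H) (hγ : orderOf γ = 2) :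
    ((∀ h : H, γ h = h → h = 1) → (∀ a b : H, a * b = b * a) ∧ ∀ h : H, γ h = h⁻¹) ∧
    ((Nat.card {h : H // γ h = h} = 2 ∧ ∃ M : Subgroup H, M.index = 2) →
      ∃ A : Subgroup H, A.index = 2 ∧ IsMulCommutative A ∧ (∀ a ∈ A, γ a ∈ A) ∧ ∀ a ∈ A, γ a = a⁻¹) := by
  have h2 : ∀ x, γ (γ x) = x := fun x => by
    rw [← MulAut.mul_apply, ← pow_two, ← hγ, pow_orderOf_eq_one]; rfl
  refine ⟨fun h => ?_, fun ⟨hc, M, hM⟩ => ?_⟩
  · have hf : MonoidHom.FixedPointFree γ := h
    exact ⟨fun a b => (hf.commute_all_of_involutive h2 a b).eq, fun x => congrFun (hf.coe_eq_inv_of_involutive h2) x⟩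
  suffices ∃ M : Subgroup H, M.index = 2 ∧ ∀ a, a ∈ M ↔ γ a ∈ M by
    obtain ⟨M, hM, hi⟩ := this
    have h := aux γ h2 hc M hM hi
    refine ⟨M, hM, ⟨⟨fun a b => Subtype.ext ?_⟩⟩, fun a => (hi a).1, h⟩
    have h3 := h _ (mul_mem a.2 b.2)
    rw [map_mul, h a a.2, h b b.2, ← mul_inv_rev, inv_inj] at h3
    exact h3.symm
  by_cases hi : ∀ a, a ∈ M ↔ γ a ∈ M
  · exact ⟨M, hM, hi⟩
  let M' : Subgroup H :=
    { carrier := {a | a ∈ M ↔ γ a ∈ M}
      one_mem' := by simp
      mul_mem' := fun {a b} ha hb => by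
        simp only [Set.mem_setOf_eq, map_mul, Subgroup.mul_mem_iff_of_index_two hM] at *
        tauto
      inv_mem' := fun {a} ha => by simpa using ha }
  refine ⟨M', ?_, fun a => ?_⟩
  · rw [not_forall] at hi
    obtain ⟨a, ha⟩ := hi
    refine Subgroup.index_eq_two_iff.2 ⟨a, fun b => ?_⟩
    show Xor (b * a ∈ M ↔ γ (b * a) ∈ M) (b ∈ M ↔ γ b ∈ M)
    simp only [map_mul, Subgroup.mul_mem_iff_of_index_two hM, Xor]
    tauto
  · show (a ∈ M ↔ γ a ∈ M) ↔ (γ a ∈ M ↔ γ (γ a) ∈ M)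
    rw [h2]; tauto

end Cfsg.Agent.S3375
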