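import Cfsg.Statements.S3377
import Cfsg.Agent.H16.SL25

set_option autoImplicit false
open Cfsg

namespace Cfsg.Agent.S3377


/-- The alternating group of degree 5 has the presentation ⟨x, y | x³ = 1, y⁵ = 1, (xy)² = 1⟩: the group so presented is isomorphic to Alt(5). -/
theorem result :
    Nonempty (PresentedGroup ({FreeGroup.of (0 : Fin 2) ^ 3, FreeGroup.of (1 : Fin 2) ^ 5,
        (FreeGroup.of (0 : Fin 2) * FreeGroup.of 1) ^ 2} : Set (FreeGroup (Fin 2))) ≃* alternatingGroup (Fin 5)) := by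
  set R : Set (FreeGroup (Fin 2)) := {FreeGroup.of (0 : Fin 2) ^ 3, FreeGroup.of (1 : Fin 2) ^ 5,
        (FreeGroup.of (0 : Fin 2) * FreeGroup.of 1) ^ 2} with hR
  let x : PresentedGroup R := PresentedGroup.of 0
  let y : PresentedGroup R := PresentedGroup.of 1
  have hx : x ^ 3 = 1 := PresentedGroup.one_of_mem (x := FreeGroup.of (0 : Fin 2) ^ 3) (by simp [hR])
  have hy : y ^ 5 = 1 := PresentedGroup.one_of_mem (x := FreeGroup.of (1 : Fin 2) ^ 5) (by simp [hR])
  have hxy : (x * y) ^ 2 = 1 :=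
    PresentedGroup.one_of_mem (x := (FreeGroup.of (0 : Fin 2) * FreeGroup.of 1) ^ 2) (by simp [hR])
  have hrel : ∀ r ∈ R, FreeGroup.lift (![H10.a5b⁻¹, H10.a5b * H10.a5a]) r = 1 := by
    intro r hr
    simp only [hR, Set.mem_insert_iff, Set.mem_singleton_iff] at hr
    rcases hr with rfl | rfl | rfl <;> simp only [map_pow, map_mul, FreeGroup.lift_apply_of] <;> decide
  obtain ⟨f, hf, hr⟩ := H10.exists_injective_A5 (a := x * y) (b := x⁻¹) hxy (by rw [inv_pow, hx, inv_one])
    (by rw [conj_pow, hy]; simp) (fun e => by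
      have := congrArg (PresentedGroup.toGroup hrel) e
      simp only [x, y, map_mul, PresentedGroup.toGroup.of, map_one] at this
      exact absurd this (by decide))
  refine ⟨(MulEquiv.ofBijective f ⟨hf, MonoidHom.range_eq_top.1 ?_⟩).symm⟩
  rw [hr, eq_top_iff, ← PresentedGroup.closure_range_of, Subgroup.closure_le]
  have h1 : x * y ∈ Subgroup.closure ({x * y, x⁻¹} : Set _) := Subgroup.subset_closure (by simp)
  have h2 : x⁻¹ ∈ Subgroup.closure ({x * y, x⁻¹} : Set _) := Subgroup.subset_closure (by simp)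
  rintro _ ⟨i, rfl⟩
  fin_cases i
  · exact (Subgroup.inv_mem_iff _).1 h2
  · simpa using mul_mem h2 h1

end Cfsg.Agent.S3377
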