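import Cfsg.Statements.S3378
import Cfsg.Agent.H16.SL25
import Mathlib.GroupTheory.SpecificGroups.Quaternion

set_option autoImplicit false
open Cfsg

namespace Cfsg.Agent.S3378

open Subgroup in
theorem part1 (G : Type*) [Group G] [Finite G] (h : Nat.card G = 120) (hs : ¬ Group.IsSolvable G)
    (hP : ∀ P : Sylow 2 G, Nonempty ((P : Subgroup G) ≃* QuaternionGroup 2)) : Nonempty (G ≃* H16.SL25) := by
  have hu : ∀ (P : Sylow 2 G), ∀ s ∈ (P : Subgroup G), ∀ t ∈ (P : Subgroup G), s * s = 1 → t * t = 1 →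
      s = 1 ∨ t = 1 ∨ s = t := fun P s hs t ht s2 t2 => by
    obtain ⟨e⟩ := hP P
    obtain ⟨x, y, hq⟩ := H9.exists_qData two_pos e
    rcases hq.eq_one_or_eq_u hs s2 with h1 | h1
    · exact Or.inl h1
    · rcases hq.eq_one_or_eq_u ht t2 with h2 | h2
      · exact Or.inr (Or.inl h2)
      · exact Or.inr (Or.inr (h1.trans h2.symm))
  have : Nontrivial G := Finite.one_lt_card_iff_nontrivial.1 (by omega)
  obtain ⟨N, hN, h1, h2⟩ : ∃ N : Subgroup G, N.Normal ∧ N ≠ ⊥ ∧ N ≠ ⊤ := by
    by_contra hc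
    push Not at hc
    exact H16.not_simple_120 h ⟨fun N hN => or_iff_not_imp_left.2 (hc N hN)⟩
  have h3 := N.index_mul_card
  have h4 : Nat.card N ≠ 1 := fun e => h1 (eq_bot_of_card_eq _ e)
  have h5 : N.index ≠ 1 := fun e => h2 (index_eq_one.1 e)
  rw [h] at h3
  have hNs : Group.IsSolvable N := by
    by_cases h60 : Nat.card N = 60
    · by_contra hn
      obtain ⟨e⟩ := H16.equiv_A5_of_not_solvable h60 hn
      let s : G := e.symm H10.a5a
      let t : G := e.symm ⟨Equiv.swap 0 2 * Equiv.swap 1 3, by rw [Equiv.Perm.mem_alternatingGroup]; decide⟩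
      have key : ∀ a b : alternatingGroup (Fin 5), ((e.symm a : N) : G) * (e.symm b : N) = (e.symm (a * b) : N) :=
        fun a b => by rw [map_mul]; rfl
      have inj : ∀ a b : alternatingGroup (Fin 5), ((e.symm a : N) : G) = (e.symm b : N) → a = b :=
        fun a b hab => e.symm.injective (Subtype.ext hab)
      have one : (1 : G) = (e.symm 1 : N) := by simp
      have s2 : s * s = 1 := by rw [key, one]; congr 2; decide +revert
      have t2 : t * t = 1 := by rw [key, one]; congr 2; decide +revert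
      have st : Commute s t := by
        show s * t = t * s
        rw [key, key]; congr 2; decide +revert
      have hp : IsPGroup 2 (closure ({s, t} : Set G)) := by
        rintro ⟨g, hg⟩
        refine ⟨1, Subtype.ext ?_⟩
        show g ^ 2 ^ 1 = 1
        have hc : ∀ g ∈ closure ({s, t} : Set G), g = 1 ∨ g = s ∨ g = t ∨ g = s * t := by
          intro g hg
          have si : s⁻¹ = s := inv_eq_of_mul_eq_one_left s2
          have ti : t⁻¹ = t := inv_eq_of_mul_eq_one_left t2
          have ts : t * s = s * t := st.symm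
          have s3 : ∀ a, s * (s * a) = a := fun a => by rw [← mul_assoc, s2, one_mul]
          have ts' : ∀ a, t * (s * a) = s * (t * a) := fun a => by rw [← mul_assoc, ts, mul_assoc]
          induction hg using closure_induction with
          | mem x hx => rcases hx with rfl | rfl <;> simp
          | one => simp
          | mul x y _ _ hx hy =>
            rcases hx with rfl | rfl | rfl | rfl <;> rcases hy with rfl | rfl | rfl | rfl <;>
              simp [s2, t2, ts, s3, ts', mul_assoc]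
          | inv x _ hx => rcases hx with rfl | rfl | rfl | rfl <;> simp [si, ti, ts]
        rcases hc g hg with rfl | rfl | rfl | rfl
        · simp
        · rw [pow_one, sq, s2]
        · rw [pow_one, sq, t2]
        · rw [pow_one, st.mul_pow, sq, sq, s2, t2, one_mul]
      obtain ⟨P, hP⟩ := hp.exists_le_sylow
      rcases hu P s (hP (subset_closure (by simp))) t (hP (subset_closure (by simp))) s2 t2 with h | h | h
      · exact absurd (inj _ _ (h.trans one)) (by decide)
      · exact absurd (inj _ _ (h.trans one)) (by decide)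
      · exact absurd (inj _ _ h) (by decide)
    · exact H16.isSolvable_of_dvd_120 (Dvd.intro_left _ h3) h60 fun e => by rw [e] at h3; omega
  have hQ : ¬ Group.IsSolvable (G ⧸ N) := fun hq => hs (H16.isSolvable_of_normal N hNs hq)
  have h60 : N.index = 60 := by
    by_contra h60
    exact hQ (H16.isSolvable_of_dvd_120 (Dvd.intro _ h3) h60 fun e => by
      rw [← index] at e; rw [e] at h3; omega)
  obtain ⟨e⟩ := H16.equiv_A5_of_not_solvable h60 hQ
  have hN2 : Nat.card N = 2 := by rw [h60] at h3; omega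
  obtain ⟨z, hz, hz'⟩ := (Nat.card_eq_two_iff' (1 : N)).1 hN2
  have hmem : ∀ g, g ∈ N ↔ g = 1 ∨ g = z := fun g => ⟨fun hg => or_iff_not_imp_left.2 fun e =>
    congrArg Subtype.val (hz' ⟨g, hg⟩ fun e' => e (congrArg Subtype.val e')),
    by rintro (rfl | rfl); exacts [one_mem _, z.2]⟩
  have z1 : (z : G) ≠ 1 := fun e => hz (Subtype.ext e)
  have z2 : (z : G) * z = 1 := ((hmem _).1 (mul_mem z.2 z.2)).resolve_right (by simpa using z1)
  have zc : ∀ g : G, g * z = z * g := fun g =>
    mul_inv_eq_iff_eq_mul.1 (((hmem _).1 (hN.conj_mem _ z.2 g)).resolve_left (by simpa using z1))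
  refine H16.equiv_SL25_of_quot z2 zc (fun t t2 => ?_) (e.toMonoidHom.comp (QuotientGroup.mk' N))
    (e.surjective.comp (QuotientGroup.mk'_surjective N)) fun g => ?_
  · have ht : IsPGroup 2 (zpowers t) := IsPGroup.of_card_dvd_pow (n := 1) (by
      rw [Nat.card_zpowers]; exact orderOf_dvd_of_pow_eq_one (by rw [pow_one, sq, t2]))
    obtain ⟨P, hP⟩ := ht.exists_le_sylow
    have hzP : N ≤ P := (IsPGroup.of_card (n := 1) hN2).le_sylow_of_normal P
    rcases hu P t (hP (mem_zpowers t)) z (hzP z.2) t2 z2 with h | h | h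
    exacts [Or.inl h, absurd h z1, Or.inr h]
  · rw [← hmem]
    simp

/-- Every non-solvable group of order 120 whose Sylow 2-subgroups are quaternion of order 8 is isomorphic to SL(2,5), and SL(2,5) has the presentation ⟨x, y, z | x³ = y⁵ = z² = 1, z⁻¹xz = x, z⁻¹yz = y, (xy)² = z⟩. -/
theorem result :
    (∀ (G : Type*) [Group G] [Finite G], Nat.card G = 120 → ¬ Group.IsSolvable G →
      (∀ P : Sylow 2 G, Nonempty ((P : Subgroup G) ≃* QuaternionGroup 2)) →
      Nonempty (G ≃* Matrix.SpecialLinearGroup (Fin 2) (ZMod 5))) ∧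
    Nonempty (PresentedGroup ({FreeGroup.of (0 : Fin 3) ^ 3, FreeGroup.of (1 : Fin 3) ^ 5, FreeGroup.of (2 : Fin 3) ^ 2,
        (FreeGroup.of (2 : Fin 3))⁻¹ * FreeGroup.of 0 * FreeGroup.of 2 * (FreeGroup.of (0 : Fin 3))⁻¹,
        (FreeGroup.of (2 : Fin 3))⁻¹ * FreeGroup.of 1 * FreeGroup.of 2 * (FreeGroup.of (1 : Fin 3))⁻¹,
        (FreeGroup.of (0 : Fin 3) * FreeGroup.of 1) ^ 2 * (FreeGroup.of (2 : Fin 3))⁻¹} : Set (FreeGroup (Fin 3)))
      ≃* Matrix.SpecialLinearGroup (Fin 2) (ZMod 5)) := by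
  refine ⟨part1, ?_⟩
  set R : Set (FreeGroup (Fin 3)) := {FreeGroup.of (0 : Fin 3) ^ 3, FreeGroup.of (1 : Fin 3) ^ 5, FreeGroup.of (2 : Fin 3) ^ 2,
        (FreeGroup.of (2 : Fin 3))⁻¹ * FreeGroup.of 0 * FreeGroup.of 2 * (FreeGroup.of (0 : Fin 3))⁻¹,
        (FreeGroup.of (2 : Fin 3))⁻¹ * FreeGroup.of 1 * FreeGroup.of 2 * (FreeGroup.of (1 : Fin 3))⁻¹,
        (FreeGroup.of (0 : Fin 3) * FreeGroup.of 1) ^ 2 * (FreeGroup.of (2 : Fin 3))⁻¹} with hR
  let x : PresentedGroup R := PresentedGroup.of 0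
  let y : PresentedGroup R := PresentedGroup.of 1
  let z : PresentedGroup R := PresentedGroup.of 2
  have hx : x ^ 3 = 1 := PresentedGroup.one_of_mem (x := FreeGroup.of (0 : Fin 3) ^ 3) (by simp [hR])
  have hy : y ^ 5 = 1 := PresentedGroup.one_of_mem (x := FreeGroup.of (1 : Fin 3) ^ 5) (by simp [hR])
  have hz : z ^ 2 = 1 := PresentedGroup.one_of_mem (x := FreeGroup.of (2 : Fin 3) ^ 2) (by simp [hR])
  have hzx : z⁻¹ * x * z * x⁻¹ = 1 := PresentedGroup.one_of_mem
    (x := (FreeGroup.of (2 : Fin 3))⁻¹ * FreeGroup.of 0 * FreeGroup.of 2 * (FreeGroup.of (0 : Fin 3))⁻¹) (by simp [hR])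
  have hxy : (x * y) ^ 2 * z⁻¹ = 1 := PresentedGroup.one_of_mem
    (x := (FreeGroup.of (0 : Fin 3) * FreeGroup.of 1) ^ 2 * (FreeGroup.of (2 : Fin 3))⁻¹) (by simp [hR])
  have hxy' : (x * y) ^ 2 = z := mul_inv_eq_one.1 hxy
  have hrel : ∀ r ∈ R, FreeGroup.lift (![H16.sB⁻¹, H16.sB * H16.sA, -1]) r = 1 := by
    intro r hr
    simp only [hR, Set.mem_insert_iff, Set.mem_singleton_iff] at hr
    rcases hr with rfl | rfl | rfl | rfl | rfl | rfl <;>
      simp only [map_pow, map_mul, map_inv, FreeGroup.lift_apply_of] <;> decide +kernel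
  obtain ⟨f, hf, hr, -⟩ := H16.exists_injective_SL25 (a := x * y) (b := x⁻¹)
    (by rw [show 4 = 2 * 2 from rfl, pow_mul, hxy', hz])
    (by
      rw [hxy']
      refine Commute.inv_right ?_
      show z * x = x * z
      calc z * x = z * (z⁻¹ * x * z * x⁻¹) * x := by rw [hzx, mul_one]
        _ = _ := by group)
    (by rw [inv_pow, hx, inv_one])
    (by rw [conj_pow, hy]; simp) (fun e => by
      have := congrArg (PresentedGroup.toGroup hrel) e
      simp only [x, y, map_mul, map_pow, PresentedGroup.toGroup.of, map_one] at this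
      exact absurd this (by decide +kernel))
  refine ⟨(MulEquiv.ofBijective f ⟨hf, MonoidHom.range_eq_top.1 ?_⟩).symm⟩
  rw [hr, eq_top_iff, ← PresentedGroup.closure_range_of, Subgroup.closure_le]
  have h1 : x * y ∈ Subgroup.closure ({x * y, x⁻¹} : Set _) := Subgroup.subset_closure (by simp)
  have h2 : x⁻¹ ∈ Subgroup.closure ({x * y, x⁻¹} : Set _) := Subgroup.subset_closure (by simp)
  rintro _ ⟨i, rfl⟩
  fin_cases i
  · exact (Subgroup.inv_mem_iff _).1 h2
  · simpa using mul_mem h2 h1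
  · have := pow_mem h1 2
    rwa [hxy'] at this

end Cfsg.Agent.S3378
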