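import Cfsg.Statements.S3382
import Cfsg.Agent.S3116

set_option autoImplicit false
open Cfsg

namespace Cfsg.Agent.S3382

open Subgroup

section
variable {K : Type*} [Field K] {f f' : (Fin 2 → K) ≃ₗ[K] (Fin 2 → K)} {a b a' b' : K}

def Dg (f : (Fin 2 → K) ≃ₗ[K] (Fin 2 → K)) (a b : K) : Prop := ∀ v, f v = ![a * v 0, b * v 1]
def An (f : (Fin 2 → K) ≃ₗ[K] (Fin 2 → K)) (a b : K) : Prop := ∀ v, f v = ![b * v 1, a * v 0]

theorem Dg.mul (h : Dg f a b) (h' : Dg f' a' b') : Dg (f * f') (a * a') (b * b') := fun v => by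
  rw [LinearEquiv.mul_apply, h, h']; simp [mul_assoc]
theorem An.mul (h : An f a b) (h' : An f' a' b') : Dg (f * f') (b * a') (a * b') := fun v => by
  rw [LinearEquiv.mul_apply, h, h']; simp [mul_assoc]
theorem Dg.mul' (h : Dg f a b) (h' : An f' a' b') : An (f * f') (b * a') (a * b') := fun v => by
  rw [LinearEquiv.mul_apply, h, h']; simp [mul_assoc]
theorem An.mul' (h : An f a b) (h' : Dg f' a' b') : An (f * f') (a * a') (b * b') := fun v => by
  rw [LinearEquiv.mul_apply, h, h']; simp [mul_assoc]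
theorem Dg.one : Dg (1 : (Fin 2 → K) ≃ₗ[K] (Fin 2 → K)) 1 1 := fun v => by
  ext i; fin_cases i <;> simp
theorem Dg.pow (h : Dg f a b) (n : ℕ) : Dg (f ^ n) (a ^ n) (b ^ n) := by
  induction n with
  | zero => simpa using Dg.one
  | succ n ih => simpa only [pow_succ] using ih.mul h
theorem Dg.ext (h : Dg f a b) (h' : Dg f' a' b') (e : a = a') (e' : b = b') : f = f' :=
  LinearEquiv.ext fun v => by rw [h, h', e, e']
theorem An.ext (h : An f a b) (h' : An f' a' b') (e : a = a') (e' : b = b') : f = f' :=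
  LinearEquiv.ext fun v => by rw [h, h', e, e']
theorem Dg.uniq (h : Dg f a b) (h' : Dg f a' b') : a = a' ∧ b = b' := by
  simpa using (h 1).symm.trans (h' 1)
theorem An.uniq (h : An f a b) (h' : An f a' b') : a = a' ∧ b = b' := by
  simpa [and_comm] using (h 1).symm.trans (h' 1)
theorem Dg.not_an (h : Dg f a b) (h' : An f a' b') : a = 0 := by
  simpa using congrFun ((h ![1, 0]).symm.trans (h' ![1, 0])) 0

theorem ex_dg (ha : a ≠ 0) (hb : b ≠ 0) : ∃ f, Dg f a b :=
  ⟨{ toFun := fun v => ![a * v 0, b * v 1], invFun := fun v => ![a⁻¹ * v 0, b⁻¹ * v 1]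
     map_add' := fun v w => by ext i; fin_cases i <;> simp [mul_add]
     map_smul' := fun c v => by ext i; fin_cases i <;> simp [mul_left_comm]
     left_inv := fun v => by ext i; fin_cases i <;> simp [ha, hb]
     right_inv := fun v => by ext i; fin_cases i <;> simp [ha, hb] }, fun _ => rfl⟩
theorem ex_an (ha : a ≠ 0) (hb : b ≠ 0) : ∃ f, An f a b :=
  ⟨{ toFun := fun v => ![b * v 1, a * v 0], invFun := fun v => ![a⁻¹ * v 1, b⁻¹ * v 0]
     map_add' := fun v w => by ext i; fin_cases i <;> simp [mul_add]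
     map_smul' := fun c v => by ext i; fin_cases i <;> simp [mul_left_comm]
     left_inv := fun v => by ext i; fin_cases i <;> simp [ha, hb]
     right_inv := fun v => by ext i; fin_cases i <;> simp [ha, hb] }, fun _ => rfl⟩
end

theorem step {X : Type*} [Group X] [Finite X] (h2 : IsPGroup 2 X) (x : X)
    (h1 : ∀ a : MulAut X, a x ∈ zpowers x) (a : MulAut X) : ∃ n, (a ^ 2 ^ n) x = x := by
  have hc : ∀ (a : MulAut X), ∀ y ∈ zpowers x, a y ∈ zpowers x := by
    rintro a _ ⟨k, rfl⟩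
    simp only [map_zpow]
    exact zpow_mem (h1 a) k
  obtain ⟨n, hn⟩ := IsPGroup.iff_card.1 (h2.to_subgroup (zpowers x))
  have h4 : Nat.card (MulAut (zpowers x)) ∣ 2 ^ n := by
    rw [IsCyclic.card_mulAut, hn]
    rcases n with _ | n
    · simp
    · rw [Nat.totient_prime_pow_succ Nat.prime_two]; simp [pow_succ]
  have h5 : H29.resAut _ hc (a ^ 2 ^ n) = 1 := by
    rw [map_pow]; exact orderOf_dvd_iff_pow_eq_one.1 ((_root_.orderOf_dvd_natCard _).trans h4)
  exact ⟨n, congrArg (fun b : MulAut (zpowers x) => ((b ⟨x, mem_zpowers x⟩ : zpowers x) : X)) h5⟩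

theorem step2 {X : Type*} [Group X] [Finite X] (h2 : IsPGroup 2 X) (y z : X)
    (h1 : ∀ a : MulAut X, a y ∈ zpowers y) (hz : z ∈ zpowers y)
    (hA : ∀ f g, Commute f y → Commute g y → Commute f g) (hq : ∀ f, Commute f y → f * f ∈ zpowers y)
    (hE : ∀ e e', Commute e y → Commute e' y → e * e = 1 → e' * e' = 1 → e ≠ 1 → e ≠ z → e' ≠ 1 → e' ≠ z →
      e' = e ∨ e' = z * e) (z2 : z * z = 1) : IsPGroup 2 (MulAut X) := fun α => by
  obtain ⟨n, hn⟩ := step h2 y h1 α
  set β := α ^ 2 ^ n with hβ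
  have k1 : ∀ u ∈ zpowers y, β u = u := by rintro _ ⟨k, rfl⟩; simp only [map_zpow, hn]
  have k2 : ∀ f, Commute f y → Commute (β f) y := fun f hf => hn ▸ hf.map β
  have k3 : ∀ e, Commute e y → e * e = 1 → β (β e) = e := fun e he ee => by
    by_cases e1 : e = 1
    · simp [e1]
    by_cases e2 : e = z
    · rw [e2, k1 z hz, k1 z hz]
    rcases hE e (β e) he (k2 e he) ee (by rw [← map_mul, ee, map_one]) e1 e2 (by simpa using e1)
      (fun h => e2 (β.injective (h.trans (k1 z hz).symm))) with h | h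
    · rw [h, h]
    · rw [h, map_mul, k1 z hz, h, ← mul_assoc, z2, one_mul]
  have k4 : ∀ f, Commute f y → β (β (β (β f))) = f := fun f hf => by
    obtain ⟨e, he⟩ : ∃ e, β f = f * e := ⟨f⁻¹ * β f, by simp⟩
    have c1 : Commute e y := by
      have := hf.inv_left.mul_left (k2 f hf)
      rwa [he, inv_mul_cancel_left] at this
    have ee : e * e = 1 := by
      have := k1 _ (hq f hf)
      rw [map_mul, he, mul_assoc, ← mul_assoc e, (hA e f c1 hf).eq, mul_assoc, ← mul_assoc] at this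
      exact mul_eq_left.1 this
    have ee' : β e * β e = 1 := by rw [← map_mul, ee, map_one]
    simp only [he, map_mul, k3 e c1 ee, mul_assoc]
    rw [← mul_assoc (β e), ← (hA _ _ c1 (k2 e c1)).eq, mul_assoc, ee', mul_one, ee, mul_one]
  obtain ⟨k, hk⟩ := H29.aut_pow_eq_one_of_fix h2 (H := centralizer {y})
    (fun g hg => mem_centralizer_singleton_iff.2 (hg y (mem_centralizer_singleton_iff.2 rfl)).symm) (β ^ 2 ^ 2)
    fun f hf => by simpa [pow_succ] using k4 f (mem_centralizer_singleton_iff.1 hf)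
  exact ⟨n + 2 + k, by rw [pow_add, pow_add, pow_mul, pow_mul, ← hβ, hk]⟩

/-- Let q = 2^m + 1 be a prime other than 5. Then the automorphism group of the group of linear maps of F_q² of the forms (x, y) ↦ (a x, ± a⁻¹ y) and (x, y) ↦ (± a⁻¹ y, a x) with a ≠ 0 is itself a 2-group. -/
theorem result (q m : ℕ) [Fact q.Prime] (hq : q = 2 ^ m + 1) (hq5 : q ≠ 5)
    (T : Subgroup ((Fin 2 → ZMod q) ≃ₗ[ZMod q] (Fin 2 → ZMod q)))
    (hT : ∀ f, f ∈ T ↔ ∃ a s : ZMod q, a ≠ 0 ∧ (s = 1 ∨ s = -1) ∧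
      ((∀ v, f v = ![a * v 0, s * a⁻¹ * v 1]) ∨ (∀ v, f v = ![s * a⁻¹ * v 1, a * v 0]))) :
    IsPGroup 2 (MulAut T) := by
  have hT' : ∀ f : T, ∃ a b : ZMod q, a ≠ 0 ∧ (a * b) ^ 2 = 1 ∧ (Dg f.1 a b ∨ An f.1 a b) := fun f => by
    obtain ⟨a, s, ha, hs, h⟩ := (hT f).1 f.2
    exact ⟨a, s * a⁻¹, ha, by rcases hs with rfl | rfl <;> field_simp, h⟩
  have nz : ∀ {a b : ZMod q}, (a * b) ^ 2 = 1 → b ≠ 0 := fun h e => by simp [e] at h
  have pw : ∀ {a : ZMod q}, a ≠ 0 → a ^ 2 ^ m = 1 := fun ha => by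
    have := ZMod.pow_card_sub_one_eq_one ha
    rwa [show q - 1 = 2 ^ m from Nat.sub_eq_of_eq_add hq] at this
  have an4 : ∀ {f : T} {a b : ZMod q}, (a * b) ^ 2 = 1 → An f.1 a b → f ^ 4 = 1 := fun {f a b} h h' =>
    Subtype.ext (by
      rw [show 4 = 2 * 2 from rfl, pow_mul, coe_pow, coe_pow, sq f.1]
      exact ((h'.mul h').pow 2).ext Dg.one (by rw [mul_comm, h]) h)
  have : Finite ((Fin 2 → ZMod q) ≃ₗ[ZMod q] (Fin 2 → ZMod q)) := DFunLike.finite _
  have h2 : IsPGroup 2 T := fun f => by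
    obtain ⟨a, b, ha, h, h' | h'⟩ := hT' f
    · exact ⟨m, Subtype.ext ((h'.pow _).ext Dg.one (pw ha) (pw (nz h)))⟩
    · exact ⟨2, an4 h h'⟩
  have s1 : ∀ {a : ZMod q}, a ^ 2 = 1 → a = 1 ∨ a = -1 := fun h => sq_eq_one_iff.1 h
  by_cases hm : m ≤ 1
  · obtain ⟨w, hw⟩ := ex_an (K := ZMod q) (a := 1) (b := -1) one_ne_zero (by simp)
    have wT : w ∈ T := (hT w).2 ⟨1, -1, one_ne_zero, Or.inr rfl, Or.inr (by simpa [An] using hw)⟩
    have a2 : ∀ {a : ZMod q}, a ≠ 0 → a = 1 ∨ a = -1 := fun {a} ha => s1 (by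
      have := pw ha
      interval_cases m
      · rw [show a = 1 by simpa using this, one_pow]
      · exact this)
    have w2 := hw.mul hw
    have w3 := w2.mul' hw
    have k : ∀ g : T, g ∉ zpowers (⟨w, wT⟩ : T) → ∃ a : ZMod q, a ≠ -a ∧ a * a = 1 ∧ (Dg g.1 a (-a) ∨ An g.1 a a) := by
      intro g hg
      have n : ∀ j : ℕ, g.1 ≠ w ^ j := fun j e => hg ⟨j, Subtype.ext (by simp [e])⟩
      have n0 : g.1 ≠ 1 := by simpa using n 0
      have n1 : g.1 ≠ w := by simpa using n 1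
      have n2 : g.1 ≠ w * w := by simpa [sq] using n 2
      have n3 : g.1 ≠ w * w * w := by simpa [pow_succ] using n 3
      obtain ⟨a, b, ha, h, h'⟩ := hT' g
      rcases a2 ha with rfl | rfl <;> rcases a2 (nz h) with rfl | rfl <;> rcases h' with h' | h'
      · exact absurd (h'.ext Dg.one rfl rfl) n0
      · exact ⟨1, fun e => n1 (h'.ext hw rfl e), by simp, Or.inr h'⟩
      · exact ⟨1, fun e => n0 (h'.ext Dg.one rfl e.symm), by simp, Or.inl h'⟩
      · exact absurd (h'.ext hw rfl rfl) n1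
      · exact ⟨-1, fun e => n0 (h'.ext Dg.one (by simpa using e) rfl), by simp, Or.inl (by simpa using h')⟩
      · exact absurd (h'.ext w3 (by simp) (by simp)) n3
      · exact absurd (h'.ext w2 (by simp) (by simp)) n2
      · exact ⟨-1, fun e => n1 (h'.ext hw (by simpa using e) rfl), by simp, Or.inr h'⟩
    refine S3116.aux h2 ⟨w, wT⟩ (fun g hg e => ?_) fun g e => by_contra fun hg => ?_
    · obtain ⟨a, h1, h3, h⟩ := k g hg
      have : g ^ 2 = 1 := Subtype.ext (by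
        rw [coe_pow, sq]
        rcases h with h | h
        · exact (h.mul h).ext Dg.one h3 (by simpa using h3)
        · exact (h.mul h).ext Dg.one h3 h3)
      rw [← orderOf_dvd_iff_pow_eq_one, e, orderOf_dvd_iff_pow_eq_one, sq] at this
      have := ((show w * w = 1 from congrArg Subtype.val this) ▸ w2).uniq Dg.one
      exact h1 (by linear_combination (-a) * this.1)
    · obtain ⟨a, h1, h3, h⟩ := k g hg
      have e : g.1 * w = w * g.1 := congrArg Subtype.val e
      rcases h with h | h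
      · have := ((e ▸ h.mul' hw).uniq (hw.mul' h)).1
        exact h1 (by linear_combination -this)
      · have := ((e ▸ h.mul hw).uniq (hw.mul h)).1
        exact h1 (by linear_combination this)
  obtain ⟨n, rfl⟩ : ∃ n, m = n + 3 := ⟨m - 3, by have : m ≠ 2 := fun e => hq5 (by rw [hq, e]; rfl); omega⟩
  obtain ⟨u, hu⟩ := IsCyclic.exists_monoid_generator (α := (ZMod q)ˣ)
  have ou : orderOf (u : ZMod q) = 2 ^ (n + 3) := by
    rw [orderOf_units, orderOf_eq_card_of_forall_mem_powers hu, Nat.card_eq_fintype_card, ZMod.card_units]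
    exact Nat.sub_eq_of_eq_add hq
  have hg : ∀ a : ZMod q, a ≠ 0 → ∃ k, (u : ZMod q) ^ k = a := fun a ha => by
    obtain ⟨k, e⟩ := hu (Units.mk0 a ha)
    exact ⟨k, by simpa using congrArg Units.val e⟩
  have g0 := u.ne_zero
  generalize (u : ZMod q) = g at *
  have g1 : ∀ j < n + 3, g ^ 2 ^ j ≠ 1 := fun j hj e => by
    rw [← orderOf_dvd_iff_pow_eq_one, ou, Nat.pow_dvd_pow_iff_le_right (by decide)] at e
    omega
  obtain ⟨x, hx⟩ := ex_dg g0 (inv_ne_zero g0)
  have xT : x ∈ T := (hT x).2 ⟨g, 1, g0, Or.inl rfl, Or.inl (by simpa [Dg] using hx)⟩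
  set y : T := ⟨x, xT⟩ * ⟨x, xT⟩ with hy
  have dy : Dg y.1 (g * g) (g⁻¹ * g⁻¹) := hx.mul hx
  have k1 : ∀ {f : T} {a b}, a ≠ 0 → (a * b) ^ 2 = 1 → Dg f.1 a b → f * f ∈ zpowers y := fun {f a b} ha h h' => by
    obtain ⟨k, rfl⟩ := hg a ha
    refine ⟨k, Subtype.ext ?_⟩
    simp only [zpow_natCast, coe_pow]
    refine (dy.pow k).ext (h'.mul h') (mul_pow ..) ?_
    rw [mul_pow, inv_pow]
    field_simp
    rw [← mul_pow, h]
  have k2 : ∀ f : T, Commute f y → ∃ a b, a ≠ 0 ∧ (a * b) ^ 2 = 1 ∧ Dg f.1 a b := fun f hf => by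
    obtain ⟨a, b, ha, h, h' | h'⟩ := hT' f
    · exact ⟨a, b, ha, h, h'⟩
    have := (((show f.1 * y.1 = y.1 * f.1 from congrArg Subtype.val hf) ▸ h'.mul' dy).uniq (dy.mul' h')).1
    field_simp at this
    exact absurd this (g1 2 (by omega))
  have dz : Dg (y ^ 2 ^ (n + 1)).1 (-1) (-1) := by
    have : (g * g) ^ 2 ^ (n + 1) = -1 := (s1 (by
      rw [← sq, ← pow_mul, ← pow_mul, ← pw g0]; congr 1; ring)).resolve_left (by
        rw [← sq, ← pow_mul, ← pow_succ']; exact g1 _ (by omega))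
    have e := dy.pow (2 ^ (n + 1))
    rwa [← mul_inv, inv_pow, this, inv_neg_one] at e
  refine step2 h2 y (y ^ 2 ^ (n + 1)) (fun α => ?_) (npow_mem_zpowers ..) (fun f f' hf hf' => ?_) (fun f hf => ?_)
    (fun e e' he he' ee ee' e1 e2 e3 e4 => ?_) (Subtype.ext ((dz.mul dz).ext Dg.one (by simp) (by simp)))
  · obtain ⟨a, b, ha, h, h' | h'⟩ := hT' (α ⟨x, xT⟩)
    · exact map_mul α _ _ ▸ k1 ha h h'
    have := an4 h h'
    rw [← map_pow, EmbeddingLike.map_eq_one_iff] at this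
    exact absurd (((show x ^ 4 = 1 from congrArg Subtype.val this) ▸ hx.pow 4).uniq Dg.one).1 (g1 2 (by omega))
  · obtain ⟨a, b, -, -, h⟩ := k2 f hf
    obtain ⟨a', b', -, -, h'⟩ := k2 f' hf'
    exact Subtype.ext ((h.mul h').ext (h'.mul h) (mul_comm ..) (mul_comm ..))
  · obtain ⟨a, b, ha, h, h'⟩ := k2 f hf
    exact k1 ha h h'
  have k3 : ∀ e : T, Commute e y → e * e = 1 → e ≠ 1 → e ≠ y ^ 2 ^ (n + 1) → Dg e.1 1 (-1) ∨ Dg e.1 (-1) 1 :=
    fun e he ee e1 e2 => by
      obtain ⟨a, b, -, -, h⟩ := k2 e he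
      have := ((show e.1 * e.1 = 1 from congrArg Subtype.val ee) ▸ h.mul h).uniq Dg.one
      rcases mul_self_eq_one_iff.1 this.1 with rfl | rfl <;> rcases mul_self_eq_one_iff.1 this.2 with rfl | rfl
      · exact absurd (Subtype.ext (h.ext Dg.one rfl rfl)) e1
      · exact Or.inl h
      · exact Or.inr h
      · exact absurd (Subtype.ext (h.ext dz rfl rfl)) e2
  rcases k3 e he ee e1 e2 with h | h <;> rcases k3 e' he' ee' e3 e4 with h' | h'
  · exact Or.inl (Subtype.ext (h'.ext h rfl rfl))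
  · exact Or.inr (Subtype.ext (h'.ext (dz.mul h) (by simp) (by simp)))
  · exact Or.inr (Subtype.ext (h'.ext (dz.mul h) (by simp) (by simp)))
  · exact Or.inl (Subtype.ext (h'.ext h rfl rfl))

end Cfsg.Agent.S3382
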