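import Cfsg.Statements.S3383
import Cfsg.Agent.S0034
import Cfsg.Agent.S0035
import Cfsg.Agent.H1.Basic

set_option autoImplicit false
open Cfsg

namespace Cfsg.Agent.S3383

open scoped Pointwise

/-- Let H be a Frobenius complement in a finite group L and K the Frobenius kernel (as a subgroup). Then K is characteristic in L, and every normal subgroup of L either contains K or is contained in K. -/
theorem result {L : Type*} [Group L] [Finite L]
    (H : Subgroup L) (hH : Cfsg.IsFrobeniusComplement H)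
    (K : Subgroup L) (hK : (K : Set L) = Cfsg.frobeniusKernel H) :
    K.Characteristic ∧ ∀ N : Subgroup L, N.Normal → K ≤ N ∨ N ≤ K := by
  obtain ⟨N, h1, hN, hc⟩ := S0035.result H hH
  obtain rfl : N = K := SetLike.coe_injective (h1.trans hK.symm)
  obtain ⟨h2, h3⟩ := S0034.result H hH
  have hcard : Nat.card N = H.index := by rw [← h2, ← h1]; rfl
  have hcop : (Nat.card N).Coprime N.index := by
    rw [hc.symm.index_eq_card, hcard]
    exact Nat.coprime_of_mul_modEq_one 1 (by rw [mul_one]; exact h3)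
  refine ⟨Subgroup.characteristic_iff_map_le.2 fun φ => H1.le_of_coprime_index ?_, fun M hM => ?_⟩
  · rwa [Subgroup.card_map_of_injective φ.injective]
  by_cases h : M ≤ N
  · exact Or.inr h
  left
  obtain ⟨x, hx, hx'⟩ := SetLike.not_le_iff_exists.1 h
  have hx1 : x ≠ 1 := by rintro rfl; exact hx' (one_mem _)
  have hx2 : x ∉ Cfsg.frobeniusKernel H := h1 ▸ hx'
  simp only [Cfsg.frobeniusKernel, Set.mem_setOf_eq, not_or, not_forall, not_not] at hx2
  obtain ⟨g, hg⟩ := hx2.2
  let f : N → N := fun k => ⟨k * (x * (k : L)⁻¹ * x⁻¹), mul_mem k.2 (hN.conj_mem _ (inv_mem k.2) x)⟩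
  have hf : Function.Injective f := fun a b hab => by
    have h4 : (a : L) * (x * (a : L)⁻¹ * x⁻¹) = b * (x * (b : L)⁻¹ * x⁻¹) := congrArg Subtype.val hab
    have h5 : ((b : L)⁻¹ * a) * x * ((b : L)⁻¹ * a)⁻¹ = x := by
      calc ((b : L)⁻¹ * a) * x * ((b : L)⁻¹ * a)⁻¹ = (b : L)⁻¹ * (a * (x * (a : L)⁻¹ * x⁻¹)) * x * b := by group
        _ = _ := by rw [h4]; group
    have h6 : (b : L)⁻¹ * a ∈ Cfsg.frobeniusKernel H := h1 ▸ mul_mem (inv_mem b.2) a.2
    generalize hk : (b : L)⁻¹ * a = k at h5 h6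
    rcases h6 with h6 | h6
    · rw [h6] at hk; exact (Subtype.ext (inv_mul_eq_one.1 hk)).symm
    exfalso
    rw [H1.mem_conj_smul] at hg
    have h7 := hH.2.2 (g⁻¹ * k * g) (fun h => h6 g (H1.mem_conj_smul.2 h))
    have h8 : g⁻¹ * x * g ∈ H ⊓ MulAut.conj (g⁻¹ * k * g) • H := ⟨hg, H1.mem_conj_smul.2 (by
      convert hg using 1
      conv_lhs => rw [← h5]
      group)⟩
    rw [h7, Subgroup.mem_bot] at h8
    apply hx1
    calc x = g * (g⁻¹ * x * g) * g⁻¹ := by group
      _ = 1 := by rw [h8]; group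
  intro k hk
  obtain ⟨a, ha⟩ := (Finite.injective_iff_surjective.1 hf) ⟨k, hk⟩
  have : k = a * x * (a : L)⁻¹ * x⁻¹ := by rw [← show (a : L) * (x * (a : L)⁻¹ * x⁻¹) = k from congrArg Subtype.val ha]; group
  rw [this]
  exact mul_mem (hM.conj_mem x hx a) (inv_mem hx)

end Cfsg.Agent.S3383
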