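import Cfsg.Statements.S3419
import Cfsg.Agent.H23.Spec

set_option autoImplicit false
open Cfsg

namespace Cfsg.Agent.S3419

open H23

/-- Let n ≥ 5 and let G be a finite group with the same order and the same set of element orders as the alternating group of degree n. Then G is not solvable. -/
theorem result {G : Type*} [Group G] [Finite G] (n : ℕ) (hn : 5 ≤ n)
    (hcard : Nat.card G = Nat.card ↥(alternatingGroup (Fin n)))
    (hspec : Set.range (orderOf : G → ℕ) = Set.range (orderOf : ↥(alternatingGroup (Fin n)) → ℕ)) :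
    ¬ Group.IsSolvable G := by
  have key : ∀ p q : ℕ, p.Prime → q.Prime → p + 1 < q → ¬ p ∣ q - 1 → 3 ≤ p → n < 3 * p → n < 2 * q → n < p + q →
      q ≤ n → ¬ Group.IsSolvable G := fun p q hp hq a1 a2 a3 a4 a5 a6 a7 => by
    refine not_solv_of_primes hp hq a1 a2 ?_ ?_ (fun g hg => ?_) ?_ ?_
    · exact hcard ▸ not_pow_dvd_card_alt hq hq.two_le (by simpa using a5)
    · exact hcard ▸ not_pow_dvd_card_alt hp a3 (by simpa using a4)
    · obtain ⟨x, hx⟩ : p * q ∈ Set.range (orderOf : alternatingGroup (Fin n) → ℕ) := hspec ▸ ⟨g, hg⟩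
      have := le_of_orderOf hp hq (by omega) (g := x.1) (by rw [Subgroup.orderOf_coe, hx])
      rw [Fintype.card_fin] at this
      omega
    · exact hcard ▸ dvd_card_alt hp (by omega) (by simp; omega)
    · exact hcard ▸ dvd_card_alt hq (by omega) (by simpa using a7)
  by_cases h : n ≤ 7
  · exact key 3 5 (by norm_num) (by norm_num) (by omega) (by omega) (by omega) (by omega) (by omega) (by omega) (by omega)
  by_cases h : n ≤ 11
  · exact key 5 7 (by norm_num) (by norm_num) (by omega) (by omega) (by omega) (by omega) (by omega) (by omega) (by omega)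
  by_cases h : n ≤ 17
  · exact key 7 11 (by norm_num) (by norm_num) (by omega) (by omega) (by omega) (by omega) (by omega) (by omega) (by omega)
  obtain ⟨p, q, h1, h2, h3, h4, h5⟩ := exists_two_primes n (by omega)
  refine key p q h1 h2 (by omega) (fun ⟨k, hk⟩ => ?_) (by omega) (by omega) (by omega) (by omega) h5
  rcases k with _ | _ | k
  · omega
  · omega
  · have : p * 2 ≤ p * (k + 1 + 1) := Nat.mul_le_mul_left _ (by omega)
    omega

end Cfsg.Agent.S3419
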