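import Cfsg.Statements.S3420
import Cfsg.Agent.H23.Spec
import Cfsg.Agent.H10.Small

set_option autoImplicit false
open Cfsg

namespace Cfsg.Agent.S3420

open H23

/-- Let n ≥ 11 and let G be a finite group with the same order and the same set of element orders as the alternating group of degree n. Then G has normal subgroups N < H such that H/N is a non-abelian simple group whose order is divisible by every prime p with n/2 < p ≤ n. -/
theorem result {G : Type*} [Group G] [Finite G] (n : ℕ) (hn : 11 ≤ n)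
    (hcard : Nat.card G = Nat.card ↥(alternatingGroup (Fin n)))
    (hspec : Set.range (orderOf : G → ℕ) = Set.range (orderOf : ↥(alternatingGroup (Fin n)) → ℕ)) :
    ∃ (N H : Subgroup G) (_ : N.Normal), H.Normal ∧ N < H ∧
      IsSimpleGroup (↥H ⧸ N.subgroupOf H) ∧ ¬ IsMulCommutative (↥H ⧸ N.subgroupOf H) ∧
      ∀ p : ℕ, p.Prime → n < 2 * p → p ≤ n → p ∣ Nat.card (↥H ⧸ N.subgroupOf H) := by
  have h1 : ∀ p : ℕ, p.Prime → n < 2 * p → p ≤ n → p ∣ Nat.card G ∧ ¬ p ^ 2 ∣ Nat.card G := fun p hp a1 a2 =>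
    hcard ▸ ⟨dvd_card_alt hp (by omega) (by simpa using a2), not_pow_dvd_card_alt hp hp.two_le (by simpa using a1)⟩
  have h2 : ∀ p q : ℕ, p.Prime → n < 2 * p → p ≤ n → q.Prime → n < 2 * q → q ≤ n → ∀ (K : Subgroup G) [K.Normal],
      q ∣ Nat.card K → p ∣ Nat.card K := fun p q hp a1 a2 hq a3 a4 K _ h => by
    by_cases e : p = q
    · exact e ▸ h
    refine dvd_of_normal hp hq e (fun ⟨k, hk⟩ => ?_) (h1 q hq a3 a4).2 (fun g hg => ?_) (h1 p hp a1 a2).1 h
    · have := hp.eq_two_or_odd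
      have := hq.eq_two_or_odd
      rcases k with _ | _ | k
      · omega
      · omega
      · have : p * 2 ≤ p * (k + 1 + 1) := Nat.mul_le_mul_left _ (by omega)
        omega
    · obtain ⟨x, hx⟩ : p * q ∈ Set.range (orderOf : alternatingGroup (Fin n) → ℕ) := hspec ▸ ⟨g, hg⟩
      have := le_of_orderOf hp hq e (g := x.1) (by rw [Subgroup.orderOf_coe, hx])
      rw [Fintype.card_fin] at this
      omega
  obtain ⟨p, q, hp, hq, a1, a2, a3⟩ : ∃ p q : ℕ, p.Prime ∧ q.Prime ∧ n < 2 * p ∧ p < q ∧ q ≤ n := by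
    by_cases h : n ≤ 13
    · exact ⟨7, 11, by norm_num, by norm_num, by omega, by omega, by omega⟩
    by_cases h : n ≤ 17
    · exact ⟨11, 13, by norm_num, by norm_num, by omega, by omega, by omega⟩
    obtain ⟨p, q, h1, h2, h3, h4, h5⟩ := exists_two_primes n (by omega)
    exact ⟨p, q, h1, h2, h3, by omega, h5⟩
  obtain ⟨N, H, _, _, b1, b2, b3, b4⟩ := exists_simple_factor hp (h1 p hp a1 (by omega)).1 (h1 p hp a1 (by omega)).2
  have h3 : ∀ r : ℕ, r.Prime → n < 2 * r → r ≤ n → r ∣ Nat.card (H ⧸ N.subgroupOf H) := fun r hr c1 c2 => by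
    have := h2 r p hr c1 c2 hp a1 (by omega) H b3
    rw [← H18.card_mul_relIndex b1.le] at this
    exact (hr.dvd_mul.1 this).resolve_left fun e => b2 (h2 p r hp a1 (by omega) hr c1 c2 N e)
  refine ⟨N, H, inferInstance, inferInstance, b1, b4, fun hc => ?_, h3⟩
  have := by_contra fun e => H10.not_comm_of_simple_of_not_prime e hc
  have c1 := (Nat.prime_dvd_prime_iff_eq hp this).1 (h3 p hp a1 (by omega))
  have c2 := (Nat.prime_dvd_prime_iff_eq hq this).1 (h3 q hq (by omega) a3)
  omega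

end Cfsg.Agent.S3420
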