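import Cfsg.Statements.S3430
import Cfsg.Agent.H17.Zsg

set_option autoImplicit false
open Cfsg

namespace Cfsg.Agent.S3430

/-- Let q, n ≥ 2 be integers. Unless (n = 2 and q + 1 = 2^s·3^t for some s ≥ 0 and t ≤ 1), or (q = 2 and n ∈ {4, 6, 10, 12, 18}), or (q = 3 and n ∈ {4, 6}), or (q, n) = (5, 6), there is a prime p dividing q^n − 1 but no q^i − 1 with 1 ≤ i < n (a primitive prime divisor), such that p > n + 1 or p² divides q^n − 1. -/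
theorem result (q n : ℕ) (hq : 2 ≤ q) (hn : 2 ≤ n)
    (h1 : ¬ (n = 2 ∧ ∃ s t : ℕ, t ≤ 1 ∧ q + 1 = 2 ^ s * 3 ^ t))
    (h2 : ¬ (q = 2 ∧ (n = 4 ∨ n = 6 ∨ n = 10 ∨ n = 12 ∨ n = 18)))
    (h3 : ¬ (q = 3 ∧ (n = 4 ∨ n = 6))) (h4 : ¬ (q = 5 ∧ n = 6)) :
    ∃ p : ℕ, p.Prime ∧ p ∣ q ^ n - 1 ∧ (∀ i : ℕ, 1 ≤ i → i < n → ¬ p ∣ q ^ i - 1) ∧ (n + 1 < p ∨ p ^ 2 ∣ q ^ n - 1) := by
  have k : ∀ m, m ∣ q ^ n - 1 → (∀ i : ℕ, 1 ≤ i → i < n → m.Coprime (q ^ i - 1)) → n + 1 < m →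
      ∃ p : ℕ, p.Prime ∧ p ∣ q ^ n - 1 ∧ (∀ i : ℕ, 1 ≤ i → i < n → ¬ p ∣ q ^ i - 1) ∧ (n + 1 < p ∨ p ^ 2 ∣ q ^ n - 1) := by
    intro m k1 k2 k3
    by_contra! h
    have k4 : ∀ {p : ℕ}, p.Prime → p ∣ m → p = n + 1 ∧ ¬ p ^ 2 ∣ m := fun {p} hp d => by
      have c : ∀ i : ℕ, 1 ≤ i → i < n → p.Coprime (q ^ i - 1) := fun i a b => (k2 i a b).coprime_dvd_left d
      obtain ⟨l1, l2⟩ := h p hp (d.trans k1) fun i a b => hp.coprime_iff_not_dvd.1 (c i a b)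
      have l3 := S4422.result q n p hq (by omega) (d.trans k1) c
      rw [Nat.mod_eq_of_lt (by omega : 1 < n)] at l3
      refine ⟨le_antisymm l1 ?_, fun e => l2 (e.trans k1)⟩
      have l4 := Nat.div_add_mod p n
      have : 0 < p / n := Nat.pos_of_ne_zero fun e => by rw [e, l3] at l4; have := hp.two_le; omega
      nlinarith
    obtain ⟨p, hp, a, rfl⟩ := Nat.exists_prime_and_dvd (by omega : m ≠ 1)
    obtain ⟨r, hr, d⟩ := Nat.exists_prime_and_dvd (n := a) (by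
      rintro rfl
      have := (k4 hp (dvd_mul_right ..)).1
      omega)
    obtain rfl : r = p := (k4 hr (d.mul_left p)).1.trans (k4 hp (dvd_mul_right ..)).1.symm
    exact (k4 hp (dvd_mul_right ..)).2 (sq r ▸ mul_dvd_mul_left r d)
  rcases hn.eq_or_lt with rfl | hn
  · obtain ⟨s, m, hm, e⟩ := Nat.exists_eq_two_pow_mul_odd (n := q + 1) (by omega)
    have d : m ∣ q + 1 := Dvd.intro_left _ e.symm
    refine k m (by rw [show q ^ 2 - 1 = (q + 1) * (q - 1) from Nat.sq_sub_sq q 1]; exact d.mul_right _) (fun i a b => ?_) ?_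
    · obtain rfl : i = 1 := by omega
      rw [pow_one]
      refine Nat.coprime_of_dvd fun p hp d1 d2 => ?_
      have := (Nat.prime_dvd_prime_iff_eq hp Nat.prime_two).1 ((Nat.dvd_add_right d2).1
        (by rw [show q - 1 + 2 = q + 1 by omega]; exact d1.trans d))
      exact hm.not_two_dvd_nat (this ▸ d1)
    · by_contra h
      have := hm.pos
      have : m = 1 ∨ m = 3 := by obtain ⟨j, rfl⟩ := hm; omega
      rcases this with rfl | rfl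
      exacts [h1 ⟨rfl, s, 0, zero_le_one, e⟩, h1 ⟨rfl, s, 1, le_rfl, e⟩]
  by_cases h : (q, n) ∈ [(2, 6), (2, 4), (2, 10), (2, 12), (2, 18), (3, 4), (3, 6), (5, 6), (2, 3), (2, 8), (2, 20), (4, 3),
    (4, 6)]
  · have : (q, n) ∈ [(2, 3), (2, 8), (2, 20), (4, 3), (4, 6)] := by
      simp only [List.mem_cons, Prod.mk.injEq, List.not_mem_nil, or_false] at h ⊢
      omega
    obtain ⟨k1, k2⟩ := (by decide +kernel : ∀ x ∈ [(2, 3), (2, 8), (2, 20), (4, 3), (4, 6)], 2 * x.2 + 1 ∣ x.1 ^ x.2 - 1 ∧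
      ∀ i < x.2, 1 ≤ i → (2 * x.2 + 1).Coprime (x.1 ^ i - 1)) _ this
    exact k _ k1 (fun i a b => k2 i b a) (by omega)
  obtain ⟨m, k1, k2, k3⟩ := H17.Zs.prim hq hn h
  exact k m k1 k2 (by omega)

end Cfsg.Agent.S3430
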