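import Cfsg.Statements.S3431
import Cfsg.Agent.H23.Nse
import Cfsg.Agent.S0494
import Cfsg.Agent.S0497

set_option autoImplicit false
open Cfsg

namespace Cfsg.Agent.S3431

open H23.Nse H326 Subgroup Equiv Equiv.Perm
variable {G : Type*} [Group G] [Finite G]

theorem le5 (G : Type*) [Group G] [Finite G] : 1 + oc G 2 + oc G 3 + oc G 4 + oc G 5 ≤ Nat.card G := by
  have := oc_le (G := G) {1, 2, 3, 4, 5}
  simp [oc_one] at this; omega

theorem nml {p : ℕ} (N : Subgroup G) [N.Normal] (hp : p.Prime) (h : ¬ p ∣ N.index) : oc N p = oc G p :=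
  oc_nml N (hp.coprime_iff_not_dvd.2 h)

theorem two_eq {v : ℕ} (ho : Odd v) (h1 : v ≠ 1) (h : ∃ m, oc G m = v) : oc G 2 = v := by
  obtain ⟨m, e⟩ := h
  obtain rfl | rfl := oc_odd (e ▸ ho)
  · exact absurd (e.symm.trans oc_one) h1
  · exact e

theorem a4_of (hc : Nat.card G = 12) (h3 : oc G 3 = 8) : Nonempty (G ≃* alternatingGroup (Fin 4)) := by
  have : Fact (Nat.Prime 3) := ⟨Nat.prime_three⟩
  let P : Sylow 3 G := default
  have hP : Nat.card P = 3 := syl_card (k := 1) P (by rw [hc]; decide) (by rw [hc]; decide)
  have h4 : Nat.card (Sylow 3 G) = 4 := by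
    have := H10.card_orderOf_eq_prime P hP
    change oc G 3 = _ at this
    omega
  let e : Sylow 3 G ≃ Fin 4 := Finite.equivFinOfCardEq h4
  let f : G →* Perm (Fin 4) := e.permCongrHom.toMonoidHom.comp (MulAction.toPermHom G (Sylow 3 G))
  have hk : f.ker ≤ normalizer ((P : Subgroup G) : Set G) := fun g hg => by
    have : MulAction.toPermHom G (Sylow 3 G) g = 1 := e.permCongrHom.injective (hg.trans (map_one _).symm)
    exact H10.smul_sylow_eq_iff.1 (congrArg (· P) this)
  have i1 : Nat.card (Sylow 3 G) ∣ f.ker.index := by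
    rw [P.card_eq_index_normalizer]; exact index_dvd_of_le hk
  rw [h4] at i1
  have i2 := f.ker.card_mul_index
  have i3 : f.ker.index = 12 := by
    by_contra i3
    have : f.ker.index = 4 := by
      have : f.ker.index ∣ 12 := hc ▸ index_dvd_card _
      have := Nat.le_of_dvd (by decide) this
      interval_cases f.ker.index <;> omega
    have a := oc_nml (m := 3) f.ker (by rw [this]; decide)
    have b := le5 f.ker
    rw [this, hc] at i2
    omega
  have inj : Function.Injective f := by
    rw [← MonoidHom.ker_eq_bot_iff, ← card_eq_one]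
    rw [i3, hc] at i2
    omega
  have r : f.range = alternatingGroup (Fin 4) := eq_alternatingGroup_of_index_eq_two (by
    have := f.range.card_mul_index
    rw [← Nat.card_congr (MonoidHom.ofInjective inj).toEquiv, hc, Nat.card_perm] at this
    simp [Nat.factorial] at this; omega)
  exact ⟨(MonoidHom.ofInjective inj).trans (MulEquiv.subgroupCongr r)⟩

theorem a4 (hv : ∀ m, oc G m = 0 ∨ oc G m = 1 ∨ oc G m = 3 ∨ oc G m = 8) (h3 : ∃ m, oc G m = 3)
    (h8 : ∃ m, oc G m = 8) : Nonempty (G ≃* alternatingGroup (Fin 4)) := by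
  have s1 := oc_one (G := G)
  have s2 := two_eq (by decide) (by decide) h3
  have hb : ∀ m, 2 < m → oc G m = 0 ∨ oc G m = 8 := fun m hm => by
    have := Nat.even_iff.1 (oc_even (G := G) hm); have := hv m; omega
  have hp : ∀ p, p.Prime → p ∣ Nat.card G → p = 2 ∨ p = 3 ∨ p = 5 := fun p hp d => by
    by_contra e
    have := hp.two_le
    have a := oc_prime hp d
    rw [(hb p (by omega)).resolve_left (oc_cauchy hp d)] at a
    have := (Nat.prime_dvd_prime_iff_eq hp Nat.prime_three).1 (hp.dvd_of_dvd_pow (show p ∣ 3 ^ 2 from a))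
    omega
  have s5 : oc G 5 = 0 := by
    by_contra e; have := oc_prime Nat.prime_five (oc_card e); have := hb 5 (by decide); omega
  have s8 : oc G 8 = 0 := oc_nd fun d => by
    have := oc_frob 8 d; simp [Nat.divisors_ofNat] at this
    have := hb 4 (by decide); have := hb 8 (by decide); omega
  have s9 : oc G 9 = 0 := by
    have : 6 ∣ oc G 9 := oc_tot 9
    have := hb 9 (by decide); omega
  have t := oc_exp 12 (by decide) (exp_235 (a := 2) (b := 1) (c := 0) hp s8 s9 s5)
  simp [Nat.divisors_ofNat] at t
  have lo : 12 ≤ Nat.card G := by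
    obtain ⟨m, e⟩ := h8
    have := oc_le (G := G) {1, 2, m}
    rw [Finset.sum_insert, Finset.sum_pair] at this
    · omega
    · rintro rfl; omega
    · simp; rintro rfl; omega
  have := hb 4 (by decide)
  have d3 : 3 ∣ Nat.card G := by
    by_contra d
    have := oc_nd d
    have := oc_zero_of (m := 6) (by decide) this
    have := oc_zero_of (d := 6) (m := 12) (by decide) this
    omega
  have s3 := (hb 3 (by decide)).resolve_left (oc_cauchy Nat.prime_three d3)
  have s6 : oc G 6 = 0 := by
    have d2 : 2 ∣ Nat.card G := oc_card (by omega)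
    have := oc_frob (G := G) 6 (by omega); simp [Nat.divisors_ofNat] at this
    have := hb 6 (by decide); omega
  have := oc_zero_of (d := 6) (m := 12) (by decide) s6
  exact a4_of (by omega) s3

theorem tot0 (m t : ℕ) (e : m.totient = t) : t ∣ oc G m := e ▸ oc_tot m

theorem a5_of (hc : Nat.card G = 60) (h3 : oc G 3 = 20) (h5 : oc G 5 = 24) (h10 : oc G 10 = 0) :
    Nonempty (G ≃* alternatingGroup (Fin 5)) := by
  have : Nontrivial G := Finite.one_lt_card_iff_nontrivial.1 (by omega)
  have : IsSimpleGroup G := ⟨fun N hN => by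
    have i := N.card_mul_index
    rw [hc] at i
    have d : N.index ∣ 60 := Dvd.intro_left _ i
    have le := le5 N
    have c3 := nml N Nat.prime_three
    have c5 := nml N Nat.prime_five
    have c2 := dvd_oc_nml N Nat.prime_two Nat.prime_five (by decide) h10 (by omega)
    have c2' := oc_cauchy (G := N) Nat.prime_two
    rw [← index_eq_one, ← card_eq_one]
    have := Nat.le_of_dvd (by decide) d
    interval_cases N.index <;> omega⟩
  exact S0494.result hc

theorem a5 (hv : ∀ m, oc G m = 0 ∨ oc G m = 1 ∨ oc G m = 15 ∨ oc G m = 20 ∨ oc G m = 24) (h15 : ∃ m, oc G m = 15)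
    (h20 : ∃ m, oc G m = 20) (h24 : ∃ m, oc G m = 24) : Nonempty (G ≃* alternatingGroup (Fin 5)) := by
  have s1 := oc_one (G := G)
  have s2 := two_eq (by decide) (by decide) h15
  have hb : ∀ m, 2 < m → oc G m = 0 ∨ oc G m = 20 ∨ oc G m = 24 := fun m hm => by
    have := Nat.even_iff.1 (oc_even (G := G) hm); have := hv m; omega
  have hp : ∀ p, p.Prime → p ∣ Nat.card G → p = 2 ∨ p = 3 ∨ p = 5 := fun p hp d => by
    by_contra e
    have := hp.two_le
    have a := oc_prime hp d
    have b := tot0 (G := G) p _ (Nat.totient_prime hp)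
    obtain c | c := (hb p (by omega)).resolve_left (oc_cauchy hp d) <;> rw [c] at a b <;>
      have := Nat.le_of_dvd (by decide) a <;> interval_cases p <;> first | omega | exact absurd hp (by decide)
  have d2 : 2 ∣ Nat.card G := oc_card (by omega)
  have s3 : 3 ∣ Nat.card G → oc G 3 = 20 := fun d => by
    have := oc_prime Nat.prime_three d; have := hb 3 (by decide); omega
  have s5 : 5 ∣ Nat.card G → oc G 5 = 24 := fun d => by
    have := oc_prime Nat.prime_five d; have := hb 5 (by decide); omega
  have s25 : oc G 25 = 0 := by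
    by_contra e
    have d := oc_card e
    have := oc_frob 25 d; simp [Nat.divisors_ofNat] at this
    have := s5 (by omega); have := hb 25 (by decide); have := tot0 (G := G) 25 20 (by decide); omega
  have s27 : oc G 27 = 0 := by
    have := hb 27 (by decide); have := tot0 (G := G) 27 18 (by decide); omega
  have n9 : ¬ 9 ∣ Nat.card G := fun d => by
    have a := oc_frob 9 d; simp [Nat.divisors_ofNat] at a
    have := s3 (by omega); have := hb 9 (by decide)
    have := cyc_le (G := G) (k := 1) Nat.prime_three (fun d => by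
      have := oc_frob 27 d; simp [Nat.divisors_ofNat] at this; omega) (by change oc G 9 ≠ 0; omega)
    change _ ≤ oc G 9 at this
    omega
  have lo : 60 ≤ Nat.card G := by
    obtain ⟨m, e⟩ := h20
    obtain ⟨n, e'⟩ := h24
    have := oc_le (G := G) {1, 2, m, n}
    rw [Finset.sum_insert, Finset.sum_insert, Finset.sum_pair] at this
    · omega
    · rintro rfl; omega
    · simp; constructor <;> (rintro rfl; omega)
    · simp; constructor <;> (rintro rfl; omega)
  by_cases d3 : 3 ∣ Nat.card G
  · obtain ⟨n, e, -, hn⟩ := prime_syl Nat.prime_three d3 n9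
    have := s3 d3
    obtain rfl : n = 10 := by omega
    have s6 : oc G 6 = 0 := by
      have := oc_frob (G := G) 6 (by omega); simp [Nat.divisors_ofNat] at this
      have := hn 6 (by decide); have := hb 6 (by decide); omega
    have s15 : oc G 15 = 0 := by
      have := hn 15 (by decide); have := hb 15 (by decide); have := tot0 (G := G) 15 8 (by decide); omega
    have c := card_dvd_oc Nat.prime_three n9 fun q hq ne => by
      by_cases d : q ∣ Nat.card G
      · obtain rfl | rfl | rfl := hp q hq d
        exacts [s6, absurd rfl ne, s15]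
      · exact oc_zero_of (Dvd.intro_left _ rfl) (oc_nd d)
    rw [this] at c
    have hc : Nat.card G = 60 := le_antisymm (Nat.le_of_dvd (by decide) c) lo
    have := s5 (by omega)
    have le := oc_le (G := G) {1, 2, 3, 5, 10}
    simp at le
    exact a5_of hc (s3 d3) this (by omega)
  exfalso
  have s32 : oc G 32 = 0 := by
    have := hb 32 (by decide); have := tot0 (G := G) 32 16 (by decide); omega
  have ex := exp_235 (a := 4) (b := 0) (c := 1) hp s32 (oc_nd d3) s25
  have t := oc_exp 80 (by decide) ex
  simp [Nat.divisors_ofNat] at t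
  have := hb 4 (by decide); have := hb 8 (by decide); have := hb 10 (by decide); have := hb 16 (by decide)
  have := hb 20 (by decide); have := hb 40 (by decide); have := hb 80 (by decide)
  have := tot0 (G := G) 16 8 (by decide); have := tot0 (G := G) 20 8 (by decide)
  have := tot0 (G := G) 40 16 (by decide); have := tot0 (G := G) 80 32 (by decide)
  have s40 : oc G 40 = 0 := by omega
  have s80 : oc G 80 = 0 := by omega
  by_cases d5 : 5 ∣ Nat.card G
  · have := s5 d5
    by_cases d25 : 25 ∣ Nat.card G
    · have c : Nat.card G = 100 := by omega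
      have := oc_nd (G := G) (m := 8) (by omega)
      have := oc_nd (G := G) (m := 16) (by omega)
      omega
    · obtain ⟨n, e, hn, -⟩ := prime_syl Nat.prime_five d5 d25
      obtain rfl : n = 6 := by omega
      omega
  · have s5 := oc_nd d5
    have := oc_zero_of (m := 10) (by decide) s5
    have := oc_zero_of (m := 20) (by decide) s5
    have : ¬ 7 ∣ Nat.card G := fun d => by simpa using hp 7 (by decide) d
    obtain ⟨m, e⟩ := h20
    have : m ∈ Nat.divisors 80 := Nat.mem_divisors.2 ⟨ex m (by omega), by decide⟩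
    simp [Nat.divisors_ofNat] at this
    obtain rfl | rfl | rfl | rfl | rfl | rfl | rfl | rfl | rfl | rfl := this <;> omega

theorem a6_of (hc : Nat.card G = 360) (h2 : oc G 2 = 45) (h3 : oc G 3 = 80) (h5 : oc G 5 = 144) (h10 : oc G 10 = 0)
    (h15 : oc G 15 = 0) : Nonempty (G ≃* alternatingGroup (Fin 6)) := by
  have : Nontrivial G := Finite.one_lt_card_iff_nontrivial.1 (by omega)
  have : IsSimpleGroup G := ⟨fun N hN => by
    have i := N.card_mul_index
    rw [hc] at i
    have d : N.index ∈ Nat.divisors 360 := Nat.mem_divisors.2 ⟨Dvd.intro_left _ i, by decide⟩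
    have le := le5 N
    have c1 := nml N Nat.prime_two
    have c3 := nml N Nat.prime_three
    have c5 := nml N Nat.prime_five
    have c2 := dvd_oc_nml N Nat.prime_two Nat.prime_five (by decide) h10 (by omega)
    have c4 := dvd_oc_nml N Nat.prime_three Nat.prime_five (by decide) h15 (by omega)
    have c2' := oc_cauchy (G := N) Nat.prime_two
    have c3' := oc_prime (G := N) Nat.prime_three
    have ev := Nat.even_iff.1 (oc_even (G := N) (k := 3) (by decide))
    rw [← index_eq_one, ← card_eq_one]
    simp only [Nat.divisors_ofNat, Finset.mem_insert, Finset.mem_singleton] at d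
    generalize N.index = j at *
    obtain rfl | rfl | rfl | rfl | rfl | rfl | rfl | rfl | rfl | rfl | rfl | rfl | rfl | rfl | rfl | rfl | rfl | rfl |
      rfl | rfl | rfl | rfl | rfl | rfl := d <;> omega⟩
  exact S0497.result hc

theorem a6 (hv : ∀ m, oc G m = 0 ∨ oc G m = 1 ∨ oc G m = 45 ∨ oc G m = 80 ∨ oc G m = 90 ∨ oc G m = 144)
    (h45 : ∃ m, oc G m = 45) (h80 : ∃ m, oc G m = 80) (h90 : ∃ m, oc G m = 90) (h144 : ∃ m, oc G m = 144) :
    Nonempty (G ≃* alternatingGroup (Fin 6)) := by
  have s1 := oc_one (G := G)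
  have s2 := two_eq (by decide) (by decide) h45
  have hb : ∀ m, 2 < m → oc G m = 0 ∨ oc G m = 80 ∨ oc G m = 90 ∨ oc G m = 144 := fun m hm => by
    have := Nat.even_iff.1 (oc_even (G := G) hm); have := hv m; omega
  have d2 : 2 ∣ Nat.card G := oc_card (by omega)
  have n7 : ¬ 7 ∣ Nat.card G := fun d => by
    have s7 : oc G 7 = 90 := by have := oc_prime (by decide) d; have := hb 7 (by decide); omega
    obtain ⟨n, e, -, hn⟩ := prime_syl (p := 7) (by decide) d fun d => by
      have := oc_frob 49 d; simp [Nat.divisors_ofNat] at this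
      have := hb 49 (by decide); have := tot0 (G := G) 49 42 (by decide); omega
    obtain rfl : n = 15 := by omega
    have := oc_frob (G := G) 14 (by omega); simp [Nat.divisors_ofNat] at this
    have := hn 14 (by decide); have := hb 14 (by decide); omega
  have hp : ∀ p, p.Prime → p ∣ Nat.card G → p = 2 ∨ p = 3 ∨ p = 5 := fun p hp d => by
    by_contra e
    have := hp.two_le
    have a := oc_prime hp d
    have b := tot0 (G := G) p _ (Nat.totient_prime hp)
    have p7 : p ≠ 7 := by rintro rfl; exact n7 d
    obtain c | c | c := (hb p (by omega)).resolve_left (oc_cauchy hp d) <;> rw [c] at a b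
    · have := (Nat.prime_dvd_prime_iff_eq hp Nat.prime_three).1 (hp.dvd_of_dvd_pow (show p ∣ 3 ^ 4 from a))
      omega
    · obtain j | j := hp.dvd_mul.1 (show p ∣ 7 * 13 from a) <;>
        obtain rfl := (Nat.prime_dvd_prime_iff_eq hp (by decide)).1 j <;> omega
    · obtain j | j := hp.dvd_mul.1 (show p ∣ 5 * 29 from a) <;>
        obtain rfl := (Nat.prime_dvd_prime_iff_eq hp (by decide)).1 j <;> omega
  have s3 : 3 ∣ Nat.card G → oc G 3 = 80 := fun d => by
    have := oc_prime Nat.prime_three d; have := hb 3 (by decide); omega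
  have s5 : 5 ∣ Nat.card G → oc G 5 = 144 := fun d => by
    have := oc_prime Nat.prime_five d; have := hb 5 (by decide); omega
  have s4 : 4 ∣ Nat.card G → oc G 4 = 90 := fun d => by
    have := oc_frob 4 d; simp [Nat.divisors_ofNat] at this
    have := hb 4 (by decide); omega
  have n16 : ¬ 16 ∣ Nat.card G := fun d => by
    have := oc_frob 16 d; simp [Nat.divisors_ofNat] at this
    have := s4 (by omega); have := hb 8 (by decide); have := hb 16 (by decide)
    have := tot0 (G := G) 8 4 (by decide); have := tot0 (G := G) 16 8 (by decide); omega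
  have s8 : oc G 8 = 0 := by
    by_contra e
    have := cyc_le (G := G) (k := 2) Nat.prime_two n16 e
    change _ ≤ oc G 8 at this
    have := hb 8 (by decide); omega
  have n25 : ¬ 25 ∣ Nat.card G := fun d => by
    have a := oc_frob 25 d; simp [Nat.divisors_ofNat] at a
    have := s5 (by omega); have := hb 25 (by decide)
    have := cyc_le (G := G) (k := 1) Nat.prime_five (fun d => by
      have := oc_frob 125 d; simp [Nat.divisors_ofNat] at this
      have := hb 125 (by decide); have := tot0 (G := G) 125 100 (by decide +kernel)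
      have := tot0 (G := G) 25 20 (by decide); omega) (by change oc G 25 ≠ 0; omega)
    change _ ≤ oc G 25 at this
    omega
  have s9 : oc G 9 = 0 := by
    by_contra e
    have d := oc_card e
    have := s3 (by omega); have := hb 9 (by decide)
    have := cyc_le (G := G) (k := 1) Nat.prime_three (fun d => by
      have := oc_frob 27 d; simp [Nat.divisors_ofNat] at this
      have := hb 27 (by decide); have := tot0 (G := G) 27 18 (by decide)
      have := tot0 (G := G) 9 6 (by decide); omega) e
    change _ ≤ oc G 9 at this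
    omega
  have lo : 360 ≤ Nat.card G := by
    obtain ⟨m, e⟩ := h80
    obtain ⟨n, e'⟩ := h90
    obtain ⟨k, e''⟩ := h144
    have := oc_le (G := G) {1, 2, m, n, k}
    rw [Finset.sum_insert, Finset.sum_insert, Finset.sum_insert, Finset.sum_pair] at this
    · omega
    · rintro rfl; omega
    · simp; constructor <;> (rintro rfl; omega)
    · simp; refine ⟨?_, ?_, ?_⟩ <;> (rintro rfl; omega)
    · simp; refine ⟨?_, ?_, ?_⟩ <;> (rintro rfl; omega)
  by_cases d5 : 5 ∣ Nat.card G
  · obtain ⟨n, e, dn, hn⟩ := prime_syl Nat.prime_five d5 n25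
    have := s5 d5
    obtain rfl : n = 36 := by omega
    have := s3 (by omega)
    have s10 : oc G 10 = 0 := by
      have := oc_frob (G := G) 10 (by omega); simp [Nat.divisors_ofNat] at this
      have := hn 10 (by decide); have := hb 10 (by decide); omega
    have s15 : oc G 15 = 0 := by
      have := oc_frob (G := G) 15 (by omega); simp [Nat.divisors_ofNat] at this
      have := hn 15 (by decide); have := hb 15 (by decide); omega
    have c := card_dvd_oc Nat.prime_five n25 fun q hq ne => by
      by_cases d : q ∣ Nat.card G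
      · obtain rfl | rfl | rfl := hp q hq d
        exacts [s10, s15, absurd rfl ne]
      · exact oc_zero_of (Dvd.intro_left _ rfl) (oc_nd d)
    rw [s5 d5] at c
    obtain ⟨j, hj⟩ := c
    have hc : Nat.card G = 360 := by
      have : j ≤ 2 := by nlinarith
      interval_cases j <;> omega
    exact a6_of hc s2 this (s5 d5) s10 s15
  exfalso
  have s5 := oc_nd d5
  have t := oc_exp 12 (by decide) (exp_235 (a := 2) (b := 1) (c := 0) hp s8 s9 s5)
  simp [Nat.divisors_ofNat] at t
  have c : Nat.card G ∣ 648 := dvd_235 (a := 3) (b := 4) (c := 0) hp n16 (fun d => by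
    have := oc_frob 243 d; simp [Nat.divisors_ofNat] at this
    have := s3 (by omega)
    have := oc_zero_of (m := 27) (by decide) s9; have := oc_zero_of (m := 81) (by decide) s9
    have := oc_zero_of (m := 243) (by decide) s9; omega) d5
  obtain ⟨j, hj⟩ := c
  have : j ≤ 1 := by nlinarith
  have := hb 3 (by decide); have := hb 4 (by decide); have := hb 6 (by decide); have := hb 12 (by decide)
  have := s3; have := s4
  interval_cases j <;> omega

theorem cnt (n k c : ℕ) (hk : k ≠ 0) (h : (Finset.univ.filter fun g : Perm (Fin n) => sign g = 1 ∧ g ^ k = 1).card = c) :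
    ∑ d ∈ k.divisors, oc (alternatingGroup (Fin n)) d = c := by
  rw [← oc_sum hk, ← h, ← Fintype.card_subtype, ← Nat.card_eq_fintype_card]
  exact Nat.card_congr ⟨fun a => ⟨a.1.1, a.1.2, congrArg Subtype.val a.2⟩, fun a => ⟨⟨a.1, a.2.1⟩, Subtype.ext a.2.2⟩,
    fun _ => rfl, fun _ => rfl⟩

theorem rest (h : 1 + oc G 2 + oc G 3 + oc G 4 + oc G 5 = Nat.card G) (m : ℕ) :
    m = 1 ∨ m = 2 ∨ m = 3 ∨ m = 4 ∨ m = 5 ∨ oc G m = 0 := by
  by_contra e
  have := oc_le (G := G) {m, 1, 2, 3, 4, 5}
  rw [Finset.sum_insert (by simp; omega)] at this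
  simp [oc_one] at this; omega

set_option maxRecDepth 100000 in
theorem c4 : oc (alternatingGroup (Fin 4)) 2 = 3 ∧ oc (alternatingGroup (Fin 4)) 3 = 8 := by
  have a := cnt 4 2 4 (by decide) (by decide +kernel)
  have b := cnt 4 3 9 (by decide) (by decide +kernel)
  simp [Nat.divisors_ofNat, oc_one] at a b; omega

set_option maxRecDepth 100000 in
theorem c5 : oc (alternatingGroup (Fin 5)) 2 = 15 ∧ oc (alternatingGroup (Fin 5)) 3 = 20 ∧
    oc (alternatingGroup (Fin 5)) 5 = 24 := by
  have a := cnt 5 2 16 (by decide) (by decide +kernel)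
  have b := cnt 5 3 21 (by decide) (by decide +kernel)
  have c := cnt 5 5 25 (by decide) (by decide +kernel)
  simp [Nat.divisors_ofNat, oc_one] at a b c; omega

set_option maxRecDepth 100000 in
theorem c6 : oc (alternatingGroup (Fin 6)) 2 = 45 ∧ oc (alternatingGroup (Fin 6)) 3 = 80 ∧
    oc (alternatingGroup (Fin 6)) 4 = 90 ∧ oc (alternatingGroup (Fin 6)) 5 = 144 := by
  have a := cnt 6 2 46 (by decide) (by decide +kernel)
  have b := cnt 6 3 81 (by decide) (by decide +kernel)
  have c := cnt 6 5 145 (by decide) (by decide +kernel)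
  have d := cnt 6 4 136 (by decide) (by decide +kernel)
  simp [Nat.divisors_ofNat, oc_one] at a b c d; omega

theorem tr {A : Type*} [Group A] [Finite A]
    (h : ((fun m : ℕ => Nat.card {g : G // orderOf g = m}) '' Set.range (orderOf : G → ℕ)) =
      ((fun m : ℕ => Nat.card {g : A // orderOf g = m}) '' Set.range (orderOf : A → ℕ))) :
    (∀ m, oc G m = 0 ∨ ∃ k, oc A k = oc G m) ∧ ∀ k v, v ≠ 0 → oc A k = v → ∃ m, oc G m = v :=
  ⟨fun m => or_iff_not_imp_left.2 fun e => (mem_nse.1 (h.le (mem_nse.2 ⟨e, m, rfl⟩))).2,
    fun k _ e e' => (mem_nse.1 (h.ge (mem_nse.2 ⟨e, k, e'⟩))).2⟩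

/-- Let n be 4, 5 or 6 and let G be a finite group whose set of sizes of same-order classes (the set of numbers #{g : o(g) = m} over the element orders m of G) equals that of the alternating group of degree n. Then G is isomorphic to that alternating group. -/
theorem result {G : Type*} [Group G] [Finite G] (n : ℕ) (hn : n = 4 ∨ n = 5 ∨ n = 6)
    (h : ((fun m : ℕ => Nat.card {g : G // orderOf g = m}) '' Set.range (orderOf : G → ℕ)) = ((fun m : ℕ => Nat.card {g : ↥(alternatingGroup (Fin n)) // orderOf g = m}) '' Set.range (orderOf : ↥(alternatingGroup (Fin n)) → ℕ))) :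
    Nonempty (G ≃* ↥(alternatingGroup (Fin n))) := by
  obtain ⟨a, b⟩ := tr h
  have s1 := oc_one (G := alternatingGroup (Fin n))
  have le := le5 (alternatingGroup (Fin n))
  have r := rest (G := alternatingGroup (Fin n))
  obtain rfl | rfl | rfl := hn <;> rw [nat_card_alternatingGroup] at le r <;>
    simp only [Nat.card_eq_fintype_card, Fintype.card_fin, Nat.factorial] at le r
  · obtain ⟨e2, e3⟩ := c4
    refine a4 (fun m => ?_) (b 2 _ (by decide) e2) (b 3 _ (by decide) e3)
    obtain e | ⟨k, e⟩ := a m
    · omega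
    · obtain rfl | rfl | rfl | rfl | rfl | j := r (by omega) k <;> omega
  · obtain ⟨e2, e3, e5⟩ := c5
    refine a5 (fun m => ?_) (b 2 _ (by decide) e2) (b 3 _ (by decide) e3) (b 5 _ (by decide) e5)
    obtain e | ⟨k, e⟩ := a m
    · omega
    · obtain rfl | rfl | rfl | rfl | rfl | j := r (by omega) k <;> omega
  · obtain ⟨e2, e3, e4, e5⟩ := c6
    refine a6 (fun m => ?_) (b 2 _ (by decide) e2) (b 3 _ (by decide) e3) (b 4 _ (by decide) e4) (b 5 _ (by decide) e5)
    obtain e | ⟨k, e⟩ := a m
    · omega
    · obtain rfl | rfl | rfl | rfl | rfl | j := r (by omega) k <;> omega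

end Cfsg.Agent.S3431
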