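import Cfsg.Statements.S3433
import Cfsg.Agent.H13.Hig3

set_option autoImplicit false
open Cfsg

namespace Cfsg.Agent.S3433

/-- A finite group whose set of element orders is exactly {1, 2, 3, 4, 5} is isomorphic to the alternating group of degree 6, or has a normal elementary abelian 2-subgroup with quotient isomorphic to the alternating group of degree 5. -/
theorem result {G : Type*} [Group G] [Finite G] (h : Set.range (orderOf : G → ℕ) = {k : ℕ | 1 ≤ k ∧ k ≤ 5}) :
    Nonempty (G ≃* ↥(alternatingGroup (Fin 6))) ∨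
      ∃ (N : Subgroup G) (_ : N.Normal), Cfsg.IsElementaryAbelian 2 N ∧ Nonempty (G ⧸ N ≃* ↥(alternatingGroup (Fin 5))) := by
  have k : ∀ n, H13.Sp G n ↔ 1 ≤ n ∧ n ≤ 5 := fun n => Set.ext_iff.1 h n
  obtain e | ⟨K, _, _, hK, π, s, k, θ, -, rg, -⟩ := H13.spec_five (fun n e => ((k n).1 e).2) ((k 2).2 (by omega))
    ((k 3).2 (by omega)) ((k 5).2 (by omega))
  · exact Or.inl e
  have h2 := H13.two_eq_zero_of_card (n := 2) hK
  haveI := H13.psl_simple (F := K) hK.ge
  obtain ⟨e⟩ := H10.equiv_A5_of_simple (H13.card_psl 60 hK rfl)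
  obtain ⟨f, sf, hf⟩ := H13.exists_sl_of_psl h2 (QuotientGroup.quotientBot (G := Matrix.ProjectiveSpecialLinearGroup (Fin 2) K))
  exact Or.inr ⟨π.ker, inferInstance, rg ▸ H13.elem_of_higman h2 θ, ⟨(QuotientGroup.quotientKerEquivOfSurjective π s).trans
    ((MulEquiv.ofBijective f ⟨(MonoidHom.ker_eq_bot_iff f).1 hf, sf⟩).symm.trans e)⟩⟩

end Cfsg.Agent.S3433
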