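import Cfsg.Statements.S3699
import Cfsg.Agent.H13.CitJ

set_option autoImplicit false
open Cfsg

namespace Cfsg.Agent.S3699

/-- Let `q = 2^(2m+1) ≥ 8` and `S = Sz(q)` the Suzuki group. If a finite group `G` has the same prime graph as `S` (same prime divisors of the order; for distinct primes `r, s` an element of order `rs` in one iff in the other), then `G/O₂(G)` is isomorphic to `S`. The known proof uses the classification of finite simple groups. -/
theorem result {F : Type*} [Field F] [Fintype F] (m : ℕ) (hm : 1 ≤ m)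
    (hF : Fintype.card F = 2 ^ (2 * m + 1)) {G : Type*} [Group G] [Finite G]
    (h : ((∀ r : ℕ, r.Prime → (r ∣ Nat.card ↥(Cfsg.Lie.Sz F (2 ^ (m + 1))) ↔ r ∣ Nat.card G)) ∧
      (∀ r s : ℕ, r.Prime → s.Prime → r ≠ s → ((∃ x : ↥(Cfsg.Lie.Sz F (2 ^ (m + 1))), orderOf x = r * s) ↔ (∃ y : G, orderOf y = r * s))))) :
    Nonempty (G ⧸ Cfsg.pCore 2 G ≃* ↥(Cfsg.Lie.Sz F (2 ^ (m + 1)))) := by
  have sp := fun n => H13.sp_sz (n := n) hm hF
  have l : 2 ^ (m + 1) < 2 ^ (2 * m + 1) := Nat.pow_lt_pow_right one_lt_two (by omega)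
  have e1 : Even (2 ^ (m + 1)) := (Nat.even_pow' (by omega)).2 even_two
  have e2 : Even (2 ^ (2 * m + 1)) := (Nat.even_pow' (by omega)).2 even_two
  have l0 := Nat.two_pow_pos (m + 1)
  have n2 : ∀ r, r.Prime → r ≠ 2 → ¬ H13.Sp G (2 * r) := fun r hr r2 c => by
    obtain d | d | d | d := (sp _).1 ((h.2 2 r Nat.prime_two hr r2.symm).2 c)
    · exact r2 ((Nat.prime_dvd_prime_iff_eq hr Nat.prime_two).1 (Nat.dvd_of_mul_dvd_mul_left two_pos d))
    all_goals
      have := (dvd_mul_right 2 r).trans d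
      rw [even_iff_two_dvd] at e1 e2
      omega
  have hG := H13.cit_of_graph n2
  have cS := H13.card_sz hm hF
  have cop : ∀ t, t.Prime → t ∣ 2 ^ (2 * m + 1) - 1 → ¬ t ∣ (2 ^ (2 * m + 1)) ^ 2 + 1 := fun t ht d1 d2 => by
    obtain ⟨a, ha⟩ : ∃ a, 2 ^ (2 * m + 1) = a + 1 := ⟨_, (Nat.sub_add_cancel Nat.one_le_two_pow).symm⟩
    rw [ha] at d1 d2 e2
    rw [show (a + 1) ^ 2 + 1 = a * (a + 2) + 2 by ring, Nat.dvd_add_right (Dvd.dvd.mul_right (b := a) d1 _),
      Nat.prime_dvd_prime_iff_eq ht Nat.prime_two] at d2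
    rw [even_iff_two_dvd] at e2
    subst d2
    omega
  have hs : ¬ H18.Solv (⊤ : Subgroup G) := fun hs => by
    obtain ⟨t, ht, d⟩ := Nat.exists_prime_and_dvd (show 2 ^ (2 * m + 1) - 1 ≠ 1 by omega)
    have t5 : t ≠ 5 := by rintro rfl; exact cop _ ht d (H13.five_dvd m)
    have t2 : t ≠ 2 := by rintro rfl; rw [even_iff_two_dvd] at e2; omega
    have k : ∀ r, r.Prime → r ∣ Nat.card (Lie.Sz F (2 ^ (m + 1))) → r ∣ Nat.card (⊤ : Subgroup G) := fun r hr d =>
      Subgroup.card_top (G := G) ▸ (h.1 r hr).1 d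
    obtain c | c | c := H13.three_primes hs Nat.prime_two ht Nat.prime_five t2.symm (by decide) t5
      (k _ Nat.prime_two ((sp 2).2 (by simp)).dvd_card) (k _ ht (cS ▸ d.mul_left _))
      (k _ Nat.prime_five (cS ▸ ((H13.five_dvd m).mul_left _).mul_right _))
    exacts [n2 t ht t2 c, n2 5 Nat.prime_five (by decide) c, by
      obtain d' | d' | d' | d' := (sp _).1 ((h.2 t 5 ht Nat.prime_five t5).2 c)
      · exact absurd ((dvd_mul_left 5 t).trans d') (by decide)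
      · exact cop 5 Nat.prime_five ((dvd_mul_left 5 t).trans d') (H13.five_dvd m)
      · exact cop t ht d (H13.sz_mul m ▸ ((dvd_mul_right t 5).trans d').mul_right _)
      · exact cop t ht d (H13.sz_mul m ▸ ((dvd_mul_right t 5).trans d').mul_left _)]
  have n3 : ¬ 3 ∣ Nat.card G := fun c => by
    have c := (h.1 3 Nat.prime_three).2 c
    have : 4 ^ m % 3 = 1 := by rw [Nat.pow_mod]; simp
    have e : 2 ^ (2 * m + 1) = 3 * (2 * (4 ^ m / 3)) + 2 := by rw [pow_succ, pow_mul, show 2 ^ 2 = 4 from rfl]; omega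
    rw [cS, e] at c
    generalize 2 * (4 ^ m / 3) = a at c
    rw [show (3 * a + 2) ^ 2 * ((3 * a + 2) ^ 2 + 1) * (3 * a + 2 - 1) =
      3 * (81 * a ^ 5 + 243 * a ^ 4 + 297 * a ^ 3 + 183 * a ^ 2 + 56 * a + 6) + 2 by
        rw [show 3 * a + 2 - 1 = 3 * a + 1 from rfl]; ring] at c
    omega
  have hQ : H18.PiGrp {2} (pCore 2 G) := H18.pCore_eq (G := G) Nat.prime_two ▸ H18.pcore_pi
  have p3 : ∀ (K : Type) [Field K] [Fintype K], 3 ∣ Nat.card (Matrix.ProjectiveSpecialLinearGroup (Fin 2) K) :=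
    fun K _ _ => by
      refine (Nat.Coprime.coprime_dvd_right (Nat.gcd_dvd_left 2 (Fintype.card K - 1)) (by decide)).dvd_of_dvd_mul_left ?_
      rw [H10.card_PSL2]
      have := Fintype.card_pos (α := K)
      obtain c | c | c : 3 ∣ Fintype.card K ∨ 3 ∣ Fintype.card K - 1 ∨ 3 ∣ Fintype.card K + 1 := by omega
      exacts [(c.mul_right _).mul_right _, (c.mul_left _).mul_right _, c.mul_left _]
  obtain (⟨K, _, _, -, ⟨e⟩⟩ | ⟨K, _, _, k, hk, hK, ⟨e⟩⟩) | ⟨-, ⟨K, _, _, -, -, -, ⟨e⟩⟩ | hf | hf⟩ :=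
    hG.classify' hs (pCore 2 G) (H18.pCore_eq Nat.prime_two)
  · exact (n3 ((Nat.card_congr e.toEquiv ▸ p3 K).trans (Subgroup.card_quotient_dvd_card (pCore 2 G)))).elim
  · have cG := (Nat.card_congr e.toEquiv).trans (H13.card_sz hk hK)
    have key : ∀ a b : ℕ, (∀ t, t.Prime → t ∣ 2 ^ (2 * a + 1) - 1 → t ∣ (2 ^ (2 * b + 1)) ^ 2 *
        ((2 ^ (2 * b + 1)) ^ 2 + 1) * (2 ^ (2 * b + 1) - 1)) → 2 * a + 1 ∣ 2 * b + 1 := fun a b H => by
      refine Nat.Coprime.dvd_of_dvd_mul_right (n := 2 ^ 2) ((Nat.coprime_two_right.2 ⟨a, rfl⟩).pow_right 2)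
        (H13.dvd_of_primes (by omega) fun t ht d => ?_)
      have t2 : ¬ t ∣ 2 := fun c => by
        obtain rfl := (Nat.prime_dvd_prime_iff_eq ht Nat.prime_two).1 c
        have := Nat.two_pow_pos (2 * a)
        rw [pow_succ] at d; omega
      have := H t ht d
      rw [mul_assoc, ht.dvd_mul] at this
      refine (this.resolve_left fun c => t2 (ht.dvd_of_dvd_pow (ht.dvd_of_dvd_pow c))).trans ?_
      rw [pow_mul]
      obtain ⟨a, ha⟩ : ∃ a, 2 ^ (2 * b + 1) = a + 1 := ⟨_, (Nat.sub_add_cancel Nat.one_le_two_pow).symm⟩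
      exact ⟨a + 2, by rw [ha, Nat.sub_eq_of_eq_add]; simp; ring⟩
    have pf := H13.primeFactors_quot _ hQ (by rw [cG, mul_assoc, pow_two, pow_succ' 2, mul_assoc, mul_assoc]; simp)
    have pf' : ∀ t, t.Prime → (t ∣ Nat.card G ↔ t ∣ Nat.card (G ⧸ pCore 2 G)) := fun t ht => by
      simpa [ht, Nat.card_pos.ne'] using Finset.ext_iff.1 pf t
    obtain rfl : m = k := by
      have := Nat.dvd_antisymm (key m k fun t ht d => cG ▸ (pf' t ht).1 ((h.1 t ht).1 (cS ▸ d.mul_left _)))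
        (key k m fun t ht d => cS ▸ (h.1 t ht).2 ((pf' t ht).2 (cG ▸ d.mul_left _)))
      omega
    exact (H13.sz_congr hm hF hK).map e.trans
  · exact (n3 (Nat.card_congr e.toEquiv ▸ p3 K)).elim
  · exact (n3 (by rw [hf.card]; decide)).elim
  · exact (n3 (by rw [hf.card]; decide)).elim

end Cfsg.Agent.S3699
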