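import Cfsg.Statements.S3700
import Cfsg.Agent.H13.CitJ

set_option autoImplicit false
open Cfsg

namespace Cfsg.Agent.S3700

/-- Let `F` be a finite field with `2^m` elements, `m ≥ 4`. If a finite group `G` has the same prime graph as `PSL(2, F)` (same prime divisors of the order; for distinct primes `r, s` an element of order `rs` in one iff in the other), then `G/O₂(G)` is isomorphic to `PSL(2, F)`. The known proof uses the classification of finite simple groups. -/
theorem result {F : Type*} [Field F] [Fintype F] (m : ℕ) (hm : 4 ≤ m)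
    (hF : Fintype.card F = 2 ^ m) {G : Type*} [Group G] [Finite G]
    (h : ((∀ r : ℕ, r.Prime → (r ∣ Nat.card (Matrix.ProjectiveSpecialLinearGroup (Fin 2) F) ↔ r ∣ Nat.card G)) ∧
      (∀ r s : ℕ, r.Prime → s.Prime → r ≠ s → ((∃ x : (Matrix.ProjectiveSpecialLinearGroup (Fin 2) F), orderOf x = r * s) ↔ (∃ y : G, orderOf y = r * s))))) :
    Nonempty (G ⧸ Cfsg.pCore 2 G ≃* Matrix.ProjectiveSpecialLinearGroup (Fin 2) F) := by
  have sp := fun n => H13.sp_psl_even (n := n) (show 2 ≤ m by omega) hF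
  have l : 2 ^ 4 ≤ 2 ^ m := Nat.pow_le_pow_right two_pos hm
  have e2 : 2 ∣ 2 ^ m := dvd_pow_self 2 (by omega)
  have n2 : ∀ r, r.Prime → r ≠ 2 → ¬ H13.Sp G (2 * r) := fun r hr r2 c => by
    obtain d | d | d := (sp _).1 ((h.2 2 r Nat.prime_two hr r2.symm).2 c)
    · have := Nat.le_of_dvd two_pos d
      have := hr.two_le
      omega
    all_goals
      have := (dvd_mul_right 2 r).trans d
      omega
  have hG := H13.cit_of_graph n2
  have pr : ∀ t, t.Prime → (H13.Sp G t ↔ t ∣ 2 ∨ t ∣ 2 ^ m + 1 ∨ t ∣ 2 ^ m - 1) := fun t ht =>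
    ((H13.sp_prime ht).trans (h.1 t ht).symm).trans ((H13.sp_prime ht).symm.trans (sp t))
  have cop : ∀ t, t.Prime → t ∣ 2 ^ m + 1 → ¬ t ∣ 2 ^ m - 1 := fun t ht d1 d2 => by
    have := Nat.dvd_sub d1 d2
    rw [show 2 ^ m + 1 - (2 ^ m - 1) = 2 by omega, Nat.prime_dvd_prime_iff_eq ht Nat.prime_two] at this
    subst this
    omega
  have hs : ¬ H18.Solv (⊤ : Subgroup G) := fun hs => by
    obtain ⟨t, ht, d⟩ := Nat.exists_prime_and_dvd (show 2 ^ m - 1 ≠ 1 by omega)
    obtain ⟨s, hs', d'⟩ := Nat.exists_prime_and_dvd (show 2 ^ m + 1 ≠ 1 by omega)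
    have ts : t ≠ s := by rintro rfl; exact cop _ ht d' d
    have t2 : t ≠ 2 := by rintro rfl; omega
    have s2 : s ≠ 2 := by rintro rfl; omega
    have k : ∀ r, H13.Sp G r → r ∣ Nat.card (⊤ : Subgroup G) := fun r d => Subgroup.card_top (G := G) ▸ d.dvd_card
    obtain c | c | c := H13.three_primes hs Nat.prime_two ht hs' t2.symm s2.symm ts
      (k _ ((pr _ Nat.prime_two).2 (by simp))) (k _ ((pr _ ht).2 (by simp [d]))) (k _ ((pr _ hs').2 (by simp [d'])))
    exacts [n2 t ht t2 c, n2 s hs' s2 c, by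
      obtain c | c | c := (sp _).1 ((h.2 t s ht hs' ts).2 c)
      · exact t2 ((Nat.prime_dvd_prime_iff_eq ht Nat.prime_two).1 ((dvd_mul_right t s).trans c))
      · exact cop t ht ((dvd_mul_right t s).trans c) d
      · exact cop s hs' d' ((dvd_mul_left s t).trans c)]
  have small : ∀ n, Nat.card G = n → 5 ∣ n → ¬ n ∣ 20160 := fun n e h5 hd => by
    subst e
    have ev : 2 ∣ m := by
      obtain ⟨j, rfl | rfl⟩ := Nat.even_or_odd' m
      · simp
      have : 4 ^ j % 5 = 1 ∨ 4 ^ j % 5 = 4 := by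
        obtain ⟨i, rfl | rfl⟩ := Nat.even_or_odd' j <;> simp [pow_succ, pow_mul, Nat.mul_mod, Nat.pow_mod]
      have := (pr 5 Nat.prime_five).1 ((H13.sp_prime Nat.prime_five).2 h5)
      rw [pow_succ, pow_mul, show 2 ^ 2 = 4 from rfl] at this
      omega
    obtain ⟨j, rfl⟩ := ev
    have a3 : 4 ^ j % 3 = 1 := by simp [Nat.pow_mod]
    have a7 : 4 ^ j % 7 = 1 ∨ 4 ^ j % 7 = 2 ∨ 4 ^ j % 7 = 4 := by
      clear * -
      induction j with
      | zero => simp
      | succ j ih => rw [pow_succ]; omega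
    have k : ∀ t, t.Prime → t ∣ 2 ^ (2 * j) + 1 → t = 5 := fun t ht d => by
      have d' := ((pr t ht).2 (by simp [d])).dvd_card.trans hd
      rw [pow_mul, show 2 ^ 2 = 4 from rfl] at d e2
      have : t ∈ (20160 : ℕ).primeFactorsList := (Nat.mem_primeFactorsList (by decide)).2 ⟨ht, d'⟩
      simp only [Nat.primeFactorsList_ofNat, List.mem_cons, List.not_mem_nil, or_false, ← or_assoc, or_self] at this
      obtain ((rfl | rfl) | rfl) | rfl := this <;> omega
    obtain ⟨t, ht, d⟩ := Nat.exists_prime_and_dvd (show 2 ^ (2 * j) + 1 ≠ 1 by omega)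
    obtain rfl := k t ht d
    have := H13.pp_arith (H13.isPrimePow_of_primes ht (by omega) k) ht d (show 2 ≤ 2 * j by omega) (Or.inl rfl)
    omega
  have hQ : H18.PiGrp {2} (pCore 2 G) := H18.pCore_eq (G := G) Nat.prime_two ▸ H18.pcore_pi
  obtain (⟨K, _, _, ⟨k, hk, hK⟩, ⟨e⟩⟩ | ⟨K, _, _, k, hk, hK, ⟨e⟩⟩) | ⟨-, ⟨K, _, _, h7, h9 | hp, ⟨k, hk⟩, ⟨e⟩⟩ | hf | hf⟩ :=
    hG.classify' hs (pCore 2 G) (H18.pCore_eq Nat.prime_two)
  · have sp' := fun n ho => ((H13.sp_quot _ hQ ho).trans (H13.sp_congr e)).trans (H13.sp_psl_even (n := n) hk hK)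
    have fac : ∀ a : ℕ, 2 ^ (a * 2) - 1 = (2 ^ a + 1) * (2 ^ a - 1) := fun a => by rw [pow_mul, ← Nat.sq_sub_sq, one_pow]
    have key : ∀ a b : ℕ, 0 < a → (∀ t, t.Prime → Odd t → t ∣ 2 ∨ t ∣ 2 ^ a + 1 ∨ t ∣ 2 ^ a - 1 →
        t ∣ 2 ∨ t ∣ 2 ^ b + 1 ∨ t ∣ 2 ^ b - 1) → a * 2 ∣ b * 2 := fun a b ha H =>
      H13.dvd_of_primes (by omega) fun t ht d => by
        have t2 : t ≠ 2 := by
          rintro rfl
          have := Nat.two_pow_pos (a * 2)
          have := dvd_pow_self 2 (show a * 2 ≠ 0 by omega)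
          omega
        rw [fac, ht.dvd_mul] at d ⊢
        exact (H t ht (ht.odd_of_ne_two t2) (Or.inr d)).resolve_left
          (mt (Nat.prime_dvd_prime_iff_eq ht Nat.prime_two).1 t2)
    obtain rfl : m = k := by
      have := Nat.dvd_antisymm (key m k (by omega) fun t ht ho d => (sp' t ho).1 ((pr t ht).2 d))
        (key k m (by omega) fun t ht ho d => (pr t ht).1 ((sp' t ho).2 d))
      omega
    exact (H13.psl_congr (hK.trans hF.symm)).map e.trans
  · have c := ((H13.sp_quot _ hQ (by decide)).trans ((H13.sp_congr e).trans (H13.sp_sz hk hK))).1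
      ((pr 3 Nat.prime_three).2 (Or.inr (H13.three_dvd m)))
    have a : 4 ^ k % 3 = 1 := by simp [Nat.pow_mod]
    have b := H13.sz_mul k
    have b' : ¬ 3 ∣ (2 ^ (2 * k + 1)) ^ 2 + 1 := by
      rw [← pow_mul, mul_comm, pow_mul, show 2 ^ 2 = 4 from rfl, Nat.dvd_iff_mod_eq_zero, Nat.add_mod, Nat.pow_mod]
      simp
    obtain c | c | c | c := c
    · omega
    · rw [pow_succ, pow_mul, show 2 ^ 2 = 4 from rfl] at c; omega
    exacts [(b' (b ▸ c.mul_right _)).elim, (b' (b ▸ c.mul_left _)).elim]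
  · exact (small _ ((Nat.card_congr e.toEquiv).trans (H13.card_psl 360 h9 rfl)) (by decide) (by decide)).elim
  · exfalso
    obtain ⟨j, hj, rfl⟩ := H13.fm_two h7 hk
    have := H13.four_le hj
    have sp' := fun n => (H13.sp_congr e).trans
      (H13.sp_psl_odd (n := n) hp dvd_rfl (by omega) (hp.odd_of_ne_two (by omega)))
    generalize Fintype.card K = r at *
    have iso : ∀ a, 1 < a → H13.Sp (Matrix.ProjectiveSpecialLinearGroup (Fin 2) F) a → r ∣ a →
        a = 2 ^ m + 1 ∨ a + 1 = 2 ^ m → a = r := fun a a1 ha d e => by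
      refine (H13.pp_arith (H13.isPrimePow_of_primes hp a1 fun t ht d' => ?_) hp d (by omega) e).resolve_left ?_
      · by_contra ne
        obtain c | c | c := (sp' _).1 ((h.2 t r ht hp ne).1 (ha.of_dvd
          (((Nat.coprime_primes ht hp).2 ne).mul_dvd_of_dvd_of_dvd d' d))) <;>
          have := Nat.le_of_dvd (by omega) c <;> have := Nat.mul_le_mul_right r ht.two_le <;> omega
      · rintro rfl
        have := Nat.le_of_dvd (by omega) d
        interval_cases r <;> omega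
    have oth : ∀ t, t.Prime → t ≠ 2 → t ≠ r → t ∣ 2 ^ m + 1 ∨ t ∣ 2 ^ m - 1 →
        t ∣ (r + 1) / 2 ∧ t ∣ 2 ^ j + 1 ∨ t ∣ (r - 1) / 2 ∧ t ∣ 2 ^ j - 1 := fun t ht t2 tr d => by
      have n : ¬ t ∣ 2 ^ j := fun c => t2 ((Nat.prime_dvd_prime_iff_eq ht Nat.prime_two).1 (ht.dvd_of_dvd_pow c))
      rw [pow_succ] at hk
      obtain c | c | c := (sp' t).1 ((pr t ht).2 (Or.inr d))
      · exact absurd ((Nat.prime_dvd_prime_iff_eq ht hp).1 c) tr
      · obtain hk | hk := hk
        exacts [Or.inl ⟨c, by rwa [show 2 ^ j + 1 = (r + 1) / 2 by omega]⟩,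
          absurd (by rwa [show 2 ^ j = (r + 1) / 2 by omega]) n]
      · obtain hk | hk := hk
        exacts [absurd (by rwa [show 2 ^ j = (r - 1) / 2 by omega]) n,
          Or.inr ⟨c, by rwa [show 2 ^ j - 1 = (r - 1) / 2 by omega]⟩]
    have three : ∀ t, t.Prime → t ∣ 3 → t = 3 := fun t ht => (Nat.prime_dvd_prime_iff_eq ht Nat.prime_three).1
    obtain c | c | c := (pr r hp).1 ((sp' r).2 (Or.inl dvd_rfl))
    · have := Nat.le_of_dvd two_pos c; omega
    · obtain rfl := iso _ (by omega) ((sp _).2 (by simp)) c (Or.inl rfl)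
      have k : ∀ t, t.Prime → t ∣ 2 ^ m - 1 → t = 3 := fun t ht d => by
        have t2 : t ≠ 2 := by rintro rfl; omega
        obtain ⟨c, -⟩ | ⟨c, -⟩ := oth t ht t2 (by rintro rfl; exact cop _ ht dvd_rfl d) (Or.inr d)
        · exact three t ht (by convert Nat.dvd_sub (c.mul_left 2) d using 1; omega)
        · exact absurd (Nat.dvd_one.1 (by convert Nat.dvd_sub (c.mul_left 2) d using 1; omega)) ht.ne_one
      obtain ⟨t, ht, d⟩ := Nat.exists_prime_and_dvd (show 2 ^ m - 1 ≠ 1 by omega)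
      obtain rfl := k t ht d
      have := H13.three_minus (by omega) (H13.isPrimePow_of_primes ht (by omega) k) d
      omega
    · obtain rfl := iso _ (by omega) ((sp _).2 (by simp)) c (Or.inr (by omega))
      have k : ∀ t, t.Prime → t ∣ 2 ^ m + 1 → t = 3 := fun t ht d => by
        have t2 : t ≠ 2 := by rintro rfl; omega
        obtain ⟨c, -⟩ | ⟨c, -⟩ := oth t ht t2 (by rintro rfl; exact cop _ ht d dvd_rfl) (Or.inl d)
        · exact absurd (Nat.dvd_one.1 (by convert Nat.dvd_sub d (c.mul_left 2) using 1; omega)) ht.ne_one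
        · exact three t ht (by convert Nat.dvd_sub d (c.mul_left 2) using 1; omega)
      obtain ⟨t, ht, d⟩ := Nat.exists_prime_and_dvd (show 2 ^ m + 1 ≠ 1 by omega)
      obtain rfl := k t ht d
      have := H13.three_plus (by omega) (H13.isPrimePow_of_primes ht (by omega) k) d
      omega
  · exact (small _ hf.card (by decide) (by decide)).elim
  · exact (small _ hf.card (by decide) (by decide)).elim

end Cfsg.Agent.S3700
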