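import Cfsg.Statements.S3704
import Cfsg.Agent.H16.Des

set_option autoImplicit false
open Cfsg

namespace Cfsg.Agent.S3704


/-- Let G be a finite group acting faithfully and 2-transitively on a finite set Ω of size n, and let H be a subgroup of index n in G which is not transitive on Ω and fixes no point of Ω. Then H has exactly two orbits on Ω. -/
theorem result {G Ω : Type*} [Group G] [Finite G] [MulAction G Ω] [FaithfulSMul G Ω] [Finite Ω] (h2 : MulAction.IsMultiplyPretransitive G Ω 2) (H : Subgroup G) (hidx : H.index = Nat.card Ω) (hnt : ¬ MulAction.IsPretransitive H Ω) (hfix : ∀ a : Ω, ∃ h : H, h • a ≠ a) : Nat.card (MulAction.orbitRel.Quotient H Ω) = 2 := by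
  obtain ⟨x, y, hxy⟩ : ∃ x y : Ω, ∀ g : H, g • x ≠ y := by simpa [MulAction.isPretransitive_iff] using hnt
  obtain ⟨I, h, -⟩ := H16.exists_SD h2 H hidx hnt x
  have s : ∀ g : G, g • ((1 : G) : G ⧸ H) = (1 : G) ↔ g ∈ H := fun g => by
    rw [← MulAction.mem_stabilizer_iff, MulAction.stabilizer_quotient]
  refine le_antisymm ((H16.card_orb_eq (Y := G ⧸ H) fun g : H => h.fix g).trans_le
    (H16.card_orb_le_two (· = ((1 : G) : G ⧸ H)) fun a b e => ?_)) (Finite.one_lt_card_iff_nontrivial.2
      ⟨Quotient.mk _ y, Quotient.mk _ x, fun e => (Quotient.exact e).elim hxy⟩)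
  by_cases e' : b = (1 : G)
  · exact ⟨1, by rw [one_smul, e', e.2 e']⟩
  · obtain ⟨g, e1, e2⟩ := H16.exists_smul2 h.twoY e' (e.not.2 e')
    exact ⟨⟨g, (s g).1 e2⟩, e1⟩

end Cfsg.Agent.S3704
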