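import Cfsg.Statements.S3707
import Cfsg.Agent.H5.Jor

set_option autoImplicit false
open Cfsg

namespace Cfsg.Agent.S3707
open H5

/-- Let G be a finite primitive permutation group on Ω of degree n and Γ ⊂ Ω a subset with 1 < #Γ ≤ n/2 such that the pointwise stabilizer of Ω ∖ Γ is transitive on Γ. Then G is 3-transitive on Ω. -/
theorem result {G Ω : Type*} [Group G] [Finite G] [MulAction G Ω] [FaithfulSMul G Ω] [Finite Ω] (hprim : MulAction.IsPreprimitive G Ω) (Γ : Set Ω) (h1 : 1 < Γ.ncard) (h2 : 2 * Γ.ncard ≤ Nat.card Ω) (htr : ∀ x ∈ Γ, ∀ y ∈ Γ, ∃ g : G, (∀ z ∉ Γ, g • z = z) ∧ g • x = y) : MulAction.IsMultiplyPretransitive G Ω 3 := by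
  classical
  letI := Fintype.ofFinite Ω
  rw [Set.ncard_eq_toFinset_card'] at h1 h2
  rw [Nat.card_eq_fintype_card] at h2
  have hF : Fl G Γ.toFinsetᶜ := ⟨by rw [compl_compl]; exact h1, fun x hx y hy => by
    obtain ⟨g, g1, g2⟩ := htr x (by simpa using hx) y (by simpa using hy)
    exact ⟨g, fun z hz => g1 z (by simpa using hz), g2⟩⟩
  have c : Fintype.card Ω ≤ 2 * Γ.toFinsetᶜ.card := by rw [Finset.card_compl]; omega
  exact (mt_three (hF.mt_two hprim (by omega)) hF c).multiply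

end Cfsg.Agent.S3707
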