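import Cfsg.Statements.S3732
import Cfsg.Agent.H16.OW4

set_option autoImplicit false
open Cfsg

namespace Cfsg.Agent.S3732

open Module Projectivization H16 H16.OW

theorem rk2 {F V : Type*} [Field F] [AddCommGroup V] [Module F V] [FiniteDimensional F V] {a b : Projectivization F V}
    (h : a ≠ b) : finrank F ↥(a.submodule ⊔ b.submodule) = 2 := by
  have e := Submodule.finrank_sup_add_finrank_inf_eq a.submodule b.submodule
  rw [finrank_submodule, finrank_submodule] at e
  have : finrank F ↥(a.submodule ⊓ b.submodule) = 0 := by_contra fun e => h (submodule_injective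
    ((Submodule.eq_of_le_of_finrank_le inf_le_left (by rw [finrank_submodule]; omega)).symm.trans
      (Submodule.eq_of_le_of_finrank_le inf_le_right (by rw [finrank_submodule]; omega))))
  omega

theorem ex_out {F V : Type*} [Field F] [AddCommGroup V] [Module F V] [FiniteDimensional F V] {S T : Submodule F V}
    (h : finrank F S < finrank F T) : ∃ a : Projectivization F V, a.submodule ≤ T ∧ ¬ a.submodule ≤ S := by
  obtain ⟨v, h1, h2⟩ := SetLike.not_le_iff_exists.1 fun e : T ≤ S => (Submodule.finrank_mono e).not_gt h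
  exact ⟨.mk F v (by rintro rfl; exact h2 (zero_mem _)), by simpa using h1, by simpa using h2⟩


/-- The Ostrom–Wagner Theorem. Let Π be a finite projective plane (points P, lines L) whose collineation group is 2-transitive on points: for any two ordered pairs of distinct points there is a permutation of the points, together with a compatible permutation of the lines preserving incidence, carrying the first pair to the second. Then Π is Desarguesian: there is a finite field F and a bijection from P onto the points of the projective plane over F (the 1-dimensional subspaces of F³) under which the lines of Π correspond exactly to the 2-dimensional subspaces of F³. -/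
theorem result
    {P L : Type*} [Membership P L] [Fintype P] [Fintype L] [Configuration.ProjectivePlane P L]
    (h2t : ∀ p₁ p₂ q₁ q₂ : P, p₁ ≠ p₂ → q₁ ≠ q₂ →
      ∃ (σ : Equiv.Perm P) (τ : Equiv.Perm L), (∀ (p : P) (l : L), σ p ∈ τ l ↔ p ∈ l) ∧ σ p₁ = q₁ ∧ σ p₂ = q₂) :
    ∃ (F : Type) (_ : Field F) (_ : Fintype F) (φ : P ≃ Projectivization F (Fin 3 → F)),
      (∀ l : L, ∃ W : Submodule F (Fin 3 → F), Module.finrank F W = 2 ∧
          ∀ p : P, p ∈ l ↔ (φ p).submodule ≤ W) ∧
      (∀ W : Submodule F (Fin 3 → F), Module.finrank F W = 2 →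
          ∃ l : L, ∀ p : P, p ∈ l ↔ (φ p).submodule ≤ W) := by
  have h := (of_inst (P := P) (L := L)).col
  have := h.toPl.faith
  obtain ⟨A, hA⟩ := h.on (MulAction.is_two_pretransitive_iff.2 fun {a b c d} h1 h2 => by
    obtain ⟨σ, τ, e, r⟩ := h2t a b c d h1 h2
    exact ⟨⟨(σ, τ), e⟩, r⟩)
  obtain ⟨F, _, _, n, e, n3, hc, -⟩ := hA.main
  have k : ∀ {x y z : P} {l : L}, x ≠ y → x ∈ l → y ∈ l → (z ∈ l ↔ (e z).submodule ≤ (e x).submodule ⊔ (e y).submodule) :=
    fun xy xl yl => (h.col_iff hA xy xl yl).symm.trans (hc _ _ _ xy)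
  have two : ∀ l : L, ∃ x y : P, x ≠ y ∧ x ∈ l ∧ y ∈ l := fun l => by
    obtain ⟨x, hx, -⟩ := h.point l l
    obtain ⟨y, hy, e, -⟩ := h.three l x x
    exact ⟨y, x, e, hy, hx⟩
  obtain rfl : n = 3 := by_contra fun n4 => by
    obtain ⟨l⟩ := h.neY
    obtain ⟨x, y, xy, xl, yl⟩ := two l
    have r2 := rk2 (e.injective.ne xy)
    obtain ⟨z, -, hz⟩ := ex_out (S := (e x).submodule ⊔ (e y).submodule) (T := ⊤) (by simp [r2]; omega)
    obtain ⟨u, -, hu⟩ := ex_out (S := ((e x).submodule ⊔ (e y).submodule) ⊔ z.submodule) (T := ⊤) (by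
      have := Submodule.finrank_add_le_finrank_add_finrank ((e x).submodule ⊔ (e y).submodule) z.submodule
      rw [r2, finrank_submodule] at this
      simp only [finrank_top, finrank_fin_fun]
      omega)
    obtain ⟨z, rfl⟩ := e.surjective z
    obtain ⟨u, rfl⟩ := e.surjective u
    obtain ⟨m, m1, m2⟩ := h.line z u
    obtain ⟨p, p1, p2⟩ := h.point m l
    exact hu (((k (show p ≠ z by rintro rfl; exact hz ((k xy xl yl).1 p2)) p1 m1).1 m2).trans
      (sup_le_sup_right ((k xy xl yl).1 p2) _))
  refine ⟨F, _, inferInstance, e, fun l => ?_, fun W hW => ?_⟩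
  · obtain ⟨x, y, xy, xl, yl⟩ := two l
    exact ⟨_, rk2 (e.injective.ne xy), fun p => k xy xl yl⟩
  · obtain ⟨x, h1, -⟩ := ex_out (S := ⊥) (T := W) (by simp [hW])
    obtain ⟨y, h2, h3⟩ := ex_out (S := x.submodule) (T := W) (by simp [hW, finrank_submodule])
    obtain ⟨x, rfl⟩ := e.surjective x
    obtain ⟨y, rfl⟩ := e.surjective y
    have xy : x ≠ y := by rintro rfl; exact h3 le_rfl
    obtain ⟨l, xl, yl⟩ := h.line x y
    exact ⟨l, fun p => Submodule.eq_of_le_of_finrank_eq (sup_le h1 h2) ((rk2 (e.injective.ne xy)).trans hW.symm) ▸ k xy xl yl⟩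

end Cfsg.Agent.S3732
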