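import Cfsg.Statements.S3733
import Mathlib

set_option autoImplicit false
open Cfsg

namespace Cfsg.Agent.S3733

/-- Let A and V be subgroups of a finite group with V abelian and nontrivial and A normalizing V. Suppose a nonempty finite family of proper subgroups of A partitions A: every non-identity element of A lies in exactly one member. If the number of members minus one is coprime to the order of V, then some member B of the family has a non-identity fixed point on V, that is V ∩ C(B) ≠ 1. -/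
theorem result {G : Type*} [Group G] [Finite G] (A V : Subgroup G) (hVab : IsMulCommutative V) (hV : V ≠ ⊥) (hAV : A ≤ Subgroup.normalizer (V : Set G)) (𝒜 : Finset (Subgroup G)) (hne : 𝒜.Nonempty) (hprop : ∀ B ∈ 𝒜, B < A) (hpart : ∀ a ∈ A, a ≠ 1 → ∃! B, B ∈ 𝒜 ∧ a ∈ B) (hk : (𝒜.card - 1).Coprime (Nat.card V)) : ∃ B ∈ 𝒜, V ⊓ Subgroup.centralizer (B : Set G) ≠ ⊥ := by
  classical
  by_contra! h
  apply hV
  have := Fintype.ofFinite A
  open scoped IsMulCommutative in
  let φ : A →* MulAut V := (V.normalizerMonoidHom).comp (Subgroup.inclusion hAV)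
  have hfix : ∀ B ∈ 𝒜, ∀ w : V, (∀ b : A, b.1 ∈ B → φ b w = w) → w = 1 := by
    intro B hB w hw
    have : (w : G) ∈ V ⊓ Subgroup.centralizer (B : Set G) := ⟨w.2, fun b hb => by
      have := congrArg Subtype.val (hw ⟨b, (hprop B hB).le hb⟩ hb)
      exact mul_inv_eq_iff_eq_mul.mp this⟩
    rw [h B hB] at this
    exact Subtype.ext this
  have hnorm : ∀ (v : V) (S : Finset A) (b : A), (∀ a, b * a ∈ S ↔ a ∈ S) →
      φ b (∏ a ∈ S, φ a v) = ∏ a ∈ S, φ a v := by
    intro v S b hS
    rw [map_prod]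
    exact Finset.prod_equiv (Equiv.mulLeft b) (fun a => (hS a).symm) fun a _ => by simp
  rw [eq_bot_iff]
  intro v hv
  set w : V := ⟨v, hv⟩
  have h1 : ∀ B ∈ 𝒜, ∏ a ∈ Finset.univ.filter (fun a : A => a.1 ∈ B), φ a w = 1 := fun B hB =>
    hfix B hB _ fun b hb => hnorm _ _ b fun a => by simp [B.mul_mem_cancel_left hb]
  obtain ⟨B₀, hB₀⟩ := hne
  have h2 : ∏ a : A, φ a w = 1 := hfix B₀ hB₀ _ fun b _ => hnorm _ _ b fun a => by simp
  have h3 : ∏ B ∈ 𝒜, ∏ a ∈ Finset.univ.filter (fun a : A => a.1 ∈ B), φ a w = 1 := Finset.prod_eq_one h1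
  rw [Finset.prod_comm' (t' := Finset.univ) (s' := fun a : A => 𝒜.filter fun B => a.1 ∈ B) (by simp),
    ← Finset.mul_prod_erase _ _ (Finset.mem_univ 1)] at h3
  rw [← Finset.mul_prod_erase _ _ (Finset.mem_univ 1)] at h2
  have h4 : ∏ a ∈ Finset.univ.erase (1 : A), ∏ B ∈ 𝒜.filter (fun B => a.1 ∈ B), φ a w =
      ∏ a ∈ Finset.univ.erase (1 : A), φ a w := by
    refine Finset.prod_congr rfl fun a ha => ?_
    obtain ⟨B, hB, hu⟩ := hpart a a.2 fun e => (Finset.mem_erase.mp ha).1 (Subtype.ext e)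
    have : 𝒜.filter (fun B => a.1 ∈ B) = {B} := by
      ext C
      simp only [Finset.mem_filter, Finset.mem_singleton]
      exact ⟨hu C, fun e => e ▸ hB⟩
    rw [this, Finset.prod_singleton]
  rw [h4, ← h2, mul_left_inj, Finset.prod_const, Finset.filter_true_of_mem (fun B _ => B.one_mem), map_one,
    MulAut.one_apply, ← Nat.sub_add_cancel (Finset.card_pos.mpr ⟨B₀, hB₀⟩), pow_succ, mul_eq_right] at h3
  have := Nat.eq_one_of_dvd_coprimes hk (orderOf_dvd_of_pow_eq_one h3) (orderOf_dvd_natCard w)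
  exact congrArg Subtype.val (orderOf_eq_one_iff.mp this)

end Cfsg.Agent.S3733
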