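import Cfsg.Statements.S3735
import Cfsg.Agent.H18.Cyc

set_option autoImplicit false
open Cfsg

namespace Cfsg.Agent.S3735

open H18 Subgroup

/-- Clifford's Theorem for actions on finite abelian groups, first part. Let H and V be subgroups of a finite group with V abelian and H normalizing V, and let A be a normal subgroup of H. If every H-invariant subgroup of V has an H-invariant complement in V, then every A-invariant subgroup of V has an A-invariant complement in V. -/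
theorem result {G : Type*} [Group G] [Finite G] (H A V : Subgroup G) (hVab : IsMulCommutative V) (hHV : H ≤ Subgroup.normalizer (V : Set G)) (hAH : A ≤ H) (hAn : H ≤ Subgroup.normalizer (A : Set G)) (hss : ∀ U : Subgroup G, U ≤ V → H ≤ Subgroup.normalizer (U : Set G) → ∃ W : Subgroup G, W ≤ V ∧ H ≤ Subgroup.normalizer (W : Set G) ∧ U ⊓ W = ⊥ ∧ U ⊔ W = V) (U : Subgroup G) (hUV : U ≤ V) (hAU : A ≤ Subgroup.normalizer (U : Set G)) : ∃ W : Subgroup G, W ≤ V ∧ A ≤ Subgroup.normalizer (W : Set G) ∧ U ⊓ W = ⊥ ∧ U ⊔ W = V := by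
  have hV : Abel V := abel_of_comm hVab
  have hAV := hAH.trans hHV
  have hS : V ≤ sSup {M | M ≤ V ∧ MinNorm M A} := by
    obtain ⟨W, w1, w2, w3, w4⟩ := hss (sSup {M | M ≤ V ∧ MinNorm M A}) (sSup_le fun M h => h.1) (by
      intro g hg
      refine mem_N_of_cj_le ?_
      rw [cj_sSup]
      refine sSup_le_sSup ?_
      rintro _ ⟨M, ⟨h1, h2⟩, rfl⟩
      have e := cj_eq_self (hAn hg)
      refine ⟨cj_le_of_mem_N h1 (hHV hg), by simpa using h2.ne_bot, e ▸ cj_norm_iff.2 h2.norm,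
        fun K k1 k2 k3 => ?_⟩
      rw [eq_cj_iff]
      refine h2.min _ (le_cj_iff.1 k1) (by simpa using k2) ?_
      rw [← cj_norm_iff (g := g), e, cj_cj_inv]; exact k3)
    by_cases e : W = ⊥
    · rw [e, sup_bot_eq] at w4; exact w4.ge
    · obtain ⟨M, m1, m2⟩ := exists_minNorm e (hAH.trans w2)
      exact absurd (eq_bot_iff.2 (w3 ▸ le_inf (le_sSup ⟨m1.trans w1, m2⟩) m1)) m2.ne_bot
  obtain ⟨W, -, ⟨w1, w2, w3⟩, w4⟩ := exists_maximal_sub (fun W => W ≤ V ∧ A ≤ N(W) ∧ U ⊓ W = ⊥) (A := ⊥)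
    ⟨bot_le, by simp, inf_bot_eq _⟩
  refine ⟨W, w1, w2, w3, (sup_le hUV w1).antisymm (hS.trans (sSup_le fun M ⟨m1, m2⟩ => ?_))⟩
  refine (m2.le_or_disj (norm_sup hAU w2)).resolve_right fun e => m2.ne_bot ?_
  have := w4 (W ⊔ M) ⟨sup_le w1 m1, norm_sup w2 m2.norm, eq_bot_iff.2 fun u ⟨h1, h2⟩ => ?_⟩ le_sup_left
  · rw [← e, inf_eq_left.2 ((le_sup_right.trans this.le).trans le_sup_right)]
  obtain ⟨a, ha, b, hb, rfl⟩ := (mem_sup_of_cent (cent_mono hV w1 m1)).1 h2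
  have : b ∈ M ⊓ (U ⊔ W) := ⟨hb, (mul_mem_cancel_left (mem_sup_right ha)).1 (mem_sup_left h1)⟩
  rw [e, mem_bot] at this
  subst this
  exact w3 ▸ ⟨h1, by simpa using ha⟩

end Cfsg.Agent.S3735
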