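import Cfsg.Statements.S3738
import Cfsg.Agent.H3.B1

set_option autoImplicit false
open Cfsg

namespace Cfsg.Agent.S3738

/-- Let d be a non-identity 3-element of a finite group and P a 2-subgroup normalized by d on which ⟨d⟩ acts faithfully (no non-identity power of d centralizes P) and without non-identity fixed points (C_P(d) = 1). If every abelian subgroup of P has 2-rank at most 2, then d has order 3. -/
theorem result {X : Type*} [Group X] [Finite X] (d : X) (n : ℕ) (hn : 1 ≤ n) (hd : orderOf d = 3 ^ n) (P : Subgroup X) (hP : IsPGroup 2 P) (hdP : d ∈ Subgroup.normalizer (P : Set X)) (hfaith : Subgroup.zpowers d ⊓ Subgroup.centralizer (P : Set X) = ⊥) (hfpf : P ⊓ Subgroup.centralizer {d} = ⊥) (hrank : ∀ V : Subgroup X, V ≤ P → IsMulCommutative V → Cfsg.PRankLE 2 2 V) : orderOf d = 3 := by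
  open Subgroup H18 H3 in
  have := Fact.mk Nat.prime_three
  let ξ : MulAut P := P.normalizerMonoidHom ⟨d, hdP⟩
  have hξ : ∀ (k : ℕ) (x : P), ((ξ ^ k) x : X) = d ^ k * x * (d ^ k)⁻¹ := fun k x => by
    rw [← map_pow]; rfl
  have hf : ∀ x : P, ξ x = x → x = 1 := fun x hx => Subtype.ext (eq_one_of_eq_bot hfpf (mem_inf.2 ⟨x.2, mem_C1.2 (by
    have := hξ 1 x
    rw [pow_one, hx, pow_one, eq_mul_inv_iff_mul_eq] at this
    exact this)⟩))
  have hd1 : d ≠ 1 := by
    rintro rfl
    rw [orderOf_one] at hd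
    exact absurd hd (Nat.one_lt_pow (by omega) (by norm_num)).ne
  have hr : PRankLE 2 2 P := fun A hA h2 => by
    have h3 : IsMulCommutative (A.map P.subtype) := inferInstance
    have := hrank _ (map_subtype_le A) h3 ⊤ inferInstance (by
      rintro ⟨_, a, ha, rfl⟩ -
      exact Subtype.ext (by simpa using congrArg Subtype.val (h2 a ha)))
    rwa [card_top, card_map_subtype] at this
  have key : ∀ k : ℕ, ξ ^ k = 1 → d ^ k = 1 := fun k hk => eq_one_of_eq_bot hfaith (mem_inf.2 ⟨npow_mem_zpowers d k,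
    fun x hx => by
      have := hξ k ⟨x, hx⟩
      rw [hk, MulAut.one_apply, eq_mul_inv_iff_mul_eq] at this
      exact this⟩)
  have : Nontrivial P := by
    by_contra h
    rw [not_nontrivial_iff_subsingleton] at h
    exact hd1 (by simpa using key 1 (MulEquiv.ext fun x => Subsingleton.elim _ _))
  obtain ⟨memZ, hZ⟩ := exists_four_of_fpf hP hr ξ hf
  have hk : ξ ^ 3 ^ n = 1 := by
    ext x
    rw [hξ, ← hd, pow_orderOf_eq_one]; simp
  have h2 : ∀ a, a ≠ 1 → ξ (ξ a) ≠ a := fun a a1 e => a1 (hf a (by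
    obtain ⟨m, hm⟩ : Odd (3 ^ n) := Odd.pow (by decide)
    have h3 : ∀ j : ℕ, (ξ ^ (2 * j)) a = a := fun j => by
      induction j with
      | zero => rfl
      | succ j ih => rw [mul_add, pow_add, MulAut.mul_apply, mul_one, pow_two, MulAut.mul_apply, e, ih]
    have := DFunLike.congr_fun hk a
    rwa [hm, pow_succ', MulAut.mul_apply, h3] at this))
  obtain ⟨a, ha, a1⟩ := exists_mem_ne_one' (H := om1Z P) (by rw [← one_lt_card_iff_ne_bot, hZ]; norm_num)
  refine orderOf_eq_prime (key 3 (cube_eq_one hP memZ (fun a ha => ha.2) hZ hk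
    (klein_aut hZ (fun x hx => hx.1) ξ (om1Z_inv ξ) ha (h2 a a1)).1 fun E hE h1 c hc => ?_)) hd1
  obtain ⟨x, hx, x1, x2⟩ := exists_invol hP h1
  have hx' := (memZ x).2 x2
  rcases klein_cases hZ (fun x hx => hx.1) hx' (om1Z_inv ξ x hx') x1 (by simpa using x1)
    (fun e => x1 (hf x e.symm)) hc with rfl | rfl | rfl | rfl
  exacts [one_mem _, hx, hE _ hx, mul_mem hx (hE _ hx)]

end Cfsg.Agent.S3738
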