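import Cfsg.Statements.S3739
import Cfsg.Agent.H3.B1

set_option autoImplicit false
open Cfsg

namespace Cfsg.Agent.S3739

/-- Let G be a finite group with C_G(O₂(G)) ≤ O₂(G) containing an element of order 6, and let d be a non-identity 3-element of G normalizing a nontrivial elementary abelian 2-subgroup W with C_W(d) = 1. Then G has an elementary abelian subgroup of order 8. -/
theorem result {G : Type*} [Group G] [Finite G] (hchar : Subgroup.centralizer (Cfsg.pCore 2 G : Set G) ≤ Cfsg.pCore 2 G) (hsix : ∃ g : G, orderOf g = 6) (d : G) (hd1 : d ≠ 1) (hd : IsPGroup 3 ↥(Subgroup.zpowers d)) (W : Subgroup G) (hW : Cfsg.IsElementaryAbelian 2 W) (hW1 : W ≠ ⊥) (hdW : d ∈ Subgroup.normalizer (W : Set G)) (hfpf : W ⊓ Subgroup.centralizer {d} = ⊥) : ∃ E : Subgroup G, Cfsg.IsElementaryAbelian 2 E ∧ Nat.card E = 8 := by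
  open Subgroup H18 H3 in
  have := Fact.mk Nat.prime_two
  by_contra hn
  have hr : PRankLE 2 2 G := fun A hA h2 => by
    by_contra h
    have hp : IsPGroup 2 A := fun a => ⟨1, Subtype.ext (by simpa using h2 a a.2)⟩
    obtain ⟨k, hk⟩ := hp.exists_card_eq
    have h3 : 3 ≤ k := by
      rw [hk] at h
      exact Nat.lt_of_not_le fun h' => h (Nat.pow_le_pow_right (by norm_num) h')
    obtain ⟨E, hE⟩ := Sylow.exists_subgroup_card_pow_prime (G := A) 2 (n := 3) (hk ▸ pow_dvd_pow 2 h3)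
    exact hn ⟨E.map A.subtype, ⟨inferInstance, fun a ha => h2 a (map_subtype_le _ ha)⟩, by
      rw [card_map_subtype, hE]; rfl⟩
  set Q := pCore 2 G with hQ
  have hP : IsPGroup 2 Q := H1.pCore_isPGroup 2 G
  have w2 : ∀ x ∈ W, x * x = 1 := fun x hx => (pow_two x).symm.trans (hW.2 x hx)
  have hf : ∀ x ∈ W, d * x * d⁻¹ = x → x = 1 := fun x hx e =>
    eq_one_of_eq_bot hfpf (mem_inf.2 ⟨hx, mem_C1.2 (by rw [mul_inv_eq_iff_eq_mul] at e; exact e.symm)⟩)
  have hdW' : ∀ x ∈ W, d * x * d⁻¹ ∈ W := fun x hx => (mem_normalizer_iff.1 hdW x).1 hx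
  have four : ∀ U : Subgroup G, (∀ x ∈ U, x * x = 1) → ∀ a ∈ U, a ≠ 1 → d * a * d⁻¹ ∈ U → d * a * d⁻¹ ≠ a →
      Nat.card U = 2 ^ 2 := fun U hU a ha a1 hb hab => by
    have h1 := card_le_of_rank hr hU
    obtain ⟨k, hk⟩ := IsPGroup.exists_card_eq (p := 2) (G := U) fun a => ⟨1, Subtype.ext (by
      simpa [pow_two] using hU a a.2)⟩
    have h4 : orderOf a = 2 := orderOf_eq_prime (by rw [pow_two, hU a ha]) a1
    have h3 := card_lt ((zpowers_le.2 ha).lt_of_ne fun e => by
      classical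
      rw [← e, mem_zpowers_iff_mem_range_orderOf, h4] at hb
      simp only [Finset.mem_image, Finset.mem_range] at hb
      obtain ⟨i, hi, e⟩ := hb
      interval_cases i
      · exact a1 (by simpa using e.symm)
      · exact hab (by simpa using e.symm))
    rw [Nat.card_zpowers, h4, hk] at h3
    rw [hk] at h1 ⊢
    have h4 : k ≤ 2 := (Nat.pow_le_pow_iff_right (by norm_num)).1 h1
    interval_cases k <;> simp_all
  obtain ⟨w, hw, w1⟩ := exists_mem_ne_one' hW1
  have cW := four W w2 w hw w1 (hdW' w hw) fun e => w1 (hf w hw e)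
  have hWQ : PiGrp {2} (W ⊔ Q : Subgroup G) := by
    refine (PiNat.mul (by rw [cW]; exact piNat_pow_self Nat.prime_two 2)
      (piGrp_of_isPGroup Nat.prime_two hP)).of_dvd (Nrm2.card_sup_dvd (Or.inl norm_of_normal))
  obtain ⟨a, ha, a1, a2⟩ := exists_invol (P := (W ⊔ Q : Subgroup G)) hWQ.isPGroup (X := center _)
    (ne_bot_iff_exists_ne_one.2 <| by
      have : Nontrivial (W ⊔ Q : Subgroup G) := (nontrivial_iff_ne_bot _).2 (ne_bot_of_mem (mem_sup_left hw) w1)
      have := IsPGroup.center_nontrivial hWQ.isPGroup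
      exact exists_ne 1)
  have ac : ∀ y ∈ W ⊔ Q, y * a = a * y := fun y hy => congrArg Subtype.val (mem_center_iff.1 ha ⟨y, hy⟩)
  have a1' : (a : G) ≠ 1 := fun e => a1 (Subtype.ext e)
  have aW : (a : G) ∈ W := mem_of_cent hr cW w2 (mem_C.2 fun y hy => ac y (mem_sup_left hy))
    (congrArg Subtype.val a2)
  have aQ : (a : G) ∈ Q := hchar fun y hy => ac y (mem_sup_right hy)
  let φ : G →* MulAut Q := MulAut.conjNormal
  let b : Q := ⟨a, aQ⟩
  have hb : b ∈ om1Z Q := ⟨Subtype.ext (by simpa [b] using congrArg Subtype.val a2), fun y => Subtype.ext (ac y (mem_sup_right y.2))⟩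
  have z2 : ∀ x ∈ (om1Z Q).map Q.subtype, x * x = 1 := by
    rintro _ ⟨x, hx, rfl⟩
    exact congrArg Subtype.val hx.1
  have cZ := four _ z2 a ⟨b, hb, rfl⟩ a1' ⟨_, om1Z_inv (φ d) b hb, rfl⟩ fun e => a1' (hf a aW e)
  have mZ' : ∀ x : G, x * x = 1 → (∀ y ∈ om1Z Q, (y : G) * x = x * y) → x ∈ (om1Z Q).map Q.subtype :=
    fun x h1 h2 => mem_of_cent hr cZ z2 (mem_C.2 (by rintro _ ⟨y, hy, rfl⟩; exact h2 y hy)) h1
  have memZ : ∀ x : Q, x ∈ om1Z Q ↔ x * x = 1 := fun x => ⟨fun h => h.1, fun h => by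
    obtain ⟨y, hy, e⟩ := mZ' x (congrArg Subtype.val h) fun y hy => (congrArg Subtype.val (hy.2 x)).symm
    rwa [← Subtype.ext e]⟩
  rw [card_map_subtype] at cZ
  have h2 : φ d (φ d b) ≠ b := fun e => a1' (hf a aW (by
    obtain ⟨n, hk⟩ := hd ⟨d, Subgroup.mem_zpowers d⟩
    have hk : φ d ^ 3 ^ n = 1 := by rw [← map_pow, show d ^ 3 ^ n = 1 from congrArg Subtype.val hk, map_one]
    obtain ⟨m, hm⟩ : Odd (3 ^ n) := Odd.pow (by decide)
    have h3 : ∀ j : ℕ, (φ d ^ (2 * j)) b = b := fun j => by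
      induction j with
      | zero => rfl
      | succ j ih => rw [mul_add, pow_add, MulAut.mul_apply, mul_one, pow_two, MulAut.mul_apply, e, ih]
    have := DFunLike.congr_fun hk b
    rw [hm, pow_succ', MulAut.mul_apply, h3] at this
    exact congrArg Subtype.val this))
  obtain ⟨g, hg⟩ := hsix
  have g6 : g ^ 6 = 1 := hg ▸ pow_orderOf_eq_one g
  have h3 : ∀ c ∈ om1Z Q, φ g (φ g c) = c := fun c hc => by
    by_contra h
    obtain ⟨h1, h2⟩ := klein_aut cZ (fun x hx => hx.1) (φ g) (om1Z_inv _) hc h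
    obtain ⟨y, hy, e⟩ := mZ' (g ^ 3) (by rw [← pow_add, g6]) fun y hy => by
      have := congrArg Subtype.val (h1 y hy)
      rw [← map_pow, MulAut.conjNormal_apply, mul_inv_eq_iff_eq_mul] at this
      exact this.symm
    refine h2 y hy (fun e' => ?_) (Subtype.ext ?_)
    · have := orderOf_dvd_of_pow_eq_one (e.symm.trans (congrArg Subtype.val e'))
      rw [hg] at this
      exact absurd this (by norm_num)
    · rw [MulAut.conjNormal_apply, show (y : G) = g ^ 3 from e]; group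
  have h4 := eq_one_of_fix_four hP memZ (fun a ha => ha.2) cZ (φ d) hb h2 (σ := φ (g ^ 2))
    (by rw [← map_pow, ← pow_mul, g6, map_one]) fun c hc => by rw [pow_two, map_mul]; exact h3 c hc
  have h5 : g ^ 2 ∈ Q := hchar fun y hy => by
    have := congrArg Subtype.val (DFunLike.congr_fun h4 ⟨y, hy⟩)
    rw [MulAut.conjNormal_apply, mul_inv_eq_iff_eq_mul] at this
    exact this.symm
  have h6 := (piGrp_of_isPGroup Nat.prime_two hP).elt h5 3 Nat.prime_three (by
    rw [orderOf_pow' _ two_ne_zero, hg]; decide)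
  simp at h6

end Cfsg.Agent.S3739
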