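import Cfsg.Statements.S3741
import Cfsg.Agent.H21.Extra

set_option autoImplicit false
open Cfsg

namespace Cfsg.Agent.S3741

/-- Let A and B be subgroups of a finite p-group with [A, B] ≤ A ∩ B and [A, B] of order at most p. Then |A : C_A(B)| = |B : C_B(A)|. -/
theorem result {G : Type*} [Group G] [Finite G] {p : ℕ} [Fact p.Prime] (hG : IsPGroup p G) (A B : Subgroup G) (hAB : ⁅A, B⁆ ≤ A ⊓ B) (hcard : Nat.card ↥⁅A, B⁆ ≤ p) : (A ⊓ Subgroup.centralizer (B : Set G)).relIndex A = (B ⊓ Subgroup.centralizer (A : Set G)).relIndex B := by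
  have hp : p.Prime := Fact.out
  have hpi : ∀ H : Subgroup G, H18.PiGrp {p} H := fun H => H18.piGrp_of_isPGroup hp (hG.to_subgroup H)
  rw [H18.relIndex_inf_left, H18.relIndex_inf_left]
  exact H21.CPair.relIndex_eq ⟨(hpi _).cyc_of_card_le hp hcard, fun _ ha _ hb => Subgroup.commutator_mem_commutator ha hb,
    H3.cent_of_card_le_prime (hpi A) ⟨hAB.trans inf_le_left, H18.norm_comm_left⟩ hcard,
    H3.cent_of_card_le_prime (hpi B) ⟨hAB.trans inf_le_right, H18.norm_comm_right⟩ hcard⟩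

end Cfsg.Agent.S3741
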