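import Cfsg.Statements.S3742
import Cfsg.Agent.H16.Q8Aut

set_option autoImplicit false
open Cfsg

namespace Cfsg.Agent.S3742

open H16 QuaternionGroup

theorem h1 : ∀ p q : Q8, p * q ≠ q * p → ∀ x y, q8app p q (x * y) = q8app p q x * q8app p q y := by
  decide +kernel

theorem h2 : ∀ p q : Q8, p * q ≠ q * p → ∀ x y, q8app p q x = q8app p q y → x = y := by
  decide +kernel

theorem h3 : Fintype.card {t : Q8 × Q8 // t.1 * t.2 ≠ t.2 * t.1} = 24 := by decide +kernel

theorem h4 : ∀ p q : Q8, q8app p q (a 1) = p ∧ q8app p q (xa 0) = q := by decide +kernel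

/-- The automorphism group of the quaternion group of order 8 is isomorphic to the symmetric group of degree 4. -/
theorem result : Nonempty (MulAut (QuaternionGroup 2) ≃* Equiv.Perm (Fin 4)) := by
  obtain ⟨ψ, hψ⟩ := exists_hom_autQ8
  let f : {t : Q8 × Q8 // t.1 * t.2 ≠ t.2 * t.1} → MulAut Q8 := fun t =>
    MulEquiv.ofBijective (MonoidHom.mk' (q8app t.1.1 t.1.2) (h1 _ _ t.2))
      (Finite.injective_iff_bijective.mp (h2 _ _ t.2))
  have hf : Function.Injective f := fun s t e => Subtype.ext (Prod.ext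
    ((h4 s.1.1 s.1.2).1.symm.trans ((MulEquiv.congr_fun e (a 1)).trans (h4 t.1.1 t.1.2).1))
    ((h4 s.1.1 s.1.2).2.symm.trans ((MulEquiv.congr_fun e (xa 0)).trans (h4 t.1.1 t.1.2).2)))
  have := Nat.card_le_card_of_injective f hf
  rw [Nat.card_eq_fintype_card, h3] at this
  refine ⟨MulEquiv.ofBijective ψ (hψ.bijective_of_nat_card_le ?_)⟩
  rwa [Nat.card_perm, Nat.card_eq_fintype_card, Fintype.card_fin]

end Cfsg.Agent.S3742
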