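import Cfsg.Statements.S3744
import Cfsg.Agent.H1.FTCor

set_option autoImplicit false
open Cfsg

namespace Cfsg.Agent.S3744

open H18 H1

/-- A finite p-soluble group has a p-complement, all its p-complements are conjugate, and every subgroup of order prime to p lies in one of them. Here a p-complement is a subgroup of order prime to p whose index is a power of p. -/
theorem result {G : Type*} [Group G] [Finite G] {p : ℕ} [Fact p.Prime] (hG : Cfsg.IsPSolvable p G) : (∃ H : Subgroup G, (Nat.card H).Coprime p ∧ ∃ n : ℕ, H.index = p ^ n) ∧ (∀ H₁ H₂ : Subgroup G, (Nat.card H₁).Coprime p → (∃ n : ℕ, H₁.index = p ^ n) → (Nat.card H₂).Coprime p → (∃ n : ℕ, H₂.index = p ^ n) → ∃ g : G, H₂ = H₁.map (MulAut.conj g).toMonoidHom) ∧ (∀ U : Subgroup G, (Nat.card U).Coprime p → ∃ H : Subgroup G, (Nat.card H).Coprime p ∧ (∃ n : ℕ, H.index = p ^ n) ∧ ∃ g : G, U.map (MulAut.conj g).toMonoidHom ≤ H) := by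
  have hp : p.Prime := Fact.out
  obtain ⟨n, H, a, b, c, d, e⟩ := hG
  have hs : PiSep {p}ᶜ (⊤ : Subgroup G) := piSep_of_chain H a b c d fun i => (e i).symm.imp
    (piNat_compl_iff_coprime hp).2 fun ⟨m, e⟩ => e ▸ (piNat_pow_self hp m).compl_compl
  have key : ∀ K : Subgroup G, Hall {p}ᶜ K ⊤ ↔ (Nat.card K).Coprime p ∧ ∃ n : ℕ, K.index = p ^ n := fun K =>
    ⟨fun h => ⟨(piNat_compl_iff_coprime hp).1 h.pi, by
      simpa using h.idx.of_compl_compl.eq_pow relIndex_ne_zero⟩, fun ⟨h, m, e⟩ => ⟨le_top, (piNat_compl_iff_coprime hp).2 h, by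
      rw [Subgroup.relIndex_top_right, e]; exact (piNat_pow_self hp m).compl_compl⟩⟩
  refine ⟨hs.hall_exists.imp fun K => (key K).1, fun K L h1 h2 h3 h4 => ?_, fun U hU => ?_⟩
  · obtain ⟨g, -, e⟩ := hs.hall_conj ((key K).2 ⟨h1, h2⟩) ((key L).2 ⟨h3, h4⟩); exact ⟨g, e⟩
  · obtain ⟨K, h1, h2⟩ := hs.hall_superset le_top ((piNat_compl_iff_coprime hp).2 hU)
    exact ⟨K, ((key K).1 h1).1, ((key K).1 h1).2, 1, cj_one.le.trans h2⟩

end Cfsg.Agent.S3744
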