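import Cfsg.Statements.S3746
import Cfsg.Agent.H17.Comp
import Cfsg.Agent.H1.Basic
import Cfsg.Agent.H23.Comm

set_option autoImplicit false
open Cfsg

namespace Cfsg.Agent.S3746

/-- Let Z ≤ Z(G) be a central subgroup of a finite group G and E a subgroup of G containing Z whose image E/Z is a component of G/Z (subnormal and quasisimple). Then the derived subgroup [E, E] is a component of G. -/
theorem result {G : Type*} [Group G] [Finite G] (Z : Subgroup G) (hZ : Z ≤ Subgroup.center G) [Z.Normal] (E : Subgroup G) (hZE : Z ≤ E) (hE : Cfsg.IsComponent (E.map (QuotientGroup.mk' Z))) : Cfsg.IsComponent ⁅E, E⁆ := by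
  have h1 : (⊤ : Subgroup G).map (QuotientGroup.mk' Z) = ⊤ := H17.map_mk'_top Z
  have hc : ∀ K : Subgroup G, ⁅Z, K⁆ = ⊥ := fun K =>
    Subgroup.commutator_eq_bot_iff_le_centralizer.mpr (hZ.trans (Subgroup.center_le_centralizer _))
  obtain ⟨L, hL, e⟩ := H17.exists_isComp_map_eq (QuotientGroup.mk' Z) (H := ⊤)
    (h1 ▸ H17.isComp_top_iff.mpr hE) (by rw [QuotientGroup.ker_mk', inf_top_eq, hc])
  have h2 := congrArg (Subgroup.comap (QuotientGroup.mk' Z)) e
  rw [H1.comap_map_mk', H1.comap_map_mk', sup_eq_left.mpr hZE] at h2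
  have h3 : ⁅E, E⁆ = L := by
    refine le_antisymm ?_ (hL.perfect.ge.trans (Subgroup.commutator_mono (h2 ▸ le_sup_left) (h2 ▸ le_sup_left)))
    rw [← h2, Subgroup.commutator_le]
    intro a ha b hb
    rw [← SetLike.mem_coe, Subgroup.mul_normal] at ha hb
    obtain ⟨a, ha, z, hz, rfl⟩ := ha
    obtain ⟨b, hb, w, hw, rfl⟩ := hb
    have e1 := Subgroup.mem_center_iff.mp (hZ hz)
    have e2 := Subgroup.mem_center_iff.mp (hZ hw)
    have : a * z * (b * w) * (a * z)⁻¹ * (b * w)⁻¹ = a * b * a⁻¹ * b⁻¹ := by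
      calc _ = a * (z * (b * w)) * z⁻¹ * (a⁻¹ * w⁻¹) * b⁻¹ := by group
        _ = a * b * (w * a⁻¹) * w⁻¹ * b⁻¹ := by rw [← e1]; group
        _ = _ := by rw [← e2]; group
    rw [commutatorElement_def]
    dsimp only
    rw [this]
    exact mul_mem (mul_mem (mul_mem ha hb) (inv_mem ha)) (inv_mem hb)
  rw [h3]
  exact H17.isComp_top_iff.mp hL

end Cfsg.Agent.S3746
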