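import Cfsg.Statements.S3747
import Cfsg.Agent.H17.Comp
import Cfsg.Agent.H1.Basic

set_option autoImplicit false
open Cfsg

namespace Cfsg.Agent.S3747

open Subgroup H17 in
theorem aux {G : Type*} [Group G] [Finite G] (K : Subgroup G) (hK : Cfsg.IsComponent K)
    (hZ : K ⊓ centralizer (K : Set G) = ⊥) : normalClosure (K : Set G) ≠ ⊥ ∧
      ∀ N : Subgroup G, N.Normal → N ≤ normalClosure (K : Set G) → N = ⊥ ∨ N = normalClosure (K : Set G) := by
  rw [← isComp_top_iff] at hK
  refine ⟨fun h => hK.ne_bot (eq_bot_iff.mpr (h ▸ le_normalClosure)), fun N hN hle => ?_⟩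
  rcases hK.le_or_commutator (N := N) le_top le_normalizer_of_normal with h | h
  · exact Or.inr (le_antisymm hle (normalClosure_le_normal h))
  left
  have h1 : normalClosure (K : Set G) ≤ centralizer (N : Set G) :=
    normalClosure_le_normal (le_centralizer_iff.mp (commutator_eq_bot_iff_le_centralizer.mp h))
  have h2 : ⁅N, N⁆ = ⊥ := commutator_eq_bot_iff_le_centralizer.mpr (hle.trans h1)
  have h3 := (Subn.of_normal_top N).le_centralizer_lay
    (solvable_of_nilpotent (nilpotent_of_commutator_eq_bot h2))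
  have h4 : normalClosure (K : Set G) ≤ sSup (Set.range fun g => cj g K) := by
    have : (sSup (Set.range fun g => cj g K)).Normal := by
      rw [← normalizer_eq_top_iff, eq_top_iff, sSup_range]
      intro g _
      rw [mem_normalizer_iff_cj]
      refine eq_of_le_of_card_ge ?_ (card_cj _ _).ge
      change Subgroup.map _ _ ≤ _
      rw [Subgroup.map_iSup, iSup_le_iff]
      exact fun h => (cj_mul g h K).ge.trans (le_iSup (fun g => cj g K) (g * h))
    exact normalClosure_le_normal (le_sSup (show K ∈ Set.range fun g => cj g K from ⟨1, cj_one K⟩))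
  have h5 := sSup_inf_centralizer_le (H := ⊤) (𝒮 := Set.range fun g => cj g K) (by
    rintro _ ⟨g, rfl⟩
    exact hK.cj_of_mem_normalizer (le_normalizer (mem_top g)))
  rw [eq_bot_iff]
  refine ((le_inf (hle.trans h4) h3).trans h5).trans (iSup₂_le ?_)
  rintro _ ⟨g, rfl⟩
  rw [← cj_centralizer, ← cj_inf, hZ, cj_bot]

/-- Let G be a finite group. (a) If K is a component of G with trivial centre, then the normal closure of K in G is a minimal normal subgroup of G. (b) If the Fitting subgroup of G is trivial, then the layer E(G) is generated by the minimal normal subgroups of G. -/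
theorem result {G : Type*} [Group G] [Finite G] : (∀ K : Subgroup G, Cfsg.IsComponent K → Subgroup.center ↥K = ⊥ → (Subgroup.normalClosure (K : Set G) ≠ ⊥ ∧ ∀ N : Subgroup G, N.Normal → N ≤ Subgroup.normalClosure (K : Set G) → N = ⊥ ∨ N = Subgroup.normalClosure (K : Set G))) ∧ (Cfsg.fittingSubgroup G = ⊥ → sSup {N : Subgroup G | N ≠ ⊥ ∧ N.Normal ∧ ∀ N' : Subgroup G, N'.Normal → N' ≤ N → N' = ⊥ ∨ N' = N} = Cfsg.layer G) := by
  refine ⟨fun K hK hZ => aux K hK (by rw [← H17.map_subtype_center, hZ, Subgroup.map_bot]), fun hF => ?_⟩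
  apply le_antisymm
  · refine sSup_le ?_
    rintro N ⟨h1, h2, h3⟩
    have h4 : (H17.gfit N).Normal := by
      rw [← Subgroup.normalizer_eq_top_iff, eq_top_iff, ← N.normalizer_eq_top]
      exact H17.normalizer_le_gfit N
    have h5 := (h3 _ h4 (H17.gfit_le N)).resolve_left (by rwa [H17.gfit_eq_bot_iff])
    have h6 := (H17.Subn.of_normal_top N).gfit_le_gfit
    rwa [h5, H17.gfit_eq, H17.fit_top, hF, sup_bot_eq, H17.lay_top] at h6
  · refine sSup_le fun K hK => ?_
    have h1 := (H17.isComp_top_iff.mpr hK).subn.inf_centralizer_le_fit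
    rw [H17.fit_top, hF, le_bot_iff] at h1
    obtain ⟨h2, h3⟩ := aux K hK h1
    exact Subgroup.le_normalClosure.trans (le_sSup ⟨h2, inferInstance, h3⟩)

end Cfsg.Agent.S3747
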