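import Cfsg.Statements.S3748
import Cfsg.Agent.H21.PrimPair

set_option autoImplicit false
open Cfsg

namespace Cfsg.Agent.S3748

open H18 H21 Subgroup
open scoped Pointwise

/-- Call a proper subgroup M of G primitive when M = N_G(N) for every non-trivial normal subgroup N of M. If M is a primitive subgroup of the finite group G, then no non-trivial subnormal subgroup of G is contained in M; in particular M ∩ F(G) = 1. -/
theorem result {G : Type*} [Group G] [Finite G] (M : Subgroup G) (hM : M ≠ ⊤) (hprim : ∀ N : Subgroup G, N ≤ M → M ≤ Subgroup.normalizer (N : Set G) → N ≠ ⊥ → Subgroup.normalizer (N : Set G) = M) : (∀ L : Subgroup G, L.IsSubnormal → L ≤ M → L = ⊥) ∧ M ⊓ Cfsg.fittingSubgroup G = ⊥ := by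
  have h1 : ∀ L : Subgroup G, L.IsSubnormal → L ≤ M → L = ⊥ := by
    intro L hL hLM
    by_contra e
    let K := sSup {U : Subgroup G | H2.SubnIn U ⊤ ∧ U ≤ M}
    have k1 : H2.SubnIn K ⊤ := H2.SubnIn.sSup fun U h => h.1
    have k2 : K ≤ M := sSup_le fun U h => h.2
    have k3 : M ≤ N(K) := fun g hg => mem_N_of_cj_le (by
      rw [cj_sSup]
      refine sSup_le_sSup ?_
      rintro _ ⟨U, ⟨u1, u2⟩, rfl⟩
      exact ⟨u1.conj_of_mem (mem_top g), cj_le_of_mem u2 hg⟩)
    have k4 : L ≤ K := le_sSup ⟨H2.subnIn_top_iff.2 hL, hLM⟩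
    have k5 := hprim K k2 k3 fun e' => e (eq_bot_iff.2 (e' ▸ k4))
    obtain ⟨U, u1, u2, u3⟩ := k1.exists_lt fun e' => hM (eq_top_iff.2 (e' ▸ k2))
    exact u1.not_ge (le_sSup ⟨u3, k5 ▸ u2⟩)
  refine ⟨h1, h1 _ ?_ inf_le_left⟩
  rw [← fit_top]
  exact H2.subnIn_top_iff.1 ((H2.subnIn_of_nilpotent fit_nil inf_le_right).trans
    (H2.SubnIn.of_normal le_top fit_nml.norm))

end Cfsg.Agent.S3748
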