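import Cfsg.Statements.S3749
import Cfsg.Agent.H21.PrimPair

set_option autoImplicit false
open Cfsg

namespace Cfsg.Agent.S3749

open H18 H21 H1 Subgroup

/-- Call a proper subgroup M of G primitive when M = N_G(N) for every non-trivial normal subgroup N of M. Let M be a primitive subgroup of the finite group G, p a prime with O_p(M) ≠ 1, and N a normal subgroup of G with M ∩ N = 1. Then p does not divide the order of N; for every prime q there is exactly one Sylow q-subgroup of N normalized by M; and if the order of N has at least two prime divisors then M is not a maximal subgroup of G. -/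
theorem result {G : Type*} [Group G] [Finite G] (M : Subgroup G) (hM : M ≠ ⊤) (hprim : ∀ N : Subgroup G, N ≤ M → M ≤ Subgroup.normalizer (N : Set G) → N ≠ ⊥ → Subgroup.normalizer (N : Set G) = M) {p : ℕ} [Fact p.Prime] (hOp : Cfsg.pCore p ↥M ≠ ⊥) (N : Subgroup G) [N.Normal] (hMN : M ⊓ N = ⊥) : ¬ p ∣ Nat.card N ∧ (∀ q : ℕ, [Fact q.Prime] → ∃! Q : Sylow q ↥N, M ≤ Subgroup.normalizer ((Q : Subgroup ↥N).map N.subtype : Set G)) ∧ ((∃ q r : ℕ, q.Prime ∧ r.Prime ∧ q ≠ r ∧ q ∣ Nat.card N ∧ r ∣ Nat.card N) → ¬ IsCoatom M) := by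
  have hp : p.Prime := Fact.out
  have hP : O[{p}](M) ≠ ⊥ := by
    rw [← pCore_map hp]; exact fun e => hOp ((map_eq_bot_iff_of_injective _ M.subtype_injective).1 e)
  have hN := hprim _ pcore_le pcore_nml.norm hP
  have hC : N ⊓ C(O[{p}](M)) = ⊥ := eq_bot_iff.2 (hMN ▸ le_inf (inf_le_right.trans (C_le_N.trans hN.le)) inf_le_left)
  have h1 : ¬ p ∣ Nat.card N := fun hd => by
    obtain ⟨S, hS, hle⟩ := exists_sylow_le hp (pcore_pi (H := M)) (le_top (a := O[{p}](M)))
    have h2 := hS.inf_nml (nml_top (K := N))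
    exact pcore_pi.meet_cent h2.pi (norm_inf (le_norm hle) norm_of_normal) (h2.ne_bot_p hp hd)
      (eq_bot_iff.2 (hC ▸ inf_le_inf_right _ inf_le_right))
  have hc : Cop O[{p}](M) N := cop_of_pi norm_of_normal pcore_pi ((piNat_compl_iff hp).2 h1)
    (Or.inl pcore_pi.solv)
  have uniq : ∀ q : ℕ, q.Prime → ∀ Q R, Hall {q} Q N → Hall {q} R N → O[{p}](M) ≤ N(Q) → O[{p}](M) ≤ N(R) →
      R = Q := by
    intro q hq Q R a b c d
    obtain ⟨x, hx, rfl⟩ := coprime_Sylow_trans hc hq a b c d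
    rw [hC, mem_bot] at hx
    rw [hx, cj_one]
  have ex : ∀ q : ℕ, q.Prime → ∃ Q, Hall {q} Q N ∧ M ≤ N(Q) := by
    intro q hq
    obtain ⟨Q, a, b⟩ := hc.exists_sylow hq
    refine ⟨Q, a, fun g hg => mem_N_iff_cj.2 (uniq q hq _ _ a (a.cj_N (norm_of_normal (H := ⊤) trivial)) b ?_)⟩
    rw [← cj_eq_self (pcore_nml.norm hg), cj_norm_iff]; exact b
  refine ⟨h1, fun q hq => ?_, ?_⟩
  · obtain ⟨Q, a, b⟩ := ex q hq.out
    obtain ⟨S, rfl⟩ := a.exists_sylow hq.out
    refine ⟨S, b, fun T hT => ?_⟩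
    exact Sylow.ext (map_injective N.subtype_injective
      (uniq q hq.out _ _ a (hall_map_sylow hq.out T) (pcore_le.trans b) (pcore_le.trans hT)))
  · rintro ⟨q, r, hq, hr, hne, d1, d2⟩ hco
    obtain ⟨Q, a, b⟩ := ex q hq
    have e : M ⊔ Q = ⊤ := hco.2 _ (left_lt_sup.2 fun e => a.ne_bot_p hq d1
      (eq_bot_iff.2 (hMN ▸ le_inf e a.le)))
    have := Nrm2.modular' (H := N) (Or.inl b) a.le
    rw [e, top_inf_eq, hMN, bot_sup_eq] at this
    exact hne (PiNat.eq_of_dvd (this ▸ a.pi) hr d2).symm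

end Cfsg.Agent.S3749
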