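import Cfsg.Statements.S3750
import Cfsg.Agent.H17.FStar

set_option autoImplicit false
open Cfsg

namespace Cfsg.Agent.S3750

/-- Call a proper subgroup M of G primitive when M = N_G(N) for every non-trivial normal subgroup N of M. Let M be a primitive subgroup of the finite group G and N a normal subgroup of G with M ∩ F*(N) ≠ 1. Then F(G) = 1 and F*(N) = F*(G) = E(G); in particular every minimal normal subgroup of G is contained in N. -/
theorem result {G : Type*} [Group G] [Finite G] (M : Subgroup G) (hM : M ≠ ⊤) (hprim : ∀ N : Subgroup G, N ≤ M → M ≤ Subgroup.normalizer (N : Set G) → N ≠ ⊥ → Subgroup.normalizer (N : Set G) = M) (N : Subgroup G) [N.Normal] (hMF : M ⊓ (Cfsg.generalizedFittingSubgroup ↥N).map N.subtype ≠ ⊥) : Cfsg.fittingSubgroup G = ⊥ ∧ (Cfsg.generalizedFittingSubgroup ↥N).map N.subtype = Cfsg.generalizedFittingSubgroup G ∧ Cfsg.generalizedFittingSubgroup G = Cfsg.layer G ∧ ∀ K : Subgroup G, K.Normal → K ≠ ⊥ → (∀ K' : Subgroup G, K'.Normal → K' ≤ K → K' = ⊥ ∨ K' = K)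 → K ≤ N := by
  have hcore : ∀ R : Subgroup G, R.Normal → R ≤ M → R = ⊥ := fun R hR h => by
    by_contra h0
    exact hM ((hprim R h (H17.le_normalizer_of_normal' _ _) h0).symm.trans (Subgroup.normalizer_eq_top R))
  have hs : H17.Subn ⊤ N := .of_normal le_top (H17.le_normalizer_of_normal' _ _)
  have hn : (⊤ : Subgroup G) ≤ Subgroup.normalizer (H17.gfit N : Set G) :=
    (H17.le_normalizer_of_normal' _ N).trans (H17.normalizer_le_gfit N)
  have hC : Subgroup.centralizer (H17.gfit N : Set G) = ⊥ := by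
    refine hcore _ (Subgroup.normalizer_eq_top_iff.mp (top_le_iff.mp (H17.le_normalizer_centralizer hn))) ?_
    rw [← hprim (M ⊓ H17.gfit N) inf_le_left (H17.le_normalizer_inf Subgroup.le_normalizer (le_top.trans hn)) hMF]
    exact (H17.centralizer_anti inf_le_right).trans (Subgroup.centralizer_le_normalizer _)
  have hF : H17.fit (⊤ : Subgroup G) = ⊥ := by
    by_contra h
    refine H18.Nil.Z_ne_bot (H17.fit_nilpotent ⊤) h (eq_bot_iff.mpr (hC ▸ ?_))
    rw [H17.gfit_eq, H17.centralizer_sup]
    exact inf_le_inf (H17.le_centralizer_of_commutator_eq_bot' (H17.commutator_eq_bot_mono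
      (H17.commutator_lay_fit ⊤) hs.lay_le_lay le_rfl)) (H17.centralizer_anti hs.fit_le_fit)
  have hE : H17.gfit (⊤ : Subgroup G) = H17.lay ⊤ := by rw [H17.gfit_eq, hF, sup_bot_eq]
  rw [← H17.fit_top, ← H17.gfit_top (G := G), ← H17.lay_top]
  refine ⟨hF, le_antisymm hs.gfit_le_gfit ?_, hE, fun K hK hK0 hmin => ?_⟩
  · rw [hE, H17.lay_eq_sup_layOut hs]
    refine sup_le (H17.lay_le_gfit N) (le_trans ?_ bot_le)
    rw [← hC]
    exact (H17.layOut_le_centralizer hs).trans (H17.centralizer_anti (H17.gfit_le N))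
  · rcases hmin (K ⊓ N) inferInstance inf_le_left with h | h
    · refine absurd (eq_bot_iff.mpr (hC ▸ le_trans ?_ (H17.centralizer_anti (H17.gfit_le N)))) hK0
      exact H17.le_centralizer_of_commutator_eq_bot (eq_bot_iff.mpr (h ▸ Subgroup.commutator_le_inf K N))
    · exact h.ge.trans inf_le_right

end Cfsg.Agent.S3750
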