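import Cfsg.Statements.S3751
import Cfsg.Agent.H21.PrimPair

set_option autoImplicit false
open Cfsg

namespace Cfsg.Agent.S3751

open H18 H21 H1 Subgroup

/-- maximal `p`-local subgroups -/
def ML {G : Type*} [Group G] (p : ℕ) (M : Subgroup G) : Prop :=
  (∃ T : Subgroup G, IsPGroup p T ∧ T ≠ ⊥ ∧ M = N(T)) ∧
    ∀ L : Subgroup G, (∃ T : Subgroup G, IsPGroup p T ∧ T ≠ ⊥ ∧ L = N(T)) → M ≤ L → L = M

section
variable {G : Type*} [Group G] [Finite G] {p : ℕ} {M T X Y : Subgroup G}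

lemma ML.norm (h : ML p M) (hT : PiGrp {p} T) (h1 : T ≠ ⊥) (hn : M ≤ N(T)) : N(T) = M :=
  h.2 _ ⟨T, hT.isPGroup, h1, rfl⟩ hn

lemma ML.ne_bot (hp : p.Prime) (h : ML p M) : O[{p}](M) ≠ ⊥ := by
  obtain ⟨T, h1, h2, rfl⟩ := h.1
  exact fun e => h2 (eq_bot_iff.2 (e ▸ le_pcore nml_N (piGrp_of_isPGroup hp h1)))

lemma ML.cj (hp : p.Prime) (h : ML p M) (g : G) : ML p (cj g M) := by
  have key : ∀ g : G, ∀ M : Subgroup G, (∃ T : Subgroup G, IsPGroup p T ∧ T ≠ ⊥ ∧ M = N(T)) →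
      ∃ T : Subgroup G, IsPGroup p T ∧ T ≠ ⊥ ∧ H18.cj g M = N(T) := by
    rintro g _ ⟨T, h1, h2, rfl⟩
    exact ⟨_, ((piGrp_of_isPGroup hp h1).cj g).isPGroup, by simpa using h2, cj_N⟩
  refine ⟨key g M h.1, fun L hL hle => ?_⟩
  rw [eq_cj_iff]; exact h.2 _ (key _ L hL) (cj_le_iff.1 hle)

lemma ML.cj_ne (hp : p.Prime) (h : ML p M) {g : G} (hg : g ∉ M) : M ≠ H18.cj g M := fun e =>
  hg ((h.norm pcore_pi (h.ne_bot hp) pcore_nml.norm).le (norm_pcore le_rfl (mem_N_iff_cj.2 e.symm)))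

lemma exists_ML (hT : PiGrp {p} T) (h1 : T ≠ ⊥) : ∃ M, ML p M ∧ N(T) ≤ M := by
  obtain ⟨M, a, b, c⟩ := exists_maximal_sub
    (fun M => ∃ T : Subgroup G, IsPGroup p T ∧ T ≠ ⊥ ∧ M = N(T)) (A := N(T)) ⟨T, hT.isPGroup, h1, rfl⟩
  exact ⟨M, ⟨b, c⟩, a⟩

lemma pp_of_sylow (hX : ML p X) (hY : ML p Y) (cX : ChP p X) (cY : ChP p Y) (hne : X ≠ Y)
    (h1 : Hall {p} T X) (h2 : Hall {p} T Y) : PP p X Y :=
  ⟨hne, fun _ a _ c => (inf_le_right.trans (norm_pcore le_rfl)).trans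
      (hX.norm pcore_pi (cX.pcore_ne_bot c a) (norm_pcore c.norm)).le,
    fun _ a _ c => (inf_le_right.trans (norm_pcore le_rfl)).trans
      (hY.norm pcore_pi (cY.pcore_ne_bot c a) (norm_pcore c.norm)).le,
    cX, cY, h1.pcore_le.trans h2.le, h2.pcore_le.trans h1.le⟩

lemma exists_gt (hp : p.Prime) (hT : PiGrp {p} T) (h : T ≤ X) (hn : ¬ Hall {p} T X) :
    ∃ R, PiGrp {p} R ∧ T < R ∧ R ≤ X ⊓ N(T) := by
  obtain ⟨S, hS, hle⟩ := exists_sylow_le hp hT h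
  exact ⟨S ⊓ N(T), hS.pi.inf_left, hS.pi.nil.lt_norm (lt_of_le_of_ne hle fun e => hn (e ▸ hS)),
    inf_le_inf_right _ hS.le⟩
end

/-- Two distinct subgroups M₁, M₂ of G form a primitive pair when, for {i, j} = {1, 2}, every non-trivial normal subgroup A of M_i contained in M₁ ∩ M₂ satisfies N_{M_j}(A) = M₁ ∩ M₂; the pair has characteristic p when moreover C_{M_i}(O_p(M_i)) ≤ O_p(M_i) for both i and O_p(M₁)O_p(M₂) ≤ M₁ ∩ M₂. Let G be a finite group, p a prime dividing its order, with O_p(G) = 1 and every p-local subgroup of characteristic p. Then either G has a primitive pair of characteristic p, or every maximal p-local subgroup M of G is strongly p-embedded in G: M is a proper subgroup, p divides its order, and for every g ∉ M the order of M ∩ gMg⁻¹ is prime to p. -/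
theorem result {G : Type*} [Group G] [Finite G] {p : ℕ} [Fact p.Prime] (hloc : Cfsg.IsOfLocalCharacteristic p G) (hOp : Cfsg.pCore p G = ⊥) : (∃ M₁ M₂ : Subgroup G, M₁ ≠ M₂ ∧ (∀ A : Subgroup G, A ≠ ⊥ → A ≤ M₁ ⊓ M₂ → (M₁ ≤ Subgroup.normalizer (A : Set G) → M₂ ⊓ Subgroup.normalizer (A : Set G) = M₁ ⊓ M₂) ∧ (M₂ ≤ Subgroup.normalizer (A : Set G) → M₁ ⊓ Subgroup.normalizer (A : Set G) = M₁ ⊓ M₂)) ∧ Subgroup.centralizer (Cfsg.pCore p ↥M₁ : Set ↥M₁) ≤ Cfsg.pCore p ↥M₁ ∧ Subgroup.centralizer (Cfsg.pCore p ↥M₂ : Set ↥M₂) ≤ Cfsg.pCore p ↥M₂ ∧ (Cfsg.pCore p ↥M₁).map M₁.subtype ⊔ (Cfsg.pCore p ↥M₂).map M₂.subtype ≤ M₁ ⊓ M₂) ∨ (∀ M : Subgroup G, (∃ T : Subgroup G, IsPGroup p T ∧ T ≠ ⊥ ∧ M = Subgroup.normalizer (T : Set G)) → (∀ L : Subgroup G, (∃ T : Subgroup G, IsPGroup p T ∧ T ≠ ⊥ ∧ L = Subgroup.normalizer (T : Set G)) → M ≤ L → L = M) → M ≠ ⊤ ∧ p ∣ Nat.card M ∧ ∀ g : G,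 g ∉ M → ¬ p ∣ Nat.card ↥(M ⊓ M.map (MulAut.conj g).toMonoidHom)) := by
  have hp : p.Prime := Fact.out
  have ch : ∀ M : Subgroup G, ML p M → ChP p M := by
    rintro _ ⟨⟨T, a, b, rfl⟩, -⟩
    exact (chP_iff hp).2 (hloc.2 T a b)
  rw [or_iff_not_imp_right]
  intro h
  suffices ∃ X Y : Subgroup G, PP p X Y by
    obtain ⟨X, Y, e⟩ := this
    exact ⟨X, Y, (pp_iff hp).1 e⟩
  by_contra hpp
  refine h fun M m1 m2 => ?_
  have hM : ML p M := ⟨m1, m2⟩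
  refine ⟨?_, (pcore_pi.dvd_card (hM.ne_bot hp)).trans (card_dvd pcore_le), fun g hg hd => ?_⟩
  · rintro rfl
    exact hM.ne_bot hp (by rw [← pCore_eq hp, hOp])
  obtain ⟨X₀, x1, x2⟩ := cauchy_sub hp hd
  obtain ⟨T, ⟨hT, h1, X, Y, hX, hY, hne, hle⟩, hmax⟩ := exists_max_card
    (fun T : Subgroup G => PiGrp {p} T ∧ T ≠ ⊥ ∧ ∃ X Y, ML p X ∧ ML p Y ∧ X ≠ Y ∧ T ≤ X ⊓ Y) (A := X₀)
    ⟨piGrp_of_prime hp x2, ne_bot_of_prime (x2 ▸ hp), M, _, hM, hM.cj hp g, hM.cj_ne hp hg, x1⟩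
  have big : ∀ R X Y : Subgroup G, PiGrp {p} R → T < R → ML p X → ML p Y → R ≤ X → R ≤ Y → X = Y := by
    intro R X Y a b c d e f
    by_contra hne
    exact (card_lt b).not_ge (hmax R ⟨a, ne_bot_of_gt b, X, Y, c, d, hne, le_inf e f⟩)
  have key : ∀ X Y : Subgroup G, ML p X → ML p Y → X ≠ Y → T ≤ X → T ≤ Y → Hall {p} T X := by
    intro X Y hX hY hne l1 l2
    by_contra hn
    obtain ⟨R, r1, r2, r3⟩ := exists_gt hp hT l1 hn
    obtain ⟨Z, z1, z2⟩ := exists_ML hT h1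
    obtain rfl := big R X Z r1 r2 hX z1 (r3.trans inf_le_left) ((r3.trans inf_le_right).trans z2)
    have hY' : Hall {p} T Y := by
      by_contra hn
      obtain ⟨R, r1, r2, r3⟩ := exists_gt hp hT l2 hn
      exact hne (big R X Y r1 r2 hX hY ((r3.trans inf_le_right).trans z2) (r3.trans inf_le_left))
    obtain ⟨g, g1, g2⟩ := SetLike.not_le_iff_exists.1
      fun e : R ≤ Y => hne (big R X Y r1 r2 hX hY (r3.trans inf_le_left) e)
    have := hY'.cj g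
    rw [cj_eq_self (r3 g1).2] at this
    exact hpp ⟨_, _, pp_of_sylow hY (hY.cj hp g) (ch _ hY) (ch _ (hY.cj hp g)) (hY.cj_ne hp g2) hY' this⟩
  exact hpp ⟨X, Y, pp_of_sylow hX hY (ch _ hX) (ch _ hY) hne
    (key X Y hX hY hne (hle.trans inf_le_left) (hle.trans inf_le_right))
    (key Y X hY hX hne.symm (hle.trans inf_le_right) (hle.trans inf_le_left))⟩

end Cfsg.Agent.S3751
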