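import Cfsg.Statements.S3752
import Cfsg.Agent.H17.Bender

set_option autoImplicit false
open Cfsg

namespace Cfsg.Agent.S3752

/-- Bender's Theorem on primitive pairs. Two distinct subgroups M₁, M₂ of G form a primitive pair when, for {i, j} = {1, 2}, every non-trivial normal subgroup A of M_i contained in M₁ ∩ M₂ satisfies N_{M_j}(A) = M₁ ∩ M₂; the pair has characteristic p when moreover C_{M_i}(O_p(M_i)) ≤ O_p(M_i) for both i and O_p(M₁)O_p(M₂) ≤ M₁ ∩ M₂. If (M₁, M₂) is a primitive pair of the finite group G with F*(M₁) ≤ M₂ and F*(M₂) ≤ M₁, then for some prime p the pair has characteristic p. -/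
theorem result {G : Type*} [Group G] [Finite G] (M₁ M₂ : Subgroup G) (hne : M₁ ≠ M₂) (hP : ∀ A : Subgroup G, A ≠ ⊥ → A ≤ M₁ ⊓ M₂ → (M₁ ≤ Subgroup.normalizer (A : Set G) → M₂ ⊓ Subgroup.normalizer (A : Set G) = M₁ ⊓ M₂) ∧ (M₂ ≤ Subgroup.normalizer (A : Set G) → M₁ ⊓ Subgroup.normalizer (A : Set G) = M₁ ⊓ M₂)) (h₁ : (Cfsg.generalizedFittingSubgroup ↥M₁).map M₁.subtype ≤ M₂) (h₂ : (Cfsg.generalizedFittingSubgroup ↥M₂).map M₂.subtype ≤ M₁) : ∃ p : ℕ, p.Prime ∧ Subgroup.centralizer (Cfsg.pCore p ↥M₁ : Set ↥M₁) ≤ Cfsg.pCore p ↥M₁ ∧ Subgroup.centralizer (Cfsg.pCore p ↥M₂ : Set ↥M₂) ≤ Cfsg.pCore p ↥M₂ ∧ (Cfsg.pCore p ↥M₁).map M₁.subtype ⊔ (Cfsg.pCore p ↥M₂).map M₂.subtype ≤ M₁ ⊓ M₂ := by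
  have p1 : H17.Prim M₁ M₂ := fun N h0 a b c => ((hP N h0 (le_inf a b)).1 c).le.trans inf_le_left
  have p2 : H17.Prim M₂ M₁ := fun N h0 a b c => ((hP N h0 (le_inf b a)).2 c).le.trans inf_le_right
  rcases H17.bender_sym p1 p2 h₁ h₂ with h | ⟨p, hp, h3, h4⟩
  · exact absurd h hne
  · haveI := Fact.mk hp
    refine ⟨p, hp, H17.charP_iff_sub.mp h3, H17.charP_iff_sub.mp h4, sup_le (le_inf (H17.oP_le p _) ?_)
      (le_inf ?_ (H17.oP_le p _))⟩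
    · exact (H17.oP_le_fit p _).trans ((H17.fit_le_gfit _).trans h₁)
    · exact (H17.oP_le_fit p _).trans ((H17.fit_le_gfit _).trans h₂)

end Cfsg.Agent.S3752
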