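import Cfsg.Statements.S3754
import Cfsg.Agent.H21.PLen
import Cfsg.Agent.H18.BG1
import Cfsg.Agent.H3.PG
import Cfsg.Agent.H3.Residual

set_option autoImplicit false
open Cfsg

namespace Cfsg.Agent.S3754

open Subgroup H18 H1

theorem bar {X : Type*} [Group X] [Finite X] {p : ℕ} (hp : p.Prime) {E Q : Subgroup X} (hE : Elem p E)
    (hQ : PiGrp {p}ᶜ Q) (hn : E ≤ N(Q)) (h : ¬ Q ≤ C(E)) : ∃ B K : Subgroup X, B ≤ E ∧ B.relIndex E = p ∧ K ≤ Q ∧
      K ≤ C(B) ∧ ¬ K ≤ C(E) ∧ E ≤ N(K) ∧ ∀ x ∈ K, x ∉ C(E) → K ≤ E ⊔ cj x E := by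
  have pE := H3.elem_piGrp hp hE
  obtain ⟨B, hB, ⟨a, ha, e⟩, hc⟩ : ∃ B ≤ E, (∃ a ∈ E, B ⊔ zpowers a = E) ∧ ¬ Q ⊓ C(B) ≤ C(E) := by
    by_contra hh
    push Not at hh
    exact h (coprime_abelian_gen_cent hE.abel hn (pE.coprime hQ) hh)
  obtain ⟨K, ⟨h1, h2, h3⟩, hm⟩ := exists_minimal_of_wellFoundedLT
    (fun K : Subgroup X => K ≤ Q ⊓ C(B) ∧ E ≤ N(K) ∧ ¬ K ≤ C(E))
    ⟨_, le_rfl, norm_inf hn (norm_C (hE.abel.norm hB)), hc⟩
  have pK := hQ.of_le (h1.trans inf_le_left)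
  refine ⟨B, K, hB, H3.relIndex_eq_prime_of_le pE (fun e => hc (inf_le_right.trans (centralizer_le e))) ?_,
    h1.trans inf_le_left, h1.trans inf_le_right, h3, h2, fun x hx hx' => ?_⟩
  · rw [← e, ((hE.abel.nml hB).nrm2 (zpowers_le.2 ha)).relIndex_sup']
    refine Nat.le_of_dvd hp.pos (relIndex_dvd.trans ?_)
    rw [Nat.card_zpowers]
    exact orderOf_dvd_of_pow_eq_one (hE.2 a ha)
  have l1 : cj x E ≤ E ⊔ K := (cj_le_sup_comm hx).trans (sup_le ((comm_le_left h2).trans le_sup_right) le_sup_left)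
  by_cases c : K ⊓ (E ⊔ cj x E) ≤ C(E)
  · have l2 : E ⊔ cj x E ≤ N(E) := by
      have := (show Nrm2 E K from Or.inl h2).modular (H := E ⊔ cj x E) le_sup_left
      rw [inf_eq_right.2 (sup_le le_sup_left l1)] at this
      rw [this]
      exact sup_le le_N (cent_norm c)
    have l3 : cj x E ≤ E := ((hall_of_sup pE pK (Or.inl h2)).of_le le_sup_left (sup_le le_sup_left l1)).le_of_nml l2
      le_sup_right (pE.cj x)
    exact absurd ((cop_of_pi h2 pE pK (Or.inl pE.solv)).inf_N.le ⟨hx, mem_N_of_cj_le l3⟩).2 hx'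
  · exact (hm (y := K ⊓ (E ⊔ cj x E)) ⟨inf_le_left.trans h1, norm_inf h2 (le_norm le_sup_left), c⟩
      inf_le_left).trans inf_le_right

/-- Let M be a finite p-soluble group and A a p-subgroup of M with Φ(A) ≤ O_p(M) but A ≰ O_p(M). Then there is x ∈ O_{p,p'}(M) such that L = ⟨A, xAx⁻¹⟩ satisfies: x ∈ O^p(L) and O^p(L) ≤ O_{p,p'}(M); [O^p(L), A] = O^p(L); A ∩ O_p(L) has index p in A; and [A ∩ O_p(L), L] ≤ O_p(M). Here O^p(L) is the subgroup generated by the p'-elements of L and O_{p,p'}(M) the preimage of O_{p'}(M/O_p(M)). -/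
theorem result {M : Type*} [Group M] [Finite M] {p : ℕ} [Fact p.Prime] (hM : Cfsg.IsPSolvable p M) (A : Subgroup M) (hA : IsPGroup p A) (hΦ : (frattini ↥A).map A.subtype ≤ Cfsg.pCore p M) (hnot : ¬ A ≤ Cfsg.pCore p M) : ∃ x ∈ (Cfsg.pPrimeCore p (M ⧸ Cfsg.pCore p M)).comap (QuotientGroup.mk' (Cfsg.pCore p M)), x ∈ (Cfsg.pResidual p ↥(A ⊔ A.map (MulAut.conj x).toMonoidHom)).map (A ⊔ A.map (MulAut.conj x).toMonoidHom).subtype ∧ (Cfsg.pResidual p ↥(A ⊔ A.map (MulAut.conj x).toMonoidHom)).map (A ⊔ A.map (MulAut.conj x).toMonoidHom).subtype ≤ (Cfsg.pPrimeCore p (M ⧸ Cfsg.pCore p M)).comap (QuotientGroup.mk' (Cfsg.pCore p M)) ∧ ⁅(Cfsg.pResidual p ↥(A ⊔ A.map (MulAut.conj x).toMonoidHom)).map (A ⊔ A.map (MulAut.conj x).toMonoidHom).subtype, A⁆ = (Cfsg.pResidual p ↥(A ⊔ A.map (MulAut.conj x).toMonoidHom)).map (A ⊔ A.map (MulAut.conj x).toMonoidHom).subtype ∧ (A ⊓ (Cfsg.pCore p ↥(A ⊔ A.map (MulAut.conj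 x).toMonoidHom)).map (A ⊔ A.map (MulAut.conj x).toMonoidHom).subtype).relIndex A = p ∧ ⁅A ⊓ (Cfsg.pCore p ↥(A ⊔ A.map (MulAut.conj x).toMonoidHom)).map (A ⊔ A.map (MulAut.conj x).toMonoidHom).subtype, A ⊔ A.map (MulAut.conj x).toMonoidHom⁆ ≤ Cfsg.pCore p M := by
  have pp : p.Prime := Fact.out
  have pA := piGrp_of_isPGroup pp hA
  set π := QuotientGroup.mk' (pCore p M) with hπ
  have kπ : π.ker = pCore p M := QuotientGroup.ker_mk' _
  have hE : Elem p (A.map π) := by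
    obtain ⟨h1, h2⟩ := (H3.phi_le_iff pp pA).1 hΦ
    refine ⟨abel_iff_der.2 ?_, ?_⟩
    · rw [← map_commutator, Subgroup.map_eq_bot_iff, kπ]; exact h1
    · rintro _ ⟨a, ha, rfl⟩
      rw [← map_pow]
      exact (QuotientGroup.eq_one_iff _).2 (h2 a ha)
  have pE := H3.elem_piGrp pp hE
  rw [pPrimeCore_eq pp]
  obtain ⟨B, K, hB, iB, KQ, KB, nc, nK, hx⟩ := bar pp hE (pcore_pi (π := {p}ᶜ) (H := ⊤))
    (le_top.trans pcore_nml.norm) fun h => hnot (by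
      have := (le_inf le_top (cent_symm h)).trans (H21.psol_cent_p'core ((H4.isPSolvable_iff.1 hM).quotient _)
        (by rw [← pCore_eq pp]; exact pCore_quotient_eq_bot p M))
      refine le_trans ?_ kπ.le
      rw [← Subgroup.map_eq_bot_iff, ← pE.inf_eq_bot pcore_pi, inf_eq_left.2 this])
  have pK : PiGrp {p}ᶜ K := pcore_pi.of_le KQ
  have mc : ∀ x : M, (A ⊔ cj x A).map π = A.map π ⊔ cj (π x) (A.map π) := fun x => by
    rw [Subgroup.map_sup, cj, cj, Subgroup.map_map, Subgroup.map_map]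
    exact congrArg (fun f => _ ⊔ A.map f) (MonoidHom.ext fun g => by simp)
  obtain ⟨z, z1, z2⟩ := SetLike.not_le_iff_exists.1 nc
  obtain ⟨z, rfl⟩ := QuotientGroup.mk'_surjective _ z
  obtain ⟨_, ⟨x, x1, x2, rfl⟩, hm⟩ := exists_minimal_of_wellFoundedLT
    (fun L : Subgroup M => ∃ x, π x ∈ K ∧ π x ∉ C(A.map π) ∧ L = A ⊔ cj x A) ⟨_, z, z1, z2, rfl⟩
  obtain ⟨w, w1, w2⟩ : π x ∈ (A ⊔ cj x A).map π := mc x ▸ hx _ x1 x2 x1
  obtain ⟨k, hk⟩ := H3.exists_pow_coprime (p := p) w (orderOf_pos w).ne'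
  obtain ⟨m, em⟩ := exists_pow_eq_self_of_coprime (x := π x) (n := p ^ k)
    (((piNat_compl_iff_coprime pp).1 (pK.elt x1)).symm.pow_left k)
  have y0 : π ((w ^ p ^ k) ^ m) = π x := by rw [map_pow, map_pow, w2, em]
  have y1 := pow_mem (H3.mem_map_subtype_pResidual (pow_mem w1 _) hk) m
  generalize (w ^ p ^ k) ^ m = y at y0 y1
  have yL : y ∈ A ⊔ cj x A := map_subtype_le _ y1
  have l : A ⊔ cj y A ≤ A ⊔ cj x A := sup_le le_sup_left ((cj_mono le_sup_left).trans (cj_eq_self (le_N yL)).le)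
  rw [← y0] at x1 x2
  rw [le_antisymm (hm ⟨y, x1, x2, rfl⟩ l) l] at y1
  have Lm : (A ⊔ cj y A).map π ≤ A.map π ⊔ K := mc y ▸ sup_le le_sup_left ((cj_le_sup_comm x1).trans
    (sup_le ((comm_le_left nK).trans le_sup_right) le_sup_left))
  refine ⟨y, KQ x1, ?_⟩
  change y ∈ (pResidual p (A ⊔ cj y A : Subgroup M)).map (A ⊔ cj y A).subtype ∧
    (pResidual p (A ⊔ cj y A : Subgroup M)).map (A ⊔ cj y A).subtype ≤ _ ∧
    ⁅(pResidual p (A ⊔ cj y A : Subgroup M)).map (A ⊔ cj y A).subtype, A⁆ =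
      (pResidual p (A ⊔ cj y A : Subgroup M)).map (A ⊔ cj y A).subtype ∧
    (A ⊓ (pCore p (A ⊔ cj y A : Subgroup M)).map (A ⊔ cj y A).subtype).relIndex A = p ∧
    ⁅A ⊓ (pCore p (A ⊔ cj y A : Subgroup M)).map (A ⊔ cj y A).subtype, A ⊔ cj y A⁆ ≤ _
  have eO : (pCore p (A ⊔ cj y A : Subgroup M)).map (A ⊔ cj y A).subtype = O[{p}](A ⊔ cj y A) := by
    rw [pCore_eq pp, pcore_top]; rfl
  rw [eO]
  have nU := H3.normalizer_le_normalizer_map_subtype_pResidual (p := p) (A ⊔ cj y A)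
  have rU := fun Y => H3.map_subtype_pResidual_le_iff (p := p) (H := A ⊔ cj y A) (K := Y)
  have l0 := cj_le_sup_comm (A := A) y1
  generalize (pResidual p (A ⊔ cj y A : Subgroup M)).map (A ⊔ cj y A).subtype = U at y1 nU rU l0
  have AL : A ≤ A ⊔ cj y A := le_sup_left
  replace l0 : A ⊔ cj y A ≤ ⁅U, A⁆ ⊔ A := sup_le le_sup_right l0
  generalize A ⊔ cj y A = L at *
  have UL : U ≤ L := (rU L).2 fun g hg _ => hg
  have eU : ⁅U, A⁆ = U := le_antisymm (comm_le_left (AL.trans (le_N.trans nU))) ((rU _).2 fun g hg hc =>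
    PiElt.mem_of_nml ((piNat_compl_iff_coprime pp).2 hc) (l0 hg) (nml_sup_left norm_comm_right) (by
      rw [_root_.compl_compl, (show Nrm2 ⁅U, A⁆ A from Or.inr norm_comm_right).relIndex_sup']
      exact pA.relIndex))
  have cB : L.map π ≤ C(B) := Lm.trans (sup_le (cent_mono hE.abel le_rfl hB) KB)
  have b1 : A ⊓ B.comap π ≤ A ⊓ O[{p}](L) := by
    refine le_inf inf_le_left ((inf_le_inf_right _ AL).trans (le_pcore (nml_inf_of_norm ?_) (piGrp_of_isPGroup pp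
      (IsPGroup.to_inf_right ((pE.of_le hB).isPGroup.comap_of_ker_isPGroup π ((pCore_isPGroup p M).to_le kπ.le))))))
    exact (map_le_iff_le_comap.1 (cent_norm cB)).trans (le_normalizer_comap _)
  have i1 : (A ⊓ B.comap π).relIndex A = p := by rw [relIndex_inf_left, relIndex_comap, iB]
  have e1 : A ⊓ O[{p}](L) = A ⊓ B.comap π := (eq_or_eq_of_prime_relIndex (by rw [i1]; exact pp) b1 inf_le_left).resolve_right
    fun e => x2 (by
      have : y ∈ O[{p}](L) := (eU.ge.trans ((comm_mono UL (e.ge.trans inf_le_right)).trans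
        (comm_le_right pcore_nml.norm))) y1
      rw [PiElt.eq_one' ((pcore_pi.elt this).of_dvd (orderOf_map_dvd π y)) (pK.elt x1)]
      exact one_mem _)
  refine ⟨y1, (rU _).2 fun g hg hc => KQ ?_, eU, e1 ▸ i1, ?_⟩
  · exact (hall_of_sup' pK pE.compl_compl (Or.inr nK)).mem_of_nml (nml_sup_right nK).norm (Lm ⟨g, hg, rfl⟩)
      (((piNat_compl_iff_coprime pp).2 hc).of_dvd (orderOf_map_dvd π g))
  · refine le_trans ?_ kπ.le
    rw [e1, ← Subgroup.map_eq_bot_iff, map_commutator, comm_eq_bot_iff]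
    exact cent_symm (cent_mono cB le_rfl (map_le_iff_le_comap.2 inf_le_right))

end Cfsg.Agent.S3754
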