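import Cfsg.Statements.S3756
import Cfsg.Agent.H27.StS

set_option autoImplicit false
open Cfsg

namespace Cfsg.Agent.S3756

open H26 H27 Subgroup

/-- Let G be a finite group of even order with O₂(G) = 1 such that every 2-local subgroup of G is solvable, of characteristic 2, and has no section isomorphic to the symmetric group of degree 4. Then every maximal 2-local subgroup of G is strongly embedded in G. -/
theorem result {G : Type*} [Group G] [Finite G] (heven : Even (Nat.card G)) (hO : Cfsg.pCore 2 G = ⊥) (hloc : ∀ M : Subgroup G, Cfsg.IsTwoLocal M → Group.IsSolvable M ∧ Cfsg.IsOfCharacteristicTwo ↥M ∧ ¬ Cfsg.Involves (Equiv.Perm (Fin 4)) ↥M) (M : Subgroup G) (hM : Cfsg.IsMaximalTwoLocal M) : Cfsg.IsStronglyEmbedded M := by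
  have : Fact (Nat.Prime 2) := ⟨Nat.prime_two⟩
  have hW : ∀ H T : Subgroup G, IsTwoLocal H → IsSyl 2 T H → H ≤ 𝐍 (WG T) := fun H T hH hT => by
    obtain ⟨h1, h2, h3⟩ := hloc H hH
    exact le_normalizer_WG (kc_of_solvable (not_S3_of_charP (charPOf_top.2 h2) fun e => h3 (H4.involves_iff.2 e))) hT
      (charPOf_iff.2 h2)
  have loc : ∀ T : Subgroup G, IsPGroup 2 T → T ≠ ⊥ → IsTwoLocal (𝐍 (WG T)) := fun T h1 h2 =>
    ⟨_, h1.to_le (WG_le T), WG_ne_bot h1 h2, rfl⟩
  have key : ∀ R ≤ M, IsPGroup 2 R → R ≠ ⊥ → ∀ H, IsTwoLocal H → R ≤ H → H ≤ M := fun R hR =>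
    subgroup_card_induction_down (Q := fun R => IsPGroup 2 R → R ≠ ⊥ → ∀ H, IsTwoLocal H → R ≤ H → H ≤ M) R hR
      fun R hR ih hP h0 H hH hRH => by
    obtain ⟨R', h1, h2⟩ := exists_isSyl_ge hP (le_inf hRH hR)
    rcases h2.eq_or_lt with rfl | h3
    swap
    · exact ih R' h3 (h1.le.trans inf_le_right) h1.isP (ne_bot_of_gt h3) H hH (h1.le.trans inf_le_left)
    obtain ⟨T, h3, h4⟩ := exists_isSyl_ge hP hR
    have k : 𝐍 R ≤ M ∧ 𝐍 (WG R) ≤ M := by
      rcases h4.eq_or_lt with rfl | h5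
      · have := (hM.2 _ (loc R hP h0) (hW M R hM.1 h3)).le
        exact ⟨(normalizer_le_normalizer_WG R).trans this, this⟩
      · have h6 := lt_inf_normalizer h3.isP h5
        have h7 := ih _ h6 (inf_le_left.trans h3.le) (h3.isP.to_le inf_le_left) (ne_bot_of_gt h6) _ (loc R hP h0)
          (inf_le_right.trans (normalizer_le_normalizer_WG R))
        exact ⟨(normalizer_le_normalizer_WG R).trans h7, h7⟩
    exact (hW H R hH (isSyl_of_normalizer (h1.mono (le_inf hRH le_normalizer) (inf_le_inf_left _ k.1)))).trans k.2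
  obtain ⟨T, hT, h0, e⟩ := hM.1
  have TM : T ≤ M := e ▸ le_normalizer
  have TO : T ≤ pCoreOf 2 M := le_pCoreOf hT TM e.le
  refine ⟨fun h => h0 (eq_bot_iff.2 (TO.trans ?_)), ?_, fun g hg => Nat.not_even_iff_odd.1 fun h => hg ?_⟩
  · rw [h, pCoreOf_top, hO]
  · exact even_iff_two_dvd.2 ((dvd_card_of_ne_bot hT h0).trans (card_dvd_of_le TM))
  · obtain ⟨D, hD⟩ := exists_isSyl 2 (M ⊓ cj g M)
    have h1 := key D (hD.le.trans inf_le_left) hD.isP (hD.ne_bot (even_iff_two_dvd.1 h)) (cj g M)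
      ⟨cj g T, isPGroup_cj g hT, fun e => h0 (cj_eq_bot_iff.1 e), by rw [e, cj_normalizer]⟩ (hD.le.trans inf_le_right)
    rw [← hM.2 _ ⟨pCoreOf 2 M, isPGroup_pCoreOf 2 M, fun e => h0 (eq_bot_iff.2 (e ▸ TO)), rfl⟩
      (le_normalizer_pCoreOf 2 M)]
    exact normalizer_le_normalizer_pCoreOf 2 M (mem_normalizer_of_cj_le h1)

end Cfsg.Agent.S3756
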