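import Cfsg.Statements.S3758
import Cfsg.Agent.H26.ZN
import Cfsg.Agent.S0518
import Cfsg.Agent.H18.Bender

set_option autoImplicit false
open Cfsg

namespace Cfsg.Agent.S3758

open H26 Subgroup
open scoped Pointwise commutatorElement

section
open H18 H17
local notation "p2" => Nat.prime_two
variable {G : Type*} [Group G] [Finite G] {R H V : Subgroup G} {s : G}

theorem dq0 (hR : PiGrp {2} R) (h1 : V ≤ R) (c : Nat.card V = 2 ^ 2) (e : Elem 2 V) (hs : s ∈ R) (hn : s ∉ C(V))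
    (hc : R ⊓ C(V) ≤ V) : (∃ n, 2 ≤ n ∧ Nonempty (R ≃* DihedralGroup n)) ∨ IsQuasiDihedral R := by
  obtain ⟨z, hz, z1⟩ := exists_mem_ne_one' (hR.meet_cent hR le_N fun j => hn (by
    rw [mem_bot.1 (j.le hs)]; exact one_mem _))
  have zV := hc ⟨hz.1, C_anti h1 hz.2⟩
  obtain ⟨g, gV, hg⟩ : ∃ g ∈ V, g ∉ zpowers z := SetLike.not_le_iff_exists.1 fun j => by
    have := H18.card_le j
    rw [e.card_zpowers p2 zV z1] at this
    omega
  have E := card_sup_elt p2 (k := 1) (e.of_le (zpowers_le.2 zV)) (e.card_zpowers p2 zV z1).ge (e.pow g gV)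
    (C_anti (zpowers_le.2 zV) (e.abel gV)) hg
  have eV := eq_of_card_ge (sup_le (zpowers_le.2 zV) (zpowers_le.2 gV)) (c.le.trans E.2)
  obtain ⟨k, x, m⟩ := H9.mc_of_card_centralizer hR.isPGroup (h1 gV) ((H18.card_le (A := R ⊓ C1(g)) fun y hy => hc ⟨hy.1, by
    rw [← eV, C_sup, C_zpowers, C_zpowers]
    exact ⟨mem_C1.2 (hz.2 y hy.1), hy.2⟩⟩).trans c.le) fun j => hn (C_anti h1 (abel_of_comm j hs))
  exact H3.mc_rank_two m.top (not_prankLE_of_elem p2 h1 e c.ge)

theorem dq (hR : Hall {2} R H) (h1 : V ≤ H) (c : Nat.card V = 2 ^ 2) (e : Elem 2 V) (hs : s ∈ H) (s2 : s ^ 2 = 1)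
    (sn : s ∈ N(V)) (hn : s ∉ C(V)) (hc : H ⊓ C(V) ≤ V) :
    (∃ n, 2 ≤ n ∧ Nonempty (R ≃* DihedralGroup n)) ∨ IsQuasiDihedral R := by
  obtain ⟨g, hg, l⟩ := sylow_le_cj p2 hR (((H18.elem_zpowers s2).pi p2).sup_norm (e.pi p2) (zpowers_le.2 sn))
    (sup_le (zpowers_le.2 hs) h1)
  refine dq0 hR.pi ((H18.cj_mono le_sup_right).trans l) (H18.card_cj.trans c) (e.cj g)
    (l (H18.conj_mem_cj (mem_sup_left (mem_zpowers s)))) (fun j => hn ?_) ?_
  · rwa [← cj_C, H18.mem_cj, ← mul_assoc, ← mul_assoc, inv_mul_cancel, one_mul, inv_mul_cancel_right] at j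
  · rw [← cj_C]
    exact (inf_le_inf_right _ (hR.le.trans (cj_eq_self_of_mem hg).ge)).trans (H18.cj_inf.ge.trans (H18.cj_mono hc))

/-- the normal four-group of `S₄` -/
def V4 : Subgroup (Equiv.Perm (Fin 4)) where
  carrier := {g | g * g = 1 ∧ Equiv.Perm.sign g = 1}
  mul_mem' := by
    have : ∀ a b : Equiv.Perm (Fin 4), a * a = 1 ∧ Equiv.Perm.sign a = 1 → b * b = 1 ∧ Equiv.Perm.sign b = 1 →
      a * b * (a * b) = 1 ∧ Equiv.Perm.sign (a * b) = 1 := by decide +kernel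
    exact fun {a b} => this a b
  one_mem' := by simp
  inv_mem' := fun {a} h => by rwa [inv_eq_of_mul_eq_one_right h.1]

instance dec4 : DecidablePred (· ∈ V4) := fun g => inferInstanceAs (Decidable (g * g = 1 ∧ Equiv.Perm.sign g = 1))

theorem card_V4 : Nat.card V4 = 2 ^ 2 := by rw [Nat.card_eq_fintype_card]; decide +kernel

theorem cent_V4 : ∀ y : Equiv.Perm (Fin 4), (∀ v ∈ V4, v * y = y * v) ↔ y ∈ V4 := by decide +kernel

theorem nml_V4 : V4.Normal := ⟨by decide +kernel⟩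

theorem s4 {L : Type*} [Group L] [Finite L] {M : Subgroup L} (hM : IsMaximalTwoLocal M)
    (e : M ≃* Equiv.Perm (Fin 4)) (f : L →* G) (hf : Function.Injective f) (hR : Hall {2} R f.range) :
    (∃ n, 2 ≤ n ∧ Nonempty (R ≃* DihedralGroup n)) ∨ IsQuasiDihedral R := by
  let ψ := M.subtype.comp e.symm.toMonoidHom
  have i : Function.Injective ψ := M.subtype_injective.comp e.symm.injective
  have n : ∀ y, ψ y ∈ N(V4.map ψ) := fun y => le_normalizer_map ψ
    (mem_map_of_mem ψ (normalizer_eq_top_iff.2 nml_V4 ▸ mem_top y))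
  have c : Nat.card (V4.map ψ) = 2 ^ 2 := (card_map_of_injective i).trans card_V4
  have eM := hM.2 N(V4.map ψ) ⟨_, IsPGroup.of_card c, fun j => by simp [j] at c, rfl⟩
    fun x hx => by simpa [ψ] using n (e ⟨x, hx⟩)
  have k : ∀ y, f (ψ y) ∈ C((V4.map ψ).map f) ↔ y ∈ V4 := fun y => by
    rw [← cent_V4]
    refine ⟨fun h v hv => i (hf ?_), ?_⟩
    · simpa only [map_mul] using h _ (mem_map_of_mem f (mem_map_of_mem ψ hv))
    · rintro h _ ⟨_, ⟨v, hv, rfl⟩, rfl⟩
      simpa only [map_mul] using congrArg (fun x => f (ψ x)) (h v hv)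
  refine dq (V := (V4.map ψ).map f) (s := f (ψ (Equiv.swap 0 1))) hR (map_le_range _ _)
    ((card_map_of_injective hf).trans c) ⟨?_, ?_⟩ ⟨_, rfl⟩ ?_ (le_normalizer_map f (mem_map_of_mem f (n _)))
    (by rw [k]; decide) ?_
  · rintro _ ⟨_, ⟨v, hv, rfl⟩, rfl⟩
    exact (k v).2 hv
  · rintro _ ⟨_, ⟨v, hv, rfl⟩, rfl⟩
    rw [← map_pow, ← map_pow, pow_two, hv.1, map_one, map_one]
  · rw [← map_pow, ← map_pow, pow_two, Equiv.swap_mul_self, map_one, map_one]
  · rintro _ ⟨⟨x, rfl⟩, hx⟩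
    have : x ∈ M := eM.le (C_le_N fun y hy => hf (by simpa only [map_mul] using hx _ (mem_map_of_mem f hy)))
    obtain ⟨y, rfl⟩ : ∃ y, ψ y = x := ⟨e ⟨x, this⟩, by simp [ψ]⟩
    exact mem_map_of_mem f (mem_map_of_mem ψ ((k y).1 hx))

theorem se_sub {K M : Subgroup G} (h : SEin M K) (l : H ⊴ K) (he : Even (Nat.card H)) : SEin (M ⊓ H) H := by
  obtain ⟨T, hT⟩ := exists_sylow p2 M
  have d := hT.dvd_card_p p2 h.even.two_dvd
  have := (hall_of_N_le p2 (M := M) (by rwa [inf_eq_left.2 h.lt.le])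
    (h.norm_le hT.le (even_iff_two_dvd.2 d))).inf_nml l
  refine ⟨inf_lt_right.2 fun e => h.lt.not_ge ((le_inf le_rfl l.norm).trans (h.norm_le e he)),
    even_iff_two_dvd.2 ((this.dvd_card_p p2 he.two_dvd).trans (H18.card_dvd (inf_le_inf_right _ hT.le))),
    fun g hg gM x hx e => h.odd g (l.le hg) (fun j => gM ⟨j, hg⟩) x hx.1 e.1⟩

theorem zn_sub (hZ : ∀ S : Sylow 2 G, C(Ω[2](Z((S : Subgroup G)))) ≤ N((S : Subgroup G))) {K : Subgroup G}
    [K.Normal] (S : Sylow 2 G) (l : Ω[2](Z((S : Subgroup G))) ≤ K) (T : Sylow 2 K) :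
    centralizer {z : K | z ∈ (T : Subgroup K) ∧ z ^ 2 = 1 ∧ ∀ s ∈ (T : Subgroup K), s * z = z * s} ≤
      N((T : Subgroup K)) := fun x hx => by
  have hT := hall_map_sylow p2 T
  obtain ⟨P, hP, l2⟩ := exists_sylow_le p2 hT.pi le_top
  obtain ⟨P, rfl⟩ := hP.exists_sylow_top p2
  obtain ⟨g, -, e⟩ := sylow_conj p2 (hall_sylow_top p2 S) hP
  have eT : (T : Subgroup K) = (P : Subgroup G).subgroupOf K := by
    rw [← inf_subgroupOf_right, hT.eq_of_le (le_inf l2 hT.le) inf_le_right hP.pi.inf_left]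
    exact (comap_map_eq_self_of_injective K.subtype_injective _).symm
  rw [eT] at hx ⊢
  refine le_normalizer_comap K.subtype (hZ P fun y hy => ?_)
  have yK : y ∈ K := by
    rw [e, ← cj_Z, ← cj_omega] at hy
    exact (cj_eq_self (norm_of_normal (mem_top g))).le (H18.cj_mono l hy)
  obtain ⟨h1, h2⟩ := abel_Z.mem_omega_iff.1 hy
  exact congrArg Subtype.val (hx ⟨y, yK⟩ ⟨h1.1, Subtype.ext h2, fun s hs => Subtype.ext (h1.2 s hs)⟩)

end

/-- Let G be a finite group of even order in which every 2-local subgroup is solvable and C_G(Ω₁(Z(S))) ≤ N_G(S) for every Sylow 2-subgroup S, and suppose O_{2'}(G) = 1 = O₂(G). Fix a Sylow 2-subgroup S, put Z = Ω₁(Z(S)), H = O²(G) (generated by the elements of odd order) and R = S ∩ H. Then one of the following holds: H has a strongly embedded subgroup; R is dihedral (of order at least 4) or semidihedral; Z ∩ R has order 2 and is weakly closed in R with respect to H; or Z has order 4 and is exactly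 the subgroup generated by the involutions of R. -/
theorem result {G : Type*} [Group G] [Finite G] (heven : Even (Nat.card G)) (hN : ∀ L : Subgroup G, Cfsg.IsTwoLocal L → Group.IsSolvable L) (hZ : ∀ S : Sylow 2 G, Subgroup.centralizer (Cfsg.omegaOne 2 ((S : Subgroup G) ⊓ Subgroup.centralizer ((S : Subgroup G) : Set G)) : Set G) ≤ Subgroup.normalizer ((S : Subgroup G) : Set G)) (hO' : Cfsg.pPrimeCore 2 G = ⊥) (hO : Cfsg.pCore 2 G = ⊥) (S : Sylow 2 G) : (∃ M : Subgroup ↥(Cfsg.pResidual 2 G), Cfsg.IsStronglyEmbedded M) ∨ ((∃ n : ℕ, 2 ≤ n ∧ Nonempty (↥((S : Subgroup G) ⊓ Cfsg.pResidual 2 G) ≃* DihedralGroup n)) ∨ Cfsg.IsQuasiDihedral ↥((S : Subgroup G) ⊓ Cfsg.pResidual 2 G)) ∨ (Nat.card ↥(Cfsg.omegaOne 2 ((S : Subgroup G) ⊓ Subgroup.centralizer ((S : Subgroup G) : Set G)) ⊓ Cfsg.pResidual 2 G) = 2 ∧ ∀ h ∈ Cfsg.pResidual 2 G, ∀ z ∈ Cfsg.omegaOne 2 ((S : Subgroup G) ⊓ Subgroup.centralizer ((S : Subgroup G) : Set G)) ⊓ Cfsg.pResidual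 2 G, h * z * h⁻¹ ∈ (S : Subgroup G) → h * z * h⁻¹ ∈ Cfsg.omegaOne 2 ((S : Subgroup G) ⊓ Subgroup.centralizer ((S : Subgroup G) : Set G))) ∨ (Nat.card ↥(Cfsg.omegaOne 2 ((S : Subgroup G) ⊓ Subgroup.centralizer ((S : Subgroup G) : Set G))) = 4 ∧ Cfsg.omegaOne 2 ((S : Subgroup G) ⊓ Cfsg.pResidual 2 G) = Cfsg.omegaOne 2 ((S : Subgroup G) ⊓ Subgroup.centralizer ((S : Subgroup G) : Set G))) := by
  have hC : ∀ t : G, orderOf t = 2 → Group.IsSolvable (centralizer ({t} : Set G)) := fun t hz =>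
    have := hN _ ⟨zpowers t, IsPGroup.of_card (n := 1) (by rw [Nat.card_zpowers, hz]; rfl),
      fun e => by simp [zpowers_eq_bot.1 e] at hz, rfl⟩
    Group.isSolvable_of_isSolvable_injective (inclusion_injective H18.C1_le_N_zpowers)
  rcases ZC.zc_cases heven hC S (hZ S) hO' hO with h | h | h | h
  · exact .inl h
  · exact .inr (.inr (.inl h))
  · exact .inr (.inr (.inr h))
  obtain ⟨z, hz, z2⟩ := ZC.even_res heven hO' hO S
  have := ZC.nml_sup S
  have l := le_sup_left (a := pResidual 2 G) (b := omegaOne 2 ((S : Subgroup G) ⊓ centralizer (S : Set G)))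
  have l' := le_sup_right (a := pResidual 2 G) (b := omegaOne 2 ((S : Subgroup G) ⊓ centralizer (S : Set G)))
  generalize pResidual 2 G ⊔ omegaOne 2 ((S : Subgroup G) ⊓ centralizer (S : Set G)) = K at *
  rcases Cfsg.Agent.S0518.result h (by
      rw [← map_eq_bot_iff_of_injective _ K.subtype_injective, ← le_bot_iff, ← hO, H18.pCore_map Nat.prime_two,
        H18.pCore_eq Nat.prime_two]
      exact H18.nml_top.pcore_le_pcore) (by
      rintro _ ⟨T, h1, h2, rfl⟩
      have := hN _ ⟨T.map K.subtype, h1.map _,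
        fun e => h2 ((map_eq_bot_iff_of_injective _ K.subtype_injective).1 e), rfl⟩
      exact Group.isSolvable_of_isSolvable_injective (f := (K.subtype.comp (Subgroup.subtype _)).codRestrict
        (normalizer (T.map K.subtype : Set G)) fun x => le_normalizer_map K.subtype (mem_map_of_mem K.subtype x.2))
        ((MonoidHom.injective_codRestrict ..).2 (K.subtype_injective.comp (subtype_injective _))))
    (zn_sub hZ S l') (pResidual 2 K) (by simp only [pResidual, Nat.coprime_two_right]) with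
    ⟨M, k⟩ | ⟨M, -, -, k, -, ⟨e⟩, -⟩
  · rw [← comap_map_eq_self_of_injective K.subtype_injective M] at k
    exact .inl ⟨_, (se_sub (H18.sein_of_se k) ⟨l, H18.norm_of_normal⟩
      (even_iff_two_dvd.2 (z2.symm.dvd.trans (H18.orderOf_dvd_card hz.2)))).se⟩
  · refine .inr (.inl (s4 k e (K.subtype.comp (Subgroup.subtype _))
      (K.subtype_injective.comp (subtype_injective _)) ?_))
    rw [MonoidHom.range_comp, range_subtype, H3.map_subtype_pResidual_eq_of_le l]
    exact (H18.hall_sylow_top Nat.prime_two S).inf_nml H18.nml_top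

end Cfsg.Agent.S3758
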