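import Cfsg.Statements.S3760
import Mathlib
import Cfsg.Agent.H2.Conj

set_option autoImplicit false
open Cfsg

namespace Cfsg.Agent.S3760

/-- Let the group G act transitively on a set X, let x ∈ X with stabilizer H = G_x, and let K ≤ H. Then N_G(K) acts transitively on the set of fixed points of K if and only if every G-conjugate of K contained in H is already an H-conjugate of K. -/
theorem result {G : Type*} [Group G] {X : Type*} [MulAction G X] (htrans : ∀ a b : X, ∃ g : G, g • a = b) (x : X) (K : Subgroup G) (hK : K ≤ MulAction.stabilizer G x) : (∀ a b : X, (∀ k ∈ K, k • a = a) → (∀ k ∈ K, k • b = b) → ∃ g ∈ Subgroup.normalizer (K : Set G), g • a = b) ↔ ∀ g : G, K.map (MulAut.conj g).toMonoidHom ≤ MulAction.stabilizer G x → ∃ h ∈ MulAction.stabilizer G x, K.map (MulAut.conj g).toMonoidHom = K.map (MulAut.conj h).toMonoidHom := by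
  simp only [← H2.conj_eq_map]
  constructor
  · intro h g hg
    obtain ⟨n, hn, e⟩ := h x (g⁻¹ • x) hK fun k hk => by
      have := hg (H2.conj_mem_conj.mpr hk)
      rw [MulAction.mem_stabilizer_iff, mul_smul, mul_smul] at this
      rw [eq_inv_smul_iff, this]
    refine ⟨g * n, by rw [MulAction.mem_stabilizer_iff, mul_smul, e, smul_inv_smul], ?_⟩
    rw [← H2.conj_conj, H2.conj_eq_of_mem_normalizer hn]
  · intro h
    have key : ∀ a : X, (∀ k ∈ K, k • a = a) → ∃ g ∈ Subgroup.normalizer (K : Set G), g • a = x := by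
      intro a ha
      obtain ⟨g, rfl⟩ := htrans a x
      obtain ⟨u, hu, e⟩ := h g (H2.conj_le_iff_forall.mpr fun k hk => by
        rw [MulAction.mem_stabilizer_iff, mul_smul, mul_smul, inv_smul_smul, ha k hk])
      refine ⟨u⁻¹ * g, ?_, by rw [mul_smul, inv_smul_eq_iff]; exact hu.symm⟩
      rw [← H2.conj_eq_iff, ← H2.conj_conj, e, H2.conj_inv_conj]
    intro a b ha hb
    obtain ⟨g, hg, e⟩ := key a ha
    obtain ⟨g', hg', e'⟩ := key b hb
    exact ⟨g'⁻¹ * g, mul_mem (inv_mem hg') hg, by rw [mul_smul, e, ← e', inv_smul_smul]⟩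

end Cfsg.Agent.S3760
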