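import Cfsg.Statements.S3761
import Cfsg.Agent.H9.MaxClass

set_option autoImplicit false
open Cfsg

namespace Cfsg.Agent.S3761

/-- Let G be a finite non-abelian p-group with a cyclic normal subgroup U of order p^n such that C_G(U) = U. Then either p = 2 and G is dihedral, generalized quaternion or semidihedral of order 2^(n+1); or, writing U₁ for the subgroup generated by the p-th powers of elements of U and M = C_G(U₁), the subgroup U has index p in M and the subgroup Ω₁(M) generated by the elements of M of order dividing p is elementary abelian of order p² and characteristic in G. -/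
theorem result {G : Type*} [Group G] [Finite G] {p : ℕ} [Fact p.Prime] (hG : IsPGroup p G) (hna : ¬ IsMulCommutative G) (U : Subgroup G) [U.Normal] (hU : IsCyclic U) (n : ℕ) (hUn : Nat.card U = p ^ n) (hC : Subgroup.centralizer (U : Set G) = U) : (p = 2 ∧ Nat.card G = 2 ^ (n + 1) ∧ ((∃ m : ℕ, Nonempty (G ≃* DihedralGroup m)) ∨ (∃ m : ℕ, Nonempty (G ≃* QuaternionGroup m)) ∨ Cfsg.IsQuasiDihedral G)) ∨ (U.relIndex (Subgroup.centralizer (Cfsg.powerClosure p 1 U : Set G)) = p ∧ Cfsg.IsElementaryAbelian p (Cfsg.omegaOne p (Subgroup.centralizer (Cfsg.powerClosure p 1 U : Set G))) ∧ Nat.card ↥(Cfsg.omegaOne p (Subgroup.centralizer (Cfsg.powerClosure p 1 U : Set G))) = p ^ 2 ∧ (Cfsg.omegaOne p (Subgroup.centralizer (Cfsg.powerClosure p 1 U : Set G))).Characteristic) := by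
  obtain ⟨x, rfl⟩ := (Subgroup.isCyclic_iff_exists_zpowers_eq_top _).1 hU
  rw [H9.mho_zpowers, H18.C_zpowers]
  rcases H9.selfcent_cyclic hG hna inferInstance (H18.C_zpowers.symm.trans hC) with
    ⟨rfl, k, h⟩ | ⟨h1, h2, h3⟩
  · refine Or.inl ⟨rfl, ?_, ?_⟩
    · rw [← Subgroup.card_top, h.card_eq, pow_succ 2 n, ← hUn, Nat.card_zpowers, h.ordx]; ring
    · rcases h.types_top with h1 | h1 | h1
      exacts [Or.inl ⟨_, h1⟩, Or.inr (Or.inl ⟨_, h1⟩), Or.inr (Or.inr h1)]
  · exact Or.inr ⟨h1, H3.elem_iff.1 h2.elem, h2.card, h3⟩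

end Cfsg.Agent.S3761
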