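import Cfsg.Statements.S3763
import Cfsg.Agent.H21.ExtraClass

set_option autoImplicit false
open Cfsg

namespace Cfsg.Agent.S3763

/-- Let E be an extraspecial 2-group of order 2^(2n+1). Then the largest elementary abelian subgroups of E have order 2^n or 2^(n+1); and two extraspecial 2-groups of the same order whose largest elementary abelian subgroups have the same order are isomorphic. -/
theorem result {E : Type*} [Group E] [Finite E] (hE : Cfsg.IsExtraspecial 2 E) (n : ℕ) (hn : Nat.card E = 2 ^ (2 * n + 1)) : ((Cfsg.PRankLE 2 n E ∧ ¬ Cfsg.PRankLE 2 (n - 1) E) ∨ (Cfsg.PRankLE 2 (n + 1) E ∧ ¬ Cfsg.PRankLE 2 n E)) ∧ ∀ (E' : Type*) [Group E'] [Finite E'], Cfsg.IsExtraspecial 2 E' → Nat.card E' = Nat.card E → (∀ k : ℕ, Cfsg.PRankLE 2 k E ↔ Cfsg.PRankLE 2 k E') → Nonempty (E ≃* E') := by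
  have hp := Nat.prime_two
  obtain ⟨h1, h2⟩ := (H21.isExtraspecial_iff_top hp).1 hE
  have hn' := Subgroup.card_top.trans hn
  have h3 := mt (h1.abel_iff_card hp hn').2 h2
  have e := h1.prank_eq hn'
  refine ⟨by simp only [← H18.prank_top_le_iff hp]; omega, fun E' _ _ hE' e1 k => ?_⟩
  have h1' := ((H21.isExtraspecial_iff_top hp).1 hE').1
  have e' := h1'.prank_eq (Subgroup.card_top.trans (e1.trans hn))
  have k1 := k n
  rw [← H18.prank_top_le_iff hp, ← H18.prank_top_le_iff hp, ] at k1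
  refine H21.nonempty_equiv_of_ssum h1 h1' e1.symm ?_
  rcases e with e | e <;> rcases e' with e' | e'
  · rw [e.1, e'.1]
  · exact absurd (k1.2 e'.2.le) (by rw [e.2]; omega)
  · exact absurd (k1.1 e.2.le) (by rw [e'.2]; omega)
  · rw [e.1, e'.1]

end Cfsg.Agent.S3763
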