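import Cfsg.Statements.S3764
import Cfsg.Agent.H21.HHX

set_option autoImplicit false
open Cfsg

namespace Cfsg.Agent.S3764

open H18 H19 H5 H21 H1 Subgroup

/-- Let p, q, r be distinct primes and let X, Q, V be subgroups of a finite group with X of order r, Q an extraspecial q-group normalized by X with C_Q(X) = Z(Q), and V an elementary abelian p-group normalized by X and Q on which XQ acts faithfully ((X ⊔ Q) ∩ C(V) = 1). If C_V(X) = 1, then q = 2, r = 2^n + 1 for some n, and Q has order 2^(2n+1). -/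
theorem result {G : Type*} [Group G] [Finite G] {p q r : ℕ} (hp : p.Prime) (hq : q.Prime) (hr : r.Prime) (hpq : p ≠ q) (hpr : p ≠ r) (hqr : q ≠ r) (X Q V : Subgroup G) (hX : Nat.card X = r) (hQ : Cfsg.IsExtraspecial q ↥Q) (hXQ : X ≤ Subgroup.normalizer (Q : Set G)) (hCQ : Q ⊓ Subgroup.centralizer (X : Set G) = (Subgroup.center ↥Q).map Q.subtype) (hV : Cfsg.IsElementaryAbelian p V) (hXV : X ≤ Subgroup.normalizer (V : Set G)) (hQV : Q ≤ Subgroup.normalizer (V : Set G)) (hfaith : (X ⊔ Q) ⊓ Subgroup.centralizer (V : Set G) = ⊥) (hCV : V ⊓ Subgroup.centralizer (X : Set G) = ⊥) : q = 2 ∧ ∃ n : ℕ, r = 2 ^ n + 1 ∧ Nat.card Q = 2 ^ (2 * n + 1) := by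
  obtain ⟨h, na⟩ := (isExtraspecial_iff hq).1 hQ
  rw [map_center] at hCQ
  have a := (elem_iff.2 hV).pi' hp
  have b := h.pi hq
  have c := piGrp_of_prime hr hX
  have hX' : (Nat.card X).Prime := hX ▸ hr
  have cop : Cop X Q := ⟨hXQ, c.coprime (b.p'_of_ne hqr), Or.inr b.solv⟩
  obtain ⟨θ, hθ, t1, d, d1, d2, d3⟩ := coreX_cent hX' cop (phi_nongen (comm_le_left hXQ) (by
    rw [h.phi_eq hq na, ← hCQ, cop.comm_sup])) (h.der_le.trans inf_le_right) (hCQ.le.trans inf_le_right) a.solv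
    ⟨hXV, c.coprime (a.p'_of_ne hpr), Or.inr a.solv⟩ ⟨hQV, b.coprime (a.p'_of_ne hpq), Or.inr a.solv⟩ hCV
    (Y := Z(Q)) inf_le_left fun e => h.Z_ne_bot hq (le_bot_iff.1 ((le_inf (inf_le_left.trans le_sup_right) e).trans hfaith.le))
  have t2 : cfker Q θ = ⊥ := by_contra fun e => t1 (h.Z_le_of_nml hq (cfker_nml (cf_of_irr hθ)) e)
  have t3 : zth Q θ = Z(Q) := le_antisymm (le_inf cm_le (comm_eq_bot_iff.1 (le_bot_iff.1 (t2 ▸ comm_zth_le hθ))))
    (le_zth hθ inf_le_left ((comm_eq_bot_iff.2 inf_le_right).le.trans bot_le))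
  obtain ⟨n, hn⟩ := h.exists_card hq
  rw [t3, relIndex_eq_of_mul (n := q ^ (2 * n)) inf_le_left (by rw [hn, h.card, pow_succ'])] at d3
  obtain ⟨rfl, k, rfl⟩ := two_of_sq hq hX' d1 d2 d3.dvd
  rw [← pow_mul] at d3
  exact ⟨rfl, k, by omega, by rw [hn, ← Nat.pow_right_injective le_rfl d3, mul_comm]⟩

end Cfsg.Agent.S3764
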