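import Cfsg.Statements.S3765
import Cfsg.Agent.H21.HHX

set_option autoImplicit false
open Cfsg

namespace Cfsg.Agent.S3765

open H18 H21 H1 Subgroup

/-- Let p, q, r be distinct primes and let X, Q, V be subgroups of a finite group with X of order r normalizing the q-group Q and acting faithfully on it (X ∩ C(Q) = 1), and V a nontrivial elementary abelian p-group normalized by X and Q on which XQ acts faithfully. If q = 2 and r has the form 2^n + 1, assume in addition that Q is abelian. Then C_V(X) ≠ 1. -/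
theorem result {G : Type*} [Group G] [Finite G] {p q r : ℕ} (hp : p.Prime) (hq : q.Prime) (hr : r.Prime) (hpq : p ≠ q) (hpr : p ≠ r) (hqr : q ≠ r) (X Q V : Subgroup G) (hX : Nat.card X = r) (hQ : IsPGroup q Q) (hXQ : X ≤ Subgroup.normalizer (Q : Set G)) (hXfaith : X ⊓ Subgroup.centralizer (Q : Set G) = ⊥) (hV : Cfsg.IsElementaryAbelian p V) (hV1 : V ≠ ⊥) (hXV : X ≤ Subgroup.normalizer (V : Set G)) (hQV : Q ≤ Subgroup.normalizer (V : Set G)) (hfaith : (X ⊔ Q) ⊓ Subgroup.centralizer (V : Set G) = ⊥) (hexc : q = 2 → (∃ n : ℕ, r = 2 ^ n + 1) → IsMulCommutative Q) : V ⊓ Subgroup.centralizer (X : Set G) ≠ ⊥ := by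
  intro h
  have a := (elem_iff.2 hV).pi' hp
  have b := piGrp_of_isPGroup hq hQ
  have c := piGrp_of_prime hr hX
  have hX' : (Nat.card X).Prime := hX ▸ hr
  obtain ⟨e1, e2, e3⟩ := fermat_of_fpf hX' b ⟨hXQ, c.coprime (b.p'_of_ne hqr), Or.inr b.solv⟩
    (fun e => ne_bot_of_prime hX' (le_bot_iff.1 ((le_inf le_rfl (cent_symm e)).trans hXfaith.le))) a.solv
    ⟨hXV, c.coprime (a.p'_of_ne hpr), Or.inr a.solv⟩ ⟨hQV, b.coprime (a.p'_of_ne hpq), Or.inr a.solv⟩ h
    (le_bot_iff.1 ((inf_le_inf_right _ le_sup_right).trans hfaith.le))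
  exact e3 (abel_of_comm (hexc e1 (hX ▸ e2)))

end Cfsg.Agent.S3765
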