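import Cfsg.Statements.S3766
import Cfsg.Agent.H18.BG1

set_option autoImplicit false
open Cfsg

namespace Cfsg.Agent.S3766

open H18 Subgroup
open scoped commutatorElement

lemma chief_iff {G : Type*} [Group G] [Finite G] {U V : Subgroup G} : Chief ⊤ V U ↔
    (U.Normal ∧ V.Normal ∧ V < U ∧ ∀ W : Subgroup G, W.Normal → V ≤ W → W ≤ U → W = V ∨ W = U) := by
  constructor
  · intro h
    exact ⟨h.nmlU.normal, h.nmlV.normal, h.lt, fun W hW h1 h2 => h.eq_or_eq h1 h2 norm_of_normal⟩
  · rintro ⟨h1, h2, h3, h4⟩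
    exact ⟨h3, nml_top, nml_top, fun W a b c => (h4 W (norm_top_iff.1 c) a.le b).resolve_left a.ne'⟩

lemma comm_ncl {G : Type*} [Group G] {U V : Subgroup G} [U.Normal] [V.Normal] {g : G}
    (h : ∀ u ∈ U, u * g * u⁻¹ * g⁻¹ ∈ V) : ⁅U, normalClosure {g}⁆ ≤ V := by
  have hn : qpre V C(U ⫽ V) ⊴ ⊤ := nml_qpre nml_top ⟨by
    exact le_quo_N.trans (mim_mono le_top), norm_C (mim_norm norm_of_normal)⟩
  haveI := hn.normal
  have h1 : normalClosure {g} ≤ qpre V C(U ⫽ V) := by
    apply normalClosure_le_normal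
    rintro x hx
    obtain rfl : g = x := hx.symm
    refine mem_mpre.2 ⟨norm_of_normal (H := ⊤) trivial, ?_⟩
    rw [← zpowers_le, ← mim_zpowers (norm_of_normal (H := ⊤) trivial), cent_comm,
      ← comm_le_iff_quo norm_of_normal norm_of_normal]
    rw [comm_le_iff_quo norm_of_normal norm_of_normal, mim_zpowers (norm_of_normal (H := ⊤) trivial),
      C_zpowers]
    intro z hz
    obtain ⟨u, hu, rfl⟩ := (mem_quo norm_of_normal).1 hz
    have hu' : u ∈ N(V) := norm_of_normal (H := ⊤) trivial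
    have hg' : g ∈ N(V) := norm_of_normal (H := ⊤) trivial
    rw [mem_C1, ← commutatorElement_eq_one_iff_mul_comm, ← mfun_comm hu' hg']
    exact cs_eq_one (h u hu)
  rw [comm_le_iff_quo norm_of_normal norm_of_normal, cent_comm, mim_le_iff norm_of_normal]
  exact h1

/-- Let G be a finite solvable group and N a normal subgroup of G. Call a pair V < U of normal subgroups of G a chief factor of G when no normal subgroup of G lies strictly between them; an element g centralizes the chief factor U/V when u g u⁻¹ g⁻¹ ∈ V for all u ∈ U. Then an element of G lies in the Fitting subgroup F(N) if and only if it lies in N and centralizes every chief factor of G; and also if and only if it lies in N and centralizes every chief factor U/V of G with U ≤ F(N). -/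
theorem result {G : Type*} [Group G] [Finite G] (hG : Group.IsSolvable G) (N : Subgroup G) [N.Normal] (g : G) : (g ∈ (Cfsg.fittingSubgroup ↥N).map N.subtype ↔ g ∈ N ∧ ∀ U V : Subgroup G, (U.Normal ∧ V.Normal ∧ V < U ∧ ∀ W : Subgroup G, W.Normal → V ≤ W → W ≤ U → W = V ∨ W = U) → ∀ u ∈ U, u * g * u⁻¹ * g⁻¹ ∈ V) ∧ (g ∈ (Cfsg.fittingSubgroup ↥N).map N.subtype ↔ g ∈ N ∧ ∀ U V : Subgroup G, (U.Normal ∧ V.Normal ∧ V < U ∧ ∀ W : Subgroup G, W.Normal → V ≤ W → W ≤ U → W = V ∨ W = U) → U ≤ (Cfsg.fittingSubgroup ↥N).map N.subtype → ∀ u ∈ U, u * g * u⁻¹ * g⁻¹ ∈ V) := by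
  have e : (Cfsg.fittingSubgroup ↥N).map N.subtype = F(N) := rfl
  rw [e]
  have hN : N ⊴ ⊤ := nml_top
  have a : g ∈ F(N) → ∀ U V : Subgroup G, (U.Normal ∧ V.Normal ∧ V < U ∧ ∀ W : Subgroup G, W.Normal →
      V ≤ W → W ≤ U → W = V ∨ W = U) → ∀ u ∈ U, u * g * u⁻¹ * g⁻¹ ∈ V := fun hg U V h u hu =>
    (chief_iff.2 h).comm_fit_le' hN (commutator_mem_commutator hu hg)
  have b : g ∈ N → (∀ U V : Subgroup G, (U.Normal ∧ V.Normal ∧ V < U ∧ ∀ W : Subgroup G, W.Normal →
      V ≤ W → W ≤ U → W = V ∨ W = U) → U ≤ F(N) → ∀ u ∈ U, u * g * u⁻¹ * g⁻¹ ∈ V) → g ∈ F(N) := by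
    intro hg h
    have hK : normalClosure {g} ≤ N := normalClosure_le_normal (by simpa using hg)
    have h1 : normalClosure {g} ≤ F((⊤ : Subgroup G)) := by
      refine chief_stab_sub_Fitting (solv_top_iff.2 hG) nml_top fun V U hc hU => ?_
      haveI := hc.nmlU.normal
      haveI := hc.nmlV.normal
      by_cases hle : U ⊓ N ≤ V
      · exact (comm_mono le_rfl hK).trans ((commutator_le_inf U N).trans hle)
      have e1 : V ⊔ (U ⊓ N) = U :=
        hc.max _ (left_lt_sup.2 hle) (sup_le hc.le inf_le_left) norm_of_normal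
      have hc' : Chief ⊤ (V ⊓ N) (U ⊓ N) := by
        refine ⟨lt_of_le_of_ne (inf_le_inf_right _ hc.le) fun e => hle (e ▸ inf_le_left), nml_top, nml_top,
          fun W h1 h2 h3 => ?_⟩
        haveI := norm_top_iff.1 h3
        have h4 : ¬ W ≤ V := fun e => h1.not_ge (le_inf e (h2.trans inf_le_right))
        have e2 : V ⊔ W = U := hc.max _ (left_lt_sup.2 h4) (sup_le hc.le (h2.trans inf_le_left)) norm_of_normal
        rw [← e2, Nrm2.modular' (Or.inl norm_of_normal) (h2.trans inf_le_right)]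
        exact (sup_eq_right.2 h1.le).symm
      have h2 := comm_ncl (h _ _ (chief_iff.1 hc') (by
        rw [hN.fit_eq_inf]; exact le_inf inf_le_right (inf_le_left.trans hU)))
      rw [← e1]
      exact comm_sup_le (commutator_le_left _ _) (h2.trans inf_le_left) norm_of_normal norm_of_normal
    rw [hN.fit_eq_inf]
    exact ⟨hg, h1 (subset_normalClosure rfl)⟩
  exact ⟨⟨fun hg => ⟨fit_le hg, a hg⟩, fun h => b h.1 fun U V hc _ => h.2 U V hc⟩,
    ⟨fun hg => ⟨fit_le hg, fun U V hc _ => a hg U V hc⟩, fun h => b h.1 h.2⟩⟩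

end Cfsg.Agent.S3766
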