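import Cfsg.Statements.S3767
import Cfsg.Agent.H1.BG2
import Cfsg.Agent.H21.Extra
import Cfsg.Agent.H18.Prod

set_option autoImplicit false
open Cfsg

namespace Cfsg.Agent.S3767

open H18 H21 Subgroup

/-- Let P be an extraspecial p-group of order p^(2n+1) and H a cyclic group of order h prime to p acting on P (inside a common finite group: H normalizes P) so that C_P(x) = Z(P) for every non-identity x ∈ H. Then h divides p^n + 1 or h divides p^n − 1. -/
theorem result {G : Type*} [Group G] [Finite G] {p : ℕ} [Fact p.Prime] (P H : Subgroup G) (hP : Cfsg.IsExtraspecial p ↥P) (n : ℕ) (hn : Nat.card P = p ^ (2 * n + 1)) (hH : IsCyclic H) (hcop : (Nat.card H).Coprime p) (hHP : H ≤ Subgroup.normalizer (P : Set G)) (hfix : ∀ x ∈ H, x ≠ 1 → P ⊓ Subgroup.centralizer {x} = (Subgroup.center ↥P).map P.subtype) : Nat.card H ∣ p ^ n + 1 ∨ Nat.card H ∣ p ^ n - 1 := by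
  have hp : p.Prime := Fact.out
  obtain ⟨hE, hna⟩ := (isExtraspecial_iff hp).1 hP
  have hd : ¬ p ∣ Nat.card H := (Nat.Prime.coprime_iff_not_dvd hp).1 hcop.symm
  refine H1.extraspecial_prime_sdprod_cycle hp ⟨hE.phi_eq hp hna, hE.der_eq hp hna, ?_⟩ hn
    (sd_sup hHP ((hE.pi hp).inf_eq_bot ((piNat_compl_iff hp).2 hd))) (Cyc.abel hH) hd fun x hx h1 => ?_
  · rw [hE.card]; exact hp
  · rw [← map_center]; exact hfix x hx h1

end Cfsg.Agent.S3767
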