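import Cfsg.Statements.S3768
import Cfsg.Agent.H21.FrobB

set_option autoImplicit false
open Cfsg

namespace Cfsg.Agent.S3768

open H18 H21 Subgroup

/-- Let G be a finite Frobenius group with Frobenius complement R and Frobenius kernel K (the identity together with the elements in no conjugate of R), and let N be a normal subgroup of G not containing K. Then G/N is a Frobenius group with Frobenius complement RN/N whose Frobenius kernel is the image of K. -/
theorem result {G : Type*} [Group G] [Finite G] (R : Subgroup G) (hR : Cfsg.IsFrobeniusComplement R) (N : Subgroup G) [N.Normal] (hKN : ¬ Cfsg.frobeniusKernel R ⊆ N) : Cfsg.IsFrobeniusComplement (R.map (QuotientGroup.mk' N)) ∧ Cfsg.frobeniusKernel (R.map (QuotientGroup.mk' N)) = QuotientGroup.mk' N '' Cfsg.frobeniusKernel R := by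
  obtain ⟨K, e, hf⟩ := exists_frob_top hR
  have h := frob_mim (f := topq N) hf le_rfl (by rw [mker_topq]; intro h; exact hKN (e ▸ h))
  rw [mim_topq_top, mim_topq, mim_topq] at h
  obtain ⟨h1, h2⟩ := isFrobeniusComplement_of_frob h
  exact ⟨h1, by rw [h2, ← e, coe_map]⟩

end Cfsg.Agent.S3768
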