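import Cfsg.Statements.S3772
import Cfsg.Agent.H21.ExtraClass

set_option autoImplicit false
open Cfsg

namespace Cfsg.Agent.S3772

open H18 H21 Subgroup
open scoped commutatorElement

/-- Let G be a finite 2-group whose Frattini subgroup Φ(G) has order 2, with |G : Φ(G)| = 2^d, and let j be the number of elements x of G with x² = 1. Then j = 2^d, or j = 2^d + 2^(d−r) or j = 2^d − 2^(d−r) for some positive integer r with 2r ≤ d. Moreover if d = 2r and j is 2^d + 2^r or 2^d − 2^r, then G is extraspecial. -/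
theorem result {G : Type*} [Group G] [Finite G] (hG : IsPGroup 2 G) (hΦ : Nat.card (frattini G) = 2) (d : ℕ) (hd : (frattini G).index = 2 ^ d) : (Nat.card {x : G // x ^ 2 = 1} = 2 ^ d ∨ ∃ r : ℕ, 1 ≤ r ∧ 2 * r ≤ d ∧ (Nat.card {x : G // x ^ 2 = 1} = 2 ^ d + 2 ^ (d - r) ∨ Nat.card {x : G // x ^ 2 = 1} + 2 ^ (d - r) = 2 ^ d)) ∧ (∀ r : ℕ, d = 2 * r → (Nat.card {x : G // x ^ 2 = 1} = 2 ^ d + 2 ^ r ∨ Nat.card {x : G // x ^ 2 = 1} + 2 ^ r = 2 ^ d) → Cfsg.IsExtraspecial 2 G) := by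
  have hp := Nat.prime_two
  have hpi : PiGrp {2} (⊤ : Subgroup G) := piGrp_of_isPGroup hp (hG.to_subgroup ⊤)
  rw [← phi_top] at hΦ hd
  have hZ : Φ((⊤ : Subgroup G)) ≤ Z((⊤ : Subgroup G)) := hpi.le_Z_of_prime hp hΦ phi_nml
  have hw : W2 (⊤ : Subgroup G) Φ(⊤) := ⟨hΦ, hZ.trans inf_le_right, fun x hx => hpi.pow_mem_phi hp hx,
    fun x hx y hy => hpi.der_le_phi hp (commutator_mem_commutator hx hy)⟩
  have hc : Nat.card G = 2 ^ d * 2 := by rw [← hd, ← hΦ, index_mul_card]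
  obtain ⟨A, -, hA⟩ := exists_max_abel (abel_bot (G := G)) (bot_le : ⊥ ≤ ⊤)
  have e1 : C((⊤ : Subgroup G)).relIndex A = C(A).relIndex ⊤ :=
    CPair.relIndex_eq ⟨cyc_of_prime (hΦ ▸ hp), fun a _ b hb => hw.comm a trivial b hb,
      hw.cent.trans (C_anti le_top), hw.cent⟩
  rw [top_inf_eq] at hA
  obtain ⟨r, hr⟩ := (hpi.relIndex (A := A)).eq_pow relIndex_ne_zero
  have e2 : Nat.card (Z((⊤ : Subgroup G)) : Subgroup G) * 2 ^ (2 * r) = 2 ^ d * 2 := by
    have h1 : C((⊤ : Subgroup G)) ≤ A := (C_anti le_top).trans hA.le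
    rw [top_inf_eq, ← hc, ← card_top (G := G), ← card_mul_relIndex (le_top : A ≤ ⊤), ← card_mul_relIndex h1, e1, hA, hr]
    ring
  obtain ⟨s, hs⟩ := (hpi.of_le (inf_le_left : Z((⊤ : Subgroup G)) ≤ ⊤)).card_eq_pow
  have hs1 : 1 ≤ s := by
    have := card_le hZ
    rw [hΦ, hs] at this
    exact (Nat.pow_le_pow_iff_right one_lt_two).1 (by simpa using this)
  rw [hs, ← pow_add, ← pow_succ] at e2
  have e3 := Nat.pow_right_injective le_rfl e2
  have e4 := hw.ssum_sq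
  have e5 := ssum_top (G := G)
  rw [hc] at e5
  rw [card_top, hc, Nat.cast_mul, Nat.cast_pow, Nat.cast_ofNat] at e4
  push_cast at e5
  have hwZ : W2 Z((⊤ : Subgroup G)) Φ(⊤) := ⟨hΦ, hw.cent.trans (C_anti le_top), fun x _ => hw.sq x trivial,
    fun x _ y _ => hw.comm x trivial y trivial⟩
  have key : ssum (⊤ : Subgroup G) = 0 ∨ (1 ≤ r ∧ (ssum (⊤ : Subgroup G) = 2 * 2 ^ (d - r) ∨
      ssum (⊤ : Subgroup G) = -(2 * 2 ^ (d - r)))) := by
    rcases hwZ.ssum_of_abel abel_Z with h | h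
    · left; rwa [h, mul_zero, pow_eq_zero_iff two_ne_zero] at e4
    right
    constructor
    · by_contra h0
      have h1 : Z((⊤ : Subgroup G)) = ⊤ := eq_of_card_eq le_top (by
        rw [hs, card_top, hc, ← pow_succ]; congr 1; omega)
      have h2 : Φ((⊤ : Subgroup G)) = ⊥ := (hpi.phi_eq_bot_iff hp).2 ⟨h1.ge.trans inf_le_right, fun x hx => h x (h1.ge hx)⟩
      simp [h2] at hΦ
    · rw [← sq_eq_sq_iff_eq_or_eq_neg, e4, ssum_of_sq h, hs]
      push_cast
      rw [← pow_succ, ← pow_add, ← pow_succ', ← pow_mul]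
      congr 1
      omega
  constructor
  · rcases key with h | ⟨h0, h | h⟩
    · left; zify; omega
    · exact Or.inr ⟨r, h0, by omega, Or.inl (by zify; omega)⟩
    · exact Or.inr ⟨r, h0, by omega, Or.inr (by zify; omega)⟩
  · intro t ht hj
    have h0 : (0 : ℤ) < 2 ^ t := by positivity
    have h0' : (0 : ℤ) < 2 ^ (d - r) := by positivity
    zify at hj
    have h1 : 1 ≤ r ∧ (2 : ℤ) ^ t = 2 ^ (d - r) := by
      rcases key with h | ⟨h0, h | h⟩
      · omega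
      · exact ⟨h0, by omega⟩
      · exact ⟨h0, by omega⟩
    have h2 := Nat.pow_right_injective le_rfl (by exact_mod_cast h1.2 : 2 ^ t = 2 ^ (d - r))
    have h3 : Nat.card (Z((⊤ : Subgroup G)) : Subgroup G) = 2 := by rw [hs, show s = 1 by omega, pow_one]
    refine (isExtraspecial_iff_top hp).2 ⟨⟨h3, (hpi.der_le_phi hp).trans hw.cent⟩, fun h => ?_⟩
    rw [h.Z_eq, card_top, hc, ← pow_succ] at h3
    have := Nat.pow_right_injective le_rfl (h3.trans (pow_one 2).symm)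
    omega

end Cfsg.Agent.S3772
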