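import Cfsg.Statements.S3773
import Cfsg.Agent.H17.QR

set_option autoImplicit false
open Cfsg

namespace Cfsg.Agent.S3773

open Subgroup H18 H17.QR
open scoped commutatorElement

/-- Let G be a finite 2-group of nilpotency class at most 2 and exponent dividing 4 in which the elements x with x² = 1 form a subgroup N. Then |G| ≤ |N|³, and |G| < |N|³ unless G is special. -/
theorem result {G : Type*} [Group G] [Finite G] (hG : IsPGroup 2 G) (hcl : (⊤ : Subgroup G).lowerCentralSeries 2 = ⊥) (hexp : ∀ x : G, x ^ 4 = 1) (hN : ∀ x y : G, x ^ 2 = 1 → y ^ 2 = 1 → (x * y) ^ 2 = 1) : Nat.card G ≤ Nat.card {x : G // x ^ 2 = 1} ^ 3 ∧ (¬ Cfsg.IsSpecial 2 G → Nat.card G < Nat.card {x : G // x ^ 2 = 1} ^ 3) := by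
  classical
  have hc := comm_central hcl
  obtain ⟨hZ, h2⟩ := phi4 hG hc hexp
  let N : Subgroup G :=
    { carrier := {x | x ^ 2 = 1}
      one_mem' := one_pow _
      mul_mem' := fun {a b} => hN a b
      inv_mem' := fun {a} ha => by rw [Set.mem_ofPred_eq, inv_pow, ha, inv_one] }
  rw [show Nat.card {x : G // x ^ 2 = 1} = Nat.card N from rfl]
  have cf : ∀ a b : G, ⁅a, b⁆ ∈ frattini G := fun a b =>
    H3.commutator_le_frattini hG (commutator_mem_commutator (mem_top a) (mem_top b))
  have sf := H3.pow_mem_frattini hG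
  have fN : frattini G ≤ N := h2
  have : N.Normal := Normal.of_commutator_le G ((H3.commutator_le_frattini hG).trans fN)
  have f0 : 0 < Nat.card (frattini G) := Nat.card_pos
  have c1 : Nat.card G ≤ Nat.card N * Nat.card (frattini G) ^ 2 := by
    obtain ⟨W, w1, w2, w3⟩ := exists_compl hG N
    have a := aniso_grp hG (W := W) (K := ⊥) (E := frattini G) hZ h2 (fun g _ => sf g) (fun g _ h _ => cf g h) w1
      (fun g hg => ⟨h2 g, fun h => w3 ⟨hg, h⟩⟩)
      fun e he g _ => commutatorElement_eq_one_iff_mul_comm.2 (mem_center_iff.1 (hZ he) g)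
    have b := H1.card_sup_mul_card_inf (H := W) (N := N) le_normalizer_of_normal
    rw [sup_comm, w2, inf_comm, le_antisymm w3 (le_inf w1 fN), card_top] at b
    rw [relIndex_bot_left] at a
    refine Nat.le_of_mul_le_mul_right ?_ f0
    rw [b]
    nlinarith [Nat.mul_le_mul_left (Nat.card N) a]
  have c2 := card_le_of_le fN
  have n0 : 0 < Nat.card N := Nat.card_pos
  refine ⟨c1.trans (by nlinarith [Nat.pow_le_pow_left c2 2]), fun ns => ?_⟩
  rcases fN.eq_or_lt with e | lt
  swap
  · have := Nat.pow_lt_pow_left (lt_of_le_of_ne c2 fun e => lt.ne (eq_of_le_of_card_ge fN e.ge)) two_ne_zero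
    nlinarith
  rw [← e]
  have hN' : ∀ g : G, g ^ 2 = 1 → g ∈ frattini G := fun g hg => by rw [e]; exact hg
  by_cases hd : commutator G = frattini G
  · have : ¬ center G ≤ frattini G := fun h => ns ⟨hG, le_antisymm hZ h, hd.trans (le_antisymm hZ h)⟩
    obtain ⟨z, z1, z2⟩ := SetLike.not_le_iff_exists.1 this
    have z3 : z ^ 2 ≠ 1 := mt (hN' z) z2
    have oz : orderOf (z ^ 2) = 2 := orderOf_eq_prime (h2 _ (sf z)) z3
    have EZ : frattini G ⊔ zpowers z ≤ center G := sup_le hZ (zpowers_le.2 z1)
    have a := aniso_grp hG (W := ⊤) (K := zpowers (z ^ 2)) (E := frattini G ⊔ zpowers z) hZ h2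
      (fun g _ => sf g) (fun g _ h _ => cf g h) le_top
      (fun g _ => ⟨fun h => by
          obtain ⟨a, ha, _, ⟨n, rfl⟩, rfl⟩ := mem_sup_of_normal_left.1 h
          rw [(show Commute a _ from (mem_center_iff.1 (hZ ha) _).symm).mul_pow, h2 a ha, one_mul]
          exact ⟨n, by simp only [← zpow_natCast, ← zpow_mul, mul_comm]⟩,
        fun h => by
          have h : g ^ 2 = 1 ∨ g ^ 2 = z ^ 2 := by
            rw [mem_zpowers_iff_mem_range_orderOf, oz] at h
            obtain ⟨i, hi, h⟩ := Finset.mem_image.1 h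
            rw [← h]
            have : i < 2 := Finset.mem_range.1 hi
            interval_cases i <;> simp
          rcases h with h | h
          · exact mem_sup_left (hN' g h)
          · have : g * z⁻¹ ∈ frattini G := hN' _ (by
              rw [(show Commute g _ from mem_center_iff.1 (inv_mem z1) _).mul_pow, h, inv_pow, mul_inv_cancel])
            simpa using mul_mem (mem_sup_left this) (mem_sup_right (mem_zpowers z))⟩)
      fun e he g _ => by rw [commutatorElement_eq_one_iff_mul_comm.2 (mem_center_iff.1 (EZ he) g)]; exact one_mem _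
    have b := card_mul_relIndex (zpowers_le.2 (sf z))
    rw [Nat.card_zpowers, oz] at b
    have c : (frattini G).relIndex (frattini G ⊔ zpowers z) = 2 := by
      rw [relIndex_sup_left, ← H1.card_map_mk', MonoidHom.map_zpowers, Nat.card_zpowers]
      refine orderOf_eq_prime ?_ fun e => z2 ((QuotientGroup.eq_one_iff z).mp e)
      rw [← map_pow]
      exact (QuotientGroup.eq_one_iff _).mpr (sf z)
    rw [card_top, ← card_mul_relIndex (le_sup_left : frattini G ≤ _), c] at a
    generalize (zpowers (z ^ 2)).relIndex (frattini G) = r at a b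
    rw [← b] at a f0 ⊢
    have : 0 < r ^ 3 := pow_pos (by omega) 3
    nlinarith
  · obtain ⟨M, m1, m2, m3⟩ := H3.exists_max_sub Nat.prime_two
      (piGrp_of_isPGroup Nat.prime_two (hG.to_subgroup (frattini G)))
      (lt_of_le_of_ne (H3.commutator_le_frattini hG) hd)
    have : M.Normal := Normal.of_commutator_le G m1
    have cm : ∀ a b : G, ⁅a, b⁆ ∈ M := fun a b => m1 (commutator_mem_commutator (mem_top a) (mem_top b))
    let φ : G →* G ⧸ M := MonoidHom.mk' (fun g => ((g ^ 2 : G) : G ⧸ M)) fun a b => by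
      rw [mul_sq, QuotientGroup.mk_mul, QuotientGroup.mk_mul_of_mem _ (cm _ _)]
    have i : φ.ker.index ≤ 2 := by
      rw [index_ker, ← m3, ← H1.card_map_mk']
      exact card_le_of_le (by rintro _ ⟨g, rfl⟩; exact ⟨g ^ 2, sf g, rfl⟩)
    have a := aniso_grp hG (W := φ.ker) (H := M) (K := ⊥) (E := frattini G) (m2.le.trans hZ)
      (fun h hh => h2 h (m2.le hh)) (fun g hg => (QuotientGroup.eq_one_iff _).1 hg) (fun g _ h _ => cm g h)
      (fun g hg => by
        show ((g ^ 2 : G) : G ⧸ M) = 1
        rw [h2 g hg]; rfl)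
      (fun g _ => ⟨h2 g, hN' g⟩)
      fun e he g _ => commutatorElement_eq_one_iff_mul_comm.2 (mem_center_iff.1 (hZ he) g)
    have b := card_mul_relIndex m2.le
    rw [relIndex_bot_left] at a
    rw [m3] at b
    rw [← φ.ker.card_mul_index]
    rw [← b] at a f0 ⊢
    generalize Nat.card M = r at *
    have : 0 < r ^ 3 := pow_pos (by omega) 3
    nlinarith [Nat.mul_le_mul a i]

end Cfsg.Agent.S3773
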