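import Cfsg.Statements.S3774
import Cfsg.Agent.H9.SylowBasic

set_option autoImplicit false
open Cfsg

open Subgroup

namespace Cfsg.Agent.S3774

/-- Let G be a nontrivial finite 2-group whose automorphism group permutes the involutions of G transitively. Then every involution of G is central, so that the involutions together with 1 form the subgroup Ω₁(Z(G)), and if this subgroup has order q then |G| is a power of q. -/
theorem result {G : Type*} [Group G] [Finite G] [Nontrivial G] (hG : IsPGroup 2 G) (htrans : ∀ x y : G, x ≠ 1 → x ^ 2 = 1 → y ≠ 1 → y ^ 2 = 1 → ∃ a : MulAut G, a x = y) : (∀ x : G, x ^ 2 = 1 → x ∈ Subgroup.center G) ∧ ∃ m : ℕ, Nat.card G = Nat.card {z : G // z ^ 2 = 1} ^ m := by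
  classical
  have := Fintype.ofFinite G
  have h1 : ∀ x : G, x ^ 2 = 1 → x ∈ center G := fun x hx => by
    by_cases x1 : x = 1
    · exact x1 ▸ one_mem _
    have := hG.center_nontrivial
    obtain ⟨z, hz⟩ := exists_prime_orderOf_dvd_card' (G := center G) 2 (by
      obtain ⟨k, h0, hk⟩ := (hG.to_subgroup (center G)).nontrivial_iff_card.1 this
      exact hk ▸ dvd_pow_self 2 h0.ne')
    rw [← orderOf_coe] at hz
    obtain ⟨a, rfl⟩ := htrans z x (fun e => by simp [e] at hz) (hz ▸ pow_orderOf_eq_one _) x1 hx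
    exact mem_center_iff.2 fun g => by
      rw [← a.apply_symm_apply g, ← map_mul, ← map_mul, mem_center_iff.1 z.2]
  refine ⟨h1, ?_⟩
  let V : Subgroup G := ⟨⟨⟨{z | z ^ 2 = 1}, fun {a b} ha hb => by
    rw [Set.mem_ofPred, Commute.mul_pow (mem_center_iff.1 (h1 b hb) a), ha, hb, one_mul]⟩, one_pow 2⟩,
    fun {a} ha => by rw [Set.mem_ofPred, inv_pow, ha, inv_one]⟩
  obtain ⟨n, hn⟩ := (hG.to_subgroup V).exists_card_eq
  obtain ⟨m, hm⟩ := hG.exists_card_eq
  let f : G → G := fun x => x ^ (orderOf x / 2)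
  have h2 : ∀ x ∈ ({1}ᶜ : Finset G), f x ∈ (Finset.univ.filter (· ^ 2 = 1)).erase 1 := fun x hx => by
    obtain ⟨k, hk⟩ := IsPGroup.iff_orderOf.1 hG x
    have : orderOf (f x) = 2 := orderOf_pow_orderOf_div (orderOf_pos x).ne'
      (hk ▸ dvd_pow_self 2 fun e => by simp [e] at hk; simp [hk] at hx)
    exact Finset.mem_erase.2 ⟨fun e => by simp [e] at this, by simpa using this ▸ pow_orderOf_eq_one (f x)⟩
  have h3 : ((Finset.univ.filter (· ^ 2 = (1 : G))).erase 1).card ∣ ({1}ᶜ : Finset G).card := by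
    rw [Finset.card_eq_sum_card_fiberwise h2]
    rcases ((Finset.univ.filter (· ^ 2 = (1 : G))).erase 1).eq_empty_or_nonempty with e | ⟨x, hx⟩
    · simp [e]
    refine ⟨_, Finset.sum_const_nat (m := ({y ∈ ({1}ᶜ : Finset G) | f y = x}).card) fun y hy => ?_⟩
    simp only [Finset.mem_erase, Finset.mem_filter] at hx hy
    obtain ⟨a, rfl⟩ := htrans y x hy.1 hy.2.2 hx.1 hx.2.2
    exact Finset.card_equiv a.toEquiv fun z => by simp [f, ← map_pow]
  have h4 : (Finset.univ.filter (· ^ 2 = (1 : G))).card = 2 ^ n := by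
    rw [← hn, ← Fintype.card_subtype, ← Nat.card_eq_fintype_card]; rfl
  rw [Finset.card_erase_of_mem (by simp), h4, Finset.card_compl, ← Nat.card_eq_fintype_card, hm,
    Finset.card_singleton, ← Nat.gcd_eq_left_iff_dvd, Nat.pow_sub_one_gcd_pow_sub_one] at h3
  have h5 : 2 ^ n.gcd m = 2 ^ n := by
    have := Nat.two_pow_pos n
    have := Nat.two_pow_pos (n.gcd m)
    omega
  obtain ⟨k, rfl⟩ := Nat.gcd_eq_left_iff_dvd.1 (Nat.pow_right_injective le_rfl h5)
  exact ⟨k, by rw [hm, pow_mul, ← hn]; rfl⟩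

end Cfsg.Agent.S3774
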