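import Cfsg.Statements.S3775
import Cfsg.Agent.H1.Hol
import Cfsg.Agent.H3.BG4b

set_option autoImplicit false
open Cfsg

open H18 H1 Subgroup

namespace Cfsg.Agent.S3775

section
variable {A : Type*} [CommGroup A] [Finite A] {p : ℕ} {X : Subgroup (MulAut A)} {U V W B : Subgroup A}

/-- invariant subgroups -/
def Iv (X : Subgroup (MulAut A)) (B : Subgroup A) : Prop := ∀ x ∈ X, ∀ b ∈ B, x b ∈ B

theorem iv_iff : (∀ x ∈ X, B.map x.toMonoidHom = B) ↔ Iv X B :=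
  ⟨fun h x hx b hb => h x hx ▸ mem_map_of_mem _ hb, fun h x hx => eq_of_le_of_card_ge
    (map_le_iff_le_comap.2 (h x hx)) (card_map_of_injective x.injective).ge⟩

/-- `Ω_i` -/
abbrev Om (A : Type*) [CommGroup A] (n : ℕ) : Subgroup A := (powMonoidHom n).ker

omit [Finite A] in
theorem iv_pre (h : Iv X B) (n : ℕ) : Iv X (B.comap (powMonoidHom n)) := fun x hx b hb => by
  simpa using h x hx _ hb

omit [Finite A] in
theorem iv_map (h : Iv X B) (n : ℕ) : Iv X (B.map (powMonoidHom n)) := by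
  rintro x hx _ ⟨b, hb, rfl⟩
  exact ⟨x b, h x hx b hb, by simp⟩

omit [Finite A] in
theorem iv_bot : Iv X ⊥ := fun x _ b hb => by simpa using hb

omit [Finite A] in
theorem Iv.inf (h : Iv X U) (h' : Iv X V) : Iv X (U ⊓ V) := fun x hx b hb =>
  ⟨h x hx b hb.1, h' x hx b hb.2⟩

omit [Finite A] in
theorem Iv.sup (h : Iv X U) (h' : Iv X V) : Iv X (U ⊔ V) := fun x hx b hb => by
  obtain ⟨u, hu, v, hv, rfl⟩ := mem_sup.1 hb
  exact map_mul x u v ▸ mul_mem_sup (h x hx u hu) (h' x hx v hv)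

theorem sec (hp : p.Prime) (hX : (Nat.card X).Coprime p) (hU : Iv X U) (hW : Iv X W) (hV : Iv X V)
    (h1 : U ≤ W) (h2 : W ≤ V) (h3 : ∀ v ∈ V, v ^ p ∈ U) :
    ∃ D, Iv X D ∧ U ≤ D ∧ D ≤ V ∧ D ⊓ W ≤ U ∧ V ≤ D ⊔ W := by
  have : Finite (MulAut A) := .of_injective _ DFunLike.coe_injective
  have n : ∀ {B}, Iv X B ↔ hr X.subtype ⊤ ≤ N(hl X.subtype B) := fun {B} => by
    rw [hr_norm_iff]; exact ⟨fun h a _ => h a a.2, fun h a ha => h ⟨a, ha⟩ trivial⟩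
  have m : ∀ {B}, hl X.subtype B ≤ N(hl X.subtype U) := fun {_} => hl_norm_iff.2 norm_of_normal
  have ab : Abel (hl X.subtype V) := abel_hl.2 (abel_of_comm inferInstance)
  obtain ⟨Y, hY, nY⟩ := H3.maschke_elem hp (V := hl X.subtype V ⫽ hl X.subtype U) ⟨ab.mim, by
      intro z hz
      obtain ⟨_, ⟨v, hv, rfl⟩, rfl⟩ := (mem_quo m).1 hz
      rw [← mfun_pow (m (mem_map_of_mem _ hv)), ← map_pow]
      exact cs_eq_one (mem_map_of_mem _ (h3 v hv))⟩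
    (mim_norm (n.1 hV)) (mim_norm (n.1 hW)) (mim_mono (hl_le_hl.2 h2))
    (PiGrp.mim (piGrp_hr.2 (by rwa [PiGrp, card_top, piNat_compl_iff_coprime hp])))
  have k : hl X.subtype U ⊴ hl X.subtype V := ⟨hl_le_hl.2 (h1.trans h2), m⟩
  obtain ⟨D, hD, e⟩ := exists_hl (qpre_le_of_le k (le_sup_right.trans hY.sup.le))
  have e' : hl X.subtype D ⫽ hl X.subtype U = Y := e ▸ quo_qpre
  have UD := hl_le_hl.1 (e ▸ le_qpre (U := Y))
  refine ⟨D, n.2 (e ▸ norm_mpre (n.1 hU) nY), UD, hD, hl_le_hl.1 ((quo_eq_bot_iff m).1 ?_),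
    hl_le_hl.1 (le_of_quo_le m ⟨hl_le_hl.2 (le_sup_of_le_left UD), m⟩ ?_)⟩
  · rw [hl_inf, quo_inf ⟨hl_le_hl.2 h1, m⟩, e', inf_comm, hY.inf]
  · rw [hl_sup, mim_sup m m, e', sup_comm, hY.sup]

omit [Finite A] in
theorem om_le (hA : IsPGroup p A) (h : ∀ B, Iv X B → B ≤ Om A p → B = ⊥ ∨ Om A p ≤ B) (hB : Iv X B)
    (i : ℕ) (hi : ¬ B ≤ Om A (p ^ i)) : Om A (p ^ (i + 1)) ≤ B := by
  classical
  have k : ∀ i, ¬ B ≤ Om A (p ^ i) → Om A p ≤ B.map (powMonoidHom (p ^ i)) := fun i hi => by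
    refine ((h _ ((iv_map hB _).inf (iv_pre iv_bot p)) inf_le_right).resolve_left fun e => ?_).trans
      inf_le_left
    obtain ⟨b, hb, h1⟩ := SetLike.not_le_iff_exists.1 hi
    obtain ⟨k, hk⟩ := Nat.exists_eq_add_one_of_ne_zero (n := Nat.find (hA (b ^ p ^ i))) fun e =>
      h1 (by simpa [e] using Nat.find_spec (hA (b ^ p ^ i)))
    refine Nat.find_min (hA (b ^ p ^ i)) (hk ▸ k.lt_succ_self) (e.le ⟨⟨b ^ p ^ k, pow_mem hb _,
      pow_right_comm _ _ _⟩, ?_⟩)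
    simpa [hk, pow_succ, pow_mul] using Nat.find_spec (hA (b ^ p ^ i))
  induction i with
  | zero =>
    intro a ha
    obtain ⟨b, hb, rfl⟩ := k 0 hi (by simpa using ha)
    simpa using hb
  | succ i ih =>
    intro a ha
    obtain ⟨b, hb, e⟩ := k _ hi (show a ^ p ^ (i + 1) ∈ Om A p by simpa [← pow_mul, ← pow_succ] using ha)
    refine (mul_mem_cancel_left (inv_mem hb)).1 (ih (fun e => hi (e.trans fun c hc => ?_)) ?_)
    · simp [pow_succ, pow_mul, show c ^ p ^ i = 1 from hc]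
    · simp [mul_pow, show b ^ p ^ (i + 1) = _ from e]

theorem split (hp : p.Prime) (hA : IsPGroup p A) (hX : (Nat.card X).Coprime p) {e : ℕ} (hB : Iv X B)
    (h0 : B ≠ ⊥) (h1 : B < Om A p) (h2 : B ≤ (powMonoidHom (p ^ e)).range) (h3 : ∀ a : A, a ^ p ^ (e + 1) = 1) :
    ∃ H C : Subgroup A, H ≠ ⊥ ∧ C ≠ ⊥ ∧ Iv X H ∧ Iv X C ∧ H ⊓ C = ⊥ ∧ H ⊔ C = ⊤ := by
  obtain ⟨C, -, ⟨iC, hC⟩, mC⟩ := exists_maximal_sub (fun C => Iv X C ∧ C ⊓ B = ⊥) ⟨iv_bot, bot_inf_eq _⟩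
  obtain ⟨H, -, ⟨iH, hH⟩, mH⟩ := exists_minimal_sub (fun H => Iv X H ∧ H ⊔ C = ⊤)
    ⟨fun _ _ _ _ => mem_top _, top_sup_eq _⟩
  have a1 : C.comap (powMonoidHom p) ≤ C ⊔ B := by
    obtain ⟨D, iD, d1, -, d3, d4⟩ := sec hp hX iC (iC.sup hB) (iv_pre iC p) le_sup_left
      (sup_le (fun c hc => pow_mem hc p) fun b hb => by
        rw [mem_comap, show powMonoidHom p b = 1 from h1.le hb]; exact one_mem _) fun _ h => h
    rwa [mC D ⟨iD, eq_bot_iff.2 fun x hx => hC.le ⟨d3 ⟨hx.1, mem_sup_right hx.2⟩, hx.2⟩⟩ d1,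
      ← sup_assoc, sup_idem] at d4
  have a2 : H ⊓ C ≤ H.map (powMonoidHom p) := by
    have l : H.map (powMonoidHom p) ≤ H := map_le_iff_le_comap.2 fun c hc => pow_mem hc p
    obtain ⟨D, iD, d1, d2, d3, d4⟩ := sec hp hX (iv_map iH p) ((iv_map iH p).sup (iH.inf iC)) iH
      le_sup_left (sup_le l inf_le_left) fun v hv => mem_map_of_mem (powMonoidHom p) hv
    rw [mH D ⟨iD, top_le_iff.1 (hH.ge.trans (sup_le (d4.trans (sup_le le_sup_left (sup_le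
      (le_sup_of_le_left d1) (le_sup_of_le_right inf_le_right)))) le_sup_right))⟩ d2] at d3
    exact fun x hx => d3 ⟨hx.1, mem_sup_right hx⟩
  have a3 : ∀ k, H ⊓ C ≤ (H ⊓ C).map (powMonoidHom (p ^ k)) := fun k => by
    induction k with
    | zero => exact fun x hx => ⟨x, hx, by simp⟩
    | succ k ih =>
      intro x hx
      obtain ⟨y, hy, rfl⟩ := ih hx
      obtain ⟨h, hh, rfl⟩ := a2 hy
      obtain ⟨c, hc, b, hb, rfl⟩ := mem_sup.1 (a1 (show h ∈ _ from hy.2))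
      obtain ⟨a, rfl⟩ := h2 hb
      obtain ⟨h', hh', c', hc', rfl⟩ := mem_sup.1 (hH.ge (mem_top a))
      refine ⟨c * c' ^ p ^ e, ⟨(mul_mem_cancel_right (pow_mem hh' (p ^ e))).1 (by
        simpa [mul_pow, mul_assoc, mul_comm (c' ^ _)] using hh), mul_mem hc (pow_mem hc' _)⟩, ?_⟩
      simp [mul_pow, pow_succ' p k, pow_mul, ← pow_mul _ (p ^ e) p, ← pow_succ, h3]
  refine ⟨H, C, fun e => h0 ?_, fun e => h1.not_ge ?_, iH, iC, eq_bot_iff.2 fun x hx => ?_, hH⟩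
  · rw [e, bot_sup_eq] at hH
    rwa [hH, top_inf_eq] at hC
  · simpa [e] using a1
  · obtain ⟨y, -, rfl⟩ := a3 (e + 1) hx
    exact h3 y

end

/-- Let A be a finite abelian p-group and X a group of automorphisms of A of order prime to p. Call a subgroup of A invariant when every element of X maps it onto itself. Then the following are equivalent: (i) A is not the direct product of two nontrivial invariant subgroups; (ii) every invariant subgroup of A is one of the subgroups Ω_i(A) = {a : a^(p^i) = 1}; (iii) the subgroup Ω₁(A) of elements of order dividing p has no invariant subgroups other than 1 and itself. -/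
theorem result {A : Type*} [CommGroup A] [Finite A] {p : ℕ} [Fact p.Prime] (hA : IsPGroup p A) (X : Subgroup (MulAut A)) (hX : (Nat.card X).Coprime p) : ((¬ ∃ B C : Subgroup A, B ≠ ⊥ ∧ C ≠ ⊥ ∧ (∀ x ∈ X, B.map x.toMonoidHom = B) ∧ (∀ x ∈ X, C.map x.toMonoidHom = C) ∧ B ⊓ C = ⊥ ∧ B ⊔ C = ⊤) ↔ (∀ B : Subgroup A, (∀ x ∈ X, B.map x.toMonoidHom = B) → ∃ i : ℕ, ∀ a : A, a ∈ B ↔ a ^ p ^ i = 1)) ∧ ((∀ B : Subgroup A, (∀ x ∈ X, B.map x.toMonoidHom = B) → ∃ i : ℕ, ∀ a : A, a ∈ B ↔ a ^ p ^ i = 1) ↔ (∀ B : Subgroup A, (∀ x ∈ X, B.map x.toMonoidHom = B) → (∀ b ∈ B, b ^ p = 1) → B = ⊥ ∨ ∀ a : A, a ∈ B ↔ a ^ p = 1)) := by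
  classical
  have hp : p.Prime := Fact.out
  simp only [iv_iff]
  have h23 : (∀ B : Subgroup A, Iv X B → ∃ i : ℕ, ∀ a : A, a ∈ B ↔ a ^ p ^ i = 1) ↔
      ∀ B : Subgroup A, Iv X B → (∀ b ∈ B, b ^ p = 1) → B = ⊥ ∨ ∀ a : A, a ∈ B ↔ a ^ p = 1 := by
    refine ⟨fun h B hB h1 => ?_, fun h B hB => ?_⟩
    · obtain ⟨_ | i, hi⟩ := h B hB
      · exact .inl (eq_bot_iff.2 fun a ha => by simpa using (hi a).1 ha)
      · exact .inr fun a => ⟨h1 a, fun e => (hi a).2 (by rw [pow_succ', pow_mul, e, one_pow])⟩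
    · obtain ⟨n, hn⟩ := hA.exists_card_eq
      have ex : ∃ i, B ≤ Om A (p ^ i) := ⟨n, fun a _ => hn ▸ pow_card_eq_one'⟩
      refine ⟨Nat.find ex, fun a => ⟨fun ha => Nat.find_spec ex ha, fun ha => ?_⟩⟩
      rcases e : Nat.find ex with _ | i <;> rw [e] at ha
      · exact (by simpa using ha : a = 1) ▸ one_mem _
      · exact om_le hA (fun B hB h1 => (h B hB h1).imp_right fun h a => (h a).2) hB i
          (Nat.find_min ex (e ▸ i.lt_succ_self)) ha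
  refine ⟨⟨fun h => h23.2 fun B hB h1 => ?_, fun h ⟨B, C, b0, c0, hB, hC, h1, _⟩ => ?_⟩, h23⟩
  · by_contra! c
    obtain ⟨n, hn⟩ := hA.exists_card_eq
    have ex : ∃ i, ∀ a : A, a ^ p ^ i = 1 := ⟨n, fun a => hn ▸ pow_card_eq_one'⟩
    obtain ⟨e, he⟩ := Nat.exists_eq_add_one_of_ne_zero (n := Nat.find ex) fun e =>
      c.1 (eq_bot_iff.2 fun a _ => by simpa [e] using Nat.find_spec ex a)
    have h3 := he ▸ Nat.find_spec ex
    have l : (powMonoidHom (p ^ e)).range ≤ Om A p := by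
      rintro _ ⟨a, rfl⟩
      simpa [pow_succ, pow_mul] using h3 a
    rcases l.eq_or_lt with k | k
    · exact h (split hp hA hX hB c.1 (lt_of_le_of_ne h1 fun e => by simp [e] at c) (k ▸ h1) h3)
    · refine h (split hp hA hX (by
        rw [MonoidHom.range_eq_map]; exact iv_map (fun _ _ _ _ => mem_top _) _)
        (fun k => Nat.find_min ex (m := e) (by omega) fun a => k.le (MonoidHom.mem_range.2 ⟨a, rfl⟩)) k le_rfl h3)
  · obtain ⟨i, hi⟩ := h B hB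
    obtain ⟨j, hj⟩ := h C hC
    rcases le_total i j with l | l <;> obtain ⟨k, rfl⟩ := Nat.exists_eq_add_of_le l
    · exact b0 (eq_bot_iff.2 fun a ha => h1.le ⟨ha, (hj a).2 (by rw [pow_add, pow_mul, (hi a).1 ha, one_pow])⟩)
    · exact c0 (eq_bot_iff.2 fun a ha => h1.le ⟨(hi a).2 (by rw [pow_add, pow_mul, (hj a).1 ha, one_pow]), ha⟩)

end Cfsg.Agent.S3775
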