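import Cfsg.Statements.S3776
import Cfsg.Agent.L.Sh5
import Cfsg.Agent.H6.Shk

set_option autoImplicit false
open Cfsg

namespace Cfsg.Agent.S3776

/-- Let G be a finite non-abelian 2-group with more than one involution admitting a solvable group of automorphisms that permutes its involutions transitively. Then the derived subgroup, the Frattini subgroup and the centre of G coincide and consist exactly of the elements x with x² = 1. -/
theorem result {G : Type*} [Group G] [Finite G] (hG : IsPGroup 2 G) (hna : ¬ IsMulCommutative G) (htwo : ∃ x y : G, x ≠ y ∧ x ≠ 1 ∧ x ^ 2 = 1 ∧ y ≠ 1 ∧ y ^ 2 = 1) (hY : ∃ Y : Subgroup (MulAut G), Group.IsSolvable Y ∧ ∀ x y : G, x ≠ 1 → x ^ 2 = 1 → y ≠ 1 → y ^ 2 = 1 → ∃ a ∈ Y, a x = y) : commutator G = frattini G ∧ frattini G = Subgroup.center G ∧ ∀ x : G, x ∈ Subgroup.center G ↔ x ^ 2 = 1 := by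
  obtain ⟨Y, hs, htr⟩ := hY
  simp only [pow_two] at htwo htr ⊢
  obtain ⟨Z, hZ, hc⟩ := H3.exists_Z_of_trans hG fun x y x1 x2 y1 y2 => (htr x y x1 x2 y1 y2).imp fun _ h => h.2
  have h3 : 2 < Nat.card Z := by
    classical
    obtain ⟨x, y, hxy, x1, x2, y1, y2⟩ := htwo
    letI := Fintype.ofFinite Z
    rw [Nat.card_eq_fintype_card]
    exact Fintype.two_lt_card_iff.2 ⟨⟨x, (hZ x).2 x2⟩, ⟨y, (hZ y).2 y2⟩, 1, fun e => hxy (congrArg Subtype.val e),
      fun e => x1 (congrArg Subtype.val e), fun e => y1 (congrArg Subtype.val e)⟩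
  obtain ⟨F, _, _, _, ξ, z, l, S⟩ := L.Sh.exists_suz hG hZ hc Y hs htr h3
    fun r hr hd η hη h1 hfix => H6.Shk.ker_cop hG hZ hc Y htr hr hd η hη h1 hfix
  obtain ⟨h1, h2, h4⟩ := S.special fun h => hna ⟨⟨fun a b =>
    H18.comm_of_cent h (Subgroup.mem_top a) (Subgroup.mem_top b)⟩⟩
  exact ⟨h1.trans h2.symm, h2.trans h4.symm, fun x => h4 ▸ hZ x⟩

end Cfsg.Agent.S3776
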