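import Cfsg.Statements.S3777
import Cfsg.Agent.H1.Basic
import Cfsg.Agent.H2.Syl
import Cfsg.Agent.H23.Comm
import Cfsg.Agent.H3.Tate

set_option autoImplicit false
open Cfsg

namespace Cfsg.Agent.S3777

section

open Subgroup
open scoped commutatorElement

universe u

variable {p : ℕ} [hp : Fact p.Prime]

/-- the elements outside `A ∪ B` have breadth at most `n` -/
def Bd (p n : ℕ) {G : Type*} [Group G] (A B : Subgroup G) : Prop :=
  ∀ g, g ∉ A → g ∉ B → (centralizer {g}).index ≤ p ^ n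

/-- triangular numbers -/
def T : ℕ → ℕ
  | 0 => 0
  | n + 1 => T n + (n + 1)

theorem T_eq (n : ℕ) : T n = n * (n + 1) / 2 := by
  induction n with
  | zero => rfl
  | succ n ih => rw [T, ih, show (n + 1) * (n + 1 + 1) = n * (n + 1) + 2 * (n + 1) by ring, Nat.add_mul_div_left _ _ two_pos]

theorem exists_not {G : Type*} [Group G] {A B M : Subgroup G} (h1 : ¬ M ≤ A) (h2 : ¬ M ≤ B) : ∃ x ∈ M, x ∉ A ∧ x ∉ B := by
  by_contra h
  push Not at h
  exact (SubgroupClass.subset_union.1 fun x hx => or_iff_not_imp_left.2 (h x hx)).elim h1 h2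

variable {G : Type u} [Group G] [Finite G]

theorem exists_hom (hG : IsPGroup p G) {A : Subgroup G} (h : A ≠ ⊤) :
    ∃ α : G →* Multiplicative (ZMod p), A ≤ α.ker ∧ α.ker.index = p := by
  obtain ⟨M, hM, h1⟩ := (eq_top_or_exists_le_coatom A).resolve_left h
  obtain ⟨_, h2⟩ := H3.index_eq_prime_of_isCoatom hG hM
  let e : G ⧸ M ≃* Multiplicative (ZMod p) := mulEquivOfPrimeCardEq h2 (by simp)
  have h3 : (e.toMonoidHom.comp (QuotientGroup.mk' M)).ker = M := by ext; simp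
  exact ⟨_, h1.trans h3.ge, h3.symm ▸ h2⟩

theorem mem_zp {s t : Multiplicative (ZMod p)} (h : s ≠ 1) : ∃ k : ℤ, s ^ k = t :=
  mem_zpowers_of_prime_card (p := p) (by simp) h

theorem sel (hG : IsPGroup p G) {A B : Subgroup G} (hA : A ≠ ⊤) (hB : B ≠ ⊤) : commutator G = ⊥ ∨
    ∃ (H K : Subgroup G) (a : G), H.Normal ∧ H ≠ ⊤ ∧ ¬ H ≤ K ∧ (∀ h ∈ H, h ∉ K → h ∉ A ∧ h ∉ B) ∧ H ⊔ zpowers a = ⊤ ∧
      a ∉ A ∧ ((B ≤ A ∨ p < B.index) → a ∉ B) := by
  obtain ⟨α, h1, h2⟩ := exists_hom hG hA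
  have a1 : α.ker ≠ ⊤ := fun e => hp.out.one_lt.ne (by rw [← h2, e, index_top])
  by_cases hc : ∃ y, zpowers y = (⊤ : Subgroup G)
  · obtain ⟨y, hy⟩ := hc
    have : IsCyclic G := isCyclic_iff_exists_zpowers_eq_top.2 ⟨y, hy⟩
    exact Or.inl ((commutator_eq_bot_iff_center_eq_top _).2 (center_eq_top_iff.2 inferInstance))
  obtain ⟨μ, h3, h4, h5⟩ : ∃ μ : G →* Multiplicative (ZMod p), μ.ker.index = p ∧ ¬ μ.ker ≤ α.ker ∧
      (B ≤ α.ker ∨ ¬ B ≤ α.ker ∧ B ≤ μ.ker) := by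
    by_cases h : B ≤ α.ker
    · obtain ⟨y, -, hy⟩ := SetLike.not_le_iff_exists.1 (mt top_le_iff.1 a1)
      obtain ⟨μ, h3, h4⟩ := exists_hom hG fun e => hc ⟨y, e⟩
      exact ⟨μ, h4, fun e => hy (e (h3 (mem_zpowers y))), Or.inl h⟩
    · obtain ⟨μ, h3, h4⟩ := exists_hom hG hB
      exact ⟨μ, h4, fun e => h (h3.trans e), Or.inr ⟨h, h3⟩⟩
  have h6 : ¬ α.ker ≤ μ.ker := fun e => h4 (relIndex_eq_one.1 (by
    have := relIndex_mul_index e
    rwa [h2, h3, mul_eq_right₀ hp.out.ne_zero] at this))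
  obtain ⟨x, hx, hx'⟩ := SetLike.not_le_iff_exists.1 h6
  have key : ∀ a, a ∉ α.ker → α a ≠ μ a → ((B ≤ A ∨ p < B.index) → a ∉ B) → ∃ (H K : Subgroup G) (a : G),
      H.Normal ∧ H ≠ ⊤ ∧ ¬ H ≤ K ∧ (∀ h ∈ H, h ∉ K → h ∉ A ∧ h ∉ B) ∧ H ⊔ zpowers a = ⊤ ∧ a ∉ A ∧
      ((B ≤ A ∨ p < B.index) → a ∉ B) := fun a e1 e2 e3 => by
    have e4 : (α / μ) a ≠ 1 := by rwa [MonoidHom.div_apply, Ne, div_eq_one]
    obtain ⟨y, hy, hy'⟩ := SetLike.not_le_iff_exists.1 h4
    obtain ⟨k, hk⟩ := mem_zp (t := μ x) hy'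
    refine ⟨(α / μ).ker, α.ker, a, inferInstance, fun e => e4 (e.ge (mem_top a)), fun e => hx' ?_, fun h e5 e6 =>
      ⟨fun e => e6 (h1 e), fun e => h5.elim (fun e7 => e6 (e7 e)) fun e7 => e6 ?_⟩, eq_top_iff.2 fun g _ => ?_,
      fun e => e1 (h1 e), e3⟩
    · have := e (x := x * y ^ k) (by simp [MonoidHom.mem_ker.1 hx, MonoidHom.mem_ker.1 hy, hk])
      simpa [MonoidHom.mem_ker.1 hx, hk] using this
    · simpa [MonoidHom.mem_ker.1 (e7.2 e)] using e5
    · obtain ⟨j, hj⟩ := mem_zp (t := (α / μ) g) e4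
      rw [← inv_mul_cancel_right g (a ^ j)]
      exact mul_mem_sup (by rw [MonoidHom.mem_ker, map_mul, map_inv, map_zpow, hj, mul_inv_cancel]) ⟨j, rfl⟩
  refine Or.inr ?_
  have key2 : ∀ a ∈ μ.ker, a ∉ α.ker → α a ≠ μ a := fun a e1 e2 e => e2 (e.trans e1)
  rcases h5 with h5 | ⟨h5, h7⟩
  · obtain ⟨y, hy, hy'⟩ := SetLike.not_le_iff_exists.1 h4
    exact key y hy' (key2 y hy hy') fun _ e => hy' (h5 e)
  by_cases h8 : μ.ker ≤ B
  swap
  · obtain ⟨y, hy, e1, e2⟩ := exists_not h4 h8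
    exact key y e1 (key2 y hy e1) fun _ => e2
  obtain ⟨y, hy, hy'⟩ := SetLike.not_le_iff_exists.1 h4
  refine key y hy' (key2 y hy hy') fun e => absurd e ?_
  rw [le_antisymm h7 h8, h3]
  exact not_or.2 ⟨fun e => h4 (e.trans h1), lt_irrefl p⟩

theorem step (hG : IsPGroup p G) {H : Subgroup G} [hH : H.Normal] {a : G} (h : H ⊔ zpowers a = ⊤) :
    ∃ (C : Subgroup H) (j : ℕ), C.index = p ^ j ∧ Nat.card (commutator G) = p ^ j * Nat.card (commutator H) ∧
      p ^ j ≤ (centralizer {a}).index ∧ (∀ x : H, (centralizer {x}).index ≤ (centralizer {(x : G)}).index) ∧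
      ∀ x : H, x ∉ C → p * (centralizer {x}).index ≤ (centralizer {(x : G)}).index := by
  have hm : ∀ x ∈ H, ⁅x, a⁆ ∈ H := fun x hx => by
    rw [commutatorElement_def, mul_assoc, mul_assoc, ← mul_assoc a]
    exact mul_mem hx (hH.conj_mem _ (inv_mem hx) a)
  have hc : ∀ x ∈ H, ∀ y ∈ H, Commute (x : G ⧸ ⁅H, H⁆) y := fun x hx y hy =>
    commutatorElement_eq_one_iff_commute.1 ((QuotientGroup.eq_one_iff _).2 (commutator_mem_commutator hx hy))
  let φ : H →* G ⧸ ⁅H, H⁆ := MonoidHom.mk' (fun x => ((⁅(x : G), a⁆ : G) : G ⧸ ⁅H, H⁆)) fun x y => by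
    rw [show ⁅((x * y : H) : G), a⁆ = x * ⁅(y : G), a⁆ * (x : G)⁻¹ * ⁅(x : G), a⁆ by
      simp only [commutatorElement_def, coe_mul]; group]
    simp only [QuotientGroup.mk_mul, QuotientGroup.mk_inv]
    rw [(hc _ x.2 _ (hm _ y.2)).eq, mul_inv_cancel_right, (hc _ (hm _ x.2) _ (hm _ y.2)).eq]
  have hφ : ∀ x, φ x = ((⁅(x : G), a⁆ : G) : G ⧸ ⁅H, H⁆) := fun _ => rfl
  have hR : (φ.range.comap (QuotientGroup.mk' ⁅H, H⁆)).Normal := by
    refine Normal.comap (normalizer_eq_top_iff.1 ?_) _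
    rw [eq_top_iff, ← map_top_of_surjective _ (QuotientGroup.mk'_surjective ⁅H, H⁆), ← h, Subgroup.map_sup,
      MonoidHom.map_zpowers, sup_le_iff, zpowers_le]
    constructor
    · refine le_trans ?_ (centralizer_le_normalizer _)
      rintro _ ⟨x, hx, rfl⟩ _ ⟨y, rfl⟩
      exact hc _ (hm _ y.2) _ hx
    · refine mem_normalizer_fintype ?_
      rintro _ ⟨y, rfl⟩
      refine ⟨⟨_, hH.conj_mem _ y.2 a⟩, ?_⟩
      rw [hφ, hφ, QuotientGroup.mk'_apply, ← QuotientGroup.mk_inv, ← QuotientGroup.mk_mul, ← QuotientGroup.mk_mul]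
      congr 1
      simp only [commutatorElement_def]
      group
  have e1 : commutator G = φ.range.comap (QuotientGroup.mk' ⁅H, H⁆) := by
    have k1 : ⁅H, H⁆ ≤ φ.range.comap (QuotientGroup.mk' ⁅H, H⁆) := (QuotientGroup.ker_mk' _).ge.trans (ker_le_comap _ _)
    have k2 : ⁅H, zpowers a⁆ ≤ φ.range.comap (QuotientGroup.mk' ⁅H, H⁆) := by
      rw [commutator_comm, zpowers_eq_closure]
      refine H23.commutator_closure_le _ _ _ ?_
      rintro _ rfl x hx
      rw [← commutatorElement_inv]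
      exact inv_mem ⟨⟨x, hx⟩, rfl⟩
    apply le_antisymm
    · rw [commutator_def, ← h]
      exact H23.commutator_sup_le _ _ _ _ (H23.commutator_sup_right_le _ _ _ _ k1 k2) (H23.commutator_sup_right_le _ _ _ _
        ((commutator_comm _ _).le.trans k2) ((commutator_eq_bot_iff_le_centralizer.2 (le_centralizer _)).le.trans bot_le))
    · rintro g ⟨x, hx⟩
      have := QuotientGroup.eq.1 hx
      rw [← mul_inv_cancel_left ⁅(x : G), a⁆ g]
      exact mul_mem (commutator_mem_commutator trivial trivial) (commutator_mono le_top le_top this)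
  obtain ⟨j, hj⟩ := hG.to_subgroup H |>.index φ.ker
  have e2 : ∀ x : H, centralizer {x} = (centralizer {(x : G)}).subgroupOf H := fun x => by
    ext y; simp [mem_subgroupOf, mem_centralizer_singleton_iff, Subtype.ext_iff]
  have e3 : ∀ x : G, (centralizer {x}).relIndex H ≤ (centralizer {x}).index := fun x => by
    rw [← relIndex_top_right]; exact relIndex_le_of_le_right le_top (by simp [FiniteIndex.index_ne_zero])
  have e3' : ∀ x : H, (centralizer {x}).index ≤ (centralizer {(x : G)}).index := fun x => by rw [e2]; exact e3 x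
  refine ⟨φ.ker, j, hj, ?_, ?_, e3', fun x hx => ?_⟩
  · rw [e1, H2.card_comap_mk', ← index_ker, hj, ← card_map_of_injective (K := commutator H) H.subtype_injective,
      map_subtype_commutator]
  · refine hj ▸ le_trans (index_antitone fun x hx => ?_) (e3 a)
    rw [MonoidHom.mem_ker, hφ, commutatorElement_eq_one_iff_mul_comm.2 (mem_centralizer_singleton_iff.1 (mem_subgroupOf.1 hx))]
    rfl
  · obtain ⟨i, hi⟩ := hG.index (centralizer {(x : G)})
    obtain ⟨k, hk⟩ := (hG.to_subgroup H).index (centralizer {x})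
    have e4 : (centralizer {x}).index < (centralizer {(x : G)}).index := (e3' x).lt_of_ne fun e => hx (by
      have e5 : H ⊔ centralizer {(x : G)} = ⊤ := by
        have e6 := relIndex_mul_index (le_sup_right : centralizer {(x : G)} ≤ H ⊔ centralizer {(x : G)})
        rw [H2.relIndex_sup_of_le_normalizer' le_normalizer_of_normal, ← e, e2] at e6
        exact index_eq_one.1 ((mul_eq_left₀ FiniteIndex.index_ne_zero).1 e6)
      obtain ⟨k, hk, c, hc', e6⟩ := mem_sup_of_normal_left.1 (e5.ge (mem_top a))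
      rw [MonoidHom.mem_ker, hφ, ← e6, show ⁅(x : G), k * c⁆ = ⁅(x : G), k⁆ by
        simp only [commutatorElement_def, mul_assoc, _root_.mul_inv_rev]
        rw [← mul_assoc c, (show Commute c (x : G) from mem_centralizer_singleton_iff.1 hc').inv_right.eq]
        group]
      exact (QuotientGroup.eq_one_iff _).2 (commutator_mem_commutator x.2 hk))
    rw [hi, hk] at e4 ⊢
    rw [← pow_succ']
    exact Nat.pow_le_pow_right hp.out.pos ((Nat.pow_lt_pow_iff_right hp.out.one_lt).1 e4)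

/-- the statement proved by induction -/
def P (p : ℕ) (G : Type u) [Group G] : Prop := ∀ (n : ℕ) (A B : Subgroup G), A ≠ ⊤ → B ≠ ⊤ →
  (B ≤ A ∨ p < B.index) → Bd p n A B → Nat.card (commutator G) ≤ p ^ T n

theorem red (hG : IsPGroup p G) {A B : Subgroup G} (hA : A ≠ ⊤) (hB : B ≠ ⊤) : Nat.card (commutator G) = 1 ∨
    ∃ (H : Subgroup G) (K C : Subgroup H) (a : G) (j : ℕ), Nat.card H < Nat.card G ∧ K ≠ ⊤ ∧ C.index = p ^ j ∧
      Nat.card (commutator G) = p ^ j * Nat.card (commutator H) ∧ p ^ j ≤ (centralizer {a}).index ∧ a ∉ A ∧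
      ((B ≤ A ∨ p < B.index) → a ∉ B) ∧ (∀ n, Bd p n A B → Bd p n K K) ∧ (Bd p 0 A B → j = 0) ∧
      ∀ n, Bd p (n + 1) A B → Bd p n K C := by
  rcases sel hG hA hB with h | ⟨H, K, a, _, h1, h2, h3, h4, h5, h6⟩
  · exact Or.inl (card_eq_one.2 h)
  obtain ⟨C, j, e1, e2, e3, e4, e5⟩ := step hG h4
  have h7 : K.subgroupOf H ≠ ⊤ := mt subgroupOf_eq_top.1 h2
  refine Or.inr ⟨H, K.subgroupOf H, C, a, j, H2.card_lt_of_ne_top h1, h7, e1, e2, e3, h5, h6, fun n h x hx _ =>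
    (e4 x).trans (h _ (h3 _ x.2 hx).1 (h3 _ x.2 hx).2), fun h => ?_, fun n h x hx hx' => Nat.le_of_mul_le_mul_left
      ((e5 x hx').trans (pow_succ' p n ▸ h _ (h3 _ x.2 hx).1 (h3 _ x.2 hx).2)) hp.out.pos⟩
  by_contra h8
  obtain ⟨x, -, hx, hx'⟩ := exists_not (M := ⊤) (mt top_le_iff.1 h7) (B := C) fun e => h8 (by
    rwa [top_le_iff.1 e, index_top, eq_comm, Nat.pow_eq_one, or_iff_right hp.out.one_lt.ne'] at e1)
  have := (e5 x hx').trans (h _ (h3 _ x.2 hx).1 (h3 _ x.2 hx).2)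
  have := hp.out.two_le
  have := H2.index_pos (centralizer {x})
  nlinarith

theorem le_of_pow {j n m : ℕ} (h1 : p ^ j ≤ m) (h2 : m ≤ p ^ n) : j ≤ n :=
  (Nat.pow_le_pow_iff_right hp.out.one_lt).1 (h1.trans h2)

theorem bound {j m c d : ℕ} (h1 : c ≤ p ^ m) (h2 : j + m ≤ d) : p ^ j * c ≤ p ^ d :=
  (Nat.mul_le_mul_left _ h1).trans (pow_add p j m ▸ Nat.pow_le_pow_right hp.out.pos h2)

omit [Finite G] in
theorem ne_top {C : Subgroup G} {j : ℕ} (h : C.index = p ^ (j + 1)) : C ≠ ⊤ := fun e => by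
  rw [e, index_top, eq_comm, Nat.pow_eq_one] at h
  exact h.elim hp.out.one_lt.ne' j.succ_ne_zero

theorem four_le {c j : ℕ} (h : c = p ^ (j + 2)) : p < c :=
  h ▸ (pow_one p).symm.trans_lt (Nat.pow_lt_pow_right hp.out.one_lt (by omega))

theorem two (hG : IsPGroup p G) (ih : ∀ H : Subgroup G, Nat.card H < Nat.card G → P p H) {n : ℕ} {A B : Subgroup G}
    (hA : A ≠ ⊤) (hB : B ≠ ⊤) (h1 : Bd p (n + 1) A A) (h2 : Bd p n A B) : Nat.card (commutator G) ≤ p ^ (T n + n) := by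
  rcases red hG hA hB with h | ⟨H, K, C, a, j, e1, e2, e3, e4, e5, e6, -, e7, e8, e9⟩
  · exact h ▸ Nat.one_le_pow _ _ hp.out.pos
  rw [e4]
  rcases (le_of_pow e5 (h1 a e6 e6)).eq_or_lt with rfl | h
  · rcases n with _ | n
    · exact absurd (e8 h2) one_ne_zero
    · exact bound (ih H e1 n K C e2 (ne_top e3) (Or.inr (four_le e3)) (e9 n h2)) (by simp only [T]; omega)
  · exact bound (ih H e1 n K K e2 e2 (Or.inl le_rfl) (e7 n h2)) (by omega)

theorem main (G : Type u) [Group G] [Finite G] : IsPGroup p G → P p G := by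
  refine H1.card_induction (P := fun G _ _ => IsPGroup p G → P p G) (fun G _ _ ih hG n A B hA hB h1 h2 => ?_) G
  rcases red hG hA hB with h | ⟨H, K, C, a, j, e1, e2, e3, e4, e5, e6, e6', e7, e8, e9⟩
  · exact h ▸ Nat.one_le_pow _ _ hp.out.pos
  rw [e4]
  have hH := hG.to_subgroup H
  have h3 := le_of_pow e5 (h2 a e6 (e6' h1))
  rcases j with _ | j
  · exact bound (ih H e1 hH n K K e2 e2 (Or.inl le_rfl) (e7 n h2)) (by omega)
  obtain ⟨n, rfl⟩ : ∃ m, n = m + 1 := ⟨n - 1, by omega⟩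
  rcases j with _ | j
  · exact bound (two hH (fun L hL => ih L (hL.trans e1) (hH.to_subgroup L)) e2 (ne_top e3) (e7 _ h2) (e9 n h2))
      (by simp only [T]; omega)
  · exact bound (ih H e1 hH n K C e2 (ne_top e3) (Or.inr (four_le e3)) (e9 n h2)) (by simp only [T]; omega)

end

/-- Vaughan-Lee's Theorem: if G is a finite p-group in which every conjugacy class has at most p^b elements (every element has centralizer of index at most p^b), then the derived subgroup of G has order at most p^(b(b+1)/2). -/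
theorem result {G : Type*} [Group G] [Finite G] {p : ℕ} [Fact p.Prime] (hG : IsPGroup p G) (b : ℕ) (hb : ∀ x : G, (Subgroup.centralizer ({x} : Set G)).index ≤ p ^ b) : Nat.card (commutator G) ≤ p ^ (b * (b + 1) / 2) := by
  rw [← T_eq]
  rcases subsingleton_or_nontrivial G with _ | _
  · rw [Subsingleton.elim (commutator G) ⊥, Subgroup.card_bot]
    exact Nat.one_le_pow _ _ (Fact.out : p.Prime).pos
  · exact main G hG b ⊥ ⊥ bot_ne_top bot_ne_top (Or.inl le_rfl) fun g _ _ => hb g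

end Cfsg.Agent.S3777
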