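import Cfsg.Statements.S3778
import Cfsg.Agent.H18.Cyc
import Cfsg.Agent.H3.Petrescu

set_option autoImplicit false
open Cfsg

namespace Cfsg.Agent.S3778

open H18 Subgroup
open scoped commutatorElement

theorem le_idx {G : Type*} [Group G] [Finite G] {p : ℕ} {A B : Subgroup G} (h : PiGrp {p} B) (e : ¬ B ≤ A) :
    p ≤ A.relIndex B := by
  obtain ⟨m, hm⟩ := (h.relIndex (A := A)).eq_pow relIndex_ne_zero
  have := one_lt_relIndex e
  rw [hm] at this ⊢
  exact Nat.le_self_pow (by rintro rfl; simp at this) p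

/-- If G is a finite p-group in which every conjugacy class has at most p^b elements (every element has centralizer of index at most p^b), then G is abelian when b = 0, and when b ≥ 1 its nilpotency class c satisfies (c − 1)(p − 1) < bp, that is c < bp/(p − 1) + 1, and hence c ≤ 2b. -/
theorem result {G : Type*} [Group G] [Finite G] {p : ℕ} [Fact p.Prime] (hG : IsPGroup p G) (b : ℕ) (hb : ∀ x : G, (Subgroup.centralizer ({x} : Set G)).index ≤ p ^ b) : ∃ c : ℕ, (⊤ : Subgroup G).lowerCentralSeries c = ⊥ ∧ (b ≠ 0 → (c - 1) * (p - 1) < b * p ∧ c ≤ 2 * b) ∧ (b = 0 → c ≤ 1) := by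
  classical
  have hp : p.Prime := Fact.out
  have hP : PiGrp {p} (⊤ : Subgroup G) := piGrp_of_isPGroup hp (hG.to_subgroup _)
  have ex := nil_iff_lcs.1 hP.nil
  let γ := (⊤ : Subgroup G).lowerCentralSeries
  have nγ : ∀ i, γ i ⊴ ⊤ := H3.lcs_nml
  have N : ∀ i g, g ∈ N(γ i) := fun i g => (nγ i).2 (mem_top g)
  refine ⟨Nat.find ex, Nat.find_spec ex, fun b0 => ?_, fun b0 => Nat.find_min' ex ?_⟩
  swap
  · refine comm_eq_bot_iff.2 fun x _ y _ => ?_
    have := hb x
    rw [b0, pow_zero] at this
    have : C1(x) = ⊤ := index_eq_one.1 (le_antisymm this (Nat.pos_of_ne_zero index_ne_zero_of_finite))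
    exact mem_C1.1 (this.ge (mem_top y))
  suffices (Nat.find ex - 1) * (p - 1) < b * p by
    refine ⟨this, ?_⟩
    by_contra c
    have h1 : 2 * b * (p - 1) ≤ (Nat.find ex - 1) * (p - 1) := Nat.mul_le_mul_right _ (by omega)
    have h2 := hp.two_le
    obtain ⟨q, rfl⟩ : ∃ q, p = q + 2 := ⟨p - 2, by omega⟩
    simp only [show q + 2 - 1 = q + 1 from rfl] at *
    nlinarith
  let C : ℕ → Subgroup G := fun i => qpre (γ (i + 2)) C(γ i ⫽ γ (i + 2))
  have hC : ∀ i < Nat.find ex - 1, p * Nat.card (C i) ≤ Nat.card G := fun i hi => by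
    rw [← (C i).card_mul_index, mul_comm, ← relIndex_top_right]
    refine Nat.mul_le_mul_left _ (le_idx hP fun e => ?_)
    have := (comm_le_iff_quo (nγ _).2 (le_top.trans (nγ _).2)).2 ((mim_le_iff (nγ _).2).2 e)
    rw [H18.comm_comm] at this
    exact Nat.find_min ex (show i + 1 < _ by omega) (hP.nil.eq_bot_of_le_comm le_top le_rfl this)
  have hx : ∀ x k, p ^ ((Finset.range k).filter fun i => x ∉ C i).card ≤ (C1(x) ⊔ γ k).index := fun x k => by
    induction k with
    | zero => exact Nat.pos_of_ne_zero index_ne_zero_of_finite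
    | succ k ih =>
      have l : C1(x) ⊔ γ (k + 1) ≤ C1(x) ⊔ γ k := sup_le_sup_left (comm_le_left (nγ k).2) _
      rw [← relIndex_mul_index l, Finset.range_add_one, Finset.filter_insert]
      split_ifs with e
      swap
      · rw [Finset.card_insert_of_notMem (by simp), pow_succ']
        refine Nat.mul_le_mul (le_idx (hP.of_le le_top) fun c => e (mem_mpre.2 ⟨N _ _, fun z hz => ?_⟩)) ih
        obtain ⟨w, hw, rfl⟩ := (mem_quo (le_top.trans (nγ _).2)).1 hz
        obtain ⟨a, ha, d, hd, rfl⟩ := (mem_sup_of_norm (le_top.trans (nγ _).2)).1 (c ((le_sup_right : γ k ≤ _) hw))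
        rw [← commutatorElement_eq_one_iff_mul_comm, ← mfun_comm (N _ _) (N _ _)]
        refine cs_eq_one ?_
        have : ⁅a * d, x⁆ = a * ⁅d, x⁆ * a⁻¹ := by
          rw [commutatorElement_def, commutatorElement_def, show a * (d * x * d⁻¹ * x⁻¹) * a⁻¹ =
            a * d * x * d⁻¹ * (a * x)⁻¹ by group, mem_C1.1 ha]; group
        rw [this]
        exact conj_mem_N (N _ _) (commutator_mem_commutator hd (mem_top x))
      · exact ih.trans (Nat.le_mul_of_pos_left _ relIndex_pos)
  set m := Nat.find ex - 1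
  have hb' : ∀ x, ((Finset.range m).filter fun i => x ∉ C i).card ≤ b := fun x =>
    (Nat.pow_le_pow_iff_right hp.one_lt).1 ((hx x m).trans ((index_antitone le_sup_left).trans (hb x)))
  have := Fintype.ofFinite G
  have s1 : ∑ x : G, ((Finset.range m).filter fun i => x ∉ C i).card < Nat.card G * b := by
    rw [Nat.card_eq_fintype_card, ← Finset.card_univ, ← smul_eq_mul, ← Finset.sum_const]
    refine Finset.sum_lt_sum (fun x _ => hb' x) ⟨1, Finset.mem_univ _, ?_⟩
    simpa [one_mem] using Nat.pos_of_ne_zero b0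
  have s2 : ∑ x : G, ((Finset.range m).filter fun i => x ∉ C i).card =
      ∑ i ∈ Finset.range m, (Finset.univ.filter fun x => x ∉ C i).card := by
    simp only [Finset.card_filter]; exact Finset.sum_comm
  have s3 : ∀ i ∈ Finset.range m, Nat.card G * (p - 1) ≤ p * (Finset.univ.filter fun x => x ∉ C i).card := by
    intro i hi
    have h1 := hC i (Finset.mem_range.1 hi)
    have h2 := Finset.card_filter_add_card_filter_not (s := Finset.univ) fun x => x ∈ C i
    rw [Finset.card_univ, ← Nat.card_eq_fintype_card, ← Fintype.card_subtype, ← Nat.card_eq_fintype_card] at h2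
    obtain ⟨q, rfl⟩ : ∃ q, p = q + 1 := ⟨p - 1, by have := hp.pos; omega⟩
    simp only [Nat.add_sub_cancel]
    nlinarith
  have s4 := Finset.sum_le_sum s3
  rw [Finset.sum_const, ← Finset.mul_sum, ← s2, Finset.card_range, smul_eq_mul] at s4
  have s5 := Nat.mul_lt_mul_of_pos_left s1 hp.pos
  refine Nat.lt_of_mul_lt_mul_left (a := Nat.card G) ?_
  nlinarith

end Cfsg.Agent.S3778
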