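import Cfsg.Statements.S3779
import Cfsg.Agent.H5.Lie3
import Cfsg.Agent.H1.Hol

set_option autoImplicit false
open Cfsg

namespace Cfsg.Agent.S3779
open H5
open H18 H1 Subgroup H5.Lie

/-- Let G be a finite group with an automorphism of prime order p fixing only the identity. Then G is nilpotent; if p = 2 then G is abelian, if p = 3 then G has class at most 2, and in general the class of G is at most ξ = 1 + (p−1) + (p−1)² + ⋯ + (p−1)^(n−1) with n = 2^(p−1) − 1 (the Higman–Kreknin–Kostrikin bound). -/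
theorem result {G : Type*} [Group G] [Finite G] {p : ℕ} (hp : p.Prime) (α : MulAut G) (hα : orderOf α = p) (hfpf : ∀ g : G, α g = g → g = 1) : (p = 2 → (⊤ : Subgroup G).lowerCentralSeries 1 = ⊥) ∧ (p = 3 → (⊤ : Subgroup G).lowerCentralSeries 2 = ⊥) ∧ (⊤ : Subgroup G).lowerCentralSeries (Finset.sum (Finset.range (2 ^ (p - 1) - 1)) (fun i => (p - 1) ^ i)) = ⊥ := by
  let φ : MulAut G →* MulAut G := MonoidHom.id _
  have h0 : hl φ ⊤ ⊓ C1((SemidirectProduct.inr α : G ⋊[φ] MulAut G)) = ⊥ := by
    rw [hl_inf_C1, hl_eq_bot, eq_bot_iff]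
    exact fun g hg => hfpf g (mem_fixS_zpowers.1 hg.2)
  have key : ∀ h, Hig p h → (⊤ : Subgroup G).lowerCentralSeries h = ⊥ := fun h hH => by
    have := lcs_of_fpf hp hH (hr_norm_top (B := ⊤) (inr_mem_hr.2 (mem_top α))) (by rw [← map_pow, ← hα, pow_orderOf_eq_one, map_one]) h0
    rwa [hl, ← map_lowerCentralSeries, map_eq_bot_iff_of_injective _ SemidirectProduct.inl_injective] at this
  refine ⟨fun e => key _ ?_, fun e => key _ (e ▸ hig_three), key _ (hig_gen hp)⟩
  subst e; simpa using hig_gen Nat.prime_two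

end Cfsg.Agent.S3779
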