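import Cfsg.Statements.S3780
import Cfsg.Agent.S0014

set_option autoImplicit false
open Cfsg

namespace Cfsg.Agent.S3780

theorem ker_pow {A : Type*} [AddCommGroup A] [Finite A] (d : Module.End ℤ A) (m : ℕ) :
    Nat.card (LinearMap.ker (d ^ m)) ≤ Nat.card (LinearMap.ker d) ^ m := by
  induction m with
  | zero => simp [Module.End.one_eq_id]
  | succ m ih =>
    let f : LinearMap.ker (d ^ (m + 1)) →ₗ[ℤ] LinearMap.ker (d ^ m) :=
      d.restrict fun x hx => by simpa [pow_succ] using hx
    rw [pow_succ (Nat.card _) m, Submodule.card_eq_card_quotient_mul_card (LinearMap.ker f), mul_comm,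
      Nat.card_congr f.quotKerEquivRange.toEquiv]
    exact Nat.mul_le_mul ((Nat.card_le_card_of_injective _ Subtype.val_injective).trans ih)
      (Nat.card_le_card_of_injective (fun x => ⟨x.1.1, congrArg Subtype.val x.2⟩) fun x y e =>
        Subtype.ext (Subtype.ext (Subtype.mk.inj e)))

/-- Let V be a finite abelian p-group and α an automorphism of V of order p whose fixed-point subgroup has order p^n. Then V can be generated by pn elements: some subset of V with at most pn elements generates V. -/
theorem result {V : Type*} [CommGroup V] [Finite V] {p : ℕ} [Fact p.Prime] (hV : IsPGroup p V) (α : MulAut V) (hα : orderOf α = p) (n : ℕ) (hfix : Nat.card {v : V // α v = v} = p ^ n) : ∃ S : Finset V, S.card ≤ p * n ∧ Subgroup.closure (S : Set V) = ⊤ := by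
  classical
  have := Fintype.ofFinite V
  let A : Module.End ℤ (Additive V) := α.toMonoidHom.toAdditive.toIntLinearMap
  have hA : ∀ k v, (A ^ k) (.ofMul v) = .ofMul ((α ^ k) v) := fun k => by
    induction k with
    | zero => exact fun _ => rfl
    | succ k ih => exact fun v => by rw [pow_succ, pow_succ]; exact ih (α v)
  obtain ⟨r, hr⟩ := ((Commute.one_right (A - 1))).exists_add_pow_prime_eq (Fact.out : p.Prime)
  have h1 : Nat.card (powMonoidHom p : V →* V).ker ≤ Nat.card (LinearMap.ker ((A - 1) ^ p)) :=
    Nat.card_le_card_of_injective (fun v => ⟨.ofMul v.1, by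
      have := LinearMap.congr_fun hr (.ofMul v.1)
      rw [sub_add_cancel, hA, show α ^ p = 1 from hα ▸ pow_orderOf_eq_one α, one_pow, mul_one, mul_assoc, ← nsmul_eq_mul,
        LinearMap.add_apply, LinearMap.add_apply, LinearMap.smul_apply, ← map_nsmul, ← ofMul_pow,
        show v.1 ^ p = 1 from v.2] at this
      simpa using this⟩) fun x y e => Subtype.ext (by simpa using e)
  have h2 : Nat.card (LinearMap.ker (A - 1)) = p ^ n := hfix ▸ Nat.card_congr
    (Equiv.subtypeEquiv Additive.toMul fun v => by rw [LinearMap.mem_ker, LinearMap.sub_apply, sub_eq_zero]; rfl)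
  obtain ⟨k, hk⟩ := hV.index (frattini V)
  obtain ⟨T, -, h3, h4⟩ := (S0014.result p k hV hk).1 Finset.univ (by simp)
  have h5 := Nat.le_of_dvd (Nat.pos_of_ne_zero Subgroup.FiniteIndex.index_ne_zero) (Subgroup.index_dvd_of_le
    (show (powMonoidHom p : V →* V).range ≤ frattini V from fun _ ⟨x, e⟩ => e ▸ H3.pow_mem_frattini hV x))
  rw [Subgroup.index_range, hk] at h5
  refine ⟨T, h3 ▸ (Nat.pow_le_pow_iff_right (Fact.out : p.Prime).one_lt).1 (h5.trans (h1.trans ?_)), h4⟩
  rw [mul_comm, pow_mul, ← h2]; exact ker_pow _ _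

end Cfsg.Agent.S3780
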