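import Cfsg.Statements.S3782
import Cfsg.Agent.H5.Lie3
import Cfsg.Agent.H1.Hol

set_option autoImplicit false
open Cfsg

namespace Cfsg.Agent.S3782
open H5
open H18 H1 Subgroup H5.Lie

/-- Alperin's Theorem: for each prime p and each n ≥ 0 there is an integer l such that every finite solvable group admitting an automorphism of order p with exactly p^n fixed points has derived length at most l. -/
theorem result (p : ℕ) (hp : p.Prime) (n : ℕ) : ∃ l : ℕ, ∀ (G : Type) [Group G] [Finite G], Group.IsSolvable G → ∀ α : MulAut G, orderOf α = p → Nat.card {g : G // α g = g} = p ^ n → derivedSeries G l = ⊥ := by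
  obtain ⟨l, hl'⟩ := dser_solv.{0} hp n
  refine ⟨l, fun G _ _ hG α hα hc => ?_⟩
  let φ : MulAut G →* MulAut G := MonoidHom.id _
  have := hl' (H := hl φ ⊤) (a := SemidirectProduct.inr α) (solv_hl.2 (solv_top_iff.2 hG))
    (hr_norm_top (B := ⊤) (inr_mem_hr.2 (mem_top α))) (by rw [← map_pow, ← hα, pow_orderOf_eq_one, map_one]) (by
      rw [hl_inf_C1, card_hl, top_inf_eq, ← hc]
      exact Nat.card_congr (Equiv.subtypeEquivRight fun x => mem_fixS_zpowers))
  rwa [hl, ← map_dser, map_eq_bot_iff_of_injective _ SemidirectProduct.inl_injective, dser_top] at this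

end Cfsg.Agent.S3782
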