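import Cfsg.Statements.S3785
import Cfsg.Agent.H18.BG1
import Cfsg.Agent.H21.PLen

set_option autoImplicit false
open Cfsg

namespace Cfsg.Agent.S3785

open H18 H1 Subgroup

/-- Let G be a finite solvable group whose Fitting subgroup F(G) has odd order. If an element g of G commutes with every element of prime order of F(G), then g ∈ F(G). -/
theorem result {G : Type*} [Group G] [Finite G] (hG : Group.IsSolvable G) (hodd : Odd (Nat.card (Cfsg.fittingSubgroup G))) (g : G) (hg : ∀ x ∈ Cfsg.fittingSubgroup G, (orderOf x).Prime → g * x = x * g) : g ∈ Cfsg.fittingSubgroup G := by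
  rw [← fit_top] at *
  set F := F((⊤ : Subgroup G))
  let s : Set G := {x | x ∈ F ∧ (orderOf x).Prime}
  have nC : centralizer s ⊴ ⊤ := ⟨le_top, norm_iff.2 fun a _ b hb x hx => by
    have := hb (a⁻¹ * x * a) ⟨conj_mem' fit_nml.2 trivial hx.1, by
      have := orderOf_conj (g := a⁻¹) (x := x)
      rw [inv_inv] at this
      exact this ▸ hx.2⟩
    calc x * (a * b * a⁻¹) = a * (a⁻¹ * x * a * b) * a⁻¹ := by group
      _ = _ := by rw [this]; group⟩
  have k : ∀ p, p.Prime → ∀ x ∈ centralizer s, PiElt {p}ᶜ x → x ∈ C(O[{p}]((⊤ : Subgroup G))) := fun p hp x hx x1 => by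
    by_cases h2 : p = 2
    · have : O[{p}]((⊤ : Subgroup G)) = ⊥ := by_contra fun c => hodd.not_two_dvd_nat
        (h2 ▸ (pcore_pi.dvd_card c).trans (card_dvd pcore_le_fit))
      simp [this]
    · refine coprime_odd_faithful_Ohm1 hp h2 pcore_pi (le_top.trans pcore_nml.2) x1.zpowers (fun y hy e => ?_)
        (mem_zpowers x)
      rw [C_zpowers, mem_C1]
      by_cases c : y = 1
      · simp [c]
      haveI := Fact.mk hp
      exact hx y ⟨pcore_le_fit hy, (orderOf_eq_prime e c).symm ▸ hp⟩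
  refine le_of_sylows (M := centralizer s) (fun q hq _ => ?_) fun x hx => (hg x hx.1 hx.2).symm
  obtain ⟨S, hS⟩ := exists_sylow hq (centralizer s)
  let X := centralizer s ⊓ C(O[{q}ᶜ](F))
  have nX : X ⊴ ⊤ := nC.inf (by simpa using (fit_nml.pcore : O[{q}ᶜ](F) ⊴ ⊤).cent)
  refine ⟨S, hS, (le_inf hS.1 ?_ : S ≤ X).trans (le_fit nX (nil_of_quo_center (K := O[{q}ᶜ](F))
    (cent_symm inf_le_right) (PiGrp.nil (p := q) (piGrp_of_prime_elt fun z hz z1 => by_contra fun c => ?_))))⟩
  · refine cent_symm ((nil_of_le_fit pcore_le).le_of_pcores fun p hp p1 => cent_symm fun x hx => ?_)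
    refine C_anti (fit_nml.pcore.pcore_le_pcore) (k p hp x (hS.1 hx) (PiNat.p'_of_ne (hS.2.elt hx) ?_))
    rintro rfl
    exact (piNat_compl_iff hp).1 pcore_pi p1
  · obtain ⟨x, x1, x2, x3, rfl⟩ := exists_piElt_lift (π := {q}ᶜ) hz ((piNat_prime z1).2 c)
    have : x ∈ C(F) := by
      rw [← Nil.pcore_sup (H := F) fit_nil (π := {q}), C_sup, pcore_fit]
      exact ⟨k q hq x x1.1 x3, x1.2⟩
    have := fit_nil.le_pcore (zpowers_le.2 (cent_sub_Fitting (solv_top_iff.2 hG) ⟨trivial, this⟩)) x3.zpowers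
    rw [cs_eq_one (this (mem_zpowers x)), orderOf_one] at z1
    exact Nat.not_prime_one z1

end Cfsg.Agent.S3785
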