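import Cfsg.Statements.S3786
import Cfsg.Agent.H8.Gq3

set_option autoImplicit false
open Cfsg

namespace Cfsg.Agent.S3786

open H18 H21 H21.HB

/-- The Hall–Higman bound on p-length. Let p be an odd prime and G a finite p-soluble group whose Sylow p-subgroups have exponent dividing p^e. (a) If p is not of the form 2^k + 1, or if the Sylow 2-subgroups of G are abelian, then G has p-length at most e. (b) In every case G has p-length at most 2e. -/
theorem result {G : Type*} [Group G] [Finite G] {p : ℕ} [Fact p.Prime] (hp : p ≠ 2) (hG : Cfsg.IsPSolvable p G) (e : ℕ) (hexp : ∀ (P : Sylow p G), ∀ x ∈ (P : Subgroup G), x ^ p ^ e = 1) : (((¬ ∃ k : ℕ, p = 2 ^ k + 1) ∨ ∀ S : Sylow 2 G, IsMulCommutative (S : Subgroup G)) → Cfsg.PLengthLE p e G) ∧ Cfsg.PLengthLE p (2 * e) G := by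
  have h : p.Prime := Fact.out
  have he : ∀ x ∈ (⊤ : Subgroup G), PiElt {p} x → x ^ p ^ e = 1 := fun x _ c => by
    obtain ⟨P, hP⟩ := c.zpowers.isPGroup.exists_le_sylow
    exact hexp P x (hP (Subgroup.mem_zpowers x))
  exact ⟨fun c => (plr_top_iff h).1 (plr_of_exp e G ⊤ (H4.isPSolvable_iff.1 hG) (noExc_of_not_fermat hp
    (c.imp_right fun c U _ => abel_of_sylow Nat.prime_two c U)) he),
    (plr_top_iff h).1 (H8.gq_plr_exp hp e G ⊤ (H4.isPSolvable_iff.1 hG) he)⟩

end Cfsg.Agent.S3786
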