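import Cfsg.Statements.S3787
import Cfsg.Agent.H21.HHE

set_option autoImplicit false
open Cfsg

namespace Cfsg.Agent.S3787

open H18 H21 H21.HB H1 Subgroup SemidirectProduct Multiplicative Module

abbrev Zp (p : ℕ) := Multiplicative (ZMod p)
abbrev Wp (p : ℕ) := (Zp p → Zp p) ⋊[mulAutArrow] Zp p

variable {G : Type*} [Group G] [Finite G] {p : ℕ} [hp : Fact p.Prime] {H V : Subgroup G} {x : G}

instance : Finite (Wp p) := Finite.of_equiv _ equivProd.symm

theorem wp_prop : ∃ (B : Subgroup (Wp p)) (t : Wp p), B.Normal ∧ IsMulCommutative B ∧ (∀ b ∈ B, b ^ p = 1) ∧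
    Nat.card B = p ^ p ∧ orderOf t = p ∧ t ∉ B ∧ Nat.card (Wp p) = p ^ (p + 1) ∧
    Nat.card ↥(B ⊓ Subgroup.centralizer ({t} : Set (Wp p))) = p := by
  have c : Nat.card (Zp p) = p := by simp
  have c2 : Nat.card (Zp p → Zp p) = p ^ p := by rw [Nat.card_fun, c]
  refine ⟨inl.range, inr (ofAdd 1), by rw [range_inl_eq_ker_rightHom]; infer_instance, abel_iff.1 (cent_iff.2 ?_), ?_,
    ?_, ?_, ?_, by rw [SemidirectProduct.card, c, c2, pow_succ], ?_⟩
  · rintro _ ⟨a, rfl⟩ _ ⟨b, rfl⟩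
    rw [← map_mul, mul_comm, map_mul]
  · rintro _ ⟨a, rfl⟩
    rw [← map_pow, show a ^ p = 1 from funext fun k => (congrArg (a k ^ ·) c.symm).trans pow_card_eq_one', map_one]
  · rw [← c2]; exact Nat.card_congr (MonoidHom.ofInjective inl_injective).symm.toEquiv
  · rw [orderOf_injective inr inr_injective, orderOf_ofAdd_eq_addOrderOf, ZMod.addOrderOf_one]
  · rw [range_inl_eq_ker_rightHom, MonoidHom.mem_ker, rightHom_inr]; simp
  · let κ : Zp p →* Wp p := inl.comp (Pi.constMonoidHom (Zp p) (Zp p))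
    have i : Function.Injective κ := fun a b e => congrFun (inl_injective e) 1
    refine Eq.trans (congrArg (fun X : Subgroup (Wp p) => Nat.card X) (le_antisymm ?_ ?_ : _ = κ.range))
      ((Nat.card_congr (MonoidHom.ofInjective i).symm.toEquiv).trans c)
    · rintro _ ⟨⟨a, rfl⟩, h⟩
      have h1 : ∀ k : ZMod p, a (ofAdd (k + 1)) = a (ofAdd k) := fun k => by
        have := congrFun (congrArg left (mem_C1.1 h)) (ofAdd (k + 1))
        simp only [mul_left, left_inl, left_inr, map_one, mul_one, one_mul, right_inr] at this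
        exact this.trans (congrArg a (show ofAdd (-1 + (k + 1)) = _ by rw [neg_add_cancel_comm_assoc]))
      refine ⟨a 1, congrArg inl (funext fun k => ?_)⟩
      obtain ⟨n, hn⟩ := ZMod.natCast_zmod_surjective (toAdd k)
      rw [← ofAdd_toAdd k, ← hn]
      clear hn
      induction n with
      | zero => simp
      | succ n ih => rw [Nat.cast_succ, h1]; exact ih
    · rintro _ ⟨a, rfl⟩
      exact ⟨⟨_, rfl⟩, mem_C1.2 (by ext <;> simp [κ]; rfl)⟩

theorem sec_wp (hV : Elem p V) (hx : x ∈ N(V)) (x1 : x ∉ V) (x2 : x ^ p ∈ V)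
    (h : (qrep hV (cs V x) - 1) ^ (p - 1) ≠ 0) : H4.Sec (Wp p) (V ⊔ zpowers x) := by
  set g := qrep hV (cs V x) with hg
  have g1 : g ^ p = 1 := by rw [hg, ← map_pow, ← mfun_pow hx, cs_eq_one x2, map_one]
  have g2 : (g - 1) ^ p = 0 := by simpa [g1] using sub_one_pow (K := ZMod p) (p := p) g 1
  have g3 : ∀ i : ℕ, g ^ i * (g - 1) ^ (p - 1) = (g - 1) ^ (p - 1) := fun i => by
    induction i with
    | zero => simp
    | succ i ih => rw [pow_succ, mul_assoc, ← sub_add_cancel g 1, add_mul, add_sub_cancel_right, ← pow_succ',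
        Nat.sub_add_cancel hp.out.pos, g2, zero_add, one_mul, sub_add_cancel, ih]
  obtain ⟨v, hv⟩ : ∃ v, ((g - 1) ^ (p - 1)) v ≠ 0 := not_forall.1 fun c => h (LinearMap.ext c)
  obtain ⟨f, hf⟩ := Projective.exists_dual_eq_one (ZMod p) hv
  let Φ : EV hV →ₗ[ZMod p] (ZMod p → ZMod p) := LinearMap.pi fun k => f ∘ₗ g ^ (-k).val
  let S : End (ZMod p) (ZMod p → ZMod p) := LinearMap.funLeft _ _ fun k => k - 1
  have e1 : ∀ w, Φ (g w) = S (Φ w) := fun w => funext fun k => by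
    show f ((g ^ (-k).val) (g w)) = f ((g ^ (-(k - 1)).val) w)
    rw [neg_sub', sub_neg_eq_add, ZMod.val_add, ZMod.val_one, ← pow_eq_pow_mod _ g1, pow_succ, End.mul_apply]
  have e2 : ∀ (i : ℕ) w, Φ (((g - 1) ^ i) w) = ((S - 1) ^ i) (Φ w) := fun i w => by
    induction i with
    | zero => rfl
    | succ i ih => simp only [pow_succ', End.mul_apply, LinearMap.sub_apply, map_sub, e1, End.one_apply, ih]
  have e3 : ∀ k, Φ (((g - 1) ^ (p - 1)) v) k = 1 := fun k => by
    show f ((g ^ (-k).val) _) = 1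
    rw [← End.mul_apply, g3, hf]
  have sur : LinearMap.range Φ = ⊤ := by
    have i : ∀ w ∈ LinearMap.range Φ, (S - 1) w ∈ LinearMap.range Φ := by
      rintro _ ⟨w, rfl⟩; exact ⟨(g - 1) w, by simpa using e2 1 w⟩
    have := pow_finrank (u := (S - 1).restrict i) ⟨p, by
      rw [End.pow_restrict]; ext ⟨_, w, rfl⟩ : 2; exact (e2 p w).symm.trans (by simp [g2])⟩
    refine Submodule.eq_top_of_finrank_eq (le_antisymm (Submodule.finrank_le _) (not_lt.1 fun c => ?_))
    have := pow_eq_zero_of_le (show _ ≤ p - 1 by simp at c; omega) this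
    rw [End.pow_restrict] at this
    have := congrFun ((e2 (p - 1) v).trans (congrArg Subtype.val (LinearMap.congr_fun this ⟨_, v, rfl⟩))) 0
    simp [e3] at this
  let a := EV.mk hV _ x2
  have a1 : ∀ i : ℕ, (g ^ i) a = a := fun i => EV.ext (by
    rw [hg, ← map_pow, ← mfun_pow hx, qrep_val _ (pow_mem hx i), EV.val_mk, ← pow_add, add_comm, pow_add,
      mul_inv_cancel_right])
  let y := ((-f a) • v).val * x
  have yN : y ∈ N(V) := mul_mem (le_N (EV.mem _)) hx
  have y1 : cs V y = cs V x := by rw [mfun_mul (le_N (EV.mem _)) hx, cs_eq_one (EV.mem _), one_mul]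
  have y2 : ∃ b : EV hV, b.val = y ^ p ∧ Φ b = 0 := by
    have e := geom_char (K := ZMod p) (p := p) g 1
    rw [pow_one] at e
    refine ⟨((g - 1) ^ (p - 1)) ((-f a) • v) + a, by rw [mul_pow_val hV hx, e]; rfl, funext fun k => ?_⟩
    rw [map_add, map_smul, map_smul, Pi.add_apply, Pi.smul_apply, e3, show Φ a k = f a from congrArg f (a1 _)]
    simp
  let j : V →* Wp p := inl.comp
    { toFun := fun w k => ofAdd (Φ (EV.mk hV w w.2) (toAdd k))
      map_one' := funext fun k => by rw [show EV.mk hV (1 : V) (1 : V).2 = 0 from rfl]; simp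
      map_mul' := fun a b => funext fun k => by
        rw [show EV.mk hV (a * b : V) (a * b : V).2 = EV.mk hV a a.2 + EV.mk hV b b.2 from rfl]; simp }
  let t : Wp p := inr (ofAdd 1)
  have j1 : ∀ w : V, j ⟨_, conj_mem_N yN w.2⟩ = t * j w * t⁻¹ := fun w => by
    rw [← map_inv, show j w = inl _ from rfl, ← inl_aut]
    refine congrArg inl (funext fun k => ?_)
    show ofAdd (Φ _ _) = ofAdd (Φ _ (-1 + toAdd k))
    rw [show EV.mk hV _ (conj_mem_N yN w.2) = g (EV.mk hV w w.2) from EV.ext (by rw [hg, ← y1, qrep_val _ yN]; rfl), e1,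
      neg_add_eq_sub]
    rfl
  have j2 : ∀ (n : ℕ) (w : V), j ⟨_, conj_mem_N (pow_mem yN n) w.2⟩ = t ^ n * j w * (t ^ n)⁻¹ := fun n w => by
    induction n with
    | zero => simp
    | succ n ih =>
      rw [show t ^ (n + 1) * j w * (t ^ (n + 1))⁻¹ = t * (t ^ n * j w * (t ^ n)⁻¹) * t⁻¹ by group, ← ih, ← j1]
      congr 2; simp [pow_succ', mul_assoc]
  refine (H4.sec_of_split V.subtype (zpowersHom G y) j (zpowersHom _ t) (fun b w => ?_) (fun w b e => ?_)
    fun z => ?_).mono (sup_le ?_ (by simp))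
  · refine ⟨⟨_, conj_mem_N (zpow_mem yN (toAdd b)) w.2⟩, by simp, ?_⟩
    obtain ⟨n, e | e⟩ := Int.eq_nat_or_neg (toAdd b) <;> simp only [zpowersHom_apply, e, zpow_natCast, zpow_neg]
    · simp [j2]
    · have := j2 n ⟨_, conj_mem_N (inv_mem (pow_mem yN n)) w.2⟩
      simp only [mul_assoc, inv_inv, mul_inv_cancel_left, mul_inv_cancel, mul_one, Subtype.coe_eta] at this
      simp [this, mul_assoc]
  · obtain ⟨c, c1, c2⟩ := y2
    have o : orderOf (cs V y) = p := orderOf_eq_prime (by rw [y1, ← mfun_pow hx, cs_eq_one x2])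
      (by rw [y1]; exact mt (cs_eq_one_iff hx).1 x1)
    have e' : y ^ toAdd b = (w : G)⁻¹ := eq_inv_of_mul_eq_one_right e
    obtain ⟨m, hm⟩ : (p : ℤ) ∣ toAdd b := by
      rw [← o, orderOf_dvd_iff_zpow_eq_one, ← mfun_zpow yN, e', cs_eq_one (inv_mem w.2)]
    have e1 : j ⟨_, c.mem⟩ = 1 := by
      rw [← map_one inl]
      exact congrArg inl (funext fun k => show ofAdd (Φ c _) = 1 by rw [c2]; rfl)
    have e2 : t ^ p = 1 := by rw [← map_pow, ← ofAdd_nsmul]; simp
    rw [show w = (⟨_, c.mem⟩ : V) ^ (-m) from Subtype.ext (by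
      rw [← inv_inv (w : G), ← e', hm, zpow_mul, zpow_natCast, ← c1]; simp), map_zpow, e1, zpowersHom_apply, hm, zpow_mul,
      zpow_natCast, e2]
    simp
  · obtain ⟨w, hw⟩ := LinearMap.range_eq_top.1 sur fun k => toAdd (z.left (ofAdd k))
    refine ⟨⟨_, w.mem⟩, ofAdd ((toAdd z.right).val : ℤ), (inl_left_mul_inr_right z).symm.trans ?_⟩
    congr 1
    · exact congrArg inl (funext fun k => show _ = ofAdd (Φ w _) by rw [hw]; rfl)
    · rw [zpowersHom_apply, toAdd_ofAdd, zpow_natCast, ← map_pow, ← ofAdd_nsmul]; simp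
  · rw [range_zpowersHom, zpowers_le]
    exact mul_mem_sup' (EV.mem _) (mem_zpowers x)

/-- Let G be a finite p-soluble group, p an odd prime not of the form 2^k + 1, and suppose the wreath product C_p ≀ C_p (of order p^(p+1)) is not involved in a Sylow p-subgroup of G: no section of a Sylow p-subgroup is isomorphic to it. Then G has p-length at most 1. -/
theorem result {G : Type*} [Group G] [Finite G] {p : ℕ} [Fact p.Prime] (hp2 : p ≠ 2) (hnf : (¬ ∃ k : ℕ, p = 2 ^ k + 1)) (hG : Cfsg.IsPSolvable p G) (P : Sylow p G) (hwr : ∀ (W : Type) [Group W] [Finite W], (∃ (B : Subgroup W) (t : W), B.Normal ∧ IsMulCommutative B ∧ (∀ b ∈ B, b ^ p = 1) ∧ Nat.card B = p ^ p ∧ orderOf t = p ∧ t ∉ B ∧ Nat.card W = p ^ (p + 1) ∧ Nat.card ↥(B ⊓ Subgroup.centralizer ({t} : Set W)) = p) → ¬ Cfsg.Involves W ↥(P : Subgroup G)) : Cfsg.PLengthLE p 1 G := by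
  have hs := H4.isPSolvable_iff.1 hG
  refine (plr_top_iff Fact.out).1 (plr_step (k := 0) (fun G _ H => ∃ P, Hall {p} P H ∧ ¬ H4.Sec (Wp p) P)
    (fun G _ _ H K hK ⟨P, h1, h2⟩ => ⟨_, h1.mim hK.2, fun e => h2 (sec_of_mim e)⟩) (fun G _ _ H V h ⟨P, h1, h2⟩ => ?_) hs
    ⟨P, hall_sylow_top Fact.out P, fun e => hwr _ wp_prop (H4.involves_subgroup_iff.2 e)⟩)
  have hp : p.Prime := Fact.out
  have PN := h1.1.trans h.nml.2
  refine plr_zero_iff.2 ⟨h.nml, h1.idx_of_le (by_contra fun c => ?_)⟩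
  obtain ⟨z, z1, z2⟩ := cauchy hp ((h1.2.mim (f := coset V)).dvd_card (mt (quo_eq_bot_iff PN).1 c))
  obtain ⟨a, a1, rfl⟩ := (mem_quo PN).1 z1
  have a2 : a ∉ V := fun e => hp.one_lt.ne' (by rw [← z2, cs_eq_one e, orderOf_one])
  obtain ⟨r, r1, r2⟩ := h.thmB (n := 1) (h1.1 a1) (fun e => a2 (h.le_of_bot e (h1.1 a1))) (by rw [z2, pow_one])
  have := r2.resolve_right (noExc_of_not_fermat hp2 (Or.inl hnf)).not_exc
  refine h2 ((sec_wp h.elem (PN a1) a2 ((cs_eq_one_iff (pow_mem (PN a1) p)).1 (by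
    rw [mfun_pow (PN a1), ← z2, pow_orderOf_eq_one])) (by rwa [show p - 1 = r by rw [pow_one] at this; omega])).mono
    (sup_le (h1.nml_le h.nml h.pi) (zpowers_le.2 a1)))

end Cfsg.Agent.S3787
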