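import Cfsg.Statements.S3788
import Cfsg.Agent.H21.HHE
import Cfsg.Agent.H4.S4

set_option autoImplicit false
open Cfsg

namespace Cfsg.Agent.S3788

open H18 H21 H21.HB H1 Subgroup

theorem aux {G : Type*} [Group G] [Finite G] {p : ℕ} [hp : Fact p.Prime] {H V A : Subgroup G} (h : RD p H V)
    (hA : A ≤ H) (hπ : PiGrp {p} A) (hn : V ≤ N(A)) (hc : Cyc A) (h2 : p ≠ 2 ∨ ¬ H4.Sec (Equiv.Perm (Fin 4)) H) :
    A ≤ V := by
  by_contra c
  obtain ⟨a, a1, a2, a3⟩ : ∃ a ∈ A, a ∉ V ∧ a ^ p ∈ V := by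
    obtain ⟨z, z1, z2⟩ := cauchy hp.out ((hπ.mim (f := coset V)).dvd_card
      (mt (quo_eq_bot_iff (hA.trans h.nml.2)).1 c))
    obtain ⟨a, a1, rfl⟩ := (mem_quo (hA.trans h.nml.2)).1 z1
    have aN := h.nml.2 (hA a1)
    exact ⟨a, a1, fun e => hp.out.one_lt.ne' (by rw [← z2, cs_eq_one e, orderOf_one]),
      (cs_eq_one_iff (pow_mem aN p)).1 (by rw [mfun_pow aN, ← z2, pow_orderOf_eq_one])⟩
  have aN := h.nml.2 (hA a1)
  have ab := hc.abel
  have c1 : ⁅V, zpowers a⁆ ≤ A ⊓ V := le_inf ((comm_mono le_rfl (zpowers_le.2 a1)).trans (comm_le_right hn))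
    (comm_le_left (zpowers_le.2 aN))
  have c2 : ¬ zpowers a ≤ C(V) := fun e => a2 (h.cent ⟨hA a1, e (mem_zpowers a)⟩)
  have c3 : Nat.card ↥(A ⊓ V) ∣ p := by
    obtain ⟨b, hb⟩ := (hc.of_le (inf_le_left : A ⊓ V ≤ A)).gen
    rw [← hb, card_zpowers']
    exact orderOf_dvd_of_pow_eq_one (h.elem.pow b (hb.le (mem_zpowers b)).2)
  have c4 : A ⊓ V ≠ ⊥ := fun e => c2 (cent_symm (comm_eq_bot_iff.1 (le_bot_iff.1 (c1.trans e.le))))
  have c5 : Nat.card ↥(A ⊓ V) = p := ((Nat.dvd_prime hp.out).1 c3).resolve_left (one_lt_card c4).ne'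
  have u2 : (qrep h.elem (cs V a) - 1) ^ 2 = 0 := LinearMap.ext fun v => EV.ext (by
    have : ((qrep h.elem (cs V a) - 1) v).val ∈ A := by
      rw [LinearMap.sub_apply, sub_eq_add_neg, EV.val_add, qrep_val _ aN, EV.val_neg]
      have := conj_mem hn v.mem (A.inv_mem a1)
      simpa [mul_assoc] using mul_mem a1 this
    rw [sq, Module.End.mul_apply]
    generalize (qrep h.elem (cs V a) - 1) v = w at this
    rw [LinearMap.sub_apply, sub_eq_add_neg, EV.val_add, qrep_val _ aN, EV.val_neg, comm_of_cent ab a1 this]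
    simp)
  by_cases e : p = 2
  · subst e
    refine h2.resolve_left (by simp) (sup_eq_left.2 h.nml.1 ▸ H4.NatSec.sec_S4 (H4.natSec_of_offender h.elem.isElem
      h.nml.2 h.psol (fun K k1 k2 k3 => ?_) (zpowers_le.2 (hA a1)) (abel_zpowers.der.le.trans bot_le)
      (fun b hb => ?_) c2 ?_))
    · refine ((le_pcore ⟨k1, k2⟩ (piGrp_of_elt fun x hx => ?_)).trans h.core).trans h.elem.abel
      obtain ⟨k, hk⟩ := H26.exists_pow_mem_pResidualOf (p := 2) hx
      refine (piNat_pow_self hp.out (k + 1)).of_dvd (orderOf_dvd_of_pow_eq_one ?_)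
      rw [pow_succ, pow_mul, h.elem.pow _ (h.cent ⟨pow_mem (k1 hx) _, k3 hk⟩)]
    · obtain ⟨i, rfl⟩ := mem_powers_iff_mem_zpowers.2 hb
      rw [← pow_mul, mul_comm, pow_mul]
      exact h.elem.abel (pow_mem a3 i)
    · have e1 : C1(a).relIndex V ≤ 2 := c5 ▸ H3.relIndex_C1_le fun v hv =>
        c1 (commutator_mem_commutator hv (mem_zpowers a))
      have e2 := one_lt_relIndex c2
      rw [C_zpowers, ← card_mul_relIndex' (A := C1(a)) (B := V), ← card_mul_relIndex' (A := C(V)) (B := zpowers a),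
        inf_comm (zpowers a), inf_comm V]
      nlinarith [Nat.mul_le_mul_left (Nat.card ↥(C1(a) ⊓ V) * Nat.card ↥(C(V) ⊓ zpowers a)) (e1.trans e2)]
  have b1 : zpowers (a ^ p) = A ⊓ V := zpowers_eq_of_prime (c5.symm ▸ hp.out) ⟨pow_mem a1 p, a3⟩ fun e =>
    a2 (hc.mem_of_pow inf_le_left a1 (c5 ▸ e)).2
  obtain ⟨Q, q1, q2, -, q3, q4⟩ := h.exists_compl
  obtain ⟨v, v1, v2⟩ := q3 a (hA a1)
  have QV := q1.trans h.nml.2
  have b2 : (v * a) ^ p = a ^ p := by
    have := mul_pow_val h.elem aN (EV.mk h.elem v v1) p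
    have e2 := geom_char (K := ZMod p) (p := p) (qrep h.elem (cs V a)) 1
    rw [pow_one] at e2
    rw [e2, pow_eq_zero_of_le (by have := hp.out.two_le; omega) u2] at this
    simpa using this
  have b3 : A ⊓ V ≤ C(Q) := comm_eq_bot_iff.1 (le_bot_iff.1 ((le_inf ((comm_mono inf_le_right le_rfl).trans
    (comm_le_left QV)) (comm_le_right (b1.ge.trans (zpowers_le.2 (b2 ▸ pow_mem v2 p))))).trans
      (h.pi.inf_eq_bot q2).le))
  have aH : v * a ∈ H := mul_mem (h.nml.1 v1) (hA a1)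
  have t1 : zpowers (v * a) ≤ N(V) := zpowers_le.2 (h.nml.2 aH)
  have t2 : zpowers (v * a) ≤ N(Q) := zpowers_le.2 v2
  have t3 : ⁅V, zpowers (v * a)⁆ ≤ A ⊓ V := (comm_mono le_rfl (zpowers_le.2 (mul_mem_sup' v1 (mem_zpowers a)))).trans
    (comm_sup_le' (h.elem.abel.der.le.trans bot_le) c1 (norm_inf hn le_N)
      (norm_inf (le_norm (zpowers_le.2 a1)) (zpowers_le.2 aN)))
  have cop : Cop Q V := cop_pi' QV q2 h.pi
  have t4 : ⁅V, Q⁆ ≤ C(zpowers (v * a)) := comm_eq_bot_iff.1 (le_bot_iff.1 ((le_inf (comm_le_left (norm_comm t1 t2))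
    (((comm_mono (comm_le_left QV) le_rfl).trans t3).trans b3)).trans (abel_comm_inf_cent h.elem.abel QV cop.cop).le))
  have t5 : ⁅zpowers (v * a), Q⁆ ≤ C(V) := by
    rw [← cop.comm_sup]
    exact cent_sup ((comm_mono (cent_symm t4) le_rfl).trans (comm_le_left (norm_C norm_comm_right)))
      ((comm_le_right t2).trans (cent_symm inf_le_right))
  have := q4 _ aH (((hπ.elt a1).zpowers.sup_norm h.pi (zpowers_le.2 aN)).elt
    (mul_mem (mem_sup_right v1) (mem_sup_left (mem_zpowers a))))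
    ((le_inf ((comm_le_right t2).trans q1) t5).trans h.cent)
  exact a2 ((mul_mem_cancel_left v1).1 this)

/-- Let G be a finite p-soluble group, P a Sylow p-subgroup of G and A a cyclic normal subgroup of P. If p is odd, or if no section of G is isomorphic to the symmetric group of degree 4, then A ≤ O_{p',p}(G). -/
theorem result {G : Type*} [Group G] [Finite G] {p : ℕ} [Fact p.Prime] (hG : Cfsg.IsPSolvable p G) (P : Sylow p G) (A : Subgroup G) (hAP : A ≤ (P : Subgroup G)) (hAn : (P : Subgroup G) ≤ Subgroup.normalizer (A : Set G)) (hA : IsCyclic A) (h : p ≠ 2 ∨ ¬ Cfsg.Involves (Equiv.Perm (Fin 4)) G) : A ≤ Cfsg.pPrimePCore p G := by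
  have hp : p.Prime := Fact.out
  obtain ⟨M, m1, -, m2, m3⟩ := exists_rd (H4.isPSolvable_iff.1 hG)
  have hP := hall_sylow_top hp P
  rw [pPrimePCore_eq hp]
  refine le_of_quo_le (le_top.trans m1.2) (m1.of_le m2 le_top) (aux m3 (mim_mono le_top) (hP.2.of_le hAP).mim
    (((hP.mim m1.2).nml_le m3.nml m3.pi).trans (mim_norm hAn)) (Cyc.mim hA) (h.imp_right fun c e => c ?_))
  exact H4.involves_iff.2 (sec_of_mim e)

end Cfsg.Agent.S3788
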