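import Cfsg.Statements.S3790
import Cfsg.Agent.H21.PLen

set_option autoImplicit false
open Cfsg

namespace Cfsg.Agent.S3790

open H18 H21 H1 Subgroup

theorem aux {G : Type*} [Group G] [Finite G] {ι : Type*} [DecidableEq ι] {p : ℕ} (q l : ι → ℕ) (S : Finset ι)
    (hq : ∀ i, q i ≠ p) : ∀ H V : Subgroup G, V ⊴ H →
    (∀ s : ℕ, s.Prime → s ∣ V.relIndex H → s ≠ p → ∃ i ∈ S, q i = s) → (∀ i ∈ S, PLR (q i) H (l i) V) →
    PLR p H (∏ i ∈ S, (1 + l i)) V := by
  induction S using Finset.induction_on with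
  | empty =>
    intro H V hV h1 _
    refine plr_of_p hV fun s hs hd => ?_
    by_contra e
    simpa using h1 s hs hd e
  | insert j S hj ih =>
    intro H V hV h1 h2
    rw [Finset.prod_insert hj]
    have sec : ∀ U W : Subgroup G, V ≤ U → U ⊴ H → U ≤ W → W ≤ H → PiNat {q j}ᶜ (U.relIndex W) →
        PLR p W (∏ i ∈ S, (1 + l i)) U := by
      intro U W a1 a2 a3 a4 a5
      refine ih W U (a2.of_le a3 a4) (fun s hs hd e => ?_) fun i hi => ?_
      · obtain ⟨i, hi, rfl⟩ := h1 s hs
          (hd.trans ((relIndex_dvd_of_norm a2.2 a4).trans (relIndex_dvd_left a1))) e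
        rcases Finset.mem_insert.1 hi with rfl | hi
        · exact absurd rfl (a5 _ hs hd)
        · exact ⟨i, hi, rfl⟩
      · have := ((h2 i (Finset.mem_insert_of_mem hi)).up a2 a1).inf a4
        rwa [inf_eq_left.2 a3] at this
    have key : ∀ m (U : Subgroup G), V ≤ U → PLR (q j) H m U → PLR p H ((1 + m) * ∏ i ∈ S, (1 + l i)) U := by
      intro m
      induction m with
      | zero =>
        intro U a1 a2
        simpa using sec U H a1 a2.nml a2.nml.1 le_rfl (plr_zero_iff.1 a2).2
      | succ m ihm =>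
        intro U a1 a2
        have n1 := rad_nml (π := {q j}ᶜ) a2.nml
        have b1 := (ihm _ (a1.trans (le_rad_self.trans le_rad_self)) a2.canon).of_p' n1
          (rad_idx.p'_of_ne (hq j))
        have := (sec U _ a1 a2.nml le_rad_self n1.1 rad_idx).trans a2.nml b1
        rwa [show (1 + (m + 1)) * ∏ i ∈ S, (1 + l i) = ∏ i ∈ S, (1 + l i) + (1 + m) * ∏ i ∈ S, (1 + l i) by ring]
    exact key _ V le_rfl (h2 j (Finset.mem_insert_self _ _))

/-- Let G be a finite solvable group and p a prime. Suppose p₁, …, p_r are distinct primes, all different from p, that include every prime dividing the order of G other than p, and that G has p_i-length at most l_i for each i. Then G has p-length at most the product of the numbers 1 + l_i. -/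
theorem result {G : Type*} [Group G] [Finite G] (hG : Group.IsSolvable G) (p : ℕ) [Fact p.Prime] (r : ℕ) (q : Fin r → ℕ) (hq : ∀ i, (q i).Prime ∧ q i ≠ p) (hinj : Function.Injective q) (hcover : ∀ s : ℕ, s.Prime → s ∣ Nat.card G → s ≠ p → ∃ i, q i = s) (l : Fin r → ℕ) (hl : ∀ i, Cfsg.PLengthLE (q i) (l i) G) : Cfsg.PLengthLE p (Finset.univ.prod fun i => 1 + l i) G := by
  refine (plr_top_iff Fact.out).1 (aux q l Finset.univ (fun i => (hq i).2) ⊤ ⊥ Nml.bot (fun s hs hd e => ?_)
    fun i _ => (plr_top_iff (hq i).1).2 (hl i))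
  obtain ⟨i, hi⟩ := hcover s hs (by simpa using hd) e
  exact ⟨i, Finset.mem_univ _, hi⟩

end Cfsg.Agent.S3790
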