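import Cfsg.Statements.S3791
import Cfsg.Agent.H21.PLen

set_option autoImplicit false
open Cfsg

namespace Cfsg.Agent.S3791

open H18 H21 H1 Subgroup

theorem aux {G : Type*} [Group G] [Finite G] {ι : Type*} [DecidableEq ι] [Fintype ι] (q d : ι → ℕ) (H : Subgroup G)
    (hs : Solv H) (hq : ∀ i, (q i).Prime) (hc : ∀ s : ℕ, s.Prime → s ∣ Nat.card H → ∃ i, q i = s)
    (hd : ∀ i, ∀ P ≤ H, PiGrp {q i} P → dser P (d i) = ⊥) (n : ℕ) :
    ∀ (V : Subgroup G) (l : ι → ℕ), V.relIndex H = n → V ⊴ H → (∀ i, PLR (q i) H (l i) V) →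
      dser H (∑ i, d i * l i) ≤ V := by
  induction n using Nat.strong_induction_on with
  | _ n ih =>
  intro V l hn hV hl
  by_cases e : H ≤ V
  · exact dser_le.trans e
  have lt : ∀ U, V ≤ U → U ≤ H → ¬ U ≤ V → U.relIndex H < n := fun U a1 a2 a3 => by
    rw [← hn, ← relIndex_tower a1 a2]
    exact lt_mul_left relIndex_pos (one_lt_relIndex a3)
  obtain ⟨U, hU, -⟩ := exists_chief_above hV Nml.rfl (lt_of_le_not_ge hV.1 e)
  have nU : U ⊴ H := hU.nmlU
  have UV : ¬ U ≤ V := hU.lt.not_ge
  obtain ⟨p, hp, hpd, hpi⟩ := hU.exists_prime (hs.of_le nU.1)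
  obtain ⟨i, rfl⟩ := hc p hp (hpd.trans (relIndex_dvd.trans (card_dvd nU.1)))
  have nW := rad_nml (π := {q i}ᶜ) hV
  by_cases c : rad {q i}ᶜ V H ≤ V
  · have e1 : rad {q i}ᶜ V H = V := le_antisymm c le_rad_self
    obtain ⟨m, hm⟩ : ∃ m, l i = m + 1 := by
      refine Nat.exists_eq_succ_of_ne_zero fun z => UV ?_
      have := hl i
      rw [z, plr_zero_iff] at this
      exact (le_rad hV nU (PiNat.idx_mono this.2 hV.2 nU.1)).trans c
    have a := hl i
    rw [hm] at a
    have a := a.canon
    rw [e1] at a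
    have nT := rad_nml (π := {q i}) hV
    have b := ih _ (lt _ le_rad_self nT.1 fun z => UV ((le_rad hV nU hpi).trans z)) _ (Function.update l i m) rfl nT
      fun j => by
        by_cases z : j = i
        · subst z; simpa using a
        · simpa [z] using (hl j).up nT le_rad_self
    have s : ∑ j, d j * l j = ∑ j, d j * Function.update l i m j + d i := by
      rw [← Finset.add_sum_erase _ _ (Finset.mem_univ i), ← Finset.add_sum_erase _ _ (Finset.mem_univ i),
        Finset.sum_congr rfl (g := fun j => d j * l j) (f := fun j => d j * Function.update l i m j)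
          fun j hj => by simp [Finset.ne_of_mem_erase hj]]
      simp [hm]; ring
    rw [s, dser_add]
    refine (dser_mono b).trans ?_
    obtain ⟨P, hP⟩ := exists_sylow (hq i) (rad {q i} V H)
    have s : P ⊔ V = rad {q i} V H := hP.sup_of_idx le_rad_self rad_idx
    have PN : P ≤ N(V) := hP.1.trans (nT.1.trans hV.2)
    rw [← dser_quo_eq_bot (nT.1.trans hV.2), ← s, quo_sup_self PN, dser_quo_eq_bot PN,
      hd i P (hP.1.trans nT.1) hP.2]
    exact bot_le
  · have a1 := ih _ (lt U hU.le nU.1 UV) U l rfl nU fun j => (hl j).up nU hU.le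
    have a2 := ih _ (lt _ le_rad_self nW.1 c) _ l rfl nW fun j => (hl j).up nW le_rad_self
    refine (le_inf a1 a2).trans (relIndex_eq_one_iff.1 ?_)
    exact (PiNat.idx_mono hpi (nU.1.trans hV.2) inf_le_left).eq_one
      (PiNat.idx_mono rad_idx (nW.1.trans hV.2) inf_le_right)

/-- The Hall–Higman bound on derived length: let G be a finite solvable group, let p₁, …, p_r be distinct primes that include every prime dividing the order of G, and suppose that for each i the Sylow p_i-subgroups of G have derived length at most d_i and G has p_i-length at most l_i. Then G has derived length at most Σ d_i l_i. -/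
theorem result {G : Type*} [Group G] [Finite G] (hG : Group.IsSolvable G) (r : ℕ) (q : Fin r → ℕ) (hq : ∀ i, (q i).Prime) (hinj : Function.Injective q) (hcover : ∀ s : ℕ, s.Prime → s ∣ Nat.card G → ∃ i, q i = s) (d l : Fin r → ℕ) (hd : ∀ i, ∀ P : Subgroup G, (haveI := Fact.mk (hq i); ∃ S : Sylow (q i) G, (S : Subgroup G) = P) → derivedSeries ↥P (d i) = ⊥) (hl : ∀ i, Cfsg.PLengthLE (q i) (l i) G) : derivedSeries G (Finset.univ.sum fun i => d i * l i) = ⊥ := by
  rw [← dser_top]
  refine le_bot_iff.1 (aux q d ⊤ (solv_top_iff.2 hG) hq (fun s hs e => hcover s hs (by simpa using e)) ?_ _ ⊥ l rfl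
    Nml.bot fun i => (plr_top_iff (hq i)).2 (hl i))
  intro i P _ hP
  obtain ⟨S, hS, hPS⟩ := exists_sylow_le (hq i) hP le_top
  have := Fact.mk (hq i)
  have := derivedSeries_eq_bot_iff.1 (hd i S (hS.exists_sylow_top (hq i)))
  exact le_bot_iff.1 ((dser_mono hPS).trans this.le)

end Cfsg.Agent.S3791
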