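import Cfsg.Statements.S3794
import Cfsg.Agent.H5.HA

set_option autoImplicit false
open Cfsg

namespace Cfsg.Agent.S3794
open H5
open H18 H1 Subgroup

/-- Let G be a finite solvable group with an automorphism σ satisfying σ⁴ = 1 and fixing only the identity. Then the derived subgroup G' is nilpotent. -/
theorem result {G : Type*} [Group G] [Finite G] (hG : Group.IsSolvable G) (σ : MulAut G) (hσ : σ ^ 4 = 1) (hfpf : ∀ g : G, σ g = g → g = 1) : Group.IsNilpotent (commutator G) := by
  let φ : MulAut G →* MulAut G := MonoidHom.id _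
  have h0 : hl φ ⊤ ⊓ C(hr φ (zpowers σ)) = ⊥ := by
    rw [hl_top_inf_C, hl_eq_bot, eq_bot_iff]
    exact fun g hg => hfpf g (mem_fixS_zpowers.1 hg)
  have hc : Nat.card (hr φ (zpowers σ)) ∣ 4 := by rw [card_hr, card_zpowers']; exact orderOf_dvd_of_pow_eq_one hσ
  have := nil_of_le_fit (der_le_fit_of_four (cyc_hr.2 cyc_zpowers) hc
    (cop_of_fpf Nat.prime_two ((piNat_pow_self Nat.prime_two 2).of_dvd hc) hr_norm_top h0) (solv_hl.2 (solv_top_iff.2 hG)) h0)
  rw [← hl_comm, nil_hl] at this
  exact this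

end Cfsg.Agent.S3794
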