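import Cfsg.Statements.S3796
import Cfsg.Agent.H5.Tw1

set_option autoImplicit false
open Cfsg

namespace Cfsg.Agent.S3796
open H5
open H18 H1 Subgroup

/-- Ward's Theorem: let G be a finite solvable group and A an elementary abelian group of automorphisms of G of order p² (p a prime) with no non-identity common fixed point. Then G has Fitting height at most 2: G has Fitting height at most m when there is a chain of normal subgroups 1 = F₀ ≤ F₁ ≤ ⋯ ≤ F_m = G with each F_{i+1}/F_i nilpotent. -/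
theorem result {G : Type*} [Group G] [Finite G] (hG : Group.IsSolvable G) {p : ℕ} (hp : p.Prime) (A : Subgroup (MulAut G)) (hA : Cfsg.IsElementaryAbelian p A) (hcard : Nat.card A = p ^ 2) (hfpf : ∀ g : G, (∀ a ∈ A, a g = g) → g = 1) : ∃ F : Fin (2 + 1) → Subgroup G, F 0 = ⊥ ∧ F (Fin.last 2) = ⊤ ∧ Monotone F ∧ (∀ i, (F i).Normal) ∧ ∀ i : Fin 2, ∃ k : ℕ, (F i.succ).lowerCentralSeries k ≤ F i.castSucc := by
  let φ : MulAut G →* MulAut G := MonoidHom.id _
  have h0 : hl φ ⊤ ⊓ C(hr φ A) = ⊥ := by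
    rw [hl_top_inf_C, hl_eq_bot, eq_bot_iff]
    exact fun g hg => hfpf g (mem_fixS.1 hg)
  have hc : Nat.card (hr φ A) = p ^ 2 := by rw [card_hr, hcard]
  have hE := elem_iff.2 hA
  have hE' : Elem p (hr φ A) := ⟨abel_hr.2 hE.abel, fun z hz => by
    obtain ⟨a, ha, rfl⟩ := mem_hr.1 hz
    rw [← map_pow, hE.pow a ha, map_one]⟩
  exact fht_iff_top.2 (lns_hl.1 (lns_two_of_pp hp hE' hc
    (cop_of_fpf hp (piGrp_of_card_pow hp hc) hr_norm_top h0) (solv_hl.2 (solv_top_iff.2 hG)) h0))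

end Cfsg.Agent.S3796
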