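import Cfsg.Statements.S3799
import Cfsg.Agent.H21.Heis

set_option autoImplicit false
open Cfsg

namespace Cfsg.Agent.S3799

open H18 H21 Subgroup

/-- the natural representation of the Heisenberg group -/
def rho (n p : ℕ) : Heis (bPlus n (ZMod p)) →* Module.End (ZMod p) (ZMod p × (Fin n → ZMod p) × ZMod p) where
  toFun x :=
    { toFun := fun w => (w.1 + ∑ i, x.v (.inl i) * w.2.1 i + x.a * w.2.2, fun i => w.2.1 i + x.v (.inr i) * w.2.2, w.2.2)
      map_add' := fun w w' => by
        ext <;> simp [mul_add, Finset.sum_add_distrib] <;> ring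
      map_smul' := fun c w => by
        ext <;> simp [mul_add, Finset.mul_sum, mul_left_comm] }
  map_one' := LinearMap.ext fun w => by ext <;> simp
  map_mul' x y := LinearMap.ext fun w => by
    ext <;> simp [bPlus_apply, mul_add, add_mul, Finset.sum_add_distrib, Finset.sum_mul, mul_assoc] <;> ring

theorem rho_inj (n p : ℕ) : Function.Injective (rho n p) := (injective_iff_map_eq_one _).2 fun x hx => by
  have h1 := congrArg (fun f : Module.End _ _ => f (0, 0, 1)) hx
  have h2 := fun i => congrArg (fun f : Module.End _ _ => (f (0, Pi.single i 1, 0)).1) hx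
  simp [rho, Pi.single_apply, funext_iff] at h1 h2
  refine Heis.ext ?_ h1.1
  ext (i | i)
  · exact h2 i
  · exact h1.2 i

/-- For every odd prime p and every n ≥ 1 there is an extraspecial p-group of order p^(1+2n) and exponent p; concretely, the general linear group of degree n + 2 over the field with p elements contains such a subgroup. -/
theorem result (p : ℕ) [Fact p.Prime] (hp : p ≠ 2) (n : ℕ) (hn : 1 ≤ n) : ∃ E : Subgroup (Matrix.GeneralLinearGroup (Fin (n + 2)) (ZMod p)), Cfsg.IsExtraspecial p ↥E ∧ Nat.card E = p ^ (1 + 2 * n) ∧ ∀ x ∈ E, x ^ p = 1 := by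
  have hp' : p.Prime := Fact.out
  let b := Module.finBasisOfFinrankEq (ZMod p) (ZMod p × (Fin n → ZMod p) × ZMod p) (n := n + 2) (by simp; ring)
  let f := (Matrix.GeneralLinearGroup.toLin' b).symm.toMonoidHom.comp (rho n p).toHomUnits
  have hf : Function.Injective f := fun x y h =>
    rho_inj n p (congrArg Units.val ((Matrix.GeneralLinearGroup.toLin' b).symm.injective h))
  have e := card_top.trans (card_plus n p)
  refine ⟨f.range, isExtraspecial_of_equiv hp' (MonoidHom.ofInjective hf) ((isExtraspecial_iff_top hp').2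
    ⟨es_plus n p, mt ((es_plus n p).abel_iff_card hp' e).1 (by omega)⟩), ?_, ?_⟩
  · rw [← Nat.card_congr (MonoidHom.ofInjective hf).toEquiv, card_plus, add_comm]
  · rintro _ ⟨x, rfl⟩
    rw [← map_pow, map_eq_one_iff f hf]
    obtain ⟨k, hk⟩ := hp'.dvd_choose_self two_ne_zero (lt_of_le_of_ne hp'.two_le hp.symm)
    ext : 1
    · ext i; simp [Heis.pow_v]
    · simp [Heis.pow_a, hk]

end Cfsg.Agent.S3799
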