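import Cfsg.Statements.S3951
import Cfsg.Agent.H21.SchurMeta2

set_option autoImplicit false
open Cfsg

namespace Cfsg.Agent.S3951

/-- For positive integers `m` and `n` with `n` dividing `m`, the Schur multiplier of the abelian group `ZMod m × ZMod n` (written multiplicatively) is cyclic of order `n`. In particular the elementary abelian group of order `p ^ 2` has multiplier of order `p`. -/
theorem result (m n : ℕ) [NeZero m] [NeZero n] (hnm : n ∣ m) : Cfsg.HasCyclicSchurMultiplier (Multiplicative (ZMod m × ZMod n)) n := by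
  refine H21.schur_metacyclic (Multiplicative.ofAdd (1, 0)) (Multiplicative.ofAdd (0, 1)) ?_ m n 1 0 ?_ ?_ ?_ ?_
    n ?_
  · rw [eq_top_iff]
    rintro u -
    obtain ⟨⟨x, y⟩, rfl⟩ := Multiplicative.ofAdd.surjective u
    obtain ⟨i, rfl⟩ := ZMod.natCast_zmod_surjective x
    obtain ⟨j, rfl⟩ := ZMod.natCast_zmod_surjective y
    have : Multiplicative.ofAdd ((i : ZMod m), (j : ZMod n)) =
        Multiplicative.ofAdd ((1 : ZMod m), (0 : ZMod n)) ^ i *
          Multiplicative.ofAdd ((0 : ZMod m), (1 : ZMod n)) ^ j := by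
      simp [← ofAdd_nsmul, ← ofAdd_add]
    rw [this]
    exact mul_mem (pow_mem (Subgroup.subset_closure (by simp)) _) (pow_mem (Subgroup.subset_closure (by simp)) _)
  · rw [orderOf_ofAdd_eq_addOrderOf, Prod.addOrderOf_mk]; simp
  · simp
  · simp [← ofAdd_nsmul]
  · rintro j ⟨k, hk⟩
    have := congrArg (fun u => u.toAdd.2) hk
    simp at this
    exact (ZMod.intCast_zmod_eq_zero_iff_dvd j n).mp this.symm
  · simp [commutatorElement_def, Nat.gcd_eq_right hnm]

end Cfsg.Agent.S3951
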