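import Cfsg.Statements.S3950
import Cfsg.Agent.H21.SchurProd
import Cfsg.Agent.S3951

set_option autoImplicit false
open Cfsg

namespace Cfsg.Agent.S3950

/-- A finite abelian group has trivial Schur multiplier if and only if it is cyclic. -/
theorem result {G : Type*} [CommGroup G] [Finite G] : Cfsg.HasCyclicSchurMultiplier G 1 ↔ IsCyclic G := by
  refine ⟨fun h => ?_, fun h => H21.schur_trivial_of_isCyclic⟩
  obtain ⟨ι, _, n, hn, ⟨e⟩⟩ := CommGroup.equiv_prod_multiplicative_zmod_of_finite G
  by_cases hc : Pairwise (Function.onFun Nat.Coprime n)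
  · let e' : Multiplicative (ZMod (∏ i, n i)) ≃* ((i : ι) → Multiplicative (ZMod (n i))) :=
      (AddEquiv.toMultiplicative (ZMod.prodEquivPi n hc).toAddEquiv).trans (MulEquiv.piMultiplicative _)
    exact isCyclic_of_surjective (e'.trans e.symm) (e'.trans e.symm).surjective
  · exfalso
    simp only [Pairwise, not_forall] at hc
    obtain ⟨i, j, hij, hc⟩ := hc
    obtain ⟨p, hp, hi, hj⟩ := Nat.Prime.not_coprime_iff_dvd.mp hc
    have : NeZero p := ⟨hp.ne_zero⟩
    let π : ((i : ι) → Multiplicative (ZMod (n i))) →* Multiplicative (ZMod p × ZMod p) :=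
      { toFun := fun x => Multiplicative.ofAdd (ZMod.castHom hi (ZMod p) (x i).toAdd,
          ZMod.castHom hj (ZMod p) (x j).toAdd)
        map_one' := by simp only [Pi.one_apply, toAdd_one, map_zero]; rfl
        map_mul' := fun x y => by simp only [Pi.mul_apply, toAdd_mul, map_add]; rfl }
    have hπ : Function.Surjective π := by
      intro u
      obtain ⟨⟨a, b⟩, rfl⟩ := Multiplicative.ofAdd.surjective u
      obtain ⟨a, rfl⟩ := ZMod.castHom_surjective hi a
      obtain ⟨b, rfl⟩ := ZMod.castHom_surjective hj b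
      classical
      refine ⟨Pi.mulSingle i (Multiplicative.ofAdd a) * Pi.mulSingle j (Multiplicative.ofAdd b), ?_⟩
      simp only [π, MonoidHom.coe_mk, OneHom.coe_mk, Pi.mul_apply, Pi.mulSingle_eq_same,
        Pi.mulSingle_eq_of_ne hij, Pi.mulSingle_eq_of_ne (Ne.symm hij), mul_one, one_mul, toAdd_ofAdd]
    have h1 := H21.schur_trivial_of_surjective_comm h (π.comp e.toMonoidHom) (hπ.comp e.surjective)
    obtain ⟨e2⟩ := H21.schur_equiv h1 (Cfsg.Agent.S3951.result p p dvd_rfl)
    have := Nat.card_congr e2.toEquiv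
    rw [Nat.card_congr Multiplicative.toAdd, Nat.card_congr Multiplicative.toAdd, Nat.card_zmod,
      Nat.card_zmod] at this
    exact hp.one_lt.ne this

end Cfsg.Agent.S3950
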