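import Cfsg.Statements.S3966
import Cfsg.Agent.H21.SchurMeta2

set_option autoImplicit false
open Cfsg

namespace Cfsg.Agent.S3966

open scoped commutatorElement

def qd (n : ℕ) : QuaternionGroup n →* DihedralGroup n where
  toFun
    | .a i => .r (ZMod.castHom (dvd_mul_left n 2) (ZMod n) i)
    | .xa i => .sr (ZMod.castHom (dvd_mul_left n 2) (ZMod n) i)
  map_one' := by
    change DihedralGroup.r (ZMod.castHom (dvd_mul_left n 2) (ZMod n) 0) = 1
    rw [map_zero]; rfl
  map_mul' := by
    rintro (i | i) (j | j)
    · simp only [QuaternionGroup.a_mul_a, map_add, DihedralGroup.r_mul_r]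
    · simp only [QuaternionGroup.a_mul_xa, map_sub, DihedralGroup.r_mul_sr]
    · simp only [QuaternionGroup.xa_mul_a, map_add, DihedralGroup.sr_mul_r]
    · simp only [QuaternionGroup.xa_mul_xa, map_add, map_sub, DihedralGroup.sr_mul_sr, map_natCast,
        ZMod.natCast_self, zero_add]

/-- For even `n ≥ 2` the dicyclic group of order `4 n` is a stem extension of the dihedral group of order `2 n` with kernel of order `2`: there is a surjective homomorphism `QuaternionGroup n →* DihedralGroup n` whose kernel is central, lies in the commutator subgroup and has two elements. Together with the order of the multiplier this exhibits the dicyclic group as a Schur covering group of the dihedral group. -/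
theorem result (n : ℕ) [NeZero n] (hn : Even n) : ∃ σ : QuaternionGroup n →* DihedralGroup n, Cfsg.IsStemExtension σ ∧ Nat.card σ.ker = 2 := by
  have hsurj : Function.Surjective (qd n) := by
    rintro (i | i)
    · obtain ⟨k, rfl⟩ := ZMod.natCast_zmod_surjective i
      exact ⟨.a k, by simp only [qd, MonoidHom.coe_mk, OneHom.coe_mk, map_natCast]⟩
    · obtain ⟨k, rfl⟩ := ZMod.natCast_zmod_surjective i
      exact ⟨.xa k, by simp only [qd, MonoidHom.coe_mk, OneHom.coe_mk, map_natCast]⟩
  have hcard : Nat.card (qd n).ker = 2 := by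
    have h1 := Subgroup.card_eq_card_quotient_mul_card_subgroup (qd n).ker
    rw [Nat.card_congr (QuotientGroup.quotientKerEquivOfSurjective _ hsurj).toEquiv, DihedralGroup.nat_card,
      Nat.card_eq_fintype_card, QuaternionGroup.card] at h1
    have : 0 < n := Nat.pos_of_ne_zero (NeZero.ne n)
    nlinarith
  have hker : (qd n).ker = Subgroup.zpowers (QuaternionGroup.a (n : ZMod (2 * n))) := by
    symm
    apply Subgroup.eq_of_le_of_card_ge
    · rw [Subgroup.zpowers_le, MonoidHom.mem_ker]
      simp only [qd, MonoidHom.coe_mk, OneHom.coe_mk, map_natCast, ZMod.natCast_self]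
      rfl
    · rw [hcard, Nat.card_zpowers, ← QuaternionGroup.xa_sq 0, orderOf_pow, QuaternionGroup.orderOf_xa]
      norm_num
  refine ⟨qd n, ⟨hsurj, ?_, ?_⟩, hcard⟩
  · rw [hker, Subgroup.zpowers_le, Subgroup.mem_center_iff]
    have h2 : (n : ZMod (2 * n)) + n = 0 := by
      rw [← two_mul]; exact_mod_cast ZMod.natCast_self (2 * n)
    rintro (i | i)
    · simp [add_comm]
    · simp only [QuaternionGroup.xa_mul_a, QuaternionGroup.a_mul_xa]
      congr 1
      linear_combination h2
  · rw [hker, Subgroup.zpowers_le]
    obtain ⟨k, hk⟩ := hn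
    have : QuaternionGroup.a (n : ZMod (2 * n)) =
        ⁅QuaternionGroup.a (k : ZMod (2 * n)), QuaternionGroup.xa (0 : ZMod (2 * n))⁆ := by
      rw [commutatorElement_def, eq_mul_inv_iff_mul_eq, eq_mul_inv_iff_mul_eq]
      simp only [QuaternionGroup.xa_mul_a, QuaternionGroup.a_mul_xa]
      congr 1
      have : (n : ZMod (2 * n)) = k + k := by exact_mod_cast congrArg (Nat.cast : ℕ → ZMod (2 * n)) hk
      linear_combination -this
    rw [this]
    exact Subgroup.commutator_mem_commutator (Subgroup.mem_top _) (Subgroup.mem_top _)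

end Cfsg.Agent.S3966
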