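import Cfsg.Statements.S3967
import Cfsg.Agent.H21.SchurMeta2

set_option autoImplicit false
open Cfsg

namespace Cfsg.Agent.S3967

open Subgroup
open scoped commutatorElement

def mulAutOf {m : ℕ} (ρ : (ZMod m)ˣ) : MulAut (Multiplicative (ZMod m)) :=
  AddEquiv.toMultiplicative (AddAut.mulLeft ρ)

theorem mulAutOf_pow {m : ℕ} (ρ : (ZMod m)ˣ) (j : ℕ) (x : ZMod m) :
    (mulAutOf ρ ^ j) (Multiplicative.ofAdd x) = Multiplicative.ofAdd ((ρ : ZMod m) ^ j * x) := by
  induction j with
  | zero => simp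
  | succ j ih =>
    rw [pow_succ', MulAut.mul_apply, ih, pow_succ', mul_assoc]
    rfl

theorem model (m n r t : ℕ) (hm : 0 < m) (hn : 0 < n) (hrn : r ^ n ≡ 1 [MOD m]) (ht : r * t ≡ t [MOD m]) :
    ∃ (H : Type) (_ : Group H) (a b : H), orderOf a = m ∧ b ^ n = a ^ t ∧ b * a * b⁻¹ = a ^ r := by
  have hcop : r.Coprime m := by
    have h1 : (r ^ n).Coprime m := by
      rw [Nat.Coprime, hrn.gcd_eq]; simp
    exact (Nat.coprime_pow_left_iff hn _ _).mp h1
  let ρ : (ZMod m)ˣ := ZMod.unitOfCoprime r hcop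
  have hρ : (ρ : ZMod m) = r := ZMod.coe_unitOfCoprime _ _
  let H0 := Multiplicative (ZMod m) ⋊[zpowersHom _ (mulAutOf ρ)] Multiplicative ℤ
  let a : H0 := SemidirectProduct.inl (Multiplicative.ofAdd 1)
  let b : H0 := SemidirectProduct.inr (Multiplicative.ofAdd 1)
  have hba : ∀ j : ℕ, b ^ j * a * (b ^ j)⁻¹ = a ^ (r ^ j) := by
    intro j
    rw [← map_pow, ← map_inv, ← SemidirectProduct.inl_aut, map_pow, zpowersHom_apply,
      toAdd_ofAdd, zpow_one, mulAutOf_pow, hρ, ← map_pow SemidirectProduct.inl, ← ofAdd_nsmul]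
    simp
  have ha : orderOf a = m := by
    rw [orderOf_injective _ SemidirectProduct.inl_injective, orderOf_ofAdd_eq_addOrderOf]; simp
  have hba1 : b * a * b⁻¹ = a ^ r := by simpa using hba 1
  have hz : b ^ n * (a ^ t)⁻¹ ∈ center H0 := by
    have h1 : Commute a (b ^ n) := by
      have := hba n
      rw [(pow_eq_pow_iff_modEq (x := a)).mpr (ha ▸ hrn), pow_one] at this
      exact (mul_inv_eq_iff_eq_mul.mp this).symm
    have h2 : Commute b (a ^ t) := by
      have : b * a ^ t * b⁻¹ = a ^ t := by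
        rw [← conj_pow, hba1, ← pow_mul, pow_eq_pow_iff_modEq, ha]; exact ht
      exact mul_inv_eq_iff_eq_mul.mp this
    have h3 : Commute a (b ^ n * (a ^ t)⁻¹) := h1.mul_right ((Commute.refl a).pow_right t).inv_right
    have h4 : Commute b (b ^ n * (a ^ t)⁻¹) := ((Commute.refl b).pow_right n).mul_right h2.inv_right
    rw [mem_center_iff]
    intro g
    rw [← SemidirectProduct.inl_left_mul_inr_right g]
    obtain ⟨x, hx⟩ := Multiplicative.ofAdd.surjective g.left
    obtain ⟨i, rfl⟩ := ZMod.intCast_surjective x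
    obtain ⟨j, hj⟩ := Multiplicative.ofAdd.surjective g.right
    have e1 : (SemidirectProduct.inl g.left : H0) = a ^ i := by
      rw [← map_zpow, ← hx, ← ofAdd_zsmul]; simp
    have e2 : (SemidirectProduct.inr g.right : H0) = b ^ j := by
      rw [← map_zpow, ← hj, ← ofAdd_zsmul]; simp
    rw [e1, e2]
    exact ((h3.zpow_left i).mul_left (h4.zpow_left j))
  have hN : (zpowers (b ^ n * (a ^ t)⁻¹)).Normal := H21.normal_of_le_center (zpowers_le.mpr hz)
  refine ⟨H0 ⧸ zpowers (b ^ n * (a ^ t)⁻¹), inferInstance, a, b, ?_, ?_, ?_⟩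
  · refine Eq.trans ?_ ha
    rw [orderOf_eq_orderOf_iff]
    intro k
    refine ⟨fun h => ?_, fun h => by rw [← QuotientGroup.mk_pow, h, QuotientGroup.mk_one]⟩
    rw [← QuotientGroup.mk_pow, QuotientGroup.eq_one_iff] at h
    obtain ⟨i, hi⟩ := h
    have := congrArg (fun u => (SemidirectProduct.rightHom u).toAdd) hi
    simp only [a, b, map_zpow, map_mul, map_pow, map_inv, SemidirectProduct.rightHom_inl,
      SemidirectProduct.rightHom_inr] at this
    simp at this
    rcases this with rfl | h0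
    · simpa using hi.symm
    · omega
  · rw [← QuotientGroup.mk_pow, ← QuotientGroup.mk_pow, ← mul_inv_eq_one, ← QuotientGroup.mk_inv,
      ← QuotientGroup.mk_mul, QuotientGroup.eq_one_iff]
    exact mem_zpowers _
  · rw [← QuotientGroup.mk_inv, ← QuotientGroup.mk_mul, ← QuotientGroup.mk_mul, hba1, QuotientGroup.mk_pow]

theorem main (m n r t : ℕ) (hm : 0 < m) (hn : 0 < n) (hrn : r ^ n ≡ 1 [MOD m]) (ht : r * t ≡ t [MOD m])
    (hr : 0 < r) (g : ℕ)
    (hg : Nat.gcd m (Nat.gcd t (∑ i ∈ Finset.range n, r ^ i)) = m / Nat.gcd m (r - 1) * g) :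
    Cfsg.HasCyclicSchurMultiplier (PresentedGroup ({FreeGroup.of true ^ m,
      (FreeGroup.of false) ^ n * (FreeGroup.of true ^ t)⁻¹,
      FreeGroup.of false * FreeGroup.of true * (FreeGroup.of false)⁻¹ * (FreeGroup.of true ^ r)⁻¹} :
        Set (FreeGroup Bool))) g := by
  set rels : Set (FreeGroup Bool) := {FreeGroup.of true ^ m,
      (FreeGroup.of false) ^ n * (FreeGroup.of true ^ t)⁻¹,
      FreeGroup.of false * FreeGroup.of true * (FreeGroup.of false)⁻¹ * (FreeGroup.of true ^ r)⁻¹} with hrels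
  let a : PresentedGroup rels := PresentedGroup.of true
  let b : PresentedGroup rels := PresentedGroup.of false
  have r1 : a ^ m = 1 := PresentedGroup.one_of_mem (x := FreeGroup.of true ^ m) (by simp [hrels])
  have r2 : b ^ n = a ^ t := mul_inv_eq_one.mp
    (PresentedGroup.one_of_mem (x := (FreeGroup.of false) ^ n * (FreeGroup.of true ^ t)⁻¹) (by simp [hrels]))
  have r3 : b * a * b⁻¹ = a ^ r := mul_inv_eq_one.mp
    (PresentedGroup.one_of_mem (x := FreeGroup.of false * FreeGroup.of true * (FreeGroup.of false)⁻¹ *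
      (FreeGroup.of true ^ r)⁻¹) (by simp [hrels]))
  have hgen : closure {a, b} = ⊤ := by
    rw [← PresentedGroup.closure_range_of rels]
    congr 1
    ext x
    simp only [Set.mem_insert_iff, Set.mem_singleton_iff, Set.mem_range, Bool.exists_bool]
    constructor
    · rintro (rfl | rfl)
      · exact Or.inr rfl
      · exact Or.inl rfl
    · rintro (rfl | rfl)
      · exact Or.inr rfl
      · exact Or.inl rfl
  have hfa : IsOfFinOrder a := isOfFinOrder_iff_pow_eq_one.mpr ⟨m, hm, r1⟩
  have : Finite (zpowers a) := finite_zpowers.mpr hfa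
  have hN : (zpowers a).Normal := by
    rw [← normalizer_eq_top_iff, eq_top_iff, ← hgen, closure_le]
    rintro z (rfl | rfl)
    · exact le_normalizer (mem_zpowers _)
    · apply Subgroup.mem_normalizer_fintype
      rintro _ ⟨k, rfl⟩
      simp only [← conj_zpow, r3]
      exact zpow_mem (pow_mem (mem_zpowers a) r) k
  have : Finite (PresentedGroup rels ⧸ zpowers a) := by
    have h1 : zpowers (b : PresentedGroup rels ⧸ zpowers a) = ⊤ := by
      have := MonoidHom.map_closure (QuotientGroup.mk' (zpowers a)) {a, b}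
      rw [hgen, Set.image_pair, ← MonoidHom.range_eq_map,
        MonoidHom.range_eq_top.mpr (QuotientGroup.mk'_surjective _)] at this
      rw [eq_top_iff, this, closure_le]
      rintro z (rfl | rfl)
      · rw [QuotientGroup.mk'_apply, (QuotientGroup.eq_one_iff a).mpr (mem_zpowers a)]
        exact one_mem _
      · exact mem_zpowers _
    have h2 : IsOfFinOrder (b : PresentedGroup rels ⧸ zpowers a) :=
      isOfFinOrder_iff_pow_eq_one.mpr ⟨n, hn, by
        rw [← QuotientGroup.mk_pow, QuotientGroup.eq_one_iff, r2]; exact pow_mem (mem_zpowers a) t⟩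
    have h3 : Finite (zpowers (b : PresentedGroup rels ⧸ zpowers a)) := finite_zpowers.mpr h2
    rw [h1] at h3
    exact Finite.of_equiv _ topEquiv.toEquiv
  have : Finite (PresentedGroup rels) := Finite.of_subgroup_quotient (zpowers a)
  have ha : orderOf a = m := by
    obtain ⟨H, _, a', b', h1, h2, h3⟩ := model m n r t hm hn hrn ht
    let f : PresentedGroup rels →* H := PresentedGroup.toGroup (f := fun x => cond x a' b') (by
      rintro _ (rfl | rfl | rfl)
      · simp [← h1]
      · simp [h2]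
      · simp [h3])
    have : f a = a' := PresentedGroup.toGroup.of _
    refine Nat.dvd_antisymm (orderOf_dvd_of_pow_eq_one r1) ?_
    rw [← h1, ← this]
    exact orderOf_map_dvd f a
  refine H21.schur_metacyclic a b hgen m n r t ha r3 r2 ?_ g ?_
  · let f : PresentedGroup rels →* Multiplicative (ZMod n) :=
      PresentedGroup.toGroup (f := fun x => cond x 1 (Multiplicative.ofAdd 1)) (by
        rintro _ (rfl | rfl | rfl)
        · simp
        · simp [← ofAdd_nsmul]
        · simp)
    have fa : f a = 1 := PresentedGroup.toGroup.of _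
    have fb : f b = Multiplicative.ofAdd 1 := PresentedGroup.toGroup.of _
    rintro j ⟨k, hk⟩
    have := congrArg f hk
    simp only [map_zpow, fa, fb, one_zpow, ← ofAdd_zsmul] at this
    rw [eq_comm, ofAdd_eq_one, zsmul_one] at this
    exact (ZMod.intCast_zmod_eq_zero_iff_dvd j n).mp this
  · have : ⁅b, a⁆ = a ^ (r - 1) := by
      rw [commutatorElement_def, r3, mul_inv_eq_iff_eq_mul, ← pow_succ, Nat.sub_add_cancel hr]
    rw [this, orderOf_pow, ha, hg]

/-- Let `m, n ≥ 1`, `r ≥ 1` with `r ^ n ≡ 1 (mod m)`, and `l` a natural number; put `d = gcd(m, r - 1)`, `t = m l / d` and `h = d · gcd(m, 1 + r + ⋯ + r^(n-1)) / m`. The group presented by generators `a, b` and relations `a ^ m = 1`, `b ^ n = a ^ t`, `b a b⁻¹ = a ^ r` (a metacyclic group of order `m n`) has Schur multiplier cyclic of order `gcd(l, h)`. -/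
theorem result (m n r l : ℕ) (hm : 0 < m) (hn : 0 < n) (hr : 0 < r) (hrn : r ^ n ≡ 1 [MOD m]) : Cfsg.HasCyclicSchurMultiplier (PresentedGroup ({FreeGroup.of true ^ m, (FreeGroup.of false) ^ n * (FreeGroup.of true ^ (m * l / Nat.gcd m (r - 1)))⁻¹, FreeGroup.of false * FreeGroup.of true * (FreeGroup.of false)⁻¹ * (FreeGroup.of true ^ r)⁻¹} : Set (FreeGroup Bool))) (Nat.gcd l (Nat.gcd m (r - 1) * Nat.gcd m (∑ i ∈ Finset.range n, r ^ i) / m)) := by
  obtain ⟨r, rfl⟩ : ∃ r', r = r' + 1 := ⟨r - 1, by omega⟩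
  set s := ∑ i ∈ Finset.range n, (r + 1) ^ i with hs
  have hd0 : 0 < Nat.gcd m r := Nat.gcd_pos_of_pos_left _ hm
  obtain ⟨m', r', hcop, hm', hr'⟩ := Nat.exists_coprime m r
  set d := Nat.gcd m r with hd
  have h1 : m ∣ s * r := by
    have := geom_sum_mul_add r n
    rw [← hs] at this
    rw [← this] at hrn
    exact (Nat.modEq_zero_iff_dvd.mp (Nat.ModEq.add_right_cancel' 1 (by simpa using hrn)))
  have h2 : m' ∣ s := by
    rw [hm', hr', ← mul_assoc, Nat.mul_dvd_mul_iff_right hd0] at h1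
    exact hcop.dvd_of_dvd_mul_right h1
  have hm'0 : 0 < m' := Nat.pos_of_mul_pos_right (hm' ▸ hm)
  have h3 : m * l / d = m' * l := by
    rw [hm', mul_right_comm, Nat.mul_div_cancel _ hd0]
  have h4 : m / d = m' := by rw [hm', Nat.mul_div_cancel _ hd0]
  obtain ⟨h, hh⟩ : m' ∣ Nat.gcd m s := Nat.dvd_gcd (hm' ▸ dvd_mul_right _ _) h2
  have h5 : d * Nat.gcd m s / m = h := by
    rw [hh, ← mul_assoc, mul_comm d, ← hm', Nat.mul_div_cancel_left _ hm]
  apply main m n (r + 1) _ hm hn hrn _ hr
  · simp only [Nat.add_sub_cancel]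
    rw [← hd, ← hs, h3, h4, h5, Nat.gcd_comm (m' * l), ← Nat.gcd_assoc, hh, Nat.gcd_mul_left, Nat.gcd_comm]
  · simp only [Nat.add_sub_cancel]
    rw [← hd, h3, add_mul, one_mul, Nat.ModEq.comm, Nat.modEq_iff_dvd' (Nat.le_add_left _ _),
      Nat.add_sub_cancel, hm', hr']
    exact ⟨r' * l, by ring⟩

end Cfsg.Agent.S3967
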