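import Cfsg.Statements.S3970
import Cfsg.Agent.H1.Harv4

set_option autoImplicit false
open Cfsg

namespace Cfsg.Agent.S3970

open H18 Subgroup H1

/-- Let `G` be a finite group such that for every prime `p` dividing its order, other than the largest such prime, the Sylow `p`-subgroups are abelian and generated by at most two elements, and suppose `12` does not divide the order of `G`. Then `G` is solvable. In particular a group of cube-free order not divisible by `12` is solvable. -/
theorem result {G : Type*} [Group G] [Finite G] (h : ∀ p : ℕ, p.Prime → p ∣ Nat.card G → (∃ q : ℕ, q.Prime ∧ q ∣ Nat.card G ∧ p < q) → ∀ P : Sylow p G, IsMulCommutative (P : Subgroup G) ∧ Group.rank (P : Subgroup G) ≤ 2) (h12 : ¬ 12 ∣ Nat.card G) : Group.IsSolvable G := by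
  obtain ⟨P⟩ : Nonempty (Sylow 2 G) := inferInstance
  have hS := hall_sylow_top Nat.prime_two P
  rw [← solv_top_iff]
  by_cases h2 : 2 ∣ Nat.card G
  swap
  · exact solv_of_two_not_dvd (by rwa [card_top])
  by_cases h3 : PiGrp {2} (⊤ : Subgroup G)
  · exact h3.solv
  obtain ⟨q, hq, a, b⟩ := exists_prime_not_mem h3
  obtain ⟨c, d⟩ := h 2 Nat.prime_two h2 ⟨q, hq, card_top (G := G) ▸ a, hq.two_le.lt_of_ne (Ne.symm b)⟩ P
  by_cases h4 : 4 ∣ Nat.card G
  · refine solv_of_two_nil (pnil_of_abel_rank Nat.prime_two hS (abel_of_comm c)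
      ((relIndex_phi_dvd_rank Nat.prime_two hS.pi).trans (pow_dvd_pow 2 d)) fun r j hr e h1 h2 f => ?_)
    obtain rfl | rfl : j = 1 ∨ j = 2 := by omega
    · exact hr.ne_one (Nat.dvd_one.1 f)
    · obtain rfl := (Nat.prime_dvd_prime_iff_eq hr Nat.prime_three).1 f
      exact h12 (Nat.Coprime.mul_dvd_of_dvd_of_dvd (by norm_num : Nat.Coprime 3 4) (card_top (G := G) ▸ e) h4)
  obtain ⟨k, hk⟩ := hS.pi.card_eq_pow
  refine solv_of_two_nil (pnil_of_abel_rank (n := 1) Nat.prime_two hS (abel_of_comm c) (relIndex_dvd.trans (hk ▸ pow_dvd_pow 2 ?_))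
    fun r j hr e h1 h2 f => hr.ne_one (Nat.dvd_one.1 (by rwa [show j = 1 by omega] at f)))
  by_contra e
  exact h4 ((pow_dvd_pow 2 (show 2 ≤ k by omega)).trans (hk ▸ card_subgroup_dvd_card _))

end Cfsg.Agent.S3970
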