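import Cfsg.Statements.S3973
import Cfsg.Agent.H21.SchurBasic

set_option autoImplicit false
open Cfsg

namespace Cfsg.Agent.S3973

open Subgroup H21
open scoped commutatorElement

theorem aux {ι K L : Type*} [Fintype ι] [AddCommGroup K] [AddCommGroup L] [Module.Free ℤ L]
    [Module.Finite ℤ L] (φ : (ι → ℤ) →ₗ[ℤ] K) (hφ : Function.Surjective φ) (ψ : K →ₗ[ℤ] L) (m : ℤ)
    (hm : m ≠ 0) (h : ∀ l, m • l ∈ LinearMap.range ψ) :
    ∃ k : ℕ, k ≤ Fintype.card ι - Module.finrank ℤ L ∧
      ∃ g : (Fin k → ℤ) →ₗ[ℤ] LinearMap.ker ψ, Function.Surjective g := by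
  let N := LinearMap.ker (ψ.comp φ)
  have h1 := Submodule.finrank_quotient_add_finrank (LinearMap.ker (ψ.comp φ))
  rw [(ψ.comp φ).quotKerEquivRange.finrank_eq] at h1
  have h2 : Module.finrank ℤ L ≤ Module.finrank ℤ (LinearMap.range (ψ.comp φ)) := by
    rw [LinearMap.range_comp_of_range_eq_top _ (LinearMap.range_eq_top.mpr hφ)]
    refine LinearMap.finrank_le_finrank_of_injective
      (f := (m • LinearMap.id : L →ₗ[ℤ] L).codRestrict _ h) fun a b hab => ?_
    exact smul_right_injective L hm (congrArg Subtype.val hab)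
  rw [Module.finrank_fintype_fun_eq_card] at h1
  refine ⟨Module.finrank ℤ N, by dsimp only [N]; omega, ?_⟩
  let g0 : N →ₗ[ℤ] LinearMap.ker ψ := (φ.comp N.subtype).codRestrict _ fun x => x.2
  refine ⟨g0.comp (Module.finBasis ℤ N).equivFun.symm.toLinearMap, ?_⟩
  refine Function.Surjective.comp (g := g0) ?_ (Module.finBasis ℤ N).equivFun.symm.surjective
  rintro ⟨x, hx⟩
  obtain ⟨y, rfl⟩ := hφ x
  exact ⟨⟨y, hx⟩, rfl⟩

theorem rank_le_of_surj {A : Type*} [CommGroup A] [Finite A] (k : ℕ) (g : (Fin k → ℤ) →+ Additive A)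
    (hg : Function.Surjective g) : Group.rank A ≤ k := by
  classical
  refine (Group.rank_le (S := Finset.univ.image fun i : Fin k => (g (Pi.single i 1)).toMul) ?_).trans
    (Finset.card_image_le.trans (by simp))
  rw [eq_top_iff]
  rintro a -
  obtain ⟨a, rfl⟩ := Additive.toMul.surjective a
  obtain ⟨v, rfl⟩ := hg a
  rw [pi_eq_sum_univ' v, map_sum, toMul_sum]
  refine prod_mem fun i _ => ?_
  rw [map_zsmul, toMul_zsmul]
  exact zpow_mem (subset_closure (by simp)) _

/-- If a finite group is presented by `n` generators and a finite set of `r` relators, then its Schur multiplier can be generated by `r - n` elements. In particular a finite group with a presentation having as many relators as generators has trivial Schur multiplier. -/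
theorem result (n : ℕ) (rels : Finset (FreeGroup (Fin n))) [Finite (PresentedGroup (rels : Set (FreeGroup (Fin n))))] {A : Type*} [CommGroup A] [Finite A] (hA : Cfsg.HasSchurMultiplier (PresentedGroup (rels : Set (FreeGroup (Fin n)))) A) : Group.rank A ≤ rels.card - n := by
  let f : FreeGroup (Fin n) →* PresentedGroup (rels : Set (FreeGroup (Fin n))) := PresentedGroup.mk _
  have hf : Function.Surjective f := PresentedGroup.mk_surjective _
  have hker : f.ker = normalClosure (rels : Set (FreeGroup (Fin n))) := QuotientGroup.ker_mk' _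
  obtain ⟨e⟩ := schur_equiv_hopfM hA f hf
  let ab : HopfE f →* Abelianization (FreeGroup (Fin n)) :=
    QuotientGroup.lift _ Abelianization.of (by
      rw [Abelianization.ker_of]; exact commutator_mono le_top le_rfl)
  have hab : ∀ x, ab x = 1 ↔ x ∈ commutator (HopfE f) := fun x => by
    obtain ⟨x, rfl⟩ := QuotientGroup.mk_surjective x
    rw [hopf_mk_mem_commutator_iff, ← Abelianization.ker_of]
    rfl
  let ψ : Additive (hopfPi f).ker →ₗ[ℤ] FreeAbelianGroup (Fin n) :=
    (MonoidHom.toAdditive (ab.comp (hopfPi f).ker.subtype)).toIntLinearMap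
  let φ : (rels → ℤ) →ₗ[ℤ] Additive (hopfPi f).ker :=
    Fintype.linearCombination ℤ fun r => Additive.ofMul ⟨(r.1 : HopfE f), by
      rw [MonoidHom.mem_ker, hopfPi_mk, ← MonoidHom.mem_ker, hker]; exact subset_normalClosure r.2⟩
  have hφ : Function.Surjective φ := by
    let T : Subgroup (HopfE f) :=
      ((hopfPi f).ker.subtype.comp (AddMonoidHom.toMultiplicativeLeft φ.toAddMonoidHom)).range
    have hT : T ≤ (hopfPi f).ker := by rintro _ ⟨t, rfl⟩; exact SetLike.coe_mem _
    have : T.Normal := normal_of_le_center (hT.trans (hopfPi_ker_le_center f))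
    have h1 : f.ker ≤ T.comap (QuotientGroup.mk' _) := by
      refine hker.le.trans <| normalClosure_le_normal fun r hr => ?_
      classical
      refine ⟨Multiplicative.ofAdd (Pi.single ⟨r, hr⟩ 1), ?_⟩
      simp [φ]
    intro x
    obtain ⟨⟨x, hx⟩, rfl⟩ := Additive.ofMul.surjective x
    obtain ⟨x, rfl⟩ := QuotientGroup.mk_surjective x
    obtain ⟨v, hv⟩ := h1 (show x ∈ f.ker from hx)
    exact ⟨v.toAdd, Additive.toMul.injective (Subtype.ext hv)⟩
  obtain ⟨k, hk, g, hg⟩ := aux φ hφ ψ (Nat.card (PresentedGroup (rels : Set (FreeGroup (Fin n)))))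
    (by exact_mod_cast Nat.card_pos.ne') (by
      intro l
      obtain ⟨x, rfl⟩ : ∃ x : FreeGroup (Fin n), l = Additive.ofMul (Abelianization.of x) := by
        obtain ⟨x, hx⟩ := QuotientGroup.mk_surjective (Additive.toMul l : Abelianization (FreeGroup (Fin n)))
        exact ⟨x, congrArg Additive.ofMul hx.symm⟩
      refine ⟨Additive.ofMul ⟨(x : HopfE f) ^ Nat.card (PresentedGroup (rels : Set (FreeGroup (Fin n)))), by
        rw [MonoidHom.mem_ker, map_pow, pow_card_eq_one']⟩, ?_⟩
      exact (congrArg Additive.ofMul (map_pow ab (x : HopfE f) _)).trans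
        (natCast_zsmul (Additive.ofMul (Abelianization.of x)) _).symm)
  rw [Module.finrank_eq_card_basis (FreeAbelianGroup.basis (Fin n)), Fintype.card_fin, Fintype.card_coe] at hk
  refine le_trans ?_ hk
  let j : LinearMap.ker ψ →+ Additive (hopfM f) :=
    { toFun := fun x => Additive.ofMul ⟨x.1.toMul.1, x.1.toMul.2, (hab _).mp (congrArg Additive.toMul x.2)⟩
      map_zero' := rfl
      map_add' := fun _ _ => rfl }
  have hj : Function.Surjective j := fun x =>
    ⟨⟨Additive.ofMul ⟨x.toMul.1, x.toMul.2.1⟩, congrArg Additive.ofMul ((hab _).mpr x.toMul.2.2)⟩, rfl⟩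
  exact rank_le_of_surj k ((MonoidHom.toAdditive e.symm.toMonoidHom).comp (j.comp g.toAddMonoidHom))
    (e.symm.surjective.comp (hj.comp hg))

end Cfsg.Agent.S3973
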