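import Cfsg.Statements.S3974
import Cfsg.Agent.H21.SchurProd
import Cfsg.Agent.H1.Basic

set_option autoImplicit false
universe u v
open Cfsg

namespace Cfsg.Agent.S3974

open Subgroup H21
open scoped commutatorElement

theorem card_stem {Γ Q : Type*} [Group Γ] [Group Q] (σ : Γ →* Q) (h : Function.Surjective σ) :
    Nat.card Γ = Nat.card Q * Nat.card σ.ker := by
  rw [card_eq_card_quotient_mul_card_subgroup σ.ker,
    Nat.card_congr (QuotientGroup.quotientKerEquivOfSurjective _ h).toEquiv]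

theorem unique_of_coprime {Q A Γ₁ Γ₂ : Type*} [Group Q] [Finite Q] [CommGroup A] (hA : Cfsg.HasSchurMultiplier Q A)
    [Group Γ₁] [Finite Γ₁] [Group Γ₂] [Finite Γ₂] (σ₁ : Γ₁ →* Q) (σ₂ : Γ₂ →* Q) (h₁ : Cfsg.IsStemExtension σ₁)
    (h₂ : Cfsg.IsStemExtension σ₂) (e₁ : σ₁.ker ≃* A) (e₂ : σ₂.ker ≃* A)
    (hc : Nat.Coprime (Nat.card (Abelianization Q)) (Nat.card A)) :
    ∃ e : Γ₁ ≃* Γ₂, σ₂.comp e.toMonoidHom = σ₁ := by
  have := schur_finite hA
  set n := Nat.card (Abelianization Q) with hn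
  let ξ : pull σ₁ σ₂ →* Q := σ₁.comp (pullFst σ₁ σ₂)
  have hξ : Function.Surjective ξ := h₁.1.comp (pullFst_surjective _ _ h₂.1)
  have hk : ∀ x ∈ ξ.ker, x.1.1 ∈ σ₁.ker ∧ x.1.2 ∈ σ₂.ker := fun x hx =>
    ⟨hx, ((mem_pull σ₁ σ₂).mp x.2).symm.trans hx⟩
  have hcen : ξ.ker ≤ center _ := fun x hx => mem_center_iff.mpr fun g => Subtype.ext
    (Prod.ext (mem_center_iff.mp (h₁.2.1 (hk x hx).1) _) (mem_center_iff.mp (h₂.2.1 (hk x hx).2) _))
  have hpow : ∀ x ∈ ξ.ker, x ^ Nat.card A = 1 := fun x hx => by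
    apply Subtype.ext
    ext
    · have := congrArg Subtype.val (pow_card_eq_one' (x := (⟨_, (hk x hx).1⟩ : σ₁.ker)))
      rwa [Nat.card_congr e₁.toEquiv] at this
    · have := congrArg Subtype.val (pow_card_eq_one' (x := (⟨_, (hk x hx).2⟩ : σ₂.ker)))
      rwa [Nat.card_congr e₂.toEquiv] at this
  obtain ⟨π, hπ⟩ := schur_surj_central hA ξ hξ hcen
  let D : Subgroup (pull σ₁ σ₂) := ((powMonoidHom n).comp Abelianization.of).ker
  have hD1 : ξ.ker ⊓ D ≤ ξ.ker ⊓ commutator _ := by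
    rintro x ⟨hx, hx'⟩
    refine ⟨hx, ?_⟩
    change x ∈ commutator _
    rw [← Abelianization.ker_of, MonoidHom.mem_ker, ← orderOf_eq_one_iff]
    refine Nat.eq_one_of_dvd_coprimes hc (orderOf_dvd_of_pow_eq_one hx') (orderOf_dvd_of_pow_eq_one ?_)
    rw [← map_pow, hpow x hx, map_one]
  have hD2 : Function.Surjective (ξ.comp D.subtype) := by
    intro q
    obtain ⟨x, rfl⟩ := hξ q
    have h1 : ξ (x ^ n) ∈ commutator Q := by
      rw [← Abelianization.ker_of, MonoidHom.mem_ker, map_pow, map_pow, hn, pow_card_eq_one']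
    rw [← map_commutator_of_surjective ξ hξ] at h1
    obtain ⟨c, hc1, hc2⟩ := h1
    have h2 : c⁻¹ * x ^ n ∈ ξ.ker := by rw [MonoidHom.mem_ker, map_mul, map_inv, hc2, inv_mul_cancel]
    obtain ⟨m, hm⟩ := exists_pow_eq_self_of_coprime
      (hc.coprime_dvd_right (orderOf_dvd_of_pow_eq_one (hpow _ h2)))
    refine ⟨⟨x * ((c⁻¹ * x ^ n) ^ m)⁻¹, ?_⟩, ?_⟩
    · rw [← Abelianization.ker_of, SetLike.mem_coe, MonoidHom.mem_ker] at hc1
      change Abelianization.of (x * ((c⁻¹ * x ^ n) ^ m)⁻¹) ^ n = 1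
      rw [map_mul, mul_pow, map_inv, inv_pow, ← map_pow, ← map_pow, ← pow_mul, mul_comm m, pow_mul, hm,
        map_mul, map_inv, hc1, inv_one, one_mul, mul_inv_cancel]
    · change ξ (x * ((c⁻¹ * x ^ n) ^ m)⁻¹) = ξ x
      rw [map_mul, map_inv, map_pow, h2, one_pow, inv_one, mul_one]
  have hcard : Nat.card D ≤ Nat.card Q * Nat.card A := by
    rw [card_stem _ hD2, ← MonoidHom.comap_ker]
    refine Nat.mul_le_mul_left _ ?_
    exact (H1.card_subgroupOf (H := ξ.ker) (K := D)).le.trans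
      ((card_le_of_le hD1).trans (Nat.card_le_card_of_surjective π hπ))
  have b₁ : Function.Bijective ((pullFst σ₁ σ₂).comp D.subtype) :=
    bijective_of_surjective_of_card_le _ (surjective_of_stem h₁.2.1 h₁.2.2 hD2)
      (by rwa [card_stem _ h₁.1, Nat.card_congr e₁.toEquiv])
  have b₂ : Function.Bijective ((pullSnd σ₁ σ₂).comp D.subtype) :=
    bijective_of_surjective_of_card_le _ (surjective_of_stem h₂.2.1 h₂.2.2 (by
      rw [← MonoidHom.comp_assoc, ← pull_comm]; exact hD2))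
      (by rwa [card_stem _ h₂.1, Nat.card_congr e₂.toEquiv])
  refine ⟨(MulEquiv.ofBijective _ b₁).symm.trans (MulEquiv.ofBijective _ b₂), ?_⟩
  ext x
  obtain ⟨d, rfl⟩ := (MulEquiv.ofBijective _ b₁).surjective x
  simp only [MonoidHom.comp_apply, MulEquiv.toMonoidHom_eq_coe, MonoidHom.coe_coe, MulEquiv.trans_apply,
    MulEquiv.symm_apply_apply]
  exact ((mem_pull σ₁ σ₂).mp d.1.2).symm

theorem exists_nonisomorphic.{w} {Q Γ : Type w} [Group Q] [Finite Q] [Group Γ] [Finite Γ] (σ : Γ →* Q)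
    (hσ : Cfsg.IsStemExtension σ) (hc : ¬ Nat.Coprime (Nat.card (Abelianization Q)) (Nat.card σ.ker)) :
    ∃ (Γ₂ : Type w) (_ : Group Γ₂) (_ : Finite Γ₂) (σ₂ : Γ₂ →* Q), Cfsg.IsStemExtension σ₂ ∧
      Nonempty (σ.ker ≃* σ₂.ker) ∧ ∀ e : Γ →* Γ₂, σ₂.comp e ≠ σ := by
  classical
  letI := commGroupOfLeCenter hσ.2.1
  obtain ⟨p, hp, hp1, hp2⟩ := Nat.Prime.not_coprime_iff_dvd.mp hc
  obtain ⟨ι, _, n, hn, ⟨e⟩⟩ := CommGroup.equiv_prod_multiplicative_zmod_of_finite (Abelianization Q)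
  rw [Nat.card_congr e.toEquiv, Nat.card_pi] at hp1
  obtain ⟨i, -, hi⟩ := (Prime.dvd_finsetProd_iff hp.prime _).mp hp1
  rw [Nat.card_congr Multiplicative.toAdd, Nat.card_zmod] at hi
  set m := n i with hm
  let ab : Γ →* ((i : ι) → Multiplicative (ZMod (n i))) := e.toMonoidHom.comp (Abelianization.of.comp σ)
  have hab : Function.Surjective ab := e.surjective.comp ((QuotientGroup.mk_surjective).comp hσ.1)
  have habk : ∀ x, ab x = 1 → x ∈ commutator Γ := fun x hx => by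
    have h1 : σ x ∈ commutator Q := by
      rw [← Abelianization.ker_of]; exact (map_eq_one_iff e e.injective).mp hx
    rw [← map_commutator_of_surjective σ hσ.1] at h1
    obtain ⟨c, hc1, hc2⟩ := h1
    have h2 : c⁻¹ * x ∈ σ.ker := by rw [MonoidHom.mem_ker, map_mul, map_inv, hc2, inv_mul_cancel]
    simpa using mul_mem hc1 (hσ.2.2 h2)
  let χ : Γ →* Multiplicative (ZMod m) := (Pi.evalMonoidHom _ i).comp ab
  obtain ⟨g, hg⟩ := hab (Pi.mulSingle i (Multiplicative.ofAdd 1))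
  have hg1 : χ g = Multiplicative.ofAdd 1 := by simp [χ, hg]
  have hg2 : g ^ m ∈ commutator Γ := habk _ (by
    rw [map_pow, hg, ← Pi.mulSingle_pow, ← ofAdd_nsmul]; simp [hm])
  obtain ⟨z, hz⟩ : ∃ z : σ.ker, ∀ k : σ.ker, k ^ m ≠ z := by
    by_contra! h
    have h1 : Function.Injective (powMonoidHom m : σ.ker →* σ.ker) :=
      Finite.injective_iff_surjective.mpr h
    have := Fact.mk hp
    obtain ⟨y, hy⟩ := exists_prime_orderOf_dvd_card' p hp2
    have := (injective_iff_map_eq_one _).mp h1 y (orderOf_dvd_iff_pow_eq_one.mp (hy ▸ hi))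
    rw [this, orderOf_one] at hy
    exact hp.one_lt.ne hy
  let ρ : Multiplicative ℤ →* Multiplicative (ZMod m) := AddMonoidHom.toMultiplicative (Int.castAddHom _)
  have hρ : Function.Surjective ρ := ZMod.intCast_surjective
  have hχ : ∀ k : σ.ker, χ k = 1 := fun k => Abelianization.commutator_subset_ker χ (hσ.2.2 k.2)
  let j : σ.ker →* pull χ ρ := ((MonoidHom.inl _ _).comp σ.ker.subtype).codRestrict _ fun k =>
    (hχ k).trans (map_one ρ).symm
  have hj : ∀ k, (j k).1 = (k.1, 1) := fun _ => rfl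
  let y : pull χ ρ := ⟨(1, Multiplicative.ofAdd (m : ℤ)), by simp [mem_pull, ρ]⟩
  let ξ : pull χ ρ →* Q := σ.comp (pullFst χ ρ)
  have hξ : Function.Surjective ξ := hσ.1.comp (pullFst_surjective _ _ hρ)
  have hcen : ξ.ker ≤ center _ := fun x hx => mem_center_iff.mpr fun g => Subtype.ext
    (Prod.ext (mem_center_iff.mp (hσ.2.1 hx) _) (mul_comm _ _))
  have hN : zpowers ((j z)⁻¹ * y) ≤ ξ.ker := by
    rw [zpowers_le]
    exact mul_mem (inv_mem z.2) (map_one σ)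
  have : (zpowers ((j z)⁻¹ * y)).Normal := normal_of_le_center (hN.trans hcen)
  let σ₂ : pull χ ρ ⧸ zpowers ((j z)⁻¹ * y) →* Q := QuotientGroup.lift _ ξ hN
  let j' : σ.ker →* σ₂.ker := ((QuotientGroup.mk' _).comp j).codRestrict _ fun k => k.2
  have hy : (y : pull χ ρ ⧸ zpowers ((j z)⁻¹ * y)) = j z := (QuotientGroup.eq.mpr (mem_zpowers _)).symm
  have hj' : Function.Bijective j' := by
    constructor
    · rw [injective_iff_map_eq_one]
      intro k hk
      obtain ⟨l, hl⟩ := (QuotientGroup.eq_one_iff (j k)).mp (congrArg Subtype.val hk)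
      have h1 := congrArg (fun u => (pullSnd χ ρ u).toAdd) hl
      simp only [map_zpow] at h1
      have h2 : l • (m : ℤ) = 0 := by simpa [pullSnd, hj, y] using h1
      have h3 : l = 0 := by
        have := hn i
        rcases smul_eq_zero.mp h2 with h | h
        · exact h
        · omega
      subst h3
      simp only [zpow_zero] at hl
      exact Subtype.ext ((congrArg (pullFst χ ρ) hl).symm.trans (map_one _))
    · rintro ⟨x, hx⟩
      obtain ⟨⟨⟨k, l⟩, hkl⟩, rfl⟩ := QuotientGroup.mk_surjective x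
      have hk : k ∈ σ.ker := hx
      have h1 : ρ l = 1 := ((mem_pull χ ρ).mp hkl).symm.trans (hχ ⟨k, hk⟩)
      obtain ⟨l, rfl⟩ := Multiplicative.ofAdd.surjective l
      obtain ⟨s, rfl⟩ := (ZMod.intCast_zmod_eq_zero_iff_dvd l m).mp h1
      refine ⟨⟨k, hk⟩ * z ^ s, Subtype.ext ?_⟩
      change ((j (⟨k, hk⟩ * z ^ s) : pull χ ρ) : pull χ ρ ⧸ zpowers ((j z)⁻¹ * y)) = _
      rw [map_mul, map_zpow, QuotientGroup.mk_mul, QuotientGroup.mk_zpow, ← hy, ← QuotientGroup.mk_zpow,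
        ← QuotientGroup.mk_mul]
      congr 1
      apply Subtype.ext
      ext
      · simp [hj, y]
      · simp [hj, y, ← ofAdd_zsmul, mul_comm]
  have hcomm : ∀ c ∈ commutator Γ, ∃ x ∈ commutator (pull χ ρ), x.1 = (c, 1) := fun c hc => by
    rw [← map_commutator_of_surjective _ (pullFst_surjective χ ρ hρ)] at hc
    obtain ⟨x, hx, rfl⟩ := hc
    exact ⟨x, hx, Prod.ext rfl (Abelianization.commutator_subset_ker (pullSnd χ ρ) hx)⟩
  have hs : Cfsg.IsStemExtension σ₂ := by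
    refine ⟨fun q => ?_, fun x hx => ?_, fun x hx => ?_⟩
    · obtain ⟨x, rfl⟩ := hξ q
      exact ⟨x, rfl⟩
    · obtain ⟨x, rfl⟩ := QuotientGroup.mk_surjective x
      rw [mem_center_iff]
      intro g
      obtain ⟨g, rfl⟩ := QuotientGroup.mk_surjective g
      rw [← QuotientGroup.mk_mul, mem_center_iff.mp (hcen hx) g, QuotientGroup.mk_mul]
    · obtain ⟨k, hk⟩ := hj'.2 ⟨x, hx⟩
      obtain ⟨c, hc, hc'⟩ := hcomm k (hσ.2.2 k.2)
      refine map_commutator_le (QuotientGroup.mk' _) ⟨c, hc, ?_⟩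
      rw [show c = j k from Subtype.ext hc']
      exact congrArg Subtype.val hk
  have : Finite σ₂.ker := Finite.of_surjective _ hj'.2
  refine ⟨_, inferInstance, finite_of_finite_ker σ₂, σ₂, hs, ⟨MulEquiv.ofBijective j' hj'⟩, fun e he => ?_⟩
  have he' : σ₂.comp (e.comp (pullFst χ ρ)) = σ₂.comp (QuotientGroup.mk' _) := by
    rw [← MonoidHom.comp_assoc, he]; rfl
  let x : pull χ ρ := ⟨(g, Multiplicative.ofAdd 1), by simp [mem_pull, ρ, hg1]⟩
  obtain ⟨k, hk⟩ := hj'.2 ⟨(e g)⁻¹ * x, by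
    rw [MonoidHom.mem_ker, map_mul, map_inv, inv_mul_eq_one]
    exact DFunLike.congr_fun he' x⟩
  have hk' : ((j' k : σ₂.ker) : pull χ ρ ⧸ zpowers ((j z)⁻¹ * y)) = (e g)⁻¹ * x := congrArg Subtype.val hk
  obtain ⟨c, hc, hc'⟩ := hcomm _ hg2
  have h1 : e (g ^ m) = c := by
    have := eq_on_commutator_of_central hs.2.1 he' hc
    rw [MonoidHom.comp_apply, show pullFst χ ρ c = g ^ m from congrArg Prod.fst hc'] at this
    exact this
  have h2 : x ^ m = c * y := by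
    apply Subtype.ext
    rw [coe_mul, hc']
    ext
    · simp [x, y]
    · simp [x, y, ← ofAdd_nsmul]
  apply hz k
  apply hj'.1
  apply Subtype.ext
  have h3 : (x : pull χ ρ ⧸ zpowers ((j z)⁻¹ * y)) = e g * j' k := by rw [hk']; group
  have h4 : Commute (e g) (j' k) := mem_center_iff.mp (hs.2.1 (j' k).2) _
  have h5 := congrArg (· ^ m) h3
  simp only [h4.mul_pow] at h5
  rw [← QuotientGroup.mk_pow, h2, ← map_pow, h1, QuotientGroup.mk_mul, mul_right_inj, hy] at h5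
  rw [map_pow, coe_pow, ← h5]
  rfl

/-- Let `Q` be a finite group with Schur multiplier `A`. Any two Schur covering groups of `Q` (finite stem extensions `σ₁ : Γ₁ →* Q`, `σ₂ : Γ₂ →* Q` with kernels isomorphic to `A`, `Γ₁, Γ₂` in the universe of `Q`) are isomorphic over `Q` — there is a group isomorphism `e : Γ₁ ≃* Γ₂` with `σ₂ ∘ e = σ₁` — if and only if the order of the commutator quotient of `Q` is coprime to the order of `A`. In particular a finite perfect group has a unique Schur covering group up to isomorphism over it. -/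
theorem result {Q : Type u} [Group Q] [Finite Q] {A : Type v} [CommGroup A] (hA : Cfsg.HasSchurMultiplier Q A) : (∀ (Γ₁ Γ₂ : Type u) [Group Γ₁] [Finite Γ₁] [Group Γ₂] [Finite Γ₂] (σ₁ : Γ₁ →* Q) (σ₂ : Γ₂ →* Q), Cfsg.IsStemExtension σ₁ → Cfsg.IsStemExtension σ₂ → Nonempty (σ₁.ker ≃* A) → Nonempty (σ₂.ker ≃* A) → ∃ e : Γ₁ ≃* Γ₂, σ₂.comp e.toMonoidHom = σ₁) ↔ Nat.Coprime (Nat.card (Abelianization Q)) (Nat.card A) := by
  refine ⟨fun h => ?_, fun hc Γ₁ Γ₂ _ _ _ _ σ₁ σ₂ h₁ h₂ ⟨e₁⟩ ⟨e₂⟩ => unique_of_coprime hA σ₁ σ₂ h₁ h₂ e₁ e₂ hc⟩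
  by_contra hc
  obtain ⟨Γ, _, _, σ, hσ, ⟨e⟩⟩ := hA.1
  obtain ⟨Γ₂, _, _, σ₂, h₂, ⟨e₂⟩, h'⟩ := exists_nonisomorphic σ hσ (by rwa [Nat.card_congr e.toEquiv])
  obtain ⟨e', he'⟩ := h Γ Γ₂ σ σ₂ hσ h₂ ⟨e⟩ ⟨e₂.symm.trans e⟩
  exact h' _ he'

end Cfsg.Agent.S3974
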