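import Cfsg.Statements.S3977
import Cfsg.Agent.H23.FT0
import Cfsg.Agent.H3.BG4a
import Cfsg.Agent.H9.Quat
import Cfsg.Agent.H22.N1B

set_option autoImplicit false
open Cfsg

namespace Cfsg.Agent.S3977

/-- Let `p` be a prime and `G` a group of order `p ^ m` which has exactly one subgroup of order `p ^ s`, where `1 ≤ s < m`, and where `s ≥ 2` if `p = 2`. Then `G` is cyclic. (For `p = 2` and `s = 1` the generalized quaternion groups also occur; that case is the classical criterion for a unique involution.) -/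
theorem result {G : Type*} [Group G] [Finite G] (p m s : ℕ) (hp : p.Prime) (hG : Nat.card G = p ^ m) (hs : 1 ≤ s) (hsm : s < m) (h2 : p ≠ 2 ∨ 2 ≤ s) (huniq : ∀ H K : Subgroup G, Nat.card H = p ^ s → Nat.card K = p ^ s → H = K) : IsCyclic G := by
  open H18 H22 Subgroup in
  have := Fact.mk hp
  have pG : IsPGroup p G := .of_card hG
  obtain ⟨H, hH⟩ := Sylow.exists_subgroup_card_pow_prime p (hG ▸ pow_dvd_pow p hsm.le : p ^ s ∣ _)
  have mem : ∀ x : G, orderOf x ∣ p ^ s → x ∈ H := fun x hx => by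
    obtain ⟨k, hk, e⟩ := (Nat.dvd_prime_pow hp).1 hx
    obtain ⟨K, h1, h2⟩ := Sylow.exists_subgroup_card_pow_prime_le p (hG ▸ pow_dvd_pow p hsm.le : p ^ s ∣ _)
      (zpowers x) ((Nat.card_zpowers x).trans e) hk
    exact huniq K H h1 hH ▸ h2 (mem_zpowers x)
  obtain ⟨K, h1, h3⟩ := Sylow.exists_subgroup_card_pow_prime_le p (hG ▸ pow_dvd_pow p hsm : p ^ (s + 1) ∣ _) H hH s.le_succ
  obtain ⟨x, hx, hx'⟩ := SetLike.not_le_iff_exists.1 fun j : K ≤ H => by
    have := card_le j
    rw [h1, hH, Nat.pow_le_pow_iff_right hp.one_lt] at this; omega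
  have c : H ≤ zpowers x := by
    obtain ⟨k, hk, e⟩ := (Nat.dvd_prime_pow hp).1 (h1 ▸ K.orderOf_dvd_natCard hx)
    obtain rfl : k = s + 1 := by_contra fun j => hx' (mem x (e ▸ pow_dvd_pow p (by omega)))
    exact h3.trans (eq_of_card_eq (zpowers_le.2 hx) (by rw [Nat.card_zpowers, e, h1])).ge
  refine isCyclic_of_surjective topEquiv.toMonoidHom (hH := ?_) topEquiv.surjective
  by_cases e : p = 2
  · subst e
    refine (H9.isCyclic_or_qData (pG.to_subgroup ⊤) fun v _ w _ a b => invol_eq_of_zpowers a b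
      (c (mem v (a.dvd.trans (dvd_pow_self 2 (by omega))))) (c (mem w (b.dvd.trans (dvd_pow_self 2 (by omega)))))).resolve_right
      fun ⟨n, a, b, h⟩ => hx' ?_
    have k : ∀ g, g ∉ zpowers a → g ∈ H := fun g hg => mem g (h.orderOf_of_notMem trivial hg ▸
      pow_dvd_pow 2 (h2.resolve_left (· rfl)))
    by_cases j : x ∈ zpowers a
    · exact (mul_mem_cancel_right (k b h.ynot)).1 (k _ fun i => h.ynot ((mul_mem_cancel_left j).1 i))
    exact k x j
  exact H3.odd_pgroup_rank1_cyclic hp (piGrp_of_isPGroup hp (pG.to_subgroup ⊤))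
    (by rw [card_top, hG]; exact (hp.odd_of_ne_two e).pow) ((prank_le_iff hp).2 (H23.prankLE_iff.2 fun A _ hA =>
      H23.prankLE_iff.1 (H23.prankLE_of_cyc hp (cyc_zpowers (x := x))) A (fun a ha => c (mem a
        ((orderOf_dvd_of_pow_eq_one (hA.2 a ha)).trans (dvd_pow_self p (by omega))))) hA))

end Cfsg.Agent.S3977
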