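import Cfsg.Statements.S3978
import Cfsg.Agent.H21.SchurProj

set_option autoImplicit false
open Cfsg

namespace Cfsg.Agent.S3978

/-- A finite group `Q` has trivial Schur multiplier if and only if, for every `n`, every homomorphism from `Q` to the projective general linear group (the quotient of `GL n ℂ` by its centre) lifts to a homomorphism into `GL n ℂ`. -/
theorem result {Q : Type*} [Group Q] [Finite Q] : Cfsg.HasCyclicSchurMultiplier Q 1 ↔ ∀ (n : ℕ) (γ : Q →* (GL (Fin n) ℂ ⧸ Subgroup.center (GL (Fin n) ℂ))), ∃ ρ : Q →* GL (Fin n) ℂ, (QuotientGroup.mk' (Subgroup.center (GL (Fin n) ℂ))).comp ρ = γ := by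
  have hid : Cfsg.IsStemExtension (MonoidHom.id Q) := ⟨Function.surjective_id, by simp, by simp⟩
  constructor
  · intro h n γ
    exact H21.exists_projective_lift_to_cover h (MonoidHom.id Q) hid (by simp) n γ
  · intro h
    obtain ⟨A, _, _, hA⟩ := H21.exists_hasSchurMultiplier Q
    obtain ⟨π, hπ⟩ := H21.card_le_of_projective_lifts hA (MonoidHom.id Q) hid h
    rw [H21.schur_trivial_iff_subsingleton hA]
    have : Subsingleton (MonoidHom.id Q).ker := by rw [MonoidHom.ker_id]; infer_instance
    exact hπ.2.subsingleton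

end Cfsg.Agent.S3978
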