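import Cfsg.Statements.S3992
import Cfsg.Agent.H13.CitJ

set_option autoImplicit false
open Cfsg

namespace Cfsg.Agent.S3992

/-- Let G be a finite non-solvable group in which every element has prime-power order, and let R be its largest solvable normal subgroup. Then R is a p-group for some prime p; G/R has a non-abelian simple normal subgroup contained in every nontrivial normal subgroup of G/R (its unique minimal normal subgroup); and the order of every solvable subgroup of G has at most two prime divisors. -/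
theorem result {G : Type*} [Group G] [Finite G] (hns : ¬ Group.IsSolvable G) (hpp : ∀ g : G, g ≠ 1 → IsPrimePow (orderOf g))
    (R : Subgroup G) [R.Normal] (hRs : Group.IsSolvable ↥R) (hRmax : ∀ N : Subgroup G, N.Normal → Group.IsSolvable ↥N → N ≤ R) :
    (∃ p : ℕ, p.Prime ∧ IsPGroup p ↥R) ∧
      (∃ M : Subgroup (G ⧸ R), M.Normal ∧ IsSimpleGroup ↥M ∧ ¬ IsMulCommutative ↥M ∧
        ∀ N : Subgroup (G ⧸ R), N.Normal → N ≠ ⊥ → M ≤ N) ∧
      ∀ H : Subgroup G, Group.IsSolvable ↥H → (Nat.card ↥H).primeFactors.card ≤ 2 := by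
  have hs : ¬ H18.Solv (⊤ : Subgroup G) := mt H18.solv_top_iff.1 hns
  have hQ : H18.PiGrp {2} (pCore 2 G) := H18.pCore_eq (G := G) Nat.prime_two ▸ H18.pcore_pi
  have QR := hRmax _ inferInstance hQ.solv
  have R1 : R ≠ ⊤ := by rintro rfl; exact hs hRs
  have key : IsSimpleGroup (G ⧸ pCore 2 G) → (∃ p : ℕ, p.Prime ∧ IsPGroup p ↥R) ∧
      (∃ M : Subgroup (G ⧸ R), M.Normal ∧ IsSimpleGroup ↥M ∧ ¬ IsMulCommutative ↥M ∧
        ∀ N : Subgroup (G ⧸ R), N.Normal → N ≠ ⊥ → M ≤ N) := fun h => by
    obtain rfl : R = pCore 2 G := by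
      obtain c | c := h.eq_bot_or_eq_top_of_normal (R.map (QuotientGroup.mk' _))
        (Subgroup.Normal.map inferInstance _ (QuotientGroup.mk'_surjective _))
      · exact le_antisymm (by simpa using (Subgroup.map_eq_bot_iff _).1 c) QR
      · have := congrArg (Subgroup.comap (QuotientGroup.mk' (pCore 2 G))) c
        rw [Subgroup.comap_map_eq, QuotientGroup.ker_mk', sup_eq_left.2 QR] at this
        exact absurd this R1
    refine ⟨⟨2, Nat.prime_two, hQ.isPGroup⟩, ⊤, inferInstance, Subgroup.topEquiv.isSimpleGroup, fun c => hns ?_,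
      fun N hN N1 => ((h.eq_bot_or_eq_top_of_normal N hN).resolve_left N1).ge⟩
    have : Group.IsSolvable (G ⧸ pCore 2 G) :=
      Group.isSolvable_of_comm fun a b => congrArg Subtype.val (c.is_comm.comm ⟨a, trivial⟩ ⟨b, trivial⟩)
    exact Group.isSolvable_of_ker_le_range (pCore 2 G).subtype (QuotientGroup.mk' (pCore 2 G)) (by simp)
  have key' : pCore 2 G = ⊥ → IsSimpleGroup G → IsSimpleGroup (G ⧸ pCore 2 G) := fun e _ =>
    ((QuotientGroup.quotientMulEquivOfEq e).trans QuotientGroup.quotientBot).isSimpleGroup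
  rw [← and_assoc]
  refine ⟨?_, fun H hH => H13.eppo_two_primes hpp hH⟩
  obtain hf | ⟨e, hf | hf | hf⟩ := (H13.cit_of_eppo hpp).classify' hs (pCore 2 G) (H18.pCore_eq Nat.prime_two)
  exacts [key hf.simple, key (key' e hf.simple), by
    obtain ⟨N, nN, -, sN, ns, hN⟩ := hf.socle
    obtain rfl : R = ⊥ := by_contra fun c => ns (H18.Solv.of_le hRs (hN R inferInstance c))
    let i := (QuotientGroup.quotientBot (G := G)).symm
    let j := N.equivMapOfInjective i.toMonoidHom i.injective
    refine ⟨⟨2, Nat.prime_two, IsPGroup.of_bot⟩, N.map i.toMonoidHom, nN.map _ i.surjective, j.symm.isSimpleGroup,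
      fun c => ns (Group.isSolvable_of_comm fun a b => j.injective (by rw [map_mul, map_mul, c.is_comm.comm])),
      fun K hK K1 => Subgroup.map_le_iff_le_comap.2 (hN _ (hK.comap _) fun c => K1 ?_)⟩
    rw [← Subgroup.map_comap_eq_self_of_surjective (f := i.toMonoidHom) i.surjective K, c, Subgroup.map_bot],
    key (key' e hf.simple)]

end Cfsg.Agent.S3992
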