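import Cfsg.Statements.S3994
import Cfsg.Agent.H22.Frobenius

set_option autoImplicit false
open Cfsg

namespace Cfsg.Agent.S3994

/-- Let G be a finite group and n a positive integer. The number of elements of G whose order is divisible by n is either 0 or divisible by the largest divisor of the order of G that is coprime to n. -/
theorem result {G : Type*} [Group G] [Finite G] (n : ℕ) (hn : 0 < n) :
    Nat.card {g : G // n ∣ orderOf g} = 0 ∨
      (Nat.card G / Nat.gcd (Nat.card G) (n ^ Nat.card G)) ∣ Nat.card {g : G // n ∣ orderOf g} := by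
  right
  set m := Nat.card G / Nat.gcd (Nat.card G) (n ^ Nat.card G) with hm
  have hG : Nat.card G ≠ 0 := Nat.card_pos.ne'
  have hmul : Nat.gcd (Nat.card G) (n ^ Nat.card G) * m = Nat.card G :=
    Nat.mul_div_cancel' (Nat.gcd_dvd_left _ _)
  have hco : n.Coprime m := by
    apply Nat.coprime_of_dvd
    intro p hp hpn hpm
    have h1 : p ^ (Nat.card G).factorization p ∣ Nat.gcd (Nat.card G) (n ^ Nat.card G) := by
      refine Nat.dvd_gcd (Nat.ordProj_dvd _ _) ?_
      exact (pow_dvd_pow p (Nat.factorization_lt p hG).le).trans (pow_dvd_pow_of_dvd hpn _)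
    apply Nat.pow_succ_factorization_not_dvd hG hp
    rw [pow_succ]
    nth_rewrite 2 [← hmul]
    exact mul_dvd_mul h1 hpm
  have h := H22.frobenius_invariant {c : G | n ∣ orderOf c}
    (fun a b hab ha => by
      show n ∣ orderOf b
      rw [← H22.IsConj.orderOf_eq hab]; exact ha) m
  rw [Nat.gcd_eq_left (Dvd.intro_left _ hmul)] at h
  convert h using 3
  ext x
  show n ∣ orderOf x ↔ n ∣ orderOf (x ^ m)
  constructor
  · intro hx
    have h1 : orderOf (x ^ m) * Nat.gcd (orderOf x) m = orderOf x := by
      rw [orderOf_pow, Nat.div_mul_cancel (Nat.gcd_dvd_left _ _)]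
    rw [← h1] at hx
    exact (hco.coprime_dvd_right (Nat.gcd_dvd_right _ _)).dvd_of_dvd_mul_right hx
  · intro hx
    exact hx.trans (orderOf_pow_dvd m)

end Cfsg.Agent.S3994
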