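import Cfsg.Statements.S3995
import Cfsg.Agent.H21.SOT
import Cfsg.Agent.H21.Crit
import Cfsg.Agent.S0016

set_option autoImplicit false
open Cfsg

namespace Cfsg.Agent.S3995

open H21 H18 Subgroup in

/-- Let G be a finite group such that the numbers of elements of each order that occurs in G (the numbers #{g : o(g) = m}, m ranging over the element orders of G) take exactly two values, 1 and some n ≠ 1. Then either G is a p-group of exponent p and order at least 3 for some prime p, or G is the quaternion group of order 8, or G is cyclic of order 4, or G ≅ Z₂ × P for a p-group P of exponent p with p an odd prime. -/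
theorem result {G : Type*} [Group G] [Finite G] (n : ℕ) (hn : n ≠ 1) (h : ((fun m : ℕ => Nat.card {g : G // orderOf g = m}) '' Set.range (orderOf : G → ℕ)) = {1, n}) :
    (∃ p : ℕ, p.Prime ∧ IsPGroup p G ∧ 3 ≤ Nat.card G ∧ Monoid.exponent G = p) ∨
      Nonempty (G ≃* QuaternionGroup 2) ∨ (IsCyclic G ∧ Nat.card G = 4) ∨
      (∃ (p : ℕ) (P : Type) (_ : Group P) (_ : Finite P), p.Prime ∧ p ≠ 2 ∧ IsPGroup p P ∧ Monoid.exponent P = p ∧
        Nonempty (G ≃* Multiplicative (ZMod 2) × P)) := by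
  have hv : ∀ m, so G m ≠ 0 → so G m = 1 ∨ so G m = n := fun m hm => by simpa [so] using h.le ⟨m, so_ne.1 hm, rfl⟩
  have hv' : ∀ m, 2 < m → so G m = 0 ∨ so G m = n := fun m hm => by have := hv m; have := so_even (G := G) hm; omega
  obtain ⟨_, ⟨g, rfl⟩, hg⟩ := h.ge (show n ∈ ({1, n} : Set ℕ) by simp)
  change so G (orderOf g) = n at hg
  have g1 : g ≠ 1 := by rintro rfl; simp [so_one] at hg; exact hn hg.symm
  have : Nontrivial G := ⟨g, 1, g1⟩
  have od : ∀ p, p.Prime → 2 < p → p ∣ Nat.card G → p ∣ 1 + n ∧ (∀ x : G, ¬ p * p ∣ orderOf x) ∧ so G 4 = 0 ∧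
      ∀ q, q.Prime → 2 < q → q ∣ Nat.card G → q = p := fun p hp p2 pG => by
    have k := (hv' p p2).resolve_left (so_prime_ne hp pG) ▸ so_prime hp pG
    refine ⟨k, fun x d => ?_, (hv' 4 (by norm_num)).resolve_right fun e => ?_, fun q hq q2 qG => by_contra fun e => ?_⟩
    · have := so_sq (G := G) hp d
      rw [(hv' _ ((by nlinarith : 2 < p * p).trans_le (Nat.le_of_dvd (orderOf_pos x) d))).resolve_left
        (so_ne.2 ⟨x, rfl⟩)] at this
      exact hp.ne_one (Nat.dvd_one.1 ((Nat.dvd_add_left this).1 k))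
    · have := so_no hp p2 k (e ▸ so_key hp pG (n := 4) fun d =>
        (Nat.le_of_dvd two_pos (hp.dvd_of_dvd_pow (n := 2) d)).not_gt p2)
      have := hv' (p * 4) (by omega); omega
    · have := so_no hp p2 k ((hv' q q2).resolve_left (so_prime_ne hq qG) ▸ so_key hp pG (n := q) fun d =>
        e ((Nat.prime_dvd_prime_iff_eq hp hq).1 d).symm)
      have := hv' (p * q) (by nlinarith); omega
  have ex : ∀ p, p.Prime → (∀ x : G, ¬ p * p ∣ orderOf x) → ∀ P : Subgroup G, P ≠ ⊥ → IsPGroup p P →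
      Monoid.exponent P = p := fun p hp h P P1 hP => by
    have := (nontrivial_iff_ne_bot P).2 P1
    refine (Monoid.exponent_eq_prime_iff hp).2 fun x x1 => ?_
    have := Fact.mk hp
    obtain ⟨k, e⟩ := IsPGroup.iff_orderOf.1 hP x
    have := h x
    rw [orderOf_coe, e] at this
    rcases k with _ | _ | k
    · exact absurd (orderOf_eq_one_iff.1 e) x1
    · simpa using e
    · exact absurd ⟨p ^ k, by ring⟩ this
  have top : ∀ p, p.Prime → (∀ x : G, ¬ p * p ∣ orderOf x) → (∀ q, q.Prime → q ∣ Nat.card G → q = p) →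
      IsPGroup p G ∧ Monoid.exponent G = p := fun p hp h1 h2 => by
    have : IsPGroup p (⊤ : Subgroup G) := PiGrp.isPGroup (fun q hq d => h2 q hq (by simpa using d))
    exact ⟨this.of_equiv topEquiv, (Monoid.exponent_eq_of_mulEquiv topEquiv).symm.trans (ex p hp h1 ⊤ top_ne_bot this)⟩
  by_cases h2 : 2 ∣ Nat.card G
  swap
  · obtain ⟨p, hp, pG⟩ := Nat.exists_prime_and_dvd (Finite.one_lt_card (α := G)).ne'
    have l : ∀ q, q.Prime → q ∣ Nat.card G → 2 < q := fun q hq qG => hq.two_le.lt_of_ne fun e => h2 (e ▸ qG)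
    obtain ⟨-, o1, -, o2⟩ := od p hp (l p hp pG) pG
    have := top p hp o1 fun q hq qG => o2 q hq (l q hq qG) qG
    exact .inl ⟨p, hp, this.1, (l p hp pG).trans_le (Nat.le_of_dvd Nat.card_pos pG), this.2⟩
  have k2 := so_prime Nat.prime_two h2
  rcases (hv 2 (so_prime_ne Nat.prime_two h2)).symm with e2 | e2
  · have z : ∀ m, 2 < m → so G m = 0 := fun m hm => by have := hv' m hm; have := so_even (G := G) hm; omega
    have := top 2 Nat.prime_two (fun x d => so_of_dvd (so_ne.2 ⟨x, rfl⟩) d (z _ (by norm_num))) fun q hq qG =>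
      by_contra fun e => so_prime_ne hq qG (z q (hq.two_le.lt_of_ne' e))
    refine .inl ⟨2, Nat.prime_two, this.1, ?_, this.2⟩
    have : so G 2 ≤ Nat.card G := Finite.card_subtype_le _
    omega
  obtain ⟨⟨z, z2⟩, hz⟩ := Nat.card_eq_one_iff_exists.1 e2
  replace hz : ∀ y : G, orderOf y = 2 → y = z := fun y hy => congrArg Subtype.val (hz ⟨y, hy⟩)
  have k4 : 2 ^ 2 ∣ Nat.card G → 4 ∣ 2 + so G 4 := fun h4 => by
    simpa [Finset.sum_range_succ, so_one, e2] using so_keyk Nat.prime_two h4 (n := 1) (by simp)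
  by_cases hp : ∃ p, p.Prime ∧ 2 < p ∧ p ∣ Nat.card G
  · obtain ⟨p, hp, p2, pG⟩ := hp
    obtain ⟨-, o1, o4, o2⟩ := od p hp p2 pG
    have := Fact.mk hp
    obtain ⟨P⟩ : Nonempty (Sylow p G) := inferInstance
    have P1 := P.ne_bot_of_dvd_card pG
    have i : (P : Subgroup G).index = 2 := by
      obtain ⟨k, e⟩ := PiNat.eq_pow (p := 2) (n := (P : Subgroup G).index) (fun q hq d => by_contra fun e =>
        P.not_dvd_index (o2 q hq (hq.two_le.lt_of_ne' e) (d.trans (index_dvd_card _)) ▸ d)) index_ne_zero_of_finite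
      rcases k with _ | _ | k
      · rw [← card_top, ← index_eq_one.1 e] at h2
        obtain ⟨j, e⟩ := P.2.exists_card_eq
        exact absurd (Nat.le_of_dvd hp.pos (Nat.prime_two.dvd_of_dvd_pow (e ▸ h2))) (by
          have := (Nat.prime_dvd_prime_iff_eq Nat.prime_two hp).1 (Nat.prime_two.dvd_of_dvd_pow (e ▸ h2)); omega)
      · simpa using e
      · have := k4 ((pow_dvd_pow 2 (by omega)).trans (e ▸ index_dvd_card _)); omega
    let e : Multiplicative (ZMod 2) ≃* zpowers z := mulEquivOfPrimeCardEq (p := 2) (by simp) (by simpa using z2)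
    let s := Shrink.mulEquiv.{0} (α := P)
    have zc : ∀ y ∈ zpowers z, ∀ x, Commute y x := fun y hy x => by
      obtain ⟨k, rfl⟩ := hy
      exact Commute.zpow_left (mul_inv_eq_iff_eq_mul.1 (hz (x * z * x⁻¹) (by
        rw [← z2]; exact (MulAut.conj x).orderOf_eq z))).symm k
    refine .inr (.inr (.inr ⟨p, Shrink.{0} P, inferInstance, inferInstance, hp, p2.ne', P.2.of_equiv s.symm,
      (Monoid.exponent_eq_of_mulEquiv s).trans (ex p hp o1 P P1 P.2), ⟨(MulEquiv.ofBijective (MonoidHom.noncommCoprod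
        ((zpowers z).subtype.comp e.toMonoidHom) ((P : Subgroup G).subtype.comp s.toMonoidHom)
        fun a b => zc _ (e a).2 _) ((Nat.bijective_iff_injective_and_card _).2 ⟨?_, ?_⟩)).symm⟩⟩))
    · refine (injective_iff_map_eq_one _).2 fun ⟨a, b⟩ hab => ?_
      have hab : (e a : G) * s b = 1 := hab
      have : (e a : G) = 1 := mem_bot.1 ((inf_eq_bot_of_coprime (H := zpowers z) (K := P) (by
        obtain ⟨j, e⟩ := P.2.exists_card_eq
        rw [e, Nat.card_zpowers, z2]
        exact ((Nat.coprime_primes Nat.prime_two hp).2 p2.ne).pow_right j)).le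
          (mem_inf.2 ⟨(e a).2, eq_inv_of_mul_eq_one_left hab ▸ inv_mem (s b).2⟩))
      rw [this, one_mul] at hab
      exact Prod.ext (by simpa using this) (by simpa using hab)
    · rw [Nat.card_prod, Nat.card_congr s.toEquiv, ← (P : Subgroup G).index_mul_card, i]; simp
  have pG : IsPGroup 2 G := (PiGrp.isPGroup (H := ⊤) fun q hq d => by_contra fun e =>
    hp ⟨q, hq, hq.two_le.lt_of_ne' e, by simpa using d⟩).of_equiv topEquiv
  have o : ∀ x : G, orderOf x ∣ 4 ∧ (x = g → orderOf x = 4) := fun x => by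
    obtain ⟨k, e⟩ := IsPGroup.iff_orderOf.1 pG x
    rw [e]
    rcases k with _ | _ | _ | k
    · exact ⟨by simp, fun e' => absurd (orderOf_eq_one_iff.1 (e' ▸ e)) g1⟩
    · exact ⟨by simp, fun e' => absurd (by rw [← hg, ← e', e]; exact e2) hn⟩
    · simp
    have h8 : so G 8 ≠ 0 := so_of_dvd (so_ne.2 ⟨x, e⟩) ⟨2 ^ k, by ring⟩
    have := k4 (so_dvd (so_of_dvd h8 (by norm_num)))
    have := hv' 8 (by norm_num)
    have := hv' 4 (by norm_num)
    have : 4 ∣ so G 8 := so_tot 8
    omega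
  have cy : IsCyclic G → Nat.card G = 4 := fun c => by
    obtain ⟨x, hx⟩ := isCyclic_iff_exists_orderOf_eq_natCard.1 c
    exact Nat.dvd_antisymm (hx ▸ (o x).1) ((o g).2 rfl ▸ orderOf_dvd_natCard g)
  rcases Cfsg.Agent.S0016.result 2 pG (fun H K hH hK => by
    have k : ∀ H : Subgroup G, Nat.card H = 2 → H = zpowers z := fun H hH => by
      obtain ⟨y, hy⟩ := exists_prime_orderOf_dvd_card' (G := H) 2 (hH ▸ dvd_rfl)
      exact (eq_of_le_of_card_ge (zpowers_le.2 (hz y (by simpa using hy) ▸ y.2)) (by simp [hH, z2])).symm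
    rw [k H hH, k K hK]) with c | ⟨-, k, ⟨e⟩⟩
  · exact .inr (.inr (.inl ⟨c, cy c⟩))
  have := (o (e.symm (.a 1))).1
  rw [MulEquiv.orderOf_eq, QuaternionGroup.orderOf_a_one] at this
  rcases k with _ | _ | k
  · have c := (MulEquiv.isCyclic e).2 QuaternionGroup.quaternionGroup_one_isCyclic
    exact .inr (.inr (.inl ⟨c, cy c⟩))
  · exact .inr (.inl ⟨e⟩)
  · exact absurd (Dvd.dvd.trans ⟨2 ^ k, by ring⟩ this : 8 ∣ 4) (by norm_num)

end Cfsg.Agent.S3995
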