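import Cfsg.Statements.S3996
import Cfsg.Agent.H21.SOT
import Cfsg.Agent.H21.Crit

set_option autoImplicit false
open Cfsg

namespace Cfsg.Agent.S3996

open H21 H18 Subgroup in

/-- A finite group in which the numbers of elements of each order that occurs (the numbers #{g : o(g) = m}, m ranging over the element orders) take exactly three different values is solvable. -/
theorem result {G : Type*} [Group G] [Finite G] (h : (((fun m : ℕ => Nat.card {g : G // orderOf g = m}) '' Set.range (orderOf : G → ℕ))).ncard = 3) : Group.IsSolvable G := by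
  obtain ⟨a, b, hv⟩ := so_vals h
  by_contra ns
  have ns' : ¬ Solv (⊤ : Subgroup G) := fun s => ns (solv_top_iff.1 s)
  have h2 : 2 ∣ Nat.card G := by_contra fun e => ns' (solv_of_odd fun p hp d m => e (by
    rw [Set.mem_singleton_iff.1 m] at d; simpa using d))
  obtain ⟨p, hp, pG, p2⟩ : ∃ p, p.Prime ∧ p ∣ Nat.card G ∧ p ≠ 2 := by_contra fun e =>
    ns' (solv_paqb Nat.prime_two Nat.prime_two fun p hp d => .inl (by_contra fun n => e ⟨p, hp, by simpa using d, n⟩))
  obtain ⟨q, hq, qG, q2, qp⟩ : ∃ q, q.Prime ∧ q ∣ Nat.card G ∧ q ≠ 2 ∧ q ≠ p := by_contra fun e =>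
    ns' (solv_paqb Nat.prime_two hp fun r hr d => by_contra fun n => e ⟨r, hr, by simpa using d, by simpa using n⟩)
  replace p2 : 2 < p := hp.two_le.lt_of_ne' p2
  replace q2 : 2 < q := hq.two_le.lt_of_ne' q2
  have c : p.Coprime q := (Nat.coprime_primes hp hq).2 qp.symm
  have k1 := so_prime hp pG
  have k2 := so_prime hq qG
  have k3 := so_key hp pG (n := q) fun e => qp.symm ((Nat.prime_dvd_prime_iff_eq hp hq).1 e)
  have n1 := so_prime_ne hp pG
  have n2 := so_prime_ne hq qG
  have pq : 2 < p * q := by nlinarith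
  by_cases e2 : so G 2 = 1
  swap
  · obtain ⟨x, y, z, -, -, -, e⟩ := Set.ncard_eq_three.1 h
    have k : ∀ m, so G m ≠ 0 → so G m = x ∨ so G m = y ∨ so G m = z := fun m hm => by
      simpa [so] using e.le ⟨m, so_ne.1 hm, rfl⟩
    have o1 := k 1 (by simp [so_one])
    have o2 := k 2 (so_prime_ne Nat.prime_two h2)
    have o3 := so_prime Nat.prime_two h2
    have o4 := so_even (G := G) p2
    have o5 := so_even (G := G) q2
    have o6 := so_even (G := G) pq
    have o7 := k p n1
    have o8 := k q n2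
    have o9 := k (p * q)
    rw [so_one] at o1
    have := so_no hp p2 k1 (c := so G (p * q)) (by rwa [show so G p = so G q by omega])
    omega
  have h4 : 2 ^ 2 ∣ Nat.card G := by_contra fun e => by
    obtain ⟨T, hT⟩ := exists_sylow Nat.prime_two (⊤ : Subgroup G)
    obtain ⟨n, hn⟩ := hT.pi.card_eq_pow
    have : n ≤ 1 := by_contra fun l => e ((pow_dvd_pow 2 (by omega)).trans (hn ▸ card_subgroup_dvd_card T))
    exact ns' (solv_of_cyc_two hT (isCyclic_of_card_dvd_prime (p := 2) (hn ▸ pow_dvd_pow 2 this)))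
  have k4 := so_keyk Nat.prime_two h4 (n := 1) (by simp)
  simp only [Finset.sum_range_succ, Finset.range_zero, Finset.sum_empty, pow_zero, mul_one, so_one, pow_one, e2] at k4
  norm_num at k4
  obtain ⟨b, hv⟩ : ∃ b, ∀ m, 2 < m → so G m = 0 ∨ so G m = so G 4 ∨ so G m = b := by
    rcases hv 4 (by norm_num) with e | rfl | rfl
    · omega
    · exact ⟨b, hv⟩
    · exact ⟨a, fun m hm => by have := hv m hm; tauto⟩
  have nd : ∀ r, r.Prime → 2 < r → ¬ r ∣ 4 := fun r hr r2 d =>
    (Nat.le_of_dvd two_pos (hr.dvd_of_dvd_pow (n := 2) d)).not_gt r2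
  have c4 : ∀ r, r.Prime → 2 < r → r.Coprime 4 := fun r hr r2 => (Nat.Prime.coprime_iff_not_dvd hr).2 (nd r hr r2)
  have v4 : ∀ m, 2 < m → 4 ∣ so G m → so G m = 0 ∨ so G m = b := fun m hm d => by have := hv m hm; omega
  have v1 := v4 _ pq (so_four p2 q2 c dvd_rfl)
  have key : ∀ r, r.Prime → 2 < r → r ∣ Nat.card G → so G r = so G 4 → so G (r * 4) = b ∧ ∀ s, s = 0 ∨ s = b →
      ¬ r ∣ b + s := fun r hr r2 rG e => by
    have k := so_key hr rG (nd r hr r2)
    have k' := e ▸ so_prime hr rG
    have := so_no hr r2 k' k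
    have e' : so G (r * 4) = b := (v4 _ (by omega) (so_four r2 (by norm_num) (c4 r hr r2) dvd_rfl)).resolve_left this.1
    refine ⟨e', fun s hs d => ?_⟩
    have d1 : r ∣ 1 + so G 4 + (b + s) := k'.add d
    have d2 : r ∣ 1 + s := (Nat.dvd_add_left (e' ▸ k)).1 (by convert d1 using 1; ring)
    rcases hs with rfl | rfl
    · exact hr.ne_one (by simpa using d2)
    · have := so_no hr r2 d2 d; simp at this
  rcases (hv p p2).resolve_left n1 with e | e
  · rcases (hv q q2).resolve_left n2 with e' | e'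
    · refine (key p hp p2 pG e).2 (so G (p * (q * 4))) (v4 _ (by nlinarith) (so_four p2 q2 c ⟨4, by ring⟩)) ?_
      rw [← (key q hq q2 qG e').1]
      exact so_key hp pG fun d => ((hp.dvd_mul).1 d).elim (fun e => qp.symm ((Nat.prime_dvd_prime_iff_eq hp hq).1 e))
        (nd p hp p2)
    · exact (key p hp p2 pG e).2 _ v1 (e' ▸ k3)
  rcases (hv q q2).resolve_left n2 with e' | e'
  · refine (key q hq q2 qG e').2 _ v1 ?_
    rw [← e, mul_comm]
    exact so_key hq qG fun e => qp ((Nat.prime_dvd_prime_iff_eq hq hp).1 e)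
  · have := so_no hp p2 (e ▸ k1) (e' ▸ k3); omega

end Cfsg.Agent.S3996
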