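import Cfsg.Statements.S3997
import Cfsg.Agent.H22.Misc1

set_option autoImplicit false
open Cfsg

namespace Cfsg.Agent.S3997

/-- Let G and H be finite groups with the same order type: for every m they have the same number of elements of order m. If G is nilpotent then so is H. -/
theorem result {G H : Type*} [Group G] [Finite G] [Group H] [Finite H] (hT : (∀ m : ℕ, Nat.card {g : G // orderOf g = m} = Nat.card {h : H // orderOf h = m})) (hG : Group.IsNilpotent G) :
    Group.IsNilpotent H := by
  obtain ⟨e, he⟩ := H22.exists_equiv_orderOf hT
  apply H2.nilpotent_of_forall_sylow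
  intro p hp Q
  obtain ⟨P⟩ : Nonempty (Sylow p G) := inferInstance
  have hP : (P : Subgroup G).Normal := inferInstance
  apply H22.sylow_normal_of_forall_mem
  refine H22.forall_mem_of_orderType e he (fun n => ∃ k, n = p ^ k) (K := (P : Subgroup G))
    (fun g hg => H22.mem_sylow_of_normal P hP hg)
    (fun h hh => H22.orderOf_eq_pow_of_mem Q.isPGroup' hh) ?_
  rw [Sylow.card_eq_multiplicity, Sylow.card_eq_multiplicity, Nat.card_congr e]

end Cfsg.Agent.S3997
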