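import Cfsg.Statements.S4001
import Cfsg.Agent.H1.Harv3
import Cfsg.Agent.H21.FrobB
import Cfsg.Agent.H23.FrobCompl
import Cfsg.Agent.H1.BG3a
import Cfsg.Agent.H5.PF8a

set_option autoImplicit false
open Cfsg

namespace Cfsg.Agent.S4001

open H18 Subgroup H1
open scoped commutatorElement

/-- Let G be a 2-Frobenius group: it has normal subgroups H < K with K a Frobenius group with kernel H and G/H a Frobenius group with kernel K/H. Then G is solvable; K/H has odd order coprime to the order of H and to the order of G/K (it is the image of an odd-order Hall subgroup); G/K is cyclic; and the prime graph of G has exactly two connected components, both complete: for distinct primes p, q dividing the order of G, G has an element of order pq exactly when p and q either both divide the order of K/H or both do not. -/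
theorem result {G : Type*} [Group G] [Finite G] (H K : Subgroup G) [H.Normal] [K.Normal] (hlt : H < K)
    (hK : ∃ C : Subgroup ↥K, Cfsg.IsFrobeniusComplement C ∧ Cfsg.frobeniusKernel C = (H.subgroupOf K : Set ↥K))
    (hGH : ∃ C : Subgroup (G ⧸ H), Cfsg.IsFrobeniusComplement C ∧ Cfsg.frobeniusKernel C = (K.map (QuotientGroup.mk' H) : Set (G ⧸ H))) :
    Group.IsSolvable G ∧ Odd (Nat.card (↥K ⧸ H.subgroupOf K)) ∧
      Nat.Coprime (Nat.card (↥K ⧸ H.subgroupOf K)) (Nat.card ↥H * Nat.card (G ⧸ K)) ∧ IsCyclic (G ⧸ K) ∧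
      ∀ p q : ℕ, p.Prime → q.Prime → p ≠ q → p ∣ Nat.card G → q ∣ Nat.card G →
        ((∃ g : G, orderOf g = p * q) ↔ (p ∣ Nat.card (↥K ⧸ H.subgroupOf K) ↔ q ∣ Nat.card (↥K ⧸ H.subgroupOf K))) := by
  obtain ⟨B0, b1, b2⟩ := hK
  obtain ⟨C, c1, c2⟩ := hGH
  obtain ⟨H', e, f⟩ := H21.exists_frob b1
  obtain rfl : H = H' := SetLike.coe_injective (by
    rw [e, b2, ← map_subgroupOf_eq_of_le hlt.le, coe_map, subgroupOf_map_subtype, inf_eq_left.2 hlt.le]; rfl)
  obtain ⟨K', e', g⟩ := H21.exists_frob_top c1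
  obtain rfl : mim (topq H) K = K' := SetLike.coe_injective (by rw [e', c2, mim_topq])
  set B := B0.map K.subtype
  have d : B ⊓ mker (topq H) = ⊥ := by rw [mker_topq, f.sd.inf']
  have kb : mim (topq H) K = mim (topq H) B := by
    rw [← f.sd.sup, mim_sup le_top le_top, mim_eq_bot_of_le (mker_topq H).ge, bot_sup_eq]
  have cB : Nat.card (mim (topq H) K) = Nat.card B := by rw [kb, card_mim_of_disj le_top d]
  have od : ¬ 2 ∣ Nat.card B := fun h => by
    obtain ⟨t, ht, t2⟩ := cauchy Nat.prime_two (cB ▸ h)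
    obtain ⟨c, hc, c1⟩ := exists_mem_ne_one' g.compl_ne
    have u : ∀ s ∈ mim (topq H) K, orderOf s = 2 → s = t := fun s hs s2 => by
      rw [kb] at hs ht
      obtain ⟨s', hs, -, rfl⟩ := mem_mim.1 hs
      obtain ⟨t', ht, -, rfl⟩ := mem_mim.1 ht
      have o : ∀ x ∈ B, orderOf (mfun (topq H) x) = 2 → x ≠ 1 ∧ x * x = 1 := fun x hx h => by
        rw [orderOf_mfun (mem_top x) (eq_bot_iff.2 ((inf_le_inf_right _ (zpowers_le.2 hx)).trans d.le))] at h
        exact ⟨by rintro rfl; simp at h, by rw [← sq, ← h, pow_orderOf_eq_one]⟩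
      rw [H23.semireg_invol_eq f.sd.norm f.ker_ne f.reg ‹s' ∈ B› ‹t' ∈ B› (o s' ‹_› s2).1 (o t' ‹_› t2).1 (o s' ‹_› s2).2
        (o t' ‹_› t2).2]
    have : t = 1 := eq_one_of_eq_bot (g.reg c hc c1) ⟨ht, mem_C1.2 (mul_inv_eq_iff_eq_mul.1
      (u _ (conj_mem g.sd.norm hc ht) (orderOf_conj.trans t2))).symm⟩
    simp [this] at t2
  have nB : Nil B := (nil_mim_iff le_top d).1 (kb ▸ H23.Frob_nil g)
  have cyB : Cyc B := nB.cyc_of_sylow fun p hp h => (H23.semireg_pgroup hp pcore_pi (pcore_le.trans f.sd.norm) f.ker_ne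
    (f.reg.mono le_rfl pcore_le)).resolve_right fun ⟨n, x, y, q⟩ => od (Dvd.dvd.trans ⟨2 * 2 ^ (n + 1), by rw [q.card_eq]; ring⟩
      (card_dvd (pcore_le (π := {p}))))
  have cyK : Cyc (mim (topq H) K) := kb ▸ cyB.mim
  have cyC : Cyc C := cyc_of_semireg_abel (abel_iff_der.2 (eq_bot_iff.2 ((le_inf der_le (cyK.der_cent g.sd.norm)).trans
    (g.reg.symm.cent le_rfl g.ker_ne).le))) g.sd.norm g.ker_ne g.reg
  have nH := H23.Frob_nil f
  have i1 : Nat.card (↥K ⧸ H.subgroupOf K) = Nat.card B := f.sd.relIndex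
  have i2 : K.relIndex ⊤ = Nat.card C := by
    rw [← g.sd.relIndex, ← mim_topq_top H, relIndex_mim le_top le_top (by rw [mker_topq]; exact inf_le_right.trans hlt.le)]
  have i3 : Nat.card (G ⧸ K) = Nat.card C := by rw [← i2, relIndex_top_right]; rfl
  have cG : Nat.card G = Nat.card H * Nat.card B * Nat.card C := by
    rw [← i2, ← f.sd.card, H18.card_mul_relIndex le_top, card_top]
  have co1 := f.coprime
  have co2 := cB ▸ g.coprime
  rw [i1, i3]
  refine ⟨solv_top_iff.1 (solv_of_mim (f := topq H) le_top ((mim_topq_top H).symm ▸ g.sd.solv cyK.solv cyC.solv)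
    (by rw [mker_topq, top_inf_eq]; exact nH.solv)), Nat.odd_iff.2 (by omega), co1.symm.mul_right co2, ?_, ?_⟩
  · refine isCyclic_of_surjective ((QuotientGroup.map H K (MonoidHom.id G) hlt.le).comp C.subtype) fun x => ?_
    obtain ⟨x, rfl⟩ := QuotientGroup.mk_surjective x
    obtain ⟨c, hc, _, ⟨k, hk, -, rfl⟩, h⟩ := by simpa only [mem_mim] using g.sd.mem_iff'.1 (mem_top (x : G ⧸ H))
    obtain ⟨c, rfl⟩ := QuotientGroup.mk_surjective c
    rw [mfun_topq, ← QuotientGroup.mk_mul, eq_comm, QuotientGroup.eq] at h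
    exact ⟨⟨c, hc⟩, QuotientGroup.eq.2 (by simpa [mul_assoc] using mul_mem hk (hlt.le h))⟩
  have two : ∀ {p q : ℕ} {x y : G}, p.Prime → q.Prime → p ≠ q → orderOf x = p → orderOf y = q → x * y = y * x →
      ∃ g : G, orderOf g = p * q := fun hp hq h a b c => ⟨_, by
    rw [Commute.orderOf_mul_eq_mul_orderOf_of_coprime c (by rw [a, b]; exact (Nat.coprime_primes hp hq).2 h), a, b]⟩
  have nil : ∀ {p q : ℕ} {L : Subgroup G}, p.Prime → q.Prime → p ≠ q → Nil L → p ∣ Nat.card L → q ∣ Nat.card L →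
      ∃ g : G, orderOf g = p * q := fun hp hq h n a b => by
    obtain ⟨x, hx, a⟩ := cauchy hp a
    obtain ⟨y, hy, b⟩ := cauchy hq b
    exact two hp hq h a b (comm_of_cent (n.cent_coprime (zpowers_le.2 hx) (zpowers_le.2 hy) (by
      rw [card_zpowers', card_zpowers', a, b]; exact (Nat.coprime_primes hp hq).2 h)) (mem_zpowers x) (mem_zpowers y))
  have no : ∀ p q : ℕ, p.Prime → q.Prime → p ∣ Nat.card B → ¬ q ∣ Nat.card B → ∀ g : G, orderOf g ≠ p * q := by
    intro p q hp hq h1 h2 z hz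
    have a : orderOf (z ^ q) = p := by
      rw [orderOf_pow' z hq.ne_zero, hz, Nat.gcd_mul_left_left, Nat.mul_div_cancel _ hq.pos]
    have b : orderOf (z ^ p) = q := by
      rw [orderOf_pow' z hp.ne_zero, hz, Nat.gcd_mul_right_left, Nat.mul_div_cancel_left _ hp.pos]
    have cm : z ^ p * z ^ q = z ^ q * z ^ p := pow_mul_comm ..
    have x1 : z ^ q ∈ K := PiElt.mem_of_nml (a.symm ▸ piNat_self hp : PiNat {p} (orderOf (z ^ q))) (mem_top _) nml_top (by
      rw [i2, piNat_compl_iff_coprime hp]; exact (co2.coprime_dvd_left h1).symm)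
    have x2 : z ^ q ∉ H := fun h => hp.ne_one (Nat.eq_one_of_dvd_coprimes co1 (a ▸ orderOf_dvd_card h) h1)
    have y1 : z ^ p ∈ K := mem_of_mfun_mem (f := topq H) trivial le_top ((mker_topq H).le.trans hlt.le)
      (H5.frob_cent1_le g (mfun_mem_mim x1) (fun h => x2 ((mker_topq H).le (mem_mker.2 ⟨trivial, h⟩))) ⟨trivial, mem_C1.2
        (by rw [← mfun_mul (mem_top _) (mem_top _), cm, mfun_mul (mem_top _) (mem_top _)])⟩)
    have y2 : z ^ p ∈ H := PiElt.mem_of_nml (b.symm ▸ piNat_self hq : PiNat {q} (orderOf (z ^ p))) y1 f.nml (by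
      rw [f.sd.relIndex, piNat_compl_iff hq]; exact h2)
    exact x2 (H5.frob_cent1_le f y2 (fun h => hq.ne_one (by rw [← b, h, orderOf_one])) ⟨x1, mem_C1.2 cm.symm⟩)
  have mix : ∀ p q : ℕ, p.Prime → q.Prime → p ≠ q → p ∣ Nat.card H → ¬ q ∣ Nat.card H → q ∣ Nat.card C →
      ∃ g : G, orderOf g = p * q := by
    intro p q hp hq h h1 h2 h3
    have hB : Hall (primes (Nat.card B)) B K := hall_primes f.sd.le_right (f.sd.relIndex' ▸ co1.symm)
    have fr : mim (topq H) N(B) = ⊤ := by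
      have := (piSep_of_solv (π := primes (Nat.card B)) (f.sd.solv nH.solv nB.solv)).frattini_arg nml_top hB
      rw [top_inf_eq, ← f.sd.sup, sup_assoc, sup_eq_right.2 le_N] at this
      rw [← mim_sup_mker le_top, mker_topq, sup_comm, this, mim_topq_top]
    obtain ⟨c, hc, c1⟩ := cauchy hq h3
    obtain ⟨x, hx, -, x1, rfl⟩ := exists_piElt_lift (fr.ge (mem_top c)) (c1.symm ▸ piNat_self hq : PiNat {q} (orderOf c))
    have x2 : zpowers x ⊓ mker (topq H) = ⊥ := x1.zpowers.inf_eq_bot (by rw [mker_topq]; exact (piNat_compl_iff hq).2 h2)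
    rw [orderOf_mfun (mem_top x) x2] at c1
    have xq : (Nat.card (zpowers x)).Prime := by rw [card_zpowers', c1]; exact hq
    have r : B ⊓ C(zpowers x) = ⊥ := eq_bot_iff.2 ((le_inf inf_le_left ((mim_eq_bot_iff le_top).1 (eq_bot_iff.2
      (mim_inf_C_le.trans (by
        rw [← kb, mim_zpowers (mem_top x), C_zpowers]
        exact (g.reg _ hc fun e => hq.ne_one (by rw [← c1, ← orderOf_mfun (f := topq H) trivial x2, e, orderOf_one])).le))))).trans
      d.le)
    have s := sd_sup (zpowers_le.2 hx) (eq_bot_iff.2 ((inf_le_inf_left _ abel_zpowers).trans r.le))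
    have n : O[{p}](H) ⊴ ⊤ := nml_top.pcore
    obtain ⟨y, hy, y1⟩ : ∃ y ∈ O[{p}](H) ⊓ C(zpowers x), (orderOf y).Prime := exists_prime_order fun e =>
      (nH.pcore_hall.ne_bot_p hp h1) (eq_bot_iff.2 ((le_inf pcore_le (cent_symm (Frobenius_cent_ker s (semireg_prime xq r)
        (le_top.trans n.norm) (by
          rw [s.card, card_zpowers', c1]
          exact (co1.coprime_dvd_left (card_dvd pcore_le)).mul_right (PiNat.coprime pcore_pi ((piNat_self hq).p'_of_ne h.symm)))
        pcore_pi.solv e))).trans f.cent.le))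
    exact two hp hq h ((pcore_pi.elt hy.1).eq_of_dvd y1 dvd_rfl) c1 (hy.2 x (mem_zpowers x)).symm
  intro p q hp hq h h1 h2
  refine ⟨fun ⟨z, hz⟩ => ⟨fun a => by_contra fun b => no p q hp hq a b z hz,
    fun a => by_contra fun b => no q p hq hp a b z (hz.trans (mul_comm ..))⟩, fun i => ?_⟩
  by_cases a : p ∣ Nat.card B
  · exact nil hp hq h nB a (i.1 a)
  have b := mt i.2 a
  rw [cG, hp.dvd_mul, hp.dvd_mul] at h1
  rw [cG, hq.dvd_mul, hq.dvd_mul] at h2
  by_cases u : p ∣ Nat.card H <;> by_cases v : q ∣ Nat.card H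
  · exact nil hp hq h nH u v
  · exact mix p q hp hq h u v (by tauto)
  · exact mul_comm p q ▸ mix q p hq hp h.symm v u (by tauto)
  obtain ⟨c, rfl⟩ := cyC.gen
  obtain ⟨z, rfl⟩ := QuotientGroup.mk_surjective c
  rw [card_zpowers'] at h1 h2
  exact ⟨_, orderOf_pow_orderOf_div (orderOf_pos z).ne' ((((Nat.coprime_primes hp hq).2 h).mul_dvd_of_dvd_of_dvd
    (by tauto) (by tauto)).trans (orderOf_map_dvd (QuotientGroup.mk' H) z))⟩

end Cfsg.Agent.S4001
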