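import Cfsg.Statements.S4002
import Cfsg.Agent.H13.CitJ
import Mathlib.NumberTheory.Bertrand

set_option autoImplicit false
open Cfsg

namespace Cfsg.Agent.S4002

/-- If the set of element orders of a finite group G is {1, 2, …, n} with n ≥ 7, then G is not solvable. -/
theorem result {G : Type*} [Group G] [Finite G] (n : ℕ) (hn : 7 ≤ n) (h : Set.range (orderOf : G → ℕ) = {k : ℕ | 1 ≤ k ∧ k ≤ n}) : ¬ Group.IsSolvable G := by
  intro hs
  have key : ∀ p q r : ℕ, p.Prime → q.Prime → r.Prime → p < q → q < r → r ≤ n → n < p * q → False :=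
    fun p q r hp hq hr pq qr rn hn => by
    have sp : ∀ k, H13.Sp G k ↔ 1 ≤ k ∧ k ≤ n := fun k => Set.ext_iff.1 h k
    have d : ∀ t : ℕ, t.Prime → t ≤ n → t ∣ Nat.card (⊤ : Subgroup G) := fun t ht tn => by
      rw [Subgroup.card_top]; exact ((sp t).2 ⟨ht.one_le, tn⟩).dvd_card
    rcases H13.three_primes (X := (⊤ : Subgroup G)) (inferInstanceAs (Group.IsSolvable (⊤ : Subgroup G))) hp hq hr
      pq.ne (pq.trans qr).ne qr.ne (d p hp (by omega)) (d q hq (by omega)) (d r hr rn) with k | k | k <;>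
      have := ((sp _).1 k).2 <;> nlinarith
  by_cases h1 : n < 15
  · exact key 3 5 7 (by norm_num) (by norm_num) (by norm_num) (by norm_num) (by norm_num) hn h1
  by_cases h2 : n < 35
  · exact key 5 7 11 (by norm_num) (by norm_num) (by norm_num) (by norm_num) (by norm_num) (by omega) h2
  obtain ⟨r, hr, r1, r2⟩ := Nat.exists_prime_lt_and_le_two_mul (n / 2) (by omega)
  obtain ⟨q, hq, q1, q2⟩ := Nat.exists_prime_lt_and_le_two_mul (n / 4) (by omega)
  obtain ⟨p, hp, p1, p2⟩ := Nat.exists_prime_lt_and_le_two_mul (n / 8) (by omega)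
  refine key p q r hp hq hr (by omega) (by omega) (by omega) ?_
  have a1 : n < 8 * p := by omega
  have a2 : n < 4 * q := by omega
  nlinarith

end Cfsg.Agent.S4002
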