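import Cfsg.Statements.S4003
import Cfsg.Agent.H22.Miller

set_option autoImplicit false
open Cfsg

namespace Cfsg.Agent.S4003

open Subgroup
open scoped Pointwise

theorem fixed {G : Type*} [Group G] [Finite G] {p : ℕ} [hp : Fact p.Prime] (P : Sylow p G) {s m : ℕ}
    (hm : Nat.Coprime p m) (hφ : ¬ p ∣ Nat.totient m) {g : G} (hg : orderOf g = p ^ s * m)
    (hN : ∀ a ∈ (P : Subgroup G), a * g * a⁻¹ ∈ zpowers g) :
    g ^ m ∈ (P : Subgroup G) ∧ ∀ a ∈ (P : Subgroup G), a * g ^ p ^ s * a⁻¹ = g ^ p ^ s := by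
  have hN' : ∀ n : ℕ, ∀ a ∈ (P : Subgroup G), a * g ^ n * a⁻¹ ∈ zpowers (g ^ n) := by
    intro n a ha
    obtain ⟨k, hk⟩ := mem_zpowers_iff.1 (hN a ha)
    have e : (g ^ k) ^ n = (g ^ n) ^ k := by
      rw [← zpow_natCast, ← zpow_mul, mul_comm, zpow_mul, zpow_natCast]
    rw [← conj_pow, ← hk, e]
    exact zpow_mem (mem_zpowers _) k
  have hNN : ∀ n : ℕ, (P : Subgroup G) ≤ normalizer (zpowers (g ^ n) : Set G) := by
    intro n a ha
    refine mem_normalizer_fintype fun x hx => ?_
    obtain ⟨k, rfl⟩ := mem_zpowers_iff.1 hx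
    rw [← conj_zpow]
    exact zpow_mem (hN' n a ha) k
  have hm0 : m ≠ 0 := by
    rintro rfl
    have := orderOf_pos g
    rw [hg, mul_zero] at this
    exact lt_irrefl _ this
  constructor
  · have h1 : IsPGroup p (zpowers (g ^ m)) := by
      refine IsPGroup.of_card (n := s) ?_
      rw [Nat.card_zpowers, orderOf_pow_of_dvd hm0 (hg ▸ dvd_mul_left _ _), hg,
        Nat.mul_div_cancel _ (Nat.pos_of_ne_zero hm0)]
    have h2 : IsPGroup p ((P : Subgroup G) ⊔ zpowers (g ^ m) : Subgroup G) :=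
      IsPGroup.to_sup_of_normal_right' P.isPGroup' h1 (hNN m)
    have h3 := P.is_maximal' h2 le_sup_left
    rw [← h3]
    exact (le_sup_right : zpowers (g ^ m) ≤ _) (mem_zpowers _)
  · have ho : orderOf (g ^ p ^ s) = m := by
      rw [orderOf_pow_of_dvd (pow_ne_zero _ hp.out.ne_zero) (hg ▸ dvd_mul_right _ _), hg,
        Nat.mul_div_cancel_left _ (pow_pos hp.out.pos _)]
    have h1 := H18.Cyc.relIndex_C_dvd (X := zpowers (g ^ p ^ s)) (A := (P : Subgroup G))
      (inferInstanceAs (IsCyclic (zpowers (g ^ p ^ s)))) (hNN _)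
    rw [Nat.card_zpowers, ho] at h1
    obtain ⟨k, hk⟩ := IsPGroup.iff_card.1 P.isPGroup'
    have h2 := relIndex_dvd_card (centralizer (zpowers (g ^ p ^ s) : Set G)) (P : Subgroup G)
    rw [hk] at h2
    obtain ⟨j, -, hj⟩ := (Nat.dvd_prime_pow hp.out).1 h2
    have hj0 : j = 0 := by
      by_contra h0
      exact hφ ((dvd_pow_self p h0).trans (hj ▸ h1))
    rw [hj0, pow_zero, relIndex_eq_one] at hj
    intro a ha
    have := (mem_centralizer_iff.1 (hj ha)) _ (mem_zpowers _)
    rw [← this, mul_inv_cancel_right]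

/-- Let G be a finite group, p an odd prime dividing the order of G whose Sylow p-subgroups are not cyclic, and n = p^s·m with s > 1 and m coprime to p. Then the number of elements of G of order n is a multiple of p^s. -/
theorem result {G : Type*} [Group G] [Finite G] (p : ℕ) [Fact p.Prime] (hodd : p ≠ 2) (hpG : p ∣ Nat.card G)
    (P : Sylow p G) (hP : ¬ IsCyclic ↥(P : Subgroup G)) (s m : ℕ) (hs : 1 < s) (hm : Nat.Coprime p m) :
    p ^ s ∣ Nat.card {g : G // orderOf g = p ^ s * m} := by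
  open Subgroup in
  have hp : p.Prime := Fact.out
  rcases Nat.eq_zero_or_pos m with rfl | hm0
  · exact absurd (Nat.coprime_zero_right p |>.1 hm) hp.one_lt.ne'
  have hcop : Nat.Coprime (p ^ s) m := hm.pow_left s
  have hφn : Nat.totient (p ^ s * m) = p ^ (s - 1) * (p - 1) * Nat.totient m := by
    rw [Nat.totient_mul hcop, Nat.totient_prime_pow hp (by omega)]
  have hps : p ^ s = p ^ (s - 1) * p := by rw [← pow_succ]; congr 1; omega
  have hgen : ∀ a b : G, zpowers b = zpowers a → orderOf b = orderOf a := fun a b h => by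
    rw [← Nat.card_zpowers, h, Nat.card_zpowers]
  by_cases hφ : p ∣ Nat.totient m
  · refine H22.gen_dvd {g : G | orderOf g = p ^ s * m} _ (fun a ha => ?_) fun a ha b h => (hgen a b h).trans ha
    rw [show orderOf a = p ^ s * m from ha, hφn, hps, mul_assoc]
    exact Nat.mul_dvd_mul_left _ (hφ.mul_left _)
  let S : Set G := {g : G | orderOf g = p ^ s * m}
  let A : Set G := {g | g ^ m ∈ (P : Subgroup G) ∧ ∀ a ∈ (P : Subgroup G), a * g ^ p ^ s * a⁻¹ = g ^ p ^ s}
  have hA : ∀ a ∈ A, ∀ b, b ∈ zpowers a → b ∈ A := by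
    intro a ha b hb
    obtain ⟨k, rfl⟩ := mem_zpowers_iff.1 hb
    have e : ∀ n : ℕ, (a ^ k) ^ n = (a ^ n) ^ k := fun n => by
      rw [← zpow_natCast, ← zpow_mul, mul_comm, zpow_mul, zpow_natCast]
    refine ⟨by rw [e]; exact zpow_mem ha.1 k, fun x hx => ?_⟩
    rw [e, ← conj_zpow, ha.2 x hx]
  have hsplit : Nat.card S = Nat.card ↥(S ∩ A) + Nat.card ↥(S \ A) := by
    rw [Nat.card_coe_set_eq, Nat.card_coe_set_eq, Nat.card_coe_set_eq, Set.ncard_inter_add_ncard_sdiff_eq_ncard]
  change p ^ s ∣ Nat.card S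
  rw [hsplit]
  refine dvd_add ?_ ?_
  · have h1 := H22.miller_pgroup hodd P.isPGroup' hP hs
    let Y : Set G := {y | orderOf y = m ∧ ∀ a ∈ (P : Subgroup G), a * y * a⁻¹ = y}
    have hcm : ∀ (x : (P : Subgroup G)) (y : G), y ∈ Y → Commute (x : G) y := fun x y hy => by
      have := hy.2 x x.2
      rw [mul_inv_eq_iff_eq_mul] at this
      exact this
    let f : {g : (P : Subgroup G) | orderOf g = p ^ s} × Y → ↥(S ∩ A) := fun q =>
      ⟨q.1.1 * q.2.1, by
        have hc := hcm q.1.1 q.2.1 q.2.2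
        have ho : orderOf (q.1.1 : G) = p ^ s := (orderOf_coe q.1.1).trans q.1.2
        have ho2 : orderOf q.2.1 = m := q.2.2.1
        refine ⟨?_, ?_, fun a ha => ?_⟩
        · change orderOf _ = _
          rw [hc.orderOf_mul_eq_mul_orderOf_of_coprime (by rw [ho, ho2]; exact hcop), ho, ho2]
        · rw [hc.mul_pow, orderOf_dvd_iff_pow_eq_one.1 ho2.dvd, mul_one]
          exact pow_mem q.1.1.2 _
        · rw [hc.mul_pow, orderOf_dvd_iff_pow_eq_one.1 ho.dvd, one_mul, ← conj_pow, q.2.2.2 a ha]⟩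
    have hf : Function.Bijective f := by
      constructor
      · rintro ⟨⟨x, hx⟩, ⟨y, hy⟩⟩ ⟨⟨x', hx'⟩, ⟨y', hy'⟩⟩ h
        have h1 : (x : G) * y = x' * y' := congrArg Subtype.val h
        have h2 : x ^ m = x' ^ m := by
          apply Subtype.ext
          have := congrArg (· ^ m) h1
          simp only [(hcm x y hy).mul_pow, (hcm x' y' hy').mul_pow] at this
          have e1 : y ^ m = 1 := hy.1 ▸ pow_orderOf_eq_one y
          have e2 : y' ^ m = 1 := hy'.1 ▸ pow_orderOf_eq_one y'
          rw [e1, e2, mul_one, mul_one] at this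
          exact this
        have h3 : x = x' := (P.isPGroup'.powEquiv hm).injective h2
        subst h3
        have h4 : y = y' := mul_left_cancel h1
        subst h4
        rfl
      · rintro ⟨g, hg, hg1, hg2⟩
        have hg : orderOf g = p ^ s * m := hg
        obtain ⟨a, ha1, ha2⟩ := Nat.chineseRemainder hcop 1 0
        obtain ⟨b, hb1, hb2⟩ := Nat.chineseRemainder hcop 0 1
        obtain ⟨a, rfl⟩ := Nat.modEq_zero_iff_dvd.1 ha2
        obtain ⟨b, rfl⟩ := Nat.modEq_zero_iff_dvd.1 hb1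
        have hab : g ^ (m * a) * g ^ (p ^ s * b) = g := by
          rw [← pow_add]
          conv_rhs => rw [← pow_one g]
          rw [pow_eq_pow_iff_modEq, hg, ← Nat.modEq_and_modEq_iff_modEq_mul hcop]
          exact ⟨by simpa using ha1.add hb1, by simpa using ha2.add hb2⟩
        have hc : Commute (g ^ (m * a)) (g ^ (p ^ s * b)) := Commute.pow_pow_self g _ _
        have d1 : orderOf (g ^ (m * a)) ∣ p ^ s := by
          rw [orderOf_dvd_iff_pow_eq_one, ← pow_mul, ← orderOf_dvd_iff_pow_eq_one, hg]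
          exact ⟨a, by ring⟩
        have d2 : orderOf (g ^ (p ^ s * b)) ∣ m := by
          rw [orderOf_dvd_iff_pow_eq_one, ← pow_mul, ← orderOf_dvd_iff_pow_eq_one, hg]
          exact ⟨b, by ring⟩
        have e := hc.orderOf_mul_eq_mul_orderOf_of_coprime (Nat.Coprime.coprime_dvd_left d1
          (Nat.Coprime.coprime_dvd_right d2 hcop))
        rw [hab, hg] at e
        have l1 := Nat.le_of_dvd (pow_pos hp.pos s) d1
        have l2 := Nat.le_of_dvd hm0 d2
        have e1 : orderOf (g ^ (m * a)) = p ^ s := by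
          by_contra hne
          have : orderOf (g ^ (m * a)) < p ^ s := lt_of_le_of_ne l1 hne
          nlinarith
        have e2 : orderOf (g ^ (p ^ s * b)) = m := by
          rw [e1] at e
          exact (Nat.eq_of_mul_eq_mul_left (pow_pos hp.pos s) e).symm
        refine ⟨⟨⟨⟨g ^ (m * a), by rw [pow_mul]; exact pow_mem hg1 a⟩, (orderOf_mk _ _).trans e1⟩,
          ⟨g ^ (p ^ s * b), e2, fun x hx => ?_⟩⟩, Subtype.ext hab⟩
        rw [pow_mul, ← conj_pow, hg2 x hx]
    rw [← Nat.card_eq_of_bijective f hf, Nat.card_prod]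
    exact h1.mul_right _
  · rw [H22.gen_count (S \ A) (p ^ s * m) (fun a ha => ha.1) (fun a ha b h =>
      ⟨(hgen a b h).trans ha.1, fun hb => ha.2 (hA b hb a (h ▸ mem_zpowers a))⟩), hφn, hps,
      mul_assoc, mul_assoc]
    refine Nat.mul_dvd_mul_left _ (Dvd.dvd.mul_left (Dvd.dvd.mul_left ?_ _) _)
    have hconj : ∀ (a : (P : Subgroup G)) (g : G), g ∈ S \ A → (a : G) * g * (a : G)⁻¹ ∈ S \ A := by
      intro a g hg
      refine ⟨(orderOf_injective (MulAut.conj (a : G)).toMonoidHom (MulAut.conj (a : G)).injective g).trans hg.1,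
        fun h => hg.2 ⟨?_, fun x hx => ?_⟩⟩
      · have := h.1
        rw [conj_pow] at this
        have h2 := mul_mem (mul_mem (inv_mem a.2) this) a.2
        simpa [mul_assoc] using h2
      · have := h.2 (a * x * (a : G)⁻¹) (mul_mem (mul_mem a.2 hx) (inv_mem a.2))
        rw [conj_pow] at this
        have h2 : x * g ^ p ^ s * x⁻¹ = (a : G)⁻¹ * (a * x * (a : G)⁻¹ * (a * g ^ p ^ s * (a : G)⁻¹) *
          (a * x * (a : G)⁻¹)⁻¹) * a := by group
        rw [h2, this]; group
    let : MulAction (P : Subgroup G) ↥((fun a => zpowers a) '' (S \ A)) :=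
      { smul := fun a H => ⟨H.1.map (MulAut.conj (a : G)).toMonoidHom, by
          obtain ⟨_, g, hg, rfl⟩ := H
          exact ⟨_, hconj a g hg, (MonoidHom.map_zpowers (MulAut.conj (a : G)).toMonoidHom g).symm⟩⟩
        one_smul := fun H => Subtype.ext (by
          change H.1.map (MulAut.conj ((1 : (P : Subgroup G)) : G)).toMonoidHom = H.1
          ext x; simp)
        mul_smul := fun a b H => Subtype.ext (by
          change H.1.map (MulAut.conj ((a * b : (P : Subgroup G)) : G)).toMonoidHom =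
            (H.1.map (MulAut.conj (b : G)).toMonoidHom).map (MulAut.conj (a : G)).toMonoidHom
          rw [map_map]; congr 1; ext x; simp [mul_assoc]) }
    have h1 := P.isPGroup'.card_modEq_card_fixedPoints ↥((fun a => zpowers a) '' (S \ A))
    have h2 : IsEmpty (MulAction.fixedPoints (P : Subgroup G) ↥((fun a => zpowers a) '' (S \ A))) := by
      refine ⟨?_⟩
      rintro ⟨⟨_, g, hg, rfl⟩, h⟩
      refine hg.2 (fixed P hm hφ hg.1 fun a ha => ?_)
      have h3 : (zpowers g).map (MulAut.conj a).toMonoidHom = zpowers g := congrArg Subtype.val (h ⟨a, ha⟩)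
      rw [← h3]
      exact ⟨g, mem_zpowers g, rfl⟩
    rw [Nat.card_of_isEmpty (α := MulAction.fixedPoints (P : Subgroup G) ↥((fun a => zpowers a) '' (S \ A)))] at h1
    exact Nat.modEq_zero_iff_dvd.1 h1

end Cfsg.Agent.S4003
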