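import Cfsg.Statements.S4005
import Cfsg.Agent.H1.Harv4
import Cfsg.Agent.H23.FrobCompl
import Cfsg.Agent.H1.BG3a

set_option autoImplicit false
open Cfsg

namespace Cfsg.Agent.S4005

open H18 Subgroup H1

/-- A finite group whose set of element orders is exactly {1, 2, 3} has either a normal elementary abelian 3-subgroup of index 2 or a normal elementary abelian 2-subgroup of index 3. -/
theorem result {G : Type*} [Group G] [Finite G] (h : Set.range (orderOf : G → ℕ) = {k : ℕ | 1 ≤ k ∧ k ≤ 3}) :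
    (∃ N : Subgroup G, N.Normal ∧ Cfsg.IsElementaryAbelian 3 N ∧ N.index = 2) ∨
      (∃ N : Subgroup G, N.Normal ∧ Cfsg.IsElementaryAbelian 2 N ∧ N.index = 3) := by
  have o : ∀ x : G, 1 ≤ orderOf x ∧ orderOf x ≤ 3 := fun x => h.le ⟨x, rfl⟩
  have pw : ∀ p : ℕ, p.Prime → ∀ x : G, PiElt {p} x → x ^ p = 1 := fun p hp x hx => by
    obtain ⟨a, b⟩ := o x
    rw [← orderOf_dvd_iff_pow_eq_one]
    interval_cases e : orderOf x
    · simp
    · rw [hx 2 Nat.prime_two (by rw [e])]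
    · rw [hx 3 Nat.prime_three (by rw [e])]
  have hG : PiGrp {2, 3} (⊤ : Subgroup G) := piGrp_of_prime_elt fun x _ hx => by
    obtain ⟨a, b⟩ := o x
    have := hx.two_le
    simp only [Set.mem_insert_iff, Set.mem_singleton_iff]; omega
  have hs := solv_of_two_primes Nat.prime_two Nat.prime_three hG
  have reg : ∀ {p q : ℕ} {K R : Subgroup G}, p.Prime → q.Prime → p ≠ q → PiGrp {p} K → PiGrp {q} R → Semireg K R :=
    fun {p q K R} hp hq e a b x hx x1 => eq_bot_iff.2 fun y hy => by_contra fun y1 => by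
      haveI : Fact p.Prime := ⟨hp⟩
      haveI : Fact q.Prime := ⟨hq⟩
      have := (o (y * x)).2
      rw [Commute.orderOf_mul_eq_mul_orderOf_of_coprime (mem_C1.1 hy.2) ((a.elt hy.1).coprime ((b.elt hx).p'_of_ne e.symm)),
        orderOf_eq_prime (pw p hp y (a.elt hy.1)) y1, orderOf_eq_prime (pw q hq x (b.elt hx)) x1] at this
      nlinarith [hp.two_le, hq.two_le]
  have cyc : ∀ {q : ℕ} {R : Subgroup G}, q.Prime → q ∈ ({k | 1 ≤ k ∧ k ≤ 3} : Set ℕ) → Hall {q} R ⊤ → Cyc R → Nat.card R = q :=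
    fun {q R} hq e a b => by
      haveI : Fact q.Prime := ⟨hq⟩
      obtain ⟨x, rfl⟩ := b.gen
      obtain ⟨y, hy⟩ := h.ge e
      rw [card_zpowers', orderOf_eq_prime (pw q hq x (a.pi.elt (mem_zpowers x))) fun e =>
        a.ne_bot_p hq (hy ▸ H18.orderOf_dvd_card (mem_top y)) (by simp [e])]
  obtain ⟨S, hS⟩ := exists_sylow Nat.prime_two (⊤ : Subgroup G)
  obtain ⟨T, hT⟩ := exists_sylow Nat.prime_three (⊤ : Subgroup G)
  have aS : Abel S := cent_iff.2 fun a ha b hb => by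
    have h1 := pw 2 Nat.prime_two _ (hS.pi.elt (mul_mem ha hb))
    have h2 := pw 2 Nat.prime_two _ (hS.pi.elt ha)
    have h3 := pw 2 Nat.prime_two _ (hS.pi.elt hb)
    rw [sq] at h1 h2 h3
    rw [← mul_right_inj a, ← mul_left_inj b, ← mul_assoc, h2, one_mul, h3, ← h1]; group
  have hT' : Hall {2}ᶜ T ⊤ := hT.congr fun p _ b => by
    rcases hG p ‹_› b with rfl | rfl <;> simp
  by_cases e : O[{3}]((⊤ : Subgroup G)) = ⊥
  · have c : O[{2}ᶜ]((⊤ : Subgroup G)) = ⊥ := eq_bot_iff.2 ((le_pcore pcore_nml (hT.pi.of_le hT'.pcore_le)).trans e.le)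
    have d : O[{2}]((⊤ : Subgroup G)) = S := hS.pcore_le.antisymm ((le_inf le_top (cent_mono aS le_rfl hS.pcore_le)).trans
      (cent_sub_pcore hs c))
    have n : S ⊴ ⊤ := d ▸ pcore_nml
    obtain ⟨y, hy⟩ := h.ge (show 2 ∈ ({k | 1 ≤ k ∧ k ≤ 3} : Set ℕ) by simp)
    have f := (H23.semireg_pgroup Nat.prime_three hT.pi (le_top.trans n.norm) (hS.ne_bot_p Nat.prime_two
      (hy ▸ H18.orderOf_dvd_card (mem_top y))) (reg Nat.prime_two Nat.prime_three (by simp) hS.pi hT.pi)).resolve_right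
      fun ⟨n, x, y, q⟩ => by simpa using hT.pi 2 Nat.prime_two ⟨2 * 2 ^ (n + 1), by rw [q.card_eq]; ring⟩
    exact .inr ⟨S, n.normal, ⟨aS.comm, fun a ha => pw 2 Nat.prime_two a (hS.pi.elt ha)⟩, by
      rw [← relIndex_top_right, hS.relIndex_eq_compl hT', cyc Nat.prime_three (by simp) hT f]⟩
  have c := cyc_of_semireg_abel aS (le_top.trans pcore_nml.norm) e
    (reg Nat.prime_three Nat.prime_two (by simp) pcore_pi hS.pi)
  have d := cyclic_pdiv_normal_complement Nat.prime_two hS c fun q hq _ => hq.two_le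
  have n : T ⊴ ⊤ := hT'.eq_pcore' d ▸ pcore_nml
  have f := cyc Nat.prime_two (by simp) hS c
  obtain ⟨t, ht, t2⟩ := cauchy Nat.prime_two f.symm.dvd
  exact .inl ⟨T, n.normal, ⟨(H23.abel_of_reg_invol (n.norm (mem_top t)) (reg Nat.prime_three Nat.prime_two (by simp) hT.pi hS.pi
    t ht (by rintro rfl; simp at t2)) (by rw [← sq, ← t2, pow_orderOf_eq_one])).comm,
    fun a ha => pw 3 Nat.prime_three a (hT.pi.elt ha)⟩, by
      rw [← relIndex_top_right, hT'.relIndex_eq_compl (by rwa [compl_compl]), f]⟩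

end Cfsg.Agent.S4005
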