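import Cfsg.Statements.S4006
import Cfsg.Agent.H2.FT3c
import Cfsg.Agent.S3779
import Cfsg.Agent.H23.FrobCompl
import Cfsg.Agent.H18.GT1
import Cfsg.Agent.H21.Pairing
import Cfsg.Agent.H21.Crit

set_option autoImplicit false
open Cfsg

namespace Cfsg.Agent.S4006

open H18 Subgroup
open scoped commutatorElement IsMulCommutative

theorem sq1 {N : Type*} [Group N] (r τ : MulAut N) (c : ∀ x y : N, ⁅x, y⁆ ∈ center N) (f : ∀ y, y * r y * r (r y) = 1)
    (f' : ∀ y, r y = y → y = 1) (g : ∀ y, ⁅y, r y⁆ = 1) (e0 : ∀ y, (y * τ y) ^ 2 = 1) (d : ∀ y, τ (r y) = r (r (τ y)))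
    (r3 : ∀ y, r (r (r y)) = y) (h4 : ∀ y : N, y ^ 4 = 1) (y : N) : y ^ 2 = 1 := by
  have cm : ∀ x y z : N, Commute x ⁅y, z⁆ := fun x y z => mem_center_iff.1 (c y z) x
  have e1 : ∀ y, r (r (r y * τ (r y))) = y * r (τ y) := fun y => by simp only [map_mul, d, r3]
  have e2 : ∀ y, r (r (r y) * τ (r (r y))) = y * r (r (τ y)) := fun y => by simp only [map_mul, d, r3]
  have s : ∀ y : N, y ^ 6 = 1 → y ^ 2 = 1 := fun y h => by rwa [show 6 = 4 + 2 from rfl, pow_add, h4, one_mul] at h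
  have rc : ∀ (φ : MulAut N), ∀ z ∈ center N, φ z ∈ center N := fun φ z hz => mem_center_iff.2 fun x => by
    rw [← φ.apply_symm_apply x, ← map_mul, mem_center_iff.1 hz, map_mul]
  have z2 : ∀ z ∈ center N, z ^ 2 = 1 := fun z hz => s z (by
    have a := congrArg (fun x => r (r x)) (e0 (r z))
    have b := congrArg r (e0 (r (r z)))
    simp only [map_pow, e1, e2, map_one] at a b
    have : ∀ {M : Type _} [CommGroup M] (z a b c : M), z ^ 6 * (a * b * c) ^ 2 = (z * a) ^ 2 * (z * b) ^ 2 * (z * c) ^ 2 := fun z a b c => by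
      simp only [pow_succ, pow_zero, one_mul, mul_assoc, mul_comm, mul_left_comm]
    simpa [f, a, b, e0] using congrArg Subtype.val
      (this (⟨z, hz⟩ : center N) ⟨_, rc τ z hz⟩ ⟨_, rc r _ (rc τ z hz)⟩ ⟨_, rc r _ (rc r _ (rc τ z hz))⟩))
  let _ : CommGroup (N ⧸ center N) := { (inferInstance : Group (N ⧸ center N)) with
    mul_comm := fun a b => QuotientGroup.induction_on a fun a => QuotientGroup.induction_on b fun b =>
      commutatorElement_eq_one_iff_mul_comm.1 ((QuotientGroup.eq_one_iff ⁅a, b⁆).2 (c a b)) }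
  have q : ∀ x y : N, (x : N ⧸ center N) = y → x ^ 2 = y ^ 2 := fun x y h => by
    have := QuotientGroup.eq.1 h
    rw [← mul_inv_cancel_left x y, Commute.mul_pow (mem_center_iff.1 this x), z2 _ this, mul_one]
  have m : ∀ x y : N, (x * y) ^ 2 = x ^ 2 * y ^ 2 * ⁅y, x⁆ := fun x y => by simpa using H21.mul_pow_class_two (cm _ _ _) (cm _ _ _) 2
  have b0 : ∀ x y, ⁅x * τ x, y * τ y⁆ = 1 := fun x y => by
    have := m (y * τ y) (x * τ x)
    rwa [e0, e0, q _ (y * x * τ (y * x)) (by simp only [map_mul, QuotientGroup.mk_mul, mul_assoc, mul_left_comm]), e0, one_mul, one_mul, eq_comm] at this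
  have i : ∀ x y : N, ⁅x, y⁆⁻¹ = ⁅x, y⁆ := fun x y => inv_eq_of_mul_eq_one_right (sq ⁅x, y⁆ ▸ z2 _ (c x y))
  have b1 : ∀ x y, ⁅r x, y⁆ = ⁅x, r y⁆ := fun x y => by
    have := g (x * y)
    rw [map_mul, H21.comm_mul_left (cm _ _ _), H21.comm_mul_right (cm _ _ _), H21.comm_mul_right (cm _ _ _), g, g, mul_one, one_mul] at this
    rw [← commutatorElement_inv, eq_comm, eq_inv_iff_mul_eq_one, (cm _ _ _).eq, this]
  have b2 : ∀ x y, Commute (x * τ x) (r (y * τ y)) := fun x y => commutatorElement_eq_one_iff_commute.1 (f' _ (by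
    rw [map_commutatorElement, ← eq_inv_of_mul_eq_one_right (f (y * τ y)) |>.symm, H21.comm_inv_right (cm _ _ _), H21.comm_mul_right (cm _ _ _),
      ← map_commutatorElement r _ (y * τ y), b0, map_one, mul_one, i, b1]))
  have a1 := ((b2 (r y) y).map r.toMonoidHom).map r.toMonoidHom
  have a2 := b2 y (r (r y))
  have a3 := (b2 (r (r y)) (r y)).map r.toMonoidHom
  have a4 := congrArg (fun x => r (r x)) (e0 (r y))
  have a5 := congrArg r (e0 (r (r y)))
  simp only [MulEquiv.coe_toMonoidHom, e1, e2, r3, map_pow, map_one] at a1 a2 a3 a4 a5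
  refine s y ?_
  rw [show 6 = 3 * 2 from rfl, pow_mul, q _ (y * τ y * (y * r (τ y)) * (y * r (r (τ y)))), (a2.mul_left a3.symm).mul_pow, a1.symm.mul_pow, e0, a4, a5,
    one_mul, one_mul]
  rw [← mul_one (y ^ 3), ← f (τ y)]
  simp only [pow_succ, pow_zero, one_mul, QuotientGroup.mk_mul, mul_assoc, mul_left_comm]

/-- A finite group whose set of element orders is exactly {1, 2, 3, 4} has a normal subgroup N such that either N is a 2-group of exponent 4 and nilpotency class at most 2 with G/N of order 3, or N is an elementary abelian 2-group with G/N isomorphic to the symmetric group of degree 3, or N is an elementary abelian 3-group with G/N cyclic of order 4 or quaternion of order 8. -/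
theorem result {G : Type*} [Group G] [Finite G] (h : Set.range (orderOf : G → ℕ) = {k : ℕ | 1 ≤ k ∧ k ≤ 4}) :
    ∃ (N : Subgroup G) (_ : N.Normal),
      (IsPGroup 2 ↥N ∧ Monoid.exponent ↥N = 4 ∧ Group.nilpotencyClass ↥N ≤ 2 ∧ N.index = 3) ∨
      (Cfsg.IsElementaryAbelian 2 N ∧ Nonempty (G ⧸ N ≃* Equiv.Perm (Fin 3))) ∨
      (Cfsg.IsElementaryAbelian 3 N ∧ ((IsCyclic (G ⧸ N) ∧ N.index = 4) ∨ Nonempty (G ⧸ N ≃* QuaternionGroup 2))) := by
  classical
  have o : ∀ x : G, 1 ≤ orderOf x ∧ orderOf x ≤ 4 := fun x => h.le ⟨x, rfl⟩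
  have p3 : ∀ x : G, PiElt {3} x → x ^ 3 = 1 := fun x hx => by
    obtain ⟨a, b⟩ := o x
    rw [← orderOf_dvd_iff_pow_eq_one]
    interval_cases e : orderOf x <;> first | decide | simpa using hx 2 Nat.prime_two (by rw [e] <;> decide)
  have p2 : ∀ x : G, PiElt {2} x → x ^ 4 = 1 := fun x hx => by
    obtain ⟨a, b⟩ := o x
    rw [← orderOf_dvd_iff_pow_eq_one]
    interval_cases e : orderOf x <;> first | decide | simpa using hx 3 Nat.prime_three (by rw [e])
  have hG : PiGrp {2, 3} (⊤ : Subgroup G) := piGrp_of_prime_elt fun x _ hx => by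
    obtain ⟨a, b⟩ := o x
    interval_cases orderOf x <;> simp_all (config := {decide := true})
  have reg : ∀ x y : G, PiElt {2} x → PiElt {3} y → x * y = y * x → x = 1 ∨ y = 1 := fun x y a b e => by_contra fun f => by
    push Not at f
    have := (o (x * y)).2
    rw [Commute.orderOf_mul_eq_mul_orderOf_of_coprime e (a.coprime (b.p'_of_ne (by decide)))] at this
    obtain ⟨_, i, j, rfl⟩ := a.exists_mem f.1
    obtain ⟨_, i', j', rfl⟩ := b.exists_mem f.2
    nlinarith [Nat.le_of_dvd (o x).1 j, Nat.le_of_dvd (o y).1 j']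
  have two : ∀ {K : Subgroup G}, PiGrp {3}ᶜ K → PiGrp {2} K := fun h p a b => (hG p a (b.trans (card_dvd le_top))).resolve_right (h p a b)
  have three : ∀ {K : Subgroup G}, PiGrp {2}ᶜ K → PiGrp {3} K := fun h p a b => (hG p a (b.trans (card_dvd le_top))).resolve_left (h p a b)
  obtain ⟨S, hS⟩ := exists_sylow Nat.prime_two (⊤ : Subgroup G)
  obtain ⟨T, hT⟩ := exists_sylow Nat.prime_three (⊤ : Subgroup G)
  have hT' : Hall {2}ᶜ T ⊤ := hT.congr fun p _ b => by rcases hG p ‹_› b with rfl | rfl <;> simp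
  obtain ⟨u, u4⟩ := h.ge (show 4 ∈ ({k | 1 ≤ k ∧ k ≤ 4} : Set ℕ) by simp)
  obtain ⟨ρ, ρ3⟩ := h.ge (show 3 ∈ ({k | 1 ≤ k ∧ k ≤ 4} : Set ℕ) by simp)
  have pu : PiElt {2} u := show PiNat _ _ from u4.symm ▸ piNat_pow_self Nat.prime_two 2
  have r23 : ∀ {K R : Subgroup G}, PiGrp {2} K → PiGrp {3} R → Semireg K R := fun a b x hx x1 => eq_bot_iff.2 fun y hy =>
    (reg y x (a.elt hy.1) (b.elt hx) (mem_C1.1 hy.2) |>.resolve_right x1)
  have r32 : ∀ {K R : Subgroup G}, PiGrp {3} K → PiGrp {2} R → Semireg K R := fun a b x hx x1 => eq_bot_iff.2 fun y hy =>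
    (reg x y (b.elt hx) (a.elt hy.1) (mem_C1.1 hy.2).symm |>.resolve_left x1)
  by_cases e : O[{3}]((⊤ : Subgroup G)) = ⊥
  · have hs := H21.solv_paqb Nat.prime_two Nat.prime_three hG
    have c := cent_sub_pcore hs (eq_bot_iff.2 ((le_pcore pcore_nml (three pcore_pi)).trans e.le))
    have n1 : O[{2}]((⊤ : Subgroup G)) ≠ ⊥ := fun e => by
      rw [e, C_bot, inf_idem] at c
      simp [mem_bot.1 (c (mem_top u))] at u4
    have pρ : PiElt {3} ρ := show PiNat _ _ from ρ3.symm ▸ piNat_self Nat.prime_three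
    have ρ1 : ρ ≠ 1 := by rintro rfl; simp at ρ3
    obtain ⟨T, hT, l⟩ := exists_sylow_le Nat.prime_three pρ.zpowers le_top
    obtain ⟨x, rfl⟩ := ((H23.semireg_pgroup Nat.prime_three hT.pi (le_top.trans pcore_nml.norm) n1 (r23 pcore_pi hT.pi)).resolve_right
      fun ⟨n, x, y, q⟩ => by simpa using hT.pi 2 Nat.prime_two ⟨2 * 2 ^ (n + 1), by rw [q.card_eq]; ring⟩).gen
    have eT : zpowers ρ = zpowers x := eq_of_card_ge l (by
      rw [card_zpowers', card_zpowers', ρ3]
      exact Nat.le_of_dvd three_pos (orderOf_dvd_of_pow_eq_one (p3 x (hT.pi.elt (mem_zpowers x)))))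
    rw [← eT] at hT
    have cρ : C1(ρ) = zpowers ρ := (hT.eq_of_le (zpowers_le.2 C1_self) le_top (three (piGrp_of_prime_elt fun y hy a b =>
      (reg y ρ (show PiNat _ _ from (show orderOf y = 2 from b).symm ▸ piNat_self Nat.prime_two) pρ (mem_C1.1 hy)).elim
        (fun e => by simp [e] at b) ρ1)))
    have pN : PiGrp {2} (pPrimeCore 3 G) := two (pPrimeCore_eq (G := G) Nat.prime_three ▸ pcore_pi)
    generalize hN : pPrimeCore 3 G = N at pN
    have nN : N.Normal := hN ▸ inferInstance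
    have f := r23 pN hT.pi ρ (mem_zpowers ρ) ρ1
    have f' : ∀ y : N, MulAut.conjNormal ρ y = y → y = 1 := fun y e => Subtype.ext (eq_one_of_eq_bot f
      ⟨y.2, mem_C1.2 (mul_inv_eq_iff_eq_mul.1 (congrArg Subtype.val e)).symm⟩)
    have ρ3' : ρ * ρ * ρ = 1 := by rw [← pow_three', p3 ρ pρ]
    have cl := (S3779.result Nat.prime_three (MulAut.conjNormal (H := N) ρ) (orderOf_eq_prime (by rw [← map_pow, p3 ρ pρ, map_one]) fun e => n1
      (eq_bot_iff.2 fun y hy => congrArg Subtype.val (f' ⟨y, hN ▸ pPrimeCore_eq (G := G) Nat.prime_three ▸ pcore_sub (by simp) hy⟩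
        (by rw [e]; rfl)))) f').2.1 rfl
    have := pN.nil
    have h4 : ∀ y : N, y ^ 4 = 1 := fun y => Subtype.ext (p2 _ (pN.elt y.2))
    have d : ∀ {p}, p.Prime → p ∣ Nat.card G → p = 2 ∨ p = 3 := fun a b => hG _ a (card_top (G := G) ▸ b)
    refine ⟨N, nN, ?_⟩
    subst hN
    rcases H2.ft3 ⟨ρ3, cρ⟩ with ⟨-, i | ⟨⟨i⟩⟩⟩ | ⟨-, ⟨i⟩⟩ | ⟨⟨i⟩⟩
    · refine Or.inl ⟨pN.isPGroup, ?_, Subgroup.lowerCentralSeries_eq_bot_iff_nilpotencyClass_le.1 cl, i⟩
      have : u ∈ pPrimeCore 3 G := pu.mem_of_nml (mem_top u) nml_top (by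
        rw [relIndex_top_right, index, i]; exact (piNat_self Nat.prime_three).p'_of_ne (by decide))
      exact Nat.dvd_antisymm (Monoid.exponent_dvd_of_forall_pow_eq_one h4) (u4 ▸ orderOf_coe ⟨u, this⟩ ▸ Monoid.order_dvd_exponent _)
    · obtain ⟨t, ht, tc⟩ : ∃ t ∈ ⊤ ⊓ N(zpowers ρ), t ∉ C(zpowers ρ) := SetLike.not_le_iff_exists.1 fun e => by
        have := (Burnside_normal_complement Nat.prime_three hT e).idx 2 Nat.prime_two (by
          rw [← pPrimeCore_eq Nat.prime_three, relIndex_top_right, index, Nat.card_congr i.toEquiv, Nat.card_perm]; simp; decide)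
        simp at this
      rw [C_zpowers] at tc
      have m : ∀ y ∈ zpowers ρ, y = 1 ∨ y = ρ ∨ y = ρ * ρ := fun y hy => by
        obtain ⟨n, hn, rfl⟩ := (mem_zpowers_iff_mem_range_orderOf.1 hy |> Finset.mem_image.1)
        rw [ρ3, Finset.mem_range] at hn
        interval_cases n <;> simp [sq]
      have tρ : t * ρ * t⁻¹ = ρ * ρ := ((m _ (conj_mem_N ht.2 (mem_zpowers ρ))).resolve_left (by simpa)).resolve_left
        fun e => tc (mem_C1.2 (mul_inv_eq_iff_eq_mul.1 e))
      have t2 : t * t = 1 := by_contra fun e => tc (C_zpowers.le (by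
        rw [← zpowers_eq_of_prime (by rw [card_zpowers', ρ3]; decide) (cρ.le (mem_C1.2 ?_)) e, C_zpowers]
        · exact mem_C1.2 (mul_assoc _ _ _).symm
        · rw [← mul_inv_eq_iff_eq_mul, show t * t * ρ * (t * t)⁻¹ = t * (t * ρ * t⁻¹) * t⁻¹ by group, tρ, ← conj_mul, tρ, ← mul_assoc, ρ3', one_mul]))
      have pt : PiElt {2} t := piElt_of_pow_eq_one Nat.prime_two (sq t ▸ t2)
      have s := sq1 (MulAut.conjNormal (H := pPrimeCore 3 G) ρ) (MulAut.conjNormal t) (fun x y => mem_center_iff.2 fun z =>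
        (commutatorElement_eq_one_iff_mul_comm.1 (mem_bot.1 (cl.le (commutator_mem_commutator (commutator_mem_commutator (mem_top x) (mem_top y))
          (mem_top z))))).symm) (fun y => Subtype.ext (GT.fpf3 (norm_of_normal (mem_top ρ)) f (ρ3' ▸ one_mem _) y.2)) f'
        (fun y => commutatorElement_eq_one_iff_mul_comm.2 (Subtype.ext (GT.fpf3_comm (norm_of_normal (mem_top ρ)) f (ρ3' ▸ one_mem _) y.2)))
        (fun y => Subtype.ext (by
          have := p2 _ ((pN.sup_norm' pt.zpowers norm_of_normal).elt (mul_mem_sup' y.2 (mem_zpowers t)))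
          simpa [inv_eq_of_mul_eq_one_right t2, pow_succ, mul_assoc] using this))
        (fun y => by rw [← MulAut.mul_apply, ← map_mul, mul_inv_eq_iff_eq_mul.1 tρ, map_mul, map_mul]; rfl)
        (fun y => by rw [← MulAut.mul_apply, ← MulAut.mul_apply, ← map_mul, ← map_mul, ρ3', map_one]; rfl) h4
      refine Or.inr (Or.inl ⟨⟨IsMulCommutative.of_comm fun a b => ?_, fun a ha => congrArg Subtype.val (s ⟨a, ha⟩)⟩, ⟨i⟩⟩)
      have w := fun y : pPrimeCore 3 G => inv_eq_of_mul_eq_one_right (sq y ▸ s y)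
      rw [← w (a * b), mul_inv_rev, w, w]
    · have := d Nat.prime_five (Dvd.dvd.trans (by rw [Nat.card_congr i.toEquiv, H2.T3.card_a5]; decide) (card_quotient_dvd_card _))
      omega
    · have := d Nat.prime_seven (by rw [Nat.card_congr i.toEquiv, H2.T3.card_l27]; decide)
      omega
  obtain ⟨t, ht, t2⟩ := cauchy Nat.prime_two (hS.dvd_card_p Nat.prime_two (Dvd.dvd.trans (by rw [u4]; decide) (H18.orderOf_dvd_card (mem_top u))))
  have t1 : t ≠ 1 := by rintro rfl; simp at t2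
  replace t2 : t * t = 1 := by rw [← sq, ← t2, pow_orderOf_eq_one]
  have nK := (pcore_nml (π := {3}) (H := (⊤ : Subgroup G))).normal
  have c : C(O[{3}]((⊤ : Subgroup G))) ≤ O[{3}](⊤) := le_pcore nml_top (three (piGrp_of_prime_elt fun y hy a b => by
    obtain ⟨x, hx, x1⟩ := exists_mem_ne_one' e
    exact (reg y x (show PiNat _ _ from (show orderOf y = 2 from b).symm ▸ piNat_self Nat.prime_two) (pcore_pi.elt hx)
      (mem_C.1 hy x hx).symm).elim (fun e => by simp [e] at b) x1))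
  have i := fun x => H23.inverts_of_reg (x := x) (norm_of_normal (K := O[{3}]((⊤ : Subgroup G))) (mem_top t)) (r32 pcore_pi hS.pi t ht t1) t2
  have k : ∀ g, t * g * t⁻¹ * g⁻¹ ∈ O[{3}]((⊤ : Subgroup G)) := fun g => c (mem_C.2 fun x hx => by
    have a := i _ (nK.conj_mem' x hx g)
    have b := i _ (inv_mem hx)
    rw [inv_eq_of_mul_eq_one_right t2] at a b ⊢
    calc _ = t * (t * x⁻¹ * t)⁻¹ * g * t * g⁻¹ := by simp [inv_eq_of_mul_eq_one_right t2, ← mul_assoc, t2, mul_assoc _ t t]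
      _ = t * g * (g⁻¹ * x * g)⁻¹ * t * g⁻¹ := by rw [b]; group
      _ = _ := by rw [← a]; simp [mul_assoc, t2, ← mul_assoc t t])
  have nT : t ∈ N(T) := mem_N_of_finite fun y hy => by simpa using mul_mem (hT.pcore_le (k y)) hy
  have eT : T = O[{3}](⊤) := le_antisymm (fun y hy => by
    have := k y
    rwa [H23.inverts_of_reg nT (r32 hT.pi hS.pi t ht t1) t2 hy, ← mul_inv_rev, inv_mem_iff, eq_inv_of_mul_eq_one_left
      ((pow_three' y).symm.trans (p3 y (hT.pi.elt hy))), inv_mem_iff] at this) hT.pcore_le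
  have n : T.Normal := eT ▸ nK
  have q := (isComplement'_of_disjoint_and_mul_eq_univ (disjoint_iff.2 (hS.inf_compl hT')) (by
    rw [← mul_normal, hS.sup_compl hT']; rfl)).QuotientMulEquiv
  refine ⟨T, n, Or.inr (Or.inr ⟨⟨(H23.abel_of_reg_invol nT (r32 hT.pi hS.pi t ht t1) t2).comm, fun a ha => p3 a (hT.pi.elt ha)⟩, ?_⟩)⟩
  refine (H23.semireg_pgroup Nat.prime_two hS.pi norm_of_normal e (r32 pcore_pi hS.pi)).imp (fun a => ⟨@isCyclic_of_surjective _ _ _ _ _ a _ _ _ q.symm.surjective, ?_⟩)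
    fun ⟨m, x, y, a⟩ => ?_
  · obtain ⟨x, rfl⟩ := Cyc.gen a
    rw [index, Nat.card_congr q.toEquiv]
    exact Nat.dvd_antisymm (card_zpowers' (x := x) ▸ orderOf_dvd_of_pow_eq_one (p2 x (hS.pi.elt (mem_zpowers x))))
      (hS.dvd_of_piNat (piNat_pow_self Nat.prime_two 2) (u4 ▸ H18.orderOf_dvd_card (mem_top u)))
  · obtain rfl : m = 0 := by have := (o x).2; rw [a.ordx, pow_succ] at this; have := Nat.lt_two_pow_self (n := m); omega
    exact a.nonempty_equiv.map q.trans

end Cfsg.Agent.S4006
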