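import Cfsg.Statements.S4198
import Cfsg.Agent.H23.Spec

set_option autoImplicit false
open Cfsg

namespace Cfsg.Agent.S4198

open Equiv Equiv.Perm Subgroup

def CT (n : ℕ) : Set (Multiset ℕ) := {m | m.sum ≤ n ∧ ∀ a ∈ m, 2 ≤ a}

theorem ct_sub (n : ℕ) : CT (n + 2) ⊆ CT (n + 1) ∪ (fun m => (n + 2 - m.sum) ::ₘ m) '' CT n := fun m ⟨h1, h2⟩ => by
  rcases h1.eq_or_lt with e | e
  · obtain ⟨a, ha⟩ := Multiset.exists_mem_of_ne_zero (s := m) (by rintro rfl; simp at e)
    obtain ⟨s, rfl⟩ := Multiset.exists_cons_of_mem ha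
    have := h2 a ha
    rw [Multiset.sum_cons] at e
    exact Or.inr ⟨s, ⟨by omega, fun b hb => h2 b (Multiset.mem_cons_of_mem hb)⟩, by simp [← e]⟩
  · exact Or.inl ⟨by omega, h2⟩

theorem ct_small {n : ℕ} (h : n ≤ 1) : CT n ⊆ {0} := fun m ⟨h1, h2⟩ => Multiset.eq_zero_of_forall_notMem fun a ha => by
  have := Multiset.le_sum_of_mem ha
  have := h2 a ha
  omega

theorem ct_le (n : ℕ) : (CT n).Finite ∧ (CT n).ncard ≤ Nat.fib (n + 1) := by
  induction n using Nat.twoStepInduction with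
  | zero => exact ⟨(Set.finite_singleton _).subset (ct_small (by omega)), by simpa using Set.ncard_le_ncard (ct_small (n := 0) (by omega))⟩
  | one => exact ⟨(Set.finite_singleton _).subset (ct_small le_rfl), by simpa using Set.ncard_le_ncard (ct_small le_rfl)⟩
  | more n h1 h2 =>
    have a := h2.1.union (h1.1.image fun m => (n + 2 - m.sum) ::ₘ m)
    refine ⟨a.subset (ct_sub n), (Set.ncard_le_ncard (ct_sub n) a).trans ((Set.ncard_union_le _ _).trans ?_)⟩
    have := Set.ncard_image_le (f := fun m => (n + 2 - m.sum) ::ₘ m) h1.1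
    rw [Nat.fib_add_two]
    omega

theorem mem_ct {n : ℕ} {m : Multiset ℕ} : m ∈ CT n ↔ ∃ g : Perm (Fin n), g.cycleType = m := by
  rw [exists_with_cycleType_iff, Fintype.card_fin]; rfl

theorem card_cc (n : ℕ) : Nat.card (ConjClasses (Perm (Fin n))) = (CT n).ncard :=
  Nat.card_congr (Equiv.ofBijective (Quotient.lift (fun g : Perm (Fin n) => (⟨g.cycleType, mem_ct.2 ⟨g, rfl⟩⟩ : CT n)) fun _ _ h => Subtype.ext (isConj_iff_cycleType_eq.1 h))
    ⟨fun x y => Quotient.inductionOn₂ x y fun _ _ h => Quotient.sound (isConj_iff_cycleType_eq.2 (by simpa using h)),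
      fun m => (mem_ct.1 m.2).elim fun g e => ⟨⟦g⟧, Subtype.ext e⟩⟩)

/-- For n ≥ 5 the alternating group of degree n has strictly fewer conjugacy classes than the symmetric group of degree n, and the symmetric group of degree n (whose classes correspond to the partitions of n) has at most 2^(n−2) conjugacy classes. -/
theorem result (n : ℕ) (hn : 5 ≤ n) : Nat.card (ConjClasses (alternatingGroup (Fin n))) < Nat.card (ConjClasses (Equiv.Perm (Fin n))) ∧ Nat.card (ConjClasses (Equiv.Perm (Fin n))) ≤ 2 ^ (n - 2) := by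
  classical
  rw [card_cc]
  constructor
  swap
  · refine (ct_le n).2.trans ?_
    induction hn with
    | refl => decide
    | @step m h ih =>
      have := Nat.fib_le_fib_succ (n := m)
      rw [Nat.fib_add_two, show m.succ - 2 = m - 2 + 1 by have : 5 ≤ m := h; omega, pow_succ]
      omega
  let τ : ConjClasses (alternatingGroup (Fin n)) → Multiset ℕ := fun C => C.out.1.cycleType
  have a0 : ∀ {C D : ConjClasses (alternatingGroup (Fin n))}, IsConj C.out D.out → C = D := fun h => Quotient.out_equiv_out.1 h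
  have a1 : ∀ C, τ C ∈ CT n ∧ Even ((τ C).sum + (τ C).card) := fun C =>
    ⟨mem_ct.2 ⟨_, rfl⟩, (neg_one_pow_eq_one_iff_even (R := ℤˣ) (by decide)).1
      ((sign_of_cycleType _).symm.trans C.out.2)⟩
  have a2 : ∀ C, C ≠ τ.invFun (τ C) → ∃ a s, τ C = a ::ₘ s ∧ Odd a ∧ (∀ b ∈ s, Odd b) ∧ n ≤ a + s.sum + 1 := fun C h => by
    obtain ⟨b1, b2, -⟩ := centralizer_le_alternating_iff.1 (by_contra fun e => h (a0 (H23.isConj_alt
      (isConj_iff_cycleType_eq.2 (Function.invFun_eq (f := τ) ⟨C, rfl⟩).symm) e)))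
    obtain ⟨a, ha⟩ := Multiset.exists_mem_of_ne_zero (s := τ C) fun e => by simp [show C.out.1.cycleType = 0 from e] at b2; omega
    obtain ⟨s, e⟩ := Multiset.exists_cons_of_mem ha
    rw [show C.out.1.cycleType = a ::ₘ s from e] at b1 b2
    exact ⟨a, s, e, b1 a (by simp), fun b hb => b1 b (by simp [hb]), by simpa using b2⟩
  choose! a s b1 b2 b3 b4 using a2
  have a3 : ∀ C, C ≠ τ.invFun (τ C) → (a C - 1) ::ₘ s C ∈ CT n ∧ ¬ Even (((a C - 1) ::ₘ s C).sum + ((a C - 1) ::ₘ s C).card) ∧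
      Even (a C - 1) ∧ 3 ≤ a C := fun C h => by
    obtain ⟨⟨c1, c2⟩, c3⟩ := b1 C h ▸ a1 C
    have := c2 (a C) (by simp)
    have c4 := b2 C h
    simp only [Multiset.sum_cons, Multiset.card_cons, Nat.even_iff, Nat.odd_iff, CT, Set.mem_ofPred, Multiset.forall_mem_cons] at *
    exact ⟨⟨by omega, by omega, c2.2⟩, by omega⟩
  let ψ := fun C => if C = τ.invFun (τ C) then τ C else (a C - 1) ::ₘ s C
  rw [← Set.ncard_univ, ← Set.ncard_image_of_injective _ (show ψ.Injective from fun C D e => ?_)]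
  · refine Set.ncard_lt_ncard ⟨?_, fun e => ?_⟩ (ct_le n).1
    · rintro _ ⟨C, -, rfl⟩
      simp only [ψ]
      split_ifs with h
      exacts [(a1 C).1, (a3 C h).1]
    obtain ⟨C, -, d⟩ := e (show {2} ∈ CT n from ⟨by simp; omega, by simp⟩)
    simp only [ψ] at d
    split_ifs at d with h
    · exact absurd (d ▸ (a1 C).2) (by decide)
    · have := b4 C h
      obtain ⟨d1, d2⟩ := Multiset.singleton_eq_cons_iff _ |>.1 d.symm
      simp [d2] at this
      omega
  simp only [ψ] at e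
  split_ifs at e with h1 h2 h2
  · rw [h1, h2, e]
  · exact absurd (e ▸ (a1 C).2) (a3 D h2).2.1
  · exact absurd (e ▸ (a1 D).2) (a3 C h1).2.1
  have c1 : a C - 1 = a D - 1 := (Multiset.mem_cons.1 (e ▸ Multiset.mem_cons_self _ _)).resolve_right fun d =>
    Nat.not_odd_iff_even.2 (a3 C h1).2.2.1 (b3 D h2 _ d)
  have c2 : τ C = τ D := by
    rw [c1, Multiset.cons_inj_right] at e
    rw [b1 C h1, b1 D h2, e, show a C = a D by
      have := (a3 C h1).2.2.2; have := (a3 D h2).2.2.2; omega]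
  rw [← c2] at h2
  have c3 := Function.invFun_eq (f := τ) ⟨C, rfl⟩
  generalize τ.invFun (τ C) = E at *
  obtain ⟨x, hx⟩ := isConj_iff.1 (isConj_iff_cycleType_eq.2 c3)
  obtain ⟨y, hy⟩ := isConj_iff.1 (isConj_iff_cycleType_eq.2 (c3.trans c2))
  rcases Int.units_eq_one_or (sign x) with d | d
  · exact absurd (a0 (isConj_iff.2 ⟨⟨x, d⟩, Subtype.ext hx⟩)).symm h1
  rcases Int.units_eq_one_or (sign y) with f | f
  · exact absurd (a0 (isConj_iff.2 ⟨⟨y, f⟩, Subtype.ext hy⟩)).symm h2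
  exact a0 (isConj_iff.2 ⟨⟨y * x⁻¹, by simp [d, f]⟩, Subtype.ext (by simp [← hx, ← hy, mul_assoc])⟩)

end Cfsg.Agent.S4198
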