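import Cfsg.Statements.S4207
import Cfsg.Agent.H1.Harv2

set_option autoImplicit false
open Cfsg

namespace Cfsg.Agent.S4207

open H18 Subgroup

/-- Let `P` be a group of order `p^n` whose Frattini subgroup has index `p^r`. Then any group of automorphisms of `P` each of which induces the identity on the Frattini quotient has order dividing `p^(r(n-r))`; in particular it is a `p`-group. -/
theorem result {P : Type*} [Group P] [Finite P] {p n r : ℕ} [Fact p.Prime] (hP : Nat.card P = p ^ n) (hr : (frattini P).index = p ^ r) (A : Subgroup (MulAut P)) (hA : ∀ α ∈ A, ∀ x : P, α x * x⁻¹ ∈ frattini P) : Nat.card A ∣ p ^ (r * (n - r)) := by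
  have hp : p.Prime := Fact.out
  have hG : IsPGroup p P := .of_card hP
  have hc := (frattini P).card_mul_index
  rw [hr, hP] at hc
  have hle : r ≤ n := (Nat.pow_dvd_pow_iff_le_right hp.one_lt).1 (Dvd.intro_left _ hc)
  have hΦ : Nat.card (frattini P) = p ^ (n - r) :=
    Nat.eq_of_mul_eq_mul_right (pow_pos hp.pos r) (by rw [hc, ← pow_add, Nat.sub_add_cancel hle])
  obtain ⟨x, hx⟩ : Nonempty (H1.Gen (frattini P) r) := by
    refine (Nat.card_pos_iff.1 ?_).1
    rw [H1.card_gen hG le_rfl hr, hP, hΦ]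
    exact Finset.prod_pos fun i hi => Nat.sub_pos_of_lt (by
      rw [← pow_add]; exact Nat.pow_lt_pow_right hp.one_lt (by have := Finset.mem_range.1 hi; omega))
  let S : SubMulAction A (Fin r → P) := ⟨{v | ∀ i, v i * (x i)⁻¹ ∈ frattini P}, fun α v hv i => by
    show (α : MulAut P) (v i) * _ ∈ _
    simpa [mul_assoc] using mul_mem (hA α α.2 (v i)) (hv i)⟩
  have := H1.card_dvd_of_free S fun v hv α h => Subtype.ext (H1.eq_one_of_gen (v := v) (eq_top_iff.2 (hx.ge.trans
    (sup_le le_sup_left ((closure_le _).2 ?_)))) h)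
  · rwa [Nat.card_congr (α := S) (β := Fin r → frattini P) ⟨fun v i => ⟨v.1 i * (x i)⁻¹, (show ∀ i, v.1 i * (x i)⁻¹ ∈ frattini P from v.2) i⟩, fun w => ⟨fun i => w i * x i, fun i => by simp⟩,
      fun v => Subtype.ext (funext fun i => inv_mul_cancel_right _ _), fun w => funext fun i => Subtype.ext (mul_inv_cancel_right _ _)⟩, Nat.card_fun, hΦ, ← pow_mul,
      Nat.card_fin, mul_comm] at this
  · rintro _ ⟨i, rfl⟩
    simpa using mul_mem_sup' (inv_mem (hv i)) (subset_closure (k := Set.range v) ⟨i, rfl⟩)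

end Cfsg.Agent.S4207
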