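import Cfsg.Statements.S4213
import Cfsg.Agent.H1.Basic
import Cfsg.Agent.H22.Frobenius

set_option autoImplicit false
open Cfsg

namespace Cfsg.Agent.S4213

universe u

theorem aux (N : ℕ) : ∀ (G : Type u) [Group G] [Finite G] [Group.IsSolvable G], Nat.card G = N →
    ∀ n : ℕ, n ∣ Nat.card G → Nat.card {x : G // x ^ n = 1} = n →
      ∃ L : Subgroup G, Nat.card L = n := by
  induction N using Nat.strong_induction_on with
  | _ N ih =>
  intro G _ _ _ hN n hn hc
  rcases subsingleton_or_nontrivial G with hs | hs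
  · refine ⟨⊥, ?_⟩
    have h1 : Nat.card G = 1 := Nat.card_eq_one_iff_unique.2 ⟨hs, ⟨1⟩⟩
    rw [h1] at hn
    rw [Subgroup.card_bot, Nat.dvd_one.1 hn]
  obtain ⟨K, p, hKn, hK0, hp, -, hKp, hKP, -⟩ := H1.exists_normal_elementary G
  haveI := Fact.mk hp
  have hGK : Nat.card G = Nat.card (G ⧸ K) * Nat.card K :=
    Subgroup.card_eq_card_quotient_mul_card_subgroup K
  have hK1 : 1 < Nat.card K := (Subgroup.one_lt_card_iff_ne_bot K).2 hK0
  have hlt : Nat.card (G ⧸ K) < N := by
    have : 0 < Nat.card (G ⧸ K) := Nat.card_pos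
    rw [← hN, hGK]; nlinarith
  have hn0 : 0 < n := Nat.pos_of_dvd_of_pos hn Nat.card_pos
  obtain ⟨k, hk⟩ := IsPGroup.iff_card.1 hKP
  have hpK : p ∣ Nat.card K := by
    rw [hk]; refine dvd_pow_self p ?_
    rintro rfl; rw [hk] at hK1; simp at hK1
  by_cases hpn : p ∣ n
  · set d := Nat.gcd n (Nat.card K) with hd
    have hd0 : 0 < d := Nat.gcd_pos_of_pos_left _ hn0
    obtain ⟨u, hu⟩ : d ∣ n := Nat.gcd_dvd_left _ _
    obtain ⟨w, hw⟩ : d ∣ Nat.card K := Nat.gcd_dvd_right _ _
    have hcop : Nat.Coprime u w := by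
      have : Nat.gcd (d * u) (d * w) = d := by rw [← hu, ← hw]
      rw [Nat.gcd_mul_left] at this
      exact Nat.eq_of_mul_eq_mul_left hd0 (by rw [this, mul_one])
    have hu0 : 0 < u := by
      rcases Nat.eq_zero_or_pos u with h | h
      · rw [h, mul_zero] at hu; omega
      · exact h
    have hud : u ∣ Nat.card (G ⧸ K) := by
      rw [hGK, hu, hw, ← mul_assoc, mul_comm (Nat.card (G ⧸ K)) d, mul_assoc] at hn
      exact hcop.dvd_of_dvd_mul_right (Nat.dvd_of_mul_dvd_mul_left hd0 hn)
    have hpd : p ∣ d := Nat.dvd_gcd hpn hpK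
    have hfr := H22.frobenius_dvd_card_pow_eq_one hud
    set c := Nat.card {y : G ⧸ K // y ^ u = 1} with hcdef
    have hc0 : 0 < c := by
      haveI : Nonempty {y : G ⧸ K // y ^ u = 1} := ⟨⟨1, one_pow u⟩⟩
      exact Nat.card_pos
    have huc : u ≤ c := Nat.le_of_dvd hc0 hfr
    -- preimage count
    have hle : c * Nat.card K ≤ n := by
      rw [← hc, hcdef, ← Nat.card_prod]
      let f : {y : G ⧸ K // y ^ u = 1} × K → {x : G // x ^ n = 1} := fun q =>
        ⟨q.1.1.out * q.2, by
          have h1 : (q.1.1.out * (q.2 : G)) ^ u ∈ K := by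
            rw [← QuotientGroup.eq_one_iff, QuotientGroup.mk_pow, QuotientGroup.mk_mul,
              QuotientGroup.out_eq', (QuotientGroup.eq_one_iff _).2 q.2.2, mul_one]
            exact q.1.2
          obtain ⟨e, he⟩ := hpd
          rw [hu, he, show p * e * u = u * p * e by ring, pow_mul, pow_mul, hKp _ h1, one_pow]⟩
      refine Nat.card_le_card_of_injective f ?_
      rintro ⟨⟨a, ha⟩, b⟩ ⟨⟨a', ha'⟩, b'⟩ h
      have h1 : a.out * (b : G) = a'.out * (b' : G) := congrArg Subtype.val h
      have h2 : a = a' := by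
        have := congrArg (QuotientGroup.mk (s := K)) h1
        rwa [QuotientGroup.mk_mul, QuotientGroup.mk_mul, QuotientGroup.out_eq',
          QuotientGroup.out_eq', (QuotientGroup.eq_one_iff _).2 b.2,
          (QuotientGroup.eq_one_iff _).2 b'.2, mul_one, mul_one] at this
      subst h2
      have h3 : b = b' := Subtype.ext (mul_left_cancel h1)
      rw [h3]
    have hw0 : 0 < w := by
      rcases Nat.eq_zero_or_pos w with h | h
      · rw [h, mul_zero] at hw; omega
      · exact h
    have hcu : c = u ∧ w = 1 := by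
      rw [hw, hu] at hle
      have h1 : c * w ≤ u := by
        have : d * (c * w) ≤ d * u := by nlinarith
        exact Nat.le_of_mul_le_mul_left this hd0
      constructor <;> nlinarith
    obtain ⟨L, hL⟩ := ih _ hlt (G ⧸ K) rfl u hud hcu.1
    refine ⟨L.comap (QuotientGroup.mk' K), ?_⟩
    rw [H1.card_comap_mk', hL, hw, hcu.2, hu]; ring
  · have hcop : Nat.Coprime n (Nat.card K) := by
      rw [hk]; exact ((Nat.Prime.coprime_iff_not_dvd hp).2 hpn).symm.pow_right k
    have hnd : n ∣ Nat.card (G ⧸ K) := by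
      rw [hGK] at hn; exact hcop.dvd_of_dvd_mul_right hn
    have hfr := H22.frobenius_dvd_card_pow_eq_one hnd
    have hc0 : 0 < Nat.card {y : G ⧸ K // y ^ n = 1} := by
      haveI : Nonempty {y : G ⧸ K // y ^ n = 1} := ⟨⟨1, one_pow n⟩⟩
      exact Nat.card_pos
    have hle : Nat.card {y : G ⧸ K // y ^ n = 1} ≤ n := by
      conv_rhs => rw [← hc]
      let f : {x : G // x ^ n = 1} → {y : G ⧸ K // y ^ n = 1} := fun x =>
        ⟨(x.1 : G ⧸ K), by rw [← QuotientGroup.mk_pow, x.2, QuotientGroup.mk_one]⟩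
      refine Nat.card_le_card_of_surjective f ?_
      rintro ⟨y, hy⟩
      obtain ⟨x, rfl⟩ := QuotientGroup.mk_surjective y
      have hxK : x ^ n ∈ K := by
        rw [← QuotientGroup.eq_one_iff, QuotientGroup.mk_pow]; exact hy
      have hcp : Nat.Coprime p n := (Nat.Prime.coprime_iff_not_dvd hp).2 hpn
      obtain ⟨a, ha1, ha2⟩ := Nat.chineseRemainder hcp 0 1
      have hpa : p ∣ a := (Nat.modEq_zero_iff_dvd).1 ha1
      refine ⟨⟨x ^ a, ?_⟩, ?_⟩
      · obtain ⟨e, rfl⟩ := hpa
        rw [← pow_mul, show p * e * n = n * p * e by ring, pow_mul, pow_mul, hKp _ hxK, one_pow]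
      · apply Subtype.ext
        change ((x ^ a : G) : G ⧸ K) = (x : G ⧸ K)
        rw [QuotientGroup.mk_pow]
        have : (x : G ⧸ K) ^ a = (x : G ⧸ K) ^ 1 :=
          pow_eq_pow_iff_modEq.2 (ha2.of_dvd (orderOf_dvd_of_pow_eq_one hy))
        rw [this, pow_one]
    have hcn : Nat.card {y : G ⧸ K // y ^ n = 1} = n := le_antisymm hle (Nat.le_of_dvd hc0 hfr)
    obtain ⟨L, hL⟩ := ih _ hlt (G ⧸ K) rfl n hnd hcn
    set H := L.comap (QuotientGroup.mk' K) with hH
    have hcH : Nat.card H = n * Nat.card K := by rw [hH, H1.card_comap_mk', hL]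
    have hKH : K ≤ H := by
      intro x hx
      rw [hH, Subgroup.mem_comap, QuotientGroup.mk'_apply, (QuotientGroup.eq_one_iff _).2 hx]
      exact L.one_mem
    have hcK : Nat.card (K.subgroupOf H) = Nat.card K :=
      Nat.card_congr (Subgroup.subgroupOfEquivOfLe hKH).toEquiv
    have hidx : (K.subgroupOf H).index = n := by
      have := (K.subgroupOf H).card_mul_index
      rw [hcK, hcH, mul_comm n] at this
      exact Nat.eq_of_mul_eq_mul_left (by omega) this
    obtain ⟨M, hM⟩ := Subgroup.exists_right_complement'_of_coprime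
      (N := K.subgroupOf H) (by rw [hcK, hidx]; exact hcop.symm)
    refine ⟨M.map H.subtype, ?_⟩
    rw [Subgroup.card_map_of_injective H.subtype_injective, ← hM.symm.index_eq_card, hidx]

/-- If `G` is a finite solvable group and `n` divides the order of `G` and exactly `n` elements `x` of `G` satisfy `x^n = 1`, then these elements form a normal subgroup. -/
theorem result {G : Type*} [Group G] [Finite G] [Group.IsSolvable G] (n : ℕ) (hn : n ∣ Nat.card G) (hcount : Nat.card {x : G // x ^ n = 1} = n) : ∃ H : Subgroup G, H.Normal ∧ (H : Set G) = {x : G | x ^ n = 1} := by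
  obtain ⟨L, hL⟩ := aux _ G rfl n hn hcount
  have hsub : (L : Set G) ⊆ {x : G | x ^ n = 1} := by
    intro x hx
    have := pow_card_eq_one' (x := (⟨x, hx⟩ : L))
    rw [hL] at this
    exact congrArg Subtype.val this
  have heq : (L : Set G) = {x : G | x ^ n = 1} := by
    refine Set.eq_of_subset_of_ncard_le hsub ?_ (Set.toFinite _)
    rw [← Nat.card_coe_set_eq, ← Nat.card_coe_set_eq]
    exact le_of_eq (hcount.trans hL.symm)
  refine ⟨L, ⟨fun x hx g => ?_⟩, heq⟩
  have h1 : x ∈ (L : Set G) := hx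
  rw [heq] at h1
  have h2 : g * x * g⁻¹ ∈ (L : Set G) := by
    rw [heq]
    change (g * x * g⁻¹) ^ n = 1
    rw [conj_pow, h1, mul_one, mul_inv_cancel]
  exact h2

end Cfsg.Agent.S4213
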