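import Cfsg.Statements.S4214
import Cfsg.Agent.H1.Harv1

set_option autoImplicit false
open Cfsg

namespace Cfsg.Agent.S4214

open H18 Subgroup

/-- Let `G` be a finite solvable group of order `mn` with `gcd(m, n) = 1`. Then the number of subgroups of order `m` is a product of natural numbers each of which is a power of a prime, divides the order of some chief factor of `G` (a quotient `L/K` of normal subgroups `K < L` of `G` with no normal subgroup of `G` strictly between them), and is congruent to `1` modulo some prime divisor of `m`. -/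
theorem result {G : Type*} [Group G] [Finite G] [Group.IsSolvable G] (m n : ℕ) (hG : Nat.card G = m * n) (hmn : Nat.Coprime m n) : ∃ (k : ℕ) (f : Fin k → ℕ), Nat.card {H : Subgroup G // Nat.card H = m} = ∏ i, f i ∧ ∀ i, (∃ q e : ℕ, q.Prime ∧ f i = q ^ e) ∧ (∃ K L : Subgroup G, K.Normal ∧ L.Normal ∧ K < L ∧ (∀ M : Subgroup G, M.Normal → K ≤ M → M ≤ L → M = K ∨ M = L) ∧ f i ∣ K.relIndex L) ∧ (∃ q : ℕ, q.Prime ∧ q ∣ m ∧ f i ≡ 1 [MOD q]) := by
  have h0 : m ≠ 0 := left_ne_zero_of_mul (hG ▸ Nat.card_pos.ne')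
  have e : ∀ K : Subgroup G, Nat.card K = m ↔ Hall (primes m) K ⊤ := fun K =>
    (H1.hall_iff_card le_top (by rw [card_top, hG]) hmn h0).symm
  obtain ⟨H, hH⟩ := H23.hall_exists (primes m) (solv_of_solv (H := (⊤ : Subgroup G)))
  obtain ⟨l, h1, h2⟩ := H1.exists_list_hall solv_of_solv hH
  refine ⟨l.length, fun i => l[i.1], ?_, fun i => ?_⟩
  · simp only [e]
    rw [H1.card_hall_eq solv_of_solv hH, ← h1, Fin.prod_univ_getElem]
  obtain ⟨⟨r, hr, a⟩, ⟨W, U, hc, d⟩, q, hq, b, c⟩ := h2 l[i.1] (List.getElem_mem _)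
  obtain ⟨k, hk⟩ := a.eq_pow (ne_zero_of_dvd_ne_zero H18.relIndex_ne_zero d)
  exact ⟨⟨r, k, hr, hk⟩, ⟨W, U, hc.nmlV.normal, hc.nmlU.normal, hc.lt,
    fun M _ x y => hc.eq_or_eq x y norm_of_normal, d⟩, q, hq, (e H).2 hH ▸ b, c⟩

end Cfsg.Agent.S4214
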