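import Cfsg.Statements.S4216
import Cfsg.Agent.H1.Harv2

set_option autoImplicit false
open Cfsg

namespace Cfsg.Agent.S4216

open H18 Subgroup
open scoped commutatorElement

/-- Grün's first Theorem: if `P` is a Sylow `p`-subgroup of the finite group `G`, then `P ∩ G'` is the subgroup generated by `P ∩ N_G(P)'` together with the subgroups `P ∩ z P' z⁻¹` for all `z ∈ G`, where `'` denotes the derived subgroup and `N_G(P)` the normalizer of `P`. -/
theorem result {G : Type*} [Group G] [Finite G] {p : ℕ} [Fact p.Prime] (P : Sylow p G) : (P : Subgroup G) ⊓ commutator G = ((P : Subgroup G) ⊓ ⁅Subgroup.normalizer ((P : Subgroup G) : Set G), Subgroup.normalizer ((P : Subgroup G) : Set G)⁆) ⊔ ⨆ z : G, (P : Subgroup G) ⊓ (⁅(P : Subgroup G), (P : Subgroup G)⁆).map (MulAut.conj z).toMonoidHom := by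
  have hp : p.Prime := Fact.out
  refine le_antisymm ?_ (sup_le (inf_le_inf_left _ (comm_mono le_top le_top)) (iSup_le fun z => inf_le_inf_left _
    (by rw [← cj_def, cj_comm]; exact comm_mono le_top le_top)))
  rw [inf_comm]
  generalize hK : (_ ⊔ _ : Subgroup G) = K
  have c : ∀ a x : G, a⁻¹ * (x⁻¹ * a * x) = ⁅a⁻¹, x⁻¹⁆ := fun a x => by rw [commutatorElement_def]; group
  refine H3.commutator_inf_sylow_le P fun x hx g hg => ?_
  simpa using H1.alperin_tame_p P (fun A g => ∀ a ∈ A, a⁻¹ * (g⁻¹ * a * g) ∈ K) (fun A B g h1 h2 a ha => h2 a (h1 ha))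
    (fun A B g h h1 h2 h3 a ha => by simpa [mul_assoc] using mul_mem (h2 a ha) (h3 _ (h1 a ha)))
    (fun x hx a ha => hK ▸ mem_sup_left (mem_inf.2 ⟨mul_mem (inv_mem ha) (conj_mem_N' hx ha),
      c a x ▸ commutator_mem_commutator (inv_mem (le_N ha)) (inv_mem hx)⟩))
    (fun Q D e h1 h2 x hx h3 a ha => by
      have hD : D ≤ P := e ▸ inf_le_left
      obtain ⟨z, b, d⟩ := sylow_le_cj' hp (⟨inf_le_right, (hall_sylow_top hp P).pi.inf_left, (piNat_compl_iff hp).2 h1.3⟩ :
        Hall {p} ((P : Subgroup G) ⊓ N(D)) N(D)) h3.zpowers (zpowers_le.2 hx)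
      refine hK ▸ mem_sup_right (mem_iSup_of_mem z (mem_inf.2 ⟨mul_mem (inv_mem (hD ha)) (hD (conj_mem_N' hx ha)), ?_⟩))
      rw [← cj_def, cj_comm, c]
      exact commutator_mem_commutator (inv_mem (mem_cj.2 (hD (conj_mem_N' b ha))))
        (inv_mem (cj_mono inf_le_left (d (mem_zpowers x)))))
    (zpowers x) (zpowers_le.2 hx) g⁻¹ (fun a ha => by
      simpa using zpowers_le.2 hg (cj_zpowers (g := g) (x := x) ▸ conj_mem_cj (g := g) ha)) x (mem_zpowers x)

end Cfsg.Agent.S4216
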