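import Cfsg.Statements.S4217
import Cfsg.Agent.H2.Gaschutz
import Cfsg.Agent.H1.Harv1

set_option autoImplicit false
open Cfsg

namespace Cfsg.Agent.S4217

open H18 Subgroup

/-- Let `A` be an abelian normal subgroup of the finite group `G`. Then `A` has a complement in `G` if and only if, for every prime `p` dividing the index of `A`, there are a Sylow `p`-subgroup `S` of `G/A` and a subgroup `K` of `G` with `K ∩ A = 1` and `KA` equal to the preimage of `S` (that is, `A` has a complement in the preimage of a Sylow `p`-subgroup of `G/A`). -/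
theorem result {G : Type*} [Group G] [Finite G] (A : Subgroup G) [A.Normal] (hA : IsMulCommutative A) : (∃ K : Subgroup G, K.IsComplement' A) ↔ ∀ p : ℕ, p.Prime → p ∣ A.index → ∃ (S : Sylow p (G ⧸ A)) (K : Subgroup G), K ⊓ A = ⊥ ∧ K ⊔ A = (S : Subgroup (G ⧸ A)).comap (QuotientGroup.mk' A) := by
  classical
  refine ⟨fun ⟨K, h⟩ p hp _ => ?_, fun h => ?_⟩
  · haveI : Fact p.Prime := ⟨hp⟩
    obtain ⟨S⟩ : Nonempty (Sylow p (G ⧸ A)) := inferInstance
    have := (sd_of_isComplement' h.symm).inf_right (H1.le_comap_mk' A S) le_top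
    exact ⟨S, _, this.inf', this.sup'⟩
  have hA' := abel_of_comm hA
  have one : ∀ q : ℕ, q.Prime → ∃ H : Subgroup G, PiGrp {q}ᶜ (A ⊓ H) ∧ H.index ∣ Nat.card A ∧ PiNat {q} H.index := by
    intro q hq
    haveI : Fact q.Prime := ⟨hq⟩
    obtain ⟨K, a, b⟩ : ∃ K : Subgroup G, K ⊓ A = ⊥ ∧ ¬ q ∣ (K ⊔ A).index := by
      by_cases e : q ∣ A.index
      · obtain ⟨S, K, a, b⟩ := h q hq e
        exact ⟨K, a, by rw [b, index_comap_of_surjective _ (QuotientGroup.mk'_surjective A)]; exact S.not_dvd_index⟩
      · exact ⟨⊥, by simp, by simpa using e⟩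
    set B := O[{q}ᶜ](A)
    haveI : B.Normal := (nml_top (K := A)).pcore.normal
    have hB : Hall {q}ᶜ B A := hA'.nil.pcore_hall
    have c : Nat.card (mim (topq B) A) = B.relIndex A := by rw [card_mim le_top, mker_topq]
    haveI : (mim (topq B) A).Normal := Nml.normal (mim_topq_top B ▸ (nml_top (K := A)).mim)
    haveI := (hA'.mim (f := topq B)).comm
    have k : mker (topq B) ≤ A := by rw [mker_topq]; exact hB.le
    obtain ⟨H, hH⟩ := H2.gaschutz_exists (mim (topq B) A) (mim (topq B) (K ⊔ A)) (mim_mono le_sup_right)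
      (PiNat.coprime (π := {q}) (c ▸ hB.idx.of_compl_compl) (by
        rw [← relIndex_top_right, ← mim_topq_top B, relIndex_mim le_top le_rfl (inf_le_right.trans (k.trans le_sup_right)),
          relIndex_top_right]; exact (piNat_compl_iff hq).2 b)) (mim (topq B) K)
      (by rw [← mim_inf le_top k, a, mim_bot]) (by rw [mim_sup le_top le_top, sup_comm])
    have i : (mpre (topq B) H).index = B.relIndex A := by
      rw [mpre_topq, index_comap_of_surjective _ (QuotientGroup.mk'_surjective B), hH.index_eq_card, c]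
    refine ⟨mpre (topq B) H, hB.pi.of_le ?_, i ▸ relIndex_dvd, i ▸ hB.idx.of_compl_compl⟩
    refine ((mim_eq_bot_iff (f := topq B) le_top).1 ?_).trans (mker_topq B).le
    rw [mim_inf_mpre, (sd_of_isComplement' hH).inf]
  have key : ∀ s : Finset ℕ, (∀ q ∈ s, q.Prime) →
      ∃ H : Subgroup G, PiGrp (s : Set ℕ)ᶜ (A ⊓ H) ∧ H.index ∣ Nat.card A ∧ PiNat s H.index := fun s => by
    induction s using Finset.induction_on with
    | empty => exact fun _ => ⟨⊤, by simpa using piNat_univ, by simp, by simpa using PiNat.one⟩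
    | insert q s hq ih =>
      intro hs
      obtain ⟨H, a, b, c⟩ := ih fun r hr => hs r (Finset.mem_insert_of_mem hr)
      obtain ⟨L, d, e, f⟩ := one q (hs q (Finset.mem_insert_self _ _))
      have co : H.index.Coprime L.index := c.coprime (f.of_p hq)
      refine ⟨H ⊓ L, ((a.of_le (inf_le_inf_left _ inf_le_left)).inter (d.of_le (inf_le_inf_left _ inf_le_right))).sub
        fun r hr => by simpa [and_comm] using hr, ?_, ?_⟩ <;> rw [H1.index_inf_of_coprime co]
      · exact co.mul_dvd_of_dvd_of_dvd b e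
      · exact (c.sub (by simp)).mul (f.of_p (by simp))
  obtain ⟨H, a, b, -⟩ := key (Nat.card A).primeFactors fun q => Nat.prime_of_mem_primeFactors
  have d : A ⊓ H = ⊥ := PiGrp.eq_bot (fun q x y => Nat.mem_primeFactors.2 ⟨x, y.trans (card_dvd inf_le_left), card_ne_zero'⟩) a
  exact ⟨H, (sd_of_card nml_top le_top d (by
    rw [card_top, ← H.index_mul_card]; exact Nat.mul_le_mul_right _ (Nat.le_of_dvd card_pos' b))).isComplement'.symm⟩

end Cfsg.Agent.S4217
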