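import Cfsg.Statements.S4218
import Cfsg.Agent.H1.Harv3

set_option autoImplicit false
open Cfsg

namespace Cfsg.Agent.S4218

open H18 Subgroup H1
open scoped commutatorElement

/-- Let `G` be a finite `p`-solvable group, `N₀ = O_{p'}(G)`, `P₁ = O_{p',p}(G)`, and let `F ≤ P₁` be the preimage of the Frattini subgroup of `P₁/N₀`. Then an element `g` of `G` induces the identity on `P₁/F` by conjugation (that is, `g x g⁻¹ x⁻¹ ∈ F` for all `x ∈ P₁`) if and only if `g ∈ P₁`: the group `G/P₁` acts faithfully on `P₁/F`. -/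
theorem result {G : Type*} [Group G] [Finite G] {p : ℕ} [Fact p.Prime] (hG : Cfsg.IsPSolvable p G) (g : G) : (∀ x ∈ Cfsg.pPrimePCore p G, g * x * g⁻¹ * x⁻¹ ∈ ((frattini (↥(Cfsg.pPrimePCore p G) ⧸ (Cfsg.pPrimeCore p G).subgroupOf (Cfsg.pPrimePCore p G))).comap (QuotientGroup.mk' ((Cfsg.pPrimeCore p G).subgroupOf (Cfsg.pPrimePCore p G)))).map (Cfsg.pPrimePCore p G).subtype) ↔ g ∈ Cfsg.pPrimePCore p G := by
  have hp : p.Prime := Fact.out
  set f := QuotientGroup.mk' ((pPrimeCore p G).subgroupOf (pPrimePCore p G))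
  have e1 := pPrimePCore_eq (G := G) hp
  have e2 := pPrimeCore_eq (G := G) hp
  set O := O[{p}ᶜ]((⊤ : Subgroup G))
  obtain ⟨T, hT⟩ := exists_sylow hp (pPrimePCore p G)
  have hT' : Hall {p} T O2[{p}ᶜ,{p}]((⊤ : Subgroup G)) := e1 ▸ hT
  have k : mker f = O := by
    rw [mker, mpre, MonoidHom.comap_bot, QuotientGroup.ker_mk', subgroupOf_map_subtype, e2, e1]
    exact inf_eq_left.2 pcore_le_pcore2
  have t : mim f T = ⊤ := by
    rw [← mim_sup_mker hT.le, k, sup_comm, hT'.sup_pcore2, ← e1, mim, subgroupOf_self,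
      map_top_of_surjective _ (QuotientGroup.mk'_surjective _)]
  have F : ((frattini _).comap f).map (pPrimePCore p G).subtype = qpre O Φ(O[{p}](⊤ ⫽ O)) := by
    rw [← phi_top, ← t, ← hT.pi.mim_phi hp hT.le, ← hT'.quo_pcore2, ← hT.pi.mim_phi hp (le_top.trans pcore_nml.norm),
      qpre_quo (le_top.trans pcore_nml.norm)]
    exact (mpre_mim (phi_le.trans hT.le)).trans (by rw [k])
  have n : ∀ A : Subgroup G, A ≤ N(O) := fun A => le_top.trans pcore_nml.norm
  rw [F, e1]
  refine ⟨fun h => zpowers_le.1 ((le_pcore2_iff le_top).2 (le_pcore_of_comm_le_phi hp (PiSep.cent_pcore_le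
    ((isPSolvable_iff_piSep hp).1 hG).mim pcore_quo_pcore) (mim_mono le_top) ?_)), fun h x hx => ?_⟩
  · rw [comm_comm, mim_zpowers (n _ (mem_top g))]
    refine comm_zpowers_le (pcore_nml.phi.norm (mfun_mem_mim (mem_top g))) phi_nml.norm fun y hy => ?_
    obtain ⟨x, hx, rfl⟩ := (mem_quo (n _)).1 (quo_pcore2.ge hy)
    rw [← mfun_comm (n _ (mem_top _)) (n _ (mem_top _))]
    exact (mem_mpre.1 (h x hx)).2
  · exact mem_mpre.2 ⟨n _ (mem_top _), by
      rw [← commutatorElement_def, mfun_comm (n _ (mem_top _)) (n _ (mem_top _))]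
      exact pcore_pi.der_le_phi hp (commutator_mem_commutator (mem_mpre.1 h).2 (mem_mpre.1 hx).2)⟩

end Cfsg.Agent.S4218
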