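import Cfsg.Statements.S4219
import Cfsg.Agent.H2.Syl

set_option autoImplicit false
open Cfsg

namespace Cfsg.Agent.S4219

open scoped Pointwise

/-- Let a finite group `G` act `t`-fold transitively on a finite set, let `H` be the stabilizer of `t` distinct points and `P` a Sylow `p`-subgroup of `H`. Then the normalizer of `P` in `G` is `t`-fold transitive on the fixed points of `P`: any `t` distinct fixed points of `P` can be carried to any other `t` distinct fixed points of `P` by an element normalizing `P`. -/
theorem result {G : Type*} [Group G] [Finite G] {α : Type*} [Fintype α] [MulAction G α] {t : ℕ} (hG : MulAction.IsMultiplyPretransitive G α t) (x : Fin t ↪ α) {p : ℕ} [Fact p.Prime] (P : Sylow p (MulAction.stabilizer G x)) (a b : Fin t ↪ α) (ha : ∀ i, a i ∈ MulAction.fixedPoints ((P : Subgroup (MulAction.stabilizer G x)).map (MulAction.stabilizer G x).subtype) α) (hb : ∀ i, b i ∈ MulAction.fixedPoints ((P : Subgroup (MulAction.stabilizer G x)).map (MulAction.stabilizer G x).subtype) α) : ∃ g ∈ Subgroup.normalizer ((((P : Subgroup (MulAction.stabilizer G x)).map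 (MulAction.stabilizer G x).subtype) : Subgroup G) : Set G), g • a = b := by
  have := hG
  set R := ((P : Subgroup (MulAction.stabilizer G x)).map (MulAction.stabilizer G x).subtype) with hR
  have hS : H2.SylIn p R (MulAction.stabilizer G x) := H2.sylIn_map_subtype P
  have key : ∀ c : Fin t ↪ α, (∀ i, c i ∈ MulAction.fixedPoints R α) →
      H2.SylIn p R (MulAction.stabilizer G c) := by
    intro c hc
    obtain ⟨g, rfl⟩ := MulAction.exists_smul_eq G x c
    apply H2.sylIn_of_card
    · intro r hr
      rw [MulAction.mem_stabilizer_iff]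
      ext i
      exact hc i ⟨r, hr⟩
    · rw [hS.card, MulAction.stabilizer_smul_eq_stabilizer_map_conj, ← H2.conj_eq_map, H2.card_conj]
  obtain ⟨g, hg⟩ := MulAction.exists_smul_eq G a b
  have h1 := (key a ha).conj g
  rw [H2.conj_eq_map g (MulAction.stabilizer G a),
    ← MulAction.stabilizer_smul_eq_stabilizer_map_conj, hg] at h1
  obtain ⟨k, hk, hk2⟩ := h1.exists_conj (key b hb)
  rw [H2.conj_conj, H2.conj_eq_iff] at hk2
  exact ⟨k * g, hk2, by rw [mul_smul, hg]; exact hk⟩

end Cfsg.Agent.S4219
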