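import Cfsg.Statements.S4221
import Cfsg.Agent.H21.Hall4
import Cfsg.Agent.S0415
import Cfsg.Agent.S0418

set_option autoImplicit false
open Cfsg

namespace Cfsg.Agent.S4221

open MulAction H21 Equiv

theorem emb {α : Type*} {a b c d : α} (h : D4 a b c d) : ∃ y : Fin 4 ↪ α, y 0 = a ∧ y 1 = b ∧ y 2 = c ∧ y 3 = d :=
  ⟨⟨![a, b, c, d], fun i j e => by
    unfold D4 at h
    fin_cases i <;> fin_cases j <;> simp at e ⊢ <;> grind⟩, rfl, rfl, rfl, rfl⟩

theorem mem_st {G α : Type*} [Group G] [MulAction G α] {y : Fin 4 ↪ α} {g : G} :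
    g ∈ stabilizer G y ↔ g • y 0 = y 0 ∧ g • y 1 = y 1 ∧ g • y 2 = y 2 ∧ g • y 3 = y 3 := by
  rw [mem_stabilizer_iff, Function.Embedding.ext_iff]
  simp [Fin.forall_fin_succ, Function.Embedding.smul_apply]

theorem d4 {α : Type*} (y : Fin 4 ↪ α) : D4 (y 0) (y 1) (y 2) (y 3) := by simp [D4]

/-- Let `G` be a `4`-fold transitive permutation group on a finite set of `n` points in which the pointwise stabilizer of some four distinct points has odd order. Then `n = 4` or `n = 5` with `G` the full symmetric group, or `n = 6` or `n = 7` with `G` the alternating group, or `n = 11` and `G` has order `7920`. -/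
theorem result {α : Type*} [Fintype α] [DecidableEq α] (G : Subgroup (Equiv.Perm α)) (hG : MulAction.IsMultiplyPretransitive G α 4) (x : Fin 4 ↪ α) (hodd : Odd (Nat.card (MulAction.stabilizer G x))) : ((Fintype.card α = 4 ∨ Fintype.card α = 5) ∧ G = ⊤) ∨ ((Fintype.card α = 6 ∨ Fintype.card α = 7) ∧ G = alternatingGroup α) ∨ (Fintype.card α = 11 ∧ Nat.card G = 7920) := by
  have hc : ∀ y : Fin 4 ↪ α, Nat.card (stabilizer G y) = Nat.card (stabilizer G x) := fun y => by
    obtain ⟨g, rfl⟩ := hG.exists_smul_eq x y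
    exact (Nat.card_congr (stabilizerEquivStabilizer rfl).toEquiv).symm
  have H : H4 G α (Nat.card (stabilizer G x)) := ⟨hodd, fun h h' => by
    obtain ⟨y, rfl, rfl, rfl, rfl⟩ := emb h
    obtain ⟨y', rfl, rfl, rfl, rfl⟩ := emb h'
    obtain ⟨g, rfl⟩ := hG.exists_smul_eq y y'
    exact ⟨g, rfl, rfl, rfl, rfl⟩, fun {_ _ _ _ g} h h1 h2 h3 h4 => by
    obtain ⟨y, rfl, rfl, rfl, rfl⟩ := emb h
    exact hc y ▸ congrArg Subtype.val (pow_card_eq_one' (x := (⟨g, mem_st.2 ⟨h1, h2, h3, h4⟩⟩ : stabilizer G y))),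
    fun g h => Subtype.ext (Equiv.ext h)⟩
  have h4 : 4 ≤ Fintype.card α := by simpa using Fintype.card_le_of_embedding x
  have hA : 6 ≤ Fintype.card α → alternatingGroup α ≤ G → G = alternatingGroup α := fun h6 h => by
    by_contra hne
    obtain ⟨u, hu⟩ := H4.fresh {x 0, x 1, x 2, x 3} (lt_of_le_of_lt Finset.card_le_four (by omega))
    obtain ⟨v, hv⟩ := H4.fresh (insert u {x 0, x 1, x 2, x 3})
      (lt_of_le_of_lt ((Finset.card_insert_le _ _).trans (Nat.succ_le_succ Finset.card_le_four)) (by omega))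
    simp only [Finset.mem_insert, Finset.mem_singleton, not_or] at hu hv
    have : Nontrivial α := ⟨u, v, Ne.symm hv.1⟩
    have h1 : G = ⊤ := by
      have h2 := Subgroup.index_dvd_of_le h
      rw [alternatingGroup.index_eq_two] at h2
      exact Subgroup.index_eq_one.1 (((Nat.dvd_prime Nat.prime_two).1 h2).resolve_right fun e =>
        hne (Perm.eq_alternatingGroup_of_index_eq_two e))
    have h3 := H.inv4 (t := ⟨swap u v, h1 ▸ Subgroup.mem_top _⟩) (Subtype.ext (swap_mul_self u v)) (d4 x)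
      (swap_apply_of_ne_of_ne (Ne.symm hu.1) (Ne.symm hv.2.1)) (swap_apply_of_ne_of_ne (Ne.symm hu.2.1) (Ne.symm hv.2.2.1))
      (swap_apply_of_ne_of_ne (Ne.symm hu.2.2.1) (Ne.symm hv.2.2.2.1))
      (swap_apply_of_ne_of_ne (Ne.symm hu.2.2.2) (Ne.symm hv.2.2.2.2))
    exact hv.1 (swap_eq_one_iff.1 (congrArg Subtype.val h3)).symm
  have hS : stabilizer G x = ⊥ → ∀ y : Fin 4 ↪ α, stabilizer G y = ⊥ := fun h y =>
    Subgroup.card_eq_one.1 ((hc y).trans (Subgroup.card_eq_one.2 h))
  rcases (by omega : Fintype.card α = 4 ∨ Fintype.card α = 5 ∨ Fintype.card α = 6 ∨ Fintype.card α = 7 ∨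
    8 ≤ Fintype.card α) with h | h | h | h | h
  · exact .inl ⟨.inl h, Perm.eq_top_of_isMultiplyPretransitive (isMultiplyPretransitive_of_le (n := 4)
      (by simp [h]) (by simp [h]))⟩
  · exact .inl ⟨.inr h, Perm.eq_top_of_isMultiplyPretransitive (by simpa [h] using hG)⟩
  · exact .inr (.inl ⟨.inl h, hA h.ge (IsMultiplyPretransitive.alternatingGroup_le α G (by simpa [h] using hG))⟩)
  · refine .inr (.inl ⟨.inr h, hA (by omega) ?_⟩)
    obtain ⟨⟨g, hg⟩, g0⟩ := Subgroup.ne_bot_iff_exists_ne_one.1 fun e => by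
      have := S0415.result G h4 (hS e)
      omega
    have g1 : g.1 ≠ 1 := fun e => g0 (Subtype.ext (Subtype.ext e))
    have : IsMultiplyPretransitive G α 2 := isMultiplyPretransitive_of_le (n := 4) (by simp) (by simp [h])
    refine Perm.alternatingGroup_le_of_isPreprimitive_of_isThreeCycle_mem
      (isPreprimitive_of_is_two_pretransitive this) (card_support_eq_three_iff.1 ?_) g.2
    replace hg := mem_st.1 hg
    have h1 := Finset.card_le_card (show g.1.support ⊆ (Finset.univ.map x)ᶜ from fun y hy => by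
      simp only [Finset.mem_compl, Finset.mem_map, Finset.mem_univ, true_and, not_exists]
      rintro i rfl
      refine Perm.mem_support.1 hy ?_
      fin_cases i
      exacts [hg.1, hg.2.1, hg.2.2.1, hg.2.2.2])
    rw [Finset.card_compl, Finset.card_map, Finset.card_univ, h, Fintype.card_fin] at h1
    have h2 := Perm.two_le_card_support_of_ne_one g1
    refine le_antisymm h1 (lt_of_le_of_ne h2 fun e => ?_)
    obtain ⟨u, v, -, h3⟩ := Perm.card_support_eq_two.1 e.symm
    exact g0 (Subtype.ext (H.inv4 (Subtype.ext (by simp [h3])) (d4 x) hg.1 hg.2.1 hg.2.2.1 hg.2.2.2))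
  · have h1 := hS (eq_bot_iff.2 fun g hg => by
      replace hg := mem_st.1 hg
      refine H.sharp h (d4 x) (fun hD hk k k1 k2 k3 k4 => ?_) hg.1 hg.2.1 hg.2.2.1 hg.2.2.2
      obtain ⟨y, rfl, rfl, rfl, rfl⟩ := emb hD
      have := Subgroup.eq_of_le_of_card_ge (show stabilizer G y ≤ stabilizer G x from fun g hg =>
        mem_st.2 (hk g (mem_st.1 hg).1 (mem_st.1 hg).2.1 (mem_st.1 hg).2.2.1 (mem_st.1 hg).2.2.2)) (hc y).ge
      exact (mem_st.1 (this ▸ mem_st.2 ⟨k1, k2, k3, k4⟩ : k ∈ stabilizer G y)).2.2.1)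
    have h2 : Fintype.card α = 11 := by
      have := S0415.result G h4 h1
      omega
    exact .inr (.inr ⟨h2, (S0418.result h2 G h1).2⟩)

end Cfsg.Agent.S4221
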