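import Cfsg.Statements.S4223
import Mathlib

set_option autoImplicit false
open Cfsg

namespace Cfsg.Agent.S4223

theorem idem {M : Type*} [Monoid M] [Finite M] (f : M) : ∃ n, f ^ (n + 1) * f ^ (n + 1) = f ^ (n + 1) := by
  obtain ⟨a, b, h, e⟩ := Finite.exists_ne_map_eq_of_infinite (f ^ · : ℕ → M)
  wlog hl : a < b generalizing a b
  · exact this b a h.symm e.symm (by omega)
  obtain ⟨d, rfl⟩ := Nat.exists_eq_add_of_lt hl
  have k : ∀ k, f ^ (a + k * (d + 1)) = f ^ a := fun k => by
    induction k with
    | zero => simp
    | succ k ih => rw [add_mul, one_mul, ← add_assoc, pow_add, ih, ← pow_add, ← add_assoc, ← e]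
  refine ⟨a * (d + 1) + d, ?_⟩
  rw [← pow_add, show a * (d + 1) + d + 1 + (a * (d + 1) + d + 1) = a + (a + 1) * (d + 1) + (a * d + d + 1) by ring,
    pow_add, k, ← pow_add]
  congr 1
  ring

/-- normal endomorphisms -/
def NE {A : Type*} [Group A] (f : A →* A) : Prop := ∀ g x, f (g * x * g⁻¹) = g * f x * g⁻¹

/-- nontrivial indecomposable groups -/
def Ind (A : Type*) [Group A] : Prop :=
  Nontrivial A ∧ ∀ H K : Subgroup A, H.Normal → K.Normal → H ⊓ K = ⊥ → H ⊔ K = ⊤ → H = ⊥ ∨ K = ⊥

theorem fit {A : Type*} [Group A] [Finite A] (hA : Ind A) {f : A →* A} (hf : NE f) (h : ∀ n, ∃ x, f^[n] x ≠ 1) :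
    Function.Injective f := by
  have : Finite (Monoid.End A) := Finite.of_injective _ DFunLike.coe_injective
  obtain ⟨n, e⟩ := idem (M := Monoid.End A) f
  obtain ⟨p, c, e⟩ : ∃ p : A →* A, ⇑p = f^[n + 1] ∧ ∀ x, p (p x) = p x :=
    ⟨_, Monoid.End.coe_pow A f (n + 1), DFunLike.congr_fun e⟩
  have hp : ∀ g x, p (g * x * g⁻¹) = g * p x * g⁻¹ := fun g x => by
    rw [c]
    generalize n + 1 = k
    induction k with
    | zero => rfl
    | succ k ih => rw [Function.iterate_succ_apply', Function.iterate_succ_apply', ih, hf]
  rcases hA.2 p.ker p.range inferInstance ⟨by rintro _ ⟨x, rfl⟩ g; exact ⟨_, hp g x⟩⟩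
    (eq_bot_iff.2 (by rintro _ ⟨h, x, rfl⟩; exact (e x).symm.trans h)) (top_le_iff.1 fun x _ => by
      simpa using Subgroup.mul_mem_sup (show x * (p x)⁻¹ ∈ p.ker by simp [e]) (show p x ∈ p.range from ⟨x, rfl⟩))
    with k | k
  · exact Function.Injective.of_comp (f := f^[n]) (c ▸ p.ker_eq_bot_iff.1 k :)
  · obtain ⟨x, hx⟩ := h (n + 1)
    exact absurd (k.le ⟨x, congrFun c x⟩) hx

/-- restriction of the coordinates to a set -/
noncomputable def res {κ : Type*} (B : κ → Type*) [∀ j, Group (B j)] (s : Finset κ) : (∀ j, B j) →* ∀ j, B j :=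
  open Classical in MonoidHom.pi fun j => if j ∈ s then Pi.evalMonoidHom B j else 1

theorem res_ne {κ : Type*} (B : κ → Type*) [∀ j, Group (B j)] (s : Finset κ) : NE (res B s) := fun g x =>
  funext fun j => by by_cases h : j ∈ s <;> simp [res, h]

theorem ne_comp {A G : Type*} [Group A] [Group G] {i : A →* G} {p : G →* A} (h : ∀ x, p (i x) = x) {f : G →* G}
    (hf : NE f) : NE (p.comp (f.comp i)) := fun g x => by simp only [MonoidHom.comp_apply, map_mul i, map_inv i, hf _ _, map_mul p, map_inv p, h]

theorem ex {A κ : Type*} {B : κ → Type*} [Group A] [Finite A] [∀ j, Group (B j)] (hA : Ind A) (i : A →* ∀ j, B j)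
    (p : (∀ j, B j) →* A) (h : ∀ x, p (i x) = x) (s : Finset κ) (hs : Function.Injective (p.comp ((res B s).comp i))) :
    ∃ j, Function.Injective (p.comp ((res B {j}).comp i)) := by
  classical
  induction s using Finset.induction_on with
  | empty =>
    have := hA.1
    obtain ⟨x, hx⟩ := exists_ne (1 : A)
    exact absurd (hs (a₂ := 1) (congrArg p (funext fun j => by simp [res]))) hx
  | insert j s hj ih =>
    refine by_contra fun c => c (ih ((injective_iff_map_eq_one _).2 fun x hx => by_contra fun h1 => c ⟨j, ?_⟩))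
    let θ := MulEquiv.ofBijective _ (Finite.injective_iff_bijective.1 hs)
    have t : NE θ.toMonoidHom := ne_comp h (res_ne B _)
    refine Function.Injective.of_comp (f := θ.symm) (fit hA (f := θ.symm.toMonoidHom.comp _) (fun g x => θ.injective ?_)
      fun n => ⟨x, ?_⟩)
    · exact ((θ.apply_symm_apply _).trans (ne_comp h (res_ne B _) g x)).trans ((t _ _).trans (by simp)).symm
    · rwa [Function.iterate_fixed]
      refine θ.symm_apply_eq.2 ?_
      refine ((mul_one _).symm.trans (congrArg _ hx.symm)).trans
        ((map_mul p _ _).symm.trans (congrArg p (funext fun k => ?_)))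
      by_cases e : k = j
      · simp [res, e, hj]
      · by_cases e' : k ∈ s <;> simp [res, e, e']

/-- If a finite group is isomorphic both to a direct product of `m` directly indecomposable nontrivial groups and to a direct product of `n` such groups (a group is directly indecomposable when it is not the internal direct product of two nontrivial normal subgroups), then `m = n` and the factors are isomorphic in pairs after a suitable matching. -/
theorem result {m n : ℕ} {A : Fin m → Type*} {B : Fin n → Type*} [∀ i, Group (A i)] [∀ j, Group (B j)] [∀ i, Finite (A i)] [∀ j, Finite (B j)] (hA : ∀ i, Nontrivial (A i) ∧ ∀ H K : Subgroup (A i), H.Normal → K.Normal → H ⊓ K = ⊥ → H ⊔ K = ⊤ → H = ⊥ ∨ K = ⊥) (hB : ∀ j, Nontrivial (B j) ∧ ∀ H K : Subgroup (B j), H.Normal → K.Normal → H ⊓ K = ⊥ → H ⊔ K = ⊤ → H = ⊥ ∨ K = ⊥) (e : ((i : Fin m) → A i) ≃* ((j : Fin n) → B j)) : ∃ σ : Fin m ≃ Fin n, ∀ i, Nonempty (A i ≃* B (σ i)) := by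
  induction m generalizing n with
  | zero =>
    cases n with
    | zero => exact ⟨Equiv.refl _, (·.elim0)⟩
    | succ n =>
      have := (hB 0).1
      have := e.symm.injective.nontrivial
      exact absurd this (not_nontrivial _)
  | succ m ih =>
    let i := MonoidHom.mulSingle A 0
    let p := Pi.evalMonoidHom A 0
    obtain ⟨j, hj⟩ := ex (hA 0) (e.toMonoidHom.comp i) (p.comp e.symm.toMonoidHom) (by simp [i, p]) Finset.univ
      fun x y h => by
        have : ∀ x, res B Finset.univ x = x := fun x => funext fun j => by simp [res]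
        simpa [this, i, p] using h
    let i' := MonoidHom.mulSingle B j
    let p' := Pi.evalMonoidHom B j
    let α := p'.comp (e.toMonoidHom.comp i)
    let β := p.comp (e.symm.toMonoidHom.comp i')
    have hj : Function.Injective (β ∘ α) := by
      convert hj using 1
      refine funext fun x => congrArg p (congrArg e.symm (funext fun k => ?_))
      by_cases h : k = j
      · subst h
        simp [res, α, i', p']
      · simp [res, h, i']
    have hβ : Function.Injective β := by
      refine Function.Injective.of_comp (f := α) (fit (hB j) (f := α.comp β) ?_ fun k => ?_)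
      · refine ne_comp (i := i') (p := p') (by simp [i', p']) (f := e.toMonoidHom.comp ((i.comp p).comp e.symm.toMonoidHom))
          fun g x => e.symm.injective (funext fun k => ?_)
        cases k using Fin.cases <;> simp [i, p]
      · have := (hA 0).1
        obtain ⟨x, hx⟩ := exists_ne (1 : A 0)
        refine ⟨α x, fun c => hx (hj.iterate k (hj.of_comp ?_))⟩
        rw [Function.iterate_fixed (x := 1) (by simp), map_one, ← c]
        exact (Function.Semiconj.iterate_right (f := α) (ga := β ∘ α) (gb := α ∘ β) (fun _ => rfl) k).eq x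
    have c0 : Nat.card (A 0) = Nat.card (B j) :=
      (Nat.card_le_card_of_injective _ hj.of_comp).antisymm (Nat.card_le_card_of_injective _ hβ)
    cases n with
    | zero => exact j.elim0
    | succ n =>
    let u : (∀ k : Fin m, A k.succ) →* ∀ k, A k := MonoidHom.mk' (Fin.cons 1) fun x y => funext fun k => by
      cases k using Fin.cases <;> simp
    let φ := (MonoidHom.pi fun k => Pi.evalMonoidHom B (j.succAbove k)).comp (e.toMonoidHom.comp u)
    have hφ : Function.Injective φ := (injective_iff_map_eq_one _).2 fun x hx => by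
      have h1 : e (u x) = i' (e (u x) j) := funext fun k => by
        cases k using Fin.succAboveCases j
        · simp [i']
        · exact (congrFun hx _).trans (by simp [i'])
      have h2 : e (u x) j = 1 := (injective_iff_map_eq_one _).1 hβ _ (show p (e.symm (i' _)) = 1 by rw [← h1]; simp [p, u])
      rw [h2, map_one, map_eq_one_iff _ e.injective] at h1
      exact funext fun k => congrFun h1 k.succ
    obtain ⟨σ, hσ⟩ := ih (fun k => hA k.succ) (fun k => hB (j.succAbove k)) (MulEquiv.ofBijective φ
      ((Nat.bijective_iff_injective_and_card _).2 ⟨hφ, by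
        have := Nat.card_congr e.toEquiv
        rw [Nat.card_pi, Nat.card_pi, Fin.prod_univ_succ, Fin.prod_univ_succAbove _ j, c0] at this
        rw [Nat.card_pi, Nat.card_pi, Nat.eq_of_mul_eq_mul_left Nat.card_pos this]⟩))
    refine ⟨(finSuccEquiv m).trans (σ.optionCongr.trans (finSuccEquiv' j).symm), fun k => ?_⟩
    cases k using Fin.cases
    · exact ⟨MulEquiv.ofBijective α ((Nat.bijective_iff_injective_and_card _).2 ⟨hj.of_comp, c0⟩)⟩
    · exact hσ _

end Cfsg.Agent.S4223
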