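import Cfsg.Statements.S4225
import Cfsg.Agent.H3.Br

set_option autoImplicit false
open Cfsg

namespace Cfsg.Agent.S4225

/-- In a regular `p`-group, for every `k` the elements whose `p^k`-th power is `1` form a characteristic subgroup. -/
theorem result {G : Type*} [Group G] [Finite G] {p : ℕ} [Fact p.Prime] (hG : Cfsg.IsRegularPGroup p G) (k : ℕ) : ∃ H : Subgroup G, H.Characteristic ∧ (H : Set G) = {x : G | x ^ p ^ k = 1} := by
  open Subgroup H18 in
  have hp' : p.Prime := Fact.out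
  obtain ⟨h1, h2⟩ := (H3.isRegular_iff hp').1 hG
  refine ⟨⟨⟨⟨{x : G | x ^ p ^ k = 1}, fun {a b} => h2.mul_pow_eq_one hp' h1 (mem_top a) (mem_top b)⟩, one_pow _⟩,
    fun {a} (h : a ^ p ^ k = 1) => by rw [Set.mem_ofPred_eq, inv_pow, h, inv_one]⟩,
    characteristic_iff_le_comap.2 fun φ x (h : x ^ p ^ k = 1) => ?_, rfl⟩
  show φ x ^ p ^ k = 1
  rw [← map_pow, h, map_one]

end Cfsg.Agent.S4225
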