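import Cfsg.Statements.S4227
import Cfsg.Agent.H18.BG1
import Cfsg.Agent.H5.Central

set_option autoImplicit false
open Cfsg

namespace Cfsg.Agent.S4227

open Subgroup H18
open scoped IsMulCommutative

theorem ring_core {R : Type*} [Ring R] {a b c : R} (h2 : ∀ r : R, r + r = 0 → r = 0) (ha : a * a = 1)
    (hb : b * b = 1) (hab : b * a = a * b) (hca : c * a = b * c) (hcb : c * b = a * b * c)
    (hc : 1 + c + c * c = 0) : a = 1 := by
  have bab : b * (a * b) = a := by rw [← mul_assoc, hab, mul_assoc, hb, mul_one]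
  have e1 : a + b * c + a * b * (c * c) = 0 := by
    rw [← zero_mul a, ← hc, add_mul, add_mul, one_mul, hca, mul_assoc c c, hca, ← mul_assoc c b, hcb, mul_assoc _ c]
  have e2 : b + a * b * c + a * (c * c) = 0 := by
    rw [← zero_mul b, ← hc, add_mul, add_mul, one_mul, hcb, mul_assoc c c, hcb, ← mul_assoc c, ← mul_assoc c, hca,
      mul_assoc b c, hcb, ← mul_assoc b, bab, mul_assoc a c]
  have cc : c * c = -1 - c := by rw [← sub_eq_zero, ← hc]; abel
  rw [cc] at e1 e2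
  have f1 : 1 + a * b * c + b * (-1 - c) = 0 := by
    rw [← mul_zero a, ← e1, mul_add, mul_add, ha, ← mul_assoc a (a * b), ← mul_assoc a a, ha, one_mul, mul_assoc]
  have f2 : 1 + a * c + a * b * (-1 - c) = 0 := by
    rw [← mul_zero b, ← e2, mul_add, mul_add, hb, ← mul_assoc b (a * b), bab, ← mul_assoc b a, hab]
  have g : a = b := by
    rw [← sub_eq_zero]
    apply h2
    linear_combination (norm := noncomm_ring) e1 + f1 - e2 - f2
  subst g
  rw [ha, one_mul] at hcb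
  have i : c * (-1 - c) = 1 := by rw [mul_sub, cc]; noncomm_ring
  have i' : (-1 - c) * c = 1 := by rw [sub_mul, cc]; noncomm_ring
  rw [← one_mul a, ← i', mul_assoc, hcb]

theorem abel_core {X : Type*} [Group X] (V : Subgroup X) [V.Normal] [IsMulCommutative V] (h3 : ∀ v ∈ V, v ^ 3 = 1)
    {s t x : X} (hs : s * s = 1) (ht : t * t = 1) (hst : t * s = s * t) (h1 : x * s = t * x)
    (h2 : x * t = s * t * x) (hx : ∀ v ∈ V, (v * x) ^ 3 = 1) : ∀ v ∈ V, s * v * s⁻¹ = v := by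
  let ρ : X →* AddMonoid.End (Additive V) :=
    { toFun := fun g => MonoidHom.toAdditive (MulAut.conjNormal g : V ≃* V).toMonoidHom
      map_one' := by rw [map_one]; rfl
      map_mul' := fun g h => by rw [map_mul]; rfl }
  have x3 : x * x * x = 1 := by have := hx 1 (one_mem _); rwa [one_mul, pow_succ, sq] at this
  have := ring_core (a := ρ s) (b := ρ t) (c := ρ x) (fun r hr => ?_) (by rw [← map_mul, hs, map_one])
    (by rw [← map_mul, ht, map_one]) (by rw [← map_mul, hst, map_mul]) (by rw [← map_mul, h1, map_mul])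
    (by rw [← map_mul, h2, map_mul, map_mul]) ?_
  · intro v hv
    exact congrArg (fun f : AddMonoid.End (Additive V) => ((f (Additive.ofMul ⟨v, hv⟩)).toMul : X)) this
  · refine AddMonoidHom.ext fun v => ?_
    have e : r v + r v = 0 := DFunLike.congr_fun hr v
    have e3 : r v + r v + r v = 0 := by
      have := h3 _ (r v).toMul.2
      rw [pow_succ, sq] at this
      exact congrArg Additive.ofMul (Subtype.ext this : (r v).toMul * (r v).toMul * (r v).toMul = 1)
    rwa [e, zero_add] at e3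
  · refine AddMonoidHom.ext fun v => ?_
    refine congrArg Additive.ofMul (Subtype.ext ?_ :
      v.toMul * MulAut.conjNormal x v.toMul * MulAut.conjNormal x (MulAut.conjNormal x v.toMul) = 1)
    have := hx _ v.toMul.2
    simp only [coe_mul, MulAut.conjNormal_apply, OneMemClass.coe_one]
    rw [← this, ← mul_one (_ * _ * _), ← x3, pow_succ, sq]
    group

theorem core : ∀ (n : ℕ) {X : Type*} [Group X] [Finite X] (V : Subgroup X) [V.Normal], Nat.card V = n →
    (∀ v ∈ V, v ^ 3 = 1) → ∀ {s t x : X}, s * s = 1 → t * t = 1 → t * s = s * t → x * s = t * x →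
    x * t = s * t * x → (∀ v ∈ V, (v * x) ^ 3 = 1) → ∀ v ∈ V, s * v * s⁻¹ = v := by
  intro n
  induction n using Nat.strong_induction_on with
  | _ n ih =>
  intro X _ _ V _ hn h3 s t x hs ht hst h1 h2 hx v hv
  by_cases hV : V = ⊥
  · rw [hV] at hv; rw [mem_bot.1 hv]; group
  have pV : IsPGroup 3 V := fun y => ⟨1, Subtype.ext (by simpa using h3 y y.2)⟩
  have : Nontrivial V := (nontrivial_iff_ne_bot V).2 hV
  let Z := (center V).map V.subtype
  have zb : Z ≠ ⊥ := fun e => (nontrivial_iff_ne_bot _).1 pV.center_nontrivial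
    ((map_eq_bot_iff_of_injective _ V.subtype_injective).1 e)
  have zV : Z ≤ V := map_subtype_le _
  have : IsMulCommutative Z := inferInstance
  have a := abel_core Z (fun v hv => h3 v (zV hv)) hs ht hst h1 h2 fun v hv => hx v (zV hv)
  let π := QuotientGroup.mk' Z
  have : (V.map π).Normal := Normal.map inferInstance _ (QuotientGroup.mk'_surjective Z)
  have lt : Nat.card (V.map π) < n := by
    rw [H1.card_map_mk', ← hn, ← card_mul_relIndex zV]
    exact lt_mul_of_one_lt_left relIndex_pos ((one_lt_card_iff_ne_bot Z).2 zb)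
  have b := ih _ lt (V.map π) rfl (by rintro _ ⟨y, hy, rfl⟩; rw [← map_pow, h3 y hy, map_one]) (s := π s) (t := π t)
    (x := π x) (by rw [← map_mul, hs, map_one]) (by rw [← map_mul, ht, map_one])
    (by rw [← map_mul, hst, map_mul]) (by rw [← map_mul, h1, map_mul]) (by rw [← map_mul, h2, map_mul, map_mul])
    (by rintro _ ⟨y, hy, rfl⟩; rw [← map_mul, ← map_pow, hx y hy, map_one]) (π v) ⟨v, hv, rfl⟩
  have c : s * v * s⁻¹ * v⁻¹ ∈ Z := by
    rw [← QuotientGroup.eq_one_iff (N := Z)]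
    show π _ = 1
    rw [map_mul, map_mul, map_mul, map_inv, b, map_inv, mul_inv_cancel]
  have d := a _ c
  have e := h3 _ (zV c)
  have si : s⁻¹ = s := inv_eq_of_mul_eq_one_right hs
  have f : (s * v * s⁻¹ * v⁻¹) * (s * v * s⁻¹ * v⁻¹) = 1 := by
    nth_rewrite 2 [← d]
    rw [si]
    calc _ = s * v * s * v⁻¹ * ((s * s) * v * s * v⁻¹ * s) := by group
      _ = s * v * s * v⁻¹ * (1 * v * s * v⁻¹ * s) := by rw [hs]
      _ = s * v * (s * s) * v⁻¹ * s := by simp only [mul_assoc, one_mul, inv_mul_cancel_left]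
      _ = 1 := by rw [hs, mul_one, mul_inv_cancel_right, hs]
  rw [pow_succ, sq, f, one_mul] at e
  exact mul_inv_eq_one.1 e

theorem amb {G : Type*} [Group G] [Finite G] {V : Subgroup G} (h3 : ∀ v ∈ V, v ^ 3 = 1) {s t x : G} (ns : s ∈ N(V))
    (nt : t ∈ N(V)) (nx : x ∈ N(V)) (hs : s * s = 1) (ht : t * t = 1) (hst : t * s = s * t) (h1 : x * s = t * x)
    (h2 : x * t = s * t * x) (hx : ∀ v ∈ V, (v * x) ^ 3 = 1) : s ∈ C(V) := by
  refine mem_centralizer_iff.2 fun v hv => ?_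
  have := core _ (V.subgroupOf N(V)) rfl (fun v hv => Subtype.ext (h3 v hv)) (s := ⟨s, ns⟩) (t := ⟨t, nt⟩)
    (x := ⟨x, nx⟩) (Subtype.ext hs) (Subtype.ext ht) (Subtype.ext hst) (Subtype.ext h1) (Subtype.ext h2)
    (fun v hv => Subtype.ext (hx v hv)) ⟨v, le_normalizer hv⟩ hv
  exact (mul_inv_eq_iff_eq_mul.1 (congrArg Subtype.val this)).symm

theorem pw {G : Type*} [Group G] [Finite G] {S : Subgroup G} {p q : ℕ} (hq : q.Prime) (hpq : q ≠ p) (hS : PiGrp {p} S)
    {x : G} (hx : x ∈ S) (h : x ^ (p * q) = 1) : x ^ p = 1 := by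
  by_contra hn
  have : Fact q.Prime := ⟨hq⟩
  exact hpq (hS.elt (pow_mem hx p) q hq (by rw [orderOf_eq_prime (by rw [← pow_mul, h]) hn]))

theorem ab2 {G : Type*} [Group G] {S : Subgroup G} (h : ∀ x ∈ S, x ^ 2 = 1) {x y : G} (hx : x ∈ S) (hy : y ∈ S) :
    x * y = y * x := by
  have i : ∀ z ∈ S, z⁻¹ = z := fun z hz => inv_eq_of_mul_eq_one_right (by rw [← sq, h z hz])
  rw [← i _ (mul_mem hx hy), mul_inv_rev, i x hx, i y hy]

theorem three {G : Type*} [Group G] [Finite G] {H : Subgroup G} (hs : Solv H) (h0 : O[{3}ᶜ](H) = ⊥)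
    (h : ∀ x ∈ H, x ^ 6 = 1) : PL1 3 H := by
  obtain ⟨S, hS⟩ := exists_sylow Nat.prime_three H
  obtain ⟨T, hT⟩ := exists_sylow Nat.prime_two O2[{2}ᶜ,{2}](H)
  have TH : T ≤ H := hT.le.trans pcore2_le
  have S3 : ∀ x ∈ S, x ^ 3 = 1 := fun x hx => pw Nat.prime_two (by decide) hS.pi hx (h x (hS.le hx))
  have T2 : ∀ x ∈ T, x ^ 2 = 1 := fun x hx => pw Nat.prime_three (by decide) hT.pi hx (h x (TH hx))
  have P3 : PiGrp {3} O[{2}ᶜ](H) := piGrp_of_elt fun x hx r hr hd => by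
    have h1 : r ≠ 2 := (pcore_pi (π := {2}ᶜ) (H := H)).elt hx r hr hd
    have h2 : r ∣ 2 * 3 := hd.trans (orderOf_dvd_of_pow_eq_one (h x (pcore_le hx)))
    exact ((Nat.prime_dvd_prime_iff_eq hr Nat.prime_three).1 (((Nat.Prime.dvd_mul hr).1 h2).resolve_left
      fun e => h1 ((Nat.prime_dvd_prime_iff_eq hr Nat.prime_two).1 e)))
  have c3 : ({3} : Set ℕ) ⊆ {2}ᶜ := by rintro _ rfl; simp
  have e3 : O[{3}](H) = O[{2}ᶜ](H) := le_antisymm (le_pcore pcore_nml (pcore_pi.sub c3)) (le_pcore pcore_nml P3)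
  have PS : O[{2}ᶜ](H) ≤ S := hS.nml_le pcore_nml P3
  refine pl1_of_sylow_le hS (le_trans (fun x hx => ?_) (e3.ge.trans pcore_le_pcore2'))
  obtain ⟨k, hk, n, hn, rfl⟩ := frattini_elt Nat.prime_two hT (pcore2_nml.norm (hS.le hx))
  rw [← hT.sup_pcore2] at hk
  obtain ⟨a, ha, b, hb, rfl⟩ := (pcore_nml.nrm2 TH).mem_sup.1 hk
  rw [mul_assoc] at hx ⊢
  have yN : b * n ∈ N(T) := mul_mem (le_normalizer hb) hn
  generalize b * n = y at hx yN
  have yS : y ∈ S := (mul_mem_cancel_left (PS ha)).1 hx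
  refine mul_mem ha (pcore_hall_pcore2.mem_of_nml pcore_nml_pcore2.norm
    (solvable_p_constrained hs hT ⟨hS.le yS, mem_centralizer_iff.2 fun t ht => ?_⟩) ((hS.pi.elt yS).sub c3))
  have m1 : y * t * y⁻¹ ∈ T := conj_mem_N yN ht
  have m2 : y * (y * t * y⁻¹) * y⁻¹ ∈ T := conj_mem_N yN m1
  have y3 : y * y * y = 1 := by rw [← sq, ← pow_succ, S3 y yS]
  have := amb (V := O[{2}ᶜ](H)) (fun v hv => S3 v (PS hv)) (s := t * (y * t * y⁻¹))
    (t := y * t * y⁻¹ * (y * (y * t * y⁻¹) * y⁻¹)) (x := y) (pcore_nml.norm (TH (mul_mem ht m1)))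
    (pcore_nml.norm (TH (mul_mem m1 m2))) (pcore_nml.norm (hS.le yS)) (by rw [← sq, T2 _ (mul_mem ht m1)])
    (by rw [← sq, T2 _ (mul_mem m1 m2)]) (ab2 T2 (mul_mem m1 m2) (mul_mem ht m1)) (by group)
    (by
      rw [mul_assoc t, ← mul_assoc (y * t * y⁻¹) (y * t * y⁻¹), ← sq, T2 _ m1, one_mul, ab2 T2 ht m2,
        ab2 T2 m1 m2]
      calc _ = (y * y * y) * t * (y * y * y)⁻¹ * (y * (y * t * y⁻¹) * y⁻¹) * y := by group
        _ = t * (y * (y * t * y⁻¹) * y⁻¹) * y := by rw [y3]; group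
        _ = _ := by rw [ab2 T2 ht m2])
    fun v hv => S3 _ (mul_mem (PS hv) yS)
  rw [← e3] at this
  have z : t * (y * t * y⁻¹) ∈ T ⊓ O[{3}](H) := ⟨mul_mem ht m1, cent_sub_pcore hs h0 ⟨TH (mul_mem ht m1), this⟩⟩
  rw [hT.pi.inf_eq_bot (pcore_pi.sub c3), mem_bot] at z
  have tt : t * t = 1 := by rw [← sq, T2 t ht]
  exact (mul_inv_eq_iff_eq_mul.1 (mul_left_cancel (z.trans tt.symm))).symm

/-- A finite group in which every element has order dividing `6` has `2`-length at most `1` and `3`-length at most `1`. -/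
theorem result {G : Type*} [Group G] [Finite G] (h : ∀ x : G, x ^ 6 = 1) : Cfsg.PLengthLE 2 1 G ∧ Cfsg.PLengthLE 3 1 G := by
  have p23 : PiGrp {2, 3} (⊤ : Subgroup G) := piGrp_of_elt fun x _ r hr hd =>
    ((Nat.Prime.dvd_mul hr).1 (hd.trans (orderOf_dvd_of_pow_eq_one (h x)) : r ∣ 2 * 3)).imp
      (Nat.prime_dvd_prime_iff_eq hr Nat.prime_two).1 (Nat.prime_dvd_prime_iff_eq hr Nat.prime_three).1
  have hs : Solv (⊤ : Subgroup G) := by
    obtain ⟨a, b, e, h1, h2⟩ := exists_pi_factor {2} (card_ne_zero' (H := (⊤ : Subgroup G)))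
    have h3 : PiNat {3} b := fun r hr hd => (p23 r hr (e ▸ hd.mul_left a)).resolve_left (h2 r hr hd)
    have h0 := card_ne_zero' (H := (⊤ : Subgroup G))
    rw [e] at h0
    obtain ⟨i, rfl⟩ := h1.eq_pow (left_ne_zero_of_mul h0)
    obtain ⟨j, rfl⟩ := h3.eq_pow (right_ne_zero_of_mul h0)
    exact H5.burnside_paqb Nat.prime_two Nat.prime_three e
  refine ⟨(pl1_top_iff Nat.prime_two).1 ?_, (pl1_top_iff Nat.prime_three).1 ?_⟩
  · obtain ⟨S, hS⟩ := exists_sylow Nat.prime_two (⊤ : Subgroup G)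
    refine pl1_of_sylow_le hS fun x hx => solvable_p_constrained hs (hS.inf_nml pcore2_nml)
      ⟨mem_top x, mem_centralizer_iff.2 fun y hy => ?_⟩
    exact ab2 (fun z hz => pw Nat.prime_three (by decide) hS.pi hz (h z)) hy.1 hx
  · refine pl1_of_quo pcore_nml pcore_pi (three hs.mim pcore_quo_pcore fun z hz => ?_)
    obtain ⟨x, -, hx, rfl⟩ := mem_mim.1 hz
    rw [← mfun_pow hx, h, mfun_one]

end Cfsg.Agent.S4227
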