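import Cfsg.Statements.S4274
import Cfsg.Agent.H6.J1Ord

set_option autoImplicit false
open Cfsg

open H5 H6 Cfsg

namespace Cfsg.Agent.S4274

/-- A finite group of order 175560 = 2³·3·5·7·11·19 is either simple or has a normal Sylow 19-subgroup. -/
theorem result {G : Type*} [Group G] [Finite G] (hG : Nat.card G = 175560) : IsSimpleGroup G ∨ ∀ P : Sylow 19 G, (P : Subgroup G).Normal := by
    refine (H6.Ree.simple_or_normal19 _ G hG dvd_rfl (by norm_num)).imp And.left fun ⟨Q, hQ, c⟩ P => ?_
    rwa [(H6.Ree.hall19 hG.dvd le_top c).eq_of_nml H18.norm_of_normal (H18.hall_sylow_top (by norm_num) P)]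

end Cfsg.Agent.S4274
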