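import Cfsg.Statements.S4275


set_option autoImplicit false
open Cfsg

namespace Cfsg.Agent.S4275

/-- Let G be a transitive group of permutations of a finite set Ω, let o ∈ Ω, and let α be an automorphism of G. Then α is induced by conjugation by a permutation of Ω normalizing G if and only if the image under α of the stabilizer of o fixes some point of Ω. -/
theorem result {Ω : Type*} [Fintype Ω] (G : Subgroup (Equiv.Perm Ω)) (htr : MulAction.IsPretransitive G Ω) (o : Ω) (α : G ≃* G) : (∃ σ : Equiv.Perm Ω, σ ∈ Subgroup.normalizer (G : Set (Equiv.Perm Ω)) ∧ ∀ g : G, ((α g : G) : Equiv.Perm Ω) = σ * (g : Equiv.Perm Ω) * σ⁻¹) ↔ ∃ ω : Ω, ∀ g ∈ (MulAction.stabilizer G o).map α.toMonoidHom, g • ω = ω := by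
  constructor
  · rintro ⟨σ, -, hσ⟩
    refine ⟨σ o, ?_⟩
    rintro _ ⟨g, hg, rfl⟩
    change ((α g : G) : Equiv.Perm Ω) (σ o) = σ o
    have : (g : Equiv.Perm Ω) o = o := hg
    rw [hσ]; simp [this]
  · rintro ⟨ω, hω⟩
    have hle : (MulAction.stabilizer G o).map α.toMonoidHom ≤ MulAction.stabilizer G ω := hω
    have heq : (MulAction.stabilizer G o).map α.toMonoidHom = MulAction.stabilizer G ω := by
      apply Subgroup.eq_of_le_of_card_ge hle
      obtain ⟨g, rfl⟩ := MulAction.exists_smul_eq G o ω
      rw [MulAction.stabilizer_smul_eq_stabilizer_map_conj,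
        Subgroup.card_map_of_injective (MulAut.conj g).injective,
        Subgroup.card_map_of_injective α.injective]
    have hiff : ∀ a b : G, a • o = b • o ↔ α a • ω = α b • ω := by
      intro a b
      rw [← inv_smul_eq_iff, ← mul_smul, ← inv_smul_eq_iff (g := α b), ← mul_smul, ← map_inv,
        ← map_mul, ← MulAction.mem_stabilizer_iff, ← MulAction.mem_stabilizer_iff, ← heq]
      exact (Subgroup.mem_map_iff_mem (f := α.toMonoidHom) α.injective).symm
    choose c hc using fun y => MulAction.exists_smul_eq G o y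
    have hinj : Function.Injective fun y => α (c y) • ω := fun y z h => by
      rw [← hc y, ← hc z]; exact (hiff _ _).2 h
    let σ : Equiv.Perm Ω := Equiv.ofBijective _ hinj.bijective_of_finite
    have hσ : ∀ g : G, ((α g : G) : Equiv.Perm Ω) = σ * (g : Equiv.Perm Ω) * σ⁻¹ := by
      intro g
      rw [eq_mul_inv_iff_mul_eq]
      ext y
      change α g • α (c y) • ω = α (c (g • y)) • ω
      rw [← mul_smul, ← map_mul, ← hiff, mul_smul, hc, hc]
    refine ⟨σ, ?_, hσ⟩
    rw [Subgroup.mem_normalizer_iff]
    intro h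
    constructor
    · intro hh
      rw [← hσ ⟨h, hh⟩]; exact (α ⟨h, hh⟩).2
    · intro hh
      have := hσ (α.symm ⟨_, hh⟩)
      rw [MulEquiv.apply_symm_apply] at this
      have h2 : h = (α.symm ⟨_, hh⟩ : G) := by simpa using this
      rw [h2]; exact (α.symm _).2

end Cfsg.Agent.S4275
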