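import Cfsg.Statements.S4276
import Cfsg.Agent.H2.Link

set_option autoImplicit false
open Cfsg

open MulAction Subgroup

namespace Cfsg.Agent.S4276

/-- Let G be a doubly transitive group of permutations of a finite set Ω of size n, let o ∈ Ω, and let α be an automorphism of G of odd order. Suppose that the image under α of the stabilizer of o has an orbit on Ω whose length k is coprime to n. Then α is induced by conjugation by a permutation of Ω normalizing G, and k = 1 or k = n − 1. -/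
theorem result {Ω : Type*} [Fintype Ω] (G : Subgroup (Equiv.Perm Ω)) (h2 : MulAction.IsMultiplyPretransitive G Ω 2) (o : Ω) (α : MulAut G) (hα : Odd (orderOf α)) (ω : Ω) (hk : (Nat.card (MulAction.orbit ((MulAction.stabilizer G o).map α.toMonoidHom) ω)).Coprime (Fintype.card Ω)) : (∃ σ : Equiv.Perm Ω, σ ∈ Subgroup.normalizer (G : Set (Equiv.Perm Ω)) ∧ ∀ g : G, ((α g : G) : Equiv.Perm Ω) = σ * (g : Equiv.Perm Ω) * σ⁻¹) ∧ (Nat.card (MulAction.orbit ((MulAction.stabilizer G o).map α.toMonoidHom) ω) = 1 ∨ Nat.card (MulAction.orbit ((MulAction.stabilizer G o).map α.toMonoidHom) ω) = Fintype.card Ω - 1) := by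
  classical
  rcases subsingleton_or_nontrivial Ω with hΩ | hΩ
  · exact ⟨⟨1, one_mem _, fun g => Subsingleton.elim _ _⟩, .inl (Nat.card_eq_one_iff_unique.2
      ⟨inferInstance, ⟨⟨ω, mem_orbit_self ω⟩⟩⟩)⟩
  have h : H2.LTwo G.subtype := fun a b c d e e' => is_two_pretransitive_iff.1 h2 e e'
  have hR : H2.LInv (G.subtype.comp α.toMonoidHom) G.subtype
      fun i j => ∃ g : G, (α g) • ω = i ∧ g • o = j := fun g i j => propext
    ⟨fun ⟨x, h1, h2⟩ => ⟨g⁻¹ * x, by rw [map_mul, map_inv, mul_smul, h1]; exact inv_smul_smul (α g) i,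
      by rw [mul_smul, h2]; exact inv_smul_smul g j⟩,
    fun ⟨x, h1, h2⟩ => ⟨g * x, by rw [map_mul, mul_smul, h1]; rfl, by rw [mul_smul, h2]; rfl⟩⟩
  have e : ∀ i, i ∈ orbit ((stabilizer G o).map α.toMonoidHom) ω ↔ ∃ g : G, (α g) • ω = i ∧ g • o = o :=
    fun i => ⟨fun ⟨⟨_, g, hg, rfl⟩, h⟩ => ⟨g, h, hg⟩, fun ⟨g, h, hg⟩ => ⟨⟨_, g, hg, rfl⟩, h⟩⟩
  obtain ⟨σ, hσ⟩ := H2.link_odd h α hα hR o (by
    rwa [← Nat.card_congr (Equiv.subtypeEquivRight e)])
  refine ⟨⟨σ, mem_normalizer_fintype fun g hg => hσ ⟨g, hg⟩ ▸ (α ⟨g, hg⟩).2, hσ⟩, ?_⟩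
  have e2 : ∀ g : G, ∀ x, α g • σ x = σ (g • x) := fun g x => by
    have := congrArg (· (σ x)) (hσ g)
    simpa [Subgroup.smul_def] using this
  obtain ⟨ω, rfl⟩ := σ.surjective ω
  by_cases c : ω = o
  · refine .inl (Nat.card_eq_one_iff_unique.2 ⟨⟨fun x y => Subtype.ext ?_⟩, ⟨⟨_, mem_orbit_self _⟩⟩⟩)
    obtain ⟨g, h1, h2⟩ := (e _).1 x.2
    obtain ⟨g', h3, h4⟩ := (e _).1 y.2
    rw [← h1, ← h3, e2, e2, c, h2, h4]
  · right
    rw [← Fintype.card_subtype_eq (σ o), ← Fintype.card_subtype_compl, ← Nat.card_eq_fintype_card]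
    refine Nat.card_congr (Equiv.subtypeEquivRight fun i => (e i).trans ⟨?_, fun hi => ?_⟩)
    · rintro ⟨g, rfl, hg⟩ h
      rw [e2, σ.injective.eq_iff, ← hg, smul_left_cancel_iff] at h
      exact c h
    · obtain ⟨i, rfl⟩ := σ.surjective i
      obtain ⟨g, h1, h2⟩ := h ω o i o c fun e => hi (e ▸ rfl)
      exact ⟨g, by rw [e2]; exact congrArg σ h1, h2⟩

end Cfsg.Agent.S4276
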