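import Cfsg.Statements.S4277
import Cfsg.Agent.H16.PrimeDeg2
import Cfsg.Agent.H1.FTCor

set_option autoImplicit false
open Cfsg

namespace Cfsg.Agent.S4277

open H18 Subgroup MulAction
open scoped Pointwise commutatorElement

theorem key {G : Type*} [Group G] [Finite G] {H P : Subgroup G} (hp : H.index.Prime) (h2 : H.index ≠ 2) (cP : Nat.card P = H.index)
    (nd : ¬ H.index ∣ Nat.card H) (f : H.normalCore = ⊥) (tr : IsMultiplyPretransitive G (G ⧸ H) 2) (σ : MulAut G) (s2 : ∀ x, σ (σ x) = x)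
    (sP : ∀ y ∈ P, σ y = y) : σ = 1 := by
  classical
  have ab : ∀ x y : P, x * y = y * x := by
    have := Fact.mk hp
    exact (isCyclic_of_prime_card cP).isMulCommutative.is_comm.comm
  have bj : ∀ K : Subgroup G, Nat.card K = Nat.card H → Function.Bijective fun y : P => ((y : G) : G ⧸ K) := fun K e => by
    have i : K.index = H.index := Nat.eq_of_mul_eq_mul_left (card_pos' (H := H)) (by rw [card_mul_index, ← e, card_mul_index])
    refine (Nat.bijective_iff_injective_and_card _).2 ⟨fun x y h => Subtype.ext (inv_mul_eq_one.1 (mem_bot.1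
      ((inf_eq_bot_of_coprime' (A := P) (B := K) (by rwa [cP, e, hp.coprime_iff_not_dvd])).le
        (mem_inf.2 ⟨mul_mem (inv_mem x.2) y.2, QuotientGroup.eq.1 h⟩)))), cP.trans i.symm⟩
  let K := H.map σ.toMonoidHom
  have cK : Nat.card K = Nat.card H := card_map_of_injective σ.injective
  let X : Set (G ⧸ K) := orbit H ((1 : G) : G ⧸ K)
  have mX : ∀ {x : G}, (x : G ⧸ K) ∈ X ↔ ∃ h ∈ H, ∃ k ∈ H, x = h * σ k := fun {x} =>
    ⟨fun ⟨h, e⟩ => by
      obtain ⟨k, hk, e⟩ := QuotientGroup.eq.1 (show ((h * 1 : G) : G ⧸ K) = x from e)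
      exact ⟨h, h.2, k, hk, by simp [show σ k = _ from e]⟩,
    fun ⟨h, hh, k, hk, e⟩ => ⟨⟨h, hh⟩, show ((h * 1 : G) : G ⧸ K) = x from QuotientGroup.eq.2 ⟨k, hk, by simp [e]⟩⟩⟩
  have iX : ∀ {h : G}, h ∈ H → ∀ {b}, h • b ∈ X ↔ b ∈ X := fun {h} hh {b} => 
    ⟨fun e => inv_smul_smul h b ▸ mapsTo_smul_orbit (⟨h, hh⟩⁻¹ : H) _ e, fun e => mapsTo_smul_orbit (⟨h, hh⟩ : H) _ e⟩
  have sy : ∀ y : P, ((y : G) : G ⧸ K) ∈ X → ((y⁻¹ : G) : G ⧸ K) ∈ X := fun y h => by
    obtain ⟨a, ha, b, hb, e⟩ := mX.1 h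
    exact mX.2 ⟨_, inv_mem hb, _, inv_mem ha, by rw [← sP y y.2, e]; simp [s2]⟩
  let B : G → Set (G ⧸ K) := fun g => {b | b ∈ X ∧ g • b ∈ X}
  have c1 : ∀ g ∉ H, ∀ g' ∉ H, (B g).ncard = (B g').ncard := fun g hg g' hg' => by
    have n : ∀ g ∉ H, ((1 : G) : G ⧸ H) ≠ g := fun g hg e => hg (by simpa using QuotientGroup.eq.1 e)
    obtain ⟨h, e1, e2⟩ := is_two_pretransitive_iff.1 tr (n g hg) (n g' hg')
    have a : h ∈ H := by simpa using QuotientGroup.eq.1 (show ((h * 1 : G) : G ⧸ H) = (1 : G) from e1)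
    have b : (h * g)⁻¹ * g' ∈ H := QuotientGroup.eq.1 e2
    rw [← Set.ncard_smul_set ((h * g)⁻¹ * g') (B g')]
    congr 1; ext c
    rw [Set.mem_smul_set_iff_inv_smul_mem]
    simp only [B, Set.mem_ofPred, iX (inv_mem b), smul_smul]
    rw [show g' * ((h * g)⁻¹ * g')⁻¹ = h * g by group, mul_smul, iX a]
  have c2 : ∀ y : P, Odd (B (y⁻¹ * y⁻¹)).ncard ↔ ((y : G) : G ⧸ K) ∈ X := fun y => by
    let A := {x : P // ((x : G) : G ⧸ K) ∈ B (y⁻¹ * y⁻¹)}
    have := Fintype.ofFinite A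
    let r : Function.End A := fun x => ⟨(y⁻¹ * y⁻¹ * x.1)⁻¹, sy _ x.2.2, by
      have := sy _ x.2.1
      rwa [show (x.1.1⁻¹ : G) = (y⁻¹ * y⁻¹ : G) * (y⁻¹ * y⁻¹ * x.1 : P)⁻¹ from congrArg Subtype.val
        (show x.1⁻¹ = y⁻¹ * y⁻¹ * (y⁻¹ * y⁻¹ * x.1)⁻¹ by rw [ab _ x.1]; group)] at this⟩
    have e := Equiv.Perm.card_fixedPoints_modEq (f := r) (p := 2) (n := 1) (funext fun x => Subtype.ext (by
      show (y⁻¹ * y⁻¹ * (y⁻¹ * y⁻¹ * x.1)⁻¹)⁻¹ = x.1
      rw [ab _ x.1]; group))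
    have u : ∀ x : A, x ∈ r.fixedPoints ↔ x.1 = y := fun x => Subtype.ext_iff.trans ⟨fun e => by
      have o : (Nat.card P).Coprime 2 := cP ▸ (Nat.coprime_primes hp Nat.prime_two).2 h2
      refine (powCoprime o).injective (show x.1 ^ 2 = y ^ 2 from ?_)
      have e : (y⁻¹ * y⁻¹ * x.1)⁻¹ = x.1 := e
      rw [ab _ x.1] at e
      rw [sq, sq]; nth_rw 1 [← e]; simp [mul_assoc], fun e => show (y⁻¹ * y⁻¹ * x.1)⁻¹ = x.1 by rw [e]; group⟩
    rw [← Nat.card_coe_set_eq, ← Nat.card_congr ((Equiv.ofBijective _ (bj K cK)).subtypeEquiv (p := fun x : P => ((x : G) : G ⧸ K) ∈ B (y⁻¹ * y⁻¹))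
      fun _ => Iff.rfl), Nat.card_eq_fintype_card (α := A), Nat.odd_iff, e]
    by_cases h : ((y : G) : G ⧸ K) ∈ X
    · rw [Fintype.card_eq_one_iff.2 ⟨⟨⟨y, h, by simpa using sy y h⟩, (u _).2 rfl⟩, fun x => Subtype.ext (Subtype.ext ((u _).1 x.2))⟩]
      simpa using h
    · rw [Fintype.card_eq_zero_iff.2 ⟨fun x : r.fixedPoints => h ((u _).1 x.2 ▸ x.1.2.1)⟩]
      simpa using h
  have n : ∀ y : P, y ≠ 1 → (y⁻¹ * y⁻¹ : G) ∉ H := fun y hy e => hy ((powCoprime (cP ▸ (Nat.coprime_primes hp Nat.prime_two).2 h2)).injective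
    (show y ^ 2 = 1 ^ 2 from (bj H rfl).1 (QuotientGroup.eq.2 (by simpa [sq] using e))))
  have o : ∀ y : P, ((y : G) : G ⧸ K) ∈ X → y = 1 := fun y hy => by_contra fun e => nd (by
    have : X = Set.univ := Set.eq_univ_of_forall fun b => by
      obtain ⟨x, rfl⟩ := (bj K cK).2 b
      by_cases d : x = 1
      · exact d ▸ mem_orbit_self _
      · exact (c2 x).1 (c1 _ (n y e) _ (n x d) ▸ (c2 y).2 hy)
    rw [← cP, Nat.card_congr (Equiv.ofBijective _ (bj K cK)), ← Set.ncard_univ, ← this, ← index_stabilizer]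
    exact index_dvd_card _)
  have l : ∀ h ∈ H, σ h ∈ H := fun h hh => by
    obtain ⟨y, e⟩ := (bj K cK).2 h
    rw [o y ((show ((y : G) : G ⧸ K) = h from e) ▸ mX.2 ⟨h, hh, 1, one_mem _, by simp⟩)] at e
    obtain ⟨k, hk, e⟩ := QuotientGroup.eq.1 e
    rwa [show h = σ k by simpa using e.symm, s2]
  ext g
  refine (inv_mul_eq_one.1 (mem_bot.1 (f.le ?_))).symm
  rw [normalCore_eq_ker]
  ext b
  obtain ⟨y, rfl⟩ := (bj H rfl).2 b
  obtain ⟨x, e⟩ := (bj H rfl).2 (g * y : G)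
  have := l _ (QuotientGroup.eq.1 e)
  refine (QuotientGroup.eq.2 ?_).symm
  simp only [map_mul, map_inv, sP _ x.2, sP _ y.2] at this
  simpa [mul_assoc] using mul_mem (inv_mem (QuotientGroup.eq.1 e)) this

/-- A case of the Schreier conjecture: if a finite simple group G has a subgroup of prime index, then the outer automorphism group of G is solvable. -/
theorem result {G : Type*} [Group G] [Finite G] [IsSimpleGroup G] (H : Subgroup G) (hH : H.index.Prime) : Group.IsSolvable (Cfsg.Out G) := by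
  by_cases hs : Group.IsSolvable G
  · let _ : CommGroup G := { ‹Group G› with mul_comm := IsSimpleGroup.comm_iff_isSolvable.2 hs }
    have := Group.isSolvable_of_isSolvable_injective (f := (IsCyclic.mulAutMulEquiv G).toMonoidHom) (IsCyclic.mulAutMulEquiv G).injective
    infer_instance
  have := Fact.mk hH
  have f : H.normalCore = ⊥ := (H.normalCore_normal.eq_bot_or_eq_top).resolve_right fun e => hH.ne_one (index_eq_one.2 (top_le_iff.1 (e.ge.trans H.normalCore_le)))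
  have : FaithfulSMul G (G ⧸ H) := ⟨fun h => (MonoidHom.ker_eq_bot_iff (toPermHom G (G ⧸ H))).1 (H.normalCore_eq_ker ▸ f) (Equiv.ext h)⟩
  have := Fintype.ofFinite (G ⧸ H)
  obtain ⟨P⟩ : Nonempty (Sylow H.index G) := inferInstance
  have cP := (H16.prime_degree_sylow (α := G ⧸ H) (p := H.index) rfl P).1
  have h2 : H.index ≠ 2 := fun e => by
    have := normal_of_index_eq_two e
    rw [H.normalCore_eq_self] at f
    rw [f, index_bot] at e
    have := isCyclic_of_prime_card (p := 2) e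
    exact hs (IsSimpleGroup.comm_iff_isSolvable.1 this.isMulCommutative.is_comm.comm)
  have nd : ¬ H.index ∣ Nat.card H := by
    convert P.not_dvd_index
    exact Nat.eq_of_mul_eq_mul_left hH.pos (by rw [mul_comm, card_mul_index]; exact (card_mul_index _).symm.trans (congrArg (· * _) cP))
  let C : Subgroup (MulAut G) := fixingSubgroup (MulAut G) (P : Set G)
  have sC : Solv C := H1.solv_of_odd (Nat.not_even_iff_odd.1 fun e => by
    obtain ⟨σ, hσ, o⟩ := cauchy Nat.prime_two e.two_dvd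
    rw [key hH h2 cP nd f (H16.burnside_prime_degree (p := H.index) Nat.card_eq_fintype_card.symm hs) σ
      (fun x => by rw [← MulAut.mul_apply, ← sq, ← o, pow_orderOf_eq_one]; rfl) fun y hy => (mem_fixingSubgroup_iff _).1 hσ y hy] at o
    simp at o)
  have sN : Solv (stabilizer (MulAut G) P) := by
    have m : ∀ φ ∈ stabilizer (MulAut G) P, ∀ y ∈ (P : Subgroup G), φ y ∈ (P : Subgroup G) := fun φ h y hy =>
      (congrArg Sylow.toSubgroup h).le (smul_mem_pointwise_smul _ _ _ hy)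
    obtain ⟨t, ht⟩ := (isCyclic_of_prime_card cP).exists_generator
    have c : ∀ φ ∈ stabilizer (MulAut G) P, ∀ ψ ∈ stabilizer (MulAut G) P, ∀ y ∈ (P : Subgroup G), φ (ψ y) = ψ (φ y) := fun φ a ψ b y hy => by
      obtain ⟨i, e⟩ := ht ⟨_, m φ a _ t.2⟩
      obtain ⟨j, e'⟩ := ht ⟨_, m ψ b _ t.2⟩
      obtain ⟨k, d⟩ := ht ⟨_, hy⟩
      simp only [Subtype.ext_iff, SubgroupClass.coe_zpow] at e e' d
      simp only [← d, map_zpow, ← e, ← e', ← zpow_mul]
      congr 1; ring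
    have : ⁅stabilizer (MulAut G) P, stabilizer (MulAut G) P⁆ ≤ C := commutator_le.2 fun φ a ψ b => (mem_fixingSubgroup_iff _).2 fun y hy => by
      simpa [commutatorElement_def] using c φ a ψ b _ (m _ (inv_mem a) _ (m _ (inv_mem b) y hy))
    exact solv_of_quo nml_der.norm (Abel.solv ((abel_quo_iff nml_der.norm).2 le_rfl)) (sC.of_le this)
  refine Group.isSolvable_of_surjective (f := (QuotientGroup.mk' _).comp (stabilizer (MulAut G) P).subtype) fun q => ?_
  obtain ⟨φ, rfl⟩ := QuotientGroup.mk_surjective q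
  obtain ⟨g, e⟩ := exists_smul_eq G (φ • P) P
  refine ⟨⟨MulAut.conj g * φ, by rw [mem_stabilizer_iff, mul_smul]; exact e⟩, ?_⟩
  simp [(QuotientGroup.eq_one_iff (N := Inn G) _).2 ⟨g, rfl⟩]

end Cfsg.Agent.S4277
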