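import Cfsg.Statements.S4278
import Cfsg.Agent.H12.Ref

set_option autoImplicit false
open Cfsg

namespace Cfsg.Agent.S4278
open H12 H13 Cfsg.Lie

/-- In the Chevalley group of type G₂ over a finite field of odd order, any two involutions are conjugate. -/
theorem result {F : Type*} [Field F] [Fintype F] (hF : Odd (Fintype.card F)) (s t : ↥(Cfsg.Lie.chevG2.group F)) (hs : orderOf s = 2) (ht : orderOf t = 2) : IsConj s t := by
  have h : InvT (tab chevG2) 11 [3, 2] [[1, 0]] := by rw [tabG2_eq]; decide +kernel
  obtain ⟨n, hn, e⟩ := h.exists_conj smithG2 (by decide) hF hs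
  obtain ⟨n', hn', e'⟩ := h.exists_conj smithG2 (by decide) hF ht
  rw [List.mem_singleton] at hn hn'
  subst hn hn'
  exact e.trans e'.symm

end Cfsg.Agent.S4278
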