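import Cfsg.Statements.S4280
import Cfsg.Agent.H12.Ref
import Cfsg.Agent.H9.InvCount

set_option autoImplicit false
open Cfsg

namespace Cfsg.Agent.S4280
open H12 H13 Cfsg.Lie

/-- In the Chevalley group of type F₄ over a finite field of odd order q there are exactly two conjugacy classes of involutions; the centralizer of an involution in one class has order q¹⁶(q² − 1)(q⁴ − 1)(q⁶ − 1)(q⁸ − 1), and in the other class q¹⁰(q² − 1)²(q⁴ − 1)(q⁶ − 1). -/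
theorem result {F : Type*} [Field F] [Fintype F] (hF : Odd (Fintype.card F)) : ∃ s t : ↥(Cfsg.Lie.chevF4.group F), orderOf s = 2 ∧ orderOf t = 2 ∧ ¬ IsConj s t ∧ (∀ u : ↥(Cfsg.Lie.chevF4.group F), orderOf u = 2 → IsConj u s ∨ IsConj u t) ∧ Nat.card (Subgroup.centralizer ({s} : Set ↥(Cfsg.Lie.chevF4.group F))) = Fintype.card F ^ 16 * (Fintype.card F ^ 2 - 1) * (Fintype.card F ^ 4 - 1) * (Fintype.card F ^ 6 - 1) * (Fintype.card F ^ 8 - 1) ∧ Nat.card (Subgroup.centralizer ({t} : Set ↥(Cfsg.Lie.chevF4.group F))) = Fintype.card F ^ 10 * (Fintype.card F ^ 2 - 1) ^ 2 * (Fintype.card F ^ 4 - 1) * (Fintype.card F ^ 6 - 1) := by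
  have h : InvT (tab chevF4) 47 [2, 4, 3, 2] [[0, 1, 0, 0], [1, 0, 1, 0]] := by rw [tabF4_eq]; decide +kernel
  obtain ⟨a1, -, a2⟩ := card_cent_sg smithF4 (by decide) hF (n := [0, 1, 0, 0])
    (L := [24, 25, 26, 27, 28, 29, 30, 31, 32, 41, 42, 43, 44, 45, 46, 47])
    (Os := [[[1, 0, 0, 0], [-1, 0, 0, 1], [-1, 0, 1, -1], [-1, 2, -1, 0], [-1, 0, 0, 0], [1, -2, 1, 0], [1, 0, -1, 1], [1, 0, 0, -1]], [[0, 0, 0, 1], [0, 0, 1, -1], [0, 2, -1, 0], [2, 0, 0, -1], [2, -2, 1, 0], [2, 0, -1, 1]], [[0, 1, 0, 0], [1, -1, 1, 0], [1, 1, -1, 1], [2, -1, 0, 1]], [[0, 0, 1, 0], [0, 2, -1, 1]]])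
    (E := [[0, 1, 2, 3, 7, 4, 5, 6], [0, 1, 2, 5, 3, 4], [0, 1, 2, 3], [0, 1]]) (by rw [tabF4_eq]; decide +kernel)
  obtain ⟨b1, -, b2⟩ := card_cent_sg smithF4 (by decide) hF (n := [1, 0, 1, 0])
    (L := [25, 27, 28, 30, 33, 34, 35, 37, 41, 47])
    (Os := [[[0, 0, 0, 1], [0, 0, 0, -1]], [[1, 0, 0, 0], [-1, 1, 0, 0], [0, -1, 1, 0], [0, 1, -1, 1], [1, -1, 0, 1], [-1, 0, 0, 1]], [[0, 1, 0, 0], [1, -1, 1, 0], [1, 1, -1, 1], [2, -1, 0, 1]], [[0, 0, 1, 0], [0, 2, -1, 1]]])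
    (E := [[0, 1], [0, 1, 2, 3, 4, 5], [0, 1, 2, 3], [0, 1]]) (by rw [tabF4_eq]; decide +kernel)
  have hq : 1 < Fintype.card F := Fintype.one_lt_card
  have c : ∀ n, ((Fintype.card F ^ n - 1 : ℕ) : ℤ) = Fintype.card F ^ n - 1 := fun n => by rw [Nat.cast_sub (Nat.one_le_pow _ _ hq.le)]; simp
  have d : ∀ n ≠ 0, (Fintype.card F).Coprime (Fintype.card F ^ n - 1) := fun n hn =>
    ((Nat.coprime_self_sub_right (Nat.one_le_pow _ _ hq.le)).2 (Nat.coprime_one_right _)).coprime_dvd_left (dvd_pow_self _ hn)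
  have c1 := c 1
  rw [pow_one, pow_one] at c1
  replace a2 := a2.trans (show _ = Fintype.card F ^ 16 * (Fintype.card F ^ 2 - 1) * (Fintype.card F ^ 4 - 1) * (Fintype.card F ^ 6 - 1) * (Fintype.card F ^ 8 - 1) by
    zify; simp only [c, c1, show chevF4.rank = 4 from rfl]; simp; ring)
  replace b2 := b2.trans (show _ = Fintype.card F ^ 10 * (Fintype.card F ^ 2 - 1) ^ 2 * (Fintype.card F ^ 4 - 1) * (Fintype.card F ^ 6 - 1) by
    zify; simp only [c, c1, show chevF4.rank = 4 from rfl]; simp; ring)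
  refine ⟨_, _, a1, b1, fun e => ?_, fun u hu => by simpa using h.exists_conj smithF4 (by decide) hF hu, a2, b2⟩
  have := H9.card_centralizer_of_isConj e
  simp only [a2, b2, mul_assoc] at this
  rw [show 16 = 10 + (1 + 5) from rfl, pow_add, mul_assoc, Nat.mul_right_inj (by positivity), pow_add, pow_one, mul_assoc, ← pow_succ' _ 5] at this
  exact hq.ne' (Nat.Coprime.eq_one_of_dvd (((d 2 (by simp)).pow_right 2).mul_right ((d 4 (by simp)).mul_right (d 6 (by simp)))) ⟨_, this.symm⟩)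

end Cfsg.Agent.S4280
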