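import Cfsg.Statements.S4282
import Cfsg.Agent.H21.HHD

set_option autoImplicit false
open Cfsg

namespace Cfsg.Agent.S4282

open H18 H21 H21.HB Module Subgroup

/-- A critical case behind the Hall–Higman theorem. Let p ≠ q be primes and G a finite group generated by a normal q-subgroup Q and a cyclic p-subgroup generated by x, such that the centralizer of every non-identity element of that cyclic subgroup is its product with the centre of G. Let K be an algebraically closed field of characteristic p and ρ a faithful representation of G on a nonzero finite-dimensional K-space whose restriction to Q is irreducible. If s is the least exponent with (ρ(x) − 1)^s = 0, then |⟨x⟩| − 1 ≤ s ≤ |⟨x⟩|; and if s = |⟨x⟩| − 1 then |⟨x⟩| − 1 is a power of q and Q is non-abelian. -/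
theorem result {G : Type*} [Group G] [Finite G] (p q : ℕ) [Fact p.Prime] [Fact q.Prime] (hpq : p ≠ q) (Q : Subgroup G) [Q.Normal] (hQ : IsPGroup q Q) (x : G) (hx : IsPGroup p (Subgroup.zpowers x)) (hgen : Q ⊔ Subgroup.zpowers x = ⊤) (hC : ∀ y ∈ Subgroup.zpowers x, y ≠ 1 → Subgroup.centralizer ({y} : Set G) = Subgroup.zpowers x ⊔ Subgroup.center G) {K : Type*} [Field K] [IsAlgClosed K] [CharP K p] {V : Type*} [AddCommGroup V] [Module K V] [FiniteDimensional K V] [Nontrivial V] (ρ : Representation K G V) (hfaith : Function.Injective ρ) (hirr : ∀ W : Submodule K V, (∀ g ∈ Q, Submodule.map (ρ g) W ≤ W) → W = ⊥ ∨ W = ⊤) (s : ℕ) (hs : (ρ x - 1) ^ s = 0) (hmin : ∀ k < s, (ρ x - 1) ^ k ≠ 0) : Nat.card (Subgroup.zpowers x) - 1 ≤ s ∧ s ≤ Nat.card (Subgroup.zpowers x) ∧ (s = Nat.card (Subgroup.zpowers x) - 1 → (∃ b : ℕ, Nat.card (Subgroup.zpowers x) - 1 = q ^ b) ∧ ¬ IsMulCommutative Q) := by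
  have hp : p.Prime := Fact.out
  have hq : q.Prime := Fact.out
  haveI := Fintype.ofFinite Q
  obtain ⟨n, hn⟩ := hx.exists_card_eq
  rw [hn]
  rw [card_zpowers'] at hn
  let σ : MulAut Q := MulAut.conjNormal x
  have hσ : ∀ (i : ℕ) (a : Q), ((σ ^ i) a : G) = x ^ i * a * (x ^ i)⁻¹ := fun i a => by
    rw [← map_pow]; rfl
  let ρ' : Q →* End K V := MonoidHom.comp ρ Q.subtype
  have hd : HD p n ρ' σ (ρ x) := ⟨fun a => by
      show ρ x * ρ a = ρ (x * a * x⁻¹) * ρ x
      rw [← map_mul, ← map_mul, inv_mul_cancel_right], by rw [← map_pow, ← hn, pow_orderOf_eq_one, map_one],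
    by rw [← map_pow, ← hn, pow_orderOf_eq_one, map_one]⟩
  have irr : ∀ W : Submodule K V, (∀ a, ∀ w ∈ W, ρ' a w ∈ W) → W = ⊥ ∨ W = ⊤ := fun W h => hirr W fun g hg => by
    rintro _ ⟨w, hw, rfl⟩; exact h ⟨g, hg⟩ w hw
  have sch : ∀ φ : End K V, (∀ a, φ * ρ' a = ρ' a * φ) → ∃ c : K, φ = c • 1 := fun φ h =>
    schur _ irr φ fun μ a => eig_inv (h a) μ
  have Qq := piGrp_of_isPGroup hq hQ
  have hc : (Fintype.card Q : K) ≠ 0 := by
    rw [← Nat.card_eq_fintype_card, Ne, CharP.cast_eq_zero_iff K p]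
    exact (piNat_compl_iff hp).1 (PiNat.p'_of_ne Qq hpq.symm)
  have reg : ∀ a, (∃ c : K, ρ' a = c • 1) ∨ ∀ i, (σ ^ i) a = a → p ^ n ∣ i := fun a =>
    or_iff_not_imp_right.2 fun c => sch _ fun b => by
      obtain ⟨i, h1, h2⟩ : ∃ i, (σ ^ i) a = a ∧ ¬ p ^ n ∣ i := by simpa using c
      have : (a : G) ∈ zpowers x ⊔ center G := by
        rw [← hC (x ^ i) (npow_mem_zpowers x i) (by rwa [Ne, ← orderOf_dvd_iff_pow_eq_one, hn]), mem_C1, eq_comm,
          ← mul_inv_eq_iff_eq_mul, ← hσ, h1]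
      obtain ⟨w, w1, z, z1, e⟩ := (mem_sup_of_norm norm_of_normal).1 this
      have e2 : (a : G) ^ p ^ n ∈ center G := by
        rw [e, Commute.mul_pow (mem_center_iff.1 z1 w), ← hn, ← card_zpowers', pow_card_eq_one_of_mem w1, one_mul]
        exact pow_mem z1 _
      have e3 : (a : G) ∈ center G := (zpowers_le.2 e2) (mem_zpowers_pow_iff.2
        ((piNat_pow_self hp n).coprime (PiNat.p'_of_ne (Qq.elt a.2) hpq.symm)))
      rw [← map_mul, ← map_mul, show a * b = b * a from Subtype.ext (mem_center_iff.1 e3 b).symm]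
  have s1 : s ≤ p ^ n := not_lt.1 fun c => hmin _ c hd.nil
  have s0 : s ≠ 0 := by rintro rfl; simp at hs
  have N0 : 0 < p ^ n := pow_pos hp.pos n
  by_cases h0 : (ρ x - 1) ^ (p ^ n - 1) = 0
  swap
  · have : p ^ n - 1 < s := not_le.1 fun c => h0 (pow_eq_zero_of_le c hs)
    exact ⟨this.le, s1, fun e => by omega⟩
  have g1 : ρ x ≠ 1 := fun e => by
    rw [← hn, hfaith (e.trans (map_one ρ).symm)] at h0; simp at h0
  obtain ⟨c1, c2⟩ := hd.crit hc sch reg g1 h0
  obtain ⟨k, hk⟩ := finrank_pow_aux hq _ Q V ρ' rfl hQ irr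
  have : p ^ n - 2 < s := not_le.1 fun c => c1 (pow_eq_zero_of_le c hs)
  refine ⟨by omega, s1, fun _ => ⟨⟨k, c2 ▸ hk⟩, fun c => g1 ?_⟩⟩
  obtain ⟨d, hd⟩ := sch (ρ x - 1) fun a => by
    obtain ⟨e, he⟩ := sch (ρ' a) fun b => by rw [← map_mul, c.is_comm.comm a b, map_mul]
    rw [he, mul_smul_comm, smul_mul_assoc, mul_one, one_mul]
  rw [hd, _root_.smul_pow, one_pow] at hs
  rw [← sub_eq_zero, hd, pow_eq_zero_iff s0 |>.1 ((smul_eq_zero.1 hs).resolve_right one_ne_zero), zero_smul]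

end Cfsg.Agent.S4282
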