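import Cfsg.Statements.S4283
import Cfsg.Agent.H23.Zass1
import Cfsg.Agent.H5.PF8a

set_option autoImplicit false
open Cfsg

namespace Cfsg.Agent.S4283

open H18 Subgroup

/-- Let G be a finite group with centre Z and let K, H be abelian subgroups of G containing Z such that G/Z is a Frobenius group with complement H/Z and kernel K/Z. Then the conjugacy class sizes of G are exactly 1, [G : K] and [G : H], and these two indices are coprime. (This is the converse half of the characterization of finite groups whose conjugacy class sizes are exactly 1, m and n with m and n coprime.) -/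
theorem result {G : Type*} [Group G] [Finite G] (K H : Subgroup G) (hZK : Subgroup.center G ≤ K) (hZH : Subgroup.center G ≤ H) (hK : IsMulCommutative K) (hH : IsMulCommutative H) (hFrob : Cfsg.IsFrobeniusComplement (H.map (QuotientGroup.mk' (Subgroup.center G)))) (hker : Cfsg.frobeniusKernel (H.map (QuotientGroup.mk' (Subgroup.center G))) = (K.map (QuotientGroup.mk' (Subgroup.center G)) : Set (G ⧸ Subgroup.center G))) : Set.range (fun x : G => (Subgroup.centralizer ({x} : Set G)).index) = ({1, K.index, H.index} : Set ℕ) ∧ K.index.Coprime H.index := by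
  set f := QuotientGroup.mk' (center G)
  have s : Function.Surjective f := QuotientGroup.mk'_surjective _
  have kf : f.ker = center G := QuotientGroup.ker_mk' _
  obtain ⟨Q, e, h⟩ := H23.exists_frob_of_compl hFrob
  obtain rfl : Q = K.map f := SetLike.coe_injective (e.trans hker)
  have mK : ∀ {x}, f x ∈ K.map f ↔ x ∈ K := fun {x} => by rw [← mem_comap, comap_map_eq_self (kf.le.trans hZK)]
  have mH : ∀ {x}, f x ∈ H.map f ↔ x ∈ H := fun {x} => by rw [← mem_comap, comap_map_eq_self (kf.le.trans hZH)]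
  have cK : ∀ x ∈ K, f x ≠ 1 → C1(x) = K := fun x hx x1 => le_antisymm (fun g hg => mK.1 (H5.frob_cent1_le h (mK.2 hx) x1
    ⟨mem_top _, mem_C1.2 (by rw [← map_mul, mem_C1.1 hg, map_mul])⟩)) ((abel_iff.2 hK).trans (C_le_C1 hx))
  have cH : ∀ x ∈ H, f x ≠ 1 → C1(x) = H := fun x hx x1 => le_antisymm (fun g hg => by_contra fun e =>
    x1 ((eq_bot_iff_forall _).1 (hFrob.2.2 (f g) (mt mH.1 e)) _ ⟨mH.2 hx, f x, mH.2 hx, by
      show f g * f x * (f g)⁻¹ = f x
      rw [← map_mul, mem_C1.1 hg, map_mul, mul_inv_cancel_right]⟩)) ((abel_iff.2 hH).trans (C_le_C1 hx))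
  have iK : K.index = Nat.card (H.map f) := by
    rw [← index_map_eq K s (kf.le.trans hZK), ← relIndex_top_right]; exact relIndex_eq_of_mul le_top h.sd.card
  have iH : H.index = Nat.card (K.map f) := by
    rw [← index_map_eq H s (kf.le.trans hZH), ← relIndex_top_right]
    exact relIndex_eq_of_mul le_top (h.sd.card.trans (mul_comm _ _))
  refine ⟨Set.eq_of_subset_of_subset ?_ ?_, by rw [iK, iH]; exact h.coprime.symm⟩
  · rintro _ ⟨x, rfl⟩
    by_cases x1 : f x = 1
    · exact Or.inl (index_eq_one.2 (eq_top_iff.2 fun g _ => mem_C1.2 (mem_center_iff.1 (kf.le x1) g)))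
    by_cases hx : x ∈ K
    · exact Or.inr (Or.inl (congrArg index (cK x hx x1)))
    obtain ⟨g, y, ⟨y, hy, rfl⟩, e⟩ := not_not.1 (not_forall_not.1 (not_or.1 (mt (fun a => mK.1 (e.ge a)) hx)).2 |> not_not.2)
    obtain ⟨g, rfl⟩ := s g
    have e : f x = f (g * y * g⁻¹) := by simpa using e.symm
    have hy' : g⁻¹ * x * g ∈ H := mH.1 (by rw [map_mul, map_mul, e]; simpa [mul_assoc] using mH.2 hy)
    refine Or.inr (Or.inr ?_)
    rw [← cH _ hy' (by rw [map_mul, map_mul, map_inv]; exact H23.conj_ne_one' x1), ← index_cj (g := g), cj_C1]; simp [mul_assoc]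
  · obtain ⟨_, ⟨x, hx, rfl⟩, x1⟩ := exists_mem_ne_one' h.ker_ne
    obtain ⟨_, ⟨y, hy, rfl⟩, y1⟩ := exists_mem_ne_one' h.compl_ne
    rintro _ (rfl | rfl | rfl)
    exacts [⟨1, by simp⟩, ⟨x, congrArg index (cK x hx x1)⟩, ⟨y, congrArg index (cH y hy y1)⟩]

end Cfsg.Agent.S4283
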