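import Cfsg.Statements.S4291
import Cfsg.Agent.H16.FCSolv

set_option autoImplicit false
open Cfsg

namespace Cfsg.Agent.S4291

open H16 in
theorem aux {G : Type*} [Group G] [Finite G] {N : Subgroup G}
    (h : N = ⊤ ∨
        (∃ f : G →* DihedralGroup 2, Function.Surjective f ∧ f.ker = N) ∨
        (∃ f : G →* alternatingGroup (Fin 4), Function.Surjective f ∧ f.ker = N) ∨
        (∃ f : G →* Equiv.Perm (Fin 4), Function.Surjective f ∧ f.ker = N) ∨
        (∃ f : G →* alternatingGroup (Fin 5), Function.Surjective f ∧ f.ker = N) ∨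
        (∃ f : G →* Equiv.Perm (Fin 5), Function.Surjective f ∧ f.ker = N)) :
    (∃ f : G →* DihedralGroup 2, Function.Surjective f ∧ f.ker = N) ∨
      ((∀ M : Subgroup G, M.Normal → IsZGroup M → M ≤ N) ∧ (N = ⊤ ∨ 12 ∣ N.index)) := by
  rcases h with rfl | h | ⟨f, hf, rfl⟩ | ⟨f, hf, rfl⟩ | ⟨f, hf, rfl⟩ | ⟨f, hf, rfl⟩
  · exact Or.inr ⟨fun _ _ _ => le_top, Or.inl rfl⟩
  · exact Or.inl h
  · exact Or.inr ⟨fun _ => noZ_A4.le_ker hf, Or.inr (by
      rw [Subgroup.index_ker, MonoidHom.range_eq_top.2 hf, Subgroup.card_top, H10.card_alt_four'])⟩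
  · exact Or.inr ⟨fun _ => noZ_S4.le_ker hf, Or.inr (by
      rw [Subgroup.index_ker, MonoidHom.range_eq_top.2 hf, Subgroup.card_top, Nat.card_perm, Nat.card_fin]; decide)⟩
  · exact Or.inr ⟨fun _ => noZ_A5.le_ker hf, Or.inr (by
      rw [Subgroup.index_ker, MonoidHom.range_eq_top.2 hf, Subgroup.card_top, H10.card_alt_five']; decide)⟩
  · exact Or.inr ⟨fun _ => noZ_S5.le_ker hf, Or.inr (by
      rw [Subgroup.index_ker, MonoidHom.range_eq_top.2 hf, Subgroup.card_top, Nat.card_perm, Nat.card_fin]; decide)⟩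

theorem aux2 {G : Type*} [Group G] [Finite G] {N : Subgroup G} (hZ : IsZGroup N) {f : G →* DihedralGroup 2}
    (hf : Function.Surjective f) (h : f.ker ≤ N) (h2 : N = ⊤ ∨ 12 ∣ N.index) : False := by
  rcases h2 with rfl | h2
  · have : IsZGroup (⊤ : Subgroup (DihedralGroup 2)) := by
      rw [← Subgroup.map_top_of_surjective f hf]
      exact IsZGroup.of_surjective (f.subgroupMap_surjective ⊤)
    exact absurd (H16.invol_eq_of_isZGroup this (s := .r 1) (t := .sr 0) trivial trivial
      (orderOf_eq_prime (by decide) (by decide)) (orderOf_eq_prime (by decide) (by decide)) (by decide)) (by decide)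
  · have := h2.trans (Subgroup.index_dvd_of_le h)
    rw [Subgroup.index_ker, MonoidHom.range_eq_top.2 hf, Subgroup.card_top, DihedralGroup.nat_card] at this
    exact absurd this (by decide)

/-- Let G be a finite group that occurs as a Frobenius complement. Then G has exactly one normal subgroup N such that every Sylow subgroup of N is cyclic and the quotient of G by N is trivial or isomorphic to one of the following five groups: the Klein four-group, the alternating group of degree 4, the symmetric group of degree 4, the alternating group of degree 5, the symmetric group of degree 5. (The quotient is described by a surjective homomorphism with kernel N; the Klein four-group is written as the dihedral group of order 4.) -/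
theorem result {G : Type*} [Group G] [Finite G]
    (hFC : (∃ (L : Type) (_ : Group L) (_ : Finite L) (H : Subgroup L), Cfsg.IsFrobeniusComplement H ∧ Nonempty (G ≃* H))) :
    ∃! N : Subgroup G, N.Normal ∧ (∀ (p : ℕ) [Fact p.Prime] (P : Sylow p N), IsCyclic P) ∧
      (N = ⊤ ∨
        (∃ f : G →* DihedralGroup 2, Function.Surjective f ∧ f.ker = N) ∨
        (∃ f : G →* alternatingGroup (Fin 4), Function.Surjective f ∧ f.ker = N) ∨
        (∃ f : G →* Equiv.Perm (Fin 4), Function.Surjective f ∧ f.ker = N) ∨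
        (∃ f : G →* alternatingGroup (Fin 5), Function.Surjective f ∧ f.ker = N) ∨
        (∃ f : G →* Equiv.Perm (Fin 5), Function.Surjective f ∧ f.ker = N)) := by
  have h := H16.IsFC.fc hFC
  refine existsUnique_of_exists_of_unique ?_ ?_
  · by_cases hs : Group.IsSolvable G
    · obtain ⟨N, h1, h2, h3⟩ := h.solvable_cases hs
      exact ⟨N, h1, fun p _ P => inferInstance, h3.imp_right (Or.imp_right (Or.imp_right Or.inl))⟩
    · obtain ⟨N, h1, h2, h3⟩ := h.nonsolvable_cases hs
      exact ⟨N, h1, fun p _ P => inferInstance, Or.inr (Or.inr (Or.inr (Or.inr h3)))⟩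
  · rintro N M ⟨n1, n2, n3⟩ ⟨m1, m2, m3⟩
    have nZ : IsZGroup N := ⟨fun p hp P => by have := Fact.mk hp; exact n2 p P⟩
    have mZ : IsZGroup M := ⟨fun p hp P => by have := Fact.mk hp; exact m2 p P⟩
    rcases aux n3 with ⟨f, hf, rfl⟩ | ⟨n4, n5⟩ <;> rcases aux m3 with ⟨g, hg, rfl⟩ | ⟨m4, m5⟩
    · exact le_antisymm (h.ker_eq_of_V4 hf) (h.ker_eq_of_V4 hg)
    · exact (aux2 mZ hf (m4 _ n1 nZ) m5).elim
    · exact (aux2 nZ hg (n4 _ m1 mZ) n5).elim
    · exact le_antisymm (m4 _ n1 nZ) (n4 _ m1 mZ)

end Cfsg.Agent.S4291
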