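import Cfsg.Statements.S4292
import Cfsg.Agent.H16.FC
import Mathlib.RingTheory.Flat.FaithfullyFlat.Basic
import Mathlib.RingTheory.TensorProduct.Basic

set_option autoImplicit false
open Cfsg

namespace Cfsg.Agent.S4292


/-- Let A and B be nontrivial finite groups. Then the direct product A × B occurs as a Frobenius complement if and only if A and B both occur as Frobenius complements and the orders of A and B are coprime. -/
theorem result {A B : Type*} [Group A] [Finite A] [Nontrivial A] [Group B] [Finite B] [Nontrivial B] :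
    (∃ (L : Type) (_ : Group L) (_ : Finite L) (H : Subgroup L), Cfsg.IsFrobeniusComplement H ∧ Nonempty ((A × B) ≃* H)) ↔
    ((∃ (L : Type) (_ : Group L) (_ : Finite L) (H : Subgroup L), Cfsg.IsFrobeniusComplement H ∧ Nonempty (A ≃* H)) ∧
     (∃ (L : Type) (_ : Group L) (_ : Finite L) (H : Subgroup L), Cfsg.IsFrobeniusComplement H ∧ Nonempty (B ≃* H)) ∧
     (Nat.card A).Coprime (Nat.card B)) := by
  constructor
  · intro h
    have h' := H16.IsFC.fc h
    refine ⟨(h'.of_injective (MonoidHom.inl A B) fun a b e => congrArg Prod.fst e).isFC,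
      (h'.of_injective (MonoidHom.inr A B) fun a b e => congrArg Prod.snd e).isFC, ?_⟩
    refine Nat.Coprime.symm (Nat.coprime_of_dvd fun p hp h1 h2 => ?_)
    have := Fact.mk hp
    obtain ⟨a, ha⟩ := exists_prime_orderOf_dvd_card' p h2
    obtain ⟨b, hb⟩ := exists_prime_orderOf_dvd_card' p h1
    have h3 := (h'.of_injective ((Subgroup.zpowers a).subtype.prodMap (Subgroup.zpowers b).subtype)
      (Function.Injective.prodMap Subtype.val_injective Subtype.val_injective)).isCyclic fun x y =>
        Prod.ext (mul_comm' _ _) (mul_comm' _ _)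
    have h4 := coprime_card_of_isCyclic_prod (Subgroup.zpowers a) (Subgroup.zpowers b)
    rw [Nat.card_zpowers, Nat.card_zpowers, ha, hb, Nat.coprime_self] at h4
    exact hp.one_lt.ne' h4
  · rintro ⟨hA, hB, hc⟩
    obtain ⟨n, _, ρ, hρ⟩ := (H16.IsFC.fc hA).elim
    obtain ⟨m, _, σ, hσ⟩ := (H16.IsFC.fc hB).elim
    let R := TensorProduct ℂ (Module.End ℂ (Fin n → ℂ)) (Module.End ℂ (Fin m → ℂ))
    let τ : A × B →* R :=
      { toFun := fun g => ρ g.1 ⊗ₜ σ g.2
        map_one' := by simp [R, Algebra.TensorProduct.one_def]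
        map_mul' := fun g h => by simp [R] }
    have : Nontrivial R := Module.FaithfullyFlat.rTensor_nontrivial ℂ _ _
    have : CharZero R := algebraRat.charZero _
    refine H16.isFC_of_charZero (R := R) τ fun g hg => ?_
    obtain ⟨a, b⟩ := g
    have h1 : a ^ orderOf (a, b) = 1 := congrArg Prod.fst (pow_orderOf_eq_one (a, b))
    have h2 : b ^ orderOf (a, b) = 1 := congrArg Prod.snd (pow_orderOf_eq_one (a, b))
    have h0 : ∀ i, τ (a, b) ^ i = (ρ a ^ i) ⊗ₜ (σ b ^ i) := fun i => Algebra.TensorProduct.tmul_pow _ _ _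
    simp only [h0]
    by_cases ha : a = 1
    · subst ha
      have hb : b ≠ 1 := by
        rintro rfl
        rw [Prod.mk_one_one, orderOf_one] at hg
        exact Nat.not_prime_one hg
      simp only [map_one, one_pow]
      rw [← TensorProduct.tmul_sum, hσ.sum_pow hb h2, TensorProduct.tmul_zero]
    · by_cases hb : b = 1
      · subst hb
        simp only [map_one, one_pow]
        rw [← TensorProduct.sum_tmul, hρ.sum_pow ha h1, TensorProduct.zero_tmul]
      · have := Fact.mk hg
        have h3 := orderOf_dvd_natCard a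
        have h4 := orderOf_dvd_natCard b
        rw [orderOf_eq_prime h1 ha] at h3
        rw [orderOf_eq_prime h2 hb] at h4
        exact absurd (Nat.eq_one_of_dvd_coprimes hc h3 h4) hg.one_lt.ne'

end Cfsg.Agent.S4292
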