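import Cfsg.Statements.S4293
import Cfsg.Agent.H16.FC

set_option autoImplicit false
open Cfsg

namespace Cfsg.Agent.S4293


/-- A nontrivial finite subgroup of the multiplicative group of a division ring occurs as a Frobenius complement of some finite Frobenius group. -/
theorem result {D : Type*} [DivisionRing D] (H : Subgroup Dˣ) [Finite H] (hH : H ≠ ⊥) :
    ∃ (L : Type) (_ : Group L) (_ : Finite L) (C : Subgroup L), Cfsg.IsFrobeniusComplement C ∧ Nonempty (H ≃* C) := by
  have := (Subgroup.nontrivial_iff_ne_bot H).2 hH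
  let ρ : H →* D := (Units.coeHom D).comp H.subtype
  have hρ : ∀ g : H, ρ g = 1 → g = 1 := fun g hg => Subtype.ext (Units.ext hg)
  have hN : ∀ g : H, (orderOf g).Prime → ∑ i ∈ Finset.range (orderOf g), ρ g ^ i = 0 := fun g hg => by
    have h1 := mul_geom_sum (ρ g) (orderOf g)
    rw [← map_pow, pow_orderOf_eq_one, map_one, sub_self] at h1
    refine (mul_eq_zero.1 h1).resolve_left fun e => ?_
    rw [hρ g (sub_eq_zero.1 e)] at hg
    simp [Nat.not_prime_one] at hg
  obtain ⟨p, hp⟩ := CharP.exists D
  rcases CharP.char_is_prime_or_zero D p with h | rfl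
  · have := Fact.mk h
    refine H16.isFC_of_ring ρ h (fun hd => ?_) (fun r hr h0 => ?_) hN
    · obtain ⟨g, hg⟩ := exists_prime_orderOf_dvd_card' p hd
      have h1 := sub_pow_char_of_commute p (Commute.one_right (ρ g))
      rw [← map_pow, ← hg, pow_orderOf_eq_one, map_one, one_pow, sub_self] at h1
      rw [hρ g (sub_eq_zero.1 (eq_zero_of_pow_eq_zero h1)), orderOf_one] at hg
      exact h.one_lt.ne hg
    · have := (CharP.intCast_eq_zero_iff D p _).2 hr
      rw [Int.cast_sub, h0, Int.cast_one, zero_sub, neg_eq_zero] at this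
      exact one_ne_zero this
  · have := CharP.charP_to_charZero D
    exact H16.isFC_of_charZero ρ hN

end Cfsg.Agent.S4293
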