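import Cfsg.Statements.S4295
import Cfsg.Agent.H16.QKer

set_option autoImplicit false
open Cfsg

namespace Cfsg.Agent.S4295


/-- For a natural number m the following are equivalent: (a) some finite group has a Frobenius complement isomorphic to the quaternion group of order 8 whose Frobenius kernel (the identity together with the elements lying in no conjugate of the complement) has exactly m elements; (b) m is an odd perfect square greater than 1. -/
theorem result (m : ℕ) :
    (∃ (L : Type) (_ : Group L) (_ : Finite L) (H : Subgroup L), Cfsg.IsFrobeniusComplement H ∧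
        Nonempty (H ≃* QuaternionGroup 2) ∧ Nat.card (Cfsg.frobeniusKernel H) = m) ↔
    (Odd m ∧ IsSquare m ∧ 1 < m) := by
  constructor
  · rintro ⟨L, _, _, H, hF, ⟨e⟩, rfl⟩
    obtain ⟨x, y, q⟩ := H9.exists_qData (P := (⊤ : Subgroup H)) (N := 2) two_pos (Subgroup.topEquiv.trans e)
    obtain ⟨h1, h2⟩ := H16.odd_isSquare_of_qData (n := 1) hF q
    obtain ⟨K, hK, hF⟩ := H21.exists_frob_top hF
    refine ⟨h1, h2, ?_⟩
    rw [← hK]
    exact (Subgroup.one_lt_card_iff_ne_bot K).2 hF.ker_ne
  · rintro ⟨h1, ⟨n, rfl⟩, h3⟩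
    obtain ⟨τ, hτ⟩ := H16.exists_free_Q8 (Nat.odd_mul.1 h1).1
    have h4 : 1 < n := by
      by_contra h
      have : n ≤ 1 := by omega
      nlinarith
    have : NeZero n := ⟨by omega⟩
    have := Fact.mk h4
    obtain ⟨L, _, _, H, hF, ⟨e⟩, h⟩ := H16.exists_frob_of_rep τ hτ
    exact ⟨L, _, inferInstance, H, hF, ⟨e.symm⟩, by rw [h]; simp [pow_two]⟩

end Cfsg.Agent.S4295
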