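import Cfsg.Statements.S4296
import Cfsg.Agent.H16.QKer

set_option autoImplicit false
open Cfsg

namespace Cfsg.Agent.S4296


/-- Let H be a Frobenius complement in a finite group, and suppose some Sylow subgroup of H is not cyclic. Then the number of elements of the Frobenius kernel (the identity together with the elements lying in no conjugate of H) is an odd perfect square. -/
theorem result {L : Type*} [Group L] [Finite L] (H : Subgroup L) (hF : Cfsg.IsFrobeniusComplement H)
    (hZ : ∃ (p : ℕ) (_ : Fact p.Prime) (P : Sylow p H), ¬ IsCyclic P) :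
    Odd (Nat.card (Cfsg.frobeniusKernel H)) ∧ IsSquare (Nat.card (Cfsg.frobeniusKernel H)) := by
  obtain ⟨p, hp, P, hP⟩ := hZ
  have h := H16.fc_of_compl hF
  by_cases h2 : p = 2
  · subst h2
    rcases h.two_group P.isPGroup' with h1 | ⟨n, x, y, q⟩
    · exact absurd h1 hP
    · rw [pow_succ'] at q
      exact H16.odd_isSquare_of_qData hF q
  · exact absurd (h.isCyclic_of_odd hp.out h2 P.isPGroup') hP

end Cfsg.Agent.S4296
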