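import Cfsg.Statements.S4297
import Cfsg.Agent.H16.FC
import Mathlib.Analysis.Quaternion
import Mathlib.Analysis.SpecialFunctions.Complex.CircleAddChar

set_option autoImplicit false
open Cfsg

namespace Cfsg.Agent.S4297

open QuaternionGroup Quaternion

/-- For every n ≥ 2 the dicyclic group of order 4n (generated by an element a of order 2n and an element x with x² = aⁿ and x a x⁻¹ = a⁻¹) occurs as a Frobenius complement of some finite Frobenius group. -/
theorem result (n : ℕ) (hn : 2 ≤ n) :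
    ∃ (L : Type) (_ : Group L) (_ : Finite L) (H : Subgroup L), Cfsg.IsFrobeniusComplement H ∧ Nonempty (H ≃* QuaternionGroup n) := by
  have : NeZero n := ⟨by omega⟩
  have : NeZero (2 * n) := ⟨by omega⟩
  let χ : ZMod (2 * n) → ℂ := ZMod.stdAddChar
  have inj : Function.Injective χ := ZMod.injective_stdAddChar
  have add : ∀ i j, χ (i + j) = χ i * χ j := AddChar.map_add_eq_mul _
  have h0 : χ 0 = 1 := AddChar.map_zero_eq_one _
  have hn' : χ n = -1 := (mul_self_eq_one_iff.1 (by
    rw [← add, ← Nat.cast_add, ← two_mul, ZMod.natCast_self, h0])).resolve_left fun e =>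
      Nat.not_dvd_of_pos_of_lt (by omega) (by omega) ((ZMod.natCast_eq_zero_iff _ _).1 (inj (e.trans h0.symm)))
  have ng : ∀ i, χ (-i) = star (χ i) := fun i => AddChar.map_neg_eq_conj _ i
  obtain ⟨J, j0, j1, j2, j3⟩ : ∃ J : ℍ[ℝ], J.re = 0 ∧ J.imI = 0 ∧ J.imJ = 1 ∧ J.imK = 0 :=
    ⟨⟨0, 0, 1, 0⟩, rfl, rfl, rfl, rfl⟩
  have hJ : ∀ z : ℂ, ofComplex z * J = J * ofComplex (star z) := fun z => by ext <;> simp [j0, j1, j2, j3]
  have JJ : J * J = -1 := by ext <;> simp [j0, j1, j2, j3]
  have : CharZero ℍ[ℝ] := algebraRat.charZero _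
  let ρ : QuaternionGroup n →* ℍ[ℝ] :=
    { toFun := fun g => match g with | a i => ofComplex (χ i) | xa i => J * ofComplex (χ i)
      map_one' := by simp only [one_def, h0, map_one]
      map_mul' := by
        rintro (i | i) (j | j)
        · simp only [a_mul_a, add, map_mul]
        · simp only [a_mul_xa]; rw [← mul_assoc, hJ, sub_eq_neg_add, add, ng, map_mul, mul_assoc]
        · simp only [xa_mul_a, add, map_mul, mul_assoc]
        · simp only [xa_mul_xa]
          rw [mul_assoc, ← mul_assoc _ J, hJ, ← mul_assoc, ← mul_assoc, JJ, sub_eq_add_neg, add, add, ng, hn']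
          rw [mul_right_comm, map_mul, map_mul, map_neg, map_one] }
  obtain ⟨L, _, _, H, h, ⟨e⟩⟩ := H16.isFC_of_charZero ρ fun x hx =>
    mul_left_cancel₀ (sub_ne_zero.2 fun h : ρ x = 1 => hx.ne_one (orderOf_eq_one_iff.2 (by
      rcases x with i | i
      · rw [inj (ofComplex.injective (h.trans (map_one _).symm) |>.trans h0.symm), one_def]
      · simpa [ρ, j0, j1, j2, j3] using congrArg (fun q : ℍ[ℝ] => q.re) h)))
      ((mul_geom_sum _ _).trans (by rw [← map_pow, pow_orderOf_eq_one]; simp))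
  exact ⟨L, _, ‹_›, H, h, ⟨e.symm⟩⟩

end Cfsg.Agent.S4297
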