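import Cfsg.Statements.S4298
import Cfsg.Agent.H16.FC

set_option autoImplicit false
open Cfsg

namespace Cfsg.Agent.S4298

open Matrix

def tb (a b c d : ZMod 3) (k : ℕ) : ZMod 5 :=
  ((35730553939169013700661200973022822598711905829849235105544400527300319540269224453636854246503579847220629049562483856620974554229857442871505584614377675921139570292284019154926431871555081443148083053529262542724609375000
    / 625 ^ (((a.val * 3 + b.val) * 3 + c.val) * 3 + d.val) / 5 ^ k : ℕ) : ZMod 5)

theorem tb_mul : ∀ a b c d a' b' c' d' : ZMod 3, a * d - b * c = 1 → a' * d' - b' * c' = 1 → ∀ i j : Fin 2,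
    tb (a * a' + b * c') (a * b' + b * d') (c * a' + d * c') (c * b' + d * d') (3 - 2 * i - j) =
      tb a b c d (3 - 2 * i) * tb a' b' c' d' (3 - j) + tb a b c d (2 - 2 * i) * tb a' b' c' d' (1 - j) := by
  decide +kernel

theorem tb_fix : ∀ a b c d : ZMod 3, a * d - b * c = 1 → ∀ x y : ZMod 5, tb a b c d 3 * x + tb a b c d 2 * y = x →
    tb a b c d 1 * x + tb a b c d 0 * y = y → ![a, b, c, d] = ![1, 0, 0, 1] ∨ (x, y) = 0 := by
  decide +kernel

def rho : SpecialLinearGroup (Fin 2) (ZMod 3) →* Matrix (Fin 2) (Fin 2) (ZMod 5) where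
  toFun g := of fun i j => tb (g 0 0) (g 0 1) (g 1 0) (g 1 1) (3 - 2 * i - j)
  map_one' := by decide +kernel
  map_mul' g h := by
    ext i j
    have := tb_mul _ _ _ _ _ _ _ _ (det_fin_two g.1 ▸ g.2) (det_fin_two h.1 ▸ h.2) i j
    fin_cases i <;> fin_cases j <;> simpa [mul_apply, Fin.sum_univ_two] using this

/-- The group SL(2,3) of order 24 (the binary tetrahedral group) occurs as a Frobenius complement of some finite Frobenius group. -/
theorem result :
    ∃ (L : Type) (_ : Group L) (_ : Finite L) (H : Subgroup L), Cfsg.IsFrobeniusComplement H ∧ Nonempty (H ≃* Matrix.SpecialLinearGroup (Fin 2) (ZMod 3)) := by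
  have : Fact (Nat.Prime 5) := ⟨by norm_num⟩
  have : Nontrivial (SpecialLinearGroup (Fin 2) (ZMod 3)) := ⟨-1, 1, by decide⟩
  obtain ⟨L, _, _, H, h, ⟨e⟩, -⟩ := H16.exists_frob_of_rep ((toLinAlgEquiv' (R := ZMod 5) (n := Fin 2)).toMonoidHom.comp rho)
    fun g g1 v e => by
      have e0 := congrFun e 0
      have e1 := congrFun e 1
      rcases tb_fix _ _ _ _ (det_fin_two g.1 ▸ g.2) (v 0) (v 1) (by simpa [rho, mulVec, dotProduct] using e0)
        (by simpa [rho, mulVec, dotProduct] using e1) with h | h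
      · refine absurd (Matrix.SpecialLinearGroup.ext g 1 fun i j => ?_) g1
        fin_cases i <;> fin_cases j
        exacts [congrFun h 0, congrFun h 1, congrFun h 2, congrFun h 3]
      · ext i; fin_cases i
        exacts [congrArg Prod.fst h, congrArg Prod.snd h]
  exact ⟨L, _, ‹_›, H, h, ⟨e.symm⟩⟩

end Cfsg.Agent.S4298
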