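import Cfsg.Statements.S4299
import Cfsg.Agent.H16.FC

set_option autoImplicit false
open Cfsg

namespace Cfsg.Agent.S4299

/-- Every nontrivial finite cyclic group occurs as a Frobenius complement of some finite Frobenius group. -/
theorem result {C : Type*} [Group C] [Finite C] [IsCyclic C] [Nontrivial C] :
    ∃ (L : Type) (_ : Group L) (_ : Finite L) (H : Subgroup L), Cfsg.IsFrobeniusComplement H ∧ Nonempty (C ≃* H) := by
  obtain ⟨g, hg⟩ := IsCyclic.exists_generator (α := C)
  have := NeZero.mk (Nat.card_pos (α := C)).ne'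
  obtain ⟨e⟩ : Nonempty (C ≃* rootsOfUnity (Nat.card C) ℂ) :=
    ⟨mulEquivOfCyclicCardEq (Complex.card_rootsOfUnity _).symm⟩
  refine H16.isFC_of_charZero ((Units.coeHom ℂ).comp ((Subgroup.subtype _).comp e.toMonoidHom)) fun x hx => ?_
  refine mul_left_cancel₀ (sub_ne_zero.2 fun h : ((e x).1 : ℂ) = 1 => hx.ne_one ?_) ?_
  · rw [orderOf_eq_one_iff, ← e.map_eq_one_iff]; exact Subtype.ext (Units.ext h)
  · exact (mul_geom_sum _ _).trans (by
      rw [← Units.val_pow_eq_pow_val, ← Subgroup.coe_pow, ← map_pow, pow_orderOf_eq_one]; simp)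

end Cfsg.Agent.S4299
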