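import Cfsg.Statements.S4300


set_option autoImplicit false
open Cfsg

namespace Cfsg.Agent.S4300

/-- Let G act faithfully and primitively on a set X, and suppose the stabilizer of some point is a simple group. Then either G is simple, or G has a normal subgroup, neither trivial nor the whole group, that acts regularly on X (transitively with trivial point stabilizers). -/
theorem result {G : Type*} [Group G] {X : Type*} [MulAction G X] [FaithfulSMul G X]
    (hprim : MulAction.IsPreprimitive G X) (x : X) (hsimple : IsSimpleGroup (MulAction.stabilizer G x)) :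
    IsSimpleGroup G ∨ ∃ N : Subgroup G, N.Normal ∧ N ≠ ⊥ ∧ N ≠ ⊤ ∧
      MulAction.IsPretransitive N X ∧ ∀ y : X, MulAction.stabilizer N y = ⊥ := by
  by_contra hcon
  push Not at hcon
  obtain ⟨hns, hcon⟩ := hcon
  apply hns
  have hnt : Nontrivial G := (MulAction.stabilizer G x).subtype_injective.nontrivial
  refine ⟨fun N hN => ?_⟩
  by_contra h
  push Not at h
  have htr : MulAction.IsPretransitive N X := by
    apply MulAction.IsQuasiPreprimitive.isPretransitive_of_normal
    intro hf
    apply h.1
    rw [eq_bot_iff]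
    intro n hn
    rw [Subgroup.mem_bot]
    apply eq_of_smul_eq_smul (α := X)
    intro y
    rw [one_smul]
    exact (hf ▸ Set.mem_univ y : y ∈ MulAction.fixedPoints N X) ⟨n, hn⟩
  obtain ⟨y, hy⟩ := hcon N hN h.1 h.2 htr
  rcases (hN.subgroupOf (MulAction.stabilizer G x)).eq_bot_or_eq_top with h1 | h1
  · apply hy
    obtain ⟨g, rfl⟩ := MulAction.exists_smul_eq G x y
    rw [eq_bot_iff]
    intro n hn
    have h2 : (⟨g⁻¹ * n * g, by
        rw [MulAction.mem_stabilizer_iff, mul_smul, mul_smul, inv_smul_eq_iff]; exact hn⟩ :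
        MulAction.stabilizer G x) ∈ N.subgroupOf (MulAction.stabilizer G x) :=
      hN.conj_mem' _ n.2 g
    rw [h1, Subgroup.mem_bot] at h2
    have h3 : g⁻¹ * n * g = 1 := congrArg Subtype.val h2
    rw [Subgroup.mem_bot]
    apply Subtype.ext
    simpa [mul_assoc, inv_mul_eq_one] using h3
  · apply h.2
    rw [eq_top_iff]
    intro g _
    obtain ⟨n, hn⟩ := MulAction.exists_smul_eq N x (g • x)
    have h2 : (n : G)⁻¹ * g ∈ MulAction.stabilizer G x := by
      rw [MulAction.mem_stabilizer_iff, mul_smul, inv_smul_eq_iff]; exact hn.symm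
    have h3 : (n : G)⁻¹ * g ∈ N := Subgroup.subgroupOf_eq_top.1 h1 h2
    simpa using N.mul_mem n.2 h3

end Cfsg.Agent.S4300
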