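import Cfsg.Statements.S4301
import Mathlib.Tactic.Group

set_option autoImplicit false
open Cfsg

namespace Cfsg.Agent.S4301

/-- One-point extension of a multiply transitive group. Let X be a set and G a group of permutations of Option X (the set X with one extra point ∗ = none) all of whose elements fix ∗, such that G is k-transitive on the points of X for some k ≥ 2, X having at least k points. Suppose a permutation h of Option X and an element g of G satisfy: h interchanges ∗ with a point x of X and fixes a point y of X; g interchanges x and y; (g h)³ and h² lie in G; and for every f in G fixing x, the product h f h lies in G and fixes x. Then an element of the group generated by G and h fixes ∗ exactly when it lies in G, and that group acts (k+1)-transitively on Option X. -/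
theorem result {X : Type*} (G : Subgroup (Equiv.Perm (Option X))) (hfix : ∀ f ∈ G, f none = none)
    (k : ℕ) (hk : 2 ≤ k) (hkX : Nonempty (Fin k ↪ X))
    (htrans : ∀ a b : Fin k ↪ X, ∃ f ∈ G, ∀ i, f (some (a i)) = some (b i))
    (h g : Equiv.Perm (Option X)) (hg : g ∈ G) (x y : X)
    (h1 : h none = some x) (h2 : h (some x) = none) (h3 : h (some y) = some y)
    (h4 : g (some x) = some y) (h5 : g (some y) = some x)
    (h6 : (g * h) ^ 3 ∈ G) (h7 : h ^ 2 ∈ G)
    (h8 : ∀ f ∈ G, f (some x) = some x → h * f * h ∈ G ∧ (h * f * h) (some x) = some x) :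
    (∀ f ∈ Subgroup.closure ((G : Set (Equiv.Perm (Option X))) ∪ {h}), f none = none ↔ f ∈ G) ∧
      MulAction.IsMultiplyPretransitive (Subgroup.closure ((G : Set (Equiv.Perm (Option X))) ∪ {h})) (Option X) (k + 1) := by
  have hxy : x ≠ y := by
    rintro rfl
    rw [h2] at h3; cases h3
  have hsome : ∀ f ∈ G, ∀ a : X, ∃ b : X, f (some a) = some b := by
    intro f hf a
    cases hfa : f (some a) with
    | none => exact absurd (f.injective (hfa.trans (hfix f hf).symm)) (by simp)
    | some b => exact ⟨b, rfl⟩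
  classical
  -- two-point transitivity
  have h2tr : ∀ a b c d : X, a ≠ b → c ≠ d → ∃ f ∈ G, f (some a) = some c ∧ f (some b) = some d := by
    have ext2 : ∀ a b : X, a ≠ b → ∃ e : Fin k ↪ X, e ⟨0, by omega⟩ = a ∧ e ⟨1, by omega⟩ = b := by
      intro a b hab
      obtain ⟨e⟩ := hkX
      let e1 := e.trans (Equiv.swap (e ⟨0, by omega⟩) a).toEmbedding
      have he1 : e1 ⟨0, by omega⟩ = a := by simp [e1]
      have hne : e1 ⟨1, by omega⟩ ≠ a := by
        rw [← he1]; intro h; simpa using e1.injective h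
      refine ⟨e1.trans (Equiv.swap (e1 ⟨1, by omega⟩) b).toEmbedding, ?_, ?_⟩
      · simp only [Function.Embedding.trans_apply, Equiv.coe_toEmbedding]
        rw [he1, Equiv.swap_apply_of_ne_of_ne hne.symm hab]
      · simp only [Function.Embedding.trans_apply, Equiv.coe_toEmbedding, Equiv.swap_apply_left]
    intro a b c d hab hcd
    obtain ⟨e1, ha, hb⟩ := ext2 a b hab
    obtain ⟨e2, hc, hd⟩ := ext2 c d hcd
    obtain ⟨f, hf, hf2⟩ := htrans e1 e2
    exact ⟨f, hf, by rw [← ha, ← hc, hf2], by rw [← hb, ← hd, hf2]⟩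
  have hinv : h⁻¹ = (h ^ 2)⁻¹ * h := by group
  -- the set `G ∪ G h G`
  let S : Equiv.Perm (Option X) → Prop := fun f => f ∈ G ∨ ∃ a ∈ G, ∃ b ∈ G, f = a * h * b
  have hSl : ∀ a ∈ G, ∀ f, S f → S (a * f) := by
    rintro a ha f (hf | ⟨c, hc, d, hd, rfl⟩)
    · exact Or.inl (G.mul_mem ha hf)
    · exact Or.inr ⟨a * c, G.mul_mem ha hc, d, hd, by group⟩
  have hSr : ∀ a ∈ G, ∀ f, S f → S (f * a) := by
    rintro a ha f (hf | ⟨c, hc, d, hd, rfl⟩)
    · exact Or.inl (G.mul_mem hf ha)
    · exact Or.inr ⟨c, hc, d * a, G.mul_mem hd ha, by group⟩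
  have hhfh : ∀ f ∈ G, S (h * f * h) := by
    intro f hf
    by_cases hfx : f (some x) = some x
    · exact Or.inl (h8 f hf hfx).1
    · obtain ⟨z, hz⟩ := hsome f hf x
      have hzx : z ≠ x := by rintro rfl; exact hfx hz
      obtain ⟨a, ha, hax, haz⟩ := h2tr x y x z hxy hzx.symm
      have hb : g⁻¹ * a⁻¹ * f ∈ G := G.mul_mem (G.mul_mem (G.inv_mem hg) (G.inv_mem ha)) hf
      have hbx : (g⁻¹ * a⁻¹ * f) (some x) = some x := by
        simp only [Equiv.Perm.coe_mul, Function.comp_apply, hz]
        rw [← haz, ← h4]; simp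
      have e : h * f * h = (h * a * h * (h ^ 2)⁻¹ * g⁻¹ * (g * h) ^ 3 * (h ^ 2)⁻¹) * h *
          (g⁻¹ * (h ^ 2)⁻¹ * (h * (g⁻¹ * a⁻¹ * f) * h)) := by
        simp only [pow_succ, pow_zero, one_mul]; group
      refine Or.inr ⟨_, ?_, _, ?_, e⟩
      · exact G.mul_mem (G.mul_mem (G.mul_mem (G.mul_mem (h8 a ha hax).1 (G.inv_mem h7))
          (G.inv_mem hg)) h6) (G.inv_mem h7)
      · exact G.mul_mem (G.mul_mem (G.inv_mem hg) (G.inv_mem h7)) (h8 _ hb hbx).1
  have hSh : ∀ f, S f → S (h * f) := by
    rintro f (hf | ⟨c, hc, d, hd, rfl⟩)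
    · exact Or.inr ⟨1, G.one_mem, f, hf, by group⟩
    · have := hSr d hd _ (hhfh c hc)
      rwa [show h * c * h * d = h * (c * h * d) by group] at this
  have hS : ∀ f ∈ Subgroup.closure ((G : Set (Equiv.Perm (Option X))) ∪ {h}), S f := by
    intro f hf
    induction hf using Subgroup.closure_induction_left with
    | one => exact Or.inl G.one_mem
    | mul_left a ha f _ ih =>
      rcases ha with ha | rfl
      · exact hSl a ha f ih
      · exact hSh f ih
    | inv_mul_cancel a ha f _ ih =>
      rcases ha with ha | rfl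
      · exact hSl _ (G.inv_mem ha) f ih
      · rw [hinv, mul_assoc]; exact hSl _ (G.inv_mem h7) _ (hSh f ih)
  set T := Subgroup.closure ((G : Set (Equiv.Perm (Option X))) ∪ {h}) with hT
  have hGT : G ≤ T := fun f hf => Subgroup.subset_closure (Or.inl hf)
  have hhT : h ∈ T := Subgroup.subset_closure (Or.inr rfl)
  refine ⟨fun f hf => ⟨fun hn => ?_, hfix f⟩, ?_⟩
  · rcases hS f hf with h0 | ⟨a, ha, b, hb, rfl⟩
    · exact h0
    · exfalso
      simp only [Equiv.Perm.coe_mul, Function.comp_apply, hfix b hb, h1] at hn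
      obtain ⟨z, hz⟩ := hsome a ha x
      rw [hz] at hn; cases hn
  · have hnone : ∀ o : Option X, ∃ u ∈ T, u o = none := by
      intro o
      cases o with
      | none => exact ⟨1, T.one_mem, rfl⟩
      | some z =>
        by_cases hz : z = x
        · subst hz; exact ⟨h, hhT, h2⟩
        · obtain ⟨a, ha, haz, -⟩ := h2tr z x x y hz hxy
          exact ⟨h * a, T.mul_mem hhT (hGT ha), by simp [haz, h2]⟩
    have htail : ∀ a : Fin (k + 1) ↪ Option X, ∃ u ∈ T, ∃ e : Fin k ↪ X,
        u (a 0) = none ∧ ∀ i, u (a i.succ) = some (e i) := by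
      intro a
      obtain ⟨u, hu, hu0⟩ := hnone (a 0)
      have : ∀ i : Fin k, ∃ z, u (a i.succ) = some z := by
        intro i
        cases hi : u (a i.succ) with
        | none => exact absurd (a.injective (u.injective (hi.trans hu0.symm))) (Fin.succ_ne_zero i)
        | some z => exact ⟨z, rfl⟩
      choose e he using this
      refine ⟨u, hu, ⟨e, fun i j hij => ?_⟩, hu0, he⟩
      exact Fin.succ_injective _ (a.injective (u.injective (by rw [he, he, hij])))
    refine ⟨fun a b => ?_⟩
    obtain ⟨u, hu, e, hu0, hue⟩ := htail a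
    obtain ⟨v, hv, e', hv0, hve⟩ := htail b
    obtain ⟨f, hf, hfe⟩ := htrans e e'
    refine ⟨⟨v⁻¹ * f * u, T.mul_mem (T.mul_mem (T.inv_mem hv) (hGT hf)) hu⟩, ?_⟩
    ext1 i
    change v⁻¹ (f (u (a i))) = b i
    rw [Equiv.Perm.inv_eq_iff_eq]
    refine Fin.cases ?_ (fun j => ?_) i
    · rw [hu0, hv0, hfix f hf]
    · rw [hue, hve, hfe]

end Cfsg.Agent.S4301
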