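import Cfsg.Statements.S4304
import Cfsg.Agent.H23.SylNum

set_option autoImplicit false
open Cfsg

namespace Cfsg.Agent.S4304

/-- No finite group has exactly 15 Sylow 7-subgroups. -/
theorem result {G : Type*} [Group G] [Finite G] : Nat.card (Sylow 7 G) ≠ 15 := by
  exact fun h => absurd ((isPrimePow_iff_unique_prime_dvd.1 (H23.primePow_of_card_sylow (p := 7) (by norm_num)
    (by norm_num) h)).unique (y₁ := 3) (y₂ := 5) (by norm_num) (by norm_num)) (by norm_num)

end Cfsg.Agent.S4304
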