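import Cfsg.Statements.S4305
import Cfsg.Agent.H5.Tw2

set_option autoImplicit false
open Cfsg

namespace Cfsg.Agent.S4305
open H5
open H18 H1 Subgroup

/-- Let the symmetric group of degree 3 act by automorphisms on a finite solvable group `G` of order prime to 6, so that only the identity of `G` is fixed by all of it. Then the derived subgroup of `G` is nilpotent. -/
theorem result {G : Type*} [Group G] [Finite G] [Group.IsSolvable G]
    [MulDistribMulAction (Equiv.Perm (Fin 3)) G] (hcop : (Nat.card G).Coprime 6)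
    (hfpf : ∀ g : G, (∀ a : Equiv.Perm (Fin 3), a • g = g) → g = 1) :
    Group.IsNilpotent ↥(commutator G) := by
  let φ : Equiv.Perm (Fin 3) →* MulAut G := MulDistribMulAction.toMulAut _ G
  have h0 : hl φ ⊤ ⊓ C(hr φ ⊤) = ⊥ := by
    rw [hl_top_inf_C, hl_eq_bot, eq_bot_iff]
    exact fun g hg => hfpf g (mem_fixS_top.1 hg)
  have hA : Nat.card (hr φ ⊤) = 6 := by rw [card_hr, card_top, Nat.card_perm]; simp [Nat.factorial]
  have hs : Solv (hl φ ⊤) := solv_hl.2 solv_of_solv
  have := nil_of_le_fit (der_le_fit_of_six hA (fun h => absurd (comm_of_cent (abel_hr.1 h) (mem_top (Equiv.swap 0 1))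
    (mem_top (Equiv.swap 1 2))) (by decide)) ⟨hr_norm_top, by rw [hA, card_hl, card_top]; exact hcop.symm, Or.inr hs⟩ hs h0)
  rw [← hl_comm, nil_hl] at this
  exact this

end Cfsg.Agent.S4305
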