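import Cfsg.Statements.S4306
import Cfsg.Agent.H5.Tw2

set_option autoImplicit false
open Cfsg

namespace Cfsg.Agent.S4306
open H5
open H18 H1 Subgroup

/-- Let `A` be a non-abelian group of order `pq` with `p, q` distinct primes, acting by automorphisms on a finite solvable group `G` of order prime to `pq`, so that only the identity of `G` is fixed by all of `A`. Then `G` has Fitting height at most 2: there is a normal nilpotent subgroup `F` of `G` with `G/F` nilpotent. -/
theorem result {G A : Type*} [Group G] [Finite G]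
    [Group.IsSolvable G] [Group A] [Finite A] [MulDistribMulAction A G] (p q : ℕ) (hp : p.Prime) (hq : q.Prime) (hpq : p ≠ q)
    (hA : Nat.card A = p * q) (hAna : ¬ IsMulCommutative A) (hcop : (Nat.card G).Coprime (p * q))
    (hfpf : ∀ g : G, (∀ a : A, a • g = g) → g = 1) :
    ∃ F : Subgroup G, ∃ hF : F.Normal, Group.IsNilpotent ↥F ∧ Group.IsNilpotent (G ⧸ F) := by
  let φ : A →* MulAut G := MulDistribMulAction.toMulAut A G
  have h0 : hl φ ⊤ ⊓ C(hr φ ⊤) = ⊥ := by
    rw [hl_top_inf_C, hl_eq_bot, eq_bot_iff]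
    exact fun g hg => hfpf g (mem_fixS_top.1 hg)
  have h2 := lns_hl.1 (lns_two_of_pq hp hq hpq (by rw [card_hr, card_top, hA])
    (fun h => hAna ⟨⟨fun a b => comm_of_cent (abel_hr.1 h) (mem_top a) (mem_top b)⟩⟩) hr_norm_top
    (by rw [card_hr, card_hl, card_top, card_top, hA]; exact hcop.symm) (solv_hl.2 solv_of_solv) h0)
  have h3 := lns_one_eq_bot_iff.1 (lns_succ_eq_bot_iff'.1 h2)
  have hF : F((⊤ : Subgroup G)).Normal := fit_nml.normal
  refine ⟨_, hF, fit_nil, ?_⟩
  rw [← nres_le_iff_nil fit_nml.norm, nres_le_iff_lcs] at h3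
  obtain ⟨k, hk⟩ := h3
  refine nil_top_iff.1 (nil_iff_lcs.2 ⟨k, ?_⟩)
  rw [← map_top_of_surjective _ (QuotientGroup.mk'_surjective F((⊤ : Subgroup G))), ← map_lowerCentralSeries,
    Subgroup.map_eq_bot_iff, QuotientGroup.ker_mk']
  exact hk

end Cfsg.Agent.S4306
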