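import Cfsg.Statements.S4310
import Cfsg.Agent.H1.FTCor

set_option autoImplicit false
open Cfsg

namespace Cfsg.Agent.S4310

section
open Subgroup H18
variable {G : Type*} [Group G] [Finite G] {π : Set ℕ} {A B X N H0 : Subgroup G}

def CPi (π : Set ℕ) (X : Subgroup G) : Prop :=
  (∃ H, Hall π H X) ∧ ∀ H K, Hall π H X → Hall π K X → ∃ g ∈ X, K = cj g H

theorem cpi_nml (h0 : H0 ⊴ N) (hB : B ⊴ N) (hH : Hall π H0 B) (hi : PiNat π (B.relIndex N)) : CPi π N := by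
  have hb : Hall πᶜ (B ⫽ H0) (N ⫽ H0) := ⟨(hB.mim (f := coset H0)).le, hH.quo_compl (hB.le.trans h0.norm), by
    rw [relIndex_quo hB.le h0.norm hH.le]; exact hi.compl_compl⟩
  have hn : N ⫽ H0 ≤ N(B ⫽ H0) := (hB.mim (f := coset H0)).norm
  refine ⟨?_, fun H K h1 h2 => ?_⟩
  · obtain ⟨U, hU⟩ := hb.exists_compl hn
    rw [compl_compl] at hU
    exact ⟨_, hU.qpre h0 hH.pi⟩
  · have a1 := h1.mim (f := coset H0) h0.norm
    have a2 := h2.mim (f := coset H0) h0.norm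
    obtain ⟨k, hk, e⟩ := H1.sd_conj (sd_of_hall' hb hn a1) (sd_of_hall' hb hn a2) (hb.pi.coprime' a1.pi)
    obtain ⟨x, hx, rfl⟩ := (mem_quo (hB.le.trans h0.norm)).1 hk
    have hxN := hB.le hx
    refine ⟨x, hxN, quo_inj (h0.of_le (h2.nml_le h0 hH.pi) h2.le)
      (h0.of_le ((h1.cj_mem hxN).nml_le h0 hH.pi) (h1.cj_mem hxN).le) ?_⟩
    rw [e, mim_cj (h0.norm hxN)]

theorem cpi_ext (hA : A ⊴ X) (hi : PiNat π (A.relIndex X)) (h : CPi π A) : CPi π X := by
  obtain ⟨⟨H0, h0⟩, hc⟩ := h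
  have hN : X ⊓ N(H0) ≤ X := inf_le_left
  have n0 : H0 ⊴ X ⊓ N(H0) := ⟨le_inf (h0.le.trans hA.le) le_N, inf_le_right⟩
  have hB := hA.inf_right hN
  have hB0 : H0 ≤ A ⊓ (X ⊓ N(H0)) := le_inf h0.le n0.le
  have c := cpi_nml n0 hB (h0.of_le hB0 inf_le_left) (by
    rw [H18.relIndex_inf_right]; exact hi.of_dvd (hA.relIndex_dvd hN))
  have fr : (X ⊓ N(H0)) ⊔ A = X := by
    refine le_antisymm (sup_le hN hA.le) fun x hx => ?_
    obtain ⟨a, ha, e⟩ := hc _ _ (h0.cj_N (hA.norm hx)) h0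
    have : a * x ∈ X ⊓ N(H0) := mem_inf.2 ⟨mul_mem (hA.le ha) hx, mem_N_iff_cj.2 (by rw [cj_mul, ← e])⟩
    have e2 : x = a⁻¹ * (a * x) := by group
    rw [e2]; exact mul_mem (mem_sup_right (inv_mem ha)) (mem_sup_left this)
  have ix : PiNat πᶜ ((X ⊓ N(H0)).relIndex X) := by
    have := Nrm2.relIndex_sup' (A := X ⊓ N(H0)) (B := A) (Or.inl (hN.trans hA.norm))
    rw [fr] at this
    rw [this, ← H18.relIndex_inf_left]
    exact h0.idx_of_le hB0
  have key : ∀ H, Hall π H X → ∃ g ∈ X, Hall π (cj g H) (X ⊓ N(H0)) := fun H hH => by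
    obtain ⟨a, ha, e⟩ := hc _ _ (hH.inf_nml hA) h0
    refine ⟨a, hA.le ha, (hH.cj_mem (hA.le ha)).of_le (le_inf (hH.cj_mem (hA.le ha)).le ?_) hN⟩
    rw [e, ← cj_N]
    exact cj_mono (norm_inf le_N (hH.le.trans hA.norm))
  refine ⟨c.1.imp fun H hH => hH.of_idx hN ix, fun H K h1 h2 => ?_⟩
  obtain ⟨g, hg, a1⟩ := key H h1
  obtain ⟨k, hk, a2⟩ := key K h2
  obtain ⟨n, hn, e⟩ := c.2 _ _ a1 a2
  exact ⟨k⁻¹ * (n * g), mul_mem (inv_mem hk) (mul_mem (hN hn) hg), by rw [cj_mul, cj_mul, ← e, cj_inv_cj]⟩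

theorem hall_sub {M : Subgroup X} : Hall π (M.map X.subtype) X ↔ Cfsg.IsPiHall π M := by
  have e : (M.map X.subtype).relIndex X = M.index := by
    rw [relIndex, subgroupOf, comap_map_eq_self_of_injective X.subtype_injective]
  exact ⟨fun h => ⟨fun p hp hd => h.pi p hp (by rwa [card_map_of_injective X.subtype_injective]),
    fun p hp hπ => (e ▸ h.idx).not_dvd' hp hπ⟩, fun h => ⟨map_subtype_le _, fun p hp hd => h.1 p hp
      (by rwa [card_map_of_injective X.subtype_injective] at hd), fun p hp hd hπ => h.2 p hp hπ (e ▸ hd)⟩⟩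

theorem cpi_of (h : Cfsg.IsCPiGroup π X) : CPi π X := by
  obtain ⟨⟨H, hH⟩, hc⟩ := h
  refine ⟨⟨_, hall_sub.2 hH⟩, fun H K h1 h2 => ?_⟩
  have e1 : (H.subgroupOf X).map X.subtype = H := map_subgroupOf_eq_of_le h1.le
  have e2 : (K.subgroupOf X).map X.subtype = K := map_subgroupOf_eq_of_le h2.le
  obtain ⟨g, e⟩ := hc _ _ (hall_sub.1 (e1.symm ▸ h1)) (hall_sub.1 (e2.symm ▸ h2))
  exact ⟨g, g.2, by rw [← e2, e, ← cj_def, ← cj_map_subtype, e1]⟩

theorem hall_mk {Q : Type*} [Group Q] [Finite Q] {f : G →* Q} (hf : Function.Surjective f) {P : Subgroup G}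
    (h : Cfsg.IsPiHall π P) : Cfsg.IsPiHall π (P.map f) :=
  ⟨fun p hp hd => h.1 p hp (hd.trans (card_map_dvd P f)), fun p hp hπ hd => h.2 p hp hπ (hd.trans (index_map_dvd P hf))⟩
end

/-- Let `π` be a set of primes and `A` a normal subgroup of the finite group `G`. Suppose `A` has a Hall `π`-subgroup and all Hall `π`-subgroups of `A` are conjugate in `A`, and likewise for `G/A`. Then `G` has a Hall `π`-subgroup and all Hall `π`-subgroups of `G` are conjugate. (The conjugacy of complements of coprime order that the usual proof uses rests, in general, on the odd order Theorem.) -/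
theorem result {G : Type*} [Group G] [Finite G] (π : Set ℕ) (A : Subgroup G) [A.Normal]
    (hA : Cfsg.IsCPiGroup π ↥A) (hQ : Cfsg.IsCPiGroup π (G ⧸ A)) : Cfsg.IsCPiGroup π G := by
  obtain ⟨⟨U, hU⟩, hc⟩ := hQ
  have hf := QuotientGroup.mk'_surjective A
  have hAX : A ≤ U.comap (QuotientGroup.mk' A) := fun a ha => by
    rw [Subgroup.mem_comap, QuotientGroup.mk'_apply, (QuotientGroup.eq_one_iff a).2 ha]; exact one_mem _
  have hi : A.relIndex (U.comap (QuotientGroup.mk' A)) = Nat.card U := by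
    have := Subgroup.relIndex_ker (U.comap (QuotientGroup.mk' A)) (QuotientGroup.mk' A)
    rwa [QuotientGroup.ker_mk', Subgroup.map_comap_eq_self_of_surjective hf] at this
  have c := cpi_ext (H18.nml_top.of_le hAX le_top) (by rw [hi]; exact hU.1) (cpi_of hA)
  have ix : H18.PiNat πᶜ ((U.comap (QuotientGroup.mk' A)).relIndex ⊤) := by
    rw [Subgroup.relIndex_top_right, Subgroup.index_comap_of_surjective _ hf]
    exact fun p hp hd hπ => hU.2 p hp hπ hd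
  have key : ∀ H : Subgroup G, IsPiHall π H → ∃ g, H18.Hall π (H18.cj g H) (U.comap (QuotientGroup.mk' A)) :=
    fun H hH => by
    obtain ⟨q, e⟩ := hc _ _ (hall_mk hf hH) hU
    obtain ⟨g, rfl⟩ := hf q
    refine ⟨g, ((H18.hall_top_iff.2 hH).cj_top g).of_le ?_ le_top⟩
    rw [e, H18.cj_def]
    rintro _ ⟨x, hx, rfl⟩
    exact ⟨_, ⟨x, hx, rfl⟩, by simp⟩
  refine ⟨c.1.imp fun H hH => H18.hall_top_iff.1 (hH.of_idx le_top ix), fun H K h1 h2 => ?_⟩
  obtain ⟨g, a1⟩ := key H h1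
  obtain ⟨k, a2⟩ := key K h2
  obtain ⟨n, -, e⟩ := c.2 _ _ a1 a2
  exact ⟨k⁻¹ * (n * g), by rw [← H18.cj_def, H18.cj_mul, H18.cj_mul, ← e, H18.cj_inv_cj]⟩

end Cfsg.Agent.S4310
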