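import Cfsg.Statements.S4316
import Cfsg.Agent.H1.Rk3

set_option autoImplicit false
universe u
open Cfsg

namespace Cfsg.Agent.S4316

open H1 H18 Subgroup

/-- There is a function `f` of two natural-number arguments with the following property. Let `q` be a prime and `A` an elementary abelian group of order `q³` acting by automorphisms on a finite group `G` of order prime to `q`, and suppose that for every non-identity `a ∈ A` the derived subgroup of the fixed-point subgroup `C_G(a)` has order at most `m`. Then the derived subgroup of `G` has order at most `f(q, m)`. -/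
theorem result :
    ∃ f : ℕ → ℕ → ℕ, ∀ (q m : ℕ) (A G : Type u) [Group A] [Finite A] [Group G] [Finite G] [MulDistribMulAction A G],
      q.Prime → Nat.card A = q ^ 3 → (∀ a b : A, a * b = b * a) → (∀ a : A, a ^ q = 1) → ¬ q ∣ Nat.card G →
      (∀ a : A, a ≠ 1 → Nat.card ↥(commutator ↥(FixedPoints.subgroup (Subgroup.zpowers a) G)) ≤ m) →
      Nat.card ↥(commutator G) ≤ f q m := by
  refine ⟨derBound, fun q m A G _ _ _ _ _ hq cA ab ex nd hm => ?_⟩
  let φ : A →* MulAut G := MulDistribMulAction.toMulAut A G
  have : Finite (G ⋊[φ] A) := Finite.of_equiv _ SemidirectProduct.equivProd.symm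
  have iL := SemidirectProduct.inl_injective (φ := φ)
  have iR := SemidirectProduct.inr_injective (φ := φ)
  have cR : Nat.card (SemidirectProduct.inr (φ := φ)).range = q ^ 3 := by
    rw [← cA]; exact Nat.card_congr (MonoidHom.ofInjective iR).symm.toEquiv
  have cL : Nat.card (SemidirectProduct.inl (φ := φ)).range = Nat.card G :=
    Nat.card_congr (MonoidHom.ofInjective iL).symm.toEquiv
  have el : Elem q (SemidirectProduct.inr (φ := φ)).range := ⟨cent_iff.2 (by
    rintro _ ⟨a, rfl⟩ _ ⟨b, rfl⟩; rw [← map_mul, ← map_mul, ab]), by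
    rintro _ ⟨a, rfl⟩; rw [← map_pow, ex, map_one]⟩
  have cj : ∀ (a : A) (g : G), SemidirectProduct.inr (φ := φ) a * SemidirectProduct.inl g * (SemidirectProduct.inr a)⁻¹ =
      SemidirectProduct.inl (a • g) := fun a g => by rw [← map_inv, ← SemidirectProduct.inl_aut]; rfl
  have h := card_der_le (K := (SemidirectProduct.inl (φ := φ)).range) (m := m) hq el cR ⟨norm_iff.2 (by
    rintro _ ⟨a, rfl⟩ _ ⟨g, rfl⟩; exact ⟨_, (cj a g).symm⟩), by
      rw [cR, cL]; exact ((Nat.Prime.coprime_iff_not_dvd hq).2 nd).pow_left 3, Or.inl el.abel.solv⟩ (by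
    rintro _ ⟨a, rfl⟩ a1
    have e : (SemidirectProduct.inl (φ := φ)).range ⊓ C1(SemidirectProduct.inr (φ := φ) a) =
        (FixedPoints.subgroup (zpowers a) G).map (SemidirectProduct.inl (φ := φ)) := by
      ext z
      constructor
      · rintro ⟨⟨g, rfl⟩, hg⟩
        refine ⟨g, fun b => ?_, rfl⟩
        have h1 : a • g = g := iL (by rw [← cj, ← mem_C1.1 hg, mul_inv_cancel_right])
        exact (show zpowers a ≤ MulAction.stabilizer A g from zpowers_le.2 h1) b.2
      · rintro ⟨g, hg, rfl⟩
        refine ⟨⟨g, rfl⟩, mem_C1.2 ?_⟩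
        have h1 : a • g = g := hg ⟨a, mem_zpowers a⟩
        have := cj a g
        rw [h1, mul_inv_eq_iff_eq_mul] at this
        exact this.symm
    rw [e, ← map_commutator, card_map_of_injective iL, ← map_subtype_commutator, card_map_of_injective (subtype_injective _)]
    exact hm a fun c => a1 (by rw [c, map_one]))
  rwa [MonoidHom.range_eq_map, ← map_commutator, card_map_of_injective iL] at h

end Cfsg.Agent.S4316
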