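import Cfsg.Statements.S4320


set_option autoImplicit false
open Cfsg

open Finset Subgroup

namespace Cfsg.Agent.S4320

section
variable {R E : Type*} [CommRing R] [AddCommGroup E] [Module R E]

theorem det_trick {ι : Type*} [Fintype ι] (ε : R →+* ℤ) (m : ι → E) (n : ι → ℕ)
    (h : ∀ i, n i • m i ∈ RingHom.ker ε • Submodule.span R (Set.range m)) :
    ∃ μ : R, ε μ = ∏ i, (n i : ℤ) ∧ ∀ x ∈ Submodule.span R (Set.range m), μ • x = 0 := by
  classical
  choose a ha ha' using fun i => (Submodule.mem_ideal_smul_span_iff_exists_sum _ _ _).1 (h i)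
  let B : Matrix ι ι R := Matrix.diagonal (fun i => (n i : R)) - Matrix.of fun i j => a i j
  have h1 : ∀ i, ∑ j, B i j • m j = 0 := fun i => by
    have := ha' i
    rw [Finsupp.sum_fintype _ _ (by simp)] at this
    simp [B, sub_smul, this, Matrix.diagonal_apply, Nat.cast_smul_eq_nsmul]
  refine ⟨B.det, ?_, fun x hx => ?_⟩
  · rw [RingHom.map_det, ← Matrix.det_diagonal]
    congr 1
    ext i j
    simp [B, RingHom.mem_ker.1 (ha i j), Matrix.diagonal_apply, apply_ite ε]
  · refine Submodule.span_le (p := LinearMap.ker (DistribSMul.toLinearMap R E B.det)).2 ?_ hx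
    rintro _ ⟨k, rfl⟩
    have : ∑ j, (B.adjugate * B) k j • m j = 0 := by
      simp only [Matrix.mul_apply, sum_smul, mul_smul]
      rw [sum_comm]
      simp [← smul_sum, h1]
    simpa [Matrix.adjugate_mul, Matrix.one_apply] using this

theorem core {G : Type*} [Group G] [Finite G] (τ : G →* R) (ε : R →+* ℤ) (hε : ∀ g, ε (τ g) = 1)
    (d : G → E) (hd : ∀ g h, d (g * h) = τ h • d g + d h) :
    ∃ μ : R, ε μ = Nat.card (Abelianization G) ∧ ∀ g, μ • d g = 0 := by
  classical
  have : Finite (Abelianization G) := Quotient.finite _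
  have := Fintype.ofFinite (commutator G)
  obtain ⟨ι, _, n, hn, ⟨e⟩⟩ := CommGroup.equiv_prod_multiplicative_zmod_of_finite (Abelianization G)
  choose g hg using fun i => (QuotientGroup.mk'_surjective (commutator G))
    (e.symm (Pi.mulSingle i (.ofAdd 1)))
  change ∀ i, Abelianization.of (g i) = _ at hg
  have d1 : d 1 = 0 := by simpa using hd 1 1
  let m : ι ⊕ commutator G → E := Sum.elim (fun i => d (g i)) fun a => d a
  let M := Submodule.span R (Set.range m)
  let K : Subgroup G := ⟨⟨⟨{x | d x ∈ M}, fun {a b} ha hb => by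
    rw [Set.mem_ofPred, hd]; exact add_mem (M.smul_mem _ ha) hb⟩, d1 ▸ M.zero_mem⟩, fun {a} ha => by
      have := hd a a⁻¹
      rw [mul_inv_cancel, d1, eq_comm, add_eq_zero_iff_neg_eq] at this
      rw [Set.mem_ofPred, ← this]; exact neg_mem (M.smul_mem _ ha)⟩
  have hK : ∀ x, d x ∈ M := fun x => by
    obtain ⟨k, hk, h⟩ : Abelianization.of x ∈ K.map Abelianization.of := by
      rw [← e.symm_apply_apply (Abelianization.of x), ← univ_prod_mulSingle (e _), map_prod]
      refine Subgroup.prod_mem _ fun i _ => ?_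
      obtain ⟨k, hk⟩ := ZMod.intCast_surjective (e (Abelianization.of x) i).toAdd
      rw [← ofAdd_toAdd (e _ i), ← hk, ← zsmul_one, ofAdd_zsmul, Pi.mulSingle_zpow, map_zpow, ← hg]
      exact zpow_mem (K.mem_map_of_mem _ (Submodule.subset_span (s := Set.range m) ⟨.inl i, rfl⟩)) _
    exact (K.mul_mem_cancel_left (inv_mem hk)).1
      (Submodule.subset_span ⟨.inr ⟨_, QuotientGroup.eq.1 h⟩, rfl⟩)
  let φ : G →* Multiplicative (E ⧸ RingHom.ker ε • M) :=
    .mk' (fun x => .ofAdd (Submodule.Quotient.mk (d x))) fun a b => by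
      rw [← ofAdd_add, ← Submodule.Quotient.mk_add, EmbeddingLike.apply_eq_iff_eq,
        Submodule.Quotient.eq, hd, add_sub_add_right_eq_sub, ← one_smul R (d a), smul_smul, mul_one,
        ← sub_smul]
      exact Submodule.smul_mem_smul (by simp [RingHom.mem_ker, hε]) (hK a)
  have h1 := Abelianization.commutator_subset_ker φ
  obtain ⟨μ, h2, h3⟩ := det_trick ε m (Sum.elim n 1) (by
    rintro (i | a) <;> rw [← Submodule.Quotient.mk_eq_zero]
    · have : g i ^ n i ∈ commutator G := (QuotientGroup.eq_one_iff _).1 (show Abelianization.of _ = 1 by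
        rw [map_pow, hg, ← map_pow, ← Pi.mulSingle_pow, ← ofAdd_nsmul]; simp)
      have := h1 this
      rwa [MonoidHom.mem_ker, map_pow] at this
    · rw [Sum.elim_inr, Pi.one_apply, one_smul]; exact h1 a.2)
  exact ⟨μ, by simp [h2, Nat.card_congr e.toEquiv, Nat.card_pi, Nat.card_congr Multiplicative.toAdd], fun x => h3 _ (hK x)⟩

end

/-- The Principal Ideal Theorem of class field theory in its group-theoretic form: for every finite group `G`, the transfer homomorphism from `G` into the abelianization `G'/G''` of its derived subgroup `G'` is the trivial homomorphism. -/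
theorem result {G : Type*} [Group G] [Finite G] :
    MonoidHom.transfer (Abelianization.of : ↥(commutator G) →* Abelianization ↥(commutator G)) =
      (1 : G →* Abelianization ↥(commutator G)) := by
  classical
  ext g
  have : Finite (Abelianization G) := Quotient.finite _
  let _ := (commutator G).fintypeQuotientOfFiniteIndex
  let _ : Fintype (Abelianization G) := (commutator G).fintypeQuotientOfFiniteIndex
  let T : (commutator G).LeftTransversal := default
  let t : Abelianization G → G := fun q => T.2.leftQuotientEquiv q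
  have ht : ∀ q, Abelianization.of (t q) = q := fun q => T.2.leftQuotientEquiv.symm_apply_apply q
  have hm : ∀ x q, (t (Abelianization.of x * q))⁻¹ * x * t q ∈ commutator G := fun x q => by
    rw [mul_assoc]; exact QuotientGroup.eq.1 ((ht _).trans (by rw [← ht q, ← map_mul, ht]; rfl))
  let E := Abelianization G → Additive (Abelianization (commutator G)) × ℤ
  let τ : Abelianization G →* Module.End ℤ E :=
    ⟨⟨fun q => LinearMap.funLeft ℤ _ (q * ·), LinearMap.ext fun f => funext fun x =>
      congrArg f (one_mul x)⟩, fun a b => LinearMap.ext fun f => funext fun x =>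
      congrArg f (show a * b * x = b * (a * x) by rw [mul_comm a, mul_assoc])⟩
  let _ := Module.compHom E (MonoidAlgebra.lift ℤ _ _ τ).toRingHom
  have hs : ∀ (μ : MonoidAlgebra ℤ (Abelianization G)) (f : E), (μ • f) 1 = ∑ q, μ.coeff q • f q :=
    fun μ f => by
      change (MonoidAlgebra.lift ℤ _ _ τ μ f) 1 = _
      rw [MonoidAlgebra.lift_apply, Finsupp.sum_fintype _ _ (by simp)]
      simp [τ, E]
  obtain ⟨μ, h1, h2⟩ := core (E := E) ((MonoidAlgebra.of ℤ _).comp Abelianization.of)
    (MonoidAlgebra.lift ℤ ℤ _ 1).toRingHom (by simp) (fun x q => (.ofMul (Abelianization.of ⟨_, hm x q⟩),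
      (if Abelianization.of x * q = 1 then 1 else 0) - if q = 1 then 1 else 0)) fun x y => by
    funext q
    change _ = (MonoidAlgebra.lift ℤ _ _ τ (MonoidAlgebra.of ℤ _ _) _) q + _
    rw [MonoidAlgebra.lift_of]
    refine Prod.ext (congrArg Additive.ofMul (Eq.trans ?_ ((Abelianization.of (G := commutator G)).map_mul
      ⟨_, hm x (Abelianization.of y * q)⟩ ⟨_, hm y q⟩))) ?_
    · exact congrArg _ (Subtype.ext (by simp [mul_assoc]))
    · exact Eq.trans (by simp only [map_mul, mul_assoc]) (sub_add_sub_cancel _ _ _).symm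
  have h3 : ∀ q, μ.coeff q = μ.coeff 1 := fun q => by
    have := congrArg Prod.snd ((hs _ _).symm.trans (congrFun (h2 (t q⁻¹)) 1))
    exact sub_eq_zero.1 (by simpa [Prod.snd_sum, mul_sub, ht, inv_mul_eq_one] using this.trans (rfl : _ = (0 : ℤ)))
  change MonoidAlgebra.lift ℤ ℤ _ 1 μ = _ at h1
  rw [MonoidAlgebra.lift_apply, Finsupp.sum_fintype _ _ (by simp),
    sum_congr rfl fun q _ => by rw [h3 q], Nat.card_eq_fintype_card] at h1
  have h4 : μ.coeff 1 = 1 := by simpa using h1
  have := congrArg Prod.fst ((hs _ _).symm.trans (congrFun (h2 g) 1))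
  simp only [h3, h4, one_smul, Prod.fst_sum, ← ofMul_prod] at this
  rw [MonoidHom.transfer_def _ T, MonoidHom.one_apply]
  refine Eq.trans ?_ (congrArg Additive.toMul this)
  refine Fintype.prod_equiv (MulAction.toPerm g).symm _ _ fun q => congrArg _ (Subtype.ext ?_)
  obtain ⟨q, rfl⟩ := (MulAction.toPerm g).surjective q
  simp only [smul_apply_eq_smul_apply_inv_smul, MulAction.toPerm_apply, MulAction.toPerm_symm_apply,
    inv_smul_smul, mul_assoc]
  obtain ⟨q, rfl⟩ := QuotientGroup.mk_surjective q
  rfl

end Cfsg.Agent.S4320
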