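import Cfsg.Statements.S4323
import Cfsg.Agent.H3.AbFix

set_option autoImplicit false
open Cfsg

namespace Cfsg.Agent.S4323

/-- Let `q` be a prime and `A` a non-cyclic group of order `q²` acting by automorphisms on a finite group `G` of order prime to `q`, such that the fixed-point subgroup `C_G(a)` is abelian for every non-identity `a ∈ A`. Then `G` is solvable. -/
theorem result {A G : Type*} [Group A] [Finite A]
    [Group G] [Finite G] [MulDistribMulAction A G] (q : ℕ) (hq : q.Prime) (hA : Nat.card A = q ^ 2) (hnc : ¬ IsCyclic A)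
    (hcop : ¬ q ∣ Nat.card G) (h : ∀ a : A, a ≠ 1 → IsMulCommutative ↥(FixedPoints.subgroup (Subgroup.zpowers a) G)) :
    Group.IsSolvable G := by
  have : Fact q.Prime := ⟨hq⟩
  let φ := MulDistribMulAction.toMulAut A G
  have ab : IsMulCommutative A := IsPGroup.isMulCommutative_of_card_eq_prime_sq hA
  have hE : H18.Elem q (H1.hr φ ⊤) := by
    refine ⟨H1.abel_hr.2 (H18.cent_iff.2 fun a _ b _ => ab.is_comm.comm a b), fun z hz => ?_⟩
    obtain ⟨a, -, rfl⟩ := H1.mem_hr.1 hz
    have h1 : orderOf a ∣ q ^ 2 := hA ▸ orderOf_dvd_natCard a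
    obtain ⟨i, hi, e⟩ := (Nat.dvd_prime_pow hq).1 h1
    have h2 : orderOf a ∣ q := by
      interval_cases i
      · rw [e]; simp
      · rw [e]; simp
      · exact absurd (isCyclic_of_orderOf_eq_card a (e.trans hA.symm)) hnc
    rw [← map_pow, orderOf_dvd_iff_pow_eq_one.1 h2, map_one]
  have hc : Nat.card (H1.hr φ ⊤) = q ^ 2 := by rw [H1.card_hr, Subgroup.card_top, hA]
  refine H18.solv_top_iff.1 (H1.solv_hl.1 (H3.AF.solv (r := q) (A := H1.hr φ ⊤) (K := H1.hl φ ⊤)
    ⟨hq, hE, hc, fun e => hnc ?_, ⟨H1.hr_norm_top, ?_, .inl hE.abel.solv⟩, fun z hz z1 => ?_⟩))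
  · have := H1.cyc_hr.1 e
    exact isCyclic_of_surjective _ Subgroup.topEquiv.surjective
  · rw [hc, H1.card_hl, Subgroup.card_top]
    exact ((Nat.Prime.coprime_iff_not_dvd hq).2 hcop).pow_left 2
  · obtain ⟨a, -, rfl⟩ := H1.mem_hr.1 hz
    rw [H1.hl_inf_C1, H1.abel_hl, top_inf_eq]
    refine (H18.abel_of_comm (h a fun e => z1 (by rw [e, map_one]))).mono fun x hx => ?_
    exact fun b => H1.mem_fixS.1 hx b b.2

end Cfsg.Agent.S4323
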