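import Cfsg.Statements.S4416
import Cfsg.Agent.H21.ExtraClass

set_option autoImplicit false
open Cfsg

namespace Cfsg.Agent.S4416

/-- Classification of extraspecial 2-groups in intrinsic form. An extraspecial 2-group has order 2^(2m+1) for some m ≥ 1, and the number of its elements squaring to the identity is either 2^(2m) + 2^m or 2^(2m) − 2^m; two extraspecial 2-groups of the same order with the same number of such elements are isomorphic. (The two cases are the central products of m dihedral groups of order 8, and of m − 1 dihedral groups with one quaternion group.) -/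
theorem result (E : Type*) [Group E] [Finite E] (hE : Cfsg.IsExtraspecial 2 E) :
    (∃ m : ℕ, 1 ≤ m ∧ Nat.card E = 2 ^ (2 * m + 1) ∧
      (Nat.card {x : E // x ^ 2 = 1} = 2 ^ (2 * m) + 2 ^ m ∨ Nat.card {x : E // x ^ 2 = 1} = 2 ^ (2 * m) - 2 ^ m)) ∧
    ∀ (E' : Type*) [Group E'] [Finite E'], Cfsg.IsExtraspecial 2 E' → Nat.card E' = Nat.card E →
      Nat.card {x : E' // x ^ 2 = 1} = Nat.card {x : E // x ^ 2 = 1} → Nonempty (E ≃* E') := by
  have hp := Nat.prime_two
  obtain ⟨h1, h2⟩ := (H21.isExtraspecial_iff_top hp).1 hE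
  constructor
  · obtain ⟨n, hn⟩ := h1.exists_card hp
    have e := h1.ssum_eq hn
    refine ⟨n, Nat.one_le_iff_ne_zero.2 (mt (h1.abel_iff_card hp hn).2 h2), Subgroup.card_top.symm.trans hn, ?_⟩
    rw [H21.ssum_top, ← Subgroup.card_top (G := E), hn, pow_succ, pow_succ] at e
    zify [Nat.pow_le_pow_right two_pos (show n ≤ 2 * n by omega)] at e ⊢
    omega
  · intro E' _ _ hE' e k
    exact H21.nonempty_equiv_of_ssum h1 ((H21.isExtraspecial_iff_top hp).1 hE').1 e.symm
      (by rw [H21.ssum_top, H21.ssum_top, e, k])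

end Cfsg.Agent.S4416
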