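import Cfsg.Statements.S4421


set_option autoImplicit false
open Cfsg

namespace Cfsg.Agent.S4421

/-- A factorization of a normalizer from two-step control of fusion. Let `G` be a finite group and `A ≤ S ≤ H` subgroups of `G` such that: (i) `S` controls the `G`-fusion of `A` in the sense that every `G`-conjugate of `A` lying in `S` is an `S`-conjugate of `A`; (ii) `H` controls the `G`-fusion of `S` in the same sense; (iii) every conjugate of `S` by an element of the normalizer of `A` lies in `H`. Then `N_G(A) = N_H(A) · (N_G(S) ∩ N_G(A))`: every element of the normalizer of `A` is a product of an element of `H` normalizing `A` and an element normalizing both `S` and `A`. -/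
theorem result {G : Type*} [Group G] [Finite G] (A S H : Subgroup G)
    (hAS : A ≤ S) (hSH : S ≤ H)
    (h1 : ∀ g : G, A.map (MulAut.conj g).toMonoidHom ≤ S → ∃ s ∈ S, A.map (MulAut.conj g).toMonoidHom = A.map (MulAut.conj s).toMonoidHom)
    (h2 : ∀ g : G, S.map (MulAut.conj g).toMonoidHom ≤ H → ∃ y ∈ H, S.map (MulAut.conj g).toMonoidHom = S.map (MulAut.conj y).toMonoidHom)
    (h3 : ∀ x ∈ Subgroup.normalizer (A : Set G), S.map (MulAut.conj x).toMonoidHom ≤ H) :
    ∀ x ∈ Subgroup.normalizer (A : Set G), ∃ y ∈ H ⊓ Subgroup.normalizer (A : Set G),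
      ∃ z ∈ Subgroup.normalizer (S : Set G) ⊓ Subgroup.normalizer (A : Set G), x = y * z := by
  intro x hx
  have hmm : ∀ (K : Subgroup G) (a b : G), (K.map (MulAut.conj a).toMonoidHom).map
      (MulAut.conj b).toMonoidHom = K.map (MulAut.conj (b * a)).toMonoidHom := by
    intro K a b
    rw [Subgroup.map_map]; congr 1; ext; simp [mul_assoc]
  have hone : ∀ K : Subgroup G, K.map (MulAut.conj (1 : G)).toMonoidHom = K := by
    intro K; ext; simp
  have hn : ∀ (K : Subgroup G) (a : G), a ∈ Subgroup.normalizer (K : Set G) ↔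
      K.map (MulAut.conj a).toMonoidHom = K := by
    intro K a
    exact Subgroup.mem_normalizer_iff_map_conj_eq
  obtain ⟨y, hy, hxy⟩ := h2 x (h3 x hx)
  have e1 : S.map (MulAut.conj (y⁻¹ * x)).toMonoidHom = S := by
    rw [← hmm, hxy, hmm, inv_mul_cancel, hone]
  have e2 : A.map (MulAut.conj y⁻¹).toMonoidHom ≤ S := by
    rw [← (hn A x).1 hx, hmm, ← e1]
    exact Subgroup.map_mono hAS
  obtain ⟨s, hs, hys⟩ := h1 _ e2
  have e3 : y * s ∈ Subgroup.normalizer (A : Set G) := by
    rw [hn, ← hmm, ← hys, hmm, mul_inv_cancel, hone]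
  refine ⟨y * s, ⟨H.mul_mem hy (hSH hs), e3⟩, (y * s)⁻¹ * x, ⟨?_, ?_⟩, by rw [mul_inv_cancel_left]⟩
  · rw [mul_inv_rev, mul_assoc]
    exact Subgroup.mul_mem _ (Subgroup.inv_mem _ (Subgroup.le_normalizer hs)) ((hn _ _).2 e1)
  · exact Subgroup.mul_mem _ (Subgroup.inv_mem _ e3) hx

end Cfsg.Agent.S4421
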