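import Cfsg.Statements.S4422


set_option autoImplicit false
open Cfsg

namespace Cfsg.Agent.S4422

/-- Primitive divisors of `q^e - 1` are congruent to 1 modulo `e`. Let `q ≥ 2` and `e ≥ 1` be natural numbers and let `m` be a divisor of `q^e - 1` that is coprime to `q^i - 1` for every `1 ≤ i < e` (so `m` divides the primitive part of `q^e - 1`, the largest such divisor). Then `m ≡ 1 (mod e)`. -/
theorem result (q e m : ℕ) (hq : 2 ≤ q) (he : 1 ≤ e)
    (hm : m ∣ q ^ e - 1) (hcop : ∀ i : ℕ, 1 ≤ i → i < e → Nat.Coprime m (q ^ i - 1)) :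
    m % e = 1 % e := by
  have hne : q ^ e - 1 ≠ 0 := by
    have : 1 < q ^ e := Nat.one_lt_pow (by omega) (by omega)
    omega
  have hm0 : m ≠ 0 := by rintro rfl; exact hne (Nat.eq_zero_of_zero_dvd hm)
  have key : ∀ r : ℕ, r.Prime → r ∣ m → r ≡ 1 [MOD e] := by
    intro r hr hrm
    have := Fact.mk hr
    have hpow : ∀ i : ℕ, (q : ZMod r) ^ i = 1 ↔ r ∣ q ^ i - 1 := by
      intro i
      have h1 : 1 ≤ q ^ i := Nat.one_le_pow _ _ (by omega)
      rw [← ZMod.natCast_eq_zero_iff, Nat.cast_sub h1, sub_eq_zero, Nat.cast_pow, Nat.cast_one]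
    have ho : orderOf (q : ZMod r) = e := by
      rw [orderOf_eq_iff (by omega)]
      refine ⟨(hpow e).2 (hrm.trans hm), fun i hi hi0 h => ?_⟩
      have := Nat.dvd_gcd hrm ((hpow i).1 h)
      rw [hcop i hi0 hi] at this
      exact hr.one_lt.ne' (Nat.dvd_one.1 this)
    have hq0 : (q : ZMod r) ≠ 0 := by
      intro h
      have := (hpow e).2 (hrm.trans hm)
      rw [h, zero_pow (by omega)] at this
      exact zero_ne_one this
    have := ZMod.orderOf_dvd_card_sub_one hq0
    rw [ho] at this
    exact ((Nat.modEq_iff_dvd' hr.one_lt.le).2 this).symm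
  have : ∀ n : ℕ, n ≠ 0 → (∀ r : ℕ, r.Prime → r ∣ n → r ≡ 1 [MOD e]) → n ≡ 1 [MOD e] := by
    intro n
    induction n using induction_on_primes with
    | zero => intro h; exact absurd rfl h
    | one => intro _ _; rfl
    | prime_mul p a hp ih =>
      intro h0 h
      have h1 := h p hp (dvd_mul_right _ _)
      have h2 := ih (by rintro rfl; simp at h0) fun r hr hd => h r hr (hd.mul_left _)
      simpa using h1.mul h2
  exact this m hm0 key

end Cfsg.Agent.S4422
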