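import Cfsg.Statements.S4425
import Cfsg.Agent.H7.Height

set_option autoImplicit false
open Cfsg

namespace Cfsg.Agent.S4425

open H5 H7

/-- Let χ be an irreducible character of the finite group G, p a prime, p^a the p-part of the order of G and p^b the p-part of the degree χ(1). Let χ̃ be the class function equal to p^a · χ on p-regular elements and zero on p-singular elements. Then p^(−b) · χ̃ is a generalized character of G, while p^(−(b+1)) · χ̃ is not. -/
theorem result {G : Type*} [Group G] [Finite G] (p : ℕ) [Fact p.Prime] (χ : Cfsg.IrrCharacter G) : Cfsg.IsGeneralizedCharacter G (fun x : G => if p ∣ orderOf x then (0 : ℂ) else ((p ^ ((Nat.card G).factorization p - (Cfsg.charDegree (χ : G → ℂ)).factorization p) : ℕ) : ℂ) * (χ : G → ℂ) x) ∧ ¬ Cfsg.IsGeneralizedCharacter G (fun x : G => if p ∣ orderOf x then (0 : ℂ) else ((p ^ (Nat.card G).factorization p : ℕ) : ℂ) / ((p ^ ((Cfsg.charDegree (χ : G → ℂ)).factorization p + 1) : ℕ) : ℂ) * (χ : G → ℂ) x) := by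
  obtain ⟨M, hM⟩ := exists_isPModular p
  haveI : PM p M := ⟨hM⟩
  have := Fintype.ofFinite G
  have hp : p.Prime := Fact.out
  have hp0 : (p : ℂ) ≠ 0 := by exact_mod_cast hp.ne_zero
  rw [← smul_reg, ← smul_reg]
  have key : ∀ ψ : G → ℂ, IsCharacter G ψ → ∀ c : ℂ, classInner (c • reg p (χ : G → ℂ)) ψ =
      c / ((p ^ (Nat.card G).factorization p : ℕ) : ℂ) *
        classInner (((p ^ (Nat.card G).factorization p : ℕ) : ℂ) • reg p ψ) χ := fun ψ hψ c => by
    rw [classInner_smul_left, classInner_smul_left, classInner_reg_comm χ.2.isCharacter hψ]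
    push_cast
    field_simp
  constructor
  · refine ((isClassFunction_reg χ.2.isClassFunction).smul _).isGen_of_classInner fun ψ hψ => ?_
    obtain ⟨n, hn⟩ := (isGen_reg (p := p) hψ.isGen).exists_classInner_int χ.2.isGen
    have h1 := inner_reg_div_mem_O (M := M) (p := p) hψ.isCharacter χ.2
    rw [hn, ← χ.2.coe_charDegree] at h1
    obtain ⟨m, hm⟩ := pow_dvd_of_intCast_div_mem_O (charDegree_ne_zero χ.2) h1
    refine ⟨m, ?_⟩
    obtain ⟨k, hk⟩ := Nat.exists_eq_add_of_le (factorization_charDegree_le' (M := M) (p := p) χ.2)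
    rw [key ψ hψ.isCharacter, hn, hm, hk, Nat.add_sub_cancel_left]
    push_cast
    field_simp
    ring
  · intro h
    obtain ⟨ψ, hψ, h0⟩ := exists_height_zero (p := p) (block_nonempty (isPBlock_blockOf (M := M) χ))
    have h1 := lam_zr_ne_zero_of_height (isPBlock_blockOf χ) hψ (mem_blockOf_self χ) h0
    obtain ⟨n, hn⟩ := (isGen_reg (p := p) ψ.2.isGen).exists_classInner_int χ.2.isGen
    obtain ⟨m, hm⟩ := h.exists_classInner_int ψ.2.isGen
    rw [lam_zr_ne_zero_iff_inner ψ.2.isCharacter χ.2, hn, ← χ.2.coe_charDegree,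
      red_intCast_div_ne_zero_iff (charDegree_ne_zero χ.2)] at h1
    rw [key _ ψ.2.isCharacter, hn] at hm
    have h2 : n = (p : ℤ) ^ ((charDegree (χ : G → ℂ)).factorization p + 1) * m := by
      have : (n : ℂ) = (p : ℂ) ^ ((charDegree (χ : G → ℂ)).factorization p + 1) * m := by
        rw [← hm]; push_cast; field_simp
      exact_mod_cast this
    have h3 := (padicValInt_dvd_iff_of_ne_one hp.ne_one _ n).1 ⟨m, h2⟩
    omega

end Cfsg.Agent.S4425
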