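import Cfsg.Statements.S4428
import Cfsg.Agent.H7.Height

set_option autoImplicit false
open Cfsg

namespace Cfsg.Agent.S4428

open H5 H7

/-- Let χ be an irreducible character of height zero in the p-block B of the finite group G (relative to a maximal ideal M of the algebraic integers containing p). Let x be a p-element of G with centralizer C, and let b be a block of C that induces B. Form the class function ϑ(c) = χ(x c) on C and its b-part (the sum over ψ ∈ b of the inner product of ϑ with ψ, times ψ). Then the b-part of ϑ does not vanish identically on the p-regular elements of C. (Compare the second main Theorem, which gives vanishing when b does not induce B.) -/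
theorem result {G : Type*} [Group G] [Finite G] (p : ℕ) [Fact p.Prime] (M : Ideal Cfsg.AlgInt) (hM : Cfsg.IsPModular p M) (B : Set (Cfsg.IrrCharacter G)) (hB : Cfsg.IsPBlock M B) (χ : Cfsg.IrrCharacter G) (hχ : χ ∈ B) (h0 : Cfsg.blockHeight p B (χ : G → ℂ) = 0) (x : G) (hx : ∃ k : ℕ, orderOf x = p ^ k) (b : Set (Cfsg.IrrCharacter (Subgroup.centralizer ({x} : Set G)))) (hb : Cfsg.IsInducedBlock M (Subgroup.centralizer ({x} : Set G)) b B) : ∃ y : Subgroup.centralizer ({x} : Set G), ¬ p ∣ orderOf y ∧ Cfsg.blockPart b (fun c : Subgroup.centralizer ({x} : Set G) => (χ : G → ℂ) (x * (c : G))) y ≠ 0 := by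
  haveI : PM p M := ⟨hM⟩
  classical
  have h := isInducedBlock_iff_indB.1 hb
  let C := Subgroup.centralizer ({x} : Set G)
  have := Fintype.ofFinite C
  obtain ⟨ψ, hψ⟩ := block_nonempty h.1
  have hc := χ.2.isCharacter.comp C.subtype
  have h1 := lam_zr_ne_zero_of_height hB hχ hχ h0
  rw [← (h.2.2 ψ hψ χ hχ).lam_zr C.subtype_injective χ.2.isClassFunction, lam_zr_eq_sum _ hc] at h1
  obtain ⟨m, hm, -⟩ := hc.exists_nat
  have hθ := isCharacter_sum_nat (fun ξ => if ξ ∈ b then m ξ else 0)
  set θ := ∑ ξ : IrrCharacter C, ((if ξ ∈ b then m ξ else 0 : ℕ) : ℂ) • (ξ : C → ℂ) with hθd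
  have e : ∀ c, blockPart b (fun c => (χ : G → ℂ) (C.subtype c)) c = θ c := fun c => by
    rw [blockPart_eq_sum, hθd, Finset.sum_apply]
    exact Finset.sum_congr rfl fun ξ _ => by
      rw [Pi.smul_apply, smul_eq_mul]
      split_ifs
      · exact congrArg (· * _) (hm ξ)
      · simp
  by_contra! hc2
  apply h1
  have h2 : redA M (zr p θ) = 0 := ga_ext fun y => by
    rw [coeff_redA, coeff_zero']
    by_cases hy : p ∣ orderOf y
    · rw [coeff_zr_of_dvd _ hy, red_zero]
    · have hy' : ¬ p ∣ orderOf y⁻¹ := by rwa [orderOf_inv]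
      have h3 := hc2 y⁻¹ hy'
      have h4 := blockPart_mul_central hc.isClassFunction (mul_selfC x) b y⁻¹
      rw [e] at h4
      rw [coeff_zr_of_not_dvd _ hy, ← hθ.apply_inv,
        ← pr_mul_of (isPE_coe.1 (show IsPE p (selfC x : G) from hx)) hy' (mul_selfC x _).symm,
        ← red_char_eq_red_pr hθ, ← h4]
      exact (congrArg (red M) h3).trans red_zero
  have h3 := lam_zr_eq_sum (M := M) (p := p) (ψ : C → ℂ) hθ
  rw [h2, map_zero] at h3
  rw [h3]
  refine Finset.sum_congr rfl fun ξ _ => ?_
  rw [hθd, classInner_sum_irr_left, hm]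
  split_ifs with hξ
  · rfl
  · rw [lam_zr_of_notMem (isSat_of_isPBlock h.1).compl hξ (not_not.2 hψ), mul_zero, mul_zero]

end Cfsg.Agent.S4428
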