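import Cfsg.Statements.S4430
import Cfsg.Agent.H7.Height

set_option autoImplicit false
open Cfsg

namespace Cfsg.Agent.S4430

open H5 H7

/-- Let H be a subgroup of the finite group G, b a block of H whose induced block B₀ in G is defined (relative to a maximal ideal M of the algebraic integers containing p), and ξ ∈ b. For a block B of G let n_B be the value at 1 of the B-part of the induced character ξ^G (a natural number: the sum over χ ∈ B of the multiplicity of χ in ξ^G times χ(1)). Then for B = B₀ the exact power of p dividing n_B equals the exact power of p dividing ξ^G(1), while for every other block B either n_B = 0 or n_B is divisible by a strictly higher power of p than ξ^G(1). -/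
theorem result {G : Type*} [Group G] [Fintype G] (p : ℕ) [Fact p.Prime] (M : Ideal Cfsg.AlgInt) (hM : Cfsg.IsPModular p M) (H : Subgroup G) [Fintype H] (b : Set (Cfsg.IrrCharacter H)) (B₀ : Set (Cfsg.IrrCharacter G)) (hind : Cfsg.IsInducedBlock M H b B₀) (ξ : Cfsg.IrrCharacter H) (hξ : ξ ∈ b) : (∃ n : ℕ, Cfsg.blockPart B₀ (Cfsg.indFun H (ξ : H → ℂ)) 1 = (n : ℂ) ∧ n ≠ 0 ∧ n.factorization p = (Cfsg.charDegree (Cfsg.indFun H (ξ : H → ℂ))).factorization p) ∧ ∀ B : Set (Cfsg.IrrCharacter G), Cfsg.IsPBlock M B → B ≠ B₀ → ∃ n : ℕ, Cfsg.blockPart B (Cfsg.indFun H (ξ : H → ℂ)) 1 = (n : ℂ) ∧ (n = 0 ∨ (Cfsg.charDegree (Cfsg.indFun H (ξ : H → ℂ))).factorization p < n.factorization p) := by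
  haveI : PM p M := ⟨hM⟩
  classical
  have h := isInducedBlock_iff_indB.1 hind
  have hc := ξ.2.isCharacter.indFun
  obtain ⟨m, hm, -⟩ := hc.exists_nat
  have h0 : indFun H (ξ : H → ℂ) 1 ≠ 0 := by
    rw [indFun_apply_one]
    exact mul_ne_zero (Nat.cast_ne_zero.2 H.index_ne_zero_of_finite) ξ.2.apply_one_ne_zero
  have h0' : charDegree (indFun H (ξ : H → ℂ)) ≠ 0 := fun e => h0 (by
    rw [← hc.coe_charDegree, e, Nat.cast_zero])
  obtain ⟨χ, hχ⟩ := block_nonempty h.2.1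
  have key : ∀ B, IsPBlock M B → ∃ n : ℕ, blockPart B (indFun H (ξ : H → ℂ)) 1 = n ∧
      (n : ℂ) / charDegree (indFun H (ξ : H → ℂ)) ∈ O M ∧
      red M ((n : ℂ) / charDegree (indFun H (ξ : H → ℂ))) = lam M (χ : G → ℂ) (fB M B) := by
    intro B hB
    have e : blockPart B (indFun H (ξ : H → ℂ)) 1 =
        (∑ ψ, if ψ ∈ B then m ψ * charDegree (ψ : G → ℂ) else 0 : ℕ) := by
      rw [blockPart_eq_sum]
      push_cast
      exact Finset.sum_congr rfl fun ψ _ => by rw [hm, ψ.2.coe_charDegree]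
    refine ⟨_, e, ?_⟩
    rw [← e, blockPart_eq_ev hc.isClassFunction, ← MonoidAlgebra.one_def, mul_one, hc.coe_charDegree,
      ← om_apply, om_indFun _ _ (eB_mem_Z B), ← h.2.2 ξ hξ χ hχ _ (fB_mem_Z B), fB,
      lam_res_redA ξ.2 (eB_mem_Z B) (eB_mem_OG hB)]
    exact ⟨om_mem_O ξ.2 (res_mem_Z _ (eB_mem_Z B)) (res_mem_OG _ (eB_mem_OG hB)), rfl⟩
  refine ⟨?_, fun B hB hne => ?_⟩
  · obtain ⟨n, h1, -, h3⟩ := key B₀ h.2.1
    rw [lam_fB_of_mem h.2.1 hχ] at h3
    have hn : n ≠ 0 := by rintro rfl; simp at h3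
    exact ⟨n, h1, hn, (red_natCast_div_ne_zero_iff hn h0').1 (h3 ▸ one_ne_zero)⟩
  · obtain ⟨n, h1, h2, h3⟩ := key B hB
    rw [lam_fB_of_notMem hB fun e => hne (block_eq_of_mem hB h.2.1 e hχ), red_eq_zero_iff h2] at h3
    exact ⟨n, h1, or_iff_not_imp_left.2 fun hn => (natCast_div_mem_mC_iff hn h0').1 h3⟩

end Cfsg.Agent.S4430
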