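import Cfsg.Statements.S4431
import Cfsg.Agent.H7.Height

set_option autoImplicit false
open Cfsg

namespace Cfsg.Agent.S4431

open H5 H7

/-- Let H be a subgroup of the finite group G and b a block of H whose induced block B₀ in G is defined (relative to a maximal ideal M of the algebraic integers containing p). Let χ be an irreducible character of G, ψ ∈ b, and let η be the class function on H equal to p^a · χ on the p-regular elements of H and zero elsewhere, p^a being the p-part of the order of H. Then (a) if χ ∉ B₀, the number [η, ψ]/ψ(1) lies in the local ideal at M; (b) if χ ∈ B₀ has height zero, it does not. -/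
theorem result {G : Type*} [Group G] [Fintype G] (p : ℕ) [Fact p.Prime] (M : Ideal Cfsg.AlgInt) (hM : Cfsg.IsPModular p M) (H : Subgroup G) [Fintype H] (b : Set (Cfsg.IrrCharacter H)) (B₀ : Set (Cfsg.IrrCharacter G)) (hind : Cfsg.IsInducedBlock M H b B₀) (χ : Cfsg.IrrCharacter G) (ψ : Cfsg.IrrCharacter H) (hψ : ψ ∈ b) : (χ ∉ B₀ → Cfsg.MemLocalIdeal M (Cfsg.classInner (fun h : H => if p ∣ orderOf h then (0 : ℂ) else ((p ^ (Nat.card H).factorization p : ℕ) : ℂ) * (χ : G → ℂ) h) (ψ : H → ℂ) / (ψ : H → ℂ) 1)) ∧ (χ ∈ B₀ → Cfsg.blockHeight p B₀ (χ : G → ℂ) = 0 → ¬ Cfsg.MemLocalIdeal M (Cfsg.classInner (fun h : H => if p ∣ orderOf h then (0 : ℂ) else ((p ^ (Nat.card H).factorization p : ℕ) : ℂ) * (χ : G → ℂ) h) (ψ : H → ℂ) / (ψ : H → ℂ) 1)) := by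
  haveI : PM p M := ⟨hM⟩
  have h := isInducedBlock_iff_indB.1 hind
  obtain ⟨η, hη⟩ := block_nonempty h.2.1
  have hc := χ.2.isCharacter.comp H.subtype
  have h1 := lam_zr_ne_zero_iff_inner (M := M) (p := p) hc ψ.2
  rw [(h.2.2 ψ hψ η hη).lam_zr H.subtype_injective χ.2.isClassFunction, lam_zr_ne_zero_iff' h.2.1 hη,
    red_ne_zero_iff (inner_reg_div_mem_O hc ψ.2), smul_reg] at h1
  exact ⟨fun h2 => by_contra fun h3 => h2 (h1.2 h3).1, fun h2 h3 => h1.1 ⟨h2, h3⟩⟩

end Cfsg.Agent.S4431
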