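import Cfsg.Statements.S4437
import Cfsg.Agent.H7.Fong

set_option autoImplicit false
open Cfsg

namespace Cfsg.Agent.S4437

open H5 H7

/-- Let P be a p-subgroup of the finite group G, H = P·C_G(P), and b a block of H (relative to a maximal ideal M of the algebraic integers containing p) having P as a defect group; let B be the block of G induced by b. Let T be the stabilizer of b in N_G(P): the elements g of N_G(P) such that the g-conjugate of every member of b is again a member of b. Then B has defect group P if and only if p does not divide the index of H in T. -/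
theorem result {G : Type*} [Group G] [Fintype G] (p : ℕ) [Fact p.Prime] (M : Ideal Cfsg.AlgInt) (hM : Cfsg.IsPModular p M) (P : Subgroup G) (hP : IsPGroup p P) (H : Subgroup G) [Fintype H] (hH : H = P ⊔ Subgroup.centralizer (P : Set G)) (b : Set (Cfsg.IrrCharacter H)) (hb : Cfsg.IsPBlock M b) (hbP : Cfsg.IsDefectGroup p M b (P.subgroupOf H)) (B : Set (Cfsg.IrrCharacter G)) (hind : Cfsg.IsInducedBlock M H b B) (T : Subgroup G) (hT : ∀ g : G, g ∈ T ↔ (g ∈ Subgroup.normalizer (P : Set G) ∧ ∀ θ ∈ b, ∀ θ' : Cfsg.IrrCharacter H, (∀ h h' : H, (h' : G) = g * h * g⁻¹ → (θ' : H → ℂ) h' = (θ : H → ℂ) h) → θ' ∈ b)) : Cfsg.IsDefectGroup p M B P ↔ ¬ p ∣ H.relIndex T := by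
  haveI : PM p M := ⟨hM⟩
  have hp : p.Prime := Fact.out
  subst hH
  have hi := isInducedBlock_iff_indB.1 hind
  have hle := sup_centralizer_le_normalizer P
  have hN := ne_inclusion hle (normalizer_le_normalizer_sup P)
  have hT' : ∀ g : Subgroup.normalizer (P : Set G),
      (g : G) ∈ T ↔ ∀ θ ∈ b, ieq (hN.cjA g⁻¹) θ ∈ b := fun g => by
    rw [hT, and_iff_right g.2]
    refine forall₂_congr fun θ _ => ⟨fun h => h _ fun x x' e => congrArg θ.1 (Subtype.ext ?_),
      fun h θ' e => ?_⟩
    · refine (congrArg Subtype.val (hN.map_cjA g⁻¹ x')).trans ?_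
      simp [e, mul_assoc]
    · rwa [show θ' = ieq (hN.cjA g⁻¹) θ from Subtype.ext (funext fun x => e _ _ (by
        rw [show ((hN.cjA g⁻¹ x : _) : G) = _ from congrArg (fun y : Subgroup.normalizer (P : Set G) => (y : G)) (hN.map_cjA g⁻¹ x)]
        simp [mul_assoc]))]
  have hTN : T ≤ Subgroup.normalizer (P : Set G) := fun g hg => ((hT g).1 hg).1
  have hHT : P ⊔ Subgroup.centralizer (P : Set G) ≤ T := fun g hg =>
    (hT' (Subgroup.inclusion hle ⟨g, hg⟩)).2 fun θ hθ => by
      rwa [show ieq (hN.cjA (Subgroup.inclusion hle ⟨g, hg⟩)⁻¹) θ = θ from Subtype.ext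
        (funext fun x => by rw [← map_inv, ieq_apply, hN.cjA_map, θ.2.isClassFunction])]
  have hNT := ne_inclusion hHT (hTN.trans (normalizer_le_normalizer_sup P))
  have hcard : Nat.card P = p ^ blockDefect p b := by
    rw [← IsDefectGroup.card hb hbP]
    exact (Nat.card_congr (Subgroup.subgroupOfEquivOfLe le_sup_left).toEquiv).symm
  constructor
  · intro hB
    have L := locSet_inclusion hP hHT le_sup_left le_sup_right hle
    obtain ⟨c, hc⟩ := L.exists_indB hb
    have : (P.subgroupOf T).Normal := (Subgroup.normal_subgroupOf_iff_le_normalizer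
      (le_sup_left.trans hHT)).2 hTN
    have h1 := L.defect_eq_of_invt hNT hc fun t θ hθ => by
      have := (hT' ⟨_, hTN (inv_mem t.2)⟩).1 (inv_mem t.2) θ hθ
      convert this using 2
      refine MulEquiv.ext fun x => Subtype.ext ((congrArg Subtype.val (hNT.map_cjA t x)).trans
        ((congrArg Subtype.val (hN.map_cjA _ x)).trans ?_).symm)
      simp
    have h2 := (hc.of_comp (φ := T.subtype) hi).defect_le (p := p) T.subtype_injective
    have h3 := IsDefectGroup.card hi.2.1 hB
    rw [hcard, Nat.pow_right_inj hp.one_lt] at h3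
    rw [Subgroup.inclusion_range] at h1
    rw [Subgroup.relIndex, hp.dvd_iff_one_le_factorization Subgroup.index_ne_zero_of_finite]
    omega
  · intro hd
    have L := locSet_inclusion hP hle le_sup_left le_sup_right hle
    have LN := locSet_normalizer hP
    obtain ⟨c, hc⟩ := L.exists_indB hb
    refine first_main_defect LN (by simp) (hc.of_comp hi) ?_
    obtain ⟨D, hD⟩ := exists_isDefectGroup p hc.2.1
    have := LN.normal
    obtain ⟨θ, hθ⟩ := block_nonempty hb
    obtain ⟨χ, hχ⟩ := block_nonempty hc.2.1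
    have hs := hN.isSat_orb (isSat_of_isPBlock hb)
    have e := (hc.2.2 θ hθ χ hχ).cov
    obtain ⟨x, h1, h2⟩ := hN.exists_coeff_of_cov hs (hN.invt_orb b) hc.2.1 (hN.subset_orb b hθ)
      hχ e hD
    obtain ⟨b', h3, h4, -, h5⟩ := hN.exists_stable_block hs (IsDefectGroup.isPGroup hD)
      (fun g _ => hN.invt_orb b g) h1 h2
    obtain ⟨ξ, hξ⟩ := block_nonempty h3
    obtain ⟨g, hg⟩ := h4 hξ
    have h6 : D ≤ (Subgroup.inclusion hle).range := fun d hd' => by
      have h7 : ((g⁻¹ * d * g : Subgroup.normalizer (P : Set G)) : G) ∈ T := by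
        refine (hT' _).2 (hN.stab_of_mem hb hg ?_)
        rw [hN.ieq_ieq, show g * (g⁻¹ * d * g)⁻¹ = d⁻¹ * g by group, ← hN.ieq_ieq]
        exact mem_of_sameBlock hb hg ((sameBlock_equiv (hN.cjA g)).2
          (sameBlock_of_mem h3 hξ (h5 _ (inv_mem hd') ξ hξ)))
      have h8 : IsPE p (⟨_, h7⟩ : T) := isPE_coe.1
        (show IsPE p ((g⁻¹ * d * g : Subgroup.normalizer (P : Set G)) : G) from isPE_coe.2 (by
        simpa using (isPE_of_mem (IsDefectGroup.isPGroup hD) hd').conj g⁻¹))
      have := hNT.norm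
      rw [Subgroup.inclusion_range] at this
      have h9 := h8.mem_of_not_dvd_index hd
      rw [← hN.conj_mem_iff g⁻¹, inv_inv, Subgroup.inclusion_range]
      exact h9
    refine IsDefectGroup.of_cle hD (cle_of_le (IsDefectGroup.le_of_normal hc.2.1 hD LN.pgrp')) ?_
    rw [LN.card_comap, hcard, ← hN.card_comap_eq hb hc.2.1 hθ hχ e hD,
      ← Subgroup.card_map_of_injective hN.inj, Subgroup.map_comap_eq_self h6]

end Cfsg.Agent.S4437
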