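import Cfsg.Statements.S4439
import Cfsg.Agent.H8.FR
import Cfsg.Agent.H1.Cores

set_option autoImplicit false
open Cfsg

namespace Cfsg.Agent.S4439

open H5 H7 H8
theorem aux {p : ℕ} [hp : Fact p.Prime] {M : Ideal AlgInt} [PM p M] (n : ℕ) :
    ∀ {G : Type*} [Group G] [Finite G], Nat.card G = n → H4.PSol p (⊤ : Subgroup G) →
    ∀ {B : Set (IrrCharacter G)}, IsPBlock M B → ∀ {P : Subgroup G}, IsDefectGroup p M B P →
    ∀ χ ∈ B, blockHeight p B χ.1 ≤ (Subgroup.center P).index.factorization p := by
  classical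
  induction n using Nat.strong_induction_on with
  | _ n ih =>
  intro G _ _ hn hs B hB P hP χ hχ
  haveI := Fintype.ofFinite G
  obtain ⟨θ, h1, h2⟩ | ⟨T, h1, -, B', h2, h3, -, h4⟩ :=
    fong_red (pPrimeCore p G) not_dvd_card_pPrimeCore hB
  · obtain ⟨S, rfl⟩ := (fong_inv hs hB h1 h2).2 P hP
    let N := pPrimeCore p G
    have hC := (hs.quotient N).centralizer_pCore_le (H1.pPrimeCore_quotient_eq_bot p G)
    set U := pCore p (G ⧸ N)
    set A := (U ⊓ cC U).comap (QuotientGroup.mk' N) with hA
    haveI : (U ⊓ cC U).Normal := Subgroup.normal_inf_normal _ _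
    have hNA : N ≤ A := fun x hx => by
      rw [Subgroup.mem_comap, QuotientGroup.mk'_apply, (QuotientGroup.eq_one_iff x).2 hx]; exact one_mem _
    obtain ⟨η, k1, k2, k0⟩ := H6.exists_constituent_comp (Subgroup.inclusion hNA)
      (χ.2.isClassFunction.restrict A) (h2 χ hχ)
    obtain ⟨b, k3, k4⟩ := H6.degree_ratio_dvd k1 χ.2 k2
    have k5 : ¬ p ∣ charDegree η := by
      rw [charDegree_congr (apply_one_eq_of_cop hNA ?_ ?_ θ.2 (fun g _ => h1 g) k1 k0)]
      · exact fun h => not_dvd_card_pPrimeCore (h.trans θ.2.charDegree_dvd_card)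
      · refine Subgroup.commutator_le.2 fun x hx y hy => (QuotientGroup.eq_one_iff _).1 ?_
        rw [← QuotientGroup.mk'_apply, map_commutatorElement, commutatorElement_eq_one_iff_mul_comm]
        exact hy.2 _ hx.1
      · obtain ⟨k, hk⟩ := IsPGroup.iff_card.1 ((isPGroup_pCore' (p := p) (G := G ⧸ N)).to_le
          (inf_le_left (b := cC U)))
        have e := A.relIndex_ker (QuotientGroup.mk' N)
        rw [QuotientGroup.ker_mk', hA,
          Subgroup.map_comap_eq_self_of_surjective (QuotientGroup.mk'_surjective N)] at e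
        rw [e, hk]
        exact ((Nat.Prime.coprime_iff_not_dvd hp.out).2 not_dvd_card_pPrimeCore).symm.pow_right _
    have hUS : U ≤ (S : Subgroup G).map (QuotientGroup.mk' N) :=
      ((sylIn_top S).map _).le_of_normal isPGroup_pCore'
        (by rw [← MonoidHom.range_eq_map, QuotientGroup.range_mk']; exact le_top)
        Subgroup.le_normalizer_of_normal
    have k6 : (Subgroup.center S).map (S : Subgroup G).subtype ≤ A := by
      rintro _ ⟨z, hz, rfl⟩
      have : (z : G ⧸ N) ∈ cC U := fun u hu => by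
        obtain ⟨s, hs, rfl⟩ := hUS hu
        exact congrArg (fun x : S => (x : G ⧸ N)) (Subgroup.mem_center_iff.1 hz ⟨s, hs⟩)
      exact ⟨hC this, this⟩
    have k7 := k3.trans (Subgroup.index_dvd_of_le k6)
    rw [Subgroup.index_map_subtype] at k7
    have k8 := (Nat.factorization_le_iff_dvd (ne_zero_of_dvd_ne_zero (mul_ne_zero
      Subgroup.index_ne_zero_of_finite Subgroup.index_ne_zero_of_finite) k7) (mul_ne_zero
      Subgroup.index_ne_zero_of_finite Subgroup.index_ne_zero_of_finite)).2 k7 p
    rw [Nat.factorization_mul Subgroup.index_ne_zero_of_finite Subgroup.index_ne_zero_of_finite,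
      Finsupp.add_apply, Nat.factorization_eq_zero_of_not_dvd S.not_dvd_index, add_zero] at k8
    refine (Nat.sub_le _ _).trans (le_trans (le_of_eq ?_) k8)
    rw [← k1.coe_charDegree, ← Nat.cast_mul] at k4
    rw [charDegree_of_eq k4, Nat.factorization_mul (ne_zero_of_dvd_ne_zero Subgroup.index_ne_zero_of_finite k3)
      k1.charDegree_pos.ne', Finsupp.add_apply, Nat.factorization_eq_zero_of_not_dvd k5, add_zero]
  · obtain ⟨ψ, hψ, -, h5⟩ := h4 χ hχ
    obtain ⟨D, hD⟩ := exists_isDefectGroup p h2
    obtain ⟨x, rfl⟩ := IsDefectGroup.exists_cj_eq hB (h3 D hD) hP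
    have e := (D.equivMapOfInjective _ T.subtype_injective).trans (cjE x rfl)
    rw [h5, ← index_center_congr e]
    exact ih _ (hn ▸ H6.card_lt_of_ne_top h1) rfl
      (H4.pSol_top_iff.2 (hs.mono le_top)) h2 hD ψ hψ

/-- Let G be a finite p-solvable group and B a p-block of G with defect group P (relative to a maximal ideal M of the algebraic integers containing p). Then the height of every irreducible character in B is at most the exponent of p in the index of the centre of P in P. -/
theorem result {G : Type*} [Group G] [Finite G] (p : ℕ) [Fact p.Prime] (M : Ideal Cfsg.AlgInt) (hM : Cfsg.IsPModular p M) (hsolv : Cfsg.IsPSolvable p G) (B : Set (Cfsg.IrrCharacter G)) (hB : Cfsg.IsPBlock M B) (P : Subgroup G) (hP : Cfsg.IsDefectGroup p M B P) (χ : Cfsg.IrrCharacter G) (hχ : χ ∈ B) : Cfsg.blockHeight p B (χ : G → ℂ) ≤ ((Subgroup.center P).index).factorization p := by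
  haveI : PM p M := ⟨hM⟩
  exact aux _ rfl (H4.isPSolvable_iff.1 hsolv) hB hP χ hχ

end Cfsg.Agent.S4439
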