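import Cfsg.Statements.S4442
import Cfsg.Agent.H7.Cyc

set_option autoImplicit false
open Cfsg

namespace Cfsg.Agent.S4442

open H5 H7

/-- Blocks of defect one. Let p be an odd prime and G a finite group whose Sylow p-subgroup P has order p; let C = C_G(P) and N = N_G(P), and fix a maximal ideal M of the algebraic integers containing p. Let B be a block of G with defect group P, b a block of C inducing B, and θ the member of b having P in its kernel (there is exactly one). Let T be the stabilizer of θ in N (the elements g ∈ N with θ(g c g⁻¹) = θ(c) for all c ∈ C) and e the index of C in T. Then e divides p − 1 and B contains exactly e + (p − 1)/e irreducible characters. Moreover B is the disjoint union of a set X of e characters and a set Y of (p − 1)/e characters such that, with f the index of C in N: every χ ∈ X has χ(1) ≡ ±(f/e)·θ(1) (mod p), there is one sign ε with ψ(1) ≡ ε f θ(1) (mod p) for all ψ ∈ Y, and all members of Y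 agree on the p-regular elements of G. -/
theorem result {G : Type*} [Group G] [Finite G] (p : ℕ) [Fact p.Prime] (M : Ideal Cfsg.AlgInt) (hM : Cfsg.IsPModular p M) (hodd : p ≠ 2) (P : Sylow p G) (hP : Nat.card P = p) (B : Set (Cfsg.IrrCharacter G)) (hB : Cfsg.IsPBlock M B) (hBP : Cfsg.IsDefectGroup p M B P) (b : Set (Cfsg.IrrCharacter (Subgroup.centralizer ((P : Subgroup G) : Set G)))) (hind : Cfsg.IsInducedBlock M (Subgroup.centralizer ((P : Subgroup G) : Set G)) b B) (θ : Cfsg.IrrCharacter (Subgroup.centralizer ((P : Subgroup G) : Set G))) (hθ : θ ∈ b) (hθP : ∀ x : Subgroup.centralizer ((P : Subgroup G) : Set G), (x : G) ∈ (P : Subgroup G) → (θ : Subgroup.centralizer ((P : Subgroup G) : Set G) → ℂ) x = (θ : Subgroup.centralizer ((P : Subgroup G) : Set G) → ℂ) 1) (T : Subgroup G) (hT : ∀ g : G, g ∈ T ↔ (g ∈ Subgroup.normalizer ((P : Subgroup G) : Set G) ∧ ∀ c c' : Subgroup.centralizer ((P : Subgroup G) : Set G), (c' : G) = g * c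 * g⁻¹ → (θ : Subgroup.centralizer ((P : Subgroup G) : Set G) → ℂ) c' = (θ : Subgroup.centralizer ((P : Subgroup G) : Set G) → ℂ) c)) (e f : ℕ) (he : (Subgroup.centralizer ((P : Subgroup G) : Set G)).relIndex T = e) (hf : (Subgroup.centralizer ((P : Subgroup G) : Set G)).relIndex (Subgroup.normalizer ((P : Subgroup G) : Set G)) = f) : e ∣ p - 1 ∧ Nat.card B = e + (p - 1) / e ∧ ∃ X Y : Set (Cfsg.IrrCharacter G), B = X ∪ Y ∧ Disjoint X Y ∧ Nat.card X = e ∧ Nat.card Y = (p - 1) / e ∧ (∀ χ ∈ X, (Cfsg.charDegree (χ : G → ℂ) : ℤ) ≡ ((f / e * Cfsg.charDegree (θ : Subgroup.centralizer ((P : Subgroup G) : Set G) → ℂ) : ℕ) : ℤ) [ZMOD p] ∨ (Cfsg.charDegree (χ : G → ℂ) : ℤ) ≡ -((f / e * Cfsg.charDegree (θ : Subgroup.centralizer ((P : Subgroup G) : Set G) → ℂ) : ℕ) : ℤ) [ZMOD p]) ∧ (∃ ε : ℤ, (ε = 1 ∨ ε = -1) ∧ ∀ ψ ∈ Y, (Cfsg.charDegree (ψ : G → ℂ) : ℤ) ≡ ε * ((f * Cfsg.charDegree (θ : Subgroup.centralizer ((P : Subgroup G) : Set G) → ℂ) : ℕ) :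 ℤ) [ZMOD p]) ∧ ∀ ψ ∈ Y, ∀ ψ' ∈ Y, ∀ g : G, ¬ p ∣ orderOf g → (ψ : G → ℂ) g = (ψ' : G → ℂ) g := by
    haveI : PM p M := ⟨hM⟩
    have := Fintype.ofFinite G
    have := Fintype.ofFinite P
    obtain ⟨hc, ψ, h, h'⟩ := exists_cs_prime hBP hP (isInducedBlock_iff_indB.1 hind)
    obtain ⟨l, rfl⟩ := (h.nd.rng θ).1 hθ
    obtain rfl : l = 1 := MonoidHom.ext fun v => Units.ext (by
      have := h' l v 1
      rw [mul_one, hθP _ v.2] at this
      exact (mul_eq_right₀ (ψ l).2.apply_one_ne_zero).1 this.symm)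
    have eT : T = H8.nN P ⊓ H8.St (H8.io M (H8.cC P) b) := by
      ext g
      rw [hT]
      refine and_congr_right fun hg => ⟨fun e => ?_, fun e c c' e' => ?_⟩
      · refine (ieq_kc_mem_iff h.nd.blk ⟨g, hg⟩ hθ).1 ?_
        rwa [show ieq (kc P ⟨g, hg⟩) (ψ 1) = ψ 1 from Subtype.ext (funext fun c => e c _ (coe_kc _ _))]
      · obtain ⟨σ, -, hσ⟩ := exists_autE (P : Subgroup G).subtype_injective h.norm' ⟨hg, e⟩
        exact (h.eqv g ⟨hg, e⟩ σ hσ 1 c c' e').symm
    have eE := h.relIndex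
    rw [← eT, he] at eE
    obtain ⟨ζ, δ, α, x, h1, h2⟩ := h.exists_exc
    have F := h.fam
    have h3 := (x.card F).trans hP
    have h4 := fun χ hχ => h.sum_central h' (χ := χ) hχ
    rw [← eT, ← eE] at h2 h3 h4
    have e0 : 0 < e := eE ▸ Nat.card_pos
    have h5 : Nat.card (ζ '' {1}ᶜ) = (p - 1) / e := by
      rw [← Nat.eq_sub_of_add_eq h3, Nat.mul_div_cancel _ e0]
    obtain ⟨m, hm⟩ : e ∣ f := by
      rw [← he, ← hf, eT]
      exact Dvd.intro _ (Subgroup.relIndex_mul_relIndex _ _ _ (H8.cC_le_stab b) inf_le_left)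
    have e0' : (e : ℂ) ≠ 0 := by exact_mod_cast e0.ne'
    have R : ∀ θ ∈ ζ '' {1}ᶜ, ∀ g : G, ¬ p ∣ orderOf g → (δ : ℂ) * (θ : G → ℂ) g =
        ∑ᶠ χ ∈ B \ ζ '' {1}ᶜ, (α χ : ℂ) * (χ : G → ℂ) g := by
      rintro _ ⟨l, hl, rfl⟩ g hg
      simpa using x.rel l hl g hg
    rw [hf, ← (ψ 1).2.coe_charDegree] at h4
    refine ⟨Dvd.intro_left _ (Nat.eq_sub_of_add_eq h3), by rw [← x.card_add, h2, h5], _, _,
      (Set.diff_union_of_subset x.subset).symm, Set.disjoint_sdiff_left, h2, h5, fun χ hχ => ?_,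
      ⟨δ, x.sign, fun χ hχ => ?_⟩, fun θ hθ θ' hθ' g hg => mul_left_cancel₀ (a := (δ : ℂ)) (by
        rcases x.sign with s | s <;> simp [s]) ((R θ hθ g hg).trans (R θ' hθ' g hg).symm)⟩
    · have := modEq_of_sum χ.2.isCharacter P (a := m * charDegree (ψ 1).1 * ((p - 1) * α χ))
        (mul_left_cancel₀ e0' (by rw [h4 χ hχ.1, (x.sum_dn F).1 χ hχ, hP, hm]; push_cast; ring))
      rw [hP] at this
      rw [hm, Nat.mul_div_cancel_left _ e0]
      refine (h1 χ hχ).imp (fun s => this.trans ?_) fun s => this.trans ?_ <;> rw [s]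
      · exact Int.modEq_iff_dvd.2 ⟨m * charDegree (ψ 1).1, by push_cast; ring⟩
      · exact Int.modEq_iff_dvd.2 ⟨-(m * charDegree (ψ 1).1), by push_cast; ring⟩
    · have := modEq_of_sum χ.2.isCharacter P (a := -(δ * (f * charDegree (ψ 1).1 : ℕ)))
        (mul_left_cancel₀ e0' (by
          rw [h4 χ (x.subset hχ), (x.sum_dn F).2 χ hχ, ← eT, ← eE]; push_cast; ring))
      rwa [hP, neg_neg] at this

end Cfsg.Agent.S4442
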