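import Cfsg.Statements.S4443
import Cfsg.Agent.H8.Rob

set_option autoImplicit false
open Cfsg

namespace Cfsg.Agent.S4443

open H5 H7 H8

/-- Let D be a normal p-subgroup of the finite group G, of order p^d, let p^a be the p-part of the order of G, and fix a Sylow p-subgroup S and a maximal ideal M of the algebraic integers containing p. Index by a finite type ι (via an injective map K) exactly the conjugacy classes of p-regular elements x of G for which D is a Sylow p-subgroup of C_G(x). For classes K_i, K_j let ω(i, j) be the number of pairs (y, z) ∈ K_i × K_j with z y⁻¹ ∈ S; this number is divisible by p^(a−d). Then the number of p-blocks of G having D as a defect group equals the rank over ℤ/pℤ of the matrix with (i, j) entry ω(i, j)/p^(a−d) reduced modulo p. -/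
theorem result {G : Type*} [Group G] [Finite G] (p : ℕ) [Fact p.Prime] (M : Ideal Cfsg.AlgInt) (hM : Cfsg.IsPModular p M) (D : Subgroup G) [D.Normal] (hD : IsPGroup p D) (S : Sylow p G) {ι : Type*} [Fintype ι] [DecidableEq ι] (K : ι → ConjClasses G) (hKinj : Function.Injective K) (hK : ∀ C : ConjClasses G, (∃ i, K i = C) ↔ ∃ x ∈ C.carrier, ¬ p ∣ orderOf x ∧ ∃ Q : Sylow p (Subgroup.centralizer ({x} : Set G)), (Q : Subgroup (Subgroup.centralizer ({x} : Set G))).map (Subgroup.centralizer ({x} : Set G)).subtype = D) : Nat.card {B : Set (Cfsg.IrrCharacter G) // Cfsg.IsPBlock M B ∧ Cfsg.IsDefectGroup p M B D} = (Matrix.of fun i j : ι => ((Nat.card {yz : G × G // yz.1 ∈ (K i).carrier ∧ yz.2 ∈ (K j).carrier ∧ yz.2 * yz.1⁻¹ ∈ (S : Subgroup G)} / p ^ ((Nat.card G).factorization p - (Nat.card D).factorization p) : ℕ) : ZMod p)).rank := by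
  classical
  haveI : PM p M := ⟨hM⟩
  have hp : p.Prime := Fact.out
  haveI := Fintype.ofFinite (BD M p D)
  haveI := Fintype.ofFinite (ConjClasses G)
  choose x hx1 hx2 hx3 using fun i => (hK (K i)).1 ⟨i, rfl⟩
  have hx4 : ∀ i, SylIn p D (c1 (x i)) := fun i => (hx3 i).imp fun S h => h.symm
  have hx5 : ∀ i, ConjClasses.mk (x i) = K i := fun i => ConjClasses.mem_carrier_iff_mk_eq.1 (hx1 i)
  have hx6 : ∀ i g, g ∈ (K i).carrier ↔ IsConj (x i) g := fun i g => by
    rw [ConjClasses.mem_carrier_iff_mk_eq, ← hx5, ConjClasses.mk_eq_mk_iff_isConj, isConj_comm]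
  simp only [hx6]
  haveI : CharP (F M) p := (CharP.charP_iff_prime_eq_zero hp).2 (p_eq_zero_F (M := M))
  rw [← rank_map (ZMod.castHom (dvd_refl p) (F M))]
  let L : Matrix ι (BD M p D) (F M) := fun i B =>
    red M (centralChar (rp ⟨B.1, B.2.1⟩ : G → ℂ) (x i)⁻¹)
  let E : Matrix (BD M p D) ι (F M) := fun B j => (fB M B.1).coeff (x j)⁻¹
  have hEL : E * L = 1 := by
    ext B B'
    have h1 := lam_eq_sum_cls (M := M) (rp ⟨B'.1, B'.2.1⟩).2.isClassFunction (fB_mem_Z (M := M) B.1)
    rw [(isSat_of_isPBlock B.2.1).lam_fB] at h1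
    have h2 : (1 : Matrix _ _ (F M)) B B' = if rp ⟨B'.1, B'.2.1⟩ ∈ B.1 then 1 else 0 := by
      rw [Matrix.one_apply]
      refine if_congr ⟨fun e => e ▸ rp_mem ⟨B.1, B.2.1⟩, fun e => Subtype.ext ?_⟩ rfl rfl
      exact (eq_blockOf_of_mem B.2.1 e).trans
        (eq_blockOf_of_mem B'.2.1 (rp_mem ⟨B'.1, B'.2.1⟩)).symm
    rw [h2, h1, Matrix.mul_apply]
    refine Finset.sum_of_injOn (fun i => ConjClasses.mk (x i)⁻¹) (fun i _ j _ e => hKinj ?_)
      (fun _ _ => Finset.mem_univ _) (fun c _ hc => ?_) fun i _ => ?_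
    · rw [← hx5, ← hx5, ConjClasses.mk_eq_mk_iff_isConj, ← isConj_inv_inv]
      exact ConjClasses.mk_eq_mk_iff_isConj.1 e
    · by_contra h
      obtain ⟨Q, hQ⟩ := exists_sylIn p (c1 (rep c))
      have h3 := (IsDefectGroup.cle_of_coeff B.2.1 B.2.2 (left_ne_zero_of_mul h) hQ.isPGroup
        hQ.le).le_of_normal'
      have h4 := (IsDefectGroup.cle_of_lam B'.2.1 B'.2.2 (rp_mem ⟨B'.1, B'.2.1⟩)
        (right_ne_zero_of_mul h) hQ).le_of_normal
      rw [le_antisymm h3 h4, ← c1_inv] at hQ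
      obtain ⟨i, hi⟩ := (hK (ConjClasses.mk (rep c)⁻¹)).2 ⟨_, ConjClasses.mem_carrier_mk, by
        rw [orderOf_inv]
        exact not_dvd_of_fB_ne_zero (isSat_of_isPBlock B.2.1) (left_ne_zero_of_mul h),
        hQ.imp fun S h => h.symm⟩
      refine hc ⟨i, Finset.mem_coe.2 (Finset.mem_univ _), ?_⟩
      rw [← hx5, ConjClasses.mk_eq_mk_iff_isConj, ← isConj_inv_inv, inv_inv] at hi
      exact (isConj_rep_iff _ _).1 hi.symm
    · rw [← coeff_eq_of_isConj (fB_mem_Z _) (isConj_rep _), ← centralChar_eq_of_isConj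
        (rp _).2.isClassFunction (isConj_rep _)]
  rw [Nat.card_eq_fintype_card, ← rank_mul_of_mul_eq_one L E hEL,
    ← Matrix.rank_mul_eq_left_of_isUnit_det (Matrix.diagonal fun j =>
      ((ordCompl[p] (c1 (x j)).index : ℕ) : F M)) (L * E) (by
        rw [Matrix.det_diagonal, isUnit_iff_ne_zero]
        exact Finset.prod_ne_zero_iff.2 fun i _ => ordCompl_ne_zero (p := p)
          Subgroup.index_ne_zero_of_finite)]
  congr 1
  ext i j
  have h1 := robinson_D (M := M) S (hx4 i) (hx4 j).le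
  rw [pr_of_not_dvd (hx2 j)] at h1
  rw [Matrix.mul_diagonal, Matrix.mul_apply, ← h1, Matrix.map_apply, Matrix.of_apply, map_natCast,
    ← red_natCast, ← red_natCast, ← red_mul (robinson S _ _).1 (natCast_mem _ _)]
  congr 1
  have h2 : (Nat.card G).factorization p - (Nat.card D).factorization p =
      (c1 (x j)).index.factorization p := by
    rw [(hx4 j).card, ← factorization_index_add (p := p) (c1 (x j)), hp.factorization_pow]; simp
  have h3 := pow_dvd_of_intCast_div_mem_O (M := M) (p := p) (n := omg S (x i) (x j))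
    (d := (c1 (x j)).index) Subgroup.index_ne_zero_of_finite (by
      simpa using (robinson (M := M) S (x i) (x j)).1)
  have h4 : p ^ (c1 (x j)).index.factorization p ∣ omg S (x i) (x j) := by exact_mod_cast h3
  have h5 : ((p ^ (c1 (x j)).index.factorization p : ℕ) : ℂ) ≠ 0 :=
    Nat.cast_ne_zero.2 (pow_ne_zero _ hp.ne_zero)
  have h6 : ((c1 (x j)).index : ℂ) ≠ 0 := Nat.cast_ne_zero.2 Subgroup.index_ne_zero_of_finite
  rw [h2]
  change _ = ((omg S (x i) (x j) / _ : ℕ) : ℂ)
  rw [Nat.cast_div h4 h5, Nat.cast_div (Nat.ordProj_dvd _ _) h5]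
  field_simp

end Cfsg.Agent.S4443
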