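import Cfsg.Statements.S4444
import Cfsg.Agent.H8.Glaub2

set_option autoImplicit false
open Cfsg

namespace Cfsg.Agent.S4444

open H5 H19 H8 H8.Glaub

/-- The Glauberman correspondence for a p-group of operators. Inside a finite group Γ let S normalise G with the orders of G and S coprime, S a p-group, and let C = G ⊓ C(S) be the fixed points. Call an irreducible character χ of G S-invariant when χ(s g s⁻¹) = χ(g) for s ∈ S, g ∈ G. Then: (i) for every S-invariant χ there is exactly one irreducible character β of C whose multiplicity [χ_C, β] in the restriction of χ is not divisible by p; (ii) that multiplicity is ≡ 1 or ≡ −1 (mod p); (iii) distinct S-invariant χ give distinct β; (iv) every irreducible character of C arises in this way. So χ ↦ β is a bijection from the S-invariant irreducible characters of G onto the irreducible characters of C. -/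
theorem result {Γ : Type*} [Group Γ] [Fintype Γ] (G S : Subgroup Γ) [Fintype G] (hnorm : ∀ s ∈ S, ∀ g ∈ G, s * g * s⁻¹ ∈ G) (hcop : (Nat.card G).Coprime (Nat.card S)) (p : ℕ) (hp : p.Prime) (hS : IsPGroup p S) (C : Subgroup Γ) [Fintype C] (hC : C = G ⊓ Subgroup.centralizer (S : Set Γ)) (hCG : C ≤ G) : (∀ χ : Cfsg.IrrCharacter G, (∀ s ∈ S, ∀ g g' : G, (g' : Γ) = s * g * s⁻¹ → (χ : G → ℂ) g' = (χ : G → ℂ) g) → ∃! β : Cfsg.IrrCharacter C, ∃ m : ℕ, Cfsg.classInner (fun c : C => (χ : G → ℂ) ⟨c, hCG c.2⟩) (β : C → ℂ) = (m : ℂ) ∧ ¬ p ∣ m) ∧ (∀ χ : Cfsg.IrrCharacter G, (∀ s ∈ S, ∀ g g' : G, (g' : Γ) = s * g * s⁻¹ → (χ : G → ℂ) g' = (χ : G → ℂ) g) → ∀ β : Cfsg.IrrCharacter C, ∀ m : ℕ, Cfsg.classInner (fun c : C => (χ : G → ℂ) ⟨c, hCG c.2⟩) (β : C → ℂ) = (m : ℂ) → ¬ p ∣ m → ((m : ℤ) ≡ 1 [ZMOD p] ∨ (m : ℤ) ≡ -1 [ZMOD p])) ∧ (∀ χ χ' : Cfsg.IrrCharacter G, (∀ s ∈ S, ∀ g g' : G, (g' :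 Γ) = s * g * s⁻¹ → (χ : G → ℂ) g' = (χ : G → ℂ) g) → (∀ s ∈ S, ∀ g g' : G, (g' : Γ) = s * g * s⁻¹ → (χ' : G → ℂ) g' = (χ' : G → ℂ) g) → ∀ β : Cfsg.IrrCharacter C, ∀ m m' : ℕ, Cfsg.classInner (fun c : C => (χ : G → ℂ) ⟨c, hCG c.2⟩) (β : C → ℂ) = (m : ℂ) → ¬ p ∣ m → Cfsg.classInner (fun c : C => (χ' : G → ℂ) ⟨c, hCG c.2⟩) (β : C → ℂ) = (m' : ℂ) → ¬ p ∣ m' → χ = χ') ∧ (∀ β : Cfsg.IrrCharacter C, ∃ χ : Cfsg.IrrCharacter G, (∀ s ∈ S, ∀ g g' : G, (g' : Γ) = s * g * s⁻¹ → (χ : G → ℂ) g' = (χ : G → ℂ) g) ∧ ∃ m : ℕ, Cfsg.classInner (fun c : C => (χ : G → ℂ) ⟨c, hCG c.2⟩) (β : C → ℂ) = (m : ℂ) ∧ ¬ p ∣ m) := by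
  have hn : S ≤ Subgroup.normalizer (G : Set Γ) := fun s hs =>
    H1.mem_normalizer_of_conj_mem (hnorm s hs)
  have hall : ∀ β ∈ irr C, S ≤ stabf β := fun β hβ s hs =>
    mem_stabf_of_centralizes (irr_supp hβ) fun c hc => (hC.le hc).2 s hs
  have co : Corr p G C S := corr_coprime hp hn hS hcop hC
  have hgl : ∀ (χ : IrrCharacter G) (β : IrrCharacter C), (∃ m : ℕ, classInner
      (fun c : C => (χ : G → ℂ) ⟨c, hCG c.2⟩) (β : C → ℂ) = (m : ℂ) ∧ ¬ p ∣ m) ↔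
      Gl p C (extendByZero G χ) (extendByZero C β) := fun χ β => by
    rw [classInner_resLe]; rfl
  refine ⟨fun χ hχ => ?_, fun χ hχ β m hm hpm => ?_, fun χ χ' hχ hχ' β m m' h1 h2 h3 h4 => ?_,
    fun β => ?_⟩
  · rw [inv_iff_le_stabf hn] at hχ
    have hχ' := extendByZero_mem_irr.2 χ.2
    obtain ⟨β, h1, h2, h3⟩ := co.ex _ hχ' hχ
    have e := extendByZero_comp_of_supp (irr_supp h1)
    refine ⟨⟨fun x => β x, (mem_irr.1 h1).2⟩, (hgl _ _).2 (e.symm ▸ h3), fun β' h' => ?_⟩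
    have h4 := extendByZero_mem_irr.2 β'.2
    have := co.uniq _ hχ' hχ _ h4 (hall _ h4) β h1 h2 ((hgl _ _).1 h') h3
    exact Subtype.ext (extendByZero_injective C (this.trans e.symm))
  · rw [inv_iff_le_stabf hn] at hχ
    have h4 := extendByZero_mem_irr.2 β.2
    exact co.cong _ (extendByZero_mem_irr.2 χ.2) hχ _ h4 (hall _ h4) m
      (classInner_resLe hCG _ _ ▸ hm) hpm
  · rw [inv_iff_le_stabf hn] at hχ hχ'
    have h5 := extendByZero_mem_irr.2 β.2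
    exact Subtype.ext (extendByZero_injective G (co.inj _ (extendByZero_mem_irr.2 χ.2) hχ _
      (extendByZero_mem_irr.2 χ'.2) hχ' _ h5 (hall _ h5) ((hgl _ _).1 ⟨m, h1, h2⟩)
      ((hgl _ _).1 ⟨m', h3, h4⟩)))
  · have h5 := extendByZero_mem_irr.2 β.2
    obtain ⟨χ, h1, h2, h3⟩ := co.surj _ h5 (hall _ h5)
    have e := extendByZero_comp_of_supp (irr_supp h1)
    exact ⟨⟨fun x => χ x, (mem_irr.1 h1).2⟩, (inv_iff_le_stabf hn _).2 (e.symm ▸ h2),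
      (hgl _ _).2 (e.symm ▸ h3)⟩

end Cfsg.Agent.S4444
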