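import Cfsg.Statements.S4447
import Cfsg.Agent.H8.Glaub2

set_option autoImplicit false
open Cfsg

namespace Cfsg.Agent.S4447

open H5 H19 H8 H8.Glaub

/-- Inside a finite group Γ let S normalise G and also normalise a normal subgroup N of G, with the order of S coprime to the index of N in G and S or G/N solvable. Then for every S-invariant irreducible character χ of G, the restriction of χ to N has an S-invariant irreducible constituent. -/
theorem result {Γ : Type*} [Group Γ] [Fintype Γ] (G S N : Subgroup Γ) [Fintype G] [Fintype N] (hnorm : ∀ s ∈ S, ∀ g ∈ G, s * g * s⁻¹ ∈ G) (hNG : N ≤ G) [hNn : (N.subgroupOf G).Normal] (hNS : ∀ s ∈ S, ∀ n ∈ N, s * n * s⁻¹ ∈ N) (hcop : (N.relIndex G).Coprime (Nat.card S)) (hsolv : Group.IsSolvable S ∨ Group.IsSolvable (G ⧸ N.subgroupOf G)) (χ : Cfsg.IrrCharacter G) (hinv : (∀ s ∈ S, ∀ g g' : G, (g' : Γ) = s * g * s⁻¹ → (χ : G → ℂ) g' = (χ : G → ℂ) g)) : ∃ θ : Cfsg.IrrCharacter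 N, Cfsg.classInner (fun n : N => (χ : G → ℂ) ⟨n, hNG n.2⟩) (θ : N → ℂ) ≠ 0 ∧ (∀ s ∈ S, ∀ g g' : N, (g' : Γ) = s * g * s⁻¹ → (θ : N → ℂ) g' = (θ : N → ℂ) g) := by
  have hn : S ≤ Subgroup.normalizer (G : Set Γ) := fun s hs =>
    H1.mem_normalizer_of_conj_mem (hnorm s hs)
  have hn' : S ≤ Subgroup.normalizer (N : Set Γ) := fun s hs =>
    H1.mem_normalizer_of_conj_mem (hNS s hs)
  have hGN : G ≤ Subgroup.normalizer (N : Set Γ) := fun g hg =>
    H1.mem_normalizer_of_conj_mem fun n hn => hNn.conj_mem ⟨n, hNG hn⟩ hn ⟨g, hg⟩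
  obtain ⟨θ, h1, h2, h3⟩ := exists_invariant_under hNG hGN hn' hn
    (hcop.symm.coprime_dvd_left (Subgroup.relIndex_dvd_card N S)) hsolv
    (extendByZero_mem_irr.2 χ.2) ((inv_iff_le_stabf hn _).1 hinv)
  have e := extendByZero_comp_of_supp (irr_supp h1)
  exact ⟨⟨fun x => θ x, (mem_irr.1 h1).2⟩, by rw [classInner_resLe hNG]; exact e.symm ▸ h3,
    (inv_iff_le_stabf hn' _).2 (e.symm ▸ h2)⟩

end Cfsg.Agent.S4447
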