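import Cfsg.Statements.S4450
import Cfsg.Agent.H8.Glaub2

set_option autoImplicit false
open Cfsg

namespace Cfsg.Agent.S4450

open H5 H19 H8 H8.Glaub

/-- Let N ≤ G be normal subgroups of the finite group Γ with the index of G in Γ coprime to the index of N in G, and Γ/G or G/N solvable. Then for every irreducible character ϑ of N invariant under conjugation by Γ, the induced character ϑ^G has an irreducible constituent invariant under conjugation by Γ. -/
theorem result {Γ : Type*} [Group Γ] [Fintype Γ] (G N : Subgroup Γ) [hG : G.Normal] [hN : N.Normal] [Fintype G] [Fintype N] (hNG : N ≤ G) (hcop : (G.index).Coprime (N.relIndex G)) (hsolv : Group.IsSolvable (Γ ⧸ G) ∨ Group.IsSolvable (G ⧸ N.subgroupOf G)) (θ : Cfsg.IrrCharacter N) (hinv : ∀ (x : Γ) (n : N), (θ : N → ℂ) ⟨x * n * x⁻¹, hN.conj_mem n n.2 x⟩ = (θ : N → ℂ) n) : ∃ χ : Cfsg.IrrCharacter G, Cfsg.classInner (fun n : N => (χ : G → ℂ) ⟨n, hNG n.2⟩) (θ : N → ℂ) ≠ 0 ∧ ∀ (x : Γ) (g : G), (χ : G → ℂ) ⟨x *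 g * x⁻¹, hG.conj_mem g g.2 x⟩ = (χ : G → ℂ) g := by
  let π := QuotientGroup.mk' N
  have hπ : Function.Surjective π := QuotientGroup.mk'_surjective N
  haveI : (G.map π).Normal := hG.map π hπ
  have hidx : (G.map π).index = G.index := by
    rw [Subgroup.index_map_eq _ hπ]; simpa [π] using hNG
  obtain ⟨H, hH⟩ := Subgroup.exists_right_complement'_of_coprime (N := G.map π)
    (by rw [hidx, H1.card_map_mk']; exact hcop.symm)
  set S := H.comap π with hS
  have hcard : N.relIndex S = G.index := by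
    rw [← H1.card_map_mk', hS, Subgroup.map_comap_eq_self_of_surjective hπ, ← hidx,
      hH.symm.index_eq_card]
  have hSG : S ⊓ G ≤ N := fun x hx => by
    have : π x ∈ G.map π ⊓ H := ⟨⟨x, hx.2, rfl⟩, hx.1⟩
    rw [hH.disjoint.eq_bot, Subgroup.mem_bot] at this
    exact (QuotientGroup.eq_one_iff x).1 this
  have hn : ∀ K : Subgroup Γ, K ≤ Subgroup.normalizer (G : Set Γ) := fun K => by
    rw [Subgroup.normalizer_eq_top]; exact le_top
  have hn' : ∀ K : Subgroup Γ, K ≤ Subgroup.normalizer (N : Set Γ) := fun K => by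
    rw [Subgroup.normalizer_eq_top]; exact le_top
  have hθ := extendByZero_mem_irr.2 θ.2
  have hSθ : S ≤ stabf (extendByZero N θ) := (inv_iff_le_stabf (hn' S) _).1 fun s _ g g' h => by
    rw [← hinv s g]; exact congrArg _ (Subtype.ext h)
  have key : ∃ χ ∈ irr G, S ≤ stabf χ ∧ ip N (res N χ) (extendByZero N θ) ≠ 0 := by
    rcases hsolv with hs | hs
    · refine exists_invariant_over (hn' S) ?_ hθ hSθ G hNG (hn' G) (hn S) (hcard ▸ hcop)
      obtain ⟨n, h⟩ := hs
      refine ⟨n, fun x hx => hSG ⟨x.2, ?_⟩⟩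
      have := map_derivedSeries_le_derivedSeries ((QuotientGroup.mk' G).comp S.subtype) n
        ⟨x, hx, rfl⟩
      rw [h, Subgroup.mem_bot] at this
      exact (QuotientGroup.eq_one_iff _).1 this
    · exact exists_invariant_over_of_solvable (hn' S) hθ hSθ G hNG (hn' G) (hn S) (hcard ▸ hcop)
        (derived_of_solvable_quotient hs)
  obtain ⟨χ, h1, h2, h3⟩ := key
  obtain ⟨χ', h4, h5⟩ := exists_typed_over (S := ⊤) hNG (hn ⊤) ⟨χ, h1, fun x _ => by
    obtain ⟨_, ⟨g, hg, rfl⟩, h, hh, e⟩ := H1.exists_mul_of_isComplement' hH (π x)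
    have : g⁻¹ * x ∈ S := by
      change π (g⁻¹ * x) ∈ H
      rw [map_mul, map_inv, ← e]; simpa using hh
    simpa using (stabf χ).mul_mem (le_stabf_of_cf (cf_of_irr h1) hg) (h2 this), h3⟩
  exact ⟨χ', h4, fun x g => h5 x (Subgroup.mem_top x) g _ rfl⟩

end Cfsg.Agent.S4450
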