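import Cfsg.Statements.S4451
import Cfsg.Agent.H8.Glaub3

set_option autoImplicit false
open Cfsg

namespace Cfsg.Agent.S4451

open H5 H19 H8 H8.Glaub

/-- Let the finite group Γ be generated by a normal subgroup G and a cyclic subgroup S of coprime orders such that every non-identity element of S has the same centraliser C = G ⊓ C(S) in G. Let χ be an S-invariant irreducible character of G, χ̂ its canonical extension to Γ (determinantal order coprime to the order of S), and β the irreducible character of C with χ̂(c s) = ε₀ β(c) for c ∈ C and generators s of S (ε₀ = ±1). Then there are a sign ε = ±1, which may differ from ε₀, and a linear character μ of S with μ² = 1, such that: (a) χ̂(c x) = ε β(c) μ(x) for all c ∈ C and all x ∈ S other than 1; (b) the restriction of χ to C equals |S|·ϑ + ε β for some character ϑ of C or ϑ = 0; (c) |S| divides χ(1) − ε β(1). -/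
theorem result {Γ : Type*} [Group Γ] [Fintype Γ] (G S : Subgroup Γ) [Fintype G] (hnorm : ∀ s ∈ S, ∀ g ∈ G, s * g * s⁻¹ ∈ G) (hcop : (Nat.card G).Coprime (Nat.card S)) (htop : G ⊔ S = ⊤) (hcyc : IsCyclic S) (C : Subgroup Γ) [Fintype C] (hC : C = G ⊓ Subgroup.centralizer (S : Set Γ)) (hCG : C ≤ G) (hfpf : ∀ x ∈ S, x ≠ 1 → G ⊓ Subgroup.centralizer ({x} : Set Γ) = C) (χ : Cfsg.IrrCharacter G) (hinv : (∀ s ∈ S, ∀ g g' : G, (g' : Γ) = s * g * s⁻¹ → (χ : G → ℂ) g' = (χ : G → ℂ) g)) (χh : Cfsg.IrrCharacter Γ) (hext : (∀ g : G, (χh : Γ → ℂ) g = (χ : G → ℂ) g)) (hdet : (Cfsg.detOrder (χh : Γ → ℂ)).Coprime (Nat.card S)) (β : Cfsg.IrrCharacter C) (ε₀ : ℤ) (hε₀ : ε₀ = 1 ∨ ε₀ = -1) (hβ : ∀ c : C, ∀ s : Γ, Subgroup.zpowers s = S → (χh : Γ → ℂ) ((c : Γ) * s) = (ε₀ : ℂ) * (β : C → ℂ) c) : ∃ ε : ℤ, (ε = 1 ∨ ε = -1) ∧ (∃ μ : S → ℂ, Cfsg.IsCharacter S μ ∧ μ 1 = 1 ∧ (∀ x : S, μ x * μ x = 1) ∧ ∀ c : C, ∀ x : S, x ≠ 1 → (χh : Γ → ℂ) ((c : Γ) * x) = (ε : ℂ)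 * (β : C → ℂ) c * μ x) ∧ (∃ ϑ : C → ℂ, Cfsg.IsCharacter C ϑ ∧ (fun c : C => (χ : G → ℂ) ⟨c, hCG c.2⟩) = fun c => (Nat.card S : ℂ) * ϑ c + (ε : ℂ) * (β : C → ℂ) c) ∧ (Nat.card S : ℤ) ∣ (Cfsg.charDegree (χ : G → ℂ) : ℤ) - ε * (Cfsg.charDegree (β : C → ℂ) : ℤ) := by
  classical
  have hn : S ≤ Subgroup.normalizer (G : Set Γ) := fun s hs =>
    H1.mem_normalizer_of_conj_mem (hnorm s hs)
  haveI := normal_of_sup_eq_top hn htop
  have hidx : Nat.card S = G.index := H1.card_eq_index_of_sup_eq_top htop hcop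
  obtain ⟨s0, hs0⟩ := (Subgroup.isCyclic_iff_exists_zpowers_eq_top S).1 hcyc
  have hs0S : s0 ∈ S := hs0 ▸ Subgroup.mem_zpowers s0
  have hKn : (⊤ : Subgroup Γ) ≤ Subgroup.normalizer (G : Set Γ) := by
    rw [Subgroup.normalizer_eq_top]
  have hres : res G χh.1 = extendByZero G χ.1 := by
    rw [← extendByZero_comp]; congr 1; exact funext hext
  have h1 : (χh : Γ → ℂ) ∈ chars ⊤ := mem_chars_top.2 χh.2.isCharacter
  have h2 : res G χh.1 ∈ irr G := hres ▸ extendByZero_mem_irr.2 χ.2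
  have hcomm : ∀ c ∈ C, ∀ d ∈ S, c * d = d * c := fun c hc d hd => ((hC.le hc).2 d hd).symm
  have hch : ∀ γ ∈ irr C, IsCharacter S (fun d : S => ip C (theta C d χh.1) γ) := fun γ hγ =>
    isCharacter_partial le_top le_top hcomm h1 (chars_of_irr hγ)
  set b := extendByZero C β.1 with hb
  have hbi : b ∈ irr C := extendByZero_mem_irr.2 β.2
  have hcf : ∀ d ∈ S, theta C d χh.1 ∈ cf C := fun d hd =>
    theta_mem_cf le_top (fun c hc => hcomm c hc d hd) (cf_of_chars h1)
  have hself : ∀ d ∈ S, d ≠ 1 → ip C (theta C d χh.1) (theta C d χh.1) = 1 := fun d hd hd1 =>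
    ip_theta_self le_top hKn (Subgroup.mem_top d)
      (hcop.symm.coprime_dvd_left (orderOf_dvd_card_of_mem hd)) (hfpf d hd hd1).symm h1 h2
  have hθ0 : theta C s0 χh.1 = (ε₀ : ℂ) • b := by
    refine eq_of_eqOn (res_supp C _) (fun x hx => by simp [irr_supp hbi x hx]) fun x hx => ?_
    rw [theta, res_of_mem _ hx, Pi.smul_apply, hb, H19.extendByZero_of_mem _ hx]
    exact hβ ⟨x, hx⟩ s0 hs0
  have hSc : ∀ x y : S, x * y = y * x := fun x y => (IsCyclic.commGroup.mul_comm x y :)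
  have key : ∃ (ε : ℤ) (a : ℕ) (μ : S →* ℂˣ), (ε = 1 ∨ ε = -1) ∧
      ip C (theta C 1 χh.1) b = Nat.card S * a + ε ∧
      ∀ x : S, x ≠ 1 → ip C (theta C x χh.1) b = ε * μ x := by
    by_cases h0 : s0 = 1
    · subst h0
      have hS : ∀ x : S, x = 1 := fun x => Subtype.ext (by
        have := hs0.ge x.2
        simpa using this)
      obtain ⟨n, hn⟩ := (hch b hbi).exists_apply_one
      simp only [OneMemClass.coe_one, hθ0, ip_smul_left, ip_irr_self hbi, mul_one] at hn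
      have h3 : ε₀ = n := by exact_mod_cast hn
      refine ⟨1, 0, 1, Or.inl rfl, ?_, fun x hx => absurd (hS x) hx⟩
      rw [hθ0, ip_smul_left, ip_irr_self hbi, show ε₀ = 1 by omega]; simp
    · exact exists_eq_reg_add_of_sum_le hSc (hch b hbi) (fun x hx =>
        (norm_ip_le_one C (hself x x.2 fun h => hx (Subtype.ext h)) (ip_irr_self hbi)).1)
        ⟨⟨s0, hs0S⟩, fun h => h0 (congrArg Subtype.val h), by
          simp only [hθ0, ip_smul_left, ip_irr_self hbi, mul_one]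
          rcases hε₀ with rfl | rfl <;> simp⟩
  obtain ⟨ε, a, μ, hε, h3, h4⟩ := key
  have h5 : ∀ x : S, x ≠ 1 → theta C x χh.1 = ((ε : ℂ) * μ x) • b := fun x hx => by
    rw [← h4 x hx]
    refine (norm_ip_le_one C (hself x x.2 fun h => hx (Subtype.ext h)) (ip_irr_self hbi)).2 ?_
    rw [h4 x hx, norm_mul, norm_eq_one_of_pow_eq_one (z := μ x) (m := Nat.card S) Nat.card_pos (by
      rw [← Units.val_pow_eq_pow_val, ← map_pow, pow_card_eq_one', map_one, Units.val_one])]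
    rcases hε with rfl | rfl <;> simp
  have h6 : ∀ (c : C) (x : S), x ≠ 1 → χh.1 (c * x) = ε * β.1 c * μ x := fun c x hx => by
    have := congrFun (h5 x hx) c
    rw [theta, res_of_mem _ c.2, Pi.smul_apply, hb, H19.extendByZero_coe] at this
    rw [this, smul_eq_mul]; ring
  have hS0 : (Nat.card S : ℂ) ≠ 0 := H19.card_ne_zero S
  set ϑ : C → ℂ := (Nat.card S : ℂ)⁻¹ • ((fun c : C => (χ : G → ℂ) ⟨c, hCG c.2⟩) - (ε : ℂ) • β.1)
    with hϑ
  have hϑc : IsCharacter C ϑ := by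
    refine (((H6.classFun_resLe hCG χ.2.isClassFunction).sub
      (β.2.isClassFunction.smul _)).smul _).isCharacter_of_classInner fun γ hγ => ?_
    have hγ' := extendByZero_mem_irr.2 hγ
    rw [classInner_smul_left, classInner_sub_left, classInner_smul_left, classInner_resLe hCG,
      ← hres, res_res hCG, ← theta_one]
    by_cases h : β.1 = γ
    · subst h
      refine ⟨a, ?_⟩
      rw [h3, β.2.classInner_self]; field_simp; ring
    · rw [β.2.classInner_of_ne hγ h]
      obtain ⟨k, hk⟩ := exists_eq_card_mul_of_vanish (hch _ hγ').isGen (fun x hx => by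
        rw [h5 x hx, ip_smul_left, ip_irr_ne hbi hγ' (fun h' => h (extendByZero_injective C h')),
          mul_zero])
      obtain ⟨n, hn⟩ := (hch _ hγ').exists_apply_one
      simp only [OneMemClass.coe_one] at hk hn
      have h7 : (n : ℤ) = Nat.card S * k := by exact_mod_cast hn.symm.trans hk
      have h8 : 0 ≤ k := by
        have : (0 : ℤ) < Nat.card S := by exact_mod_cast Nat.card_pos
        by_contra h
        have : (Nat.card S : ℤ) * k < 0 := mul_neg_of_pos_of_neg this (not_le.1 h)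
        omega
      refine ⟨k.toNat, ?_⟩
      have : ((k.toNat : ℕ) : ℂ) = k := by exact_mod_cast Int.toNat_of_nonneg h8
      rw [hk, this]; field_simp; ring
  have hϑe : (fun c : C => (χ : G → ℂ) ⟨c, hCG c.2⟩) =
      fun c => (Nat.card S : ℂ) * ϑ c + (ε : ℂ) * (β : C → ℂ) c := by
    ext c
    simp only [hϑ, Pi.smul_apply, Pi.sub_apply, smul_eq_mul]
    field_simp; ring
  refine ⟨ε, hε, ⟨fun x => μ x, isCharacter_hom μ, by simp, fun x => ?_, h6⟩, ⟨ϑ, hϑc, hϑe⟩, ?_⟩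
  · by_cases hx : x = 1
    · simp [hx]
    have hpos : 0 < G.index := hidx ▸ Nat.card_pos
    have h7 := canonical_ext_mul_pow G (hidx ▸ hcop) χh.2 (res_mem_irr_iff.1 h2) (hidx ▸ hdet)
      (j := G.index - 1) (by
        exact (Nat.coprime_self_sub_left hpos).2 (Nat.coprime_one_left _))
      G.one_mem (s := x) (hidx ▸ pow_card_eq_one_of_mem x.2) (by simp)
    have h8 : (x : Γ) ^ (G.index - 1) = (x⁻¹ : S) := by
      rw [Subgroup.coe_inv, eq_inv_iff_mul_eq_one, ← pow_succ, Nat.sub_add_cancel hpos, ← hidx]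
      exact pow_card_eq_one_of_mem x.2
    have h9 := h6 1 x hx
    have h10 := h6 1 x⁻¹ (inv_ne_one.2 hx)
    rw [h8] at h7
    simp only [OneMemClass.coe_one] at h9 h10
    rw [h9, h10] at h7
    have h11 : (ε : ℂ) * β.1 1 ≠ 0 :=
      mul_ne_zero (by rcases hε with rfl | rfl <;> simp) β.2.apply_one_ne_zero
    have h12 := mul_left_cancel₀ h11 h7
    calc (μ x : ℂ) * μ x = μ x⁻¹ * μ x := by rw [h12]
      _ = 1 := by rw [← Units.val_mul, ← map_mul, inv_mul_cancel, map_one, Units.val_one]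
  · obtain ⟨n, hn⟩ := hϑc.exists_apply_one
    have h7 := congrFun hϑe 1
    rw [hn] at h7
    refine ⟨n, ?_⟩
    have h8 : (charDegree χ.1 : ℂ) = Nat.card S * n + ε * charDegree β.1 := by
      rw [coe_deg, coe_deg]; exact h7
    have h9 : (charDegree χ.1 : ℤ) = Nat.card S * n + ε * charDegree β.1 := by exact_mod_cast h8
    rw [h9]; ring

end Cfsg.Agent.S4451
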