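import Cfsg.Statements.S4454
import Cfsg.Agent.H8.Glaub3

set_option autoImplicit false
open Cfsg

namespace Cfsg.Agent.S4454

open H5 H19 H8 H8.Glaub

/-- Let N ≤ G be normal subgroups of the finite group Γ with Γ/G cyclic and Γ/N a Frobenius group with kernel G/N: G ≠ Γ, N ≠ G, and no element of Γ outside G fixes a non-identity coset of N in G under conjugation. Let ϑ be an irreducible character of N invariant under conjugation by Γ and suppose ϑ is fully ramified in G: the character of G induced from ϑ equals e·χ for an irreducible character χ of G and a natural number e. Then the index of G in Γ divides e − 1 or e + 1. -/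
theorem result {Γ : Type*} [Group Γ] [Fintype Γ] (G N : Subgroup Γ) [hG : G.Normal] [hN : N.Normal] [Fintype G] [Fintype N] (hNG : N ≤ G) (hGlt : G ≠ ⊤) (hNlt : N ≠ G) (hcyc : IsCyclic (Γ ⧸ G)) (hfrob : ∀ x : Γ, x ∉ G → ∀ g : Γ, g ∈ G → x * g * x⁻¹ * g⁻¹ ∈ N → g ∈ N) (θ : Cfsg.IrrCharacter N) (hinv : ∀ (x : Γ) (n : N), (θ : N → ℂ) ⟨x * n * x⁻¹, hN.conj_mem n n.2 x⟩ = (θ : N → ℂ) n) (χ : Cfsg.IrrCharacter G) (e : ℕ) (hram : Cfsg.indFun (N.subgroupOf G) (fun n : N.subgroupOf G => (θ : N → ℂ) ⟨(n : G), n.2⟩) = fun g => (e : ℂ) * (χ : G → ℂ) g) : (G.index : ℤ) ∣ (e : ℤ) - 1 ∨ (G.index : ℤ) ∣ (e : ℤ) + 1 := by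
  have hnG : ∀ x, x ∈ Subgroup.normalizer (G : Set Γ) := fun x => by
    rw [Subgroup.normalizer_eq_top]; trivial
  have hnN : ∀ x, x ∈ Subgroup.normalizer (N : Set Γ) := fun x => by
    rw [Subgroup.normalizer_eq_top]; trivial
  obtain ⟨q, hq⟩ := IsCyclic.exists_generator (α := Γ ⧸ G)
  obtain ⟨s, rfl⟩ := QuotientGroup.mk_surjective q
  have htop : G ⊔ Subgroup.zpowers s = ⊤ := by
    rw [eq_top_iff]
    intro x _
    obtain ⟨i, hi⟩ := hq (x : Γ ⧸ G)
    simp only [← QuotientGroup.mk_zpow, QuotientGroup.eq] at hi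
    simpa using Subgroup.mul_mem _ (Subgroup.mem_sup_right (Subgroup.zpow_mem_zpowers s i))
      (Subgroup.mem_sup_left (T := Subgroup.zpowers s) hi)
  have hsG : s ∉ G := fun h => hGlt (by rw [← htop, sup_eq_left.2 ((Subgroup.zpowers_le).2 h)])
  set L := N ⊔ Subgroup.zpowers s with hL
  have hLG : L ⊓ G ≤ N := fun x hx =>
    hfrob s hsG x hx.2 (commutator_mem_of_sup_zpowers (hnN s) (mem_sup_zpowers N s) hx.1)
  have hidx : N.relIndex L = G.index := by
    rw [← Subgroup.relIndex_top_right, ← htop, sup_comm, Subgroup.relIndex_sup_right,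
      show N.relIndex L = G.relIndex L by
        rw [← Subgroup.inf_relIndex_right G, inf_comm, le_antisymm hLG (le_inf le_sup_left hNG)]]
    rw [← Subgroup.relIndex_sup_right L, ← Subgroup.relIndex_sup_right (Subgroup.zpowers s), hL]
    congr 1
    rw [sup_comm N, sup_assoc, sup_eq_right.2 hNG]
  set t := extendByZero N θ.1 with ht
  set c := extendByZero G χ.1 with hc
  have hti : t ∈ irr N := extendByZero_mem_irr.2 θ.2
  have hci : c ∈ irr G := extendByZero_mem_irr.2 χ.2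
  have htinv : ∀ x, cjf x t = t := fun x =>
    (inv_iff_le_stabf (S := ⊤) (fun y _ => hnN y) θ.1).1 (fun s _ g g' h => by
      rw [← hinv s g]; exact congrArg _ (Subtype.ext h)) (Subgroup.mem_top x)
  have hind : ind N G t = (e : ℂ) • c := by
    refine eq_of_eqOn (ind_mem_cf' hNG (cf_of_irr hti)).1 (fun x hx => by simp [irr_supp hci x hx])
      fun x hx => ?_
    have h1 := congrFun (indFun_subgroupOf hNG (irr_supp hti)) ⟨x, hx⟩
    rw [← h1, Pi.smul_apply, hc, H19.extendByZero_of_mem _ hx, smul_eq_mul,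
      ← congrFun hram ⟨x, hx⟩]
    congr 1
    ext n
    exact H19.extendByZero_of_mem _ _
  have he0 : (e : ℂ) ≠ 0 := fun h => H19.ind_ne_zero hNG (irr_apply_one_ne_zero hti) (by
    rw [hind, h, zero_smul])
  have hcs : cjf s c = c := by
    have := cjf_ind N (hnG s) t
    rw [htinv, hind, cjf_smul] at this
    exact smul_right_injective _ he0 this
  have hip : ip N (res N c) t = e := by
    rw [← ip_res_ind (cf_of_irr hti) (cf_of_irr hci), hind, ip_smul_right, ip_irr_self hci]; simp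
  have hfus : ∀ d, d ∉ G → ∀ u ∈ G, ∀ a ∈ N, ∀ b ∈ N, u * (a * d) * u⁻¹ = b * d → u ∈ N := by
    intro d hd u hu a ha b hb h
    refine (N.inv_mem_iff).1 (hfrob d hd _ (G.inv_mem hu) ?_)
    have e1 : d * u⁻¹ * d⁻¹ * u⁻¹⁻¹ = a⁻¹ * (u⁻¹ * b * u⁻¹⁻¹) := by
      have : b = u * (a * d) * u⁻¹ * d⁻¹ := by rw [h]; group
      rw [this]; group
    rw [e1]
    exact N.mul_mem (N.inv_mem ha) (hN.conj_mem b hb u⁻¹)
  have F : Fus G N s := ⟨hNG, hnG s, hnN s, fun k hk => hfus _ fun h =>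
    hsG (mem_of_pow_mem_of_coprime hk.symm h)⟩
  obtain ⟨χh, h1, h2⟩ := exists_ext (hnG s) hci hcs
  obtain ⟨ξh, h3, h4⟩ := F.exists_ip_ne_zero h1
  have hch := F.isCharacter_ip h1 h3
  have h5 : res N ξh = t := by
    by_contra hne
    apply h4
    refine congrFun (hch.eq_zero_of_apply_one ?_) ⟨s, mem_sup_zpowers N s⟩
    simp only [OneMemClass.coe_one, theta_one]
    rw [← res_res hNG, h2, res_eq_smul_of_le_stabf hNG (fun x _ => hnN x) hci hti
      (fun x _ => htinv x) (hip ▸ he0), ip_smul_left, ip_irr_ne hti h3.ir (Ne.symm hne), mul_zero]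
  have h6 : ip N (theta N 1 χh) (theta N 1 ξh) = e := by
    rw [theta_one, theta_one, ← res_res hNG, h2, h5, hip]
  obtain ⟨ψ, hψ, hψ'⟩ := hch.exists_deflate (N.subgroupOf L) (fun n hn => hch.mem_charKer.2 (by
    simp only [OneMemClass.coe_one, ip_theta_eq_sum, mul_one]
    rw [sum_els_mul_right (Subgroup.mem_subgroupOf.1 hn) (fun c => χh c * (starRingEnd ℂ) (ξh c))]))
  obtain ⟨ε, a, μ, hε, h7, -⟩ := exists_eq_reg_add_of_sum_le (fun x y => by
      obtain ⟨x, rfl⟩ := QuotientGroup.mk_surjective x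
      obtain ⟨y, rfl⟩ := QuotientGroup.mk_surjective y
      rw [← mul_inv_eq_one, ← QuotientGroup.mk_mul, ← QuotientGroup.mk_mul, ← QuotientGroup.mk_inv,
        ← QuotientGroup.mk_mul, QuotientGroup.eq_one_iff, Subgroup.mem_subgroupOf]
      simpa [mul_assoc] using commutator_mem_of_sup_zpowers (hnN s) x.2 y.2) hψ (fun x hx => by
      obtain ⟨d, rfl⟩ := QuotientGroup.mk_surjective x
      have hd : (d : Γ) ∉ G := fun h => hx ((QuotientGroup.eq_one_iff _).2 (hLG ⟨d.2, h⟩))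
      rw [hψ']
      refine (norm_ip_le_one N ?_ (h3.ip_self (hnN s) d.2)).1
      rw [← h1.ip_self (hnG s) (t := d) (htop ▸ Subgroup.mem_top _), ip_theta_eq_sum,
        ip_theta_eq_sum]
      exact (sum_coset_of_fusion G d (hnG d) hNG (hfus d hd) (fun x => χh x * (starRingEnd ℂ) (χh x))
        (fun x hx y => by rw [← cjf_apply x χh, h1.le_stabf hx])).symm)
    ⟨(⟨s, mem_sup_zpowers N s⟩ : L), fun h => hsG (hNG (Subgroup.mem_subgroupOf.1
      ((QuotientGroup.eq_one_iff _).1 h))), by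
      rw [hψ']; exact h4⟩
  have h8 : ψ 1 = e := by rw [← QuotientGroup.mk_one, hψ']; exact h6
  have h9 : Nat.card (L ⧸ N.subgroupOf L) = G.index := hidx
  rw [h8, h9] at h7
  have h10 : (e : ℤ) = G.index * a + ε := by exact_mod_cast h7
  rcases hε with rfl | rfl
  · exact Or.inl ⟨a, by rw [h10]; ring⟩
  · exact Or.inr ⟨a, by rw [h10]; ring⟩

end Cfsg.Agent.S4454
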