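import Cfsg.Statements.S4457
import Cfsg.Agent.H8.Cd3

set_option autoImplicit false
open Cfsg

namespace Cfsg.Agent.S4457

open H5 H6 H8 Cfsg

/-- Let G be a finite group whose irreducible character degrees are exactly 1 and m (m ≠ 1). Then either G has an abelian normal subgroup of index m, or m is a power of a prime p and G is the direct product of a p-group and an abelian group: there are normal subgroups P and A with P a p-group, A abelian, P ⊓ A = 1 and P ⊔ A = G. -/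
theorem result {G : Type*} [Group G] [Finite G] (m : ℕ) (hcd : ∀ χ : Cfsg.IrrCharacter G, Cfsg.charDegree (χ : G → ℂ) = 1 ∨ Cfsg.charDegree (χ : G → ℂ) = m) (hm : ∃ χ : Cfsg.IrrCharacter G, Cfsg.charDegree (χ : G → ℂ) = m) (hm1 : m ≠ 1) : (∃ A : Subgroup G, A.Normal ∧ (∀ a ∈ A, ∀ b ∈ A, a * b = b * a) ∧ A.index = m) ∨ ∃ p e : ℕ, p.Prime ∧ m = p ^ e ∧ ∃ P A : Subgroup G, P.Normal ∧ A.Normal ∧ IsPGroup p P ∧ (∀ a ∈ A, ∀ b ∈ A, a * b = b * a) ∧ P ⊓ A = ⊥ ∧ P ⊔ A = ⊤ := by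
  have h : Cd3 G m m := fun χ hχ => (hcd ⟨χ, hχ⟩).imp_right Or.inl
  obtain ⟨χ, hχ⟩ := hm
  have h0 : commutator G ≠ ⊥ := fun e => (not_le_ker_iff χ.2).2 (hχ ▸ hm1) (e ▸ bot_le)
  rcases cd2_struct h h0 with ⟨A, h1, h2, h3, -⟩ | ⟨p, e, hp, h1, P, h2, h3, h4⟩
  · exact Or.inl ⟨A, h1, fun a ha b hb => congrArg Subtype.val (h2.is_comm.comm ⟨a, ha⟩ ⟨b, hb⟩), h3⟩
  haveI := Fact.mk hp
  refine Or.inr ⟨p, e, hp, h1, P, pResidual p G, h2, inferInstance, P.isPGroup', fun a ha b hb =>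
    (Subgroup.mem_center_iff.1 (h3 hb) a), ?_, ?_⟩
  · rw [inf_comm]
    exact (H3.hasNormalPComplement_iff_inf_eq_bot P).1
      (H3.hasNormalPComplement_iff_not_dvd_card_pResidual.2 h4)
  · rw [sup_comm, H3.pResidual_sup_sylow]

end Cfsg.Agent.S4457
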