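import Cfsg.Statements.S4459
import Cfsg.Agent.H8.Cd4

set_option autoImplicit false
open Cfsg

namespace Cfsg.Agent.S4459

open H5 H6 H8 Cfsg

/-- Let G be a non-abelian finite group and p a prime. Then the irreducible character degrees of G are exactly 1 and p if and only if either G has an abelian normal subgroup of index p or the centre of G has index p³. -/
theorem result {G : Type*} [Group G] [Finite G] (hG : ∃ a b : G, a * b ≠ b * a) (p : ℕ) (hp : p.Prime) : ((∀ χ : Cfsg.IrrCharacter G, Cfsg.charDegree (χ : G → ℂ) = 1 ∨ Cfsg.charDegree (χ : G → ℂ) = p) ∧ ∃ χ : Cfsg.IrrCharacter G, Cfsg.charDegree (χ : G → ℂ) = p) ↔ ((∃ A : Subgroup G, A.Normal ∧ (∀ a ∈ A, ∀ b ∈ A, a * b = b * a) ∧ A.index = p) ∨ (Subgroup.center G).index = p ^ 3) := by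
  have h0 : commutator G ≠ ⊥ := fun e => by
    obtain ⟨a, b, h⟩ := hG
    exact h (Subgroup.mem_centralizer_iff.1 (Subgroup.commutator_eq_bot_iff_le_centralizer.1 e
      (Subgroup.mem_top b)) a (Subgroup.mem_top a))
  constructor
  · rintro ⟨h, -⟩
    exact (cdp_struct hp (fun χ hχ => (h ⟨χ, hχ⟩).imp_right Or.inl) h0).imp_left fun ⟨A, h1, h2, h3⟩ =>
      ⟨A, h1, fun a ha b hb => congrArg Subtype.val (h2.is_comm.comm ⟨a, ha⟩ ⟨b, hb⟩), h3⟩
  intro h
  have h1 : ∀ χ : IrrCharacter G, charDegree χ.1 = 1 ∨ charDegree χ.1 = p := fun χ => by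
    rcases h with ⟨A, h1, h2, h3⟩ | h
    · refine (Nat.dvd_prime hp).1 (h3 ▸ deg_dvd_index_of_comm χ.2 A ?_)
      rw [Subgroup.commutator_eq_bot_iff_le_centralizer.2 fun a ha b hb => h2 b hb a ha]
      exact bot_le
    have h2 := h ▸ Subgroup.index_dvd_of_le χ.2.center_le_charCenter
    obtain ⟨k, -, hk⟩ := (Nat.dvd_prime_pow hp).1 (χ.2.charDegree_dvd_index_charCenter.trans h2)
    have h3 := (deg_sq_le χ.2).trans (Nat.le_of_dvd (pow_pos hp.pos _) h2)
    rw [hk, ← pow_mul, Nat.pow_le_pow_iff_right hp.one_lt] at h3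
    rw [hk]
    obtain rfl | rfl : k = 0 ∨ k = 1 := by omega
    all_goals simp
  refine ⟨h1, by_contra fun e => h0 (comm_of_forall_deg fun χ hχ => (h1 ⟨χ, hχ⟩).resolve_right
    fun e' => e ⟨⟨χ, hχ⟩, e'⟩)⟩

end Cfsg.Agent.S4459
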