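import Cfsg.Statements.S4460
import Cfsg.Agent.H8.Cd3

set_option autoImplicit false
open Cfsg

namespace Cfsg.Agent.S4460

open H5 H6 H8 Cfsg

/-- A finite group with exactly three distinct irreducible character degrees is solvable of derived length at most 3: its third derived subgroup is trivial. -/
theorem result {G : Type*} [Group G] [Finite G] (hcd : Nat.card {n : ℕ // ∃ χ : Cfsg.IrrCharacter G, Cfsg.charDegree (χ : G → ℂ) = n} = 3) : derivedSeries G 3 = ⊥ := by
  have h1 : (1 : ℕ) ∈ {n : ℕ | ∃ χ : IrrCharacter G, charDegree (χ : G → ℂ) = n} :=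
    ⟨⟨_, isIrrCharacter_one⟩, charDegree_of_eq (n := 1) (by simp)⟩
  obtain ⟨x, y, z, -, -, -, h⟩ := Set.ncard_eq_three.1
    (show {n : ℕ | ∃ χ : IrrCharacter G, charDegree (χ : G → ℂ) = n}.ncard = 3 from hcd)
  have h2 : ∀ χ, IsIrrCharacter G χ → charDegree χ = x ∨ charDegree χ = y ∨ charDegree χ = z :=
    fun χ hχ => by simpa using h.le ⟨⟨χ, hχ⟩, rfl⟩
  have h3 : ∃ a b, Cd3 G a b := by
    rw [h] at h1
    rcases h1 with rfl | rfl | rfl
    exacts [⟨y, z, h2⟩, ⟨x, z, fun χ hχ => by have := h2 χ hχ; tauto⟩,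
      ⟨x, y, fun χ hχ => by have := h2 χ hχ; tauto⟩]
  obtain ⟨a, b, h3⟩ := h3
  exact h3.der3

end Cfsg.Agent.S4460
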