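import Cfsg.Statements.S4462
import Cfsg.Agent.H8.Brol

set_option autoImplicit false
open Cfsg

namespace Cfsg.Agent.S4462

open H5 H8 Cfsg

theorem aux {G H : Type*} [Group G] [Group H] (f : G →* H) (A B : Subgroup H) [A.Normal]
    (h : Group.IsNilpotent (B ⧸ A.subgroupOf B))
    (h' : ((A.comap f).subgroupOf (B.comap f)).Normal) :
    Group.IsNilpotent (B.comap f ⧸ (A.comap f).subgroupOf (B.comap f)) := by
  let φ : B.comap f →* B ⧸ A.subgroupOf B :=
    (QuotientGroup.mk' _).comp (MonoidHom.subgroupComap _ _)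
  have e : (A.comap f).subgroupOf (B.comap f) = φ.ker := by
    ext x
    simp only [φ, MonoidHom.mem_ker, MonoidHom.comp_apply, QuotientGroup.mk'_apply,
      QuotientGroup.eq_one_iff, Subgroup.mem_subgroupOf, Subgroup.mem_comap]
    rfl
  exact H1.isNilpotent_of_injective ((QuotientGroup.kerLift φ).comp
    (QuotientGroup.quotientMulEquivOfEq e).toMonoidHom)
    ((QuotientGroup.kerLift_injective φ).comp (QuotientGroup.quotientMulEquivOfEq e).injective)

universe v in
theorem chain (n : ℕ) : ∀ (G : Type v) [Group G] [Finite G], Group.IsSolvable G →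
    ((cd G).ncard ≤ n ∨ Subsingleton G) →
    ∃ N : Fin (n + 1) → Subgroup G, N 0 = ⊥ ∧ N (Fin.last n) = ⊤ ∧ Monotone N ∧
      (∀ i, (N i).Normal) ∧ ∀ i : Fin n, ∀ h : (N i.castSucc).subgroupOf (N i.succ) |>.Normal,
      Group.IsNilpotent (↥(N i.succ) ⧸ (N i.castSucc).subgroupOf (N i.succ)) := by
  induction n with
  | zero =>
    intro G _ _ _ h
    have : Subsingleton G := h.resolve_left fun h => by
      have := (Set.ncard_pos cd_finite).2 ⟨1, one_mem_cd (G := G)⟩
      omega
    exact ⟨fun _ => ⊥, rfl, Subsingleton.elim _ _, fun _ _ _ => le_rfl, fun _ => inferInstance,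
      fun i => i.elim0⟩
  | succ n ih =>
    intro G _ _ hs h
    obtain ⟨N, h0, h1, h2, h3, h4⟩ := ih (G ⧸ fittingSubgroup G) inferInstance (by
      by_cases e : fittingSubgroup G = ⊤
      · exact Or.inr (QuotientGroup.subsingleton_iff.2 e)
      · rcases h with h | h
        · have := Set.ncard_lt_ncard (cd_quot_fitting_ssubset hs e) cd_finite
          exact Or.inl (by omega)
        · exact absurd (Subsingleton.elim _ _) e)
    refine ⟨Fin.cons ⊥ fun i => (N i).comap (QuotientGroup.mk' _), rfl, ?_, ?_, fun i => ?_,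
      fun i => ?_⟩
    · rw [← Fin.succ_last, Fin.cons_succ, h1, Subgroup.comap_top]
    · refine Fin.monotone_iff_le_succ.2 fun i => ?_
      refine Fin.cases ?_ (fun j => ?_) i
      · exact bot_le
      · rw [← Fin.succ_castSucc, Fin.cons_succ, Fin.cons_succ]
        exact Subgroup.comap_mono (h2 j.castSucc_le_succ)
    · refine Fin.cases ?_ (fun j => ?_) i
      · exact inferInstanceAs (⊥ : Subgroup G).Normal
      · exact (h3 j).comap _
    · refine Fin.cases ?_ (fun j => ?_) i
      · intro h
        haveI : Group.IsNilpotent ((N 0).comap (QuotientGroup.mk' (fittingSubgroup G))) := by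
          rw [h0, MonoidHom.comap_bot, QuotientGroup.ker_mk']; infer_instance
        exact @Group.nilpotent_quotient_of_nilpotent _ _ _ h this
      · intro h
        haveI := h3 j.castSucc
        exact aux _ _ _ (h4 j inferInstance) h

/-- Let G be a finite solvable group with exactly n distinct irreducible character degrees. Then G has normal subgroups 1 = N₀ ≤ N₁ ≤ ⋯ ≤ Nₙ = G with every quotient N_{i+1}/N_i nilpotent (the nilpotent length of G is at most n). -/
theorem result {G : Type*} [Group G] [Finite G] (hsolv : Group.IsSolvable G) (n : ℕ) (hcd : Nat.card {d : ℕ // ∃ χ : Cfsg.IrrCharacter G, Cfsg.charDegree (χ : G → ℂ) = d} = n) : ∃ N : Fin (n + 1) → Subgroup G, N 0 = ⊥ ∧ N (Fin.last n) = ⊤ ∧ Monotone N ∧ (∀ i, (N i).Normal) ∧ ∀ i : Fin n, ∀ h : (N i.castSucc).subgroupOf (N i.succ) |>.Normal, Group.IsNilpotent (↥(N i.succ) ⧸ (N i.castSucc).subgroupOf (N i.succ)) := by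
  exact chain n G hsolv (Or.inl (hcd ▸ (Nat.card_coe_set_eq (cd G)).ge))

end Cfsg.Agent.S4462
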