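import Cfsg.Statements.S4473
import Cfsg.Agent.H10.Dickson
import Cfsg.Agent.H6.Clifford
import Cfsg.Agent.H5.Central

set_option autoImplicit false
open Cfsg

namespace Cfsg.Agent.S4473

open H5 H6 H10 Subgroup Matrix MulAction
open scoped MatrixGroups

/-- Let the finite group G have a faithful irreducible character χ of degree 2 that is primitive: χ is not induced from a character of any proper subgroup. Then the centre of G has index 12, 24 or 60. -/
theorem result {G : Type*} [Group G] [Fintype G] (χ : Cfsg.IrrCharacter G) (hfaith : ∀ g : G, (χ : G → ℂ) g = (χ : G → ℂ) 1 → g = 1) (h2 : Cfsg.charDegree (χ : G → ℂ) = 2) (hprim : ∀ H : Subgroup G, H ≠ ⊤ → ∀ θ : H → ℂ, Cfsg.IsCharacter H θ → (χ : G → ℂ) ≠ Cfsg.indFun H θ) : (Subgroup.center G).index = 12 ∨ (Subgroup.center G).index = 24 ∨ (Subgroup.center G).index = 60 := by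
  classical
  obtain ⟨χ, hχ⟩ := χ
  obtain ⟨n, ρ, -, rfl⟩ := id hχ
  obtain rfl : n = 2 := by rw [charDegree_character] at h2; simpa using h2
  dsimp only at *
  let f : G →* GL (Fin 2) ℂ := (LinearMap.toMatrixAlgEquiv'.toMulEquiv.toMonoidHom.comp ρ).toHomUnits
  have hf : ∀ g, (f g).1 = LinearMap.toMatrix' (ρ g) := fun g => rfl
  have hi : Function.Injective f := (injective_iff_map_eq_one f).2 fun g hg => hfaith g (by
    rw [Representation.character, Representation.character, map_one,
      LinearMap.toMatrix'.injective ((hf g).symm.trans ((congrArg Units.val hg).trans LinearMap.toMatrix'_one.symm))])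
  let π : G →* PGL(2, ℂ) := ProjGenLinGroup.mk.comp f
  have hk : π.ker = center G := by
    ext g
    rw [MonoidHom.mem_ker, MonoidHom.comp_apply, ProjGenLinGroup.mk_eq_one]
    refine ⟨fun h => mem_center_iff.2 fun x => hi (by rw [map_mul, map_mul, mem_center_iff.1 h]), fun h => ?_⟩
    obtain ⟨ω, hω⟩ := (mem_charCenter_character ρ g).1 (hχ.center_le_charCenter h)
    exact mem_center_iff.2 fun x => Units.ext (by simp [hf, hω])
  have hP : P1Like ℂ π.range (OnePoint ℂ) := (p1Like_PGL ℂ).comap π.range.subtype Subtype.val_injective fun _ _ => rfl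
  haveI : Finite π.range := .of_surjective _ π.rangeRestrict_surjective
  have hU : ∀ x, hP.Uni x = ⊥ := fun x => eq_bot_iff.2 fun a ha => by_contra fun h =>
    (orderOf_pos a).ne' (by exact_mod_cast (hP.pow_eq_one_iff_of_mem_Uni ha h _).1 (pow_orderOf_eq_one a))
  have hc : ∀ x : OnePoint ℂ, ∀ a ∈ (stabilizer π.range x).comap π.rangeRestrict,
      ∀ b ∈ (stabilizer π.range x).comap π.rangeRestrict, a * b = b * a := fun x a ha b hb => by
    obtain ⟨⟨c, hc⟩, h⟩ := (hP.isCyclic_stabilizer (hU x)).exists_generator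
    obtain ⟨c, rfl⟩ := π.rangeRestrict_surjective c
    have : ∀ a ∈ (stabilizer π.range x).comap π.rangeRestrict, ∃ k : ℤ, ∃ z ∈ center G, a = z * c ^ k := fun a ha => by
      obtain ⟨k, e⟩ := h ⟨_, ha⟩
      refine ⟨k, a * (c ^ k)⁻¹, hk ▸ ?_, by simp⟩
      have : π c ^ k = π a := congrArg (fun y => y.1.1) e
      rw [MonoidHom.mem_ker, map_mul, map_inv, map_zpow, this, mul_inv_cancel]
    obtain ⟨k, z, hz, rfl⟩ := this a ha
    obtain ⟨l, w, hw, rfl⟩ := this b hb
    have h1 := mem_center_iff.1 hz
    have h2 := mem_center_iff.1 hw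
    calc z * c ^ k * (w * c ^ l) = z * (c ^ k * w) * c ^ l := by group
      _ = w * (c ^ l * z) * c ^ k := by rw [h2, h1, ← mul_assoc, ← mul_assoc, ← h1]; group
      _ = _ := by group
  have h1 : ρ.character 1 = 2 := by rw [← hχ.coe_charDegree, h2]; rfl
  rw [← hk, index_ker]
  rcases hP.dickson_ss hU with ⟨x, h⟩ | ⟨x, h⟩ | ⟨⟨e⟩⟩ | ⟨⟨e⟩⟩ | ⟨⟨e⟩⟩
  · have := hχ.apply_one_of_comm fun a b => hc x a (h _) b (h _)
    rw [h1] at this; norm_num at this
  · set A := (stabilizer π.range x).comap π.rangeRestrict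
    have hA : A.index = 2 := by rw [index_comap_of_surjective _ π.rangeRestrict_surjective, index_stabilizer,
      ← Nat.card_coe_set_eq, h]
    obtain ⟨θ, h3, h4⟩ := (hχ.isCharacter.restrict A).exists_irr_constituent fun e => by
      have : ρ.character 1 = 0 := congrFun e 1
      rw [h1] at this; norm_num at this
    refine absurd (eq_of_constituent_of_apply_one h3.isCharacter.indFun hχ (by
      rwa [frobenius_reciprocity _ _ hχ.isClassFunction, Ne, classInner_eq_zero_comm]) (by
      rw [indFun_apply_one, hA, h1, h3.apply_one_of_comm fun a b => Subtype.ext (hc x a a.2 b b.2)]; simp)).symm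
      (hprim A (fun e => by rw [e, index_top] at hA; omega) θ h3.isCharacter)
  · left; rw [Nat.card_congr e.toEquiv, nat_card_alternatingGroup]; simp [Nat.factorial]
  · right; left; rw [Nat.card_congr e.toEquiv, Nat.card_perm]; simp [Nat.factorial]
  · right; right; rw [Nat.card_congr e.toEquiv, nat_card_alternatingGroup]; simp [Nat.factorial]

end Cfsg.Agent.S4473
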