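import Cfsg.Statements.S4474
import Cfsg.Agent.H8.Form

set_option autoImplicit false
open Cfsg

namespace Cfsg.Agent.S4474

open H5 H8 Matrix
open scoped ComplexConjugate

/-- Let χ be an irreducible character of the finite group G. Then the Frobenius–Schur indicator of χ (the average over s ∈ G of χ(s²)) equals 1 if and only if χ is afforded by a real representation: there is a representation of G on a real coordinate space whose trace function, viewed in ℂ, is χ. -/
theorem result {G : Type*} [Group G] [Fintype G] (χ : Cfsg.IrrCharacter G) : ((Nat.card G : ℂ)⁻¹ * ∑ s : G, (χ : G → ℂ) (s * s)) = 1 ↔ ∃ (n : ℕ) (ρ : Representation ℝ G (Fin n → ℝ)), ∀ g : G, ((LinearMap.trace ℝ (Fin n → ℝ) (ρ g) : ℝ) : ℂ) = (χ : G → ℂ) g := by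
  constructor
  · intro h
    obtain ⟨n, Y, hY⟩ := exists_real_matrix χ.2 h
    exact ⟨n, matrixRep Y, fun g => by rw [matrixRep_apply, Matrix.trace_toLin'_eq, hY]⟩
  · rintro ⟨n, ρ, hρ⟩
    let Y : G → Matrix (Fin n) (Fin n) ℝ := fun g => LinearMap.toMatrix' (ρ g)
    have hY : ∀ a b, Y (a * b) = Y a * Y b := fun a b => by
      simp only [Y]; rw [map_mul, LinearMap.toMatrix'_mul]
    let o : Matrix (Fin n) (Fin n) ℝ →+* Matrix (Fin n) (Fin n) ℂ := Complex.ofRealHom.mapMatrix
    have ho : Function.Injective o := Matrix.map_injective Complex.ofReal_injective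
    have hoT : ∀ A, (o A)ᵀ = o Aᵀ := fun A => rfl
    have e : ∀ g, (o (Y g)).trace = χ.1 g := fun g => by
      rw [← hρ, ← Matrix.toLin'_toMatrix' (ρ g), Matrix.trace_toLin'_eq]
      simp [o, Matrix.trace, Y]
    have hr : (fun g => conj (χ.1 g)) = χ.1 := funext fun g => by rw [← hρ, Complex.conj_ofReal]
    obtain ⟨-, h⟩ := form_spec (X := fun g => o (Y g)) (fun a b => by rw [hY, map_mul])
      (by simpa only [e] using sum_trace_sq χ.2 hr)
    let M : Matrix (Fin n) (Fin n) ℝ := ∑ g, (Y g)ᵀ * Y g
    have hM := h (o M) fun g => by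
      rw [hoT, ← map_mul, ← map_mul]
      congr 1
      simp only [M, Finset.mul_sum, Finset.sum_mul]
      rw [← Equiv.sum_comp (Equiv.mulRight g) fun x => (Y x)ᵀ * Y x]
      refine Finset.sum_congr rfl fun x _ => ?_
      simp only [Equiv.coe_mulRight, hY, transpose_mul, Matrix.mul_assoc]
    have hMT : Mᵀ = M := by simp [M, transpose_sum]
    rw [hoT, hMT] at hM
    simp only [e] at hM
    have hn : n ≠ 0 := by
      rintro rfl
      apply χ.2.apply_one_ne_zero
      rw [← e]; simp
    have h0 : o M ≠ 0 := by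
      intro h0
      have h1 : M = 0 := ho (by rw [h0, map_zero])
      let i : Fin n := ⟨0, Nat.pos_of_ne_zero hn⟩
      have h2 : ∑ g, ∑ k, Y g k i * Y g k i = 0 := by
        have := congrFun (congrFun h1 i) i
        simpa [M, Matrix.sum_apply, Matrix.mul_apply] using this
      have h3 := (Finset.sum_eq_zero_iff_of_nonneg fun g _ =>
        Finset.sum_nonneg fun k _ => mul_self_nonneg _).mp h2 1 (Finset.mem_univ _)
      have h4 := (Finset.sum_eq_zero_iff_of_nonneg fun k _ => mul_self_nonneg _).mp h3 i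
        (Finset.mem_univ _)
      simp [Y] at h4
    exact (smul_left_injective ℂ h0 ((one_smul ℂ _).trans hM)).symm

end Cfsg.Agent.S4474
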