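import Cfsg.Statements.S4476
import Cfsg.Agent.H8.Real2
import Cfsg.Agent.H5.Equiv

set_option autoImplicit false
open Cfsg

namespace Cfsg.Agent.S4476

open H5 H6 H8
open scoped ComplexConjugate

/-- Let G be a finite group of even order g with exactly t involutions, and put α = (g − 1)/t (a rational number). Then (a) some non-identity element x of G has at most α² conjugates; and (b) some non-principal real-valued irreducible character of G has degree at most α. -/
theorem result {G : Type*} [Group G] [Fintype G] (heven : Even (Nat.card G)) (t : ℕ) (ht : Nat.card {x : G // orderOf x = 2} = t) : (∃ x : G, x ≠ 1 ∧ ((Subgroup.centralizer ({x} : Set G)).index : ℚ) ≤ (((Nat.card G : ℚ) - 1) / t) ^ 2) ∧ ∃ χ : Cfsg.IrrCharacter G, (χ : G → ℂ) ≠ (fun _ => 1) ∧ (∀ g : G, ((χ : G → ℂ) g).im = 0) ∧ (Cfsg.charDegree (χ : G → ℂ) : ℚ) ≤ ((Nat.card G : ℚ) - 1) / t := by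
  classical
  obtain ⟨n, hn⟩ := exists_fs_int (G := G)
  obtain ⟨u, hu⟩ := exists_prime_orderOf_dvd_card' 2 heven.two_dvd
  have ht0 : 0 < t := by
    rw [← ht]
    have : Nonempty {x : G // orderOf x = 2} := ⟨⟨u, hu⟩⟩
    exact Nat.card_pos
  have hu1 : u ≠ 1 := by rintro rfl; simp at hu
  let S : Finset (IrrCharacter G) := (Finset.univ.erase (irrOne G)).filter fun χ => n χ ≠ 0
  have h1 : (t : ℚ) ≤ ∑ χ ∈ S, (charDegree χ.1 : ℚ) := by
    have h := card_sq_eq_sum_fsInd (1 : G)
    rw [card_sq_one, ht, ← Finset.add_sum_erase _ _ (Finset.mem_univ (irrOne G)), coe_irrOne,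
      fsInd_one] at h
    have h' : (t : ℤ) = ∑ χ ∈ Finset.univ.erase (irrOne G), n χ * charDegree χ.1 := by
      apply Int.cast_injective (α := ℂ)
      push_cast at h ⊢
      simp only [← (hn _).1, fun χ : IrrCharacter G => χ.2.coe_charDegree]
      linear_combination h
    have h'' : (t : ℤ) ≤ ∑ χ ∈ S, (charDegree χ.1 : ℤ) := by
      rw [h', Finset.sum_filter]
      refine Finset.sum_le_sum fun χ _ => ?_
      rcases (hn χ).2.1 with e | e | e <;> simp [e]
    exact_mod_cast h''
  have h2 : ∑ χ ∈ S, (charDegree χ.1 : ℚ) ^ 2 ≤ Nat.card G - 1 := by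
    have h := sum_sq_degrees (G := G)
    rw [← Finset.add_sum_erase _ _ (Finset.mem_univ (irrOne G))] at h
    have h' : 1 + ∑ χ ∈ Finset.univ.erase (irrOne G), charDegree χ.1 ^ 2 = Nat.card G := by
      apply Nat.cast_injective (R := ℂ)
      push_cast
      simp only [fun χ : IrrCharacter G => χ.2.coe_charDegree]
      simpa using h
    have h'' : ∑ χ ∈ S, charDegree χ.1 ^ 2 ≤ ∑ χ ∈ Finset.univ.erase (irrOne G),
      charDegree χ.1 ^ 2 := Finset.sum_le_sum_of_subset (Finset.filter_subset _ _)
    rw [← h']; push_cast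
    have : ((∑ χ ∈ S, charDegree χ.1 ^ 2 : ℕ) : ℚ) ≤ ((∑ χ ∈ Finset.univ.erase (irrOne G),
      charDegree χ.1 ^ 2 : ℕ) : ℚ) := by exact_mod_cast h''
    push_cast at this
    linarith
  have h3 : (S.card : ℚ) + 1 ≤ Nat.card (ConjClasses G) := by
    have := Finset.card_filter_le (Finset.univ.erase (irrOne G)) fun χ => n χ ≠ 0
    rw [Finset.card_erase_of_mem (Finset.mem_univ _), Finset.card_univ,
      ← Nat.card_eq_fintype_card, card_irr_eq_card_conjClasses] at this
    have h0 : 0 < Nat.card (ConjClasses G) := Nat.card_pos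
    have : S.card + 1 ≤ Nat.card (ConjClasses G) := by simp only [S]; omega
    exact_mod_cast this
  have ht' : (0 : ℚ) < t := by exact_mod_cast ht0
  have hg : (0 : ℚ) < Nat.card G - 1 := by
    have : Nontrivial G := ⟨u, 1, hu1⟩
    have : (1 : ℚ) < Nat.card G := by exact_mod_cast Finite.one_lt_card
    linarith
  set α : ℚ := ((Nat.card G : ℚ) - 1) / t with hα
  have hαt : α * t = Nat.card G - 1 := div_mul_cancel₀ _ ht'.ne'
  have hα0 : 0 < α := div_pos hg ht'
  constructor
  · by_contra hc
    push Not at hc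
    have h4 : (t : ℚ) ^ 2 ≤ S.card * (Nat.card G - 1) :=
      (pow_le_pow_left₀ ht'.le h1 2).trans (sq_sum_le_card_mul_sum_sq.trans
        (mul_le_mul_of_nonneg_left h2 (Nat.cast_nonneg _)))
    have h5 : ∀ x ∈ Finset.univ.erase (1 : G),
        α ^ 2 * (Nat.card (Subgroup.centralizer ({x} : Set G)) : ℚ) < Nat.card G := by
      intro x hx
      rw [← (Subgroup.centralizer ({x} : Set G)).index_mul_card]; push_cast
      exact mul_lt_mul_of_pos_right (hc x (Finset.ne_of_mem_erase hx))
        (by exact_mod_cast Nat.card_pos)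
    have h6 := Finset.sum_lt_sum_of_nonempty ⟨u, Finset.mem_erase.mpr ⟨hu1, Finset.mem_univ _⟩⟩ h5
    have h7 := sum_card_centralizer (G := G)
    rw [← Finset.add_sum_erase _ _ (Finset.mem_univ (1 : G))] at h7
    have h8 : Nat.card (Subgroup.centralizer ({1} : Set G)) = Nat.card G := by
      have : Subgroup.centralizer ({1} : Set G) = ⊤ := by
        ext x; simp [Subgroup.mem_centralizer_iff]
      rw [this, Subgroup.card_top]
    rw [h8] at h7
    have h9 : (∑ x ∈ Finset.univ.erase (1 : G),
        (Nat.card (Subgroup.centralizer ({x} : Set G)) : ℚ)) =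
        (Nat.card (ConjClasses G) - 1) * Nat.card G := by
      have := congrArg (Nat.cast : ℕ → ℚ) h7
      push_cast at this
      linarith
    rw [← Finset.mul_sum, h9, Finset.sum_const, Finset.card_erase_of_mem (Finset.mem_univ _),
      Finset.card_univ, ← Nat.card_eq_fintype_card, nsmul_eq_mul,
      Nat.cast_sub Nat.card_pos, Nat.cast_one, ← mul_assoc] at h6
    have h10 := lt_of_mul_lt_mul_right h6 (by positivity)
    have h11 : α ^ 2 * S.card < Nat.card G - 1 :=
      lt_of_le_of_lt (mul_le_mul_of_nonneg_left (by linarith) (by positivity)) h10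
    have h12 : α ^ 2 * t ^ 2 ≤ α ^ 2 * (S.card * (Nat.card G - 1)) :=
      mul_le_mul_of_nonneg_left h4 (by positivity)
    rw [← mul_pow, hαt] at h12
    nlinarith
  · by_contra hc
    push Not at hc
    have h4 : ∀ χ ∈ S, α * (charDegree χ.1 : ℚ) < (charDegree χ.1 : ℚ) ^ 2 := by
      intro χ hχ
      simp only [S, Finset.mem_filter, Finset.mem_erase] at hχ
      have := hc χ (fun e => hχ.1.1 (Subtype.ext e)) (conj_eq_self_iff_im.mp (by
        have := hχ.2
        rwa [Ne, (hn χ).2.2, not_not] at this))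
      rw [pow_two]
      exact mul_lt_mul_of_pos_right this (by exact_mod_cast χ.2.charDegree_pos)
    have hne : S.Nonempty := by
      rw [Finset.nonempty_iff_ne_empty]
      intro e
      rw [e, Finset.sum_empty] at h1
      linarith
    have h5 := Finset.sum_lt_sum_of_nonempty hne h4
    rw [← Finset.mul_sum] at h5
    nlinarith

end Cfsg.Agent.S4476
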