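import Cfsg.Statements.S4477
import Cfsg.Agent.H8.Real2
import Cfsg.Agent.H3.PGrpBasic

set_option autoImplicit false
open Cfsg

namespace Cfsg.Agent.S4477

open H5 H6 H8
open scoped ComplexConjugate

/-- Let G be a finite 2-group whose number of involutions is congruent to 1 modulo 4. Then G is cyclic or its commutator subgroup has index 4. -/
theorem result {G : Type*} [Group G] [Finite G] (hG : IsPGroup 2 G) (ht : Nat.card {x : G // orderOf x = 2} % 4 = 1) : IsCyclic G ∨ (commutator G).index = 4 := by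
  classical
  have := Fintype.ofFinite G
  by_cases hc : IsCyclic G
  · exact Or.inl hc
  right
  have key : ∀ N : Subgroup G, N.Normal → N ≤ frattini G → 4 ∣ N.index := by
    intro N _ hN
    obtain ⟨a, ha⟩ := (hG.to_quotient N).exists_card_eq
    rw [Subgroup.index_eq_card]
    by_contra h4
    have : IsCyclic (G ⧸ N) := by
      apply isCyclic_of_card_dvd_prime (p := 2)
      rw [ha] at h4 ⊢
      rcases a with _ | _ | a
      · simp
      · simp
      · exact absurd ⟨2 ^ a, by ring⟩ h4
    exact hc (H3.isCyclic_of_isCyclic_quotient_le_frattini N hN)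
  obtain ⟨n, hn⟩ := exists_fs_int (G := G)
  obtain ⟨b, hb⟩ := hG.exists_card_eq
  let A : Finset (IrrCharacter G) := Finset.univ.filter fun χ => frattini G ≤ charKer χ.1
  let B : Finset (IrrCharacter G) := Finset.univ.filter fun χ => charDegree χ.1 = 2 ∧ ibar χ = χ
  have hA : A.card = (frattini G).index := by
    rw [Subgroup.index_eq_card, ← card_irr_of_comm, Nat.card_congr (irrQuotientEquiv _),
      Nat.subtype_card A (by simp [A])]
    intro x y
    obtain ⟨x, rfl⟩ := QuotientGroup.mk_surjective x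
    obtain ⟨y, rfl⟩ := QuotientGroup.mk_surjective y
    rw [← QuotientGroup.mk_mul, ← QuotientGroup.mk_mul, QuotientGroup.eq]
    refine H3.commutator_le_frattini hG ?_
    have := Subgroup.commutator_mem_commutator (Subgroup.mem_top y⁻¹) (Subgroup.mem_top x⁻¹)
    simpa [commutator, commutatorElement_def, mul_assoc] using this
  have hib : ∀ χ : IrrCharacter G, ibar χ = χ ↔ n χ ≠ 0 := by
    intro χ
    rw [Ne, (hn χ).2.2, not_not, Subtype.ext_iff]
    have : (ibar χ).1 = fun g => conj (χ.1 g) := funext fun g => χ.2.apply_inv g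
    rw [this]
  have h1 : ∀ χ : IrrCharacter G, ((n χ * charDegree χ.1 : ℤ) : ZMod 4) =
      (if frattini G ≤ charKer χ.1 then 1 else 0) +
        2 * (if charDegree χ.1 = 2 ∧ ibar χ = χ then 1 else 0) := by
    intro χ
    obtain ⟨a, -, ha⟩ := (Nat.dvd_prime_pow Nat.prime_two).mp (hb ▸ χ.2.charDegree_dvd_card)
    have hk : frattini G ≤ charKer χ.1 ↔ χ.1 1 = 1 ∧ ∀ g, χ.1 (g * g) = 1 := by
      rw [H3.frattini_le_iff hG, χ.2.commutator_le_charKer_iff]
      refine and_congr_right fun h => forall_congr' fun g => ?_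
      rw [χ.2.mem_charKer, pow_two, h]
    simp only [hk, ← χ.2.isCharacter.charDegree_eq_one_iff, hib, ha]
    rcases a with _ | _ | a
    · have hd : χ.1 1 = 1 := χ.2.isCharacter.charDegree_eq_one_iff.mp ha
      by_cases h0 : n χ = 0
      · have : ¬ ∀ g, χ.1 (g * g) = 1 := by
          intro h
          have h2 := fsInd_mul_lin (fun _ => 1) h
          rw [fsInd_one, show (fun _ => 1) * χ.1 = χ.1 from one_mul _, (hn χ).1, h0] at h2
          simp at h2
        simp [h0, this]
      · have h := sq_eq_one_of_fs χ.2 hd (by rw [(hn χ).1]; exact_mod_cast h0)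
        have h2 := fsInd_mul_lin (fun _ => 1) h
        rw [fsInd_one, show (fun _ => 1) * χ.1 = χ.1 from one_mul _, (hn χ).1] at h2
        have h3 : n χ = 1 := by exact_mod_cast h2
        simp [h, h3]
    · rcases (hn χ).2.1 with e | e | e <;> simp [e] <;> decide
    · have h2 : 2 ^ (a + 1 + 1) ≠ 1 := by simp
      have h3 : 2 ^ (a + 1 + 1) ≠ 2 := by
        have : 0 < 2 ^ a := by positivity
        rw [pow_succ, pow_succ]; omega
      have h4 : (2 : ZMod 4) ^ (a + 1 + 1) = 0 := by
        rw [pow_succ, pow_succ, mul_assoc, show (2 : ZMod 4) * 2 = 0 by decide, mul_zero]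
      simp [h2, h3, h4]
  have h2 : ((Nat.card {x : G // orderOf x = 2} + 1 : ℕ) : ℤ) = ∑ χ, n χ * charDegree χ.1 := by
    apply Int.cast_injective (α := ℂ)
    rw [Int.cast_natCast, ← card_sq_one, card_sq_eq_sum_fsInd]
    push_cast
    simp only [← (hn _).1, fun χ : IrrCharacter G => χ.2.coe_charDegree]
  have h3 : ((Nat.card {x : G // orderOf x = 2} + 1 : ℕ) : ZMod 4) = (A.card + 2 * B.card : ℕ) := by
    rw [← Int.cast_natCast, h2, Int.cast_sum]
    simp only [h1, Finset.sum_add_distrib, ← Finset.mul_sum, Finset.sum_boole]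
    push_cast; rfl
  rw [ZMod.natCast_eq_natCast_iff', hA] at h3
  have h4 := key _ inferInstance le_rfl
  have hB : ¬ 2 ∣ B.card := by omega
  let X := {χ : IrrCharacter G // charDegree χ.1 = 2}
  have hX : ¬ 2 ∣ Nat.card X := by
    let f : Function.End X := fun χ => ⟨ibar χ.1, by
      refine Eq.trans (charDegree_eq_of_apply_one ?_) χ.2
      rw [χ.1.2.coe_charDegree]; exact congrArg χ.1.1 inv_one⟩
    have hf : f ^ 2 ^ 1 = 1 := by
      funext χ
      exact Subtype.ext (Subtype.ext (funext fun g => congrArg χ.1.1 (inv_inv g)))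
    have h5 := Equiv.Perm.card_fixedPoints_modEq hf
    have h6 : Fintype.card f.fixedPoints = B.card := by
      rw [← Nat.card_eq_fintype_card, ← Nat.subtype_card B (p := fun χ => χ ∈ B) fun _ => Iff.rfl]
      refine Nat.card_congr ⟨fun χ => ⟨χ.1.1, by
          simpa [B] using ⟨χ.1.2, congrArg Subtype.val χ.2⟩⟩,
        fun χ => ⟨⟨χ.1, (Finset.mem_filter.mp χ.2).2.1⟩,
          Subtype.ext (Finset.mem_filter.mp χ.2).2.2⟩, fun _ => rfl, fun _ => rfl⟩
    rw [h6, ← Nat.card_eq_fintype_card] at h5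
    exact fun h => hB ((h5.dvd_iff dvd_rfl).mp h)
  let _ : MulAction (G →* ℂˣ) X :=
    { smul := fun l χ => ⟨⟨χ.1.1 * fun g => (l g : ℂ), χ.1.2.mul_hom l⟩, by
        refine Eq.trans (charDegree_eq_of_apply_one ?_) χ.2
        rw [χ.1.2.coe_charDegree]; simp⟩
      one_smul := fun χ => Subtype.ext (Subtype.ext (funext fun g => by
        change χ.1.1 g * _ = _; simp))
      mul_smul := fun a b χ => Subtype.ext (Subtype.ext (funext fun g => by
        change χ.1.1 g * _ = χ.1.1 g * _ * _; simp; ring)) }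
  have hL : IsPGroup 2 (G →* ℂˣ) := fun l => ⟨b, hb ▸ hom_pow_card l⟩
  obtain ⟨χ, hχ⟩ := hL.nonempty_fixed_point_of_prime_not_dvd_card X hX
  have h7 := card_le_deg (χ.1.2.isCharacter.mul χ.1.2.isCharacter.conj) {l | l.1 1 = 1} (by
    intro l hl
    obtain ⟨lam, hlam⟩ := l.2.isCharacter.exists_hom_of_apply_one hl
    have h8 : χ.1.1 * l.1 = χ.1.1 := by
      rw [hlam]; exact congrArg (fun x : X => x.1.1) (hχ lam)
    rw [classInner_mul_left]
    simp only [Complex.conj_conj]
    rw [mul_comm, h8, χ.1.2.classInner_self]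
    exact one_ne_zero)
  rw [charDegree_eq_of_apply_one (n := 4) (by
    rw [Pi.mul_apply, χ.1.2.isCharacter.conj_apply_one, ← χ.1.2.coe_charDegree, χ.2]; norm_num)]
    at h7
  have h8 : Nat.card {l : IrrCharacter G | l.1 1 = 1} = (commutator G).index := card_linear_irr
  rw [h8] at h7
  exact le_antisymm h7 (Nat.le_of_dvd (Nat.pos_of_ne_zero Subgroup.index_ne_zero_of_finite)
    (key _ inferInstance (H3.commutator_le_frattini hG)))

end Cfsg.Agent.S4477
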