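import Cfsg.Statements.S4478
import Cfsg.Agent.H8.Real2
import Cfsg.Agent.H6.BrauerApp

set_option autoImplicit false
open Cfsg

namespace Cfsg.Agent.S4478

open H5 H6 H8
open scoped ComplexConjugate

/-- Let G be a finite group of even order and χ an irreducible character of G whose degree x is divisible by the full power of 2 dividing the order of G and, for every odd prime p such that G has an element of order 2p, by the full power of p dividing the order of G. Then all involutions of G are conjugate, the centralizer of every involution has order exactly x with x coprime to its index, and the Frobenius–Schur indicator of χ equals 1. -/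
theorem result {G : Type*} [Group G] [Fintype G] (heven : Even (Nat.card G)) (χ : Cfsg.IrrCharacter G) (h2 : 2 ^ (Nat.card G).factorization 2 ∣ Cfsg.charDegree (χ : G → ℂ)) (hp : ∀ p : ℕ, p.Prime → p ≠ 2 → (∃ g : G, orderOf g = 2 * p) → p ^ (Nat.card G).factorization p ∣ Cfsg.charDegree (χ : G → ℂ)) : (∀ s t : G, orderOf s = 2 → orderOf t = 2 → IsConj s t) ∧ (∀ s : G, orderOf s = 2 → Nat.card (Subgroup.centralizer ({s} : Set G)) = Cfsg.charDegree (χ : G → ℂ) ∧ (Nat.card (Subgroup.centralizer ({s} : Set G))).Coprime (Subgroup.centralizer ({s} : Set G)).index) ∧ (Nat.card G : ℂ)⁻¹ * ∑ g : G, (χ : G → ℂ) (g * g) = 1 := by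
  classical
  have hG0 : Nat.card G ≠ 0 := Nat.card_pos.ne'
  have hall : ∀ p : ℕ, p.Prime → (p = 2 ∨ ∃ g : G, orderOf g = 2 * p) →
      p ^ (Nat.card G).factorization p ∣ charDegree χ.1 := by
    intro p hp' h
    by_cases e : p = 2
    · exact e ▸ h2
    · exact hp p hp' e (h.resolve_left e)
  have hvan : ∀ p : ℕ, p.Prime → (p = 2 ∨ ∃ g : G, orderOf g = 2 * p) → ∀ x, p ∣ orderOf x →
      χ.1 x = 0 := fun p hp' h x hx =>
    defect_zero_vanish hp' (Nat.ordProj_mul_ordCompl_eq_self _ p).symm
      (Nat.not_dvd_ordCompl hp' hG0) χ.2 (hall p hp' h) hx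
  have hord : ∀ (g : G) (n : ℕ), n ∣ orderOf g → ∃ h : G, orderOf h = n := fun g n hn =>
    ⟨g ^ (orderOf g / n), orderOf_pow_orderOf_div (orderOf_pos g).ne' hn⟩
  have hC : ∀ s : G, orderOf s = 2 → ∀ p : ℕ, p.Prime →
      p ∣ Nat.card (Subgroup.centralizer ({s} : Set G)) → (p = 2 ∨ ∃ g : G, orderOf g = 2 * p) := by
    intro s hs p hp' hd
    by_cases e : p = 2
    · exact Or.inl e
    have := Fact.mk hp'
    obtain ⟨y, hy⟩ := exists_prime_orderOf_dvd_card' p hd
    refine Or.inr ⟨s * y, ?_⟩
    have hc : Commute s y := (Subgroup.mem_centralizer_singleton_iff.mp y.2).symm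
    rw [hc.orderOf_mul_eq_mul_orderOf_of_coprime (by
      rw [hs, Subgroup.orderOf_coe, hy]
      exact (Nat.coprime_primes Nat.prime_two hp').mpr (Ne.symm e)), hs, Subgroup.orderOf_coe, hy]
  have hne : χ.1 ≠ fun _ => 1 := by
    intro e
    obtain ⟨u, hu⟩ := exists_prime_orderOf_dvd_card' 2 heven.two_dvd
    have := hvan 2 Nat.prime_two (Or.inl rfl) u (hu ▸ dvd_rfl)
    rw [e] at this
    exact one_ne_zero this
  -- the indicator sum
  let I : Finset G := Finset.univ.filter fun s => orderOf s = 2
  have hsum : ∑ g, χ.1 (g * g) = I.card * χ.1 1 := by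
    let O : Finset G := Finset.univ.filter fun g => ¬ 2 ∣ orderOf g
    have h1 : ∑ g ∈ O, χ.1 (g * g) = ∑ g ∈ O, χ.1 g := by
      have hinj : ∀ a ∈ O, ∀ b ∈ O, a * a = b * b → a = b := by
        intro a ha b hb e
        simp only [O, Finset.mem_filter, Finset.mem_univ, true_and] at ha hb
        have hm : (2 : ℕ).Coprime (orderOf a * orderOf b) := Nat.Coprime.mul_right
          (Nat.prime_two.coprime_iff_not_dvd.mpr ha) (Nat.prime_two.coprime_iff_not_dvd.mpr hb)
        obtain ⟨m, hm⟩ := Nat.coprime_two_left.mp hm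
        have h3 : a = (a * a) ^ (m + 1) := by
          rw [← pow_two, ← pow_mul, show 2 * (m + 1) = orderOf a * orderOf b + 1 by omega, pow_succ,
            pow_mul, pow_orderOf_eq_one, one_pow, one_mul]
        have h4 : b = (b * b) ^ (m + 1) := by
          rw [← pow_two, ← pow_mul, show 2 * (m + 1) = orderOf b * orderOf a + 1 by
            rw [mul_comm (orderOf b)]; omega, pow_succ,
            pow_mul, pow_orderOf_eq_one, one_pow, one_mul]
        rw [h3, h4, e]
      have hmap : ∀ a ∈ O, a * a ∈ O := by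
        intro a ha
        simp only [O, Finset.mem_filter, Finset.mem_univ, true_and] at ha ⊢
        exact fun h => ha (h.trans (pow_two a ▸ orderOf_pow_dvd 2))
      exact Finset.sum_bij (fun a _ => a * a) hmap hinj
        (fun b hb => by
          obtain ⟨a, ha, e⟩ := Finset.surj_on_of_inj_on_of_card_le (fun a _ => a * a) hmap
            (fun a b ha hb => hinj a ha b hb) le_rfl b hb
          exact ⟨a, ha, e.symm⟩) fun _ _ => rfl
    have h3 : ∑ g ∈ O, χ.1 g = 0 := by
      rw [← χ.2.sum_eq_zero hne]
      refine Finset.sum_subset (Finset.subset_univ _) fun g _ hg => ?_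
      exact hvan 2 Nat.prime_two (Or.inl rfl) g (by
        simpa only [O, Finset.mem_filter, Finset.mem_univ, true_and, not_not] using hg)
    rw [← Finset.sum_filter_add_sum_filter_not Finset.univ (fun g => 2 ∣ orderOf g), h1, h3,
      add_zero, ← nsmul_eq_mul, ← Finset.sum_const]
    symm
    refine Finset.sum_subset_zero_on_sdiff (fun s hs => ?_) (fun g hg => ?_) fun s hs => ?_
    · simp only [I, Finset.mem_filter, Finset.mem_univ, true_and] at hs ⊢
      rw [hs]
    · simp only [I, Finset.mem_sdiff, Finset.mem_filter, Finset.mem_univ, true_and] at hg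
      obtain ⟨⟨m, hm⟩, hg2⟩ := hg
      have ho : orderOf (g * g) = m := by
        rw [← pow_two, orderOf_pow' _ two_ne_zero, hm, Nat.gcd_mul_right_left,
          Nat.mul_div_cancel_left _ two_pos]
      have hm1 : m ≠ 1 := by rintro rfl; exact hg2 hm
      obtain ⟨q, hq, hqm⟩ := Nat.exists_prime_and_dvd hm1
      exact hvan q hq (Or.inr (hord g _ (hm ▸ Nat.mul_dvd_mul_left 2 hqm))) _ (ho ▸ hqm)
    · simp only [I, Finset.mem_filter, Finset.mem_univ, true_and] at hs
      rw [← pow_two, ← hs, pow_orderOf_eq_one]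
  have hI0 : 0 < I.card := by
    obtain ⟨u, hu⟩ := exists_prime_orderOf_dvd_card' 2 heven.two_dvd
    exact Finset.card_pos.mpr ⟨u, by simpa [I] using hu⟩
  have hfs : fsInd χ.1 * Nat.card G = (I.card * charDegree χ.1 : ℕ) := by
    rw [fsInd, hsum, mul_comm, ← mul_assoc, mul_inv_cancel₀ card_ne_zero_complex, one_mul,
      Nat.cast_mul, χ.2.coe_charDegree]
  have hpos := Nat.mul_pos hI0 χ.2.charDegree_pos
  have hfs1 : fsInd χ.1 = 1 := by
    rcases χ.2.fsInd_cases with h | h | h
    · rw [h, zero_mul] at hfs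
      exact absurd (by exact_mod_cast hfs.symm) hpos.ne'
    · exact h
    · rw [h] at hfs
      have : ((Nat.card G + I.card * charDegree χ.1 : ℕ) : ℂ) = 0 := by
        rw [Nat.cast_add, ← hfs]; ring
      have := Nat.cast_eq_zero.mp this
      omega
  rw [hfs1, one_mul, Nat.cast_inj] at hfs
  have hdvd : ∀ s : G, orderOf s = 2 →
      Nat.card (Subgroup.centralizer ({s} : Set G)) ∣ charDegree χ.1 := by
    intro s hs
    have := Fintype.ofFinite (Subgroup.centralizer ({s} : Set G))
    obtain ⟨n, hn⟩ := (χ.2.isCharacter.restrict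
      (Subgroup.centralizer ({s} : Set G))).exists_classInner_nat isCharacter_one
    have h1 := card_mul_classInner (fun y : Subgroup.centralizer ({s} : Set G) => χ.1 y) (fun _ => 1)
    rw [hn, Finset.sum_eq_single 1] at h1
    · refine ⟨n, ?_⟩
      apply Nat.cast_injective (R := ℂ)
      rw [χ.2.coe_charDegree]; push_cast; rw [h1]; simp
    · intro b _ hb
      obtain ⟨q, hq, hqb⟩ := Nat.exists_prime_and_dvd (mt orderOf_eq_one_iff.mp hb)
      rw [hvan q hq (hC s hs q hq (hqb.trans (orderOf_dvd_natCard b))) b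
        (by rwa [Subgroup.orderOf_coe]), zero_mul]
    · simp
  have hcl : ∀ s : G, orderOf s = 2 → (Finset.univ.filter fun x => IsConj s x) = I ∧
      Nat.card (Subgroup.centralizer ({s} : Set G)) = charDegree χ.1 := by
    intro s hs
    have h1 : (Finset.univ.filter fun x => IsConj s x) ⊆ I := by
      intro x hx
      simp only [I, Finset.mem_filter, Finset.mem_univ, true_and] at hx ⊢
      obtain ⟨c, rfl⟩ := isConj_iff.mp hx
      rw [← hs]; exact (MulAut.conj c).orderOf_eq s
    have h3 := Finset.card_le_card h1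
    have h4 := Nat.le_of_dvd χ.2.charDegree_pos (hdvd s hs)
    have h5 := (Subgroup.centralizer ({s} : Set G)).index_mul_card
    have h6 := card_filter_isConj s
    rw [hfs, ← h6] at h5
    have h7 : I.card ≤ (Finset.univ.filter fun x => IsConj s x).card := by
      by_contra hlt
      push Not at hlt
      have := Nat.mul_lt_mul_of_lt_of_le hlt h4 χ.2.charDegree_pos
      omega
    have h8 := Finset.eq_of_subset_of_card_le h1 h7
    refine ⟨h8, ?_⟩
    rw [h8] at h5
    exact Nat.eq_of_mul_eq_mul_left hI0 h5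
  refine ⟨fun s t hs ht => ?_, fun s hs => ⟨(hcl s hs).2, ?_⟩, hfs1⟩
  · have : t ∈ I := by simpa [I] using ht
    rw [← (hcl s hs).1] at this
    simpa using this
  · refine Nat.coprime_of_dvd fun q hq h3 h4 => ?_
    have h5 := hall q hq (hC s hs q hq h3)
    rw [← (hcl s hs).2] at h5
    have h6 := Nat.mul_dvd_mul h5 h4
    rw [Subgroup.card_mul_index, ← pow_succ] at h6
    exact Nat.pow_succ_factorization_not_dvd hG0 hq h6

end Cfsg.Agent.S4478
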