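import Cfsg.Statements.S4480
import Cfsg.Agent.H7.FSOdd
import Cfsg.Agent.S4479

set_option autoImplicit false
open Cfsg

namespace Cfsg.Agent.S4480

open H5 H7

/-- Same setting as the Klein-four order formula: G of order 4·g₀ (g₀ odd) with no normal 2-complement, P a Sylow 2-subgroup, J an involution of P, M over 2, principal 2-block {1, χ₁, χ₂, χ₃} with χ_i(J) = ε_i = ±1. Suppose ε₁ε₂ε₃ = −1 and ε₃ = −1, and put q = x₃ = χ₃(1). Then there is a natural number m with 4·c(J) = m·c(P)·(q + 1), and the order of G equals (m³·c(P)/4)·(q³ − q)/2, that is 8·#G = m³·c(P)·(q³ − q). -/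
theorem result {G : Type*} [Group G] [Finite G] (M : Ideal Cfsg.AlgInt) (hM : Cfsg.IsPModular 2 M) (g₀ : ℕ) (hg₀ : Odd g₀) (hG : Nat.card G = 4 * g₀) (hnc : ¬ ∃ N : Subgroup G, N.Normal ∧ Nat.card N = g₀) (P : Sylow 2 G) (J : G) (hJ : J ∈ (P : Subgroup G)) (hJ2 : orderOf J = 2) (χ₁ χ₂ χ₃ : Cfsg.IrrCharacter G) (ε₁ ε₂ ε₃ : ℤ) (hB : Cfsg.principalBlock M G = {χ : Cfsg.IrrCharacter G | (χ : G → ℂ) = (fun _ => 1) ∨ χ = χ₁ ∨ χ = χ₂ ∨ χ = χ₃}) (hdist : (χ₁ : G → ℂ) ≠ (fun _ => 1) ∧ (χ₂ : G → ℂ) ≠ (fun _ => 1) ∧ (χ₃ : G → ℂ) ≠ (fun _ => 1) ∧ χ₁ ≠ χ₂ ∧ χ₁ ≠ χ₃ ∧ χ₂ ≠ χ₃) (hε : (ε₁ = 1 ∨ ε₁ = -1) ∧ (ε₂ = 1 ∨ ε₂ = -1) ∧ (ε₃ = 1 ∨ ε₃ = -1)) (hval : (χ₁ : G → ℂ) J = ε₁ ∧ (χ₂ : G → ℂ) J = ε₂ ∧ (χ₃ : G → ℂ) J = ε₃) (hprod : ε₁ * ε₂ * ε₃ = -1) (hε₃ : ε₃ = -1) : ∃ m : ℕ, 4 * Nat.card (Subgroup.centralizer ({J} : Set G)) = m * Nat.card (Subgroup.centralizer ((P : Subgroup G) : Set G)) * (Cfsg.charDegree (χ₃ : G → ℂ) + 1) ∧ 8 * Nat.card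 G = m ^ 3 * Nat.card (Subgroup.centralizer ((P : Subgroup G) : Set G)) * (Cfsg.charDegree (χ₃ : G → ℂ) ^ 3 - Cfsg.charDegree (χ₃ : G → ℂ)) := by
    haveI : PM 2 M := ⟨hM⟩
    classical
    have := Fintype.ofFinite G
    have h := k4_of_card hg₀ hG hnc
    have h1 := S4479.result M hM g₀ hg₀ hG hnc P J hJ hJ2 χ₁ χ₂ χ₃ ε₁ ε₂ ε₃ hB hdist hε hval
    have hA := isSat_of_isPBlock (isPBlock_principalBlock (M := M) (G := G))
    have h2 := mu_eq_zero_of_dvd (p := 2) hA (not_dvd_orderOf_one (G := G)) hJ2.symm.dvd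
    have h3 := sum_fsInd_eq_zero (p := 2) hA (u := J) fun s e => by
      have k : pp 2 (s * s) = 1 := by
        by_cases k : pp 2 s = 1
        · exact pp_eq_one_iff.2 (sq s ▸ not_dvd_orderOf_pow (pp_eq_one_iff.1 k) 2)
        · conv_lhs => rw [← pp_mul_pr (p := 2) s, (commute_pp_pr s).symm.mul_mul_mul_comm, ← sq,
            orderOf_dvd_iff_pow_eq_one.1 (h.ord (isPE_pp s) k).dvd, one_mul, ← sq]
          exact pp_eq_one_iff.2 (not_dvd_orderOf_pow (not_dvd_orderOf_pr s) _)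
      rw [k, pp_of_isPE ⟨1, hJ2⟩, isConj_one_left] at e
      simp [e] at hJ2
    rw [mu] at h2
    rw [finsum_four hB hdist, hval.1, hval.2.1, hval.2.2] at h2 h3
    simp only [← H8.coe_deg, map_intCast] at h2
    rw [charDegree_eq (G := G) (χ := irrOne G) (n := 1) (by simp)] at h2
    have k2 : (1 : ℤ) + (charDegree (χ₁ : G → ℂ) * ε₁ + (charDegree (χ₂ : G → ℂ) * ε₂ +
        charDegree (χ₃ : G → ℂ) * ε₃)) = 0 := by
      apply Int.cast_injective (α := ℂ); push_cast; simpa using h2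
    have p1 := H8.deg_pos χ₁
    have p2 := H8.deg_pos χ₂
    have p3 := H8.deg_pos χ₃
    subst hε₃
    obtain ⟨rfl, rfl⟩ : ε₁ = 1 ∧ ε₂ = 1 := by
      rcases hε with ⟨rfl | rfl, rfl | rfl, -⟩ <;> omega
    obtain ⟨-, -, ε, hε'⟩ := h.main (M := M)
    have hc : ∀ χ ∈ principalBlock M G, gal (starRingAut : ℂ ≃+* ℂ) χ = irrOne G ∨
        gal starRingAut χ = χ₁ ∨ gal starRingAut χ = χ₂ ∨ gal starRingAut χ = χ₃ := fun χ hχ => by
      have := (gal_mem_principal (p := 2) starRingAut χ).2 hχ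
      simpa [hB, coe_eq_one_iff] using this
    have hv : ∀ χ : IrrCharacter G, (gal starRingAut χ : G → ℂ) J = (χ : G → ℂ) J := fun χ => by
      have := χ.2.apply_inv J
      rw [inv_eq_of_mul_eq_one_right (show J * J = 1 by rw [← sq, ← hJ2, pow_orderOf_eq_one])] at this
      exact this.symm
    have hf : ∀ χ ∈ principalBlock M G, (gal starRingAut χ = χ ∧ fsInd (χ : G → ℂ) = 1) ∨
        (gal starRingAut χ ≠ χ ∧ fsInd (χ : G → ℂ) = 0) := fun χ hχ => by
      rcases χ.2.fsInd_spec with ⟨k1, k3 | k3⟩ | ⟨k1, k3⟩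
      · exact Or.inl ⟨Subtype.ext k1, k3⟩
      · obtain ⟨k4, -, k5⟩ := hε' χ hχ
        obtain ⟨r, hr⟩ := even_of_fsInd χ.2 k3
        omega
      · exact Or.inr ⟨fun e => k1 (congrArg Subtype.val e), k3⟩
    have m1 : χ₁ ∈ principalBlock M G := by simp [hB]
    have m2 : χ₂ ∈ principalBlock M G := by simp [hB]
    have m3 : χ₃ ∈ principalBlock M G := by simp [hB]
    have q1 : gal starRingAut χ₃ = χ₃ := by
      have := hv χ₃
      rcases hc χ₃ m3 with e | e | e | e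
      · rw [e, hval.2.2] at this; norm_num at this
      · rw [e, hval.2.2, hval.1] at this; norm_num at this
      · rw [e, hval.2.2, hval.2.1] at this; norm_num at this
      · exact e
    have q2 : gal starRingAut χ₁ = χ₂ := by
      have k3 := ((hf χ₃ m3).resolve_right fun e => e.1 q1).2
      have k4 : fsInd (irrOne G : G → ℂ) = 1 := fsInd_one
      have k5 : gal starRingAut χ₁ ≠ χ₁ := fun e => by
        have k6 := ((hf χ₁ m1).resolve_right fun l => l.1 e).2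
        rcases hf χ₂ m2 with ⟨-, l⟩ | ⟨-, l⟩ <;> simp [k3, k4, k6, l] at h3 <;> norm_num at h3
      have := hv χ₁
      rcases hc χ₁ m1 with e | e | e | e
      · exact absurd (funext fun g => by simpa using congrArg star (congrFun (congrArg Subtype.val e) g))
          hdist.1
      · exact absurd e k5
      · exact e
      · rw [e, hval.2.2, hval.1] at this; norm_num at this
    have q3 : charDegree (χ₂ : G → ℂ) = charDegree (χ₁ : G → ℂ) := by
      rw [← q2]; exact H8.charDegree_congr χ₁.2.isCharacter.conj_apply_one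
    have q4 := χ₁.2.isIntegral_centralChar J
    rw [centralChar_eq χ₁.2, hval.1, Int.cast_one, mul_one] at q4
    obtain ⟨w, hw⟩ := dvd_of_isIntegral_div p1.ne' q4
    obtain ⟨r, hr⟩ := Subgroup.card_dvd_of_le
      (Subgroup.centralizer_le (show ({J} : Set G) ⊆ (P : Subgroup G) by simpa))
    have q5 := (Subgroup.centralizer ({J} : Set G)).index_mul_card
    have p4 : 0 < Nat.card (Subgroup.centralizer ((P : Subgroup G) : Set G)) := Nat.card_pos
    have p5 : 0 < Nat.card (Subgroup.centralizer ({J} : Set G)) := Nat.card_pos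
    obtain q6 : charDegree (χ₃ : G → ℂ) = 2 * charDegree (χ₁ : G → ℂ) + 1 := by omega
    rw [q3, q6, ← q5, hw, hr] at h1
    rw [q6, ← q5, hw, hr]
    rw [hr] at p5
    generalize charDegree (χ₁ : G → ℂ) = x at *
    generalize Nat.card (Subgroup.centralizer ((P : Subgroup G) : Set G)) = c at *
    have p6 : 0 < r := Nat.pos_of_mul_pos_left p5
    have q7 : w * (x + 1) ^ 2 = (2 * x + 1) * (2 * r) ^ 2 := by
      push_cast at h1
      rw [show (2 * x + 1 + -1 : ℚ) = 2 * x by ring] at h1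
      field_simp at h1
      apply Nat.cast_injective (R := ℚ); push_cast; linear_combination h1 / 2
    have q8 : (x + 1) ^ 2 ∣ (2 * r) ^ 2 := Nat.Coprime.dvd_of_dvd_mul_left
      (Nat.Coprime.pow_left 2 (show (x + 1).Coprime (2 * x + 1) by
        rw [show 2 * x + 1 = x + (x + 1) by ring]; simp)) ⟨w, by rw [← q7, mul_comm]⟩
    obtain ⟨m, hm⟩ := (Nat.pow_dvd_pow_iff two_ne_zero).1 q8
    have q9 : w = (2 * x + 1) * m ^ 2 := by
      rw [hm] at q7
      exact Nat.eq_of_mul_eq_mul_right (show 0 < (x + 1) ^ 2 by positivity) (by rw [q7]; ring)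
    refine ⟨m, by linear_combination 2 * c * hm, ?_⟩
    rw [show (2 * x + 1) ^ 3 - (2 * x + 1) = 4 * x * (x + 1) * (2 * x + 1) from
      Nat.sub_eq_of_eq_add (by ring), q9]
    linear_combination 4 * x * (2 * x + 1) * m ^ 2 * c * hm

end Cfsg.Agent.S4480
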