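import Cfsg.Statements.S4481
import Cfsg.Agent.H2.GWBlk

set_option autoImplicit false
open Cfsg

open H5 H2 H18 H19 H22 Subgroup
open scoped ComplexConjugate

namespace Cfsg.Agent.S4481

/-- The principal 2-block of a group with dihedral Sylow 2-subgroups. Let G be a finite group whose Sylow 2-subgroup P is dihedral of order 2^n ≥ 8, let σ be an element of P of order 2^(n−1), ζ a primitive 2^(n−1)-th root of unity, and M a maximal ideal of the algebraic integers containing 2. Then the principal 2-block consists of exactly 3 + 2^(n−2) irreducible characters, which can be labelled 1, χ₁, χ₂, χ₃ and χ^(j) for 1 ≤ j ≤ 2^(n−2) − 1 (all distinct), with signs δ₁, δ₂, δ₃ such that for 0 < λ < 2^(n−1): χ₁(σ^λ) = δ₁, χ₂(σ^λ) = δ₂(−1)^(λ+1), χ₃(σ^λ) = δ₃(−1)^(λ+1) and χ^(j)(σ^λ) = δ₁(ζ^(jλ) + ζ^(−jλ)); and for every element ρ of odd order and every j: 1 + δ₁χ₁(ρ) = −δ₂χ₂(ρ)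 − δ₃χ₃(ρ) = δ₁χ^(j)(ρ). -/
theorem result {G : Type*} [Group G] [Finite G] (M : Ideal Cfsg.AlgInt) (hM : Cfsg.IsPModular 2 M) (n : ℕ) (hn : 3 ≤ n) (P : Sylow 2 G) (hP : Nonempty ((P : Subgroup G) ≃* DihedralGroup (2 ^ (n - 1)))) (σ : G) (hσ : σ ∈ (P : Subgroup G)) (hσo : orderOf σ = 2 ^ (n - 1)) (ζ : ℂ) (hζ : IsPrimitiveRoot ζ (2 ^ (n - 1))) : Nat.card (Cfsg.principalBlock M G) = 3 + 2 ^ (n - 2) ∧ ∃ (χ₁ χ₂ χ₃ : Cfsg.IrrCharacter G) (χ' : Fin (2 ^ (n - 2) - 1) → Cfsg.IrrCharacter G) (δ₁ δ₂ δ₃ : ℤ), (δ₁ = 1 ∨ δ₁ = -1) ∧ (δ₂ = 1 ∨ δ₂ = -1) ∧ (δ₃ = 1 ∨ δ₃ = -1) ∧ Function.Injective χ' ∧ (χ₁ : G → ℂ) ≠ (fun _ => 1) ∧ (χ₂ : G → ℂ) ≠ (fun _ => 1) ∧ (χ₃ : G → ℂ) ≠ (fun _ => 1) ∧ χ₁ ≠ χ₂ ∧ χ₁ ≠ χ₃ ∧ χ₂ ≠ χ₃ ∧ (∀ j, χ' j ≠ χ₁ ∧ χ' j ≠ χ₂ ∧ χ' j ≠ χ₃ ∧ (χ' j : G → ℂ) ≠ (fun _ => 1)) ∧ Cfsg.principalBlock M G = {χ : Cfsg.IrrCharacter G | (χ : G → ℂ) = (fun _ => 1) ∨ χ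 = χ₁ ∨ χ = χ₂ ∨ χ = χ₃ ∨ ∃ j, χ = χ' j} ∧ (∀ l : ℕ, 0 < l → l < 2 ^ (n - 1) → (χ₁ : G → ℂ) (σ ^ l) = δ₁ ∧ (χ₂ : G → ℂ) (σ ^ l) = δ₂ * (-1) ^ (l + 1) ∧ (χ₃ : G → ℂ) (σ ^ l) = δ₃ * (-1) ^ (l + 1) ∧ ∀ j : Fin (2 ^ (n - 2) - 1), (χ' j : G → ℂ) (σ ^ l) = δ₁ * (ζ ^ (((j : ℕ) + 1) * l) + (ζ ^ (((j : ℕ) + 1) * l))⁻¹)) ∧ ∀ ρ : G, Odd (orderOf ρ) → ∀ j : Fin (2 ^ (n - 2) - 1), 1 + δ₁ * (χ₁ : G → ℂ) ρ = -δ₂ * (χ₂ : G → ℂ) ρ - δ₃ * (χ₃ : G → ℂ) ρ ∧ 1 + δ₁ * (χ₁ : G → ℂ) ρ = δ₁ * (χ' j : G → ℂ) ρ := by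
  classical
  have := Fintype.ofFinite G
  have : H7.PM 2 M := ⟨hM⟩
  obtain ⟨e⟩ := hP
  obtain ⟨k, hk, k2⟩ : ∃ k, 2 ^ (n - 2) = k ∧ 2 ≤ k :=
    ⟨_, rfl, by rw [show n - 2 = (n - 3) + 1 by omega, pow_succ]; have := Nat.two_pow_pos (n - 3); omega⟩
  have hm : 2 ^ (n - 1) = 2 * k := by rw [← hk, show n - 1 = (n - 2) + 1 by omega, pow_succ, mul_comm]
  rw [hm] at e hσo hζ ⊢
  rw [hk]
  obtain ⟨t, x, v, h⟩ := dih_of_equiv (hall_sylow_top Nat.prime_two P) e (by omega)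
  replace h := dih_change_x h (by omega) hσ hσo
  have H := dih_tis h
  have L := lh_triv t
  have D := dich_triv h
  obtain ⟨ε, hε, eε⟩ := exists_eps h
  obtain ⟨b, c, d, Q⟩ := exists_piv_triv h (by omega) hε eε
  obtain ⟨χ₁, δ₁, s1, e1⟩ := dirr_exists_irr Q.four.db
  obtain ⟨χ₂, δ₂, s2, e2⟩ := dirr_exists_irr Q.four.dc
  obtain ⟨χ₃, δ₃, s3, e3⟩ := dirr_exists_irr Q.four.dd
  choose l hl el using fun j : Fin (k - 1) => exists_gl h (ζ := ζ ^ ((j : ℕ) + 1)) (by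
    rw [← pow_mul, mul_comm, pow_mul, hζ.pow_eq_one, one_pow])
  have ns : ∀ i j, l i ≠ star (l j) := fun i j e => by
    have := lin_norm (hl j).ch (hl j).one (xK h)
    rw [← show l i σ = conj (l j σ) from congrFun e σ, el, el, ← pow_add] at this
    have := Nat.le_of_dvd (by omega) ((hζ.pow_eq_one_iff_dvd _).1 this)
    omega
  have nr : ∀ j, star (l j) ≠ l j := fun j => (ns j j).symm
  have li : ∀ i j, l i = l j → i = j := fun i j e => by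
    have := hζ.pow_inj (by omega) (by omega) ((el i).symm.trans (e ▸ el j))
    omega
  set B := fun j => triv ⊤ + b - TT (KK t σ) (triv C1(t)) (l j) with hB
  have dB : ∀ j, Dirr ⊤ (B j) := fun j => piv_dirr h Q (hl j) (nr j)
  have hB1 : ∀ j, dg (B j) = 1 + dg b := fun j => dg_eq_of_eq (by
    simp [hB, TIS.TT_one (hl j), vchar_apply_one Q.four.db.vchar])
  have iB : ∀ j, IsIrrCharacter G (δ₁ • B j) := fun j => mem_irr_top.1 (((dB j).sign s1).irr_of_dg_pos (by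
    have h1 := irr_dg_pos (mem_irr_top.2 χ₁.2)
    have h2 := (dB j).dg_ne_zero
    rw [e1] at h1
    rcases s1 with rfl | rfl
    · simp only [one_smul, hB1] at h1 ⊢; omega
    · simp only [neg_smul, one_smul, dg_neg (dB j).vchar, dg_neg Q.four.db.vchar, hB1] at h1 h2 ⊢; omega))
  let χ' : Fin (k - 1) → IrrCharacter G := fun j => ⟨_, iB j⟩
  have e0 : ((fun _ => 1) : G → ℂ) = (1 : ℤ) • triv ⊤ := by simp [triv_top]; rfl
  have o : ∀ j, ipr ⊤ (B j) (triv ⊤) = 0 ∧ ipr ⊤ (B j) b = 0 ∧ ipr ⊤ (B j) c = 0 ∧ ipr ⊤ (B j) d = 0 := fun j => by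
    obtain ⟨a1, a2, a3, a4⟩ := Q.nr _ (hl j) (nr j)
    simp [hB, a1, a2, a3, a4, Q.four.da.ipr_self, Q.four.db.ipr_self, Q.four.ab, ipr_symm0 Q.four.ab, Q.four.ac,
      Q.four.ad, Q.four.bc, Q.four.bd]
  have ne : ∀ {ψ ψ' : IrrCharacter G} {δ δ' : ℤ} {a b : G → ℂ}, (ψ : G → ℂ) = δ • a → (ψ' : G → ℂ) = δ' • b →
      ipr ⊤ a b = 0 → ψ ≠ ψ' := fun e1 e2 e3 e4 => irr_ne_of_ipr (Subtype.prop _) e1 e2 e3 (congrArg _ e4)
  have inj : Function.Injective χ' := fun i j e => by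
    by_contra hij
    refine ne (ψ := χ' i) (ψ' := χ' j) rfl rfl ?_ e
    obtain ⟨a1, a2, -, -⟩ := Q.nr _ (hl i) (nr i)
    nth_rewrite 2 [hB]
    simp only [ipr_sub_right, ipr_add_right, (o i).1, (o i).2.1]
    obtain ⟨a3, a4, -, -⟩ := Q.nr _ (hl j) (nr j)
    simp only [hB, ipr_sub_left, ipr_add_left, ipr_comm ⊤ (triv ⊤), ipr_comm ⊤ b, a3, a4, H.ipr2 (hl i)
      (ne_triv_of_star (nr i)) (hl j) (ne_triv_of_star (nr j)) (fun e => hij (li i j e)) (ns i j) L]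
    norm_num
  have n1 := irr_ne_of_ipr χ₁.2 e1 e0 (ipr_symm0 Q.four.ab)
  have n2 := irr_ne_of_ipr χ₂.2 e2 e0 (ipr_symm0 Q.four.ac)
  have n3 := irr_ne_of_ipr χ₃.2 e3 e0 (ipr_symm0 Q.four.ad)
  have n4 := fun j => And.intro (ne (ψ := χ' j) rfl e1 (o j).2.1) (And.intro (ne (ψ := χ' j) rfl e2 (o j).2.2.1)
    (And.intro (ne (ψ := χ' j) rfl e3 (o j).2.2.2) (irr_ne_of_ipr (χ' j).2 rfl e0 (o j).1)))
  have sq : ∀ δ : ℤ, δ = 1 ∨ δ = -1 → (δ : ℂ) * δ = 1 := by rintro _ (rfl | rfl) <;> simp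
  have uniq : ∀ (χ ψ : IrrCharacter G) (δ : ℤ) (z : G → ℂ), δ = 1 ∨ δ = -1 → (ψ : G → ℂ) = δ • z →
      ((χ : G → ℂ) = z ∨ (χ : G → ℂ) = -z) → χ = ψ := fun χ ψ δ z hδ e e' => Subtype.ext (by
    have q : (χ : G → ℂ) = ψ ∨ (χ : G → ℂ) = -ψ := by
      rcases hδ with rfl | rfl <;> rcases e' with e' | e' <;> simp [e, e']
    exact q.resolve_right fun e => not_neg_irr (mem_irr_top.2 ψ.2) (e ▸ mem_irr_top.2 χ.2))
  have eq : principalBlock M G = {χ : IrrCharacter G | (χ : G → ℂ) = (fun _ => 1) ∨ χ = χ₁ ∨ χ = χ₂ ∨ χ = χ₃ ∨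
      ∃ j, χ = χ' j} := by
    ext χ
    refine ⟨fun hχ => ?_, ?_⟩
    · obtain ⟨z, h1, rfl | rfl | rfl | rfl | ⟨q, q1, q2, rfl⟩⟩ := principal_mem h M hε eε Q hχ
      · exact Or.inl (congrArg Subtype.val (uniq χ (irrOne G) 1 _ (Or.inl rfl) e0 h1))
      · exact Or.inr (Or.inl (uniq _ _ _ _ s1 e1 h1))
      · exact Or.inr (Or.inr (Or.inl (uniq _ _ _ _ s2 e2 h1)))
      · exact Or.inr (Or.inr (Or.inr (Or.inl (uniq _ _ _ _ s3 e3 h1))))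
      have : NeZero (2 * k) := ⟨by omega⟩
      obtain ⟨i, hi, ei⟩ := hζ.eq_pow_of_pow_eq_one (ξ := q σ) (by
        rw [← lin_pow q1.ch q1.one (xK h), ← hσo, pow_orderOf_eq_one, q1.one])
      have i0 : i ≠ 0 := by rintro rfl; exact q2 ((gl_real h q1).2 (Or.inl (by rw [← ei, pow_zero])))
      have ik : i ≠ k := by
        rintro rfl
        exact q2 ((gl_real h q1).2 (mul_self_eq_one_iff.1 (by rw [← ei, ← pow_add, ← two_mul, hζ.pow_eq_one])))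
      obtain ⟨j, ej⟩ : ∃ j, TT (KK t σ) (triv C1(t)) q = TT (KK t σ) (triv C1(t)) (l j) := by
        rcases lt_or_gt_of_ne ik with hi' | hi'
        · exact ⟨⟨i - 1, by omega⟩, by rw [gl_ext h q1 (hl ⟨i - 1, by omega⟩) (by
            rw [el, ← ei]; congr 1; simp only; omega)]⟩
        · refine ⟨⟨2 * k - i - 1, by omega⟩, (H.TT_star q1 q2 L).symm.trans (congrArg _ (gl_ext h q1.star
            (hl ⟨2 * k - i - 1, by omega⟩) (mul_left_cancel₀ (lin_ne_zero q1.ch q1.one (xK h)) ?_)))⟩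
          rw [el, show q σ * star q σ = 1 from lin_norm q1.ch q1.one (xK h), ← ei, ← pow_add, ← hζ.pow_eq_one]
          congr 1; simp only; omega
      exact Or.inr (Or.inr (Or.inr (Or.inr ⟨j, uniq χ (χ' j) _ _ s1 rfl (by rwa [ej] at h1)⟩)))
    · rintro (e | rfl | rfl | rfl | ⟨j, rfl⟩)
      · rw [show χ = irrOne G from Subtype.ext e]; exact H7.irrOne_mem_principalBlock
      · exact mem_principal h M hε e1 s1 (by rw [Q.four.ib]; norm_num)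
      · exact mem_principal h M hε e2 s2 (by rw [Q.four.ic]; norm_num)
      · exact mem_principal h M hε e3 s3 (by rw [Q.four.id]; norm_num)
      · obtain ⟨a1, a2, -, -⟩ := Q.nr _ (hl j) (nr j)
        exact mem_principal h M (hl j) rfl s1 (by simp [hB, a1, a2, H.norm3 (hl j) (nr j) L]; norm_num)
  refine ⟨?_, χ₁, χ₂, χ₃, χ', δ₁, δ₂, δ₃, s1, s2, s3, inj, n1, n2, n3, ne e1 e2 Q.four.bc, ne e1 e3 Q.four.bd,
    ne e2 e3 Q.four.cd, n4, eq, fun i h0 hi => ?_, fun ρ hρ j => ?_⟩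
  · have : principalBlock M G = insert (irrOne G) (insert χ₁ (insert χ₂ (insert χ₃ (Set.range χ')))) := by
      rw [eq]; ext χ
      simp only [Set.mem_ofPred_eq, Set.mem_insert_iff, Set.mem_range, @eq_comm _ χ (χ' _)]
      exact or_congr_left ⟨fun e => Subtype.ext e, fun e => congrArg Subtype.val e⟩
    have z : ∀ χ : IrrCharacter G, (χ : G → ℂ) ≠ (fun _ => 1) → irrOne G ≠ χ := by rintro _ h rfl; exact h rfl
    rw [this, Nat.card_coe_set_eq, Set.ncard_insert_of_notMem (by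
      simp [z _ n1, z _ n2, z _ n3, fun j => (z _ (n4 j).2.2.2).symm]), Set.ncard_insert_of_notMem (by
      simp [ne e1 e2 Q.four.bc, ne e1 e3 Q.four.bd, fun j => (n4 j).1]), Set.ncard_insert_of_notMem (by
      simp [ne e2 e3 Q.four.cd, fun j => (n4 j).2.1]), Set.ncard_insert_of_notMem (by simp [fun j => (n4 j).2.2.1]),
      Set.ncard_range_of_injective inj, Nat.card_eq_fintype_card, Fintype.card_fin]
    omega
  · have g1 : σ ^ i ∈ zpowers σ := pow_mem (mem_zpowers σ) i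
    have g2 : σ ^ i ≠ 1 := pow_ne_one_of_lt_orderOf h0.ne' (hσo ▸ hi)
    have v1 := Q.s1.va h hε eε L D _ g1 g2
    have v2 := Q.vc h hε eε L D _ g1 g2
    have v3 := Q.s3.vc h hε eε L D _ g1 g2
    rw [Pi.neg_apply, res_of_mem _ g1, lin_pow hε.ch hε.one (xK h), eε] at v2 v3
    refine ⟨by simp [e1, v1], by simp [e2, v2, pow_succ], by simp [e3, v3, pow_succ], fun j => ?_⟩
    have := eq_inv_of_mul_eq_one_right (lin_norm (hl j).ch (hl j).one (mem_sup_right g1))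
    simp only [χ', hB, Pi.smul_apply, Pi.sub_apply, Pi.add_apply, v1, triv_of_mem (mem_top _),
      H.TT_apply (hl j) L (mem_sup_right g1), this, triv_of_mem (dih_xH h g1), zsmul_eq_mul]
    rw [lin_pow (hl j).ch (hl j).one (xK h), el, pow_mul]
    ring
  · have z : ∀ q, GLin v (KK t σ) (UU t) q → TT (KK t σ) (triv C1(t)) q ρ = 0 := fun q hq =>
      TIS.TT_zero hq fun g hg => (dih_mem_U h (H.le hg)).2 (by
        rw [H7.orderOf_conj']; exact hρ.not_two_dvd_nat)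
    have := congrFun Q.four.eq ρ
    simp only [z ε hε, Pi.add_apply, triv_of_mem (mem_top _)] at this
    simp only [e1, e2, e3, χ', hB, Pi.smul_apply, Pi.sub_apply, Pi.add_apply, z _ (hl j), triv_of_mem (mem_top _),
      zsmul_eq_mul, neg_mul, ← mul_assoc, sq _ s1, sq _ s2, sq _ s3]
    exact ⟨by linear_combination -this, by ring⟩

end Cfsg.Agent.S4481
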