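import Cfsg.Statements.S4482
import Cfsg.Agent.H2.GWBlk

set_option autoImplicit false
open Cfsg

open H5 H2 H18 H19 H22 Subgroup

namespace Cfsg.Agent.S4482

/-- An order formula for groups with dihedral Sylow 2-subgroups and one class of involutions. Let G be a finite group whose Sylow 2-subgroup P = ⟨σ, τ⟩ is dihedral of order 2^n ≥ 8 (σ of order 2^(n−1), τ an involution inverting σ), let J be the central involution σ^(2^(n−2)), and suppose J, τ and στ are conjugate in G. Fix M over 2 and let χ₁ be an irreducible character in the principal 2-block taking one constant value δ₁ = ±1 at every non-identity power of σ, with χ₁ ≠ 1. Then, with x₁ = χ₁(1) and c(·) denoting orders of centralizers, x₁ ≠ δ₁ and #G · (x₁ − δ₁)² = 2·x₁(x₁ + δ₁)·c(J)³·(1/c(J, τ) + 1/c(J, στ))², where c(J, y) is the order of the joint centralizer of J and y. -/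
theorem result {G : Type*} [Group G] [Finite G] (M : Ideal Cfsg.AlgInt) (hM : Cfsg.IsPModular 2 M) (n : ℕ) (hn : 3 ≤ n) (P : Sylow 2 G) (σ τ : G) (hσ : σ ∈ (P : Subgroup G)) (hτ : τ ∈ (P : Subgroup G)) (hσo : orderOf σ = 2 ^ (n - 1)) (hτo : orderOf τ = 2) (hrel : τ * σ * τ⁻¹ = σ⁻¹) (hgen : Subgroup.closure ({σ, τ} : Set G) = (P : Subgroup G)) (hconj : IsConj (σ ^ (2 ^ (n - 2))) τ ∧ IsConj (σ ^ (2 ^ (n - 2))) (σ * τ)) (χ₁ : Cfsg.IrrCharacter G) (hχ₁ : χ₁ ∈ Cfsg.principalBlock M G) (h1 : (χ₁ : G → ℂ) ≠ (fun _ => 1)) (δ₁ : ℤ) (hδ₁ : δ₁ = 1 ∨ δ₁ = -1) (hval : ∀ l : ℕ, 0 < l → l < 2 ^ (n - 1) → (χ₁ : G → ℂ) (σ ^ l) = δ₁) : (Cfsg.charDegree (χ₁ : G → ℂ) : ℤ) ≠ δ₁ ∧ (Nat.card G : ℚ) * ((Cfsg.charDegree (χ₁ : G → ℂ) : ℚ) - δ₁) ^ 2 = 2 * (Cfsg.charDegree (χ₁ : G → ℂ) : ℚ) * ((Cfsg.charDegree (χ₁ : G → ℂ) : ℚ) + δ₁) * (Nat.card (Subgroup.centralizer ({σ ^ (2 ^ (n - 2))} : Set G)) : ℚ) ^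 3 * (1 / (Nat.card (Subgroup.centralizer ({σ ^ (2 ^ (n - 2)), τ} : Set G)) : ℚ) + 1 / (Nat.card (Subgroup.centralizer ({σ ^ (2 ^ (n - 2)), σ * τ} : Set G)) : ℚ)) ^ 2 := by
  classical
  have := Fintype.ofFinite G
  have : H7.PM 2 M := ⟨hM⟩
  obtain ⟨k, rfl⟩ : ∃ k, n = k + 3 := ⟨n - 3, by omega⟩
  have e : 2 ^ (k + 3 - 1) / 2 = 2 ^ (k + 3 - 2) := by
    rw [show k + 3 - 1 = (k + 3 - 2) + 1 by omega, pow_succ, Nat.mul_div_cancel _ two_pos]
  have m4 : 4 ≤ 2 ^ (k + 3 - 1) := by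
    rw [show k + 3 - 1 = k + 2 by omega, pow_add]; have := Nat.two_pow_pos k; omega
  have h := dih_of_gen (hall_sylow_top Nat.prime_two P) hσo (by omega) (dvd_pow_self 2 (by omega)) (sq1 hτo) hrel hgen
  rw [e] at h
  have f := principal_formula h M hconj.1 hconj.2 m4 hχ₁ h1 hδ₁ fun g hg g1 => by
    obtain ⟨l, hl, rfl⟩ := Finset.mem_image.1 (mem_zpowers_iff_mem_range_orderOf.1 hg)
    exact hval l (Nat.pos_of_ne_zero (by rintro rfl; simp at g1)) (hσo ▸ Finset.mem_range.1 hl)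
  rw [dg_eq_of_eq_nat (H7.charDegree_cast χ₁.2.isCharacter).symm] at f
  set t := σ ^ 2 ^ (k + 3 - 2)
  have k1 : 0 < kk t τ := kk_pos
  have hx := H7.charDegree_ne_zero χ₁.2
  refine ⟨fun e => ?_, ?_⟩
  · rw [← e, sub_self] at f
    have : (0 : ℤ) < 2 * (kk t τ + kk t (σ * τ) : ℤ) ^ 2 * (Cfsg.charDegree (χ₁ : G → ℂ) *
      (Cfsg.charDegree (χ₁ : G → ℂ) + Cfsg.charDegree (χ₁ : G → ℂ))) := by positivity
    simp [← f] at this
  have key : ∀ w, (1 / Nat.card (centralizer ({t, w} : Set G)) : ℚ) = kk t w / Nat.card C1(t) := fun w => by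
    have e1 : centralizer ({t, w} : Set G) = C1(w) ⊓ C1(t) := by ext; simp [mem_centralizer_iff, and_comm]
    have := card_mul_relIndex' (A := C1(w)) (B := C1(t))
    rw [e1, div_eq_div_iff (by exact_mod_cast Nat.card_pos.ne') (by exact_mod_cast Nat.card_pos.ne'), ← this, kk]
    push_cast; ring
  have f' : (C1(t).index : ℚ) * (Cfsg.charDegree (χ₁ : G → ℂ) - δ₁) ^ 2 = 2 * (kk t τ + kk t (σ * τ) : ℚ) ^ 2 *
    (Cfsg.charDegree (χ₁ : G → ℂ) * (Cfsg.charDegree (χ₁ : G → ℂ) + δ₁)) := by exact_mod_cast f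
  have hc : (Nat.card C1(t) : ℚ) ≠ 0 := by exact_mod_cast Nat.card_pos.ne'
  rw [key, key, ← C1(t).index_mul_card]
  push_cast
  field_simp
  linear_combination f'

end Cfsg.Agent.S4482
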