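import Cfsg.Statements.S4483
import Cfsg.Agent.H8.BF

set_option autoImplicit false
open Cfsg

namespace Cfsg.Agent.S4483

open H5 H7 H8

/-- Let G be a finite group of order 2^n·g₀ with g₀ odd, and M a maximal ideal of the algebraic integers containing 2. Every real-valued irreducible character of G of odd degree lies in the principal 2-block; consequently G has at most 2^(2n) real-valued irreducible characters of odd degree. -/
theorem result {G : Type*} [Group G] [Finite G] (M : Ideal Cfsg.AlgInt) (hM : Cfsg.IsPModular 2 M) : (∀ χ : Cfsg.IrrCharacter G, (∀ g : G, ((χ : G → ℂ) g).im = 0) → Odd (Cfsg.charDegree (χ : G → ℂ)) → χ ∈ Cfsg.principalBlock M G) ∧ Nat.card {χ : Cfsg.IrrCharacter G // (∀ g : G, ((χ : G → ℂ) g).im = 0) ∧ Odd (Cfsg.charDegree (χ : G → ℂ))} ≤ 2 ^ (2 * (Nat.card G).factorization 2) := by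
  haveI : PM 2 M := ⟨hM⟩
  have key : ∀ χ : IrrCharacter G, (∀ g : G, ((χ : G → ℂ) g).im = 0) →
      Odd (charDegree (χ : G → ℂ)) → χ ∈ principalBlock M G := by
    intro χ h1 h2
    have hB := isPBlock_blockOf (M := M) χ
    rw [← eq_principal_of_real hB (blockDefect_eq_of_not_dvd (M := M) (mem_blockOf_self χ)
      h2.not_two_dvd_nat) fun g => ?_]
    · exact mem_blockOf_self χ
    refine blockCoeff_perm (fun g => g⁻¹) inv_surjective inv_one (fun ψ hψ => ?_) g
    refine ⟨⟨fun g => (ψ : G → ℂ) g⁻¹, ψ.2.inv⟩, fun x => ?_, fun _ => rfl⟩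
    have h3 := hψ x⁻¹
    have h4 : Subgroup.centralizer ({x⁻¹} : Set G) = Subgroup.centralizer {x} := by
      rw [← centralizer_zpowers, Subgroup.zpowers_inv, centralizer_zpowers]
    have h5 : (χ : G → ℂ) x⁻¹ = (χ : G → ℂ) x := by
      rw [χ.2.apply_inv, Complex.conj_eq_iff_im.2 (h1 x)]
    simp only [centralChar, h4, h5] at h3
    simpa only [centralChar, inv_one] using h3
  refine ⟨key, ?_⟩
  have h1 := bf_card (p := 2) (isPBlock_principalBlock (M := M) (G := G))
  rw [blockDefect_principal] at h1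
  have h2 : Nat.card {χ : IrrCharacter G // (∀ g : G, ((χ : G → ℂ) g).im = 0) ∧
      Odd (charDegree (χ : G → ℂ))} ≤ Nat.card (principalBlock M G) :=
    Nat.card_le_card_of_injective (fun χ => ⟨χ.1, key χ.1 χ.2.1 χ.2.2⟩) fun a b h =>
      Subtype.ext (by simpa using h)
  rcases Nat.eq_zero_or_pos ((Nat.card G).factorization 2) with h | h
  · rw [h] at h1 ⊢; omega
  · have : 2 ^ 2 ≤ 2 ^ (2 * (Nat.card G).factorization 2) := Nat.pow_le_pow_right two_pos (by omega)
    omega

end Cfsg.Agent.S4483
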