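import Cfsg.Statements.S4484
import Cfsg.Agent.H8.Bl60
import Cfsg.Agent.H7.Misc2
import Cfsg.Agent.H7.Second

set_option autoImplicit false
open Cfsg

namespace Cfsg.Agent.S4484

open H5 H7 Cfsg
open scoped ComplexConjugate

theorem few {n p g : ℕ} [hp : Fact p.Prime] {M : Ideal AlgInt} [PM p M] (ε : Fin n → ℂ)
    (hn : 0 < n) (hg : 0 < g) (h1 : ∀ i, ε i ^ p = 1)
    (h2 : ∀ t, t < p → IsIntegral ℤ ((g : ℂ) * ((∑ i, ε i ^ t) / n)) ∧
      (∑ i, ε i ^ t) / n - 1 ∈ mC M) :
    (@Finset.image _ _ (Classical.decEq _) ε Finset.univ).card ≤ g := by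
  classical
  have hn0 : (n : ℂ) ≠ 0 := by exact_mod_cast hn.ne'
  have key : ∀ μ ∈ Finset.univ.image ε, n ≤ g * (Finset.univ.filter fun i => ε i = μ).card := by
    intro μ hμ
    obtain ⟨i0, -, rfl⟩ := Finset.mem_image.1 hμ
    set a := (Finset.univ.filter fun i => ε i = ε i0).card with ha
    have ha0 : 0 < a := Finset.card_pos.2 ⟨i0, by simp⟩
    have h0 : ε i0 ≠ 0 := fun e => by simpa [e, hp.out.ne_zero] using h1 i0
    have hinv : (ε i0)⁻¹ ^ p = 1 := by rw [inv_pow, h1, inv_one]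
    have e1 : ∑ t ∈ Finset.range p, (g : ℂ) * ((∑ i, ε i ^ t) / n) * (ε i0)⁻¹ ^ t =
        ((g * a * p : ℕ) : ℂ) / n := by
      have : ∀ t, (g : ℂ) * ((∑ i, ε i ^ t) / n) * (ε i0)⁻¹ ^ t =
          g / n * ∑ i, (ε i * (ε i0)⁻¹) ^ t := by
        intro t
        simp only [mul_pow, ← Finset.sum_mul]; ring
      simp only [this]
      rw [← Finset.mul_sum, Finset.sum_comm]
      have h3 : ∀ i, ∑ t ∈ Finset.range p, (ε i * (ε i0)⁻¹) ^ t =
          if ε i = ε i0 then (p : ℂ) else 0 := by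
        intro i
        split_ifs with h
        · simp [h, h0]
        · have hne : ε i * (ε i0)⁻¹ ≠ 1 := fun e => h (by field_simp at e; exact e)
          rw [geom_sum_eq hne, mul_pow, h1, hinv]; simp
      simp only [h3]
      rw [← Finset.sum_filter, Finset.sum_const, ← ha]
      push_cast
      simp only [nsmul_eq_mul]; ring
    have hint : IsIntegral ℤ (((g * a * p : ℕ) : ℂ) / n) := by
      rw [← e1]
      exact IsIntegral.sum _ fun t ht => (h2 t (Finset.mem_range.1 ht)).1.mul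
        ((isIntegral_of_pow_eq_one hp.out.pos hinv).pow _)
    have hm : ((g * a * p : ℕ) : ℂ) / n ∈ mC M := by
      rw [← e1]
      have e2 : ∑ t ∈ Finset.range p, (g : ℂ) * ((∑ i, ε i ^ t) / n) * (ε i0)⁻¹ ^ t =
          ∑ t ∈ Finset.range p, (g : ℂ) * ((((∑ i, ε i ^ t) / n) - 1) * (ε i0)⁻¹ ^ t +
            ((ε i0)⁻¹ ^ t - 1)) + g * p := by
        have : (g : ℂ) * p = ∑ t ∈ Finset.range p, (g : ℂ) := by simp [mul_comm]
        rw [this, ← Finset.sum_add_distrib]
        exact Finset.sum_congr rfl fun t _ => by ring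
      rw [e2]
      refine add_mem (sum_mem fun t ht => mul_mem_mC_left (natCast_mem _ _) (add_mem
        (mul_mem_mC_right (h2 t (Finset.mem_range.1 ht)).2
          (pow_mem (mem_O_of_pow_eq_one hp.out.ne_zero hinv) _))
        (sub_one_mem_mC_of_pow (p := p) (k := 1) ?_)))
        (mul_mem_mC_left (natCast_mem _ _) prime_mem_mC)
      rw [pow_one, ← pow_mul, mul_comm, pow_mul, hinv, one_pow]
    obtain ⟨m, hm1⟩ := dvd_of_isIntegral_div hn.ne' hint
    rw [hm1, Nat.cast_mul, mul_div_cancel_left₀ _ hn0, natCast_mem_mC_iff] at hm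
    obtain ⟨m', rfl⟩ := hm
    have e3 : g * a = n * m' := Nat.eq_of_mul_eq_mul_right hp.out.pos (by rw [hm1]; ring)
    exact Nat.le_of_dvd (Nat.mul_pos hg ha0) ⟨m', e3⟩
  have h4 := Finset.card_nsmul_le_sum _ _ _ key
  rw [← Finset.mul_sum, ← Finset.card_eq_sum_card_image, Finset.card_univ, Fintype.card_fin,
    smul_eq_mul] at h4
  convert Nat.le_of_mul_le_mul_right h4 hn

/-- A refinement of Burnside's result on simple groups of order divisible by only two primes. Let G be a finite simple group of order p^a · q^b · g₀ with p, q distinct primes, a > 0, g₀ coprime to p and q, and the order of G different from p. Then g₀ − 1 > log p / log 6, that is 6^(g₀ − 1) > p. -/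
theorem result {G : Type*} [Group G] [Finite G] [IsSimpleGroup G] (p q a b g₀ : ℕ) (hp : p.Prime) (hq : q.Prime) (hpq : p ≠ q) (ha : 0 < a) (hg : Nat.card G = p ^ a * q ^ b * g₀) (hcop : ¬ p ∣ g₀) (hcoq : ¬ q ∣ g₀) (hne : Nat.card G ≠ p) : p < 6 ^ (g₀ - 1) := by
  classical
  letI := Fintype.ofFinite G
  haveI := Fact.mk hp
  obtain ⟨M, hM⟩ := exists_isPModular p
  haveI : PM p M := ⟨hM⟩
  have hpG : p ∣ Nat.card G := by
    rw [hg, mul_assoc]; exact Dvd.dvd.mul_right (dvd_pow_self p ha.ne') _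
  have hnc : ¬ ∀ a b : G, a * b = b * a := fun h =>
    hne ((Nat.prime_dvd_prime_iff_eq hp (card_prime_of_isSimpleGroup_of_comm h)).1 hpG).symm
  have hZ := center_eq_bot_of_isSimpleGroup hnc
  have hg0 : 0 < g₀ := Nat.pos_of_ne_zero fun e => hcop (e ▸ dvd_zero p)
  obtain ⟨P⟩ : Nonempty (Sylow p G) := inferInstance
  haveI : Nontrivial (P : Subgroup G) := by
    rw [Subgroup.nontrivial_iff_ne_bot]
    intro e
    have := P.not_dvd_index
    rw [e, Subgroup.index_bot] at this
    exact this hpG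
  haveI := P.isPGroup'.center_nontrivial
  have hc : p ∣ Nat.card (Subgroup.center (P : Subgroup G)) := by
    obtain ⟨k, hk0, hk⟩ := (IsPGroup.nontrivial_iff_card
      (P.isPGroup'.to_subgroup (Subgroup.center _))).1 inferInstance
    rw [hk]; exact dvd_pow_self p hk0.ne'
  obtain ⟨z0, hz0⟩ := exists_prime_orderOf_dvd_card' p hc
  set z : G := ((z0 : (P : Subgroup G)) : G) with hzdef
  have hz : orderOf z = p := by rw [hzdef, Subgroup.orderOf_coe, Subgroup.orderOf_coe, hz0]
  have hidx : ∀ t : ℕ, ¬ p ∣ (Subgroup.centralizer ({z ^ t} : Set G)).index := by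
    intro t h
    refine P.not_dvd_index (h.trans (Subgroup.index_dvd_of_le fun x hx => ?_))
    rw [Subgroup.mem_centralizer_singleton_iff]
    have := Subgroup.mem_center_iff.1 z0.2 ⟨x, hx⟩
    exact (Commute.pow_right (congrArg Subtype.val this : x * z = z * x) t)
  -- the character
  obtain ⟨χ, hχB, hχ1, hχq⟩ : ∃ χ ∈ principalBlock M G, χ ≠ irrOne G ∧
      ¬ q ∣ charDegree (χ : G → ℂ) := by
    by_contra hcon
    push Not at hcon
    have h0 := mu_eq_zero_of_dvd (isSat_of_isPBlock (isPBlock_principalBlock (M := M) (G := G)))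
      (x := 1) (y := z) (by simpa using hp.one_lt.ne') (hz ▸ dvd_rfl)
    rw [mu_eq, ← Finset.add_sum_erase _ _ (Finset.mem_univ (irrOne G)),
      if_pos irrOne_mem_principalBlock] at h0
    have hq0 : (q : ℂ) ≠ 0 := by exact_mod_cast hq.ne_zero
    have h1 : IsIntegral ℤ (((1 : ℕ) : ℂ) / q) := by
      have e : ((1 : ℕ) : ℂ) / q = -∑ χ ∈ Finset.univ.erase (irrOne G),
          (if χ ∈ principalBlock M G then (χ : G → ℂ) 1 * conj ((χ : G → ℂ) z) else 0) / q := by
        rw [← Finset.sum_div, ← neg_div, ← add_eq_zero_iff_eq_neg.1 h0]; simp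
      rw [e]
      refine (IsIntegral.sum _ fun χ hχ => ?_).neg
      split_ifs with h
      · obtain ⟨c, hc⟩ := hcon χ h (Finset.mem_erase.1 hχ).1
        rw [← χ.2.coe_charDegree, hc]
        push_cast
        rw [mul_assoc, mul_div_cancel_left₀ _ hq0]
        exact (isIntegral_natCast _).mul (isIntegral_conj (χ.2.isCharacter.isIntegral _))
      · simpa using isIntegral_zero
    exact hq.one_lt.ne' (Nat.dvd_one.1 (dvd_of_isIntegral_div hq.ne_zero h1))
  have hker := χ.2.charKer_eq_bot_of_isSimpleGroup (fun e => hχ1 (Subtype.ext e))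
  have hne1 : ∀ d, 0 < d → d < p → z ^ d ≠ 1 := fun d h1 h2 =>
    pow_ne_one_of_lt_orderOf h1.ne' (hz ▸ h2)
  by_contra hlt
  have hlt' : 6 ^ (g₀ - 1) < p := by
    refine lt_of_le_of_ne (not_lt.1 hlt) fun e => ?_
    rcases Nat.eq_zero_or_pos (g₀ - 1) with h | h
    · rw [h] at e; exact hp.one_lt.ne e
    · have h2 : 2 ∣ p := e ▸ (show 2 ∣ 6 by norm_num).trans (dvd_pow_self 6 h.ne')
      have h3 : 3 ∣ p := e ▸ (show 3 ∣ 6 by norm_num).trans (dvd_pow_self 6 h.ne')
      have := (Nat.prime_dvd_prime_iff_eq Nat.prime_two hp).1 h2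
      have := (Nat.prime_dvd_prime_iff_eq Nat.prime_three hp).1 h3
      omega
  obtain ⟨d, hd0, hdp, hd⟩ := H8.Bl60.mem_center_of_few χ.2 (z := z) (p := p) (fun d h1 h2 =>
    (Subgroup.normalClosure_normal.eq_bot_or_eq_top).resolve_left fun e =>
      hne1 d h1 h2 (Subgroup.mem_bot.1 (e ▸ Subgroup.subset_normalClosure rfl))) g₀
    (fun n ε h1 h2 => by
      have hn : (χ : G → ℂ) 1 = n := by simpa using h2 0
      have hdeg := charDegree_eq_of_apply_one hn
      have hn0 : 0 < n := hdeg ▸ χ.2.charDegree_pos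
      have hn0' : (n : ℂ) ≠ 0 := by exact_mod_cast hn0.ne'
      refine few (M := M) ε hn0 hg0 (hz ▸ h1) fun t _ => ⟨?_, ?_⟩
      · rw [← h2]
        have hi1 := χ.2.isIntegral_centralChar (z ^ t)
        have hdvd : (Subgroup.centralizer ({z ^ t} : Set G)).index ∣ q ^ b * g₀ := by
          have := (Subgroup.centralizer ({z ^ t} : Set G)).index_dvd_card
          rw [hg, mul_assoc] at this
          exact (((Nat.Prime.coprime_iff_not_dvd hp).2 (hidx t)).symm.pow_right a).dvd_of_dvd_mul_left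
            this
        obtain ⟨c, hc⟩ := hdvd
        have hcop2 : IsCoprime ((n : ℤ)) ((q ^ b : ℕ) : ℤ) := Nat.isCoprime_iff_coprime.2
          (((Nat.Prime.coprime_iff_not_dvd hq).2 (hdeg ▸ hχq)).symm.pow_right b)
        obtain ⟨u, v, huv⟩ := hcop2
        have huv' : (u : ℂ) * n + v * q ^ b = 1 := by exact_mod_cast huv
        have hc' : (q : ℂ) ^ b * g₀ = (Subgroup.centralizer ({z ^ t} : Set G)).index * c := by
          exact_mod_cast hc
        have e : (g₀ : ℂ) * ((χ : G → ℂ) (z ^ t) / n) = u * g₀ * (χ : G → ℂ) (z ^ t) +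
            v * c * centralChar (χ : G → ℂ) (z ^ t) := by
          rw [centralChar, hn]
          field_simp
          linear_combination (-(g₀ : ℂ) * (χ : G → ℂ) (z ^ t)) * huv' +
            (v * (χ : G → ℂ) (z ^ t)) * hc'
        rw [e]
        exact (((isIntegral_intCast _).mul (isIntegral_natCast _)).mul
          (χ.2.isCharacter.isIntegral _)).add
          (((isIntegral_intCast _).mul (isIntegral_natCast _)).mul hi1)
      · rw [← h2, ← hn]
        exact div_sub_one_mem_mC hχB (hidx t)) hlt'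
  rw [χ.2.charCenter_eq_center hker, hZ] at hd
  exact hne1 d hd0 hdp hd

end Cfsg.Agent.S4484
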