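import Cfsg.Statements.S4485
import Cfsg.Agent.H23.BL
import Cfsg.Agent.H5.Central

set_option autoImplicit false
open Cfsg

namespace Cfsg.Agent.S4485

open H18 H19 H5 Subgroup

/-- Let G be a finite group and p a prime dividing its order such that every non-identity element of a Sylow p-subgroup P has the same centralizer as P itself (so P is abelian); let p^n be the order of P. If G has a faithful character of degree x with x² < p^n − 1, then P is normal in G. -/
theorem result {G : Type*} [Group G] [Finite G] (p : ℕ) (hp : p.Prime) (hpG : p ∣ Nat.card G) (P : Sylow p G) (hstar : ∀ x ∈ (P : Subgroup G), x ≠ 1 → Subgroup.centralizer ({x} : Set G) = Subgroup.centralizer ((P : Subgroup G) : Set G)) (n : ℕ) (hn : Nat.card P = p ^ n) (χ : G → ℂ) (hχ : Cfsg.IsCharacter G χ) (hfaith : ∀ g : G, χ g = χ 1 → g = 1) (hdeg : Cfsg.charDegree χ ^ 2 + 1 < p ^ n) : (P : Subgroup G).Normal := by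
  have := Fact.mk hp
  let K := normalClosure ((P : Subgroup G) : Set G)
  have := Fintype.ofFinite K
  have hK : (P : Subgroup G) ≤ K := le_normalClosure
  let Q := P.subtype hK
  have hc : IsCharacter K fun x => χ x := hχ.restrict K
  have h1 : ∀ ψ ∈ irr (⊤ : Subgroup K), ip ⊤ (fun x : K => χ x) ψ ≠ 0 → ψ 1 = 1 := fun ψ hψ e => by
    by_cases h2 : ψ = triv ⊤
    · simp [h2]
    refine (H23.brauer_leonard hp (hall_sylow_top hp Q) (fun x hx x1 => Subgroup.ext fun y => ?_)
      (fun L hL h3 => eq_top_iff.2 fun y _ => ?_) hψ h2 ?_).2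
    · have := SetLike.ext_iff.1 (hstar x hx fun e => x1 (Subtype.ext e)) y.1
      rw [mem_C1, mem_C] at this ⊢
      exact ⟨fun h z hz => Subtype.ext (this.1 (congrArg Subtype.val h) z hz),
        fun h => Subtype.ext (this.2 fun z hz => congrArg Subtype.val (h ⟨z, hK hz⟩ hz))⟩
    · have h4 : K ≤ L.map K.subtype := (Subgroup.closure_le _).2 fun z hz => by
        obtain ⟨a, ha, h5⟩ := Group.mem_conjugatesOfSet_iff.1 hz
        obtain ⟨g, rfl⟩ := isConj_iff.1 h5
        have h6 : g * a * g⁻¹ ∈ K := Normal.conj_mem inferInstance a (hK ha) g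
        obtain ⟨R, hR⟩ := IsPGroup.exists_le_sylow (p := p) (P := zpowers (⟨_, h6⟩ : K)) (by
          obtain ⟨k, hk⟩ := P.isPGroup' ⟨a, ha⟩
          refine IsPGroup.of_card (n := _) ((Nat.card_zpowers _).trans ((Nat.dvd_prime_pow hp).1
            (orderOf_dvd_of_pow_eq_one (n := p ^ k) (Subtype.ext ?_))).choose_spec.2)
          rw [coe_pow, conj_pow, show a ^ p ^ k = 1 from congrArg Subtype.val hk]; simp)
        obtain ⟨c, rfl⟩ := MulAction.exists_smul_eq K Q R
        have h7 := hR (mem_zpowers _)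
        rw [Sylow.coe_subgroup_smul, mem_pointwise_smul_iff_inv_smul_mem] at h7
        exact ⟨⟨_, h6⟩, (hL.mem_comm_iff (a := c⁻¹ * ⟨_, h6⟩) (b := c)).1 (h3 h7) |> fun h => by
          rwa [mul_inv_cancel_left] at h, rfl⟩
      obtain ⟨z, hz, e⟩ := h4 y.2
      exact Subtype.ext e ▸ hz
    · have h3 := dg_le_of_ip_ne_zero (mem_chars_top.2 hc) hψ e
      rw [dg_eq_of_eq_nat (χ := fun x : K => χ x) hχ.coe_charDegree.symm] at h3
      rw [show Nat.card (Q : Subgroup K) = p ^ n from (Nat.card_congr (subgroupOfEquivOfLe hK).toEquiv).trans hn]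
      have := pow_le_pow_left₀ (irr_dg_pos hψ).le h3 2
      zify at hdeg; push_cast; linarith
  have h2 : ⁅(⊤ : Subgroup K), ⊤⁆ ≤ cfker ⊤ fun x : K => χ x := by
    rw [cf_eq_sum (cf_of_chars (mem_chars_top.2 hc))]
    refine le_cfker_sum le_top fun ψ hψ => ?_
    by_cases e : ip ⊤ (fun x : K => χ x) ψ = 0
    · exact fun x _ => mem_cfker_def.2 ⟨mem_top _, by simp [e]⟩
    · exact ((der_le_cfker_iff hψ).2 (h1 ψ hψ e)).trans (le_cfker_smul _)
  have h3 : Abel (⊤ : Subgroup K) := abel_iff_der.2 (eq_bot_iff.2 fun x hx =>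
    Subtype.ext (hfaith x (cfker_apply (φ := fun x : K => χ x) (h2 hx))))
  have : (Q : Subgroup K).Normal := (h3.nml le_top).normal
  have := Q.characteristic_of_normal this
  rw [← map_subgroupOf_eq_of_le hK]
  exact ConjAct.normal_of_characteristic_of_normal (K := (Q : Subgroup K))

end Cfsg.Agent.S4485
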