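import Cfsg.Statements.S4488
import Cfsg.Agent.H8.Schur
import Cfsg.Agent.H8.GalAct

set_option autoImplicit false
open Cfsg

namespace Cfsg.Agent.S4488

open H5 H8 Cfsg

/-- Let the finite group G have a faithful p-rational character χ of degree n (all values of χ lie in the field generated over ℚ by a root of unity of order prime to p), and let p^a be the order of a Sylow p-subgroup of G. Then a ≤ Σ_{i ≥ 0} ⌊n / ((p − 1)·p^i)⌋ (a finite sum; the terms vanish once (p − 1)p^i > n). -/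
theorem result {G : Type*} [Group G] [Finite G] (p : ℕ) (hp : p.Prime) (χ : G → ℂ) (hχ : Cfsg.IsCharacter G χ) (hfaith : ∀ g : G, χ g = χ 1 → g = 1) (hrat : (∃ r : ℕ, 0 < r ∧ ¬ p ∣ r ∧ ∀ g : G, χ g ∈ IntermediateField.adjoin ℚ ({Complex.exp (2 * Real.pi * Complex.I / r)} : Set ℂ))) (n : ℕ) (hn : Cfsg.charDegree χ = n) : (Nat.card G).factorization p ≤ ∑ i ∈ Finset.range (n + 1), n / ((p - 1) * p ^ i) := by
  haveI := Fact.mk hp
  obtain ⟨P⟩ : Nonempty (Sylow p G) := inferInstance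
  obtain ⟨r, hr0, hr1, hr2⟩ := hrat
  have h1 := hχ.restrict (P : Subgroup G)
  subst hn
  refine schur_bound P.isPGroup' h1 (fun σ => funext fun x => ?_) ?_ (Nat.lt_succ_self _)
  · obtain ⟨j, hj⟩ := P.isPGroup' x
    have hx : (x : G) ^ p ^ j = 1 := congrArg Subtype.val hj
    have hpj : 0 < p ^ j := pow_pos hp.pos j
    obtain ⟨k, hk, hσ⟩ := exists_pow_of_ringHom σ.toRingHom hpj
    have hc : (p ^ j).Coprime r := ((Nat.Prime.coprime_iff_not_dvd hp).2 hr1).pow_left j
    obtain ⟨k', h2, h3⟩ := Nat.chineseRemainder hc k 1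
    obtain ⟨τ, hτ⟩ := exists_ringEquiv_pow (Nat.mul_pos hpj hr0) (k := k') (Nat.Coprime.mul_right
      (by rw [Nat.Coprime, h2.gcd_eq]; exact hk) (by rw [Nat.Coprime, h3.gcd_eq]; simp))
    have e1 := hχ.ringHom_apply σ.toRingHom hσ hx
    have e2 := hχ.ringHom_apply τ.toRingHom hτ (g := x) (by rw [pow_mul, hx, one_pow])
    have e3 : τ (χ x) = χ x := by
      refine apply_eq_of_mem_adjoin (fun y hy => ?_) (hr2 x)
      rw [Set.mem_singleton_iff.1 hy, hτ _ (by
        rw [mul_comm (p ^ j), pow_mul, exp_pow_eq_one hr0.ne', one_pow]),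
        pow_eq_pow_of_modEq' (exp_pow_eq_one hr0.ne') h3, pow_one]
    rw [pow_eq_pow_of_modEq' hx h2] at e2
    exact e1.trans (e2.symm.trans e3)
  · rw [charKer_eq_bot h1 fun g hg => Subtype.ext (hfaith g hg), Subgroup.index_bot,
      P.card_eq_multiplicity]

end Cfsg.Agent.S4488
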