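import Cfsg.Statements.S4490
import Cfsg.Agent.H7.Quot

set_option autoImplicit false
open Cfsg

namespace Cfsg.Agent.S4490

open H5 H7

/-- Let G be a finite group and M a maximal ideal of the algebraic integers containing 2. Every 2-block B of G whose defect groups are the Sylow 2-subgroups of G (a block of full defect) and which is not the principal block is different from its complex-conjugate block, the block formed by the complex conjugates of the members of B. -/
theorem result {G : Type*} [Group G] [Finite G] (M : Ideal Cfsg.AlgInt) (hM : Cfsg.IsPModular 2 M) (B : Set (Cfsg.IrrCharacter G)) (hB : Cfsg.IsPBlock M B) (P : Sylow 2 G) (hfull : Cfsg.IsDefectGroup 2 M B (P : Subgroup G)) (hnp : B ≠ Cfsg.principalBlock M G) : {ψ : Cfsg.IrrCharacter G | ∃ χ ∈ B, (ψ : G → ℂ) = fun g => (starRingEnd ℂ) ((χ : G → ℂ) g)} ≠ B := by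
  haveI : PM 2 M := ⟨hM⟩
  classical
  intro e
  have := Fintype.ofFinite G
  have hc : ∀ χ : IrrCharacter G, χ ∈ B → (⟨_, χ.2.conj⟩ : IrrCharacter G) ∈ B := fun χ h => by
    rw [← e]; exact ⟨χ, h, rfl⟩
  have hi : Function.Involutive fun χ : IrrCharacter G => (⟨_, χ.2.conj⟩ : IrrCharacter G) :=
    fun χ => Subtype.ext (funext fun g => by simp)
  have h1 : ∀ g, blockCoeff B g⁻¹ = blockCoeff B g := fun g => by
    rw [blockCoeff_eq, blockCoeff_eq, ← Equiv.sum_comp hi.toPerm]
    congr 1
    refine Finset.sum_congr rfl fun χ _ => ?_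
    refine if_congr ⟨fun h => hi χ ▸ hc _ h, hc χ⟩ ?_ rfl
    simp only [Function.Involutive.coe_toPerm, χ.2.apply_inv, χ.2.isCharacter.conj_apply_one,
      Complex.conj_conj]
  have h2 : irrOne G ∉ B := fun h =>
    hnp (block_eq_of_mem hB isPBlock_principalBlock h irrOne_mem_principalBlock)
  have h3 := congrArg (red M) (om_eB_of_notMem h2)
  rw [om_apply_sum, red_zero] at h3
  simp only [irrOne_apply, mul_one, div_one, coeff_eB] at h3
  rw [red_sum _ fun g _ => blockCoeff_mem_O hB g, ← Finset.add_sum_erase _ _ (Finset.mem_univ 1),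
    Finset.sum_involution (fun g _ => g⁻¹) (fun g _ => by
      rw [h1, ← two_mul, show (2 : F M) = 0 from p_eq_zero_F (p := 2), zero_mul])
      (fun g hg h0 h => h0 ?_) (fun g hg => by simpa using hg) (fun g _ => inv_inv g),
    add_zero] at h3
  · have h4 := red_blockCoeff_one_ne_zero hB
    have h5 := IsDefectGroup.card hB hfull
    rw [P.card_eq_multiplicity, Nat.pow_right_inj one_lt_two] at h5
    rw [← h5, div_self (by simp), mul_one] at h4
    exact h4 h3
  · rw [blockCoeff_eq_zero_of_dvd (isSat_of_isPBlock hB), red_zero]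
    rw [orderOf_eq_prime (p := 2) (by rw [sq]; nth_rw 1 [← h]; simp) (by simpa using hg)]

end Cfsg.Agent.S4490
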