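import Cfsg.Statements.S4493
import Cfsg.Agent.H8.Ito

set_option autoImplicit false
open Cfsg

namespace Cfsg.Agent.S4493

open H5 H6 H8

/-- Let G be a finite solvable group and p a prime. Then G has a normal abelian Sylow p-subgroup if and only if no irreducible character degree of G is divisible by p. -/
theorem result {G : Type*} [Group G] [Finite G] (hsolv : Group.IsSolvable G) (p : ℕ) (hp : p.Prime) : (∃ P : Subgroup G, P.Normal ∧ (∀ x ∈ P, ∀ y ∈ P, x * y = y * x) ∧ IsPGroup p P ∧ ¬ p ∣ P.index) ↔ ∀ χ : Cfsg.IrrCharacter G, ¬ p ∣ Cfsg.charDegree (χ : G → ℂ) := by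
  haveI := Fact.mk hp
  constructor
  · rintro ⟨P, h1, h2, h3, h4⟩ χ h
    exact h4 (h.trans (ito_degree_dvd P h2 χ.2))
  · intro h
    obtain ⟨P⟩ : Nonempty (Sylow p G) := inferInstance
    have h1 := ito_normal G H4.pSol_top_of_solvable (fun χ hχ => h ⟨χ, hχ⟩) P
    have h2 := comm_of_normal_of_not_dvd P.isPGroup' fun χ hχ => h ⟨χ, hχ⟩
    exact ⟨P, h1, fun a ha b hb => congrArg Subtype.val (h2.is_comm.comm (⟨a, ha⟩ : P) ⟨b, hb⟩),
      P.isPGroup', P.not_dvd_index⟩

end Cfsg.Agent.S4493
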