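import Cfsg.Statements.S4495
import Cfsg.Agent.H8.SelfCent

set_option autoImplicit false
open Cfsg

namespace Cfsg.Agent.S4495



/-- Let the finite group G contain an element x of prime order p with C_G(x) = ⟨x⟩, and let t be the number of conjugacy classes of elements of order p. If t ≠ p − 1 then the commutator subgroup has index at most (p − 1)/t; if t = p − 1 it has index exactly p. -/
theorem result {G : Type*} [Group G] [Finite G] (p : ℕ) (hp : p.Prime) (x : G) (hx : orderOf x = p) (hC : Subgroup.centralizer ({x} : Set G) = Subgroup.zpowers x) (t : ℕ) (ht : Nat.card {C : ConjClasses G // ∃ g ∈ C.carrier, orderOf g = p} = t) : (t ≠ p - 1 → (commutator G).index * t ≤ p - 1) ∧ (t = p - 1 → (commutator G).index = p) := by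
  have h1 := H8.SelfCent.card_classes_mul hp hx hC
  rw [ht] at h1
  have hp1 : 0 < p - 1 := Nat.sub_pos_of_lt hp.one_lt
  constructor
  · intro hne
    have he : (Subgroup.zpowers x).relIndex (Subgroup.normalizer (Subgroup.zpowers x : Set G)) ≠ 1 := by
      intro h; rw [h, mul_one] at h1; exact hne h1
    have h2 := H8.SelfCent.zpowers_le_commutator hp hx hC he
    have h3 := H8.SelfCent.normalizer_sup_eq_top hp hx hC _ h2
    have h4 : (commutator G).index =
        (commutator G).relIndex (Subgroup.normalizer (Subgroup.zpowers x : Set G)) := by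
      rw [← Subgroup.relIndex_top_right, ← h3, Subgroup.relIndex_sup_right]
    rw [h4, ← h1, mul_comm]
    exact Nat.mul_le_mul_left _ (Nat.le_of_dvd (Nat.pos_of_ne_zero (H1.relIndex_ne_zero _ _))
      (Subgroup.relIndex_dvd_of_le_left _ h2))
  · intro h
    rw [h] at h1
    exact (H8.SelfCent.index_commutator_of_relIndex_eq_one hp hx hC
      (Nat.eq_of_mul_eq_mul_left hp1 (h1.trans (mul_one _).symm))).1

end Cfsg.Agent.S4495
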