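import Cfsg.Statements.S4497
import Cfsg.Agent.H8.SelfCent
import Cfsg.Agent.H1.Cores

set_option autoImplicit false
open Cfsg

namespace Cfsg.Agent.S4497

open Subgroup in
theorem aux {G : Type*} [Group G] [Finite G] {p : ℕ} (hp : p.Prime) {x : G} (hx : orderOf x = p)
    (hC : centralizer ({x} : Set G) = zpowers x) (D : Subgroup G) (hxD : x ∈ D) (L : Subgroup D)
    [L.Normal] (hd : p ∣ Nat.card L) : (⟨x, hxD⟩ : D) ∈ L := by
  have h1 : orderOf (⟨x, hxD⟩ : D) = p := by
    rw [← hx, ← Subgroup.orderOf_coe]
  have h2 : centralizer ({(⟨x, hxD⟩ : D)} : Set D) = zpowers (⟨x, hxD⟩ : D) := by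
    ext y
    rw [mem_centralizer_singleton_iff]
    constructor
    · intro h
      have : (y : G) ∈ centralizer ({x} : Set G) := by
        rw [mem_centralizer_singleton_iff]; exact congrArg Subtype.val h
      rw [hC] at this
      obtain ⟨k, hk⟩ := this
      exact ⟨k, Subtype.ext (by simpa using hk)⟩
    · rintro ⟨k, rfl⟩
      exact ((Commute.refl _).zpow_left k).eq
  exact H8.SelfCent.zpowers_le_of_dvd hp h1 h2 L hd (mem_zpowers _)

/-- Let the finite group G contain an element x of prime order p with C_G(x) = ⟨x⟩, let t be the number of conjugacy classes of elements of order p, and let S* = O_{p′}(G) be the largest normal subgroup of order prime to p. Then S* ≤ G′; if t ≠ p − 1 the quotient G′/S* is simple (in particular non-trivial); if t = p − 1 then G′ = S*. -/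
theorem result {G : Type*} [Group G] [Finite G] (p : ℕ) (hp : p.Prime) (x : G) (hx : orderOf x = p) (hC : Subgroup.centralizer ({x} : Set G) = Subgroup.zpowers x) (t : ℕ) (ht : Nat.card {C : ConjClasses G // ∃ g ∈ C.carrier, orderOf g = p} = t) : Cfsg.pPrimeCore p G ≤ commutator G ∧ (t ≠ p - 1 → ∀ h : ((Cfsg.pPrimeCore p G).subgroupOf (commutator G)).Normal, IsSimpleGroup (↥(commutator G) ⧸ (Cfsg.pPrimeCore p G).subgroupOf (commutator G))) ∧ (t = p - 1 → commutator G = Cfsg.pPrimeCore p G) := by
  have hS := H1.not_dvd_card_pPrimeCore (G := G) hp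
  have hle := H8.SelfCent.le_commutator_of_not_dvd hp hx hC (pPrimeCore p G) hS
  have hmul := H8.SelfCent.card_classes_mul hp hx hC
  rw [ht] at hmul
  refine ⟨hle, ?_, ?_⟩
  · intro htp hN
    have he : (Subgroup.zpowers x).relIndex (Subgroup.normalizer (Subgroup.zpowers x : Set G)) ≠ 1 := by
      intro h; rw [h, mul_one] at hmul; exact htp hmul
    have hxD : x ∈ commutator G :=
      H8.SelfCent.zpowers_le_commutator hp hx hC he (Subgroup.mem_zpowers x)
    have hx1 : x ≠ 1 := by
      intro h; rw [h, orderOf_one] at hx; exact hp.one_lt.ne hx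
    have hxS : x ∉ pPrimeCore p G := by
      intro h
      have := H8.SelfCent.inf_eq_bot hp hx (pPrimeCore p G) hS
      have h2 : x ∈ pPrimeCore p G ⊓ Subgroup.zpowers x :=
        Subgroup.mem_inf.mpr ⟨h, Subgroup.mem_zpowers x⟩
      rw [this] at h2
      exact hx1 (Subgroup.mem_bot.mp h2)
    haveI : Nontrivial (↥(commutator G) ⧸ (pPrimeCore p G).subgroupOf (commutator G)) := by
      refine ⟨⟨QuotientGroup.mk ⟨x, hxD⟩, 1, ?_⟩⟩
      intro h
      rw [QuotientGroup.eq_one_iff] at h
      exact hxS h
    refine ⟨fun M hM => ?_⟩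
    set L := M.comap (QuotientGroup.mk' ((pPrimeCore p G).subgroupOf (commutator G))) with hL
    haveI : L.Normal := hM.comap _
    have hsurj := QuotientGroup.mk'_surjective ((pPrimeCore p G).subgroupOf (commutator G))
    by_cases hd : p ∣ Nat.card L
    · right
      have hK : Subgroup.normalClosure ({x} : Set G) ≤ L.map (commutator G).subtype := by
        unfold Subgroup.normalClosure
        rw [Subgroup.closure_le]
        intro y hy
        rw [Group.mem_conjugatesOfSet_iff] at hy
        obtain ⟨a, ha, hy⟩ := hy
        rw [Set.mem_singleton_iff] at ha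
        subst ha
        obtain ⟨g, rfl⟩ := isConj_iff.mp hy
        have hyD : g * a * g⁻¹ ∈ commutator G :=
          (inferInstance : (commutator G).Normal).conj_mem a hxD g
        have h1 : orderOf (g * a * g⁻¹) = p := by
          rw [← hx]; exact (MulAut.conj g).orderOf_eq a
        have h2 : Subgroup.centralizer ({g * a * g⁻¹} : Set G) = Subgroup.zpowers (g * a * g⁻¹) := by
          ext z
          rw [Subgroup.mem_centralizer_singleton_iff]
          constructor
          · intro h
            have : g⁻¹ * z * g ∈ Subgroup.centralizer ({a} : Set G) := by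
              rw [Subgroup.mem_centralizer_singleton_iff]
              calc g⁻¹ * z * g * a = g⁻¹ * (z * (g * a * g⁻¹)) * g := by group
                _ = g⁻¹ * ((g * a * g⁻¹) * z) * g := by rw [h]
                _ = _ := by group
            rw [hC] at this
            obtain ⟨k, hk⟩ := this
            refine ⟨k, ?_⟩
            simp only at hk ⊢
            rw [conj_zpow, hk]; group
          · rintro ⟨k, rfl⟩
            exact ((Commute.refl _).zpow_left k).eq
        exact ⟨⟨_, hyD⟩, aux hp h1 h2 _ hyD L hd, rfl⟩
      have hdK : p ∣ Nat.card (Subgroup.normalClosure ({x} : Set G)) := by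
        rw [← hx]
        exact Subgroup.orderOf_dvd_natCard _ (Subgroup.subset_normalClosure (Set.mem_singleton x))
      have h3 := (H8.SelfCent.commutator_le_of_dvd hp hx hC _ hdK).trans hK
      have h4 : L = ⊤ := by
        rw [eq_top_iff]
        intro y _
        obtain ⟨z, hz, hzy⟩ := h3 y.2
        have : z = y := Subtype.ext hzy
        exact this ▸ hz
      rw [← Subgroup.map_comap_eq_self_of_surjective hsurj M, ← hL, h4,
        Subgroup.map_top_of_surjective _ hsurj]
    · left
      have h1 : L ≤ pPrimeCore p (commutator G) :=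
        H1.le_pPrimeCore ((Nat.Prime.coprime_iff_not_dvd hp).mpr hd).symm
      have h2 := H1.map_pPrimeCore_le_of_normal (p := p) (commutator G)
      rw [eq_bot_iff]
      intro m hm
      obtain ⟨y, rfl⟩ := hsurj m
      have : (y : G) ∈ pPrimeCore p G := h2 ⟨y, h1 hm, rfl⟩
      rw [Subgroup.mem_bot]
      exact (QuotientGroup.eq_one_iff y).mpr this
  · intro htp
    have he : (Subgroup.zpowers x).relIndex (Subgroup.normalizer (Subgroup.zpowers x : Set G)) = 1 := by
      rw [htp] at hmul
      have : 0 < p - 1 := by have := hp.two_le; omega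
      exact Nat.eq_of_mul_eq_mul_left this (by rw [hmul, mul_one])
    have h := (H8.SelfCent.index_commutator_of_relIndex_eq_one hp hx hC he).2
    exact le_antisymm (H1.le_pPrimeCore ((Nat.Prime.coprime_iff_not_dvd hp).mpr h).symm) hle

end Cfsg.Agent.S4497
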