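import Cfsg.Statements.S4498
import Cfsg.Agent.H7.Misc2

set_option autoImplicit false
open Cfsg

namespace Cfsg.Agent.S4498

open H5 H7

/-- Let p and q be distinct primes dividing the order of the finite group G, and suppose G has no element of order p·q. Fix maximal ideals M_p over p and M_q over q of the algebraic integers. Then the principal p-block and the principal q-block of G have a non-principal irreducible character in common. -/
theorem result {G : Type*} [Group G] [Finite G] (p q : ℕ) [Fact p.Prime] [Fact q.Prime] (hpq : p ≠ q) (hp : p ∣ Nat.card G) (hq : q ∣ Nat.card G) (hno : ∀ g : G, orderOf g ≠ p * q) (Mp Mq : Ideal Cfsg.AlgInt) (hMp : Cfsg.IsPModular p Mp) (hMq : Cfsg.IsPModular q Mq) : ∃ χ : Cfsg.IrrCharacter G, (χ : G → ℂ) ≠ (fun _ => 1) ∧ χ ∈ Cfsg.principalBlock Mp G ∧ χ ∈ Cfsg.principalBlock Mq G := by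
  haveI : PM p Mp := ⟨hMp⟩
  haveI : PM q Mq := ⟨hMq⟩
  have hp' : p.Prime := Fact.out
  have hq' : q.Prime := Fact.out
  have h0 : ∀ g : G, p ∣ orderOf g → ¬ q ∣ orderOf g := fun g h1 h2 =>
    hno _ (orderOf_pow_orderOf_div (orderOf_pos g).ne'
      (((Nat.coprime_primes hp' hq').2 hpq).mul_dvd_of_dvd_of_dvd h1 h2))
  obtain ⟨y, hy⟩ := exists_prime_orderOf_dvd_card' p hp
  obtain ⟨u, hu⟩ := exists_prime_orderOf_dvd_card' q hq
  have h1 := mu_inter_eq_zero (isSat_of_isPBlock (isPBlock_principalBlock (M := Mp)))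
    (isSat_of_isPBlock (isPBlock_principalBlock (M := Mq))) h0 hu.symm.dvd hy.symm.dvd
  by_contra h
  have h2 : principalBlock Mp G ∩ principalBlock Mq G = {irrOne G} :=
    Set.eq_singleton_iff_unique_mem.2 ⟨⟨irrOne_mem_principalBlock, irrOne_mem_principalBlock⟩,
      fun χ hχ => Subtype.ext (by_contra fun e => h ⟨χ, e, hχ⟩)⟩
  rw [h2, mu_singleton] at h1
  simp at h1

end Cfsg.Agent.S4498
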