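import Cfsg.Statements.S4500
import Cfsg.Agent.S4710
import Cfsg.Agent.H10.BT2

set_option autoImplicit false
open Cfsg

namespace Cfsg.Agent.S4500

open H5 H7 H10 Subgroup

theorem aux {G : Type*} [Group G] [Finite G] [Nontrivial G] (p q r a b c : ℕ) (hp : p.Prime)
    (hq : q.Prime) (hr : r.Prime) (hpq : p ≠ q) (hpr : p ≠ r) (ha : a ≤ 2)
    (hG : Nat.card G = p ^ a * q ^ b * r ^ c) : ∃ χ : IrrCharacter G, (χ : G → ℂ) ≠ (fun _ => 1) ∧
      ∃ k : ℕ, charDegree (χ : G → ℂ) = q ^ k := by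
  classical
  rcases Nat.eq_zero_or_pos a with rfl | ha0
  · have h1 : Group.IsSolvable G := burnside_paqb hq hr (by simpa using hG)
    obtain ⟨g, hg⟩ : ∃ g, g ∉ commutator G := by
      by_contra! h
      exact (Group.IsSolvable.commutator_lt_top_of_nontrivial G).ne (eq_top_iff.2 fun g _ => h g)
    obtain ⟨χ, h2, h3, h4⟩ := exists_irr_le_charKer_not_mem _ hg
    refine ⟨⟨χ, h2⟩, fun e => h4 (by rw [show χ = _ from e, charKer_one]; trivial), 0, ?_⟩
    exact charDegree_eq (by simpa using h2.commutator_le_charKer_iff.1 h3)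
  have := Fact.mk hp
  obtain ⟨M, hM⟩ := exists_isPModular p
  obtain ⟨M', hM'⟩ := exists_isPModular r (hp := ⟨hr⟩)
  haveI : PM p M := ⟨hM⟩
  obtain ⟨x, hx⟩ := exists_prime_orderOf_dvd_card' (G := G) p
    (hG ▸ ((dvd_pow_self p ha0.ne').mul_right _).mul_right _)
  have h1 := mu_eq_zero_of_dvd (isSat_of_isPBlock (isPBlock_principalBlock (M := M) (G := G)))
    (not_dvd_orderOf_one (p := p)) hx.symm.dvd
  have h2 : (Nat.card G).factorization p = a := by
    rw [hG, mul_assoc, Nat.factorization_mul (by simp [hp.ne_zero])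
      (by simp [hq.ne_zero, hr.ne_zero]), Finsupp.add_apply, hp.factorization_pow,
      Nat.factorization_eq_zero_of_not_dvd]
    · simp
    intro h
    rcases hp.dvd_mul.1 h with h | h
    · exact hpq ((Nat.prime_dvd_prime_iff_eq hp hq).1 (hp.dvd_of_dvd_pow h))
    · exact hpr ((Nat.prime_dvd_prime_iff_eq hp hr).1 (hp.dvd_of_dvd_pow h))
  have := Fact.mk hr
  haveI : PM r M' := ⟨hM'⟩
  rw [mu_eq, ← Finset.add_sum_erase _ _ (Finset.mem_univ (irrOne G)),
    if_pos irrOne_mem_principalBlock, add_eq_zero_iff_eq_neg] at h1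
  by_contra! h
  refine one_notMem_mC (M := M') ?_
  simp only [irrOne_apply, map_one, mul_one] at h1
  rw [h1]
  refine neg_mem (sum_mem fun χ hχ => ?_)
  split_ifs with h3
  swap
  · exact zero_mem _
  refine mul_mem_mC_right ?_ (conj_char_mem_O χ.2.isCharacter _)
  rw [← χ.2.coe_charDegree, natCast_mem_mC_iff (p := r)]
  by_contra h4
  have h5 := factorization_add_defect (p := p) (M := M) h3
  have h6 := ((S4710.result p M hM _ isPBlock_principalBlock _ rfl).2 χ h3)
  rw [blockDefect_principal, h2] at h5 h6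
  have h7 : ¬ p ∣ charDegree (χ : G → ℂ) := fun h => by
    have := (hp.dvd_iff_one_le_factorization (charDegree_ne_zero χ.2)).1 h
    omega
  have h8 := χ.2.charDegree_dvd_card
  rw [hG] at h8
  obtain ⟨k, -, hk⟩ := (Nat.dvd_prime_pow hq).1 (Nat.Coprime.dvd_of_dvd_mul_left
    (Nat.Coprime.pow_right a ((hp.coprime_iff_not_dvd).2 h7).symm)
    (Nat.Coprime.dvd_of_dvd_mul_right
      (Nat.Coprime.pow_right c ((hr.coprime_iff_not_dvd).2 h4).symm) h8))
  exact h χ (fun e => (Finset.mem_erase.1 hχ).1 (Subtype.ext e)) k hk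

/-- Let G be a non-trivial finite group of order p^a · q^b · r^c with p, q, r distinct primes and a ≤ 2. Then G has a non-principal irreducible character whose degree is a power of q, and a non-principal irreducible character whose degree is a power of r; the power may be the zeroth, so a non-principal linear character serves for both. -/
theorem result {G : Type*} [Group G] [Finite G] [Nontrivial G] (p q r a b c : ℕ) (hp : p.Prime) (hq : q.Prime) (hr : r.Prime) (hpq : p ≠ q) (hpr : p ≠ r) (hqr : q ≠ r) (ha : a ≤ 2) (hG : Nat.card G = p ^ a * q ^ b * r ^ c) : (∃ χ : Cfsg.IrrCharacter G, (χ : G → ℂ) ≠ (fun _ => 1) ∧ ∃ k : ℕ, Cfsg.charDegree (χ : G → ℂ) = q ^ k) ∧ ∃ χ : Cfsg.IrrCharacter G, (χ : G → ℂ) ≠ (fun _ => 1) ∧ ∃ k : ℕ, Cfsg.charDegree (χ : G → ℂ) = r ^ k := by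
  exact ⟨aux p q r a b c hp hq hr hpq hpr ha hG,
    aux p r q a c b hp hr hq hpr hpq ha (by rw [hG]; ring)⟩

end Cfsg.Agent.S4500
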