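import Cfsg.Statements.S4501
import Cfsg.Agent.H10.GW2
import Cfsg.Agent.H10.E3
import Cfsg.Agent.S0499
import Cfsg.Agent.S0205
import Cfsg.Agent.S0253
import Cfsg.Agent.S0495

set_option autoImplicit false
open Cfsg

namespace Cfsg.Agent.S4501

open H5 H10 Subgroup Matrix
open scoped MatrixGroups

theorem aux {G : Type*} [Group G] [Finite G] [IsSimpleGroup G] (hG : ¬ IsMulCommutative G) {p b : ℕ}
    (hp : p.Prime) (hp2 : p ≠ 2) (hp3 : p ≠ 3) : Nat.card G ≠ 3 * (p ^ 2 * 2 ^ b) := fun h => by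
  classical
  haveI : Fact (Nat.Prime 3) := ⟨Nat.prime_three⟩
  haveI := Fact.mk hp
  have := Fintype.ofFinite G
  have hG' := commutator_eq_top_of_simple hG
  have c3 : ∀ k, ¬ 3 ∣ p ^ k := fun k e =>
    hp3 ((Nat.prime_dvd_prime_iff_eq Nat.prime_three hp).1 (Nat.prime_three.dvd_of_dvd_pow e)).symm
  have h1 : ¬ 3 ∣ p ^ 2 * 2 ^ b := fun e => (Nat.prime_three.dvd_mul.1 e).elim (c3 2) fun e =>
    absurd (Nat.prime_three.dvd_of_dvd_pow e) (by decide)
  obtain ⟨P⟩ : Nonempty (Sylow 3 G) := inferInstance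
  have hP := card_sylow_eq_prime h h1 P
  obtain ⟨e, t, he, ⟨D⟩⟩ := exists_PB_of_perfect hG' P hP
  obtain ⟨rfl, rfl⟩ : e = 2 ∧ t = 1 := by
    have h2 := D.te
    rcases (Nat.dvd_prime Nat.prime_two).1 (⟨t, by linarith⟩ : e ∣ 2) with h | rfl <;> omega
  obtain ⟨χ, h2, h3, hsum⟩ := D.exists_pair
  obtain ⟨θ, hθ⟩ := Finset.card_eq_one.1 D.cardY
  have hθ' : θ ∈ D.Y := hθ ▸ Finset.mem_singleton_self θ
  have h4 := D.deg_eq
  rw [hsum, D.δ_one, H7.charDegree_eq (n := 1) (by simp)] at h4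
  have h5 := two_le_deg hG' h2
  have h6 := D.degY θ hθ' ▸ two_le_deg hG' (D.ne_one_of_mem_Y hθ')
  have h7 : 𝐂[(P : Subgroup G)].index ∣ p ^ 2 * 2 ^ b := by
    rw [← sylow_index_of (a := 1) (by simpa using h) h1 P]
    exact index_dvd_of_le (comm_of_card_prime hP)
  have key : ∀ u w : ℕ, 2 ≤ u → u ∣ p ^ 2 * 2 ^ b → w ∣ p ^ 2 * 2 ^ b → Odd u →
      w = u + 1 ∨ u = w + 1 → u = p := fun u w e1 e2 e3 e4 e5 => by
    obtain ⟨k, hk, rfl⟩ := (Nat.dvd_prime_pow hp).1 (Nat.Coprime.dvd_of_dvd_mul_right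
      (Nat.Coprime.pow_right b (Nat.coprime_two_right.2 e4)) e2)
    interval_cases k
    · simp at e1
    · simp
    obtain ⟨j, -, rfl⟩ := (Nat.dvd_prime_pow Nat.prime_two).1 (Nat.Coprime.dvd_of_dvd_mul_left
      (by rcases e5 with rfl | e5; exacts [by rw [Nat.coprime_self_add_left]; simp, by simp [e5]]) e3)
    have e6 : p ^ 2 % 3 = 1 := by
      have := c3 1
      rw [pow_one] at this
      rcases (by omega : p % 3 = 1 ∨ p % 3 = 2) with e | e <;> simp [Nat.pow_mod, e]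
    obtain ⟨k, rfl⟩ := hp.odd_of_ne_two hp2
    rcases e5 with e5 | e5
    · rcases j with _ | _ | j
      · omega
      · omega
      · rw [show (2 * k + 1) ^ 2 = 4 * (k ^ 2 + k) + 1 by ring, pow_succ, pow_succ] at e5; omega
    · exact absurd (Nat.prime_three.dvd_of_dvd_pow (by omega : 3 ∣ 2 ^ j)) (by decide)
  have h8 : (charDegree (χ : G → ℂ) = p ∨ D.f = p) ∧ D.ε = D.δ χ := by
    have e1 := (D.dvdX h3).trans h7
    have e2 := D.dvdY.trans h7
    rcases D.δ_sign χ h3 with a | a <;> rcases D.ε_sign with b | b <;> rw [a, b] at h4 ⊢ <;>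
      first | omega | refine ⟨?_, rfl⟩
    all_goals rcases Nat.even_or_odd (charDegree (χ : G → ℂ)) with c | c
    all_goals first | exact .inl (key _ _ h5 e1 e2 c (by omega)) | exact .inr (key _ _ h6 e2 e1 (by
      rw [Nat.odd_iff]; rw [Nat.even_iff] at c; omega) (by omega))
  by_cases h9 : p ∣ Nat.card 𝐂[(P : Subgroup G)]
  · obtain ⟨⟨y, hy⟩, hy1⟩ := exists_prime_orderOf_dvd_card' p h9
    replace hy1 : orderOf y = p := (orderOf_coe _).trans hy1
    obtain ⟨ψ, e1, e2, e3, s, e4, e5⟩ : ∃ ψ : IrrCharacter G, (ψ ∈ D.X ∨ ψ ∈ D.Y) ∧ ψ ≠ irrOne G ∧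
        charDegree (ψ : G → ℂ) = p ∧ ∃ s : ℤ, (s = 1 ∨ s = -1) ∧
          ∀ x ∈ (P : Subgroup G), x ≠ 1 → (ψ : G → ℂ) x = s := by
      rcases h8.1 with e | e
      · exact ⟨χ, .inl h3, h2, e, _, D.δ_sign χ h3, D.valX χ h3⟩
      · exact ⟨θ, .inr hθ', D.ne_one_of_mem_Y hθ', (D.degY θ hθ').trans e, -D.ε,
          by rcases D.ε_sign with h | h <;> simp [h], fun x hx hx1 => by
            simpa [hθ] using D.sumY hx hx1⟩
    obtain ⟨R, hR⟩ := (IsPGroup.of_card (n := 1) (by rw [Nat.card_zpowers, hy1, pow_one]) :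
      IsPGroup p (zpowers y)).exists_le_sylow
    have e6 : Nat.card (R : Subgroup G) = p ^ 2 := sylow_card_of (m := 3 * 2 ^ b) (by rw [h]; ring)
      (fun e => (hp.dvd_mul.1 e).elim (fun e => hp3 ((Nat.prime_dvd_prime_iff_eq hp
        Nat.prime_three).1 e)) fun e => hp2 ((Nat.prime_dvd_prime_iff_eq hp Nat.prime_two).1
          (hp.dvd_of_dvd_pow e))) R
    obtain e7 | e7 := ψ.2.eq_zero_or_mem_charCenter_of_coprime (g := y) (e3 ▸
      hp.coprime_iff_not_dvd.2 fun e => R.not_dvd_index (e.trans (index_dvd_of_le (le_C_of_comm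
        (IsPGroup.isMulCommutative_of_card_eq_prime_sq e6) (hR (mem_zpowers y))))))
    · have e8 := card_mul_avg (P : Subgroup G) (ψ : G → ℂ) y
      rw [sum_eq_of_const _ (fun k => (ψ : G → ℂ) (k * y)) s fun x hx hx1 =>
        (D.val_mul e1 hx hx1 hy (by rw [hy1]; simpa using c3 1)).trans (e5 x hx hx1), one_mul, e7,
        hP] at e8
      have e9 := (isCharacter_avg_restrict _ _ le_rfl ψ.2.isCharacter).isIntegral
        ⟨y, centralizer_le_normalizer _ hy⟩
      rw [show avg P (ψ : G → ℂ) (⟨y, centralizer_le_normalizer _ hy⟩ : 𝐍[(P : Subgroup G)]) =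
        ((2 * s : ℤ) : ℂ) / (3 : ℤ) by push_cast at e8 ⊢; linear_combination e8 / 3] at e9
      have := int_dvd_of_isIntegral_div (by norm_num) e9
      omega
    · rw [ψ.2.charCenter_eq_center (ψ.2.charKer_eq_bot_of_isSimpleGroup fun e =>
        e2 (Subtype.ext e))] at e7
      exact C_ne_top hG (x := y) (by rintro rfl; exact hp.one_lt.ne (by simpa using hy1))
        (eq_top_iff.2 fun g _ => mem_C.2 (mem_center_iff.1 e7 g))
  obtain ⟨S, s1, η, s2, s3, s4, s5, s6⟩ := D.bt_simple hG hp h9 (b := 2) ⟨3 * 2 ^ b, by rw [h]; ring⟩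
  have s7 : ∑ ζ ∈ S, D.δ ζ * charDegree (ζ : G → ℂ) =
      1 + if χ ∈ S then D.δ χ * charDegree (χ : G → ℂ) else 0 := by
    rw [← Finset.inter_eq_right.2 s1, ← Finset.sum_ite_mem, hsum, if_pos s3, D.δ_one,
      H7.charDegree_eq (n := 1) (by simp)]
    simp [h3]
  have s8 : ∀ z : ℤ, (p : ℤ) ^ 2 ∣ z → z.natAbs ≠ 1 ∧ z.natAbs ≠ p := fun z hz => by
    have := Int.natAbs_dvd_natAbs.2 hz
    rw [Int.natAbs_pow, Int.natAbs_natCast] at this
    constructor <;> intro e <;> rw [e] at this <;> have := Nat.le_of_dvd (by omega) this <;>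
      nlinarith [hp.two_le]
  have s9 := s8 _ (s7 ▸ s6)
  rcases h8.1 with e | e
  · rw [if_neg fun a => s4 χ a h2 1 (by simpa using e)] at s9
    rcases s2 with rfl | rfl <;> rcases D.δ_sign χ h3 with a | a <;> rw [a] at h4 <;> omega
  · obtain rfl := s2.resolve_right fun a => s5 a 1 (by simpa using e)
    split_ifs at s9 <;> rcases D.ε_sign with a | a <;> rw [a] at h4 <;> omega

/-- Let G be a non-abelian finite simple group and p, q distinct primes. If the order of G is 4·p^a·q^b with a ≤ 2, then G is isomorphic to the alternating group of degree 5. If the order of G is 3·p^a·q^b with a ≤ 2, then G is isomorphic to the alternating group of degree 5 or to PSL(2,7). -/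
theorem result {G : Type*} [Group G] [Finite G] [IsSimpleGroup G] (hna : ∃ x y : G, x * y ≠ y * x) (p q a b : ℕ) (hp : p.Prime) (hq : q.Prime) (hpq : p ≠ q) (ha : a ≤ 2) : (Nat.card G = 4 * p ^ a * q ^ b → Nonempty (G ≃* alternatingGroup (Fin 5))) ∧ (Nat.card G = 3 * p ^ a * q ^ b → Nonempty (G ≃* alternatingGroup (Fin 5)) ∨ Nonempty (G ≃* Matrix.ProjectiveSpecialLinearGroup (Fin 2) (ZMod 7))) := by
  have hG : ¬ IsMulCommutative G := fun h => let ⟨x, y, e⟩ := hna; e (h.1.comm x y)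
  refine ⟨fun h => equiv_A5_of_simple (a5_of_four_mul hG hp hq h), fun h => ?_⟩
  have h1 : p ≠ 3 := by
    rintro rfl
    exact not_dvd_two_primes hG hp hq (a := a + 1) (b := b) (by rw [h]; apply dvd_of_eq; ring)
  have h2 : q ≠ 3 := by
    rintro rfl
    exact not_dvd_two_primes hG hp hq (a := a) (b := b + 1) (by rw [h]; apply dvd_of_eq; ring)
  have h3 : 4 ∣ Nat.card G := by
    have := S0499.result hG (Nat.not_odd_iff_even.1 fun h =>
      hG ⟨⟨IsSimpleGroup.comm_iff_isSolvable.2 (S0205.result h)⟩⟩)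
    omega
  by_cases h4 : q = 2
  swap
  · have h5 := Nat.odd_iff.1 ((hq.odd_of_ne_two h4).pow (n := b))
    obtain rfl : p = 2 := by
      by_contra h6
      have := Nat.odd_iff.1 (((by decide : Odd 3).mul (hp.odd_of_ne_two h6).pow).mul
        (hq.odd_of_ne_two h4).pow : Odd (3 * p ^ a * q ^ b))
      omega
    refine .inl (equiv_A5_of_simple (a5_of_four_mul hG Nat.prime_three hq (a := 1) (b := b) ?_))
    interval_cases a <;> omega
  subst h4
  have key : ∀ u j, Odd u → u ∣ 2 ^ j * 3 → u = 1 ∨ u = 3 := fun u j h1 h2 =>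
    (Nat.dvd_prime Nat.prime_three).1 (Nat.Coprime.dvd_of_dvd_mul_left
      (Nat.Coprime.pow_right j (Nat.coprime_two_right.2 h1)) h2)
  haveI := Fact.mk hp
  interval_cases a
  · exact (not_dvd_two_primes hG Nat.prime_three hq (a := 1) (b := b) (by simp [h])).elim
  · have h5 := hp.five_le_of_ne_two_of_ne_three hpq h1
    obtain ⟨⟨-, ⟨⟨e⟩⟩ | ⟨m, F, _, _, h6, h7, ⟨e⟩, -⟩⟩, -⟩ := bt_main hG (p := p) (b := b) (g₀ := 3)
      hq hpq (by rw [h]; ring) (by omega) (by decide)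
    · have h6 := card_of_PSL2 (by simpa using hp.odd_of_ne_two hpq) e
      rw [ZMod.card, h, mul_assoc p] at h6
      have h7 : (p - 1) * (p + 1) = 2 ^ (b + 1) * 3 :=
        Nat.eq_of_mul_eq_mul_left hp.pos (by rw [← h6]; ring)
      obtain ⟨k, rfl⟩ := hp.odd_of_ne_two hpq
      rw [Nat.add_sub_cancel] at h7
      obtain rfl | rfl : k = 2 ∨ k = 3 := by
        rcases Nat.even_or_odd k with c | c
        · have := key (k + 1) (b + 1) c.add_one ⟨4 * k, by rw [← h7]; ring⟩; omega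
        · have := key k (b + 1) c ⟨4 * (k + 1), by rw [← h7]; ring⟩; omega
      · exact .inl (equiv_A5_of_simple (by omega))
      · exact .inr ⟨e⟩
    · have h8 := card_PSL2 (F := F)
      have h9 : Odd (2 ^ m - 1) := Nat.Even.sub_odd (by omega)
        (Nat.even_pow.2 ⟨even_two, by rintro rfl; omega⟩) odd_one
      rw [← Nat.card_congr e.toEquiv, h6, Nat.coprime_two_left.2 h9, ← h7, one_mul] at h8
      have := key _ b h9 ⟨2 ^ m, Nat.eq_of_mul_eq_mul_left hp.pos (by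
        rw [h] at h8; linarith)⟩
      rw [show 2 ^ m = 4 by omega, show p = 5 by omega] at h8
      exact .inl (equiv_A5_of_simple h8)
  · exact (aux hG hp hpq h1 (b := b) (by rw [h]; ring)).elim

end Cfsg.Agent.S4501
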