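import Cfsg.Statements.S4502
import Cfsg.Agent.H7.Cyc

set_option autoImplicit false
open Cfsg

namespace Cfsg.Agent.S4502

open H5 H7 H8 Cfsg
variable {G H : Type*} [Group G] [Finite G] [Group H] [Finite H] {p : ℕ} [hp : Fact p.Prime] {M : Ideal AlgInt}
  [PM p M] {B : Set (IrrCharacter G)} {D : Subgroup G}

theorem card_blk (hD : IsDefectGroup p M B D) (hc : Nat.card D = p) {f : Set (IrrCharacter (cC D))}
    (hf : IndB M (cC D).subtype f B) {e : ℕ} (he : (cC D).relIndex (nN D ⊓ St (io M (cC D) f)) = e) :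
    Nat.card B = e + (p - 1) / e := by
  have := Fintype.ofFinite G
  have := Fintype.ofFinite D
  obtain ⟨_, ψ, h, -⟩ := exists_cs_prime hD hc hf
  have eE := he.symm.trans h.relIndex
  obtain ⟨ζ, δ, α, x, -, h2⟩ := h.exists_exc
  have h3 := (x.card h.fam).trans hc
  rw [← eE] at h2 h3
  rw [← x.card_add, h2, ← Nat.eq_sub_of_add_eq h3, Nat.mul_div_cancel _ (eE ▸ Nat.card_pos)]

theorem card_corr {φ : H →* G} (L : LocSet p φ D) (hN : nN D ≤ φ.range) (hc : Nat.card D = p)
    {b : Set (IrrCharacter H)} (h : IndB M φ b B) (hb : IsDefectGroup p M b (D.comap φ)) :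
    Nat.card B = Nat.card b := by
  have hc' := L.card_comap.trans hc
  haveI := isCyclic_of_prime_card hc'
  have h1 : (cC (D.comap φ)).map φ = cC D := le_antisymm (by
    rintro _ ⟨x, hx, rfl⟩; exact L.mem_centralizer_iff.2 hx) fun y hy => by
      obtain ⟨x, rfl⟩ := L.cent hy
      exact ⟨x, L.mem_centralizer_iff.1 hy, rfl⟩
  let α := ((cC (D.comap φ)).equivMapOfInjective φ L.inj).trans (MulEquiv.subgroupCongr h1)
  obtain ⟨f, hf, -⟩ := first_main_exists (locSet_subtype (K := cC (D.comap φ)) L.pgrp' (fun x hx y hy => congrArg Subtype.val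
    (IsCyclic.commGroup.mul_comm (⟨y, hy⟩ : D.comap φ) ⟨x, hx⟩)) le_rfl (cC_le_nN _)) h.1 hb
  have h2 : (φ.comp (cC (D.comap φ)).subtype).comp α.symm.toMonoidHom = (cC D).subtype :=
    MonoidHom.ext fun x => congrArg Subtype.val (α.apply_symm_apply x)
  have h3 := (indB_ieq α.symm hf.1).trans (hf.trans h)
  rw [h2] at h3
  rw [card_blk (first_main_defect L hN h hb) hc h3 rfl, card_blk hb hc' hf rfl]
  suffices e : (cC D).relIndex (nN D ⊓ St (io M (cC D) {ξ | ieq α.symm.symm ξ ∈ f})) =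
    (cC (D.comap φ)).relIndex (nN (D.comap φ) ⊓ St (io M _ f)) by rw [e]
  haveI := L.normal
  rw [← Subgroup.relIndex_map_map_of_injective _ _ L.inj, map_inf_St L.inj, h1,
    show nN (D.comap φ) = ⊤ from Subgroup.normalizer_eq_top _, ← MonoidHom.range_eq_map, le_antisymm L.norm hN, io, io,
    show fB M {ξ | ieq α.symm.symm ξ ∈ f} = mp α.toMonoidHom (fB M f) from
      (mapDomain_fB (π := α.toMonoidHom) α.surjective (isSat_of_isPBlock hf.1)).symm, mp_mp, mp_mp]
  rfl

/-- Let G be a finite group whose order is divisible by the prime p exactly once, and let P be a Sylow p-subgroup. Then the number of irreducible characters of G of degree not divisible by p equals the number of conjugacy classes of the normalizer of P. -/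
theorem result {G : Type*} [Group G] [Finite G] (p : ℕ) [Fact p.Prime] (hdiv : p ∣ Nat.card G) (hsq : ¬ p ^ 2 ∣ Nat.card G) (P : Sylow p G) : Nat.card {χ : Cfsg.IrrCharacter G // ¬ p ∣ Cfsg.charDegree (χ : G → ℂ)} = Nat.card (ConjClasses (Subgroup.normalizer ((P : Subgroup G) : Set G))) := by
  obtain ⟨M, hM⟩ := exists_isPModular p
  haveI : PM p M := ⟨hM⟩
  have h1 : (Nat.card G).factorization p = 1 := le_antisymm (by_contra fun e =>
    hsq ((Nat.Prime.pow_dvd_iff_le_factorization Fact.out Nat.card_pos.ne').2 (by omega)))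
    (Nat.Prime.factorization_pos_of_dvd Fact.out Nat.card_pos.ne' hdiv)
  have hc : Nat.card P = p := by rw [P.card_eq_multiplicity, h1, pow_one]
  have L := locSet_normalizer P.isPGroup'
  have hN := (Subgroup.range_subtype (nN (P : Subgroup G))).ge
  have hd : ∀ {b}, IsPBlock M b → IsDefectGroup p M b ((P : Subgroup G).comap (nN (P : Subgroup G)).subtype) :=
    fun hb => by
      obtain ⟨D, hD⟩ := exists_isDefectGroup p hb
      haveI := L.normal
      have e := IsDefectGroup.le_of_normal hb hD L.pgrp'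
      rwa [(P.subtype Subgroup.le_normalizer).is_maximal' (IsDefectGroup.isPGroup hD) e] at hD
  choose ind hi using fun ψ : IrrCharacter (nN (P : Subgroup G)) => L.exists_indB (isPBlock_blockOf (M := M) ψ)
  rw [← card_irr_eq_card_conjClasses]
  refine Nat.card_congr (Equiv.ofFiberEquiv (f := fun χ => blockOf M χ.1.1) (g := ind) fun B =>
    (Finite.card_eq.1 ?_).some)
  by_cases e : ∃ b, IndB M (nN (P : Subgroup G)).subtype b B
  · obtain ⟨b, hb⟩ := e
    have h2 := (isDefectGroup_sylow_iff hb.2.1 P).1 (first_main_defect L hN hb (hd hb.1))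
    refine (Nat.card_congr ((Equiv.subtypeSubtypeEquivSubtypeInter (fun χ : IrrCharacter G => ¬ p ∣ charDegree χ.1)
      (fun χ => blockOf M χ.1 = B)).trans (Equiv.subtypeEquivRight (q := (· ∈ B)) fun χ =>
        ⟨fun h => h.2 ▸ mem_blockOf_self χ, fun h => ⟨fun e => ?_, (eq_blockOf_of_mem hb.2.1 h).symm⟩⟩))).trans
      ((card_corr L hN hc hb (hd hb.1)).trans (Nat.card_congr (Equiv.subtypeEquivRight (p := (· ∈ b))
        fun ψ => ⟨fun h => ?_, fun h => ?_⟩)))
    · have h3 := (blockDefect_eq_zero_iff (p := p) hb.2.1 h).2 (le_antisymm (Nat.factorization_le_factorization_of_dvd_right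
        χ.2.charDegree_dvd_card χ.2.charDegree_pos.ne' Nat.card_pos.ne') (h1 ▸ Nat.Prime.factorization_pos_of_dvd
          Fact.out χ.2.charDegree_pos.ne' e))
      omega
    · exact (hi ψ).unique (eq_blockOf_of_mem hb.1 h ▸ hb)
    · exact first_main_unique L hN (h ▸ hi ψ) hb (hd (isPBlock_blockOf ψ)) ▸ mem_blockOf_self ψ
  refine (Nat.card_eq_zero.2 (Or.inl ⟨fun ⟨χ, h⟩ => e ?_⟩)).trans
    (Nat.card_eq_zero.2 (Or.inl ⟨fun ⟨ψ, h⟩ => e ⟨_, h ▸ hi ψ⟩⟩)).symm
  have hB := isPBlock_blockOf (M := M) χ.1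
  obtain ⟨b, hb, -⟩ := first_main_exists L hB ((isDefectGroup_sylow_iff hB P).2
    (blockDefect_eq_of_not_dvd (M := M) (mem_blockOf_self χ.1) χ.2).ge)
  exact ⟨b, h ▸ hb⟩

end Cfsg.Agent.S4502
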