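import Cfsg.Statements.S4505
import Cfsg.Agent.H7.Misc

set_option autoImplicit false
open Cfsg

namespace Cfsg.Agent.S4505

open H5 H7

/-- Let G be a finite group, p a prime and M a maximal ideal of the algebraic integers containing p. For every σ, the number of p-blocks of defect exactly σ is at most the number of conjugacy classes of p-regular elements whose centralizer has order divisible by p^σ but not by p^(σ+1). -/
theorem result {G : Type*} [Group G] [Finite G] (p : ℕ) [Fact p.Prime] (M : Ideal Cfsg.AlgInt) (hM : Cfsg.IsPModular p M) (σ : ℕ) : Nat.card {B : Set (Cfsg.IrrCharacter G) // Cfsg.IsPBlock M B ∧ Cfsg.blockDefect p B = σ} ≤ Nat.card {C : ConjClasses G // ∃ g : G, ConjClasses.mk g = C ∧ ¬ p ∣ orderOf g ∧ (Nat.card (Subgroup.centralizer ({g} : Set G))).factorization p = σ} := by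
  haveI : PM p M := ⟨hM⟩
  have := Fintype.ofFinite {B : Set (IrrCharacter G) // IsPBlock M B ∧ blockDefect p B = σ}
  refine card_le_of_indep (fun B C => (fB M B.1).coeff (rep C.1)) fun c hc B => ?_
  obtain ⟨χ, hχ⟩ := block_nonempty B.2.1
  have hz : ∑ B, c B • fB M B.1 ∈ Z (F M) G := sum_mem fun B _ => Subalgebra.smul_mem _ (fB_mem_Z _) _
  have h1 : lam M (χ : G → ℂ) (∑ B, c B • fB M B.1) = c B := by
    rw [map_sum, Finset.sum_eq_single B (fun B' _ h => ?_) (by simp), map_smul,
      lam_fB_of_mem B.2.1 hχ, smul_eq_mul, mul_one]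
    rw [map_smul, lam_fB_of_notMem B'.2.1 fun h' => h (Subtype.ext
      (block_eq_of_mem B'.2.1 B.2.1 h' hχ)), smul_zero]
  by_contra h0
  obtain ⟨g, h2, h3⟩ := exists_of_lam_ne_zero χ.2.isClassFunction hz (h1 ▸ h0)
  have h2' := h2
  rw [coeff_sum'] at h2'
  obtain ⟨B', -, h4⟩ := Finset.exists_ne_zero_of_sum_ne_zero h2'
  rw [coeff_smul'] at h4
  have h6 := right_ne_zero_of_mul h4
  have h5 := hc ⟨_, g, rfl, not_dvd_of_fB_ne_zero (isSat_of_isPBlock B'.2.1) h6,
    le_antisymm (B'.2.2 ▸ factorization_le_of_coeff B'.2.1 h6) (B.2.2 ▸ defect_le_of_lam B.2.1 hχ h3)⟩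
  rw [coeff_eq_of_isConj hz (isConj_rep g), coeff_sum'] at h2
  exact h2 h5

end Cfsg.Agent.S4505
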