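import Cfsg.Statements.S4506
import Cfsg.Agent.H8.GalAct
import Cfsg.Agent.H7.Second

set_option autoImplicit false
open Cfsg

namespace Cfsg.Agent.S4506

open H5 H7 H8 Cfsg
open scoped ComplexConjugate

attribute [local instance] galAct

/-- Let G be a finite group, p a prime, p^a the p-part of the order of G and g′ its p′-part. Call two irreducible characters p-conjugate when one is obtained from the other by applying a field automorphism of ℂ that fixes the g′-th roots of unity, and let r be the number of characters p-conjugate to the irreducible character χ (χ included). Then the exponent of p in r·χ(1) is at most a; and if p^a divides r·χ(1) then p^a already divides χ(1). -/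
theorem result {G : Type*} [Group G] [Finite G] (p : ℕ) (hp : p.Prime) (χ : Cfsg.IrrCharacter G) (r : ℕ) (hr : Nat.card {ψ : Cfsg.IrrCharacter G // ∃ σ : ℂ ≃+* ℂ, σ (Complex.exp (2 * Real.pi * Complex.I / ((Nat.card G / p ^ (Nat.card G).factorization p) : ℕ))) = Complex.exp (2 * Real.pi * Complex.I / ((Nat.card G / p ^ (Nat.card G).factorization p) : ℕ)) ∧ (ψ : G → ℂ) = fun g => σ ((χ : G → ℂ) g)} = r) : (r * Cfsg.charDegree (χ : G → ℂ)).factorization p ≤ (Nat.card G).factorization p ∧ (p ^ (Nat.card G).factorization p ∣ r * Cfsg.charDegree (χ : G → ℂ) → p ^ (Nat.card G).factorization p ∣ Cfsg.charDegree (χ : G → ℂ)) := by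
  classical
  letI := Fintype.ofFinite G
  haveI := Fact.mk hp
  obtain ⟨M, hM⟩ := exists_isPModular p
  haveI : PM p M := ⟨hM⟩
  have hm0 : Nat.card G ≠ 0 := Nat.card_pos.ne'
  obtain ⟨g', hg'⟩ : ∃ g', g' = Nat.card G / p ^ (Nat.card G).factorization p := ⟨_, rfl⟩
  obtain ⟨a, ha⟩ : ∃ a, a = (Nat.card G).factorization p := ⟨_, rfl⟩
  have hg1 : ¬ p ∣ g' := hg' ▸ Nat.not_dvd_ordCompl hp hm0
  have hg2 : Nat.card G = p ^ a * g' := by
    rw [hg', ha]; exact (Nat.ordProj_mul_ordCompl_eq_self _ _).symm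
  rw [← hg'] at hr
  rw [← ha]
  obtain ⟨e, he⟩ : ∃ e, e = Nat.gcd p (Nat.card G) := ⟨_, rfl⟩
  have he1 : e ∣ p ^ a := by
    refine Nat.Coprime.dvd_of_dvd_mul_right ?_ (hg2 ▸ he ▸ Nat.gcd_dvd_right _ _)
    exact Nat.Coprime.coprime_dvd_left (he ▸ Nat.gcd_dvd_left _ _)
      ((Nat.Prime.coprime_iff_not_dvd hp).2 hg1)
  have hep : e ∣ p := he ▸ Nat.gcd_dvd_left _ _
  have ht : e * g' ∣ Nat.card G := hg2 ▸ Nat.mul_dvd_mul_right he1 _
  have hA : g' ∣ Nat.card G := hg2 ▸ Dvd.intro_left _ rfl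
  have hrad : ∀ q : ℕ, q.Prime → q ∣ Nat.card G → q ∣ e * g' := by
    intro q hq h
    have h' := h
    rw [hg2] at h'
    rcases (Nat.Prime.dvd_mul hq).1 h' with h1 | h1
    · have := (Nat.prime_dvd_prime_iff_eq hq hp).1 (hq.dvd_of_dvd_pow h1)
      subst this
      exact Dvd.dvd.mul_right (he ▸ Nat.dvd_gcd dvd_rfl h) _
    · exact Dvd.dvd.mul_left h1 _
  have hr1 : r = (MulAction.stabilizer (ZMod (Nat.card G))ˣ χ).relIndex (cong hA) := by
    rw [← hr, Nat.card_congr (Equiv.subtypeEquivRight fun ψ => (mem_orbit_cong_iff hA χ ψ).symm)]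
    exact (Nat.card_coe_set_eq _).trans (MulAction.index_stabilizer _ _).symm
  obtain ⟨s, hs⟩ : ∃ s, s = Nat.card (MulAction.orbit (cong ht) χ) := ⟨_, rfl⟩
  have hs1 : s = (MulAction.stabilizer (ZMod (Nat.card G))ˣ χ).relIndex (cong ht) :=
    hs.trans ((Nat.card_coe_set_eq _).trans (MulAction.index_stabilizer _ _).symm)
  have hle : cong ht ≤ cong hA := fun u hu =>
    mem_cong.2 ((mem_cong.1 hu).of_dvd (Dvd.intro_left _ rfl))
  have hcop : e.Coprime g' :=
    Nat.Coprime.coprime_dvd_left hep ((Nat.Prime.coprime_iff_not_dvd hp).2 hg1)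
  have hg0 : g' ≠ 0 := fun h => hg1 (h ▸ dvd_zero p)
  have hrel : (cong ht).relIndex (cong hA) = e.totient := by
    have := Subgroup.relIndex_mul_index hle
    rw [index_cong, index_cong, Nat.totient_mul hcop] at this
    exact Nat.eq_of_mul_eq_mul_right (Nat.totient_pos.2 (Nat.pos_of_ne_zero hg0)) this
  have htot : ¬ p ∣ e.totient := by
    rcases (Nat.dvd_prime hp).1 hep with h | h
    · rw [h, Nat.totient_one]; exact hp.one_lt.ne' ∘ Nat.dvd_one.1
    · rw [h, Nat.totient_prime hp]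
      exact Nat.not_dvd_of_pos_of_lt (by have := hp.one_lt; omega) (by have := hp.one_lt; omega)
  have hdvd : r ∣ s * e.totient := by
    rw [hr1, hs1, ← hrel, ← Subgroup.inf_relIndex_right _ (cong ht),
      Subgroup.relIndex_mul_relIndex _ _ _ inf_le_right hle]
    exact Subgroup.relIndex_dvd_of_le_left _ inf_le_left
  have hs0 : s ≠ 0 := by rw [hs1]; exact Subgroup.index_ne_zero_of_finite
  have hr0 : r ≠ 0 := by rw [hr1]; exact Subgroup.index_ne_zero_of_finite
  have hd0 : charDegree (χ : G → ℂ) ≠ 0 := χ.2.charDegree_pos.ne'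
  have hrs : r.factorization p ≤ s.factorization p := by
    have h0 : e.totient ≠ 0 := fun h => htot (h ▸ dvd_zero p)
    have := (Nat.factorization_le_iff_dvd hr0 (mul_ne_zero hs0 h0)).2 hdvd p
    rwa [Nat.factorization_mul hs0 h0, Finsupp.add_apply,
      Nat.factorization_eq_zero_of_not_dvd htot, add_zero] at this
  letI : Fintype (MulAction.orbit (cong ht) χ) := Fintype.ofFinite _
  have hint := isIntegral_orbit_avg ht hrad χ
  rw [← hs] at hint
  have hsC : (s : ℂ) ≠ 0 := by exact_mod_cast hs0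
  have hdeg : ∀ ψ : MulAction.orbit (cong ht) χ, ψ.1.1 1 = χ.1 1 := by
    rintro ⟨_, u, rfl⟩
    exact galAct_apply_of_mem u.2 χ (one_pow _)
  have hsum : ∀ f : IrrCharacter G → ℂ, ∑ ψ : MulAction.orbit (cong ht) χ, f ψ =
      ∑ ψ : IrrCharacter G, if ψ ∈ MulAction.orbit (cong ht) χ then f ψ else 0 := by
    intro f
    rw [← Finset.sum_filter]
    exact (Finset.sum_subtype _ (by simp) f).symm
  have h1 : s * charDegree (χ : G → ℂ) ∣ Nat.card G := by
    have hcl : IsClassFunction G fun g => conj ((∑ ψ : MulAction.orbit (cong ht) χ, ψ.1.1 g) / s) := by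
      intro g x
      simp only
      congr 2
      exact Finset.sum_congr rfl fun ψ _ => ψ.1.2.isClassFunction g x
    have := χ.2.isIntegral_sum_div hcl fun g => isIntegral_conj (hint g)
    refine dvd_of_isIntegral_div (mul_ne_zero hs0 hd0) ?_
    convert this using 1
    have e1 : ∑ g, conj ((∑ ψ : MulAction.orbit (cong ht) χ, ψ.1.1 g) / s) * χ.1 g =
        (∑ ψ : MulAction.orbit (cong ht) χ, Nat.card G * classInner χ.1 ψ.1.1) / s := by
      simp only [card_mul_classInner]
      rw [Finset.sum_comm, Finset.sum_div]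
      refine Finset.sum_congr rfl fun g _ => ?_
      rw [map_div₀, map_sum, ← Finset.mul_sum, map_natCast]; ring
    rw [e1, hsum fun ψ => Nat.card G * classInner χ.1 ψ.1,
      Finset.sum_eq_single χ (fun ψ _ h => by rw [classInner_irr, if_neg h.symm]; simp) (by simp),
      if_pos (MulAction.mem_orbit_self χ), χ.2.classInner_self, ← χ.2.coe_charDegree]
    push_cast; ring
  have h2 := (Nat.factorization_le_iff_dvd (mul_ne_zero hs0 hd0) hm0).2 h1 p
  rw [Nat.factorization_mul hs0 hd0, Finsupp.add_apply, ← ha] at h2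
  refine ⟨by rw [Nat.factorization_mul hr0 hd0, Finsupp.add_apply]; omega, fun h3 => ?_⟩
  rw [hp.pow_dvd_iff_le_factorization (mul_ne_zero hr0 hd0), Nat.factorization_mul hr0 hd0,
    Finsupp.add_apply] at h3
  rw [hp.pow_dvd_iff_le_factorization hd0]
  have hsat : IsSat M (MulAction.orbit (cong ht) χ) := by
    refine isSat_of_eB_mem_OG fun g => ?_
    rw [coeff_eB, blockCoeff_eq, ← hsum fun ψ => ψ.1 1 * conj (ψ.1 g)]
    have : (Nat.card G : ℂ)⁻¹ * ∑ ψ : MulAction.orbit (cong ht) χ, ψ.1.1 1 * conj (ψ.1.1 g) =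
        ((s * charDegree (χ : G → ℂ) : ℕ) : ℂ) / Nat.card G *
          conj ((∑ ψ : MulAction.orbit (cong ht) χ, ψ.1.1 g) / s) := by
      simp only [hdeg]
      rw [← Finset.mul_sum, map_div₀, map_sum, map_natCast, ← χ.2.coe_charDegree]
      push_cast; field_simp
    rw [this]
    refine mul_mem ((natCast_div_mem_O_iff (mul_ne_zero hs0 hd0) hm0).2 ?_)
      (mem_O_of_isIntegral (isIntegral_conj (hint g)))
    rw [Nat.factorization_mul hs0 hd0, Finsupp.add_apply, ← ha]; omega
  have hB := isPBlock_blockOf (M := M) χ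
  have hχB := mem_blockOf_self (M := M) χ
  by_cases hdef : blockDefect p (blockOf M (χ : G → ℂ)) = 0
  · exact ha ▸ (factorization_eq_of_vanish χ.2 fun g hg =>
      apply_eq_zero_of_defect_zero hB hdef hχB hg).ge
  exfalso
  obtain ⟨D, hD⟩ := exists_isDefectGroup p hB
  have hD0 : D ≠ ⊥ := fun h => hdef ((IsDefectGroup.eq_bot_iff hB hD).1 h)
  obtain ⟨y, hy, hDy⟩ := isDefectGroup_iff.1 hD
  obtain ⟨x, hx, hxc, hxo⟩ := exists_mem_center_of_ne_bot hDy.isPGroup hD0
  have hne := ne_zero_of_red_centralChar (IsDefectClass.red_centralChar_mul_ne_zero hB hy hDy hx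
    hxc hχB)
  have hyo := IsDefectClass.not_dvd (p := p) hB hy
  have hxy : Commute x y := Subgroup.mem_centralizer_singleton_iff.1 (hDy.le hx)
  have hpow : (x * y) ^ (e * g') = 1 := by
    have hxe : x ^ e = 1 := by
      rw [← orderOf_dvd_iff_pow_eq_one, he, hxo]
      exact Nat.dvd_gcd dvd_rfl (hxo ▸ orderOf_dvd_natCard x)
    have hyg : y ^ g' = 1 := by
      rw [← orderOf_dvd_iff_pow_eq_one]
      exact (((Nat.Prime.coprime_iff_not_dvd hp).2 hyo).symm.pow_right a).dvd_of_dvd_mul_left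
        (hg2 ▸ orderOf_dvd_natCard y)
    rw [hxy.mul_pow, pow_mul, hxe, one_pow, mul_comm e, pow_mul, hyg, one_pow, one_mul]
  have hord : p ∣ orderOf (x * y) := by
    rw [hxy.orderOf_mul_eq_mul_orderOf_of_coprime
      (hxo ▸ (Nat.Prime.coprime_iff_not_dvd hp).2 hyo), hxo]
    exact Dvd.intro _ rfl
  have h0 := mu_eq_zero_of_dvd hsat (x := 1) (y := x * y) (by simpa using hp.one_lt.ne') hord
  rw [mu_eq, ← hsum fun ψ => ψ.1 1 * conj (ψ.1 (x * y))] at h0
  have hval : ∀ ψ : MulAction.orbit (cong ht) χ, ψ.1.1 (x * y) = χ.1 (x * y) := by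
    rintro ⟨_, u, rfl⟩
    exact galAct_apply_of_mem u.2 χ hpow
  simp only [hdeg, hval, Finset.sum_const, Finset.card_univ, nsmul_eq_mul,
    ← Nat.card_eq_fintype_card, ← hs, mul_eq_zero, map_eq_zero] at h0
  rcases h0 with h0 | h0 | h0
  · exact hsC h0
  · exact χ.2.apply_one_ne_zero h0
  · exact hne h0

end Cfsg.Agent.S4506
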