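import Cfsg.Statements.S4507
import Cfsg.Agent.H10.GB

set_option autoImplicit false
open Cfsg

namespace Cfsg.Agent.S4507

open H5 H7 H10

/-- Let G be a finite group whose order g is divisible by the prime p exactly once, g′ = g/p, and fix a maximal ideal M of the algebraic integers containing p. Call two irreducible characters p-conjugate when a field automorphism of ℂ fixing the g′-th roots of unity carries one to the other. Let B be a p-block of positive defect (its defect group is a Sylow p-subgroup). Then B contains a subset Y (the exceptional family) such that: Y is a full p-conjugacy class (its members are pairwise p-conjugate and every p-conjugate of a member of Y lies in Y); every member of B outside Y is p-conjugate only to itself; the size t of Y divides p − 1 and B has exactly t + (p − 1)/t members; and there are signs δ_χ = ±1 (χ ∈ B) such that for every p-regular element x and every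 θ ∈ Y, Σ_{χ ∈ B ∖ Y} δ_χ χ(x) + δ_θ θ(x) = 0. -/
theorem result {G : Type*} [Group G] [Finite G] (p : ℕ) [Fact p.Prime] (M : Ideal Cfsg.AlgInt) (hM : Cfsg.IsPModular p M) (hdiv : p ∣ Nat.card G) (hsq : ¬ p ^ 2 ∣ Nat.card G) (B : Set (Cfsg.IrrCharacter G)) (hB : Cfsg.IsPBlock M B) (hd : 0 < Cfsg.blockDefect p B) : ∃ Y : Set (Cfsg.IrrCharacter G), Y ⊆ B ∧ Y.Nonempty ∧ (∀ θ ∈ Y, ∀ ψ : Cfsg.IrrCharacter G, (∃ σ : ℂ ≃+* ℂ, σ (Complex.exp (2 * Real.pi * Complex.I / ((Nat.card G / p ^ (Nat.card G).factorization p) : ℕ))) = Complex.exp (2 * Real.pi * Complex.I / ((Nat.card G / p ^ (Nat.card G).factorization p) : ℕ)) ∧ (ψ : G → ℂ) = fun g => σ ((θ : G → ℂ) g)) ↔ ψ ∈ Y) ∧ (∀ χ ∈ B, χ ∉ Y → ∀ ψ : Cfsg.IrrCharacter G, (∃ σ : ℂ ≃+* ℂ, σ (Complex.exp (2 * Real.pi * Complex.I / ((Nat.card G / p ^ (Nat.card G).factorization p) : ℕ))) = Complex.exp (2 * Real.pi * Complex.I / ((Nat.card G / p ^ (Nat.card G).factorization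 p) : ℕ)) ∧ (ψ : G → ℂ) = fun g => σ ((χ : G → ℂ) g)) → ψ = χ) ∧ Nat.card Y ∣ p - 1 ∧ Nat.card B = Nat.card Y + (p - 1) / Nat.card Y ∧ ∃ δ : Cfsg.IrrCharacter G → ℤ, (∀ χ ∈ B, δ χ = 1 ∨ δ χ = -1) ∧ ∀ x : G, ¬ p ∣ orderOf x → ∀ θ ∈ Y, (∑ᶠ χ ∈ B \ Y, (δ χ : ℂ) * (χ : G → ℂ) x) + (δ θ : ℂ) * (θ : G → ℂ) x = 0 := by
  haveI : PM p M := ⟨hM⟩
  have hp : p.Prime := Fact.out
  have := Fintype.ofFinite G
  obtain ⟨P⟩ : Nonempty (Sylow p G) := inferInstance
  have := Fintype.ofFinite (H8.nN (P : Subgroup G))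
  have hP : Nat.card (P : Subgroup G) = p := by
    rw [P.card_eq_multiplicity, factorization_eq_one_of hp hdiv hsq, pow_one]
  obtain ⟨f, hf⟩ := exists_GB' P hP hB hd
  obtain ⟨D, -⟩ := exists_GB P hP hf
  set m := Nat.card G / p ^ (Nat.card G).factorization p with hm
  have hm0 : m ≠ 0 := (Nat.ordCompl_pos p Nat.card_pos.ne').ne'
  have hmd : m ∣ Nat.card G := Nat.ordCompl_dvd _ _
  have key : ∀ σ : ℂ ≃+* ℂ, σ (Complex.exp (2 * Real.pi * Complex.I / m)) =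
      Complex.exp (2 * Real.pi * Complex.I / m) → ∃ k, k.Coprime (Nat.card G) ∧
      (∀ y : G, ¬ p ∣ orderOf y → y ^ k = y) ∧
      ∀ χ : IrrCharacter G, (fun g => σ ((χ : G → ℂ) g)) = fun g => (χ : G → ℂ) (g ^ k) := by
    intro σ hσ
    obtain ⟨k, h1, h2⟩ := exists_pow_of_ringHom (σ : ℂ →+* ℂ) (Nat.card_pos (α := G))
    refine ⟨k, h1, pow_eq_self_of_modEq ?_, fun χ => funext fun g =>
      χ.2.isCharacter.ringHom_apply (σ : ℂ →+* ℂ) h2 pow_card_eq_one'⟩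
    have h3 := Complex.isPrimitiveRoot_exp m hm0
    have h4 := h2 _ (h3.pow_eq_one_iff_dvd _ |>.2 hmd)
    rw [RingHom.coe_coe, hσ] at h4
    rw [← hm, h3.eq_orderOf]
    exact (h3.isOfFinOrder hm0).pow_eq_pow_iff_modEq.1 (h4.symm.trans (pow_one _).symm)
  have h1 := D.card_Y
  have hE : 0 < Nat.card D.E := Nat.card_pos
  obtain ⟨l₀, hl₀⟩ : ∃ l : (P : Subgroup G) →* ℂˣ, l ≠ 1 := by
    have : Nontrivial ((P : Subgroup G) →* ℂˣ) := by
      rw [← Finite.one_lt_card_iff_nontrivial, card_hom D.fr.comm, hP]; exact hp.one_lt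
    exact exists_ne 1
  have hY : 0 < Nat.card (D.ζ '' {1}ᶜ) := by
    have := hp.two_le
    exact Nat.pos_of_ne_zero fun h => by rw [h] at h1; omega
  classical
  refine ⟨D.ζ '' {1}ᶜ, fun _ ⟨l, hl, e⟩ => e ▸ D.mem l hl, ⟨_, l₀, hl₀, rfl⟩, ?_,
    fun χ hχ hχ' ψ ⟨σ, hσ, e⟩ => ?_, ⟨_, Nat.eq_sub_of_add_eq h1 |>.symm⟩, ?_,
    fun χ => if χ ∈ D.ζ '' {1}ᶜ then -D.δ else D.α χ, fun χ hχ => ?_, ?_⟩
  · rintro _ ⟨l, hl, rfl⟩ ψ
    refine ⟨fun ⟨σ, hσ, e⟩ => ?_, ?_⟩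
    · obtain ⟨k, h2, h3, h4⟩ := key σ hσ
      exact ⟨l ^ k, (D.powY h2 h3 hl).1, Subtype.ext (by rw [e, h4, (D.powY h2 h3 hl).2])⟩
    rintro ⟨l', hl', rfl⟩
    obtain ⟨j, hj, h2⟩ := exists_pow_eq_hom hP hl hl'
    obtain ⟨k, h3, h4, h5⟩ := exists_pow_fix G hsq hj
    obtain ⟨σ, hσ⟩ := exists_ringEquiv_pow (Nat.card_pos (α := G)) h3
    have h6 := Complex.isPrimitiveRoot_exp m hm0
    refine ⟨σ, ?_, ?_⟩
    · rw [hσ _ (h6.pow_eq_one_iff_dvd _ |>.2 hmd)]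
      conv_rhs => rw [← pow_one (Complex.exp _)]
      exact pow_eq_pow_of_modEq h5 h6.pow_eq_one
    · rw [← h2 k h4, ← (D.powY h3 (pow_eq_self_of_modEq h5) hl).2]
      exact funext fun g => ((D.ζ l).2.isCharacter.ringHom_apply (σ : ℂ →+* ℂ) hσ
        pow_card_eq_one').symm
  · obtain ⟨k, h2, h3, h4⟩ := key σ hσ
    exact Subtype.ext (by rw [e, h4, D.powX h2 h3 ⟨hχ, hχ'⟩])
  · rw [← Nat.eq_sub_of_add_eq h1, Nat.mul_div_cancel_left _ hY, ← D.cardX, add_comm]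
    exact (Set.ncard_sdiff_add_ncard_of_subset (by rintro _ ⟨l, hl, rfl⟩; exact D.mem l hl)).symm
  · dsimp only
    split_ifs with h
    · rcases D.sign with s | s <;> simp [s]
    · exact D.αs χ ⟨hχ, h⟩
  · rintro x hx _ ⟨l, hl, rfl⟩
    dsimp only
    rw [if_pos (Set.mem_image_of_mem _ hl), finsum_mem_congr rfl (g := fun χ => (D.α χ : ℂ) * (χ : G → ℂ) x)
      fun χ hχ => by rw [if_neg hχ.2], ← D.rel l hl x hx]
    simp

end Cfsg.Agent.S4507
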