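import Cfsg.Statements.S4508
import Cfsg.Agent.H10.E3
import Cfsg.Agent.H8.SelfCent

set_option autoImplicit false
open Cfsg

namespace Cfsg.Agent.S4508

open H5 H6 H10 Subgroup

/-- Let the finite group G contain an element x of prime order p with C_G(x) = ⟨x⟩, and let t be the number of conjugacy classes of elements of order p. If G has an irreducible character of degree p − 1, then t is even or the commutator subgroup has even index. -/
theorem result {G : Type*} [Group G] [Finite G] (p : ℕ) (hp : p.Prime) (x : G) (hx : orderOf x = p) (hC : Subgroup.centralizer ({x} : Set G) = Subgroup.zpowers x) (t : ℕ) (ht : Nat.card {C : ConjClasses G // ∃ g ∈ C.carrier, orderOf g = p} = t) (χ : Cfsg.IrrCharacter G) (hχ : Cfsg.charDegree (χ : G → ℂ) + 1 = p) : Even t ∨ Even (commutator G).index := by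
  classical
  haveI := Fact.mk hp
  haveI := Fintype.ofFinite G
  have h1 := H8.SelfCent.card_classes_mul hp hx hC
  rw [ht] at h1
  obtain ⟨P, hPx⟩ := sylow_eq_zpowers_of_centralizer hx hC
  have hP : Nat.card (P : Subgroup G) = p := by rw [hPx, Nat.card_zpowers, hx]
  have hx1 : x ≠ 1 := by rintro rfl; exact hp.one_lt.ne (by simpa using hx)
  have S : SC P := ⟨hP, by
    rw [← centralizer_eq_of_card_prime hP (hPx ▸ mem_zpowers x) hx1, hC, hPx]⟩
  rcases hp.eq_two_or_odd' with rfl | hodd
  · right
    rw [(H8.SelfCent.index_commutator_of_relIndex_eq_one hp hx hC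
      (Nat.eq_one_of_mul_eq_one_left h1)).1]
    exact even_two
  refine (Nat.even_or_odd t).imp_right fun hto => ?_
  rw [← hPx] at h1
  nth_rewrite 1 [← S.hC] at h1
  set e := 𝐂[(P : Subgroup G)].relIndex 𝐍[(P : Subgroup G)] with he
  have hp2 := hp.two_le
  have he2 : Even e := by
    have : Even (t * e) := h1 ▸ Nat.Odd.sub_odd hodd odd_one
    exact (Nat.even_mul.1 this).resolve_left (Nat.not_even_iff_odd.2 hto)
  have hp3 : p ≠ 2 := by rintro rfl; exact absurd hodd (by decide)
  obtain ⟨D⟩ := exists_PB hp3 P hP he.symm (by rintro h; simp [h] at he2)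
  have he0 := D.e_pos
  rw [← h1, Nat.mul_div_cancel _ he0] at D
  have h2 : ∀ y ∈ (P : Subgroup G), y ≠ 1 → (χ : G → ℂ) y = -1 := fun y hy hy1 => by
    by_cases hX : χ ∈ D.X
    · obtain ⟨m, hm⟩ := exists_avg_one (P : Subgroup G) χ.2.isCharacter
      have h3 := D.avg_sg hX hm
      rw [D.valX χ hX y hy hy1]
      rcases D.δ_sign χ hX with h | h <;> rw [h] at h3 ⊢
      · exfalso
        have : (m : ℤ) < 2 := by nlinarith
        have : (1 : ℤ) < m := by nlinarith [show (3 : ℤ) ≤ p by omega]
        omega
      · simp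
    by_cases hY : χ ∈ D.Y
    · have h3 := D.sumY hy hy1
      have h4 := D.degY χ hY
      obtain ⟨k, hk⟩ := Int.modEq_iff_dvd.1 D.f_mod.symm
      have h5 : e ≤ p - 1 := h1 ▸ Nat.le_mul_of_pos_left e D.t_pos
      obtain ⟨j, hj⟩ := he2
      rcases D.ε_sign with h | h <;> rw [h] at hk h3
      · have : k < 1 := by nlinarith [show (D.f : ℤ) - e < p by omega]
        have : -1 < k := by nlinarith [show (0 : ℤ) ≤ D.f - e by omega]
        obtain rfl : k = 0 := by omega
        have h6 : t = 1 := Nat.eq_of_mul_eq_mul_right he0 (by omega)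
        obtain ⟨a, ha⟩ := Finset.card_eq_one.1 (D.cardY.trans h6)
        rw [ha, Finset.mem_singleton] at hY
        simpa [ha, hY] using h3
      · exfalso
        have : k < 2 := by nlinarith [show (D.f : ℤ) + e < 2 * p by omega]
        have : 0 < k := by nlinarith [show (0 : ℤ) < D.f + e by omega]
        obtain rfl : k = 1 := by omega
        omega
    · obtain ⟨m, hm⟩ := exists_avg_one (P : Subgroup G) χ.2.isCharacter
      have h3 := D.avg_out' S hX hY hm
      have := Nat.le_of_dvd χ.2.charDegree_pos ⟨m, h3.symm⟩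
      omega
  obtain ⟨g, hg⟩ := exists_detChar_eq_neg_one hP S.hC he.symm D.te he2 hto χ.2.isCharacter
    (by rw [← χ.2.coe_charDegree, ← hχ]; simp) h2
  have h3 : detHom (χ : G → ℂ) (g ^ (commutator G).index) = 1 :=
    Abelianization.commutator_subset_ker _ ((commutator G).pow_index_mem g)
  have h4 := congrArg Units.val h3
  rw [map_pow, Units.val_pow_eq_pow_val, coe_detHom, hg, Units.val_one] at h4
  exact (neg_one_pow_eq_one_iff_even (by norm_num)).1 h4

end Cfsg.Agent.S4508
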