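import Cfsg.Statements.S4509
import Cfsg.Agent.H8.SelfCent

set_option autoImplicit false
open Cfsg

namespace Cfsg.Agent.S4509



/-- Let the finite group G contain an element x of prime order p with C_G(x) = ⟨x⟩; let t be the number of conjugacy classes of elements of order p and 1 + n·p the number of subgroups of order p. Then G has a normal subgroup of order 1 + n·p if and only if either t = p − 1, or t < p − 1 and G″ ≠ G′. Moreover, if t = p − 1 then G′ has order 1 + n·p and G/G′ is cyclic of order p; and if t < p − 1 and G″ ≠ G′ then G″ has order 1 + n·p and G′ has order p·(1 + n·p). -/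
theorem result {G : Type*} [Group G] [Finite G] (p : ℕ) (hp : p.Prime) (x : G) (hx : orderOf x = p) (hC : Subgroup.centralizer ({x} : Set G) = Subgroup.zpowers x) (t : ℕ) (ht : Nat.card {C : ConjClasses G // ∃ g ∈ C.carrier, orderOf g = p} = t) (n : ℕ) (hn : Nat.card {H : Subgroup G // Nat.card H = p} = 1 + n * p) : ((∃ S : Subgroup G, S.Normal ∧ Nat.card S = 1 + n * p) ↔ (t = p - 1 ∨ (t < p - 1 ∧ derivedSeries G 2 ≠ derivedSeries G 1))) ∧ (t = p - 1 → Nat.card (commutator G) = 1 + n * p ∧ IsCyclic (G ⧸ commutator G) ∧ (commutator G).index = p) ∧ (t < p - 1 → derivedSeries G 2 ≠ derivedSeries G 1 → Nat.card (derivedSeries G 2) = 1 + n * p ∧ Nat.card (commutator G) = p * (1 + n * p)) := by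
  have h1 := H8.SelfCent.card_classes_mul hp hx hC
  rw [ht] at h1
  rw [H8.SelfCent.card_subgroups hp hx hC] at hn
  have hp1 : 0 < p - 1 := Nat.sub_pos_of_lt hp.one_lt
  set N := Subgroup.normalizer (Subgroup.zpowers x : Set G) with hN
  have hPN : Subgroup.zpowers x ≤ N := Subgroup.le_normalizer
  have hcP : Nat.card (Subgroup.zpowers x) = p := by rw [Nat.card_zpowers, hx]
  have hepos : 0 < (Subgroup.zpowers x).relIndex N := Nat.pos_of_ne_zero (H1.relIndex_ne_zero _ _)
  have hd1 : derivedSeries G 1 = commutator G := derivedSeries_one G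
  have hd2 : derivedSeries G 2 = ⁅commutator G, commutator G⁆ := by
    rw [derivedSeries_succ, hd1]
  have hNpos : 0 < Nat.card N := Nat.card_pos
  -- a normal p'-subgroup S with G = S N has order 1 + n p
  have hcard : ∀ S : Subgroup G, S.Normal → ¬ p ∣ Nat.card S → (S ⊔ N = ⊤ ↔ Nat.card S = 1 + n * p) := by
    intro S hS hd
    have h2 := H1.card_sup_of_disjoint (N := S) (H := N) Subgroup.le_normalizer_of_normal
      (H8.SelfCent.inf_normalizer_eq_bot hp hx hC S hd)
    have h3 := Subgroup.index_mul_card N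
    rw [hn] at h3
    constructor
    · intro h
      rw [h, Subgroup.card_top, ← h3] at h2
      exact (Nat.eq_of_mul_eq_mul_right hNpos h2).symm
    · intro h
      apply Subgroup.eq_top_of_card_eq
      rw [h2, h, h3]
  have A : t = p - 1 → Nat.card (commutator G) = 1 + n * p ∧ IsCyclic (G ⧸ commutator G) ∧
      (commutator G).index = p := by
    intro h
    rw [h] at h1
    have he := Nat.eq_of_mul_eq_mul_left hp1 (h1.trans (mul_one _).symm)
    obtain ⟨h2, h3⟩ := H8.SelfCent.index_commutator_of_relIndex_eq_one hp hx hC he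
    have : Fact p.Prime := ⟨hp⟩
    refine ⟨?_, isCyclic_of_prime_card (p := p) h2, h2⟩
    have h4 : N = Subgroup.zpowers x := le_antisymm (Subgroup.relIndex_eq_one.mp he) hPN
    have h5 := Subgroup.index_mul_card N
    rw [hn, h4, hcP, ← Subgroup.card_mul_index (commutator G), h2] at h5
    exact (Nat.eq_of_mul_eq_mul_right hp.pos h5).symm
  have hle : t ≠ p - 1 → Subgroup.zpowers x ≤ commutator G := fun hne =>
    H8.SelfCent.zpowers_le_commutator hp hx hC (fun h => by rw [h, mul_one] at h1; exact hne h1)
  have B : t < p - 1 → derivedSeries G 2 ≠ derivedSeries G 1 →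
      Nat.card (derivedSeries G 2) = 1 + n * p ∧ Nat.card (commutator G) = p * (1 + n * p) := by
    intro hlt hne
    have h2 := hle hlt.ne
    have h21 : derivedSeries G 2 ≤ commutator G := by
      rw [hd2]; exact Subgroup.commutator_le_left _ _
    have hd : ¬ p ∣ Nat.card (derivedSeries G 2) := fun h => hne
      (le_antisymm (hd1 ▸ h21) (hd1 ▸ H8.SelfCent.commutator_le_of_dvd hp hx hC _ h))
    have h3 := H8.SelfCent.quotient_centralizer hp hx hC _ hd
    have h4 : commutator G = derivedSeries G 2 ⊔ Subgroup.zpowers x := by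
      refine le_antisymm ?_ (sup_le h21 h2)
      intro g hg
      have : (QuotientGroup.mk g : G ⧸ derivedSeries G 2) ∈
          Subgroup.zpowers (QuotientGroup.mk x : G ⧸ derivedSeries G 2) := by
        rw [← h3, Subgroup.mem_centralizer_singleton_iff, ← commutatorElement_eq_one_iff_mul_comm]
        have h5 := Subgroup.commutator_mem_commutator hg (h2 (Subgroup.mem_zpowers x))
        rw [← hd2, ← QuotientGroup.eq_one_iff] at h5
        exact h5
      rw [sup_comm, ← H1.comap_map_mk', Subgroup.mem_comap, MonoidHom.map_zpowers]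
      exact this
    have h5 : derivedSeries G 2 ⊔ N = ⊤ := by
      have := H8.SelfCent.normalizer_sup_eq_top hp hx hC _ h2
      rw [eq_top_iff, ← this, h4]
      exact sup_le le_sup_right (sup_le le_sup_left (hPN.trans le_sup_right))
    have h6 := (hcard _ inferInstance hd).mp h5
    refine ⟨h6, ?_⟩
    rw [h4, H1.card_sup_of_disjoint Subgroup.le_normalizer_of_normal
      (H8.SelfCent.inf_eq_bot hp hx _ hd), h6, hcP, mul_comm]
  refine ⟨⟨?_, ?_⟩, A, B⟩
  · rintro ⟨S, hS, hSc⟩
    have hd : ¬ p ∣ Nat.card S := by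
      rw [hSc]
      intro h
      exact hp.one_lt.ne' (Nat.dvd_one.mp ((Nat.dvd_add_left (dvd_mul_left p n)).mp h))
    by_cases ht1 : t = p - 1
    · exact Or.inl ht1
    right
    refine ⟨lt_of_le_of_ne (h1 ▸ Nat.le_mul_of_pos_right _ hepos) ht1, fun h => hd ?_⟩
    have h2 := H8.SelfCent.commutator_le_sup hC S (by rw [sup_comm]; exact (hcard S hS hd).mpr hSc)
    have h3 : derivedSeries G 2 ≤ S := by
      rw [hd2]
      refine (Subgroup.commutator_mono h2 h2).trans ?_
      rw [← H1.map_mk'_eq_bot_iff, Subgroup.map_commutator, Subgroup.map_sup,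
        (H1.map_mk'_eq_bot_iff S S).mpr le_rfl, sup_bot_eq, MonoidHom.map_zpowers,
        Subgroup.commutator_eq_bot_iff_le_centralizer]
      rintro _ ⟨i, rfl⟩
      rw [Subgroup.mem_centralizer_iff]
      rintro _ ⟨j, rfl⟩
      exact (Commute.zpow_zpow_self _ _ _).eq
    rw [h, hd1] at h3
    rw [← hcP]
    exact Subgroup.card_dvd_of_le ((hle ht1).trans h3)
  · rintro (h | ⟨h, h'⟩)
    · exact ⟨commutator G, inferInstance, (A h).1⟩
    · exact ⟨derivedSeries G 2, inferInstance, (B h h').1⟩

end Cfsg.Agent.S4509
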