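import Cfsg.Statements.S4512
import Cfsg.Agent.H7.Klein

set_option autoImplicit false
open Cfsg

namespace Cfsg.Agent.S4512

open H5 H7

/-- If G is a finite group with a Sylow 2-subgroup that is a Klein four-group and a single conjugacy class of involutions, then its principal 2-block (relative to a maximal ideal M of the algebraic integers containing 2) has 2-regular rank 3: the restrictions of its irreducible characters to the elements of odd order span a space of dimension 3 (it has three irreducible Brauer characters). -/
theorem result {G : Type*} [Group G] [Finite G] (M : Ideal Cfsg.AlgInt) (hM : Cfsg.IsPModular 2 M) (P : Sylow 2 G)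
    (hP : Nat.card P = 4) (hexp : ∀ x : P, x * x = 1)
    (hone : ∀ s t : G, orderOf s = 2 → orderOf t = 2 → IsConj s t) :
    Cfsg.blockRank 2 (Cfsg.principalBlock M G) = 3 := by
    haveI : PM 2 M := ⟨hM⟩
    have : Nontrivial P := Finite.one_lt_card_iff_nontrivial.1 (by omega)
    have hk : IsKleinFour P := ⟨hP, (Monoid.exponent_eq_prime_iff Nat.prime_two).2 fun x x1 =>
        orderOf_eq_prime (by rw [sq, hexp]) x1⟩
    exact (K4.main ⟨kl_of_sylIn hk (sylIn_top P), hone⟩).2.1

end Cfsg.Agent.S4512
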