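import Cfsg.Statements.S4513
import Cfsg.Agent.H7.Cyc

set_option autoImplicit false
open Cfsg

namespace Cfsg.Agent.S4513

open H5 H7

theorem two {G : Type*} [Group G] [Fintype G] {M : Ideal AlgInt} [PM 2 M] {D T₀ : Subgroup G}
    [Fintype D] {B : Set (IrrCharacter G)} {hD : D ≤ H8.cC D} {f : Set (IrrCharacter (H8.cC D))}
    {ψ : (D →* ℂˣ) → IrrCharacter (H8.cC D)} (h : CS 2 M B D D T₀ hD f ψ) :
    Nat.card (autE D.subtype T₀) = 1 ∧ ∃ χ₁ χ₂, χ₁ ≠ χ₂ ∧ B = {χ₁, χ₂} ∧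
      (∀ g, ¬ 2 ∣ orderOf g → (χ₁ : G → ℂ) g = (χ₂ : G → ℂ) g) ∧ ∃ δ : ℤ, (δ = 1 ∨ δ = -1) ∧
        ∑ v, dn (cyA ψ) χ₁ v = δ ∧ ∑ v, dn (cyA ψ) χ₂ v = -δ := by
  obtain ⟨ζ, δ, α, x, h1, h2⟩ := h.exists_exc
  have h3 := Nat.succ.inj ((x.card h.fam).trans h.card)
  have e1 := Nat.eq_one_of_mul_eq_one_left h3
  obtain ⟨χ₂, e2⟩ := Set.ncard_eq_one.1 (Nat.eq_one_of_mul_eq_one_right h3)
  obtain ⟨χ₁, e3⟩ := Set.ncard_eq_one.1 (h2.trans e1)
  have m1 : χ₁ ∈ B \ ζ '' {1}ᶜ := e3 ▸ rfl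
  have m2 : χ₂ ∈ ζ '' {1}ᶜ := e2 ▸ rfl
  have R : ∀ g, ¬ 2 ∣ orderOf g → δ * (χ₂ : G → ℂ) g = α χ₁ * (χ₁ : G → ℂ) g := fun g hg => by
    obtain ⟨l, hl, rfl⟩ := m2
    simpa [e3] using x.rel l hl g hg
  have e4 : α χ₁ = δ := by
    have := R 1 (by simp)
    rw [← χ₁.2.coe_charDegree, ← χ₂.2.coe_charDegree] at this
    have t : δ * (charDegree χ₂.1 : ℤ) = α χ₁ * charDegree χ₁.1 := by exact_mod_cast this
    have := χ₁.2.charDegree_pos
    have := χ₂.2.charDegree_pos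
    rcases x.sign with s | s <;> rcases h1 χ₁ m1 with s' | s' <;> simp only [s, s'] at t ⊢ <;> omega
  refine ⟨e1, χ₁, χ₂, fun e => m1.2 (e ▸ m2), ?_, fun g hg => mul_left_cancel₀ (a := (δ : ℂ)) (by
      rcases x.sign with s | s <;> simp [s]) (by rw [R g hg, e4]), δ, x.sign, ?_, ?_⟩
  · rw [← Set.diff_union_of_subset x.subset, e3, e2]; rfl
  · rw [(x.sum_dn h.fam).1 _ m1, h.card, e4]; norm_num
  · rw [(x.sum_dn h.fam).2 _ m2, e1]; simp

/-- Blocks of defect one for p = 2. Let M be a maximal ideal of the algebraic integers containing 2, B a 2-block of the finite group G whose defect group is the subgroup generated by an involution x, C = C_G(x), b a block of C inducing B and θ a member of b taking the same value at x as at 1 (there is exactly one). Then B consists of exactly two irreducible characters, which agree on every element of odd order, and they can be labelled χ₁, χ₂ with signs ε₁, ε₂ = ±1,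 ε₁ε₂ = −1, such that χᵢ(x y) = εᵢ θ(y) for every element y of C of odd order. -/
theorem result {G : Type*} [Group G] [Finite G] (M : Ideal Cfsg.AlgInt) (hM : Cfsg.IsPModular 2 M) (x : G) (hx : orderOf x = 2)
    (B : Set (Cfsg.IrrCharacter G)) (hB : Cfsg.IsPBlock M B) (hBD : Cfsg.IsDefectGroup 2 M B (Subgroup.zpowers x))
    (b : Set (Cfsg.IrrCharacter ↥(Subgroup.centralizer ({x} : Set G)))) (hb : Cfsg.IsInducedBlock M (Subgroup.centralizer ({x} : Set G)) b B)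
    (θ : Cfsg.IrrCharacter ↥(Subgroup.centralizer ({x} : Set G))) (hθ : θ ∈ b)
    (hθx : ∀ z : ↥(Subgroup.centralizer ({x} : Set G)), (z : G) = x → (θ : ↥(Subgroup.centralizer ({x} : Set G)) → ℂ) z = (θ : ↥(Subgroup.centralizer ({x} : Set G)) → ℂ) 1) :
    Nat.card B = 2 ∧ (∀ χ ∈ B, ∀ ψ ∈ B, ∀ g : G, ¬ 2 ∣ orderOf g → (χ : G → ℂ) g = (ψ : G → ℂ) g) ∧
      ∃ χ₁ ∈ B, ∃ χ₂ ∈ B, χ₁ ≠ χ₂ ∧ ∃ ε₁ ε₂ : ℤ, (ε₁ = 1 ∨ ε₁ = -1) ∧ (ε₂ = 1 ∨ ε₂ = -1) ∧ ε₁ * ε₂ = -1 ∧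
        ∀ y : ↥(Subgroup.centralizer ({x} : Set G)), ¬ 2 ∣ orderOf y →
          (χ₁ : G → ℂ) (x * y) = (ε₁ : ℂ) * (θ : ↥(Subgroup.centralizer ({x} : Set G)) → ℂ) y ∧ (χ₂ : G → ℂ) (x * y) = (ε₂ : ℂ) * (θ : ↥(Subgroup.centralizer ({x} : Set G)) → ℂ) y := by
    classical
    haveI : PM 2 M := ⟨hM⟩
    have := Fintype.ofFinite G
    have := Fintype.ofFinite (Subgroup.zpowers x)
    have := Fintype.ofFinite (H8.nN (Subgroup.zpowers x))
    generalize hK : Subgroup.centralizer ({x} : Set G) = K at b hb θ hθ hθx ⊢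
    rw [← centralizer_zpowers] at hK
    subst hK
    have hc : Nat.card (Subgroup.zpowers x) = 2 := (Nat.card_zpowers x).trans hx
    obtain ⟨hD, ψ, h, h'⟩ := exists_cs_prime hBD hc (isInducedBlock_iff_indB.1 hb)
    let v : Subgroup.zpowers x := ⟨x, Subgroup.mem_zpowers x⟩
    have v1 : v ≠ 1 := fun e => by
      rw [show x = 1 from congrArg Subtype.val e] at hx; simp at hx
    have hv : ∀ w, w ≠ 1 → w = v := fun w hw => by
      obtain ⟨y, -, hy⟩ := (Nat.card_eq_two_iff' (1 : Subgroup.zpowers x)).1 hc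
      exact (hy w hw).trans (hy v v1).symm
    obtain ⟨l, rfl⟩ := (h.nd.rng θ).1 hθ
    obtain rfl : l = 1 := MonoidHom.ext fun w => Units.ext (by
      by_cases hw : w = 1
      · simp [hw]
      have := h' l v 1
      rw [mul_one, hθx _ rfl] at this
      rw [hv w hw]
      exact (mul_eq_right₀ (ψ l).2.apply_one_ne_zero).1 this.symm)
    obtain ⟨e1, χ₁, χ₂, hne, rfl, h1, δ, h2, h3, h4⟩ := two h
    obtain ⟨κ, hκ⟩ := exists_hom_autE (T := H8.nN (Subgroup.zpowers x))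
      (Subgroup.zpowers x).subtype_injective (by rw [Subgroup.range_subtype])
    have k1 : ∀ n, κ n v = v := fun n => hv _ (by simpa using v1)
    have k2 : ∀ n : H8.nN (Subgroup.zpowers x), (n : G) ∈ H8.cC (Subgroup.zpowers x) := fun n => by
      rw [H8.cC, centralizer_zpowers, Subgroup.mem_centralizer_singleton_iff]
      exact mul_inv_eq_iff_eq_mul.1 ((hκ n v).symm.trans (congrArg Subtype.val (k1 n)))
    have key : ∀ χ ∈ ({χ₁, χ₂} : Set _), ∀ y : H8.cC (Subgroup.zpowers x), ¬ 2 ∣ orderOf y →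
        (χ : G → ℂ) (x * y) = (∑ w, dn (cyA ψ) χ w) * (ψ 1).1 y := fun χ hχ y hy => by
      have := h.apply_central h' hκ hχ v1 hy
      rw [e1, Nat.cast_one, one_mul, Finset.sum_congr rfl (g := fun _ => dn (cyA ψ) χ v * (ψ 1).1 y)
        fun n _ => by rw [k1, ← (ψ 1).2.isClassFunction y ⟨n, k2 n⟩]; exact congrArg (_ * (ψ 1).1 ·) (Subtype.ext (coe_kc n y)),
        Finset.sum_const, Finset.card_univ, ← Nat.card_eq_fintype_card, show H8.nN (Subgroup.zpowers x) = _ from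
          le_antisymm (fun n hn => k2 ⟨n, hn⟩) (H8.cC_le_nN _), nsmul_eq_mul,
        inv_mul_cancel_left₀ card_ne_zero_complex] at this
      rw [Finset.sum_eq_single v (fun w _ hw => by
        rw [not_not.1 (mt (hv w) hw), h.fam.dn_one]) (by simp)]
      exact this
    refine ⟨Set.ncard_pair hne, ?_, χ₁, .inl rfl, χ₂, .inr rfl, hne, δ, -δ, h2, by omega,
      by rcases h2 with s | s <;> simp [s], fun y hy => ⟨?_, ?_⟩⟩
    · rintro _ (rfl | rfl) _ (rfl | rfl) g hg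
      exacts [rfl, h1 g hg, (h1 g hg).symm, rfl]
    · rw [key _ (.inl rfl) y hy, h3]
    · rw [key _ (.inr rfl) y hy, h4, Int.cast_neg]

end Cfsg.Agent.S4513
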