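import Cfsg.Statements.S4633
import Cfsg.Agent.H8.Pairs4

set_option autoImplicit false
open Cfsg

namespace Cfsg.Agent.S4633

open H5 H7 H8

/-- Let B be a block of the finite group G relative to a maximal ideal M of the algebraic integers containing the prime p, with a nontrivial cyclic defect group P. Let c be a block of C_G(P) inducing B and T the stabilizer of c in N_G(P) (the elements of N_G(P) conjugating c to itself); T contains C_G(P). Then T/C_G(P) is cyclic of order dividing p − 1, and it acts freely on the non-identity elements of P: an element of T fixing some non-identity element of P under conjugation lies in C_G(P). -/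
theorem result {G : Type*} [Group G] [Finite G] (p : ℕ) [Fact p.Prime] (M : Ideal Cfsg.AlgInt) (hM : Cfsg.IsPModular p M) (B : Set (Cfsg.IrrCharacter G)) (hB : Cfsg.IsPBlock M B) (P : Subgroup G) (hPD : Cfsg.IsDefectGroup p M B P) (hP1 : P ≠ ⊥) (hcyc : IsCyclic P) (c : Set (Cfsg.IrrCharacter (Subgroup.centralizer (P : Set G)))) (hc : Cfsg.IsInducedBlock M (Subgroup.centralizer (P : Set G)) c B) (T : Subgroup G) (hT : ∀ g : G, g ∈ T ↔ (g ∈ Subgroup.normalizer (P : Set G) ∧ Cfsg.StabilizesBlock (Subgroup.centralizer (P : Set G)) c g)) [hn : ((Subgroup.centralizer (P : Set G)).subgroupOf T).Normal] : IsCyclic (T ⧸ (Subgroup.centralizer (P : Set G)).subgroupOf T) ∧ (Subgroup.centralizer (P : Set G)).relIndex T ∣ p - 1 ∧ ∀ g ∈ T, ∀ x ∈ P, x ≠ 1 → g * x * g⁻¹ = x → g ∈ Subgroup.centralizer (P : Set G) := by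
  haveI : PM p M := ⟨hM⟩
  have hp : p.Prime := Fact.out
  have hP := IsDefectGroup.isPGroup hPD
  obtain ⟨⟨z, hz⟩, hgen⟩ := hcyc.exists_generator
  have hgen' : ∀ y ∈ P, ∃ j : ℤ, y = z ^ j := fun y hy => by
    obtain ⟨j, hj⟩ := hgen ⟨y, hy⟩
    exact ⟨j, (congrArg Subtype.val hj).symm⟩
  have hab : P ≤ cC P := fun x hx y hy => by
    obtain ⟨i, rfl⟩ := hgen' x hx
    obtain ⟨j, rfl⟩ := hgen' y hy
    exact (Commute.zpow_zpow_self z j i).eq
  have hcb : IsPBlock M c := hc.1
  have m : Mx p ⊤ ⊤ (fB M B) P (io M (cC P) c) := ⟨tw_tt, blk_fB_of_isPBlock hB, (def_fB hB).1 hPD,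
    le_top, (pair_iff hcb).1 ⟨hP, hcb⟩,
    (isInducedBlock_iff_Br hP hab le_rfl (cC_le_nN P) hcb hB).1 hc⟩
  have hT' := stab_eq' hcb hT
  have hTN : T ≤ nN P := fun g hg => ((hT g).1 hg).1
  have hpow : ∀ g ∈ nN P, ∃ k : ℤ, ∀ y ∈ P, g * y * g⁻¹ = y ^ k := fun g hg => by
    obtain ⟨k, hk⟩ := hgen' _ ((conj_mem_of_nN hg).2 hz)
    refine ⟨k, fun y hy => ?_⟩
    obtain ⟨j, rfl⟩ := hgen' y hy
    rw [← conj_zpow, hk, ← zpow_mul, ← zpow_mul, mul_comm]
  have hfree : ∀ g ∈ T, ∀ x ∈ P, x ≠ 1 → g * x * g⁻¹ = x → g ∈ cC P := by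
    intro g hg x hx hx1 hgx
    obtain ⟨k, hk⟩ := hpow g (hTN hg)
    have h1 : (p : ℤ) ∣ k - 1 := by
      have h2 : x ^ (k - 1) = 1 := by rw [zpow_sub_one, ← hk x hx, hgx, mul_inv_cancel]
      obtain ⟨n, hn⟩ := isPE_of_mem hP hx
      rcases n with _ | n
      · exact absurd (orderOf_eq_one_iff.1 (by simpa using hn)) hx1
      · refine dvd_trans ?_ (orderOf_dvd_iff_zpow_eq_one.2 h2)
        rw [hn]; push_cast; exact dvd_pow_self _ (Nat.succ_ne_zero n)
    obtain ⟨n, hn⟩ := IsPGroup.iff_card.1 hP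
    have h2 : ∀ j : ℕ, ∀ y ∈ P, g ^ j * y * (g ^ j)⁻¹ = y ^ k ^ j := fun j y hy => by
      induction j with
      | zero => simp
      | succ j ih =>
        rw [pow_succ', mul_inv_rev, ← mul_assoc, mul_assoc g, mul_assoc g, ih,
          hk _ (P.zpow_mem hy _), ← zpow_mul, pow_succ]
    have h3 : g ^ p ^ n ∈ cC P := fun y hy => by
      have h4 := dvd_sub_pow_of_dvd_sub (R := ℤ) h1 n
      rw [one_pow] at h4
      have h5 : y ^ (k ^ p ^ n - 1) = 1 := by
        refine orderOf_dvd_iff_zpow_eq_one.1 (dvd_trans ?_ h4)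
        have h6 : orderOf y ∣ p ^ n := hn ▸ Subgroup.orderOf_dvd_natCard P hy
        exact_mod_cast h6.trans (pow_dvd_pow p (Nat.le_succ n))
      have h6 := h2 (p ^ n) y hy
      rw [zpow_sub_one, mul_inv_eq_one] at h5
      rw [h5, mul_inv_eq_iff_eq_mul] at h6
      exact h6.symm
    rw [← pp_mul_pr (p := p) g]
    refine mul_mem ?_ ?_
    · have := m.mem_sup_of_isPE (hT' ▸ pp_mem (p := p) hg) (isPE_pp g)
      rwa [top_inf_eq, sup_eq_left.2 hab] at this
    · refine mem_of_pow_mem (not_dvd_orderOf_pr (p := p) g) (n := n) ?_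
      obtain ⟨t, ht⟩ := exists_pow_eq_pr (p := p) g
      rw [← ht, ← pow_mul, mul_comm, pow_mul]
      exact pow_mem h3 t
  obtain ⟨x, hx, -, ho⟩ := exists_mem_center_of_ne_bot hP hP1
  have hx1 : x ≠ 1 := fun e => hp.ne_one (by rw [← ho, e, orderOf_one])
  have hR : T ≤ nN (Subgroup.zpowers x) := fun g hg => by
    refine Subgroup.mem_normalizer_fintype fun y hy => ?_
    obtain ⟨k, hk⟩ := hpow g (hTN hg)
    rw [hk y ((Subgroup.zpowers_le.2 hx) hy)]
    exact Subgroup.zpow_mem _ hy k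
  let φ : T →* MulAut (Subgroup.zpowers x) :=
    (Subgroup.zpowers x).normalizerMonoidHom.comp (Subgroup.inclusion hR)
  have hker : (cC P).subgroupOf T = φ.ker := by
    ext g
    rw [Subgroup.mem_subgroupOf, MonoidHom.mem_ker]
    constructor
    · intro h
      ext y
      have := h y ((Subgroup.zpowers_le.2 hx) y.2)
      show (g : G) * y * (g : G)⁻¹ = y
      rw [← this, mul_inv_cancel_right]
    · intro h
      have h1 : φ g ⟨x, Subgroup.mem_zpowers x⟩ = ⟨x, Subgroup.mem_zpowers x⟩ := by rw [h]; rfl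
      exact hfree g g.2 x hx hx1 (congrArg Subtype.val h1)
  have hcard : Nat.card (Subgroup.zpowers x) = p := by rw [Nat.card_zpowers, ho]
  have hcyc' : IsCyclic (MulAut (Subgroup.zpowers x)) := by
    have h1 : IsCyclic (ZMod (Nat.card (Subgroup.zpowers x)))ˣ :=
      ZMod.isCyclic_units_prime (hcard ▸ hp)
    exact isCyclic_of_surjective _ (IsCyclic.mulAutMulEquiv (Subgroup.zpowers x)).symm.surjective
  refine ⟨?_, ?_, hfree⟩
  · exact isCyclic_of_surjective _ ((QuotientGroup.quotientMulEquivOfEq hker).trans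
      (QuotientGroup.quotientKerEquivRange φ)).symm.surjective
  · rw [Subgroup.relIndex, hker, Subgroup.index_ker, ← Nat.totient_prime hp, ← hcard,
      ← IsCyclic.card_mulAut]
    exact Subgroup.card_subgroup_dvd_card _

end Cfsg.Agent.S4633
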