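import Cfsg.Statements.S4634
import Cfsg.Agent.H7.Corr


set_option autoImplicit false
open Cfsg

namespace Cfsg.Agent.S4634

open H5 H7

/-- Let B be a block of the finite group G relative to a maximal ideal M of the algebraic integers containing the prime p, with a nontrivial cyclic defect group P, let c be a block of C_G(P) inducing B, T the stabilizer of c in N_G(P) and e the index of C_G(P) in T. Let F be any finite group of order #P · e having a cyclic subgroup Q of order #P that is its own centralizer (F is then the semidirect product of Q by a cyclic group of order e acting faithfully). Then there is a perfect isometry from the set of all irreducible characters of F onto B whose signs agree on all the characters of F that do not contain Q in their kernel. -/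
theorem result {G : Type*} [Group G] [Finite G] (p : ℕ) [Fact p.Prime] (M : Ideal Cfsg.AlgInt) (hM : Cfsg.IsPModular p M) (B : Set (Cfsg.IrrCharacter G)) (hB : Cfsg.IsPBlock M B) (P : Subgroup G) (hPD : Cfsg.IsDefectGroup p M B P) (hP1 : P ≠ ⊥) (hcyc : IsCyclic P) (c : Set (Cfsg.IrrCharacter (Subgroup.centralizer (P : Set G)))) (hc : Cfsg.IsInducedBlock M (Subgroup.centralizer (P : Set G)) c B) (T : Subgroup G) (hT : ∀ g : G, g ∈ T ↔ (g ∈ Subgroup.normalizer (P : Set G) ∧ Cfsg.StabilizesBlock (Subgroup.centralizer (P : Set G)) c g)) (e : ℕ) (he : (Subgroup.centralizer (P : Set G)).relIndex T = e) (F : Type*) [Group F] [Finite F] (hF : Nat.card F = Nat.card P * e) (Q : Subgroup F) (hQ : IsCyclic Q) (hQcard : Nat.card Q = Nat.card P) (hQC : Subgroup.centralizer (Q : Set F) = Q) : ∃ (I : Cfsg.IrrCharacter F → Cfsg.IrrCharacter G) (ε : Cfsg.IrrCharacter F → ℤ), Cfsg.IsPerfectIsometry p M (Set.univ : Set (Cfsg.IrrCharacter F)) B I ε ∧ ∀ η η' : Cfsg.IrrCharacter F, (∃ x ∈ Q, (η : F → ℂ) x ≠ (η : F → ℂ) 1) → (∃ x ∈ Q, (η' : F → ℂ) x ≠ (η'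 : F → ℂ) 1) → ε η = ε η' := by
      haveI : PM p M := ⟨hM⟩
      classical
      have hp : p.Prime := Fact.out
      have := Fintype.ofFinite G
      have := Fintype.ofFinite F
      have := Fintype.ofFinite P
      have := Fintype.ofFinite Q
      obtain ⟨m, hm⟩ := exists_mp_of_ind hPD (cyc_ab hcyc) le_rfl le_sup_right hc
      obtain ⟨a, ζ, δ, α, s, h1⟩ := m.exists_sf hcyc hP1
      have e1 : Nat.card (autE P.subtype (H8.nN P ⊓ H8.St m.e)) = e := by
        rw [m.card_autE, ← he, hm, H8.stab_eq hc.1 hT]
      have β : Q ≃* P := mulEquivOfCyclicCardEq hQcard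
      have s1 := s.congr β
      have hQp : IsPGroup p Q := s1.pg
      have := s1.nt
      have hi : Q.index = e := Nat.eq_of_mul_eq_mul_left Nat.card_pos (by
        rw [Q.card_mul_index, hF, hQcard])
      obtain ⟨S, rfl⟩ : ∃ S : Sylow p F, (S : Subgroup F) = Q :=
        ⟨hQp.toSylow (by rw [hi, ← e1]; exact s.not_dvd), rfl⟩
      have hn : (S : Subgroup F).Normal := by
        have k1 := card_sylow_modEq_one p F
        have k2 := Nat.le_of_dvd (Nat.sub_pos_of_lt hp.one_lt) ((S.card_dvd_index.trans
          (hi.trans e1.symm).dvd).trans h1)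
        rw [Nat.ModEq, Nat.mod_eq_of_lt (by have := hp.pos; omega), Nat.mod_eq_of_lt hp.one_lt] at k1
        have := (Nat.card_eq_one_iff_unique.1 k1).1
        exact S.normal_of_subsingleton
      have hN := Subgroup.normalizer_eq_top (S : Subgroup F)
      have e2 : Nat.card (autN (S : Subgroup F)) = e := by
        rw [card_autN, hQC, hN, Subgroup.relIndex_top_right, hi]
      have e3 := aut_eq_of_card hQ hQp s1.not_dvd ((Subgroup.card_map_of_injective
        (MulAut.congr β.symm).injective).trans (e1.trans e2.symm))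
      rw [e3] at s1
      have fa : FA p (S : Subgroup F) := ⟨sylIn_top S, hQC.ge, fun y hy y1 n hn => by
        obtain ⟨σ, h2, h3⟩ := exists_autE (S : Subgroup F).subtype_injective (autN_le _) hn.2
        rw [s1.fam.fr.free σ h2 ⟨y, hy⟩ (by simpa using y1) (Subtype.ext ((h3 _).trans
          (mul_inv_eq_iff_eq_mul.2 (Subgroup.mem_centralizer_singleton_iff.1 hn.1))))] at h3
        exact fun w hw => eq_mul_inv_iff_mul_eq.1 (h3 ⟨w, hw⟩)⟩
      have hU : principalBlock M F = Set.univ := Set.eq_univ_of_forall fun χ => by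
        refine (sameBlock_iff_pRegular (p := p) (irrOne F).2 χ.2).2 fun g hg => ?_
        by_cases h1 : g = 1
        · rw [h1, centralChar_one χ.2.apply_one_ne_zero, centralChar_one (irrOne F).2.apply_one_ne_zero]
        have key : ∀ η : IrrCharacter F, red M (centralChar (η : F → ℂ) g) = 0 := fun η =>
          by_contra fun h => h1 ((isPE_of_mem hQp (hQC.le (mem_centralizer_of_lam η.2 hQp h))).eq_one hg)
        rw [key, key]
      have Fm := fa.fam (M := M)
      obtain ⟨ζ', δ', d, α', x⟩ := Fm.exists_exc
      let K : (F ⧸ (S : Subgroup F) →* ℂˣ) → IrrCharacter F := fun l =>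
        homIrr (l.comp (QuotientGroup.mk' _))
      have k1 : Nat.card (Set.range K) = Nat.card (autN (S : Subgroup F)) := by
        rw [Nat.card_range_of_injective fun l l' h => (MonoidHom.cancel_right
          (QuotientGroup.mk'_surjective _)).1 (homIrr_injective h), card_hom, e2, ← hi]
        · rfl
        obtain ⟨κ, hκ⟩ := exists_hom_autE (T := ⊤) (S : Subgroup F).subtype_injective
          (by rw [Subgroup.range_subtype, hN])
        intro a b
        obtain ⟨a, rfl⟩ := QuotientGroup.mk_surjective a
        obtain ⟨b, rfl⟩ := QuotientGroup.mk_surjective b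
        refine QuotientGroup.eq.2 (hQC.le fun w hw => ?_)
        have := hκ ((⟨a, trivial⟩ * ⟨b, trivial⟩)⁻¹ * (⟨b, trivial⟩ * ⟨a, trivial⟩)) ⟨w, hw⟩
        rw [map_mul, map_inv, map_mul, map_mul, (IsCyclic.mulAutMulEquiv S).injective
          (a₁ := κ _ * κ _) (a₂ := κ ⟨b, trivial⟩ * κ ⟨a, trivial⟩) (by rw [map_mul, map_mul, mul_comm]),
          inv_mul_cancel] at this
        exact eq_mul_inv_iff_mul_eq.1 this
      have k2 : ∀ l, ∀ v ∈ (S : Subgroup F), (K l : F → ℂ) v = 1 := fun l v hv => by
        simp [K, homIrr, (QuotientGroup.eq_one_iff v).2 hv]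
      have k3 : Nat.card (autN (S : Subgroup F)) + 1 ≠ Nat.card S →
          Set.range K ⊆ principalBlock M F \ ζ' '' {1}ᶜ := by
        rintro h _ ⟨l, rfl⟩
        exact ⟨hU ▸ trivial, x.notMem Fm h (c := 1) fun v hv => by
          rw [FA.dn_famP hv, if_pos (hU ▸ trivial), k2 l v v.2]⟩
      have k4 : Nat.card (autN (S : Subgroup F)) + 1 = Nat.card S → Nat.card (ζ' '' {1}ᶜ) = 1 :=
        fun h => Nat.eq_of_mul_eq_mul_right (Nat.card_pos (α := autN (S : Subgroup F)))
          (by have := x.card Fm; omega)
      have k5 : Nat.card (autN (S : Subgroup F)) ≤ Nat.card (principalBlock M F \ ζ' '' {1}ᶜ : Set _) := by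
        by_cases h : Nat.card (autN (S : Subgroup F)) + 1 = Nat.card S
        · obtain ⟨v, hv⟩ := exists_ne (1 : S)
          obtain ⟨η, hη⟩ : ∃ η, η ∉ Set.range K := by
            by_contra! h'
            have := sum_degree_mul_apply_of_ne_one (G := F) (g := v) (by simpa using hv)
            rw [Finset.sum_congr rfl (g := fun _ => 1) fun η _ => by
              obtain ⟨l, rfl⟩ := h' η
              rw [k2 l v v.2, k2 l 1 (one_mem _), one_mul]] at this
            have h0 : Nonempty (IrrCharacter F) := ⟨irrOne F⟩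
            simp at this
          have := Set.ncard_lt_ncard (Set.ssubset_univ_iff.2 fun e : Set.range K = _ => hη (e ▸ trivial))
          have h2 := x.card_add
          rw [k4 h] at h2
          rw [← Nat.card_coe_set_eq, k1, ← hU, ← Nat.card_coe_set_eq] at this
          omega
        · exact k1 ▸ Set.ncard_le_ncard (k3 h)
      obtain ⟨rfl, k6⟩ := x.strong Fm k5
      have s' : SF p M (principalBlock M F) (autN (S : Subgroup F)) (famP M (S : Subgroup F)) ζ' δ' α' :=
        ⟨Fm, x, k6, le_antisymm (x.card_le Fm) k5, s1.nt, hQp, fun v g => by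
          by_cases hv : v = 1
          · rw [hv, Fm.one]; exact zero_mem _
          rw [fa.famP_apply hv]
          split_ifs
          exacts [one_mem _, zero_mem _], fun v g => by
          by_cases hv : v = 1
          · simp [hv, Fm.one]
          rw [fa.famP_apply hv]
          split_ifs
          · rw [mul_one, natCast_div_mem_O_iff Nat.card_pos.ne' Nat.card_pos.ne',
              S.card_eq_multiplicity, Nat.factorization_pow_self hp]
            exact Nat.factorization_le_factorization_of_dvd_right (Subgroup.card_subgroup_dvd_card _)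
              Nat.card_pos.ne' Nat.card_pos.ne'
          · simp⟩
      obtain ⟨I, ε, h2, h3⟩ := s1.perf s'
      refine ⟨I, ε, hU ▸ h2, fun η η' hη hη' => ?_⟩
      have k7 : ∀ η : IrrCharacter F, (∃ x ∈ (S : Subgroup F), (η : F → ℂ) x ≠ (η : F → ℂ) 1) →
          η ∉ Set.range K := by
        rintro _ ⟨v, hv, h⟩ ⟨l, rfl⟩
        exact h ((k2 l v hv).trans (k2 l 1 (one_mem _)).symm)
      by_cases h : Nat.card (autN (S : Subgroup F)) + 1 = Nat.card S
      · have h4 := x.card_add
        have h5 := Set.ncard_add_ncard_compl (Set.range K)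
        rw [k4 h, s'.card, hU, Nat.card_univ] at h4
        rw [← Nat.card_coe_set_eq, k1, ← h4, Nat.add_left_cancel_iff, Set.ncard_eq_one] at h5
        obtain ⟨ξ, h5⟩ := h5
        rw [show η = ξ from h5.le (k7 η hη), show η' = ξ from h5.le (k7 η' hη')]
      · have h4 := Set.eq_of_subset_of_ncard_le (k3 h) (s'.card.trans k1.symm).le
        have h5 : ∀ η ∉ Set.range K, η ∈ ζ' '' {1}ᶜ := fun η hη =>
          by_contra fun e => hη (h4 ▸ ⟨hU ▸ trivial, e⟩)
        rw [h3 _ (h5 _ (k7 η hη)), h3 _ (h5 _ (k7 η' hη'))]

end Cfsg.Agent.S4634
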