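import Cfsg.Statements.S4635
import Cfsg.Agent.H7.Corr

set_option autoImplicit false
open Cfsg

namespace Cfsg.Agent.S4635

open H5 H7

/-- Let B be a block of the finite group G relative to a maximal ideal M of the algebraic integers containing the prime p, with a nontrivial cyclic defect group P; let Z be the subgroup of order p of P and H = N_G(Z), which contains N_G(P). Let c be the block of H with defect group P that induces B. Then B and c contain the same number of irreducible characters, have the same p-regular rank, and there is a perfect isometry from c onto B. -/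
theorem result {G : Type*} [Group G] [Finite G] (p : ℕ) [Fact p.Prime] (M : Ideal Cfsg.AlgInt) (hM : Cfsg.IsPModular p M) (B : Set (Cfsg.IrrCharacter G)) (hB : Cfsg.IsPBlock M B) (P : Subgroup G) (hPD : Cfsg.IsDefectGroup p M B P) (hP1 : P ≠ ⊥) (hcyc : IsCyclic P) (Z : Subgroup G) (hZ : Z ≤ P) (hZcard : Nat.card Z = p) (H : Subgroup G) (hH : H = Subgroup.normalizer (Z : Set G)) (c : Set (Cfsg.IrrCharacter H)) (hcD : Cfsg.IsDefectGroup p M c (P.subgroupOf H)) (hc : Cfsg.IsInducedBlock M H c B) : Nat.card c = Nat.card B ∧ Cfsg.blockRank p c = Cfsg.blockRank p B ∧ ∃ (I : Cfsg.IrrCharacter H → Cfsg.IrrCharacter G) (ε : Cfsg.IrrCharacter H → ℤ), Cfsg.IsPerfectIsometry p M c B I ε := by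
      haveI : PM p M := ⟨hM⟩
      have := Fintype.ofFinite G
      have := Fintype.ofFinite H
      have := Fintype.ofFinite P
      have := Fintype.ofFinite (P.subgroupOf H)
      have h1 : H8.nN P ≤ H := fun _ ht => hH ▸ cyc_mem_nN hcyc hZ (H8.cj_le_of_nN ht hZ)
      have h0 := (H8.le_nN_self P).trans h1
      obtain ⟨m, m', -, e⟩ := exists_corr hZ h0 h1 (hH ▸ H8.cC_le_nN Z) hH.le hPD hcD hc
      obtain ⟨_, _, _, _, s, -⟩ := m.exists_sf hcyc hP1
      obtain ⟨_, _, _, _, s', -⟩ := m'.exists_sf
        (isCyclic_of_surjective _ (Subgroup.subgroupOfEquivOfLe h0).symm.surjective)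
        (mt Subgroup.subgroupOf_eq_bot.1 fun h => hP1 (h.eq_bot_of_le h0))
      exact perf_corr h0 hB hc.1 s (e ▸ s')

end Cfsg.Agent.S4635
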