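import Cfsg.Statements.S4638
import Cfsg.Agent.H7.Glue

set_option autoImplicit false
open Cfsg

namespace Cfsg.Agent.S4638

open H5 H7

/-- Let B be a block of the finite group G relative to a maximal ideal M of the algebraic integers containing 2, with a Klein four defect group P, and let c be its Brauer correspondent: the block of N_G(P) with defect group P that induces B. Then there is a perfect isometry from c onto B. -/
theorem result {G : Type*} [Group G] [Finite G] (M : Ideal Cfsg.AlgInt) (hM : Cfsg.IsPModular 2 M) (B : Set (Cfsg.IrrCharacter G)) (hB : Cfsg.IsPBlock M B) (P : Subgroup G) (hPD : Cfsg.IsDefectGroup 2 M B P) (hV : IsKleinFour P) (c : Set (Cfsg.IrrCharacter (Subgroup.normalizer (P : Set G)))) (hcD : Cfsg.IsDefectGroup 2 M c (P.subgroupOf (Subgroup.normalizer (P : Set G)))) (hc : Cfsg.IsInducedBlock M (Subgroup.normalizer (P : Set G)) c B) : ∃ (I : Cfsg.IrrCharacter (Subgroup.normalizer (P : Set G)) → Cfsg.IrrCharacter G) (ε : Cfsg.IrrCharacter (Subgroup.normalizer (P : Set G)) → ℤ), Cfsg.IsPerfectIsometry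 2 M c B I ε := by
  haveI : PM 2 M := ⟨hM⟩
  have := Fintype.ofFinite G
  have := Fintype.ofFinite (Subgroup.normalizer (P : Set G))
  have := Fintype.ofFinite P
  have := Fintype.ofFinite (P.subgroupOf (Subgroup.normalizer (P : Set G)))
  have h0 := H8.le_nN_self P
  obtain ⟨m, m', -, e⟩ := exists_corr le_rfl h0 le_rfl (H8.cC_le_nN P) le_rfl hPD hcD hc
  have r := r2_of_klein hV
  obtain ⟨-, _, _, _, _, s⟩ := m.exists_sf_r2 r
  obtain ⟨-, _, _, _, _, s'⟩ := m'.exists_sf_r2 (r.of_equiv (Subgroup.subgroupOfEquivOfLe h0))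
  exact (perf_corr h0 hB hc.1 s (e ▸ s')).2.2

end Cfsg.Agent.S4638
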