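import Cfsg.Statements.S4639
import Cfsg.Agent.H7.Glue

set_option autoImplicit false
open Cfsg

namespace Cfsg.Agent.S4639

open H5 H7

/-- Let B be a block of the finite group G relative to a maximal ideal M of the algebraic integers containing the prime p, with a nontrivial commutative defect group P. Let c be a block of C_G(P) inducing B, T the stabilizer of c in N_G(P) and e the index of C_G(P) in T. Suppose that T/C_G(P) is commutative (all commutators of elements of T lie in C_G(P)) and acts freely on the non-identity elements of P (an element of T fixing a non-identity element of P under conjugation lies in C_G(P)). Then B has at most e + (#P − 1)/e irreducible characters and p-regular rank at most e; equality holds in the first bound exactly when it holds in the second; and both equalities hold when e ≤ 3. -/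
theorem result {G : Type*} [Group G] [Finite G] (p : ℕ) [Fact p.Prime] (M : Ideal Cfsg.AlgInt) (hM : Cfsg.IsPModular p M) (B : Set (Cfsg.IrrCharacter G)) (hB : Cfsg.IsPBlock M B) (P : Subgroup G) (hPD : Cfsg.IsDefectGroup p M B P) (hP1 : P ≠ ⊥) (hPab : ∀ x ∈ P, ∀ y ∈ P, x * y = y * x) (c : Set (Cfsg.IrrCharacter (Subgroup.centralizer (P : Set G)))) (hc : Cfsg.IsInducedBlock M (Subgroup.centralizer (P : Set G)) c B) (T : Subgroup G) (hT : ∀ g : G, g ∈ T ↔ (g ∈ Subgroup.normalizer (P : Set G) ∧ Cfsg.StabilizesBlock (Subgroup.centralizer (P : Set G)) c g)) (e : ℕ) (he : (Subgroup.centralizer (P : Set G)).relIndex T = e) (hEab : ∀ g ∈ T, ∀ h ∈ T, g * h * g⁻¹ * h⁻¹ ∈ Subgroup.centralizer (P : Set G)) (hfree : ∀ g ∈ T, ∀ x ∈ P, x ≠ 1 → g * x * g⁻¹ = x → g ∈ Subgroup.centralizer (P : Set G)) : Nat.card B ≤ e + (Nat.card P - 1) / e ∧ Cfsg.blockRank p B ≤ e ∧ (Nat.card B = e + (Nat.card P - 1) / e ↔ Cfsg.blockRank p B = e) ∧ (e ≤ 3 → Nat.card B = e + (Nat.card P - 1) / e ∧ Cfsg.blockRank p B = e) := by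
  haveI : PM p M := ⟨hM⟩
  have := Fintype.ofFinite G
  have := Fintype.ofFinite P
  have hab : P ≤ H8.cC P := fun x hx y hy => hPab y hy x hx
  obtain ⟨m, hm⟩ := exists_mp_of_ind hPD hab le_rfl le_sup_right hc
  have e1 := H8.stab_eq hc.1 hT
  rw [← hm] at e1
  subst e1
  rw [← m.card_autE] at he
  subst he
  have h := MP.fe_of_fr (m := m) hab (fr_autE P.subtype_injective
    (fun a b => Subtype.ext (hPab _ a.2 _ b.2)) fun n hn v hv e => by
      rw [Subgroup.range_subtype]
      exact hfree n hn v v.2 (by simpa using hv) (mul_inv_eq_iff_eq_mul.2 e))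
  have := (Subgroup.nontrivial_iff_ne_bot P).2 hP1
  obtain ⟨a, f, -⟩ := h.exists_fam hP1
  obtain ⟨ζ, δ, d, α, x⟩ := f.exists_exc
  have hs := isSat_of_isPBlock hB
  have h1 := x.card_le f
  have h2 := x.card_add
  rw [x.card_rank f hs] at h1 h2
  rw [← x.card f, Nat.add_sub_cancel, Nat.mul_div_cancel _ Nat.card_pos]
  refine ⟨by omega, h1, by omega, fun h3 => ?_⟩
  obtain ⟨_, _, _, _, s⟩ := h.exists_sf hP1 h3
  have := s.rank hs
  omega

end Cfsg.Agent.S4639
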