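import Cfsg.Statements.S4640
import Cfsg.Agent.H8.Res
import Cfsg.Agent.H8.SelfCent

set_option autoImplicit false
open Cfsg

namespace Cfsg.Agent.S4640

open H5 H7 H8
open scoped Pointwise

/-- Let N be a normal subgroup of the finite group G of index a power of the prime p, M a maximal ideal of the algebraic integers containing p, b a block of N stabilized by every element of G, and B a block of G covering b (some member of B has a member of b as a constituent of its restriction to N). Suppose that B has a commutative defect group P. Then G = NP and P ∩ N is a defect group of b; every member of B restricts to a member of b; every member of b is the restriction of exactly [G : N] members of B; B contains exactly [G : N] times as many irreducible characters as b; and B and b have the same p-regular rank. -/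
theorem result {G : Type*} [Group G] [Fintype G] (p : ℕ) [Fact p.Prime] (M : Ideal Cfsg.AlgInt) (hM : Cfsg.IsPModular p M) (N : Subgroup G) [N.Normal] [Fintype N] (hNi : ∃ k : ℕ, N.index = p ^ k) (b : Set (Cfsg.IrrCharacter N)) (hb : Cfsg.IsPBlock M b) (hstab : ∀ g : G, Cfsg.StabilizesBlock N b g) (B : Set (Cfsg.IrrCharacter G)) (hB : Cfsg.IsPBlock M B) (hcov : ∃ χ ∈ B, ∃ θ ∈ b, Cfsg.classInner (fun n : N => (χ : G → ℂ) n) (θ : N → ℂ) ≠ 0) (P : Subgroup G) (hPD : Cfsg.IsDefectGroup p M B P) (hPab : ∀ x ∈ P, ∀ y ∈ P, x * y = y * x) : N ⊔ P = ⊤ ∧ Cfsg.IsDefectGroup p M b ((P ⊓ N).subgroupOf N) ∧ (∀ χ ∈ B, ∃ θ ∈ b, ∀ n : N, (χ : G → ℂ) n = (θ : N → ℂ) n) ∧ (∀ θ ∈ b, Nat.card {χ : Cfsg.IrrCharacter G // χ ∈ B ∧ ∀ n : N, (χ : G → ℂ) n = (θ : N → ℂ) n} = N.index) ∧ Nat.card B = N.index * Nat.card b ∧ Cfsg.blockRank p B = Cfsg.blockRank p b := by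
  classical
  haveI : PM p M := ⟨hM⟩
  obtain ⟨k, hk⟩ := hNi
  have hr : ∀ g : G, ¬ p ∣ orderOf g → g ∈ N := fun g hg => mem_of_index_pow hk hg
  have hi : io M N b ∈ Inv (F M) ⊤ :=
    mem_Inv_iff_le.2 fun g _ => ((stabilizes_iff hb).1 (hstab g)).2
  have hBs := isSat_of_isPBlock hB
  have hbs := isSat_of_isPBlock hb
  have he := fB_eq_io_of_cover hr hb hi hB ((cover_iff_io hBs hbs).1 hcov)
  have hD := (def_fB hB).1 hPD
  rw [he] at hD
  obtain ⟨h1, h2⟩ := fong (tw_top N) (blk_io' hb) hi hD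
  have hNP : N ⊔ P = ⊤ := by
    obtain ⟨S⟩ : Nonempty (Sylow p G) := inferInstance
    obtain ⟨h, -, h3⟩ := h2 S le_top S.isPGroup'
    have h4 := (sylIn_top S).cj h
    rw [cj_top] at h4
    obtain ⟨T, hT⟩ := h4.exists_sylow
    have h5 := Subgroup.index_dvd_of_le (le_sup_left : N ≤ N ⊔ P)
    have h6 := Subgroup.index_dvd_of_le (hT ▸ h3)
    rw [hk, Nat.dvd_prime_pow Fact.out] at h5
    obtain ⟨j, -, hj⟩ := h5
    rcases j with _ | j
    · exact Subgroup.index_eq_one.1 hj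
    · exact absurd ((hj ▸ dvd_pow_self p j.succ_ne_zero).trans h6) T.not_dvd_index
  have hdec : ∀ g : G, ∃ n ∈ N, ∃ x ∈ P, n * x = g := fun g => by
    have : g ∈ (N : Set G) * (P : Set G) := by
      rw [← Subgroup.normal_mul, hNP]; trivial
    exact this
  have hcomm : commutator G ≤ N := by
    rw [commutator_def, Subgroup.commutator_le]
    intro a _ c _
    obtain ⟨n, hn, x, hx, rfl⟩ := hdec a
    obtain ⟨m, hm, y, hy, rfl⟩ := hdec c
    rw [← QuotientGroup.eq_one_iff, commutatorElement_def]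
    have e1 := (QuotientGroup.eq_one_iff n).2 hn
    have e2 := (QuotientGroup.eq_one_iff m).2 hm
    have e3 : (x : G ⧸ N) * y = y * x := by
      rw [← QuotientGroup.mk_mul, hPab x hx y hy, QuotientGroup.mk_mul]
    simp only [QuotientGroup.mk_mul, QuotientGroup.mk_inv, e1, e2, one_mul, e3]
    group
  have hirr : ∀ χ ∈ B, IsIrrCharacter N fun n : N => ((χ : IrrCharacter G) : G → ℂ) n := by
    intro χ hχ
    refine irr_res_of_twist hcomm χ.2 fun β hβ e => ?_
    obtain ⟨y, hy, hS⟩ := isDefectGroup_iff.1 hPD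
    have hyN := hr y (IsDefectClass.not_dvd hB hy)
    have hβ1 := apply_one_of_mem_kerSet hcomm hβ
    ext g
    obtain ⟨n, hn, x, hx, rfl⟩ := hdec g
    have h3 := ne_zero_of_red_centralChar (IsDefectClass.red_centralChar_mul_ne_zero hB hy hS hx
      (fun z hz => hPab z hz x hx) hχ)
    have h4 := congrFun e (x * y)
    rw [Pi.mul_apply, mul_eq_right₀ h3, β.2.isCharacter.map_mul_of_apply_one hβ1, hβ y hyN, hβ1,
      mul_one] at h4
    rw [β.2.isCharacter.map_mul_of_apply_one hβ1, hβ n hn, hβ1, h4, irrOne_apply, mul_one]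
  have h3 : ∀ χ ∈ B, ∃ θ ∈ b, ∀ n : N, ((χ : IrrCharacter G) : G → ℂ) n = (θ : N → ℂ) n :=
    fun χ hχ => ⟨⟨_, hirr χ hχ⟩, (mem_iff_of_fB_eq_io hbs hBs he (θ := ⟨_, hirr χ hχ⟩) (by
      rw [show classInner _ _ = 1 from (hirr χ hχ).classInner_self]; exact one_ne_zero)).1 hχ,
      fun _ => rfl⟩
  have h4 : ∀ θ ∈ b, ∀ χ : IrrCharacter G, classInner (fun n : N => (χ : G → ℂ) n) θ ≠ 0 ↔
      χ ∈ B ∧ ∀ n : N, (χ : G → ℂ) n = ((θ : IrrCharacter N) : N → ℂ) n := fun θ hθ χ => by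
    constructor
    · intro h
      have h5 := (mem_iff_of_fB_eq_io hbs hBs he h).2 hθ
      exact ⟨h5, congrFun ((hirr χ h5).eq_of_classInner_ne_zero θ.2 h)⟩
    · rintro ⟨-, h⟩
      rw [funext h, θ.2.classInner_self]; exact one_ne_zero
  have h5 : ∀ θ ∈ b, ∃ χ ∈ B, ∀ n : N, ((χ : IrrCharacter G) : G → ℂ) n = (θ : N → ℂ) n :=
    fun θ hθ => by
      obtain ⟨χ, hχ⟩ := exists_over (φ := N.subtype) Subtype.val_injective θ.2
      exact ⟨χ, (h4 θ hθ χ).1 hχ⟩
  have h6 : ∀ θ ∈ b, Nat.card {χ : IrrCharacter G // χ ∈ B ∧ ∀ n : N, (χ : G → ℂ) n =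
      ((θ : IrrCharacter N) : N → ℂ) n} = N.index := fun θ hθ => by
    obtain ⟨χ, hχ, e⟩ := h5 θ hθ
    rw [← card_kerSet_of_comm hcomm, ← card_over χ.2.isCharacter (hirr χ hχ), funext e]
    exact Nat.card_congr (Equiv.subtypeEquivRight fun ψ => (h4 θ hθ ψ).symm)
  refine ⟨hNP, (def_io' hb inf_le_right).2 h1, h3, h6, ?_, ?_⟩
  · rw [mul_comm]
    refine card_eq_of_card_fiber (fun χ : B => (⟨⟨_, hirr χ χ.2⟩, ?_⟩ : b)) _ fun θ => ?_
    · obtain ⟨θ, hθ, e⟩ := h3 χ χ.2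
      exact (Subtype.ext (funext e) : (⟨_, hirr χ χ.2⟩ : IrrCharacter N) = θ) ▸ hθ
    · rw [← h6 θ θ.2]
      refine Nat.card_congr ⟨fun x => ⟨x.1.1, x.1.2, fun n => ?_⟩,
        fun x => ⟨⟨x.1, x.2.1⟩, Subtype.ext (Subtype.ext (funext x.2.2))⟩, fun _ => rfl, fun _ => rfl⟩
      exact congrFun (congrArg (fun t : b => (t.1 : N → ℂ)) x.2) n
  · refine blockRank_eq_of_res (φ := N.subtype) Subtype.val_injective
      (fun g hg => by rw [Subgroup.range_subtype]; exact hr g hg) (fun χ hχ => ?_) fun θ hθ => ?_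
    · obtain ⟨θ, hθ, e⟩ := h3 χ hχ
      exact ⟨θ, hθ, 1, fun x _ => by rw [one_mul]; exact e x⟩
    · obtain ⟨χ, hχ, e⟩ := h5 θ hθ
      exact ⟨χ, hχ, 1, fun x _ => by rw [one_mul]; exact (e x).symm⟩

end Cfsg.Agent.S4640
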