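import Cfsg.Statements.S4641
import Cfsg.Agent.H7.IBr
import Cfsg.Agent.H8.Deg

set_option autoImplicit false
open Cfsg

namespace Cfsg.Agent.S4641

open H5 H7

theorem pim_deg {G : Type*} [Group G] [Finite G] {M : Ideal AlgInt} [M.IsMaximal] (i : IBr M G) :
    charDegree (pim i) = ∑ χ : IrrCharacter G, dec (χ : G → ℂ) i * charDegree (χ : G → ℂ) := by
  apply charDegree_eq
  rw [pim, Finset.sum_apply]
  push_cast
  refine Finset.sum_congr rfl fun χ _ => ?_
  rw [charDegree_cast χ.2.isCharacter, Pi.smul_apply, smul_eq_mul]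

theorem pow_dvd_pim {G : Type*} [Group G] [Finite G] {p : ℕ} [Fact p.Prime] {M : Ideal AlgInt}
    [PM p M] (i : IBr M G) : p ^ (Nat.card G).factorization p ∣ charDegree (pim i) := by
  obtain ⟨S⟩ : Nonempty (Sylow p G) := inferInstance
  obtain ⟨k, hk⟩ := H8.card_dvd_of_vanish (isCharacter_pim i).isGen
    (S : Subgroup G) (fun g hg h1 => pim_of_dvd (p := p) i (by
      obtain ⟨n, hn⟩ := (IsPGroup.iff_orderOf.1 S.isPGroup') ⟨g, hg⟩
      rw [Subgroup.orderOf_mk] at hn
      rcases n with _ | n
      · exact absurd (orderOf_eq_one_iff.1 hn) h1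
      · exact hn ▸ dvd_pow_self p n.succ_ne_zero))
  rw [← charDegree_cast (isCharacter_pim i), Sylow.card_eq_multiplicity] at hk
  have : ((charDegree (pim i) : ℕ) : ℤ) = ((p ^ (Nat.card G).factorization p : ℕ) : ℤ) * k := by
    exact_mod_cast hk
  exact Int.natCast_dvd_natCast.1 ⟨k, this⟩

/-- Let B be a block of the finite group G relative to a maximal ideal M of the algebraic integers containing the prime p, let p^a be the p-part of the order of G and p^d the order of a defect group D of B, and let g be the greatest common divisor of the degrees of the members of B. Then the p-part of g is exactly p^(a−d), and writing g = p^(a−d)·u there is a positive integer v, prime to p and at least the p-regular rank of B (its number of irreducible Brauer characters), with Σ_{χ ∈ B} χ(1)² = p^(2a−d)·u²·v. -/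
theorem result {G : Type*} [Group G] [Finite G] (p : ℕ) [Fact p.Prime] (M : Ideal Cfsg.AlgInt) (hM : Cfsg.IsPModular p M) (B : Set (Cfsg.IrrCharacter G)) (hB : Cfsg.IsPBlock M B) (D : Subgroup G) (hD : Cfsg.IsDefectGroup p M B D) (a d : ℕ) (ha : (Nat.card G).factorization p = a) (hd : Nat.card D = p ^ d) (g : ℕ) (hg1 : ∀ χ ∈ B, g ∣ Cfsg.charDegree (χ : G → ℂ)) (hg2 : ∀ g' : ℕ, (∀ χ ∈ B, g' ∣ Cfsg.charDegree (χ : G → ℂ)) → g' ∣ g) : g.factorization p = a - d ∧ ∃ v : ℕ, 0 < v ∧ ¬ p ∣ v ∧ Cfsg.blockRank p B ≤ v ∧ ∑ᶠ χ ∈ B, Cfsg.charDegree (χ : G → ℂ) ^ 2 = p ^ (2 * a - d) * (g / p ^ (a - d)) ^ 2 * v := by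
  classical
    haveI : PM p M := ⟨hM⟩
    have hp : p.Prime := Fact.out
    have hBs := isSat_of_isPBlock hB
    have hdd : d = blockDefect p B := by
      have := IsDefectGroup.card hB hD
      rw [hd] at this
      exact Nat.pow_right_injective hp.two_le this
    have hda : d ≤ a := by rw [hdd, ← ha]; exact blockDefect_le
    obtain ⟨χ0, hχ0, h0⟩ := exists_height_zero (p := p) (block_nonempty hB)
    have hg0 : g ≠ 0 := fun h => charDegree_ne_zero χ0.2 (by simpa [h] using hg1 χ0 hχ0)
    have hgf : g.factorization p = a - d := by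
      apply le_antisymm
      · have h1 := factorization_add_defect (M := M) (p := p) hχ0
        have h2 := (Nat.factorization_le_iff_dvd hg0 (charDegree_ne_zero χ0.2)).2 (hg1 χ0 hχ0) p
        omega
      · refine (hp.pow_dvd_iff_le_factorization hg0).1 (hg2 _ fun χ hχ => ?_)
        refine (hp.pow_dvd_iff_le_factorization (charDegree_ne_zero χ.2)).2 ?_
        have h1 := factorization_add_defect (M := M) (p := p) hχ
        omega
    refine ⟨hgf, ?_⟩
    set u := g / p ^ (a - d) with hu
    have hgu : g = p ^ (a - d) * u := by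
      rw [hu, ← hgf]; exact (Nat.ordProj_mul_ordCompl_eq_self g p).symm
    have hup : Nat.Coprime (p ^ a) u := by
      rw [hu, ← hgf]; exact (Nat.coprime_ordCompl hp hg0).pow_left _
    have hx : ∀ i : IBr M G, ∃ x : ℕ, i ∈ IB M B → 0 < x ∧ bdeg i = g * x := by
      intro i
      by_cases hi : i ∈ IB M B
      · obtain ⟨m, hm0, hm1, -⟩ := hBs.exists_int_bch (p := p) hi
        have h1 := congrFun hm1 1
        rw [bch_one, Finset.sum_apply] at h1
        have h2 : ((bdeg i : ℕ) : ℤ) = ∑ χ : IrrCharacter G, m χ * (charDegree (χ : G → ℂ) : ℤ) := by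
          have : (((bdeg i : ℕ) : ℤ) : ℂ) =
              ((∑ χ : IrrCharacter G, m χ * (charDegree (χ : G → ℂ) : ℤ) : ℤ) : ℂ) := by
            push_cast
            rw [h1]
            refine Finset.sum_congr rfl fun χ _ => ?_
            rw [Pi.smul_apply, smul_eq_mul, reg_of_not_dvd _ (by simpa using hp.ne_one),
              charDegree_cast χ.2.isCharacter]
          exact_mod_cast this
        have h3 : (g : ℤ) ∣ (bdeg i : ℕ) := by
          rw [h2]
          refine Finset.dvd_sum fun χ _ => ?_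
          by_cases hχ : χ ∈ B
          · exact (Int.natCast_dvd_natCast.2 (hg1 χ hχ)).mul_left _
          · simp [hm0 χ hχ]
        obtain ⟨x, hx⟩ := Int.natCast_dvd_natCast.1 h3
        refine ⟨x, fun _ => ⟨Nat.pos_of_ne_zero fun h => ?_, hx⟩⟩
        have := bdeg_pos i
        simp [hx, h] at this
      · exact ⟨0, fun h => absurd h hi⟩
    have hw : ∀ i : IBr M G, ∃ w : ℕ, i ∈ IB M B → 0 < w ∧ charDegree (pim i) = p ^ a * u * w := by
      intro i
      by_cases hi : i ∈ IB M B
      · have h1 : u ∣ charDegree (pim i) := by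
          rw [pim_deg]
          refine Finset.dvd_sum fun χ _ => ?_
          by_cases hχ : χ ∈ B
          · exact ((Dvd.intro_left _ hgu.symm).trans (hg1 χ hχ)).mul_left _
          · simp [hBs.dec_eq_zero' hχ hi]
        obtain ⟨w, hw⟩ := hup.mul_dvd_of_dvd_of_dvd (ha ▸ pow_dvd_pim (p := p) i) h1
        refine ⟨w, fun _ => ⟨Nat.pos_of_ne_zero fun h => ?_, hw⟩⟩
        rw [h, mul_zero, pim_deg, Finset.sum_eq_zero_iff] at hw
        obtain ⟨χ, hχ⟩ := exists_dec_ne_zero' i
        exact mul_ne_zero hχ (charDegree_ne_zero χ.2) (hw χ (Finset.mem_univ _))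
      · exact ⟨0, fun h => absurd h hi⟩
    choose x hx using hx
    choose w hw using hw
    have hsum : ∑ᶠ χ ∈ B, charDegree (χ : G → ℂ) ^ 2 =
        p ^ (2 * a - d) * u ^ 2 * ∑ i, if i ∈ IB M B then x i * w i else 0 := by
      have h1 := hBs.mu_eq_sum (p := p) (y := 1) (by simpa using hp.ne_one) 1
      have h2 : mu B 1 1 = ((∑ᶠ χ ∈ B, charDegree (χ : G → ℂ) ^ 2 : ℕ) : ℂ) := by
        have h3 := blockCoeff_one B
        rw [blockCoeff_eq_mu, div_eq_inv_mul] at h3
        exact mul_left_cancel₀ (inv_ne_zero (by exact_mod_cast Nat.card_pos.ne')) h3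
      rw [h2] at h1
      have h4 : ((∑ᶠ χ ∈ B, charDegree (χ : G → ℂ) ^ 2 : ℕ) : ℂ) =
          ((p ^ (2 * a - d) * u ^ 2 * ∑ i, if i ∈ IB M B then x i * w i else 0 : ℕ) : ℂ) := by
        rw [h1, Finset.mul_sum]
        push_cast
        refine Finset.sum_congr rfl fun i _ => ?_
        split_ifs with hi
        · rw [bch_one, ← charDegree_cast (isCharacter_pim i), (hx i hi).2, (hw i hi).2, hgu,
            Complex.conj_natCast, show 2 * a - d = (a - d) + a by omega]
          push_cast; ring
        · simp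
      exact_mod_cast h4
    have hle : blockRank p B ≤ ∑ i, if i ∈ IB M B then x i * w i else 0 := by
      rw [hBs.blockRank_eq_card (p := p), Nat.card_eq_fintype_card, Fintype.card_subtype,
        Finset.card_eq_sum_ones, Finset.sum_filter]
      refine Finset.sum_le_sum fun i _ => ?_
      split_ifs with hi
      · exact Nat.mul_pos (hx i hi).1 (hw i hi).1
      · exact le_rfl
    have hpos : 0 < ∑ i, if i ∈ IB M B then x i * w i else 0 := by
      obtain ⟨i, hi⟩ := hBs.IB_nonempty (block_nonempty hB)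
      refine Finset.sum_pos' (fun _ _ => Nat.zero_le _) ⟨i, Finset.mem_univ _, ?_⟩
      rw [if_pos hi]; exact Nat.mul_pos (hx i hi).1 (hw i hi).1
    refine ⟨_, hpos, fun hv => ?_, hle, hsum⟩
    have h5 := factorization_sum_sq (p := p) hB
    have hu0 : u ≠ 0 := fun h => hg0 (by rw [hgu, h, mul_zero])
    have h6 : p ^ (2 * a - d + 1) ∣ ∑ᶠ χ ∈ B, charDegree (χ : G → ℂ) ^ 2 := by
      rw [hsum, pow_succ, mul_assoc]
      exact Nat.mul_dvd_mul_left _ (hv.mul_left _)
    have h7 := (hp.pow_dvd_iff_le_factorization (by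
      rw [hsum]; exact mul_ne_zero (mul_ne_zero (pow_ne_zero _ hp.ne_zero) (pow_ne_zero _ hu0))
        hpos.ne')).1 h6
    omega

end Cfsg.Agent.S4641
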