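import Cfsg.Statements.S4642
import Cfsg.Agent.H8.FR
import Cfsg.Agent.H1.Coprime

set_option autoImplicit false
open Cfsg

namespace Cfsg.Agent.S4642

open H5 H7 H8

/-- Let G be a finite group, p a prime, M a maximal ideal of the algebraic integers containing p, K the largest normal subgroup of G of order prime to p, and L the preimage in G of the largest normal p-subgroup of G/K. Let Q be a Sylow p-subgroup of L and suppose C_G(Q) ≤ L. Let θ be an irreducible character of K invariant under conjugation by every element of G, and let B be the set of irreducible characters of G whose restriction to K contains θ. Then B is a block of G, every Sylow p-subgroup of G is a defect group of B, and B is of principal type: for every p-subgroup R of G exactly one block of C_G(R) induces B. -/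
theorem result {G : Type*} [Group G] [Fintype G] (p : ℕ) [Fact p.Prime] (M : Ideal Cfsg.AlgInt) (hM : Cfsg.IsPModular p M) (K : Subgroup G) (hK : K = Cfsg.pPrimeCore p G) [Fintype K] (L : Subgroup G) (hL : L = Cfsg.pPrimePCore p G) (Q : Subgroup G) (hQL : Q ≤ L) (hQp : IsPGroup p Q) (hQS : ¬ p ∣ Q.relIndex L) (hCQ : Subgroup.centralizer (Q : Set G) ≤ L) (θ : Cfsg.IrrCharacter K) (hθ : ∀ g : G, Cfsg.IsConjCharOf K g (θ : K → ℂ) (θ : K → ℂ)) (B : Set (Cfsg.IrrCharacter G)) (hBdef : ∀ χ : Cfsg.IrrCharacter G, χ ∈ B ↔ Cfsg.classInner (fun k : K => (χ : G → ℂ) k) (θ : K → ℂ) ≠ 0) : Cfsg.IsPBlock M B ∧ (∀ S : Sylow p G, Cfsg.IsDefectGroup p M B S) ∧ ∀ R : Subgroup G, IsPGroup p R → ∃! f : Set (Cfsg.IrrCharacter (Subgroup.centralizer (R : Set G))), Cfsg.IsInducedBlock M (Subgroup.centralizer (R : Set G)) f B := by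
  classical
  haveI : PM p M := ⟨hM⟩
  have hp : p.Prime := Fact.out
  haveI hN : K.Normal := hK ▸ inferInstance
  have hK' : ¬ p ∣ Nat.card K := hK ▸ not_dvd_card_pPrimeCore
  have hc := ((Nat.Prime.coprime_iff_not_dvd hp).2 hK').symm
  have hπ := QuotientGroup.mk'_surjective K
  obtain ⟨U, hUn, hU, rfl⟩ : ∃ U : Subgroup (G ⧸ K), U.Normal ∧ IsPGroup p U ∧
      L = U.comap (QuotientGroup.mk' K) := by
    subst hK; exact ⟨_, inferInstance, isPGroup_pCore', hL⟩
  have hKL : K ≤ U.comap (QuotientGroup.mk' K) := fun x hx => by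
    rw [Subgroup.mem_comap, QuotientGroup.mk'_apply, (QuotientGroup.eq_one_iff x).2 hx]; exact one_mem _
  have hreg : ∀ y ∈ U.comap (QuotientGroup.mk' K), ¬ p ∣ orderOf y → y ∈ K := fun y h2 h1 =>
    (QuotientGroup.eq_one_iff y).1 ((isPE_of_mem hU h2).eq_one (not_dvd_orderOf_map (QuotientGroup.mk' K) h1))
  have hsyl : ∀ {C D : Subgroup G}, SylIn p D (C ⊓ U.comap (QuotientGroup.mk' K)) →
      D.map (QuotientGroup.mk' K) = (C ⊓ U.comap (QuotientGroup.mk' K)).map (QuotientGroup.mk' K) :=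
    fun h => ((h.map _).eq_of_le (hU.to_le (Subgroup.map_le_iff_le_comap.2 inf_le_right))
      (Subgroup.map_mono h.le) le_rfl).symm
  have hQ : SylIn p Q (⊤ ⊓ U.comap (QuotientGroup.mk' K)) := by
    rw [top_inf_eq]
    obtain ⟨D, hD, h⟩ := exists_sylIn_le hQp hQL
    exact (sylIn_of_maximal le_rfl hQp fun _ _ a b => le_antisymm b a).of_relIndex hQL hQS
  have hQU : Q.map (QuotientGroup.mk' K) = U := by
    rw [hsyl hQ, top_inf_eq, Subgroup.map_comap_eq_self_of_surjective hπ]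
  have hsup : ∀ {C D : Subgroup G}, SylIn p D (C ⊓ U.comap (QuotientGroup.mk' K)) →
      K ⊓ C ⊔ D = C ⊓ U.comap (QuotientGroup.mk' K) := fun {C D} h =>
    le_antisymm (sup_le (le_inf inf_le_right (inf_le_left.trans hKL)) h.le) fun x hx => by
      obtain ⟨d, hd, e⟩ := (hsyl h).ge ⟨x, hx, rfl⟩
      have := QuotientGroup.eq.1 e
      rw [show x = d * (d⁻¹ * x) by simp]
      exact mul_mem (Subgroup.mem_sup_right hd)
        (Subgroup.mem_sup_left ⟨this, C.mul_mem (C.inv_mem (h.le hd).1) hx.1⟩)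
  have hi : (ne_subtype K).Invt {θ} := fun g η e => by
    rw [e]; exact Subtype.ext (funext fun n => by rw [ieq_apply, cjA_subtype]; exact hθ g n _ rfl)
  have hb := isPBlock_singleton (M := M) hK' θ
  obtain rfl : B = covSet K.subtype {θ} :=
    Set.ext fun χ => (hBdef χ).trans ⟨fun h => ⟨θ, rfl, h⟩, fun ⟨η, e, h⟩ => e ▸ h⟩
  have hsat := hi.isSat_covSet (isSat_of_isPBlock hb)
  have hf : fB M (covSet K.subtype {θ}) = io M K {θ} := (hi.mapDomain_fB (isSat_of_isPBlock hb)).symm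
  have hI : io M K {θ} ∈ Inv (F M) ⊤ := hf ▸ (fB_mem_ZI _).2
  have hnU : ∀ C : Subgroup G, C ≤ nN (C ⊓ U.comap (QuotientGroup.mk' K)) := fun C =>
    le_nN_inf (le_nN_self C) Subgroup.le_normalizer_of_normal
  have hB : IsPBlock M (covSet K.subtype {θ}) := (blk_fB hsat).1 (hf ▸ fong_blk (tw_top K) hK' hQp le_top
    (by have := hsup hQ; rw [inf_top_eq] at this; exact this ▸ hnU ⊤)
    (fun y hy => hreg y (hCQ hy.2)) (blk_io' hb) hI)
  refine ⟨hB, fun S => (def_fB hB).2 ?_, fun R hR => ?_⟩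
  · obtain ⟨D, hD, h⟩ := exists_def_le tw_tt (blk_fB_of_isPBlock hB) le_top S.isPGroup' (hf ▸
      (def_of_cop hK' S.isPGroup' Subgroup.le_normalizer_of_normal (blk_io' hb) (Inv_anti le_top hI)).ne)
    rwa [(sylIn_top S).eq_of_le hD.pg h le_top] at hD
  obtain ⟨D, hD⟩ := exists_sylIn p (cC R ⊓ U.comap (QuotientGroup.mk' K))
  have h1 : Blk (cC R) (Br R (io M K {θ})) := by
    refine fong_blk (Q := D) ⟨inf_le_right, le_nN_inf Subgroup.le_normalizer_of_normal (le_nN_self _)⟩
      (fun h => hK' (h.trans (Subgroup.card_dvd_of_le inf_le_left))) hD.isPGroup (hD.le.trans inf_le_left)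
      (hsup hD ▸ hnU _) (fun y hy hr => ⟨hreg y ?_ hr, hy.1⟩)
      (blk_Br_of_cop hK' hR Subgroup.le_normalizer_of_normal (blk_io' hb) (Inv_anti le_top hI))
      (Inv_anti (le_inf le_top (cC_le_nN R)) (Br_mem_ZI ⟨(io_mem_ZI _).1, hI⟩ R).2)
    have h2 := H1.thompson_PxQ p (R.map (QuotientGroup.mk' K)) (Subgroup.zpowers (y : G ⧸ K)) U (hR.map _)
      (by rw [Nat.card_zpowers]
          exact ((Nat.Prime.coprime_iff_not_dvd hp).2 (not_dvd_orderOf_map (QuotientGroup.mk' K) hr)).symm)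
      hU (le_cC_comm.1 (Subgroup.zpowers_le.2 (map_mem_centralizer_map _ hy.1)))
      Subgroup.le_normalizer_of_normal Subgroup.le_normalizer_of_normal (fun x hx => by
        rw [← H4.map_mk'_centralizer_of_coprime hR hc] at hx
        obtain ⟨h3, z, hz, rfl⟩ := hx
        exact le_cC_comm.1 (Subgroup.zpowers_le.2 (map_mem_centralizer_map (QuotientGroup.mk' K) hy.2))
          ((hsyl hD).ge ⟨z, ⟨hz, h3⟩, rfl⟩))
    rw [← hQU, ← H4.map_mk'_centralizer_of_coprime hQp hc] at h2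
    obtain ⟨z, hz, e⟩ := h2 (Subgroup.mem_zpowers _)
    exact Subgroup.mem_comap.2 ((show (QuotientGroup.mk' K) z = QuotientGroup.mk' K y from e) ▸ hCQ hz)
  obtain ⟨f, h2, h3⟩ := exists_io_eq h1
  refine ⟨f, (isInducedBlock_cC_iff hR h2 hB).2 (by rw [hf, h3]; exact h1.idem), fun f' h4 => ?_⟩
  have h5 := (isInducedBlock_cC_iff hR h4.1 hB).1 h4
  exact io_inj' h4.1 h2 (h3 ▸ (h1.eq_of_mul_ne_zero (comm_blk _) (blk_io' h4.1)
    (by rw [← hf, h5]; exact (blk_io' h4.1).ne)).symm)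

end Cfsg.Agent.S4642
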