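import Cfsg.Statements.S4644
import Cfsg.Agent.H7.Wat

set_option autoImplicit false
open Cfsg

namespace Cfsg.Agent.S4644

open H5 H7

/-- Let B be a block of the finite group G relative to a maximal ideal M of the algebraic integers containing the prime p, with a commutative defect group P; let c be a block of C_G(P) inducing B and T the stabilizer of c in N_G(P). Let u be an element of P fixed under conjugation by every element of T, H = C_G(u) (so C_G(P) ≤ H), and f the block of H induced by c inside H. Then B and f have the same p-regular rank and the same number of irreducible characters. -/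
theorem result {G : Type*} [Group G] [Finite G] (p : ℕ) [Fact p.Prime] (M : Ideal Cfsg.AlgInt) (hM : Cfsg.IsPModular p M) (B : Set (Cfsg.IrrCharacter G)) (hB : Cfsg.IsPBlock M B) (P : Subgroup G) (hPD : Cfsg.IsDefectGroup p M B P) (hPab : ∀ x ∈ P, ∀ y ∈ P, x * y = y * x) (c : Set (Cfsg.IrrCharacter (Subgroup.centralizer (P : Set G)))) (hc : Cfsg.IsInducedBlock M (Subgroup.centralizer (P : Set G)) c B) (T : Subgroup G) (hT : ∀ g : G, g ∈ T ↔ (g ∈ Subgroup.normalizer (P : Set G) ∧ Cfsg.StabilizesBlock (Subgroup.centralizer (P : Set G)) c g)) (u : G) (hu : u ∈ P) (huT : ∀ g ∈ T, g * u * g⁻¹ = u) (H : Subgroup G) (hH : H = Subgroup.centralizer ({u} : Set G)) (f : Set (Cfsg.IrrCharacter H)) (hf : Cfsg.IsInducedBlockIn M H (Subgroup.centralizer (P : Set G)) c f) : Cfsg.blockRank p B = Cfsg.blockRank p f ∧ Nat.card B = Nat.card f := by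
  haveI : PM p M := ⟨hM⟩
  have hab : P ≤ H8.cC P := fun x hx y hy => hPab y hy x hx
  obtain ⟨m, hm⟩ := exists_mp_of_ind hPD hab le_rfl le_sup_right hc
  have hf' : IsPBlock M f := hf.2.1
  have hb := H8.blk_io' hf'
  have hQ := Subgroup.zpowers_le.2 hu
  have e : H = H8.cC (Subgroup.zpowers u) := by
    rw [hH, ← top_inf_eq (H8.cC _), top_inf_cC_zpowers]
  have h2 : P ≤ H := e ▸ hab.trans (H8.cC_anti hQ)
  have h : H8.Le p ⊤ (Subgroup.zpowers u) (H8.io M _ f) P m.e := H8.NS.toLe ⟨⟨m.mx.pg.to_le hQ, by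
    rw [top_inf_eq, ← e]; exact hb⟩, m.mx.pair, hQ, (h2.trans e.le).trans (H8.cC_le_nN _),
    Inv_anti h2 hb.mem.2, hm ▸ (H8.isInducedBlockIn_iff (e ▸ H8.cC_anti hQ) m.mx.pg hab inf_le_right
      (H8.cC_le_nN P) hc.1 hf').1 hf⟩
  have e1 := H8.stab_eq hc.1 hT
  rw [← hm] at e1
  obtain ⟨m', l⟩ := m.exists_lv hab hQ e hf' h
  exact l.watanabe hab fun t ht => huT t (e1 ▸ ht)

end Cfsg.Agent.S4644
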