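import Cfsg.Statements.S4645
import Cfsg.Agent.H7.Perf

set_option autoImplicit false
open Cfsg

namespace Cfsg.Agent.S4645

open H5 H7

/-- Let B be a block of the finite group G relative to a maximal ideal M of the algebraic integers containing the prime p, with a nontrivial cyclic defect group P; let c be a block of C_G(P) inducing B and T the stabilizer of c in N_G(P). Let Q be a nontrivial subgroup of P (so C_G(P) ≤ C_G(Q)), f the block of C_G(Q) induced by c inside C_G(Q), and T' the stabilizer of f in N_G(Q). Then T' = T·C_G(Q), the index of C_G(Q) in T' equals the index of C_G(P) in T, f has p-regular rank 1, and f is a nilpotent block of C_G(Q). -/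
theorem result {G : Type*} [Group G] [Finite G] (p : ℕ) [Fact p.Prime] (M : Ideal Cfsg.AlgInt) (hM : Cfsg.IsPModular p M) (B : Set (Cfsg.IrrCharacter G)) (hB : Cfsg.IsPBlock M B) (P : Subgroup G) (hPD : Cfsg.IsDefectGroup p M B P) (hP1 : P ≠ ⊥) (hcyc : IsCyclic P) (c : Set (Cfsg.IrrCharacter (Subgroup.centralizer (P : Set G)))) (hc : Cfsg.IsInducedBlock M (Subgroup.centralizer (P : Set G)) c B) (T : Subgroup G) (hT : ∀ g : G, g ∈ T ↔ (g ∈ Subgroup.normalizer (P : Set G) ∧ Cfsg.StabilizesBlock (Subgroup.centralizer (P : Set G)) c g)) (Q : Subgroup G) (hQP : Q ≤ P) (hQ1 : Q ≠ ⊥) (f : Set (Cfsg.IrrCharacter (Subgroup.centralizer (Q : Set G)))) (hf : Cfsg.IsInducedBlockIn M (Subgroup.centralizer (Q : Set G)) (Subgroup.centralizer (P : Set G)) c f) (T' : Subgroup G) (hT' : ∀ g : G, g ∈ T' ↔ (g ∈ Subgroup.normalizer (Q : Set G) ∧ Cfsg.StabilizesBlock (Subgroup.centralizer (Q : Set G)) f g)) : T' = T ⊔ Subgroup.centralizer (Q : Set G) ∧ (Subgroup.centralizer (Q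 : Set G)).relIndex T' = (Subgroup.centralizer (P : Set G)).relIndex T ∧ Cfsg.blockRank p f = 1 ∧ Cfsg.IsNilpotentBlock p M f := by
      haveI : PM p M := ⟨hM⟩
      have hab := cyc_ab hcyc
      obtain ⟨m, hm⟩ := exists_mp_of_ind hPD hab le_rfl le_sup_right hc
      have hf' : IsPBlock M f := hf.2.1
      have hb := H8.blk_io' hf'
      have h2 : P ≤ H8.cC Q := hab.trans (H8.cC_anti hQP)
      have h : H8.Le p ⊤ Q (H8.io M _ f) P m.e := H8.NS.toLe ⟨⟨m.mx.pg.to_le hQP, by
        rw [top_inf_eq]; exact hb⟩, m.mx.pair, hQP, h2.trans (H8.cC_le_nN Q), Inv_anti h2 hb.mem.2,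
        hm ▸ (H8.isInducedBlockIn_iff (H8.cC_anti hQP) m.mx.pg hab inf_le_right (H8.cC_le_nN P) hc.1
          hf').1 hf⟩
      have e1 := H8.stab_eq hc.1 hT
      rw [← hm] at e1
      have hi := m.cyc_inf_le hcyc hQP hQ1
      have hN : T ≤ H8.nN Q := fun _ ht => cyc_mem_nN hcyc hQP (H8.cj_le_of_nN ((hT _).1 ht).1 hQP)
      have e2 : T' = T ⊔ H8.cC Q := by
        rw [H8.stab_eq hf' hT']
        refine le_antisymm (fun n hn => ?_) (sup_le (fun t ht => ⟨hN ht, H8.mem_St.2 (m.mx.unique ?_ h)⟩)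
          (H8.cC_le_stab f))
        · obtain ⟨k, hk, t, ht, rfl⟩ := m.stab_eq hab h hn
          exact mul_mem (Subgroup.mem_sup_right hk) (Subgroup.mem_sup_left (e1 ▸ ht))
        · have := h.cA (x := t) (H8.le_nN_top ⊤ trivial)
          rwa [H8.mem_nN_iff.1 (e1.le ht).1, H8.mem_nN_iff.1 (hN ht), H8.mem_St.1 (e1.le ht).2] at this
      have nil := m.nil_loc hab hf' h hi
      obtain ⟨m', -⟩ := m.exists_loc h2 hf' h
      refine ⟨e2, ?_, (m'.nl_of_nil nil).rank, nil⟩
      have hn : ((H8.cC Q).subgroupOf (H8.nN Q)).Normal :=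
        (Subgroup.normal_subgroupOf_iff_le_normalizer (H8.cC_le_nN Q)).2 (H8.nN_le_nN_cC Q)
      rw [e2, ← Subgroup.relIndex_subgroupOf (sup_le hN (H8.cC_le_nN Q)),
        Subgroup.subgroupOf_sup hN (H8.cC_le_nN Q), Subgroup.relIndex_sup_right,
        Subgroup.relIndex_subgroupOf hN, ← Subgroup.inf_relIndex_right,
        ← Subgroup.inf_relIndex_right (Subgroup.centralizer (P : Set G))]
      congr 1
      exact le_antisymm (fun x hx => ⟨hi ⟨e1.le hx.2, hx.1⟩, hx.2⟩) (inf_le_inf_right _ (H8.cC_anti hQP))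

end Cfsg.Agent.S4645
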