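import Cfsg.Statements.S4648
import Cfsg.Agent.H7.OT

set_option autoImplicit false
open Cfsg

namespace Cfsg.Agent.S4648

open H5 H7

/-- Let B be a block of the finite group G relative to a maximal ideal M of the algebraic integers containing the prime p, with a nontrivial defect group D. If B has p-regular rank 1 and at most four irreducible characters, then B is nilpotent, D has exactly as many elements as B has irreducible characters, and p is 2 or 3. -/
theorem result {G : Type*} [Group G] [Finite G] (p : ℕ) [Fact p.Prime] (M : Ideal Cfsg.AlgInt) (hM : Cfsg.IsPModular p M) (B : Set (Cfsg.IrrCharacter G)) (hB : Cfsg.IsPBlock M B) (D : Subgroup G) (hD : Cfsg.IsDefectGroup p M B D) (hD1 : D ≠ ⊥) (hl : Cfsg.blockRank p B = 1) (hk : Nat.card B ≤ 4) : Cfsg.IsNilpotentBlock p M B ∧ Nat.card D = Nat.card B ∧ (p = 2 ∨ p = 3) := by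
  haveI : PM p M := ⟨hM⟩
  obtain ⟨-, h1, h2⟩ := nil_of_card hB hl hk hD
  refine ⟨h1, h2, ?_⟩
  have h3 := IsDefectGroup.card hB hD
  have h4 : p ∣ Nat.card B := by
    rw [← h2, h3]
    exact dvd_pow_self p fun e => hD1 (Subgroup.card_eq_one.1 (by rw [h3, e, pow_zero]))
  have hp : p.Prime := Fact.out
  have := Nat.le_of_dvd (h2 ▸ Nat.card_pos) h4
  have := hp.two_le
  have : p ≠ 4 := by rintro rfl; exact absurd hp (by norm_num)
  omega

end Cfsg.Agent.S4648
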