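import Cfsg.Statements.S4649
import Cfsg.Agent.H7.Perf

set_option autoImplicit false
open Cfsg

namespace Cfsg.Agent.S4649

open H5 H7

/-- A block with cyclic defect group, of a finite group relative to a maximal ideal M of the algebraic integers containing the prime p, is nilpotent if and only if its p-regular rank is 1 (it has a unique irreducible Brauer character). -/
theorem result {G : Type*} [Group G] [Finite G] (p : ℕ) [Fact p.Prime] (M : Ideal Cfsg.AlgInt) (hM : Cfsg.IsPModular p M) (B : Set (Cfsg.IrrCharacter G)) (hB : Cfsg.IsPBlock M B) (P : Subgroup G) (hPD : Cfsg.IsDefectGroup p M B P) (hcyc : IsCyclic P) : Cfsg.IsNilpotentBlock p M B ↔ Cfsg.blockRank p B = 1 := by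
      haveI : PM p M := ⟨hM⟩
      have := Fintype.ofFinite G
      have := Fintype.ofFinite P
      obtain ⟨m⟩ := nonempty_mp hB hPD
      refine ⟨fun h => (m.nl_of_nil h).rank, fun h => (m.nil_iff (cyc_ab hcyc)).2 ?_⟩
      by_cases h1 : P = ⊥
      · subst h1
        intro x _ y hy
        rw [show y = 1 from hy, one_mul, mul_one]
      obtain ⟨a, ζ, δ, α, s, -⟩ := m.exists_sf hcyc h1
      rwa [s.rank (isSat_of_isPBlock hB), m.card_autE, Subgroup.relIndex_eq_one] at h

end Cfsg.Agent.S4649
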