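import Cfsg.Statements.S4650
import Cfsg.Agent.H8.Pairs4

set_option autoImplicit false
open Cfsg

namespace Cfsg.Agent.S4650

open H5 H7 H8

/-- Let B be a block of the finite group G relative to a maximal ideal M of the algebraic integers containing the prime p, with a nontrivial commutative defect group P; let c be a block of C_G(P) inducing B and T the stabilizer of c in N_G(P). Then T/C_G(P) acts freely on the non-identity elements of P (an element of T fixing a non-identity element of P under conjugation lies in C_G(P)) if and only if, for every nontrivial subgroup Q of P, the block of C_G(Q) induced by c inside C_G(Q) is a nilpotent block of C_G(Q). -/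
theorem result {G : Type*} [Group G] [Finite G] (p : ℕ) [Fact p.Prime] (M : Ideal Cfsg.AlgInt) (hM : Cfsg.IsPModular p M) (B : Set (Cfsg.IrrCharacter G)) (hB : Cfsg.IsPBlock M B) (P : Subgroup G) (hPD : Cfsg.IsDefectGroup p M B P) (hPab : ∀ x ∈ P, ∀ y ∈ P, x * y = y * x) (hP1 : P ≠ ⊥) (c : Set (Cfsg.IrrCharacter (Subgroup.centralizer (P : Set G)))) (hc : Cfsg.IsInducedBlock M (Subgroup.centralizer (P : Set G)) c B) (T : Subgroup G) (hT : ∀ g : G, g ∈ T ↔ (g ∈ Subgroup.normalizer (P : Set G) ∧ Cfsg.StabilizesBlock (Subgroup.centralizer (P : Set G)) c g)) : (∀ g ∈ T, ∀ x ∈ P, x ≠ 1 → g * x * g⁻¹ = x → g ∈ Subgroup.centralizer (P : Set G)) ↔ ∀ Q : Subgroup G, Q ≤ P → Q ≠ ⊥ → ∀ f : Set (Cfsg.IrrCharacter (Subgroup.centralizer (Q : Set G))), Cfsg.IsInducedBlockIn M (Subgroup.centralizer (Q : Set G)) (Subgroup.centralizer (P : Set G)) c f → Cfsg.IsNilpotentBlock p M f := by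
  haveI : PM p M := ⟨hM⟩
  have hD := (def_fB hB).1 hPD
  have hab : P ≤ cC P := fun x hx y hy => hPab y hy x hx
  have hcb : IsPBlock M c := hc.1
  have pc : Pair p ⊤ P (io M (cC P) c) := ⟨hD.pg, by rw [top_inf_eq]; exact blk_io' hcb⟩
  have m : Mx p ⊤ ⊤ (fB M B) P (io M (cC P) c) := ⟨tw_tt, blk_fB_of_isPBlock hB, hD, le_top, pc,
    (isInducedBlock_iff_Br hD.pg hab le_rfl (cC_le_nN P) hcb hB).1 hc⟩
  have hT' := stab_eq hcb hT
  have k1 : ∀ Q : Subgroup G, Q ≤ P → ∀ f : Set (IrrCharacter (cC Q)), IsPBlock M f →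
      (IsInducedBlockIn M (cC Q) (cC P) c f ↔
        Br P (io M (cC Q) f) * io M (cC P) c = io M (cC P) c) := fun Q hQ f hf =>
    isInducedBlockIn_iff (cC_anti hQ) hD.pg hab inf_le_right (cC_le_nN P) hcb hf
  have k2 : ∀ Q : Subgroup G, Q ≤ P → ∀ f : Set (IrrCharacter (cC Q)), IsPBlock M f →
      Le p ⊤ Q (io M (cC Q) f) P (io M (cC P) c) →
      (IsNilpotentBlock p M f ↔ cC Q ⊓ nN P ⊓ St (io M (cC P) c) ≤ cC P) := fun Q hQ f hf h => by
    have := (m.loc_of_abelian hab h le_rfl (le_inf (inf_le_inf le_rfl (cC_le_nN Q))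
      (h.lo pc).le_St) (le_inf le_top (hab.trans (cC_anti hQ)))).nilB_iff_of_abelian hab
    rw [top_inf_eq] at this
    rw [nil_io hf, this]
  refine ⟨fun h Q hQ h1 f hf => ?_, fun h g hg x hx h1 h2 => ?_⟩
  · have hf' : IsPBlock M f := hf.2.1
    have hb := blk_io' hf'
    have h2 : P ≤ cC Q := hab.trans (cC_anti hQ)
    refine (k2 Q hQ f hf' (NS.toLe ⟨⟨hD.pg.to_le hQ, by rw [top_inf_eq]; exact hb⟩, pc, hQ,
      h2.trans (cC_le_nN Q), Inv_anti h2 hb.mem.2, (k1 Q hQ f hf').1 hf⟩)).2 fun g hg => ?_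
    obtain ⟨⟨x, hx⟩, hx1⟩ := (Subgroup.ne_bot_iff_exists_ne_one).1 h1
    refine h g (hT' ▸ ⟨hg.1.2, hg.2⟩) x (hQ hx) (fun h => hx1 (Subtype.ext h)) ?_
    rw [← hg.1.1 x hx, mul_inv_cancel_right]
  · have hQ : Subgroup.zpowers x ≤ P := Subgroup.zpowers_le.2 hx
    obtain ⟨i, hi⟩ := m.exists_le hQ
    obtain ⟨f, hf, rfl⟩ := (hi.lo pc).exists_io
    have h3 := hi.toNS pc m.norm ((hab.trans (cC_anti hQ)).trans (cC_le_nN _))
    rw [hT'] at hg
    refine (k2 _ hQ f hf hi).1 (h _ hQ (by rwa [Ne, Subgroup.zpowers_eq_bot]) f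
      ((k1 _ hQ f hf).2 h3.br)) ⟨⟨?_, hg.1⟩, hg.2⟩
    rw [cC, centralizer_zpowers]
    exact Subgroup.mem_centralizer_singleton_iff.2 (mul_inv_eq_iff_eq_mul.1 h2)

end Cfsg.Agent.S4650
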