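import Cfsg.Statements.S4651
import Cfsg.Agent.H8.Chain

set_option autoImplicit false
open Cfsg

namespace Cfsg.Agent.S4651

open H5 H7 H8 H8.Chain Finset

/-- An alternating-sum identity over chains of p-subgroups (the character-count form behind the chain reformulation of Alperin's weight conjecture, which holds unconditionally for the difference k − l). Let b be a block of the finite group G relative to a maximal ideal M of the algebraic integers containing the prime p. Consider the nonempty chains s = {Q_0 < Q_1 < ⋯ < Q_m} of nontrivial p-subgroups of G in which every member is normal in the largest member; let N_G(s) be the intersection of the normalizers of the members (the stabilizer of the chain), and let b_s be the set of irreducible characters of N_G(s) lying in blocks of N_G(s) that induce b. Then #G · (k(b) − l(b)) equals the sum over all such chains s of (−1)^m · #N_G(s) · (k(b_s) − l(b_s)), where k counts irreducible characters and l is the p-regular rank;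 equivalently, k(b) − l(b) is the alternating sum of k(b_s) − l(b_s) over representatives of the conjugacy classes of such chains. -/
theorem result {G : Type*} [Group G] [Finite G] (p : ℕ) [Fact p.Prime] (M : Ideal Cfsg.AlgInt) (hM : Cfsg.IsPModular p M) (b : Set (Cfsg.IrrCharacter G)) (hb : Cfsg.IsPBlock M b) : (Nat.card G : ℤ) * ((Nat.card b : ℤ) - (Cfsg.blockRank p b : ℤ)) = ∑ᶠ s ∈ {s : Finset (Subgroup G) | s.Nonempty ∧ (∀ Q ∈ s, ∀ R ∈ s, Q ≤ R ∨ R ≤ Q) ∧ (∀ Q ∈ s, Q ≠ ⊥ ∧ IsPGroup p Q) ∧ ∃ T ∈ s, ∀ Q ∈ s, Q ≤ T ∧ T ≤ Subgroup.normalizer ((Q : Subgroup G) : Set G)}, (-1 : ℤ) ^ (s.card - 1) * (Nat.card (((⨅ Q ∈ s, Subgroup.normalizer ((Q : Subgroup G) : Set G) : Subgroup G))) : ℤ) * ((Nat.card {ψ : Cfsg.IrrCharacter (((⨅ Q ∈ s, Subgroup.normalizer ((Q : Subgroup G) : Set G) : Subgroup G))) | ∃ β : Set (Cfsg.IrrCharacter (((⨅ Q ∈ s, Subgroup.normalizer ((Q : Subgroup G) : Set G) : Subgroup G)))), ψ ∈ β ∧ Cfsg.IsInducedBlock M (((⨅ Q ∈ s, Subgroup.normalizer ((Q : Subgroup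 G) : Set G) : Subgroup G))) β b} : ℤ) - (Cfsg.blockRank p {ψ : Cfsg.IrrCharacter (((⨅ Q ∈ s, Subgroup.normalizer ((Q : Subgroup G) : Set G) : Subgroup G))) | ∃ β : Set (Cfsg.IrrCharacter (((⨅ Q ∈ s, Subgroup.normalizer ((Q : Subgroup G) : Set G) : Subgroup G)))), ψ ∈ β ∧ Cfsg.IsInducedBlock M (((⨅ Q ∈ s, Subgroup.normalizer ((Q : Subgroup G) : Set G) : Subgroup G))) β b} : ℤ)) := by
  classical
  haveI : PM p M := ⟨hM⟩
  letI := Fintype.ofFinite G
  letI := Fintype.ofFinite (Finset (Subgroup G))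
  have hs := isSat_of_isPBlock hb
  set S : Finset (Finset (Subgroup G)) := univ.filter fun s => Valid p s with hS
  have e1 : {s : Finset (Subgroup G) | s.Nonempty ∧ (∀ Q ∈ s, ∀ R ∈ s, Q ≤ R ∨ R ≤ Q) ∧ (∀ Q ∈ s, Q ≠ ⊥ ∧ IsPGroup p Q) ∧ ∃ T ∈ s, ∀ Q ∈ s, Q ≤ T ∧ T ≤ Subgroup.normalizer ((Q : Subgroup G) : Set G)} = (S.erase ∅ : Finset _) := by
    ext s
    simp only [Set.mem_ofPred_eq, coe_erase, Set.mem_sdiff, mem_coe, hS, mem_filter, mem_univ,
      true_and, Set.mem_singleton_iff, ← nonempty_iff_ne_empty]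
    constructor
    · rintro ⟨h1, h2, h3, T, hT, h4⟩
      exact ⟨⟨h2, h3, fun Q hQ R hR => (h4 R hR).1.trans (h4 Q hQ).2⟩, h1⟩
    · rintro ⟨h, h1⟩
      obtain ⟨T, hT, h2⟩ := exists_top h.tot h1
      exact ⟨h1, h.tot, h.pg, T, hT, fun Q hQ => ⟨h2 Q hQ, h.nm Q hQ T hT⟩⟩
  rw [e1, finsum_mem_coe_finset]
  apply Int.cast_injective (α := ℂ)
  push_cast
  have h0 := card_mul_sub_rank (p := p) (M := M) (ψ := MonoidHom.id G) Function.injective_id
    (fun ξ => ⟨ξ, fun z _ => congrArg _ (by ext; simp)⟩) hs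
  have e0 : indSet M (MonoidHom.id G) b = b := by
    ext ξ
    exact Ind.mem_indSet_iff hs (fun z _ => congrArg _ (by ext; simp))
  rw [e0, MonoidHom.range_eq_top.2 Function.surjective_id] at h0
  rw [h0, sum_congr rfl (g := fun s => ∑ g, if p ∣ orderOf g then -((-1) ^ s.card *
    locMu M b g (stab s ⊓ Subgroup.centralizer {pp p g})) else 0), sum_comm]
  · refine sum_congr rfl fun g _ => ?_
    split_ifs with hg
    · have := sum_chain_eq_zero (isPE_pp (p := p) g) (fun h => pp_eq_one_iff.1 h hg) S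
        (fun s => by simp [hS]) (locMu M b g) (fun C hC => dif_neg fun h => hC (pp_mem h))
      rw [← add_sum_erase S _ (a := ∅) (by
        rw [hS, mem_filter]; exact ⟨mem_univ _, by simp, by simp, by simp⟩)] at this
      rw [sum_neg_distrib, ← eq_neg_iff_add_eq_zero.2 this]
      simp [stab]
    · simp
  · intro s hs1
    obtain ⟨h1, h2⟩ := mem_erase.1 hs1
    have h := (mem_filter.1 h2).2
    obtain ⟨T, hT, h3⟩ := exists_top h.tot (nonempty_iff_ne_empty.2 h1)
    have L : LocSet p (stab s).subtype T := locSet_subtype (h.pg T hT).2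
      (fun x hx => mem_stab.2 fun Q hQ => h.nm Q hQ T hT hx)
      (fun x hx => mem_stab.2 fun Q hQ => centralizer_le_normalizer' Q
        (Subgroup.centralizer_le (h3 Q hQ) hx))
      (fun x hx => mem_stab.1 hx T hT)
    have h4 := card_mul_sub_rank (p := p) (M := M) L.inj (fun ξ => L.exists_ind M ξ.2) hs
    have e2 : {ψ : IrrCharacter (stab s) | ∃ β : Set (IrrCharacter (stab s)), ψ ∈ β ∧
        IsInducedBlock M (stab s) β b} = indSet M (stab s).subtype b := by
      ext ψ
      simp only [Set.mem_ofPred_eq, isInducedBlock_iff_indB]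
      exact ⟨fun ⟨β, h5, h6⟩ => h6.subset_indSet h5,
        fun h5 => ⟨_, mem_blockOf_self _, (L.mem_indSet_iff hb).1 h5⟩⟩
    rw [← e2, Subgroup.range_subtype] at h4
    rw [mul_assoc]
    refine (congrArg _ h4).trans ?_
    rw [mul_sum]
    refine sum_congr rfl fun g _ => ?_
    obtain ⟨k, hk⟩ := Nat.exists_eq_succ_of_ne_zero (card_ne_zero.2 (nonempty_iff_ne_empty.2 h1))
    rw [hk]
    split_ifs
    · simp [pow_succ]
    · simp

end Cfsg.Agent.S4651
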