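import Cfsg.Statements.S4654
import Cfsg.Agent.H8.Pairs4

set_option autoImplicit false
open Cfsg

namespace Cfsg.Agent.S4654

open H5 H7 H8

/-- Fix a prime p and a maximal ideal M of the algebraic integers containing p. Let P be a normal p-subgroup of the finite group G, B a p-block of G and e a p-block of C_G(P) such that (P, e) is a Brauer pair of B (as P is normal, this says that e occurs in the idempotent of B, which is supported on C_G(P)). Let T be the stabilizer of e in G under conjugation. Then the idempotent of e is a block idempotent of T: some block E of T has, at every element of T, the same idempotent coefficient as e (zero off C_G(P)); and the idempotent of B is the sum of the distinct G-conjugates of the idempotent of e: its coefficient at g is the sum over all x in G of the coefficient of e at x⁻¹ g x, divided by the order of T. -/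
theorem result {G : Type*} [Group G] [Fintype G] (p : ℕ) [Fact p.Prime] (M : Ideal Cfsg.AlgInt) (hM : Cfsg.IsPModular p M) (P : Subgroup G) [P.Normal] (hP : IsPGroup p P) (B : Set (Cfsg.IrrCharacter G)) (e : Set (Cfsg.IrrCharacter (Subgroup.centralizer (P : Set G)))) (hBe : Cfsg.IsBrauerPairOf p M B P e) (T : Subgroup G) (hT : ∀ x : G, x ∈ T ↔ Cfsg.StabilizesBlock (Subgroup.centralizer (P : Set G)) e x) : (∃ E : Set (Cfsg.IrrCharacter T), Cfsg.IsPBlock M E ∧ ∀ t : T, Cfsg.blockCoeff E t = Cfsg.subgroupBlockCoeff (Subgroup.centralizer (P : Set G)) e (t : G)) ∧ ∀ g : G, Cfsg.blockCoeff B g = (Nat.card T : ℂ)⁻¹ * ∑ x : G, Cfsg.subgroupBlockCoeff (Subgroup.centralizer (P : Set G)) e (x⁻¹ * g * x) := by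
  haveI : PM p M := ⟨hM⟩
  have h := bp_of hBe
  have he : IsPBlock M e := hBe.1.2
  have hB : IsPBlock M B := hBe.2.1
  have hn : ∀ K : Subgroup G, K ≤ nN P := fun K => le_top.trans (tw_top P).norm
  haveI : (cC P).Normal := inferInstance
  have hT' : T = nN P ⊓ St (io M (cC P) e) := stab_eq he fun y => by
    rw [hT]; exact ⟨fun h => ⟨hn ⊤ (Subgroup.mem_top y), h⟩, fun h => h.2⟩
  obtain ⟨E, hE, -, h1⟩ := exists_block_stab' hP he hT'
  refine ⟨⟨E, hE, h1⟩, fun g => ?_⟩
  have hb := (blk_iff_of_normal' (p := p) hP le_top le_top (hn ⊤)).1 (blk_fB_of_isPBlock hB)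
  obtain ⟨A, hA, h2⟩ := exists_io_eq_of_idem (ZI_mono le_rfl le_top hb.mem) hb.idem
  have h3 := h.br
  rw [Br_eq_self hb.mem.1] at h3
  rw [coeff_eq_of_fB_eq hA (isSat_of_isPBlock hB) h2.symm, sbc_eq_sum_orbit hA he (h2 ▸ hb)
    (by rw [h2, h3]; exact (blk_io' he).ne), hT', inf_eq_right.2 (hn _)]

end Cfsg.Agent.S4654
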