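import Cfsg.Statements.S4656
import Cfsg.Agent.H8.Pairs2

set_option autoImplicit false
open Cfsg

namespace Cfsg.Agent.S4656

open H5 H7 H8

/-- Fix a prime p and a maximal ideal M of the algebraic integers containing p. Let (P, e) be a Brauer pair of the finite group G and Q a normal subgroup of P. Then there is exactly one p-block f of C_G(Q) that is stable under conjugation by P and such that e occurs in the Brauer-map image at P of the idempotent of f; that is, exactly one f with (Q, f) normally below (P, e). -/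
theorem result {G : Type*} [Group G] [Fintype G] (p : ℕ) [Fact p.Prime] (M : Ideal Cfsg.AlgInt) (hM : Cfsg.IsPModular p M) (P Q : Subgroup G) (e : Set (Cfsg.IrrCharacter (Subgroup.centralizer (P : Set G)))) (hPe : Cfsg.IsBrauerPair p M P e) (hQP : Q ≤ P) (hPN : P ≤ Subgroup.normalizer (Q : Set G)) : ∃! f : Set (Cfsg.IrrCharacter (Subgroup.centralizer (Q : Set G))), Cfsg.IsNormalSubpair p M Q f P e := by
  haveI : PM p M := ⟨hM⟩
  have h := (pair_iff hPe.2).1 hPe
  obtain ⟨i, hi⟩ := exists_NS h (le_nN_top P) hQP hPN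
  obtain ⟨f, hf, rfl⟩ := hi.lo.exists_io
  refine ⟨f, (ns_iff hf hPe.2).2 hi, fun f' h' => io_inj' h'.1.2 hf ?_⟩
  exact ((ns_iff h'.1.2 hPe.2).1 h').unique hi

end Cfsg.Agent.S4656
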