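import Cfsg.Statements.S4661
import Cfsg.Agent.H8.Pairs3

set_option autoImplicit false
open Cfsg

namespace Cfsg.Agent.S4661

open H5 H7 H8

/-- Fix a prime p and a maximal ideal M of the algebraic integers containing p. Let (P, e) be a maximal Brauer pair of the p-block B of the finite group G, Q ≤ P, and f the p-block of C_G(Q) with (Q, f) ≤ (P, e). Then C_P(Q) is contained in a defect group of f (as a block of the group C_G(Q)); and for some x in G the conjugate pair (x Q x⁻¹, conjugate of f) again lies below (P, e) and C_P(x Q x⁻¹) is a defect group of the conjugate of f in C_G(x Q x⁻¹). -/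
theorem result {G : Type*} [Group G] [Fintype G] (p : ℕ) [Fact p.Prime] (M : Ideal Cfsg.AlgInt) (hM : Cfsg.IsPModular p M) (B : Set (Cfsg.IrrCharacter G)) (P Q : Subgroup G) (e : Set (Cfsg.IrrCharacter (Subgroup.centralizer (P : Set G)))) (f : Set (Cfsg.IrrCharacter (Subgroup.centralizer (Q : Set G)))) (hmax : Cfsg.IsMaximalBrauerPair p M B P e) (hQP : Q ≤ P) (hf : Cfsg.IsPBlock M f) (hle : Cfsg.SubpairLE p M Q f P e) : (∃ D : Subgroup (Subgroup.centralizer (Q : Set G)), Cfsg.IsDefectGroup p M f D ∧ (P ⊓ Subgroup.centralizer (Q : Set G)).subgroupOf (Subgroup.centralizer (Q : Set G)) ≤ D) ∧ ∃ x : G, Cfsg.SubpairLE p M (Q.map (MulAut.conj x).toMonoidHom) (Cfsg.conjBlock Q x f) P e ∧ Cfsg.IsDefectGroup p M (Cfsg.conjBlock Q x f) ((P ⊓ Subgroup.centralizer ((Q.map (MulAut.conj x).toMonoidHom) : Set G)).subgroupOf (Subgroup.centralizer ((Q.map (MulAut.conj x).toMonoidHom) : Set G))) := by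
  haveI : PM p M := ⟨hM⟩
  have m := mx_of hmax
  have h := le_of_subpairLE hle
  have t2 : ⊤ ⊓ cC Q ≤ ⊤ ⊓ nN Q ⊓ St (io M (cC Q) f) := by
    rw [top_inf_eq, top_inf_eq]; exact cC_le_stab f
  constructor
  · obtain ⟨D, hD, h1⟩ := m.exists_def_le h le_rfl t2
    rw [top_inf_eq] at hD h1
    exact exists_def_io hf hD h1
  · obtain ⟨x, -, h1, h2⟩ := m.exists_cj_def (m.bp_of_le h) le_rfl t2
    rw [top_inf_eq, cj_cC, ← io_conjBlock] at h2
    exact ⟨x, (le_conj_iff hf hmax.1.1.2 x).2 h1,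
      (def_io' (isPBlock_conjBlock x hf) inf_le_right).2 h2⟩

end Cfsg.Agent.S4661
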