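import Cfsg.Statements.S4662
import Cfsg.Agent.H8.Pairs3

set_option autoImplicit false
open Cfsg

namespace Cfsg.Agent.S4662

open H5 H7 H8

/-- Fix a prime p and a maximal ideal M of the algebraic integers containing p. Let (P, e) be a maximal Brauer pair of the p-block B of the finite group G, Q ≤ P, and f the p-block of C_G(Q) with (Q, f) ≤ (P, e). Let T be the stabilizer of f in N_G(Q). Then the idempotent of f is a block idempotent of T, and N_P(Q) is contained in a defect group of that block of T; moreover for some x in G the conjugate pair (x Q x⁻¹, conjugate of f) again lies below (P, e) and, with T' the stabilizer of the conjugate of f in N_G(x Q x⁻¹), N_P(x Q x⁻¹) is a defect group of the block of T' whose idempotent is that of the conjugate of f. -/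
theorem result {G : Type*} [Group G] [Fintype G] (p : ℕ) [Fact p.Prime] (M : Ideal Cfsg.AlgInt) (hM : Cfsg.IsPModular p M) (B : Set (Cfsg.IrrCharacter G)) (P Q : Subgroup G) (e : Set (Cfsg.IrrCharacter (Subgroup.centralizer (P : Set G)))) (f : Set (Cfsg.IrrCharacter (Subgroup.centralizer (Q : Set G)))) (hmax : Cfsg.IsMaximalBrauerPair p M B P e) (hQP : Q ≤ P) (hf : Cfsg.IsPBlock M f) (hle : Cfsg.SubpairLE p M Q f P e) (T : Subgroup G) (hT : ∀ y : G, y ∈ T ↔ y ∈ Subgroup.normalizer (Q : Set G) ∧ Cfsg.StabilizesBlock (Subgroup.centralizer (Q : Set G)) f y) : (∃ F : Set (Cfsg.IrrCharacter T), Cfsg.IsPBlock M F ∧ (∀ t : T, Cfsg.blockCoeff F t = Cfsg.subgroupBlockCoeff (Subgroup.centralizer (Q : Set G)) f (t : G)) ∧ ∃ D : Subgroup T, Cfsg.IsDefectGroup p M F D ∧ (P ⊓ Subgroup.normalizer (Q : Set G)).subgroupOf T ≤ D) ∧ ∃ x : G, Cfsg.SubpairLE p M (Q.map (MulAut.conj x).toMonoidHom) (Cfsg.conjBlock Q x f) P e ∧ ∀ (T' : Subgroup G), (∀ y : G,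 y ∈ T' ↔ y ∈ Subgroup.normalizer ((Q.map (MulAut.conj x).toMonoidHom) : Set G) ∧ Cfsg.StabilizesBlock (Subgroup.centralizer ((Q.map (MulAut.conj x).toMonoidHom) : Set G)) (Cfsg.conjBlock Q x f) y) → ∃ F' : Set (Cfsg.IrrCharacter T'), Cfsg.IsPBlock M F' ∧ (∀ t : T', Cfsg.blockCoeff F' t = Cfsg.subgroupBlockCoeff (Subgroup.centralizer ((Q.map (MulAut.conj x).toMonoidHom) : Set G)) (Cfsg.conjBlock Q x f) (t : G)) ∧ Cfsg.IsDefectGroup p M F' ((P ⊓ Subgroup.normalizer ((Q.map (MulAut.conj x).toMonoidHom) : Set G)).subgroupOf T') := by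
  haveI : PM p M := ⟨hM⟩
  have m := mx_of hmax
  have h := le_of_subpairLE hle
  have t1 : ⊤ ⊓ cC Q ≤ ⊤ ⊓ nN Q ⊓ St (io M (cC Q) f) := by
    rw [top_inf_eq, top_inf_eq]; exact cC_le_stab f
  constructor
  · obtain ⟨D, hD, h1⟩ := m.exists_def_le h t1 le_rfl
    obtain ⟨F, hF, e1, e2⟩ := exists_block_stab' (h.lo m.pair).pg hf (stab_eq hf hT)
    rw [m.inf_stab h] at h1
    rw [← stab_eq' hf hT, ← e1] at hD
    exact ⟨F, hF, e2, exists_def_io hF hD h1⟩
  · obtain ⟨x, hx, h1, h2⟩ := m.exists_cj_def (m.bp_of_le h) t1 le_rfl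
    refine ⟨x, (le_conj_iff hf hmax.1.1.2 x).2 h1, fun T' hT' => ?_⟩
    have hf' := isPBlock_conjBlock x hf
    obtain ⟨F, hF, e1, e2⟩ := exists_block_stab' (h1.lo m.pair).pg hf' (stab_eq hf' hT')
    rw [cj_stab hx, m.inf_stab h1, ← io_conjBlock, ← stab_eq' hf' hT', ← e1] at h2
    exact ⟨F, hF, e2, (def_io' hF h2.le).2 h2⟩

end Cfsg.Agent.S4662
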