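import Cfsg.Statements.S4664
import Cfsg.Agent.H7.Quot

set_option autoImplicit false
open Cfsg

namespace Cfsg.Agent.S4664

open H5 H7

/-- Fix a prime p and a maximal ideal M of the algebraic integers containing p, and let B be a p-block of the finite group G. Let m be the p'-part of the order of G and η = exp(2πi/m). Then every coefficient of the idempotent of B lies in the cyclotomic field ℚ(η). -/
theorem result {G : Type*} [Group G] [Fintype G] (p : ℕ) [Fact p.Prime] (M : Ideal Cfsg.AlgInt) (hM : Cfsg.IsPModular p M) (B : Set (Cfsg.IrrCharacter G)) (hB : Cfsg.IsPBlock M B) (g : G) : Cfsg.blockCoeff B g ∈ IntermediateField.adjoin ℚ ({Complex.exp (2 * Real.pi * Complex.I / ((Nat.card G / p ^ (Nat.card G).factorization p : ℕ) : ℂ))} : Set ℂ) := by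
  haveI : PM p M := ⟨hM⟩
  classical
  by_cases hg : p ∣ orderOf g
  · rw [blockCoeff_eq_zero_of_dvd (isSat_of_isPBlock hB) hg]; exact zero_mem _
  set m := Nat.card G / p ^ (Nat.card G).factorization p
  have hm : m ≠ 0 := (Nat.ordCompl_pos p Nat.card_pos.ne').ne'
  have h1 : orderOf g⁻¹ ∣ m := by
    rw [orderOf_inv]
    refine Nat.Coprime.dvd_of_dvd_mul_left (Nat.Coprime.pow_right ((Nat.card G).factorization p)
      ((Nat.Prime.coprime_iff_not_dvd Fact.out).2 hg).symm) ?_
    rw [Nat.ordProj_mul_ordCompl_eq_self]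
    exact orderOf_dvd_natCard g
  rw [blockCoeff_eq]
  refine mul_mem (inv_mem (natCast_mem _ _)) (sum_mem fun χ _ => ?_)
  split_ifs
  · obtain ⟨n, ε, h2, h3, h4⟩ := χ.2.isCharacter.exists_eigenvalues g⁻¹
    rw [← χ.2.apply_inv, ← pow_one g⁻¹, h4, h2]
    refine mul_mem (natCast_mem _ _) (sum_mem fun i _ => pow_mem ?_ _)
    have : NeZero m := ⟨hm⟩
    obtain ⟨j, -, hj⟩ := (Complex.isPrimitiveRoot_exp m hm).eq_pow_of_pow_eq_one (ξ := ε i) (by
      obtain ⟨t, ht⟩ := h1
      rw [ht, pow_mul, h3, one_pow])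
    rw [← hj]
    exact pow_mem (IntermediateField.mem_adjoin_simple_self ℚ _) _
  · exact zero_mem _

end Cfsg.Agent.S4664
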