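import Cfsg.Statements.S4665
import Cfsg.Agent.H8.Deg

set_option autoImplicit false
open Cfsg

namespace Cfsg.Agent.S4665

open H5 Cfsg

/-- Fix a prime p, a maximal ideal M of the algebraic integers containing p, and a p-block B of the finite group G, and let p^a be the p-part of the order of G. Let χ be an integer combination of the irreducible characters in B. If the function that agrees with χ on p-regular elements and vanishes on p-singular elements is again an integer combination of the irreducible characters in B, then p^a divides χ(1). -/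
theorem result {G : Type*} [Group G] [Fintype G] (p : ℕ) [Fact p.Prime] (M : Ideal Cfsg.AlgInt) (hM : Cfsg.IsPModular p M) (B : Set (Cfsg.IrrCharacter G)) (hB : Cfsg.IsPBlock M B) (χ : G → ℂ) (hχ : (∃ n : Cfsg.IrrCharacter G → ℤ, ∀ g : G, χ g = ∑ᶠ ψ ∈ B, (n ψ : ℂ) * (ψ : G → ℂ) g)) (h0 : (∃ n : Cfsg.IrrCharacter G → ℤ, ∀ g : G, Cfsg.pRegularPart p χ g = ∑ᶠ ψ ∈ B, (n ψ : ℂ) * (ψ : G → ℂ) g)) : ∃ k : ℤ, χ 1 = (p ^ (Nat.card G).factorization p : ℂ) * k := by
  have hp : p.Prime := Fact.out
  obtain ⟨n, hn⟩ := h0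
  have hgen : IsGeneralizedCharacter G (pRegularPart p χ) := by
    have : pRegularPart p χ = ∑ ψ ∈ (Set.toFinite B).toFinset, (n ψ : ℂ) • (ψ : G → ℂ) := by
      ext g
      rw [hn, finsum_mem_eq_finite_toFinset_sum _ (Set.toFinite B), Finset.sum_apply]
      rfl
    rw [this]
    exact IsGeneralizedCharacter.sum _ fun ψ _ => ψ.2.isGen.intCast_smul _
  obtain ⟨P⟩ : Nonempty (Sylow p G) := inferInstance
  obtain ⟨k, hk⟩ := H8.card_dvd_of_vanish hgen (P : Subgroup G) (fun g hg h1 => by
    have : ¬ IsPRegular p g := by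
      rw [IsPRegular, not_not, ← Subgroup.orderOf_mk g hg]
      exact P.isPGroup'.dvd_orderOf fun h => h1 (congrArg Subtype.val h)
    simp [pRegularPart, this])
  have h1 : IsPRegular p (1 : G) := by
    rw [IsPRegular, orderOf_one, Nat.dvd_one]; exact hp.one_lt.ne'
  refine ⟨k, ?_⟩
  rw [P.card_eq_multiplicity] at hk
  simpa [pRegularPart, h1] using hk

end Cfsg.Agent.S4665
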