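import Cfsg.Statements.S4666
import Cfsg.Agent.H7.Quot

set_option autoImplicit false
open Cfsg

namespace Cfsg.Agent.S4666

open H5 H7

/-- Fix a prime p and a maximal ideal M of the algebraic integers containing p, and a p-block B of the finite group G of defect d. For every integer combination χ of the irreducible characters in B, p^d times the function that agrees with χ on p-regular elements and vanishes elsewhere is again an integer combination of the irreducible characters in B. -/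
theorem result {G : Type*} [Group G] [Fintype G] (p : ℕ) [Fact p.Prime] (M : Ideal Cfsg.AlgInt) (hM : Cfsg.IsPModular p M) (B : Set (Cfsg.IrrCharacter G)) (hB : Cfsg.IsPBlock M B) (χ : G → ℂ) (hχ : (∃ n : Cfsg.IrrCharacter G → ℤ, ∀ g : G, χ g = ∑ᶠ ψ ∈ B, (n ψ : ℂ) * (ψ : G → ℂ) g)) : (∃ n : Cfsg.IrrCharacter G → ℤ, ∀ g : G, (p ^ Cfsg.blockDefect p B : ℂ) * Cfsg.pRegularPart p χ g = ∑ᶠ ψ ∈ B, (n ψ : ℂ) * (ψ : G → ℂ) g) := by
  haveI : PM p M := ⟨hM⟩
  classical
  have hp : p.Prime := Fact.out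
  obtain ⟨n, hn⟩ := hχ
  have hs := isSat_of_isPBlock hB
  have e : χ = ∑ ψ : IrrCharacter G, ((if ψ ∈ B then n ψ else 0 : ℤ) : ℂ) • (ψ : G → ℂ) := by
    funext g
    rw [hn, finsum_mem_irr, Finset.sum_apply]
    exact Finset.sum_congr rfl fun ψ _ => by split_ifs <;> simp
  have key : ∀ ξ ψ : IrrCharacter G, ψ ∈ B → ∃ m : ℤ,
      (p : ℂ) ^ blockDefect p B * classInner (reg p (ξ : G → ℂ)) ψ = m := fun ξ ψ hψ => by
    obtain ⟨k, hk⟩ := exists_int_reg (p := p) ξ.2.isGen ψ.2.isGen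
    have h1 := inner_reg_div_mem_O (M := M) (p := p) ξ.2.isCharacter ψ.2
    rw [classInner_smul_left, hk, ← ψ.2.coe_charDegree] at h1
    obtain ⟨m, hm⟩ := pow_dvd_of_intCast_div_mem_O (charDegree_ne_zero ψ.2) h1
    have h2 := factorization_add_defect (M := M) (p := p) hψ
    refine ⟨p ^ blockHeight p B (ψ : G → ℂ) * m, mul_left_cancel₀
      (pow_ne_zero ((Nat.card G).factorization p) (Nat.cast_ne_zero.2 hp.ne_zero)) ?_⟩
    push_cast at hk ⊢
    rw [mul_left_comm, hk, hm, ← mul_assoc, ← pow_add, ← h2]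
    push_cast
    ring
  have h1 : ∀ ψ : IrrCharacter G, classInner (reg p χ) ψ = ∑ ξ : IrrCharacter G,
      ((if ξ ∈ B then n ξ else 0 : ℤ) : ℂ) * classInner (reg p (ξ : G → ℂ)) ψ := fun ψ => by
    simp_rw [classInner_reg]
    rw [e, classInner_sum_left]
    simp_rw [classInner_smul_left]
  have h2 : ∀ ψ : IrrCharacter G, ∃ m : ℤ, ψ ∈ B →
      (p : ℂ) ^ blockDefect p B * classInner (reg p χ) ψ = m := fun ψ => by
    by_cases hψ : ψ ∈ B
    · choose m hm using fun ξ => key ξ ψ hψ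
      refine ⟨∑ ξ, (if ξ ∈ B then n ξ else 0) * m ξ, fun _ => ?_⟩
      rw [h1, Finset.mul_sum, Int.cast_sum]
      exact Finset.sum_congr rfl fun ξ _ => by rw [mul_left_comm, hm, Int.cast_mul]
    · exact ⟨0, fun h => absurd h hψ⟩
  choose m hm using h2
  refine ⟨m, fun g => ?_⟩
  have h3 : IsClassFunction G (reg p χ) := isClassFunction_reg (e ▸ isClassFunction_sum_irr _)
  rw [pRegularPart_eq, h3.apply_eq_sum_irr, finsum_mem_irr, Finset.mul_sum]
  refine Finset.sum_congr rfl fun ψ _ => ?_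
  split_ifs with hψ
  · rw [← mul_assoc, hm ψ hψ]
  · rw [h1, Finset.sum_eq_zero fun ξ _ => ?_, zero_mul, mul_zero]
    split_ifs with hξ
    · rw [classInner_reg_comm ξ.2.isCharacter ψ.2.isCharacter, classInner_reg_eq_zero hs hψ hξ,
        mul_zero]
    · simp

end Cfsg.Agent.S4666
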