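import Cfsg.Statements.S4668
import Cfsg.Agent.H8.Pairs4
import Cfsg.Agent.H1.Coprime

set_option autoImplicit false
open Cfsg

namespace Cfsg.Agent.S4668

open H5 H7 H8

/-- Fix a prime p and a maximal ideal M of the algebraic integers containing p. Let Q₀ < Q₁ < ⋯ < Q_m be a strictly increasing chain of p-subgroups of the finite group G and N the intersection of their normalizers. Then every block idempotent of N is supported on C_G(Q_m): for every p-block E of N, the idempotent coefficient of E vanishes at every element of N outside C_G(Q_m). -/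
theorem result {G : Type*} [Group G] [Fintype G] (p : ℕ) [Fact p.Prime] (M : Ideal Cfsg.AlgInt) (hM : Cfsg.IsPModular p M) (m : ℕ) (Q : Fin (m + 1) → Subgroup G) (hQ : StrictMono Q) (hQp : ∀ i, IsPGroup p (Q i)) (N : Subgroup G) (hN : ∀ g : G, g ∈ N ↔ ∀ i, g ∈ Subgroup.normalizer (Q i : Set G)) (E : Set (Cfsg.IrrCharacter N)) (hE : Cfsg.IsPBlock M E) (n : N) (hn : (n : G) ∉ Subgroup.centralizer (Q (Fin.last m) : Set G)) : Cfsg.blockCoeff E n = 0 := by
  haveI : PM p M := ⟨hM⟩
  by_contra h0
  have hs := isSat_of_isPBlock hE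
  have h1 : ¬ p ∣ orderOf (n : G) := fun h =>
    h0 (blockCoeff_eq_zero_of_dvd hs (by rwa [Subgroup.orderOf_coe] at h))
  have hNQ : ∀ i, N ≤ nN (Q i) := fun i g hg => (hN g).1 hg i
  have key : ∀ R : Subgroup G, IsPGroup p R → R ≤ N → N ≤ nN R → R ≤ cC (Subgroup.zpowers (n : G)) := by
    intro R hR h2 h3
    haveI : (R.subgroupOf N).Normal := Subgroup.normal_subgroupOf_of_le_normalizer h3
    have h4 : n ∈ Subgroup.centralizer (R.subgroupOf N : Set N) := by
      by_contra h
      exact h0 (hs.blockCoeff_eq_zero (P := R.subgroupOf N) (hR.comap_subtype) h)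
    rw [le_cC_comm, Subgroup.zpowers_le]
    intro r hr
    exact congrArg Subtype.val (h4 ⟨r, h2 hr⟩ hr)
  have h2 : ∀ i, Q i ≤ cC (Subgroup.zpowers (n : G)) := by
    intro i
    induction i using Fin.induction with
    | zero =>
      exact key _ (hQp 0) (fun g hg => (hN g).2 fun j =>
        le_nN_self _ (hQ.monotone (Fin.zero_le j) hg)) (hNQ 0)
    | succ i ih =>
      have h3 : Q i.castSucc ≤ Q i.succ := hQ.monotone i.castSucc_lt_succ.le
      rw [le_cC_comm]
      refine H1.thompson_PxQ p (Q i.castSucc) _ _ (hQp _) ?_ (hQp _) ih (h3.trans (le_nN_self _))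
        (Subgroup.zpowers_le.2 (hNQ _ n.2)) (key _ (hQp _).to_inf_left (fun g hg => (hN g).2 fun j => ?_)
          (le_nN_inf_cC (hNQ _) (hNQ _)))
      · rw [Nat.card_zpowers]
        exact ((Nat.Prime.coprime_iff_not_dvd Fact.out).2 h1).symm
      · rcases le_or_gt j i.castSucc with h | h
        · exact cC_le_nN _ (cC_anti (hQ.monotone h) hg.2)
        · exact le_nN_self _ (hQ.monotone (Fin.castSucc_lt_iff_succ_le.1 h) hg.1)
  exact hn (le_cC_comm.1 (h2 _) (Subgroup.mem_zpowers _))

end Cfsg.Agent.S4668
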