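import Cfsg.Statements.S4669
import Cfsg.Agent.H7.Quot

set_option autoImplicit false
open Cfsg

namespace Cfsg.Agent.S4669

open H5 H7

/-- Fix a prime p and a maximal ideal M of the algebraic integers containing p. If the p-block B of the finite group G has a defect group P contained in the centre of G, then B has p-regular rank one (a single irreducible Brauer character). -/
theorem result {G : Type*} [Group G] [Fintype G] (p : ℕ) [Fact p.Prime] (M : Ideal Cfsg.AlgInt) (hM : Cfsg.IsPModular p M) (B : Set (Cfsg.IrrCharacter G)) (hB : Cfsg.IsPBlock M B) (P : Subgroup G) (hD : Cfsg.IsDefectGroup p M B P) (hPZ : P ≤ Subgroup.center G) : Cfsg.blockRank p B = 1 := by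
  haveI : PM p M := ⟨hM⟩
  have h : PC p M B P := ⟨hB, hD, ⟨fun n hn g => by
    rw [Subgroup.mem_center_iff.1 (hPZ hn) g]; simpa using hn⟩,
    fun y _ x hx => (Subgroup.mem_center_iff.1 (hPZ hx) y).symm⟩
  obtain ⟨θ, hθ, -⟩ := h.exists_theta
  have h1 : θ ∈ B ∩ kerSet P := hθ ▸ rfl
  have h2 : reg p (θ : G → ℂ) ≠ 0 := fun e => θ.2.apply_one_ne_zero (by
    rw [← reg_of_not_dvd (p := p) (θ : G → ℂ) not_dvd_orderOf_one, e]; rfl)
  suffices h : Submodule.span ℂ ((fun χ : IrrCharacter G => pRegularPart p (χ : G → ℂ)) '' B) =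
      Submodule.span ℂ {reg p (θ : G → ℂ)} by rw [blockRank, h, finrank_span_singleton h2]
  refine le_antisymm (Submodule.span_le.2 ?_) (Submodule.span_mono ?_)
  · rintro _ ⟨χ, hχ, rfl⟩
    refine Submodule.mem_span_singleton.2 ⟨(χ : G → ℂ) 1 / (θ : G → ℂ) 1, funext fun y => ?_⟩
    simp only [pRegularPart_eq, Pi.smul_apply, smul_eq_mul]
    by_cases hy : p ∣ orderOf y
    · simp [reg_of_dvd _ hy]
    · rw [reg_of_not_dvd _ hy, reg_of_not_dvd _ hy, h.apply_reg hθ hy hχ]; ring
  · rintro _ rfl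
    exact ⟨θ, h1.1, pRegularPart_eq _⟩

end Cfsg.Agent.S4669
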