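import Cfsg.Statements.S4670
import Cfsg.Agent.H8.Pairs4

set_option autoImplicit false
open Cfsg

namespace Cfsg.Agent.S4670

open H5 H7 H8

/-- Fix a prime p and a maximal ideal M of the algebraic integers containing p. Let P be a p-subgroup of the finite group G and H a subgroup containing N_G(P). For every p-block B of G with defect group P there is exactly one p-block c of H with defect group P whose idempotent agrees with that of B, modulo the local ideal at M, at every element of C_G(P) (their Brauer-map images at P coincide); and every p-block c of H with defect group P arises in this way from exactly one such B. This is the Brauer correspondence over H. -/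
theorem result {G : Type*} [Group G] [Fintype G] (p : ℕ) [Fact p.Prime] (M : Ideal Cfsg.AlgInt) (hM : Cfsg.IsPModular p M) (P H : Subgroup G) (hP : IsPGroup p P) (hH : Subgroup.normalizer (P : Set G) ≤ H) : (∀ B : Set (Cfsg.IrrCharacter G), Cfsg.IsPBlock M B → Cfsg.IsDefectGroup p M B P → ∃! c : Set (Cfsg.IrrCharacter H), Cfsg.IsPBlock M c ∧ Cfsg.IsDefectGroup p M c (P.subgroupOf H) ∧ ∀ x : G, x ∈ Subgroup.centralizer (P : Set G) → Cfsg.MemLocalIdeal M (Cfsg.blockCoeff B x - Cfsg.subgroupBlockCoeff H c x)) ∧ (∀ c : Set (Cfsg.IrrCharacter H), Cfsg.IsPBlock M c → Cfsg.IsDefectGroup p M c (P.subgroupOf H) → ∃! B : Set (Cfsg.IrrCharacter G), Cfsg.IsPBlock M B ∧ Cfsg.IsDefectGroup p M B P ∧ ∀ x : G, x ∈ Subgroup.centralizer (P : Set G) → Cfsg.MemLocalIdeal M (Cfsg.blockCoeff B x - Cfsg.subgroupBlockCoeff H c x)) := by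
  haveI : PM p M := ⟨hM⟩
  have hPH : P ≤ H := (le_nN_self P).trans hH
  have e1 : (⊤ : Subgroup G) ⊓ cC P = H ⊓ cC P := by
    rw [top_inf_eq, inf_eq_right.2 ((cC_le_nN P).trans hH)]
  have e2 : (⊤ : Subgroup G) ⊓ nN P = H ⊓ nN P := by rw [top_inf_eq, inf_eq_right.2 hH]
  have key : ∀ {B : Set (IrrCharacter G)} {c : Set (IrrCharacter H)}, IsPBlock M B → IsPBlock M c →
      ((∀ x : G, x ∈ Subgroup.centralizer (P : Set G) →
        MemLocalIdeal M (blockCoeff B x - subgroupBlockCoeff H c x)) ↔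
        Br P (fB M B) = Br P (io M H c)) := fun hB hc =>
    Br_eq_iff_coeff (blockCoeff_mem_O hB) (sbc_mem_O (isSat_of_isPBlock hc)) (coeff_fB _)
      (coeff_io _)
  refine ⟨fun B hB hD => ?_, fun c hc hD => ?_⟩
  · obtain ⟨i, ⟨h1, h2, h3⟩, hu⟩ := brauer_corr tw_tt (Tw.refl H) e1 e2 (blk_fB_of_isPBlock hB)
      ((def_fB hB).1 hD)
    obtain ⟨c, hc, rfl⟩ := exists_io_eq h1
    refine ⟨c, ⟨hc, (def_io' hc hPH).2 h2, (key hB hc).2 h3.symm⟩, fun c' ⟨h4, h5, h6⟩ => ?_⟩
    exact io_inj' h4 hc (hu _ ⟨blk_io' h4, (def_io' h4 hPH).1 h5, ((key hB h4).1 h6).symm⟩)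
  · obtain ⟨i, ⟨h1, h2, h3⟩, hu⟩ := brauer_corr (Tw.refl H) tw_tt e1.symm e2.symm (blk_io' hc)
      ((def_io' hc hPH).1 hD)
    obtain ⟨B, hB, rfl⟩ := exists_fB_eq h1
    refine ⟨B, ⟨hB, (def_fB hB).2 h2, (key hB hc).2 h3⟩, fun B' ⟨h4, h5, h6⟩ => ?_⟩
    exact fB_inj (isSat_of_isPBlock h4) (isSat_of_isPBlock hB)
      (hu _ ⟨blk_fB_of_isPBlock h4, (def_fB h4).1 h5, (key h4 hc).1 h6⟩)

end Cfsg.Agent.S4670
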