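import Cfsg.Statements.S4671
import Cfsg.Agent.H8.Pairs4

set_option autoImplicit false
open Cfsg

namespace Cfsg.Agent.S4671

open H5 H7 H8

/-- Fix a prime p and a maximal ideal M of the algebraic integers containing p. Let N be a normal subgroup of the finite group G, B a p-block of G and P a defect group of B. Then there is a p-block c of N, stable under conjugation by P and covered by B (some member of B has a constituent in c on restriction to N), such that P ∩ N is a defect group of c. -/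
theorem result {G : Type*} [Group G] [Fintype G] (p : ℕ) [Fact p.Prime] (M : Ideal Cfsg.AlgInt) (hM : Cfsg.IsPModular p M) (N : Subgroup G) [N.Normal] [Fintype N] (B : Set (Cfsg.IrrCharacter G)) (hB : Cfsg.IsPBlock M B) (P : Subgroup G) (hP : Cfsg.IsDefectGroup p M B P) : ∃ c : Set (Cfsg.IrrCharacter N), Cfsg.IsPBlock M c ∧ (∀ x ∈ P, Cfsg.StabilizesBlock N c x) ∧ (∃ χ ∈ B, ∃ θ ∈ c, Cfsg.classInner (fun n : N => (χ : G → ℂ) n) (θ : N → ℂ) ≠ 0) ∧ Cfsg.IsDefectGroup p M c ((P ⊓ N).subgroupOf N) := by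
  haveI : PM p M := ⟨hM⟩
  have hD := (def_fB hB).1 hP
  have hb := blk_fB_of_isPBlock hB
  have hn : ∀ K : Subgroup G, K ≤ nN N := fun K => le_top.trans (tw_top N).norm
  obtain ⟨f, hf, hfP, h0⟩ := exists_fixed_prim (le_refl N) (hn P) (hn P) hD.pg hD.ne
  obtain ⟨c, hc, rfl⟩ := exists_io_eq hf
  have h1 : fB M B * io M N c ≠ 0 := fun h => h0 (by
    rw [← Br_mul' hD.pg hfP (Inv_anti le_top hb.mem.2), ← Z_comm (fB_mem_Z B), h, map_zero])
  have h2 : Br (P ⊓ N) (io M N c) ≠ 0 := Br_ne_zero_of_le inf_le_left (left_ne_zero_of_mul h0)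
  refine ⟨c, hc, fun x hx => (stabilizes_iff hc).2 ⟨hn P hx, mem_Inv_iff_le.1 hfP hx⟩,
    (cover_iff_io (isSat_of_isPBlock hB) (isSat_of_isPBlock hc)).2 h1,
    (def_io' hc inf_le_right).2 ?_⟩
  obtain ⟨D, hD'⟩ := exists_def p (Tw.refl N) hf
  obtain ⟨x, -, hx⟩ := hD.max D le_top hD'.pg (left_ne_zero_of_mul
    (knoerr_Br (tw_top N) hf hD'.pg hD'.le hD'.ne hb.mem hb.idem h1))
  refine hD'.of_card inf_le_right hD.pg.to_inf_left h2 ?_
  rw [← card_cj x D]
  exact Subgroup.card_le_of_le (le_inf hx (cj_le_of_nN (hn ⊤ (Subgroup.mem_top x)) hD'.le))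

end Cfsg.Agent.S4671
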