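import Cfsg.Statements.S4672
import Cfsg.Agent.H8.Pairs4

set_option autoImplicit false
open Cfsg

namespace Cfsg.Agent.S4672

open H5 H7 H8

/-- Fix a prime p and a maximal ideal M of the algebraic integers containing p. Let N be a normal subgroup of the finite group G of p-power index and c a p-block of N stable under conjugation by G. Then the idempotent of c is a block idempotent of G: there is a p-block B of G whose idempotent coefficients agree with those of c on N and vanish off N; and for every defect group P of such a block B, G = NP and P ∩ N is a defect group of c. -/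
theorem result {G : Type*} [Group G] [Fintype G] (p : ℕ) [Fact p.Prime] (M : Ideal Cfsg.AlgInt) (hM : Cfsg.IsPModular p M) (N : Subgroup G) [N.Normal] (hN : ∃ k : ℕ, N.index = p ^ k) (c : Set (Cfsg.IrrCharacter N)) (hc : Cfsg.IsPBlock M c) (hst : ∀ x : G, Cfsg.StabilizesBlock N c x) : (∃ B : Set (Cfsg.IrrCharacter G), Cfsg.IsPBlock M B ∧ ∀ g : G, Cfsg.blockCoeff B g = Cfsg.subgroupBlockCoeff N c g) ∧ ∀ B : Set (Cfsg.IrrCharacter G), Cfsg.IsPBlock M B → (∀ g : G, Cfsg.blockCoeff B g = Cfsg.subgroupBlockCoeff N c g) → ∀ P : Subgroup G, Cfsg.IsDefectGroup p M B P → N ⊔ P = ⊤ ∧ Cfsg.IsDefectGroup p M c ((P ⊓ N).subgroupOf N) := by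
  haveI : PM p M := ⟨hM⟩
  obtain ⟨k, hN⟩ := hN
  have hi : io M N c ∈ Inv (F M) (⊤ : Subgroup G) :=
    mem_Inv_iff_le.2 fun x _ => ((stabilizes_iff hc).1 (hst x)).2
  have hb : Blk ⊤ (io M N c) := (blk_iff_of_reg (p := p) le_top
    fun g _ hg => mem_of_index_pow' hN hg).2 ((blk_io' hc).of_Inv le_top hi)
  refine ⟨?_, fun B hB h P hP => ?_⟩
  · obtain ⟨A, hA, h⟩ := exists_lift_top (isSat_of_isPBlock hc) hi
    exact ⟨A, (blk_fB hA).1 (by rwa [fB_eq_io_of_coeff h]), h⟩
  · have hD := (def_fB hB).1 hP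
    rw [fB_eq_io_of_coeff h] at hD
    obtain ⟨h1, h2⟩ := fong (tw_top N) (blk_io' hc) hi hD
    refine ⟨?_, (def_io' hc inf_le_right).2 h1⟩
    obtain ⟨S⟩ : Nonempty (Sylow p G) := inferInstance
    obtain ⟨x, -, hx⟩ := h2 S le_top S.2
    have h3 : ¬ p ∣ (N ⊔ P).index := fun h => S.not_dvd_index (by
      rw [← Subgroup.index_map_of_bijective (f := (MulAut.conj x).toMonoidHom) (MulAut.conj x).bijective]
      exact h.trans (Subgroup.index_dvd_of_le hx))
    obtain ⟨j, -, hj⟩ := (Nat.dvd_prime_pow Fact.out).1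
      (hN ▸ Subgroup.index_dvd_of_le (le_sup_left : N ≤ N ⊔ P))
    rcases j with _ | j
    · exact Subgroup.index_eq_one.1 (by rw [hj, pow_zero])
    · exact absurd (hj ▸ dvd_pow_self p j.succ_ne_zero) h3

end Cfsg.Agent.S4672
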