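import Cfsg.Statements.S4673
import Cfsg.Agent.H8.Pairs4

set_option autoImplicit false
open Cfsg

namespace Cfsg.Agent.S4673

open H5 H7 H8

/-- Fix a prime p and a maximal ideal M of the algebraic integers containing p. Let N ≤ L be normal subgroups of the finite group G with L/N a p-group, let B be a p-block of G covering the p-block c of N (some member of B has a constituent in c on restriction to N), and suppose that N contains a defect group of B. Then the stabilizer T of c in G satisfies T ∩ L = N. -/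
theorem result {G : Type*} [Group G] [Fintype G] (p : ℕ) [Fact p.Prime] (M : Ideal Cfsg.AlgInt) (hM : Cfsg.IsPModular p M) (N L : Subgroup G) [N.Normal] [L.Normal] [Fintype N] (hNL : N ≤ L) (hLN : ∃ k : ℕ, (N.subgroupOf L).index = p ^ k) (B : Set (Cfsg.IrrCharacter G)) (hB : Cfsg.IsPBlock M B) (c : Set (Cfsg.IrrCharacter N)) (hc : Cfsg.IsPBlock M c) (hcov : (∃ χ ∈ B, ∃ θ ∈ c, Cfsg.classInner (fun n : N => (χ : G → ℂ) n) (θ : N → ℂ) ≠ 0)) (hD : ∃ D : Subgroup G, Cfsg.IsDefectGroup p M B D ∧ D ≤ N) (T : Subgroup G) (hT : ∀ x : G, x ∈ T ↔ Cfsg.StabilizesBlock N c x) : T ⊓ L = N := by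
  haveI : PM p M := ⟨hM⟩
  obtain ⟨k, hLN⟩ := hLN
  obtain ⟨D, hD, hDN⟩ := hD
  have hD := (def_fB hB).1 hD
  have hb := blk_fB_of_isPBlock hB
  have hf := blk_io' hc
  have hn : ∀ K : Subgroup G, K ≤ nN N := fun K => le_top.trans (tw_top N).norm
  have h0 := (cover_iff_io (isSat_of_isPBlock hB) (isSat_of_isPBlock hc)).1 hcov
  have hreg : ∀ g ∈ L, ¬ p ∣ orderOf g → g ∈ N := fun g h1 h2 =>
    mem_of_relIndex_pow (hn L) hLN h1 h2
  have hNT : N ≤ T ⊓ L := le_inf (fun x hx => (hT x).2 ((stabilizes_iff hc).2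
    ⟨hn N hx, mem_Inv_iff_le.1 hf.mem.2 hx⟩)) hNL
  have hi : io M N c ∈ Inv (F M) (T ⊓ L) :=
    mem_Inv_iff_le.2 fun x hx => ((stabilizes_iff hc).1 ((hT x).1 hx.1)).2
  have tw : Tw N (T ⊓ L) := ⟨hNT, hn _⟩
  obtain ⟨E, hE⟩ := exists_def p tw (hf.of_Inv hNT hi)
  obtain ⟨j, hj, hjf⟩ := exists_prim_above le_rfl hNL hf
  have hj' : Blk L j := (blk_iff_of_reg (p := p) hNL hreg).2 hj
  have hEL : E ≤ L := hE.le.trans inf_le_right
  have h1 : Br E j ≠ 0 := fun h => hE.ne (by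
    rw [← hjf, Br_mul' hE.pg (Inv_anti hEL hj.mem.2) (Inv_anti hE.le hi), h, zero_mul])
  obtain ⟨x, -, hx⟩ := hD.max E le_top hE.pg (left_ne_zero_of_mul
    (knoerr_Br (tw_top L) hj' hE.pg hEL h1 hb.mem hb.idem fun h => h0 (by
      rw [← hjf, ← mul_assoc, h, zero_mul])))
  have hEN : E ≤ N := by
    rw [← cj_inv_cj x E]
    exact cj_le_of_nN (hn ⊤ (Subgroup.mem_top _)) (hx.trans hDN)
  refine le_antisymm (le_of_pe_reg (p := p) (fun g hg h => ?_) fun g hg h => hreg g hg.2 h) hNT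
  obtain ⟨y, -, hy⟩ := (fong tw hf hi hE).2 (Subgroup.zpowers g) ((Subgroup.zpowers_le).2 hg)
    h.isPGroup_zpowers
  rw [sup_eq_left.2 hEN] at hy
  exact (conj_mem_of_nN (hn ⊤ (Subgroup.mem_top y))).1 (hy (conj_mem_cj.2 (Subgroup.mem_zpowers g)))

end Cfsg.Agent.S4673
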