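import Cfsg.Statements.S4674
import Cfsg.Agent.H8.Pairs4

set_option autoImplicit false
open Cfsg

namespace Cfsg.Agent.S4674

open H5 H7 H8

/-- Fix a prime p and a maximal ideal M of the algebraic integers containing p. Let N be a normal subgroup of the finite group G, Q a p-subgroup of N, H = N_G(Q) and L = H ∩ N = N_N(Q). Let d be a p-block of N with defect group Q and e the p-block of L with defect group Q that induces d inside N (its Brauer correspondent). Then block induction from H to G is a bijection from the p-blocks of H covering e onto the p-blocks of G covering d: every block of H covering e induces exactly one block of G, and that block covers d; and every block of G covering d is induced by exactly one block of H covering e. -/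
theorem result {G : Type*} [Group G] [Fintype G] (p : ℕ) [Fact p.Prime] (M : Ideal Cfsg.AlgInt) (hM : Cfsg.IsPModular p M) (N : Subgroup G) [N.Normal] [Fintype N] (Q : Subgroup G) (hQ : IsPGroup p Q) (hQN : Q ≤ N) [Fintype ↥(Subgroup.normalizer (Q : Set G) ⊓ N)] (d : Set (Cfsg.IrrCharacter N)) (hd : Cfsg.IsPBlock M d) (hdQ : Cfsg.IsDefectGroup p M d (Q.subgroupOf N)) (e : Set (Cfsg.IrrCharacter ↥(Subgroup.normalizer (Q : Set G) ⊓ N))) (he : Cfsg.IsPBlock M e) (heQ : Cfsg.IsDefectGroup p M e (Q.subgroupOf (Subgroup.normalizer (Q : Set G) ⊓ N))) (hed : Cfsg.IsInducedBlockIn M N (Subgroup.normalizer (Q : Set G) ⊓ N) e d) : (∀ c : Set (Cfsg.IrrCharacter ↥(Subgroup.normalizer (Q : Set G))), Cfsg.IsPBlock M c → (∃ ψ ∈ c, ∃ ξ ∈ e, Cfsg.classInner (fun l : ↥(Subgroup.normalizer (Q : Set G) ⊓ N) => (ψ : ↥(Subgroup.normalizer (Q : Set G)) → ℂ) (Subgroup.inclusion inf_le_left l)) (ξ : ↥(Subgroup.normalizer (Q : Set G) ⊓ N) → ℂ) ≠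 0) → ∃! B : Set (Cfsg.IrrCharacter G), Cfsg.IsInducedBlock M (Subgroup.normalizer (Q : Set G)) c B ∧ (∃ χ ∈ B, ∃ θ ∈ d, Cfsg.classInner (fun n : N => (χ : G → ℂ) n) (θ : N → ℂ) ≠ 0)) ∧ (∀ B : Set (Cfsg.IrrCharacter G), Cfsg.IsPBlock M B → (∃ χ ∈ B, ∃ θ ∈ d, Cfsg.classInner (fun n : N => (χ : G → ℂ) n) (θ : N → ℂ) ≠ 0) → ∃! c : Set (Cfsg.IrrCharacter ↥(Subgroup.normalizer (Q : Set G))), (Cfsg.IsPBlock M c ∧ ∃ ψ ∈ c, ∃ ξ ∈ e, Cfsg.classInner (fun l : ↥(Subgroup.normalizer (Q : Set G) ⊓ N) => (ψ : ↥(Subgroup.normalizer (Q : Set G)) → ℂ) (Subgroup.inclusion inf_le_left l)) (ξ : ↥(Subgroup.normalizer (Q : Set G) ⊓ N) → ℂ) ≠ 0) ∧ Cfsg.IsInducedBlock M (Subgroup.normalizer (Q : Set G)) c B) := by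
  haveI : PM p M := ⟨hM⟩
  have hs : ∀ {H : Subgroup G} {c : Set (IrrCharacter H)}, IsPBlock M c → IsSat M c :=
    isSat_of_isPBlock
  have hQ1 : Q ≤ nN Q ⊓ N := le_inf (le_nN_self Q) hQN
  have hdD := (def_io' hd hQN).1 hdQ
  have heD := (def_io' he hQ1).1 heQ
  have hbd := blk_io' hd
  have hbe := blk_io' he
  have tw : Tw (nN Q ⊓ N) (nN Q) :=
    ⟨inf_le_left, le_nN_inf (le_nN_self _) (le_top.trans (tw_top N).norm)⟩
  have h1 := (isInducedBlockIn_iff inf_le_right hQ hQ1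
    (le_inf (inf_le_right.trans (cC_le_nN Q)) inf_le_left) inf_le_left he hd).1 hed
  have hde : Br Q (io M N d) = io M (nN Q ⊓ N) e := by
    have h2 := (blk_iff_of_normal (p := p) hQ hQ1 inf_le_left).1 hbe
    have e1 : nN Q ⊓ N ⊓ cC Q = N ⊓ cC Q := by
      rw [inf_assoc, inf_eq_right.2 (inf_le_right.trans (cC_le_nN Q))]
    generalize io M (nN Q ⊓ N) e = i at h1 h2 heD ⊢
    rw [e1, inf_comm (nN Q)] at h2
    refine (def_of_Br (Tw.refl N) hbd h2 (by rw [inf_comm N]; exact heD) ?_).1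
    rw [h1]
    exact h2.ne
  have hind : ∀ {c : Set (IrrCharacter (nN Q))} {B : Set (IrrCharacter G)}, IsPBlock M c →
      IsPBlock M B → (IsInducedBlock M (nN Q) c B ↔
        Br Q (fB M B) * io M (nN Q) c = io M (nN Q) c) := fun hc hB =>
    isInducedBlock_iff_Br hQ (le_nN_self Q) (cC_le_nN Q) le_rfl hc hB
  have hmem : ∀ B : Set (IrrCharacter G), Br Q (fB M B) ∈ ZI (F M) (nN Q) (nN Q) := fun B =>
    ZI_mono (inf_le_right.trans (cC_le_nN Q)) (le_inf le_top le_rfl) (Br_mem_ZI (fB_mem_ZI B) Q)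
  have hidem : ∀ {B : Set (IrrCharacter G)}, IsPBlock M B → IsIdempotentElem (Br Q (fB M B)) :=
    fun hB => Br_idem hQ (Inv_anti le_top (fB_mem_ZI _).2) (fB_idem hB)
  refine ⟨fun c hc hce => ?_, fun B hB hBd => ?_⟩
  · have h2 := (cover_iff_io' inf_le_left (hs hc) (hs he)).1 hce
    have hbc := blk_io' hc
    obtain ⟨b, hb, h3⟩ := exists_prim_Br_mul tw_tt hQ le_top hbc.ne
    obtain ⟨B, hB, rfl⟩ := exists_fB_eq hb
    have h4 := hbc.mul_eq (hmem B) (hidem hB) h3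
    refine ⟨B, ⟨(hind hc hB).2 h4, (cover_iff_io (isSat_of_isPBlock hB) (hs hd)).2 fun h => h2 ?_⟩,
      fun B' ⟨h5, _⟩ => ?_⟩
    · have h5 := congrArg (Br Q) h
      rw [Br_mul' hQ (Inv_anti le_top hb.mem.2) (Inv_anti hQN hbd.mem.2), hde, map_zero] at h5
      rw [← h4, comm_blk _ _ (hmem B) _ hbc.mem, mul_assoc, h5, mul_zero]
    · have h6 := (hind hc h5.2.1).1 h5
      refine fB_inj (isSat_of_isPBlock h5.2.1) (isSat_of_isPBlock hB)
        (eq_of_Br_mul le_rfl (blk_fB_of_isPBlock h5.2.1) hb hQ le_top fun h => hbc.ne ?_)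
      rw [← h6, ← h4, ← mul_assoc, h, zero_mul]
  · have hb := blk_fB_of_isPBlock hB
    have h2 := knoerr_Br (tw_top N) hbd hQ hQN hdD.ne hb.mem hb.idem
      ((cover_iff_io (isSat_of_isPBlock hB) (hs hd)).1 hBd)
    rw [hde] at h2
    have key : ∀ c : Set (IrrCharacter (nN Q)), IsPBlock M c →
        io M (nN Q) c * io M (nN Q ⊓ N) e ≠ 0 →
        Br Q (fB M B) * io M (nN Q) c = io M (nN Q) c → io M (nN Q) c = Br Q (fB M B) := by
      intro c hc h3 h4
      have hbc := blk_io' hc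
      have h5 := (blk_iff_of_normal' (p := p) hQ (le_nN_self Q) (cC_le_nN Q) le_rfl).1 hbc
      refine h4.symm.trans (first_main (L := N) tw_tt (tw_top N).norm le_top hQ hQN
        (by rw [top_inf_eq, top_inf_eq]; exact h5.mem) hbc.idem (fun R hR hlt hle => ?_) hb
        (by rw [h4]; exact hbc.ne)).1
      by_contra h0
      have hR1 : R ≤ nN Q ⊓ N := by rwa [inf_comm]
      obtain ⟨f, hf, hfR, h6⟩ := exists_fixed_prim (le_refl (nN Q ⊓ N)) (hR1.trans (le_nN_self _))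
        (hR1.trans (le_nN_self _)) hR h0
      have h7 : io M (nN Q) c * f ≠ 0 := fun h => h6 (by
        rw [← Br_mul' hR hfR (Inv_anti (hR1.trans inf_le_left) hbc.mem.2),
          mul_comm_of_Sp_Inv (Sp_mono inf_le_left hf.mem.1) hbc.mem.2, h, map_zero])
      obtain ⟨x, hx, rfl⟩ := cover_conj tw hbc hbe hf h3 h7
      have h8 := (def_cA x).2 heD
      rw [mem_nN_iff.1 (tw.norm hx), mem_nN_iff.1 hx] at h8
      exact hlt.ne' (h8.eq_of_le hlt.le hR1 hR (left_ne_zero_of_mul h6))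
    obtain ⟨i, hi, h3⟩ := exists_prim_mul_ne_zero (comm_blk (nN Q)) h2
    obtain ⟨c, hc, rfl⟩ := exists_io_eq hi
    have h4 : Br Q (fB M B) * io M (nN Q) c = io M (nN Q) c := hi.mul_eq (hmem B) (hidem hB)
      fun h => h3 (by rw [← mul_assoc, ← comm_blk _ _ (hmem B) _ hi.mem, h, zero_mul])
    have h5 : io M (nN Q) c * io M (nN Q ⊓ N) e ≠ 0 := fun h => h3 (by
      rw [← mul_assoc, ← comm_blk _ _ (hmem B) _ hi.mem, mul_assoc, h, mul_zero])
    refine ⟨c, ⟨⟨hc, (cover_iff_io' inf_le_left (hs hc) (hs he)).2 h5⟩, (hind hc hB).2 h4⟩,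
      fun c' ⟨⟨h6, h7⟩, h8⟩ => io_inj' h6 hc ?_⟩
    rw [key c hc h5 h4,
      key c' h6 ((cover_iff_io' inf_le_left (hs h6) (hs he)).1 h7) ((hind h6 hB).1 h8)]

end Cfsg.Agent.S4674
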