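import Cfsg.Statements.S4675
import Cfsg.Agent.H7.Quot

set_option autoImplicit false
open Cfsg

namespace Cfsg.Agent.S4675

open H5 H7

/-- Fix a prime p and a maximal ideal M of the algebraic integers containing p. Let B be a p-block of the finite group G with defect group P and p-regular rank one (a single irreducible Brauer character). Then there are a function φ on G that is, on the p-regular elements, an integer combination of the members of B, and natural numbers d_χ (χ ∈ B), such that every χ ∈ B agrees with d_χ·φ on the p-regular elements and Σ_{χ ∈ B} d_χ² equals the order of P (the single Cartan invariant of B is the order of P). -/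
theorem result {G : Type*} [Group G] [Fintype G] (p : ℕ) [Fact p.Prime] (M : Ideal Cfsg.AlgInt) (hM : Cfsg.IsPModular p M) (B : Set (Cfsg.IrrCharacter G)) (hB : Cfsg.IsPBlock M B) (P : Subgroup G) (hP : Cfsg.IsDefectGroup p M B P) (hl : Cfsg.blockRank p B = 1) : ∃ φ : G → ℂ, ∃ d : Cfsg.IrrCharacter G → ℕ, (∃ n : Cfsg.IrrCharacter G → ℤ, ∀ x : G, Cfsg.IsPRegular p x → φ x = ∑ᶠ ψ ∈ B, (n ψ : ℂ) * (ψ : G → ℂ) x) ∧ (∀ χ ∈ B, ∀ x : G, Cfsg.IsPRegular p x → (χ : G → ℂ) x = (d χ : ℂ) * φ x) ∧ ∑ᶠ χ ∈ B, d χ ^ 2 = Nat.card P := by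
  haveI : PM p M := ⟨hM⟩
  classical
  have hp : p.Prime := Fact.out
  have hs := isSat_of_isPBlock hB
  obtain ⟨θ, hθ, h0⟩ := exists_height_zero (p := p) (block_nonempty hB)
  have hθ1 := θ.2.apply_one_ne_zero
  -- all `χ°` are proportional
  have h1 : ∀ χ ∈ B, ∀ x, ¬ p ∣ orderOf x → ((χ : IrrCharacter G) : G → ℂ) x =
      (χ : G → ℂ) 1 * ((θ : G → ℂ) x / (θ : G → ℂ) 1) := fun χ hχ x hx => by
    have h2 : reg p (θ : G → ℂ) ≠ 0 := fun e => hθ1 (by
      rw [← reg_of_not_dvd (p := p) (θ : G → ℂ) not_dvd_orderOf_one, e]; rfl)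
    obtain ⟨c, hc⟩ := (finrank_eq_one_iff_of_nonzero' (⟨_, Submodule.subset_span ⟨θ, hθ,
      pRegularPart_eq _⟩⟩ : Submodule.span ℂ ((fun χ : IrrCharacter G =>
        pRegularPart p (χ : G → ℂ)) '' B)) fun e => h2 (congrArg Subtype.val e)).1 hl
      ⟨_, Submodule.subset_span ⟨χ, hχ, pRegularPart_eq _⟩⟩
    have h3 : ∀ y, ¬ p ∣ orderOf y → (χ : G → ℂ) y = c * (θ : G → ℂ) y := fun y hy => by
      simpa [reg_of_not_dvd _ hy] using (congrFun (congrArg Subtype.val hc) y).symm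
    rw [h3 x hx, h3 1 not_dvd_orderOf_one]
    field_simp
  set s := Finset.univ.filter (· ∈ B)
  set g0 := s.gcd fun χ => charDegree (χ : G → ℂ)
  have hd : ∀ χ ∈ B, g0 ∣ charDegree ((χ : IrrCharacter G) : G → ℂ) := fun χ hχ =>
    Finset.gcd_dvd (by simpa [s] using hχ)
  have hg0 : g0 ≠ 0 := fun e => charDegree_ne_zero θ.2 (by simpa [e] using hd θ hθ)
  obtain ⟨n, hn⟩ : ∃ n : IrrCharacter G → ℤ, (g0 : ℤ) = ∑ χ ∈ s, charDegree (χ : G → ℂ) * n χ := by
    obtain ⟨n, hn⟩ := Finset.gcd_eq_sum_mul s fun χ => (charDegree (χ : G → ℂ) : ℤ)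
    refine ⟨n, hn ▸ ?_⟩
    simp only [g0]
    generalize s = t
    induction t using Finset.induction_on with
    | empty => simp
    | insert a t ha ih => rw [Finset.gcd_insert, Finset.gcd_insert, ← ih, ← Int.coe_gcd]; rfl
  set d : IrrCharacter G → ℕ := fun χ => charDegree (χ : G → ℂ) / g0
  have hd' : ∀ χ ∈ B, ((χ : IrrCharacter G) : G → ℂ) 1 = d χ * g0 := fun χ hχ => by
    rw [← χ.2.coe_charDegree, ← Nat.cast_mul, Nat.div_mul_cancel (hd χ hχ)]
  have hsum : ∀ {β : Type} [AddCommMonoid β] (f : IrrCharacter G → β),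
      ∑ᶠ χ ∈ B, f χ = ∑ χ ∈ s, f χ := fun f => by rw [finsum_mem_irr, Finset.sum_filter]
  set φ : G → ℂ := ∑ χ ∈ s, (n χ : ℂ) • (χ : G → ℂ)
  have hφ : ∀ x, ¬ p ∣ orderOf x → φ x = g0 * ((θ : G → ℂ) x / (θ : G → ℂ) 1) := fun x hx => by
    rw [← Int.cast_natCast, hn]
    simp only [φ, Finset.sum_apply, Pi.smul_apply, smul_eq_mul]
    push_cast
    rw [Finset.sum_mul]
    exact Finset.sum_congr rfl fun χ hχ => by
      rw [h1 χ (by simpa [s] using hχ) x hx, χ.2.coe_charDegree]; ring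
  have h2 : ∀ χ ∈ B, ∀ x, ¬ p ∣ orderOf x → ((χ : IrrCharacter G) : G → ℂ) x = d χ * φ x :=
    fun χ hχ x hx => by rw [h1 χ hχ x hx, hφ x hx, hd' χ hχ, mul_assoc]
  refine ⟨φ, d, ⟨n, fun x _ => by simp [hsum, φ]⟩, h2, ?_⟩
  rw [hsum]
  set c := ∑ χ ∈ s, d χ ^ 2
  have h3 : ∑ᶠ χ ∈ B, charDegree (χ : G → ℂ) ^ 2 = c * g0 ^ 2 := by
    rw [hsum, Finset.sum_mul]
    exact Finset.sum_congr rfl fun χ hχ => by
      rw [← mul_pow, Nat.div_mul_cancel (hd χ (by simpa [s] using hχ))]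
  have hgen : IsGeneralizedCharacter G φ :=
    H5.Cfsg.IsGeneralizedCharacter.sum _ fun χ _ => χ.2.isGen.intCast_smul _
  -- `Φ = ∑ d χ • χ = c • φ°`
  have h4 : ∑ χ ∈ s, (d χ : ℂ) • (χ : G → ℂ) = (c : ℂ) • reg p φ := funext fun x => by
    simp only [Finset.sum_apply, Pi.smul_apply, smul_eq_mul]
    by_cases hx : p ∣ orderOf x
    · have h5 := mu_eq_zero_of_dvd hs not_dvd_orderOf_one hx
      rw [← mu_conj, map_eq_zero, mu, hsum] at h5
      rw [reg_of_dvd _ hx, mul_zero]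
      refine mul_left_cancel₀ (Nat.cast_ne_zero.2 hg0 : (g0 : ℂ) ≠ 0) ?_
      rw [mul_zero, ← h5, Finset.mul_sum]
      exact Finset.sum_congr rfl fun χ hχ => by
        rw [χ.2.isCharacter.conj_apply_one, hd' χ (by simpa [s] using hχ)]; ring
    · rw [reg_of_not_dvd _ hx]
      simp only [c]
      push_cast
      rw [Finset.sum_mul]
      exact Finset.sum_congr rfl fun χ hχ => by rw [h2 χ (by simpa [s] using hχ) x hx]; ring
  have h5 : (c : ℂ) * classInner (reg p φ) φ = 1 := by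
    rw [← classInner_smul_left, ← h4]
    simp only [classInner_smul_left, classInner_sum_left, φ, classInner_sum_right,
      classInner_smul_right, classInner_irr]
    refine mul_left_cancel₀ (Nat.cast_ne_zero.2 hg0 : (g0 : ℂ) ≠ 0) ?_
    rw [mul_one, Finset.mul_sum]
    conv_rhs => rw [← Int.cast_natCast, hn]
    push_cast
    refine Finset.sum_congr rfl fun χ hχ => ?_
    rw [Finset.sum_eq_single χ (fun ψ _ h => by simp [h]) (fun h => absurd hχ h),
      χ.2.coe_charDegree, hd' χ (by simpa [s] using hχ)]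
    simp
    ring
  obtain ⟨m, hm⟩ := exists_int_reg (p := p) hgen hgen
  have h6 : c ∣ p ^ (Nat.card G).factorization p := by
    have : ((p ^ (Nat.card G).factorization p : ℕ) : ℤ) = c * m := by
      have : ((p ^ (Nat.card G).factorization p : ℕ) : ℂ) = c * m := by
        rw [← hm, mul_left_comm, h5, mul_one]
      exact_mod_cast this
    exact Int.natCast_dvd_natCast.1 ⟨m, this⟩
  obtain ⟨k, -, hk⟩ := (Nat.dvd_prime_pow hp).1 h6
  have h7 := factorization_sum_sq (p := p) hB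
  rw [h3, hk, Nat.factorization_mul (pow_ne_zero _ hp.ne_zero) (pow_ne_zero _ hg0),
    Finsupp.add_apply, Nat.factorization_pow_self hp, Nat.factorization_pow, Finsupp.smul_apply,
    smul_eq_mul] at h7
  have h8 := factorization_add_defect (M := M) (p := p) hθ
  have h9 := (Nat.factorization_le_iff_dvd hg0 (charDegree_ne_zero θ.2)).2 (hd θ hθ) p
  have h10 : p ^ (charDegree (θ : G → ℂ)).factorization p ∣ g0 := Finset.dvd_gcd fun χ hχ =>
    (hp.pow_dvd_iff_le_factorization (charDegree_ne_zero χ.2)).2 (by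
      have := factorization_add_defect (M := M) (p := p) (show χ ∈ B by simpa [s] using hχ)
      omega)
  rw [hp.pow_dvd_iff_le_factorization hg0] at h10
  rw [hk, IsDefectGroup.card hB hP]
  congr 1
  omega

end Cfsg.Agent.S4675
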