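import Cfsg.Statements.S4681
import Cfsg.Agent.H8.Pairs3

set_option autoImplicit false
open Cfsg

namespace Cfsg.Agent.S4681

open H5 H7 H8

/-- Fix a prime p and a maximal ideal M of the algebraic integers containing p. Let B₀ be the principal p-block of the finite group G, P a Sylow p-subgroup and e₀ the principal p-block of C_G(P). Then (P, e₀) is a maximal Brauer pair of B₀, and the fusion system of B₀ on (P, e₀) is the fusion system of G on P: its maps from each subgroup of P are exactly the conjugation maps into P by elements of G. -/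
theorem result {G : Type*} [Group G] [Fintype G] (p : ℕ) [Fact p.Prime] (M : Ideal Cfsg.AlgInt) (hM : Cfsg.IsPModular p M) (S : Sylow p G) : Cfsg.IsMaximalBrauerPair p M (Cfsg.principalBlock M G) (S : Subgroup G) (Cfsg.principalBlock M (Subgroup.centralizer ((S : Subgroup G) : Set G))) ∧ ∀ F : Cfsg.FusionSystem (S : Subgroup G), Cfsg.IsBlockFusionSystemOn p M (Cfsg.principalBlock M G) (S : Subgroup G) (Cfsg.principalBlock M (Subgroup.centralizer ((S : Subgroup G) : Set G))) F → ∀ Q : Subgroup G, F.Hom Q = (Cfsg.groupFusionSystem (S : Subgroup G)).Hom Q := by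
  haveI : PM p M := ⟨hM⟩
  have hp : ∀ Q : Subgroup G, IsPGroup p Q → BP p ⊤ ⊤ (b0 M ⊤) Q (b0 M (cC Q)) := fun Q hQ =>
    (bp_b0_iff ⟨hQ, by rw [top_inf_eq]; exact blk_b0 _⟩ le_top).2 (by rw [top_inf_eq])
  have m : Mx p ⊤ ⊤ (b0 M ⊤) (S : Subgroup G) (b0 M (cC (S : Subgroup G))) := by
    refine ⟨tw_tt, blk_b0 ⊤, def_of_max tw_tt (blk_b0 ⊤) le_top S.2 (hp (S : Subgroup G) S.2).Br_ne_zero
      fun R h1 h2 _ => absurd (S.3 h1 h2.le) h2.ne', hp (S : Subgroup G) S.2⟩
  have hle : ∀ Q : Subgroup G, Q ≤ S → Le p ⊤ Q (b0 M (cC Q)) (S : Subgroup G) (b0 M (cC (S : Subgroup G))) := fun Q hQ => by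
    obtain ⟨f, hf⟩ := m.exists_le hQ
    rwa [(bp_b0_iff (hf.lo m.pair) le_top).1 (m.bp_of_le hf), top_inf_eq] at hf
  have hmax := max_of_mx (M := M) (p := p) (P := (S : Subgroup G)) isPBlock_principalBlock isPBlock_principalBlock
    (by rw [fB_principal]; exact m)
  refine ⟨hmax, fun F hF Q => H20.hom_eq_iff.2 fun σ => ?_⟩
  rw [isBF_of hF, H20.mor_group_iff]
  constructor
  · rintro ⟨g, -, h1, f, h2, h3⟩
    exact ⟨h2.le, fun x hx => h1 x hx ▸ h3.le (conj_mem_cj.2 hx), g, h1⟩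
  · rintro ⟨h1, h2, g, h3⟩
    refine ⟨g, Subgroup.mem_top g, h3, _, hle Q h1, ?_⟩
    rw [cA_b0, cj_cC]
    exact hle _ (cj_le_iff'.2 fun x hx => h3 x hx ▸ h2 x hx)

end Cfsg.Agent.S4681
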