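import Cfsg.Statements.S4682
import Cfsg.Agent.H8.Pairs3

set_option autoImplicit false
open Cfsg

namespace Cfsg.Agent.S4682

open H5 H7 H8

/-- Fix a prime p and a maximal ideal M of the algebraic integers containing p, a p-block B of the finite group G with maximal Brauer pair (P, e), P abelian, and a Brauer pair (Q, f) ≤ (P, e). Let T_Q be the stabilizer of f in N_G(Q) and T_P the stabilizer of e in N_G(P). Then every element of T_Q is a product of an element of T_P and an element of C_G(Q); and the index of C_G(Q) in T_Q equals the index of T_P ∩ C_G(Q) in T_P ∩ N_G(Q). -/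
theorem result {G : Type*} [Group G] [Fintype G] (p : ℕ) [Fact p.Prime] (M : Ideal Cfsg.AlgInt) (hM : Cfsg.IsPModular p M) (B : Set (Cfsg.IrrCharacter G)) (P : Subgroup G) (e : Set (Cfsg.IrrCharacter (Subgroup.centralizer (P : Set G)))) (hmax : Cfsg.IsMaximalBrauerPair p M B P e) (hab : ∀ x ∈ P, ∀ y ∈ P, x * y = y * x) (Q : Subgroup G) (f : Set (Cfsg.IrrCharacter (Subgroup.centralizer (Q : Set G)))) (hQP : Q ≤ P) (hf : Cfsg.IsPBlock M f) (hle : Cfsg.SubpairLE p M Q f P e) (TQ : Subgroup G) (hTQ : ∀ y : G, y ∈ TQ ↔ y ∈ Subgroup.normalizer (Q : Set G) ∧ Cfsg.StabilizesBlock (Subgroup.centralizer (Q : Set G)) f y) (TP : Subgroup G) (hTP : ∀ y : G, y ∈ TP ↔ y ∈ Subgroup.normalizer (P : Set G) ∧ Cfsg.StabilizesBlock (Subgroup.centralizer (P : Set G)) e y) : (∀ x ∈ TQ, ∃ y ∈ TP, ∃ c ∈ Subgroup.centralizer (Q : Set G), x = y * c) ∧ ((Subgroup.centralizer (Q : Set G)).subgroupOf TQ).index = ((TP ⊓ Subgroup.centralizer (Q : Set G)).subgroupOf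 (TP ⊓ Subgroup.normalizer (Q : Set G))).index := by
  haveI : PM p M := ⟨hM⟩
  have m := mx_of hmax
  have h := le_of_subpairLE hle
  have hab' : P ≤ cC P := fun x hx y hy => hab y hy x hx
  have e1 := stab_eq' hf hTQ
  have e2 := stab_eq' hmax.1.1.2 hTP
  have key : ∀ x ∈ TQ, ∃ y ∈ TP, ∃ c ∈ cC Q, x = y * c := by
    intro x hx
    rw [e1] at hx
    obtain ⟨y, hy, c, hc, e⟩ := m.exists_mul_of_abelian hab' h hx.1.1
      (by rwa [mem_nN_iff.1 hx.1.2, mem_St.1 hx.2])
    exact ⟨y, e2 ▸ hy, c, hc.1.2, e⟩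
  refine ⟨key, ?_⟩
  have h1 : TQ = cC Q ⊔ (TP ⊓ nN Q) := by
    apply le_antisymm
    · intro x hx
      obtain ⟨y, hy, c, hc, rfl⟩ := key x hx
      rw [sup_comm]
      refine Subgroup.mul_mem_sup ⟨hy, ?_⟩ hc
      exact ((nN Q).mul_mem_cancel_right (cC_le_nN Q hc)).1 ((hTQ _).1 hx).1
    · rw [e1, top_inf_eq]
      refine sup_le (cC_le_stab f) fun x hx => ⟨hx.2, ?_⟩
      have := e2 ▸ hx.1
      exact h.mem_St m.pair m.norm (le_nN_top ⊤ (Subgroup.mem_top x)) this.1.2 this.2 hx.2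
  show (cC Q).relIndex TQ = (TP ⊓ cC Q).relIndex (TP ⊓ nN Q)
  rw [h1, H1.relIndex_sup_of_le_normalizer (inf_le_right.trans (nN_le_nN_cC Q)),
    ← Subgroup.inf_relIndex_right (cC Q), ← Subgroup.inf_relIndex_right (TP ⊓ cC Q)]
  congr 1
  exact le_antisymm (le_inf (le_inf (inf_le_right.trans inf_le_left) inf_le_left) inf_le_right)
    (le_inf (inf_le_left.trans inf_le_right) inf_le_right)

end Cfsg.Agent.S4682
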