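import Cfsg.Statements.S4683
import Cfsg.Agent.H8.Pairs4
import Cfsg.Agent.H8.Contr

set_option autoImplicit false
open Cfsg

namespace Cfsg.Agent.S4683

open H5 H7 H8

/-- Fix a prime p and a maximal ideal M of the algebraic integers containing p, a p-block B of the finite group G, a p-element u and a p-block e of C = C_G(u) such that (⟨u⟩, e) is a Brauer pair of B (a Brauer element of B). For χ ∈ B let χ_u be the e-part of the class function c ↦ χ(u c) on C and χ_u' the e-part of c ↦ χ(u⁻¹ c). Then the sum over χ ∈ B and over the p-regular elements s of C of χ_u(s)·χ_u'(s⁻¹) equals the order of C times the p-regular rank of e (the number of irreducible Brauer characters of e). -/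
theorem result {G : Type*} [Group G] [Fintype G] (p : ℕ) [Fact p.Prime] (M : Ideal Cfsg.AlgInt) (hM : Cfsg.IsPModular p M) (B : Set (Cfsg.IrrCharacter G)) (u : G) (hu : ∃ k : ℕ, orderOf u = p ^ k) (e : Set (Cfsg.IrrCharacter (Subgroup.centralizer (Subgroup.zpowers u : Set G)))) (hBe : Cfsg.IsBrauerPairOf p M B (Subgroup.zpowers u) e) : ∑ᶠ χ ∈ B, ∑ᶠ s : Subgroup.centralizer (Subgroup.zpowers u : Set G), Cfsg.pRegularPart p (Cfsg.blockPart e (fun c : Subgroup.centralizer (Subgroup.zpowers u : Set G) => (χ : G → ℂ) (u * c))) s * Cfsg.blockPart e (fun c : Subgroup.centralizer (Subgroup.zpowers u : Set G) => (χ : G → ℂ) (u⁻¹ * c)) s⁻¹ = (Nat.card (Subgroup.centralizer (Subgroup.zpowers u : Set G)) : ℂ) * (Cfsg.blockRank p e : ℂ) := by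
  classical
  haveI : PM p M := ⟨hM⟩
  have he : IsPBlock M e := hBe.1.2
  have hB : IsPBlock M B := hBe.2.1
  let z : cC (Subgroup.zpowers u) := ⟨u, by
    show u ∈ Subgroup.centralizer _
    rw [centralizer_zpowers]; exact Subgroup.mem_centralizer_singleton_iff.2 rfl⟩
  have hC : Subgroup.centralizer ({(cC (Subgroup.zpowers u)).subtype z} : Set G) =
      (cC (Subgroup.zpowers u)).subtype.range := by
    rw [Subgroup.range_subtype]; exact (centralizer_zpowers u).symm
  have hpe : IsPE p z := isPE_coe.1 hu
  have hz := central_of_range Subtype.val_injective hC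
  have L := locSet_of_range Subtype.val_injective (hpe.map _) hC
  have hI : IndB M (cC (Subgroup.zpowers u)).subtype e B := (indB_iff_Br L he hB).2 (bp_of hBe).br
  rw [← sum_ctr_self Subtype.val_injective hpe hC (isSat_of_isPBlock hB) (isSat_of_isPBlock he)
    hI.subset_indSet, finsum_mem_irr, Finset.mul_sum]
  refine Finset.sum_congr rfl fun χ _ => ?_
  split_ifs
  swap
  · simp
  rw [ctr, ← classInner_mul_left_eq z, card_mul_classInner, finsum_eq_sum_of_fintype]
  refine Finset.sum_congr rfl fun s _ => ?_
  have hθ := χ.2.isGen.restrict (cC (Subgroup.zpowers u))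
  have h1 := blockPart_mul_central hθ.isClassFunction hz e
  have h2 := blockPart_mul_central hθ.isClassFunction (z := z⁻¹)
    (fun c => (Commute.inv_right (hz c)).eq) e s⁻¹
  rw [← mul_inv_rev, hz, (isGen_blockPart hθ).apply_inv] at h2
  rw [secF_mul hz hpe, pRegularPart_eq]
  by_cases hs : p ∣ orderOf s
  · simp [reg_of_dvd _ hs]
  · rw [reg_of_not_dvd _ hs, reg_of_not_dvd _ hs]
    exact congrArg₂ (· * ·) (h1 s) h2

end Cfsg.Agent.S4683
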