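import Cfsg.Statements.S4684
import Cfsg.Agent.H7.StarNil

set_option autoImplicit false
open Cfsg

namespace Cfsg.Agent.S4684

open H5 H7

/-- Fix a prime p and a maximal ideal M of the algebraic integers containing p, a p-block B of the finite group G with maximal Brauer pair (P, e) and fusion system F on P. Then the number of irreducible characters of height zero in B is divisible by the index in P of the focal subgroup of F. -/
theorem result {G : Type*} [Group G] [Fintype G] (p : ℕ) [Fact p.Prime] (M : Ideal Cfsg.AlgInt) (hM : Cfsg.IsPModular p M) (B : Set (Cfsg.IrrCharacter G)) (P : Subgroup G) (e : Set (Cfsg.IrrCharacter (Subgroup.centralizer (P : Set G)))) (hmax : Cfsg.IsMaximalBrauerPair p M B P e) (F : Cfsg.FusionSystem P) (hF : Cfsg.IsBlockFusionSystemOn p M B P e F) : (F.focalSubgroup.subgroupOf P).index ∣ Nat.card {χ : Cfsg.IrrCharacter G // χ ∈ B ∧ Cfsg.blockHeight p B (χ : G → ℂ) = 0} := by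
    haveI : PM p M := ⟨hM⟩
    have := (MP.ofMax hmax).dvd_card _ (fun v w h => h.mem_foc _ (H8.isBF_of hF)) ⊤
      (S := {χ | χ ∈ B ∧ blockHeight p B (χ : G → ℂ) = 0}) (fun _ h => h.1)
      (fun χ hχ ψ hψ h => ⟨hψ, (blockHeight_congr (h 1 not_dvd_orderOf_one)).trans hχ.2⟩)
      fun χ hχ v _ => (MP.ofMax hmax).ct_ne_zero v hχ.1 hχ.1 hχ.2 hχ.2
    rwa [Subgroup.relIndex_top_right] at this

end Cfsg.Agent.S4684
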