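import Cfsg.Statements.S4685
import Cfsg.Agent.H7.StarNil

set_option autoImplicit false
open Cfsg

namespace Cfsg.Agent.S4685

open H5 H7

/-- Fix a prime p and a maximal ideal M of the algebraic integers containing p, a p-block B of the finite group G with maximal Brauer pair (P, e) and fusion system F on P. Then for every h the number of irreducible characters of height h in B is divisible by the index of Z(P) ∩ foc(F) in Z(P), where foc(F) is the focal subgroup of F. -/
theorem result {G : Type*} [Group G] [Fintype G] (p : ℕ) [Fact p.Prime] (M : Ideal Cfsg.AlgInt) (hM : Cfsg.IsPModular p M) (B : Set (Cfsg.IrrCharacter G)) (P : Subgroup G) (e : Set (Cfsg.IrrCharacter (Subgroup.centralizer (P : Set G)))) (hmax : Cfsg.IsMaximalBrauerPair p M B P e) (F : Cfsg.FusionSystem P) (hF : Cfsg.IsBlockFusionSystemOn p M B P e F) (h : ℕ) : ((P ⊓ Subgroup.centralizer (P : Set G) ⊓ F.focalSubgroup).subgroupOf (P ⊓ Subgroup.centralizer (P : Set G))).index ∣ Nat.card {χ : Cfsg.IrrCharacter G // χ ∈ B ∧ Cfsg.blockHeight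 p B (χ : G → ℂ) = h} := by
    haveI : PM p M := ⟨hM⟩
    have := (MP.ofMax hmax).dvd_card _ (fun v w h => h.mem_foc _ (H8.isBF_of hF))
      ((P ⊓ H8.cC P).subgroupOf P)
      (S := {χ | χ ∈ B ∧ blockHeight p B (χ : G → ℂ) = h}) (fun _ h => h.1)
      (fun χ hχ ψ hψ h => ⟨hψ, (blockHeight_congr (h 1 not_dvd_orderOf_one)).trans hχ.2⟩)
      fun χ hχ v hv => (MP.ofMax hmax).ct_self_major_ne_zero hv.2 hχ.1
    rw [Subgroup.relIndex_subgroupOf inf_le_left] at this
    rwa [← Subgroup.inf_relIndex_left] at this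

end Cfsg.Agent.S4685
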