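import Cfsg.Statements.S4688
import Cfsg.Agent.H8.Pairs3

set_option autoImplicit false
open Cfsg

namespace Cfsg.Agent.S4688

open H5 H7 H8

/-- Fix a prime p and a maximal ideal M of the algebraic integers containing p, and a nilpotent p-block B of the finite group G with maximal Brauer pair (P, e). Then for every Brauer pair (Q, f) of B, f is a nilpotent block of C_G(Q); and if moreover (Q, f) ≤ (P, e), then C_P(Q) is a defect group of f as a block of C_G(Q). -/
theorem result {G : Type*} [Group G] [Fintype G] (p : ℕ) [Fact p.Prime] (M : Ideal Cfsg.AlgInt) (hM : Cfsg.IsPModular p M) (B : Set (Cfsg.IrrCharacter G)) (P : Subgroup G) (e : Set (Cfsg.IrrCharacter (Subgroup.centralizer (P : Set G)))) (hmax : Cfsg.IsMaximalBrauerPair p M B P e) (hnil : Cfsg.IsNilpotentBlock p M B) (Q : Subgroup G) (f : Set (Cfsg.IrrCharacter (Subgroup.centralizer (Q : Set G)))) (hQf : Cfsg.IsBrauerPairOf p M B Q f) : Cfsg.IsNilpotentBlock p M f ∧ (Cfsg.SubpairLE p M Q f P e → Cfsg.IsDefectGroup p M f ((P ⊓ Subgroup.centralizer (Q : Set G)).subgroupOf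 (Subgroup.centralizer (Q : Set G)))) := by
  haveI : PM p M := ⟨hM⟩
  have m := mx_of hmax
  have hn := (nil_iff hnil.1).1 hnil
  constructor
  · have := hn.loc m.tw m.prim (bp_of hQf) (T := cC Q) (by rw [top_inf_eq]; exact cC_le_stab f)
    rw [top_inf_eq] at this
    exact (nil_io hQf.1.2).2 this
  · intro hle
    have := m.def_of_nilB hn (le_of_subpairLE hle)
    rw [cstab_eq] at this
    exact (def_io' hQf.1.2 inf_le_right).2 this

end Cfsg.Agent.S4688
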