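import Cfsg.Statements.S4689
import Cfsg.Agent.H7.StarNil

set_option autoImplicit false
open Cfsg

namespace Cfsg.Agent.S4689

open H5 H7

/-- Fix a prime p and a maximal ideal M of the algebraic integers containing p, and a nilpotent p-block B of the finite group G. Then B has p-regular rank one (a single irreducible Brauer character), and some χ₀ ∈ B restricts to that Brauer character: every χ ∈ B agrees on the p-regular elements with a natural-number multiple of χ₀. -/
theorem result {G : Type*} [Group G] [Fintype G] (p : ℕ) [Fact p.Prime] (M : Ideal Cfsg.AlgInt) (hM : Cfsg.IsPModular p M) (B : Set (Cfsg.IrrCharacter G)) (hnil : Cfsg.IsNilpotentBlock p M B) : Cfsg.blockRank p B = 1 ∧ ∃ χ₀ ∈ B, ∀ χ ∈ B, ∃ d : ℕ, ∀ x : G, Cfsg.pRegularPart p (χ : G → ℂ) x = (d : ℂ) * Cfsg.pRegularPart p (χ₀ : G → ℂ) x := by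
    haveI : PM p M := ⟨hM⟩
    obtain ⟨P, hP⟩ := exists_isDefectGroup p hnil.1
    obtain ⟨m⟩ := nonempty_mp hnil.1 hP
    have h := m.nl_of_nil hnil
    obtain ⟨χ₀, h1, h0⟩ := exists_height_zero (p := p) (block_nonempty m.blk)
    refine ⟨h.rank, χ₀, h1, fun χ hχ => ?_⟩
    obtain ⟨η, e⟩ := h.exists_star h1 h0 hχ
    obtain ⟨n, -, hn⟩ := η.2.exists_apply_one
    refine ⟨n, fun g => ?_⟩
    simp only [pRegularPart]
    split_ifs with hg
    · rw [← e, m.star_reg _ h1 hg, hn]
    · simp

end Cfsg.Agent.S4689
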