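import Cfsg.Statements.S4690
import Cfsg.Agent.H7.StarNil

set_option autoImplicit false
open Cfsg

namespace Cfsg.Agent.S4690

open H5 H7

/-- Fix a prime p and a maximal ideal M of the algebraic integers containing p, and a nilpotent p-block B of the finite group G with defect group P. Then there is a bijection from B onto the irreducible characters of P carrying the height of each χ ∈ B to the exponent of p in the degree of its image. -/
theorem result {G : Type*} [Group G] [Fintype G] (p : ℕ) [Fact p.Prime] (M : Ideal Cfsg.AlgInt) (hM : Cfsg.IsPModular p M) (B : Set (Cfsg.IrrCharacter G)) (hnil : Cfsg.IsNilpotentBlock p M B) (P : Subgroup G) (hP : Cfsg.IsDefectGroup p M B P) : ∃ Φ : B ≃ Cfsg.IrrCharacter P, ∀ χ : B, Cfsg.blockHeight p B ((χ : Cfsg.IrrCharacter G) : G → ℂ) = (Cfsg.charDegree ((Φ χ : Cfsg.IrrCharacter P) : P → ℂ)).factorization p := by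
    haveI : PM p M := ⟨hM⟩
    obtain ⟨m⟩ := nonempty_mp hnil.1 hP
    obtain ⟨χ₀, h1, h0⟩ := exists_height_zero (p := p) (block_nonempty m.blk)
    obtain ⟨Φ, hΦ⟩ := (m.nl_of_nil hnil).exists_equiv h1 h0
    exact ⟨Φ.symm, fun χ => MP.Nl.height_star (m := m) h1 h0 χ.2 (by rw [← hΦ, Φ.apply_symm_apply])⟩

end Cfsg.Agent.S4690
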