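import Cfsg.Statements.S4692
import Cfsg.Agent.H8.Pairs4

set_option autoImplicit false
open Cfsg

namespace Cfsg.Agent.S4692

open H5 H7 H8

/-- Fix a prime p and a maximal ideal M of the algebraic integers containing p. Let N be a normal subgroup of p-power index in the finite group G and c a p-block of N stable under conjugation by G, and let B be the p-block of G whose idempotent is that of c (it exists and is unique). Then c is nilpotent as a block of N if and only if B is nilpotent as a block of G. -/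
theorem result {G : Type*} [Group G] [Fintype G] (p : ℕ) [Fact p.Prime] (M : Ideal Cfsg.AlgInt) (hM : Cfsg.IsPModular p M) (N : Subgroup G) [N.Normal] (hN : ∃ k : ℕ, N.index = p ^ k) (c : Set (Cfsg.IrrCharacter N)) (hc : Cfsg.IsPBlock M c) (hst : ∀ x : G, Cfsg.StabilizesBlock N c x) (B : Set (Cfsg.IrrCharacter G)) (hB : Cfsg.IsPBlock M B) (hBc : ∀ g : G, Cfsg.blockCoeff B g = Cfsg.subgroupBlockCoeff N c g) : Cfsg.IsNilpotentBlock p M c ↔ Cfsg.IsNilpotentBlock p M B := by
  haveI : PM p M := ⟨hM⟩
  obtain ⟨k, hN⟩ := hN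
  have hi : io M N c ∈ Inv (F M) (⊤ : Subgroup G) :=
    mem_Inv_iff_le.2 fun x _ => ((stabilizes_iff hc).1 (hst x)).2
  have hb := (blk_io' hc).of_Inv le_top hi
  have hr : ∀ x ∈ (⊤ : Subgroup G), ¬ p ∣ orderOf x → x ∈ N := fun g _ hg => mem_of_index_pow' hN hg
  rw [nil_io hc, nil_iff hB, fB_eq_io_of_coeff hBc, ← nilB_iff_of_pquot (tw_top N) hb hr]
  exact ⟨NilB.ext_of_pquot (tw_top N) hb hr, NilB.res (tw_top N)⟩

end Cfsg.Agent.S4692
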