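import Cfsg.Statements.S4693
import Cfsg.Agent.H8.Pairs3

set_option autoImplicit false
open Cfsg

namespace Cfsg.Agent.S4693

open H5 H7 H8

/-- Fix a prime p and a maximal ideal M of the algebraic integers containing p, a p-block B of the finite group G with maximal Brauer pair (P, e) and fusion system F on P, and a Brauer pair (Q, f) ≤ (P, e) with Q centric in F. Suppose every element of G normalizes Q and stabilizes f. Then the idempotent of B agrees with that of f modulo M at every element of G, and f is the idempotent of a nilpotent block of Q·C_G(Q): some p-block of Q·C_G(Q) has the idempotent coefficients of f and is nilpotent. -/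
theorem result {G : Type*} [Group G] [Fintype G] (p : ℕ) [Fact p.Prime] (M : Ideal Cfsg.AlgInt) (hM : Cfsg.IsPModular p M) (B : Set (Cfsg.IrrCharacter G)) (P : Subgroup G) (e : Set (Cfsg.IrrCharacter (Subgroup.centralizer (P : Set G)))) (hmax : Cfsg.IsMaximalBrauerPair p M B P e) (F : Cfsg.FusionSystem P) (hF : Cfsg.IsBlockFusionSystemOn p M B P e F) (Q : Subgroup G) (f : Set (Cfsg.IrrCharacter (Subgroup.centralizer (Q : Set G)))) (hQP : Q ≤ P) (hf : Cfsg.IsPBlock M f) (hle : Cfsg.SubpairLE p M Q f P e) (hcen : F.IsCentric Q) (hG : ∀ x : G, x ∈ Subgroup.normalizer (Q : Set G) ∧ Cfsg.StabilizesBlock (Subgroup.centralizer (Q : Set G)) f x) : (∀ g : G, Cfsg.MemLocalIdeal M (Cfsg.blockCoeff B g - Cfsg.subgroupBlockCoeff (Subgroup.centralizer (Q : Set G)) f g)) ∧ ∃ F' : Set (Cfsg.IrrCharacter ↥(Q ⊔ Subgroup.centralizer (Q : Set G))), Cfsg.IsPBlock M F' ∧ (∀ t : ↥(Q ⊔ Subgroup.centralizer (Q : Set G)), Cfsg.blockCoeff F' t = Cfsg.subgroupBlockCoeff (Subgroup.centralizer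 (Q : Set G)) f (t : G)) ∧ Cfsg.IsNilpotentBlock p M F' := by
  haveI : PM p M := ⟨hM⟩
  have m := mx_of hmax
  have h := le_of_subpairLE hle
  have hq := h.lo m.pair
  have h1 : ⊤ ≤ nN Q ⊓ St (io M (cC Q) f) := fun x _ => (stab_pair_iff hf).1 (hG x)
  have hb := hq.blk_stab le_top le_top h1
  have e1 : fB M B = io M (cC Q) f := by
    refine m.prim.eq_of_mul_ne_zero (comm_blk _) hb ?_
    have := (m.bp_of_le h).br
    rw [Br_eq_self_of_normal m.prim.mem m.prim.idem hq.pg le_top (h1.trans inf_le_left)] at this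
    rw [this]; exact hb.ne
  refine ⟨fun g => ?_, ?_⟩
  · rw [← mem_mC, ← red_eq_iff (blockCoeff_mem_O hmax.1.2.1 g) (sbc_mem_O (isSat_of_isPBlock hf) g),
      ← coeff_fB, ← coeff_io, e1]
  obtain ⟨F', hF', e2, e3⟩ := exists_block_stab (T := Q ⊔ cC Q) hq.pg hf le_sup_left le_sup_right
    (le_top.trans h1)
  refine ⟨F', hF', e3, (nil_io hF').2 ?_⟩
  rw [e2]
  intro R g hR x hx hxp
  have hD := ((isBF_of hF).fc_iff m h).1 (H20.centric_fc hcen)
  rw [cstab_eq] at hD
  have hn : Q ⊔ cC Q ≤ nN Q := sup_le (le_nN_self Q) (cC_le_nN Q)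
  have hRQ : R ≤ Q := by
    have h2 : (R ⊔ Q) ⊓ cC Q ≤ Q := by
      refine (hD.le_of_normal' inf_le_right (isPGroup_sup hR.pair.pg hq.pg
        (hR.le.trans hn)).to_inf_left (Br_ne_zero_of_le inf_le_left ?_) ?_).trans
        (H20.centric_self hcen)
      · rw [Br_sup_of_Sp hq.sp]; exact hR.Br_ne_zero
      · refine (le_cC_comm.1 ?_).trans (cC_le_nN _)
        exact le_cC_comm.1 (cC_anti (H20.centric_self hcen))
    intro y hy
    obtain ⟨q, hq', c, hc, rfl⟩ := (H1.mem_sup_of_le_normalizer (cC_le_nN Q)).1 (hR.le hy)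
    refine Q.mul_mem hq' (h2 ⟨?_, hc⟩)
    exact ((R ⊔ Q).mul_mem_cancel_left (Subgroup.mem_sup_right hq')).1 (Subgroup.mem_sup_left hy)
  obtain ⟨q, hq', c, hc, rfl⟩ := (H1.mem_sup_of_le_normalizer (cC_le_nN Q)).1 hx.1.1
  obtain ⟨n, hn'⟩ := (isPE_of_mem hq.pg hq').exists_pow
  refine cC_anti hRQ (mem_of_pow_mem (n := n) hxp ?_)
  rw [Commute.mul_pow (hc q hq'), hn', one_mul]
  exact (cC Q).pow_mem hc _

end Cfsg.Agent.S4693
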