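import Cfsg.Statements.S4694
import Cfsg.Agent.H8.Pairs4
import Cfsg.Agent.H7.Fong
import Cfsg.Agent.H7.Quot
import Cfsg.Agent.H6.Ind

set_option autoImplicit false
open Cfsg

namespace Cfsg.Agent.S4694

open H5 H7 H8

/-- Fix a prime p and a maximal ideal M of the algebraic integers containing p, a p-block B of the finite group G and a Brauer pair (Q, e) of B. Let T be the stabilizer of e in N_G(Q) and suppose that (Q, e) carries a weight: the block of T whose idempotent is that of e contains an irreducible character χ that is constant on the cosets of Q and whose degree has p-part equal to the p-part of the index of Q in T. Then Z(Q) is a defect group of e as a block of C_G(Q), and Q is the largest normal p-subgroup of T: every p-subgroup of T normalized by T lies in Q. -/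
theorem result {G : Type*} [Group G] [Fintype G] (p : ℕ) [Fact p.Prime] (M : Ideal Cfsg.AlgInt) (hM : Cfsg.IsPModular p M) (B : Set (Cfsg.IrrCharacter G)) (Q : Subgroup G) (e : Set (Cfsg.IrrCharacter (Subgroup.centralizer (Q : Set G)))) (hQe : Cfsg.IsBrauerPairOf p M B Q e) (T : Subgroup G) (hT : ∀ y : G, y ∈ T ↔ y ∈ Subgroup.normalizer (Q : Set G) ∧ Cfsg.StabilizesBlock (Subgroup.centralizer (Q : Set G)) e y) (F' : Set (Cfsg.IrrCharacter T)) (hF' : Cfsg.IsPBlock M F') (hF'e : ∀ t : T, Cfsg.blockCoeff F' t = Cfsg.subgroupBlockCoeff (Subgroup.centralizer (Q : Set G)) e (t : G)) (χ : Cfsg.IrrCharacter T) (hχ : χ ∈ F') (hχQ : ∀ q : G, q ∈ Q → ∀ t : T, ∀ t' : T, (t' : G) = q * (t : G) → (χ : T → ℂ) t' = (χ : T → ℂ) t) (hdeg : (Cfsg.charDegree (χ : T → ℂ)).factorization p + (Nat.card Q).factorization p = (Nat.card T).factorization p) : Cfsg.IsDefectGroup p M e ((Q ⊓ Subgroup.centralizer (Q : Set G)).subgroupOf (Subgroup.centralizer (Q : Set G))) ∧ ∀ R : Subgroup G, R ≤ T → IsPGroup p R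 → (∀ t ∈ T, t ∈ Subgroup.normalizer (R : Set G)) → R ≤ Q := by
  classical
  haveI : PM p M := ⟨hM⟩
  have he : IsPBlock M e := hQe.1.2
  have hQ : IsPGroup p Q := hQe.1.1
  have hT' := stab_eq he hT
  have hCT : cC Q ≤ T := hT' ▸ cC_le_stab e
  have hTN : T ≤ nN Q := hT' ▸ inf_le_left
  have hQT : Q ≤ T := hT' ▸ le_inf (le_nN_self Q) (bp_of hQe).pair.le_St'
  haveI : (Q.subgroupOf T).Normal := Subgroup.normal_subgroupOf_of_le_normalizer hTN
  obtain ⟨ψ, rfl⟩ := (mem_kerSet_iff_exists (N := Q.subgroupOf T) (χ := χ)).1 fun n hn =>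
    hχQ n hn 1 n (by simp)
  set π := QuotientGroup.mk' (Q.subgroupOf T) with hπ
  have hcard : Nat.card (Q.subgroupOf T) = Nat.card Q :=
    Nat.card_congr (Subgroup.subgroupOfEquivOfLe hQT).toEquiv
  have hb := isPBlock_blockOf (M := M) ψ
  have h0 : blockDefect p (blockOf M (ψ : T ⧸ Q.subgroupOf T → ℂ)) = 0 := by
    rw [blockDefect_eq_zero_iff hb (mem_blockOf_self ψ)]
    have h1 := factorization_index_add (p := p) (Q.subgroupOf T)
    have h2 : charDegree (icomp π (QuotientGroup.mk'_surjective _) ψ : T → ℂ) =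
        charDegree (ψ : T ⧸ Q.subgroupOf T → ℂ) := by
      simp only [charDegree, icomp_apply, map_one]
    rw [hcard, Subgroup.index] at h1
    rw [h2] at hdeg
    omega
  obtain ⟨D, hD⟩ := exists_isDefectGroup p hb
  obtain rfl := (IsDefectGroup.eq_bot_iff hb hD).2 h0
  refine ⟨?_, fun R hR h1 h2 r hr => ?_⟩
  · let ρ := π.comp (Subgroup.inclusion hCT)
    have hker : ρ.ker = (Q ⊓ cC Q).subgroupOf (cC Q) := by
      ext x
      simp only [ρ, hπ, MonoidHom.mem_ker, MonoidHom.comp_apply, QuotientGroup.mk'_apply,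
        QuotientGroup.eq_one_iff, Subgroup.mem_subgroupOf, Subgroup.coe_inclusion,
        Subgroup.mem_inf, x.2, and_true]
    have hne : NE (QuotientGroup.kerLift ρ) := by
      refine ⟨QuotientGroup.kerLift_injective ρ, ?_⟩
      haveI := (ne_inclusion hCT (hTN.trans (nN_le_nN_cC Q))).norm
      have e1 : (QuotientGroup.kerLift ρ).range = ρ.range := by
        ext y
        exact ⟨fun ⟨x, hx⟩ => by
          obtain ⟨x, rfl⟩ := QuotientGroup.mk_surjective x
          exact ⟨x, hx⟩, fun ⟨x, hx⟩ => ⟨x, hx⟩⟩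
      rw [e1, MonoidHom.range_comp]
      exact Subgroup.Normal.map this _ (QuotientGroup.mk'_surjective _)
    letI := Fintype.ofFinite (cC Q ⧸ ρ.ker)
    obtain ⟨θ, hθ⟩ := exists_under (QuotientGroup.kerLift ρ) ψ.2
    have hb' := isPBlock_blockOf (M := M) θ
    have h1 := hne.card_comap_eq hb' hb (mem_blockOf_self θ) (mem_blockOf_self ψ)
      (cov_of_over hne.inj ψ.2 θ.2 hθ) hD
    rw [MonoidHom.comap_bot, (MonoidHom.ker_eq_bot_iff _).2 hne.inj, Subgroup.card_bot, eq_comm,
      Nat.pow_eq_one, or_iff_right (Fact.out : p.Prime).ne_one,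
      blockDefect_eq_zero_iff hb' (mem_blockOf_self θ)] at h1
    rw [← hker]
    refine laradji (χ := icomp (QuotientGroup.mk' ρ.ker) (QuotientGroup.mk'_surjective _) θ)
      (hker ▸ hQ.to_inf_left.comap_subtype) ?_ ?_ he ?_
    · rw [hker]
      intro x hx
      rw [Subgroup.mem_center_iff]
      exact fun y => Subtype.ext (y.2 x hx.1).symm
    · rw [← H6.inner_comp_surjective (QuotientGroup.mk' ρ.ker) (QuotientGroup.mk'_surjective _)] at hθ
      have h2 := (cover_iff_io' hCT (isSat_of_isPBlock hF') (isSat_of_isPBlock (isPBlock_blockOf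
        (icomp (QuotientGroup.mk' ρ.ker) (QuotientGroup.mk'_surjective _) θ)))).1
        ⟨_, hχ, _, mem_blockOf_self _, hθ⟩
      rw [io_eq_of_coeff hCT hF'e] at h2
      exact (mem_iff_io_mul (isSat_of_isPBlock he)).2 h2
    · rw [Subgroup.index, ← h1]
      simp only [charDegree, icomp_apply, map_one]
  · haveI : (R.subgroupOf T).Normal := Subgroup.normal_subgroupOf_of_le_normalizer h2
    haveI := this.map π (QuotientGroup.mk'_surjective _)
    have h3 := IsDefectGroup.le_of_normal hb hD (P := (R.subgroupOf T).map π)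
      (h1.comap_subtype.map π) (Subgroup.mem_map_of_mem π (x := ⟨r, hR hr⟩) hr)
    exact (QuotientGroup.eq_one_iff (N := Q.subgroupOf T) ⟨r, hR hr⟩).1 (Subgroup.mem_bot.1 h3)

end Cfsg.Agent.S4694
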