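import Cfsg.Statements.S4696
import Cfsg.Agent.H7.Perf

set_option autoImplicit false
open Cfsg

namespace Cfsg.Agent.S4696

open H5 H7

/-- Let p be a prime, M a maximal ideal of the algebraic integers containing p, and B a p-block of the finite group G whose defect group D is cyclic of order p^a with a ≥ 1. Let C = C_G(D), let b be a block of C inducing B, let T be the stabilizer of b in N_G(D) (the elements g of N_G(D) such that the g-conjugate of every member of b is again in b), and let e be the index of C in T (the inertial index of B). Then e divides p − 1, every irreducible character in B has height zero, and B is the disjoint union of a set X of e characters and a set Y of (p^a − 1)/e characters, the members of Y agreeing on p-regular elements, for which there are signs δ_χ = ±1 (χ ∈ X) and δ₀ = ±1 such that: for every ψ ∈ Y and every p-regular g, δ₀ ψ(g) + Σ_{χ ∈ X} δ_χ χ(g) = 0; for all χ, χ' ∈ X the integers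 δ_χ χ(1) and δ_χ' χ'(1) are congruent modulo p^a; and for ψ ∈ Y and χ ∈ X, ψ(1) ≡ −e δ₀ δ_χ χ(1) modulo p^a. -/
theorem result {G : Type*} [Group G] [Finite G] (p : ℕ) [Fact p.Prime] (M : Ideal Cfsg.AlgInt) (hM : Cfsg.IsPModular p M) (D : Subgroup G) (hD : IsCyclic D) (a : ℕ) (ha : 1 ≤ a) (hDa : Nat.card D = p ^ a) (B : Set (Cfsg.IrrCharacter G)) (hB : Cfsg.IsPBlock M B) (hBD : Cfsg.IsDefectGroup p M B D) (b : Set (Cfsg.IrrCharacter (Subgroup.centralizer (D : Set G)))) (hind : Cfsg.IsInducedBlock M (Subgroup.centralizer (D : Set G)) b B) (T : Subgroup G) (hT : ∀ g : G, g ∈ T ↔ (g ∈ Subgroup.normalizer (D : Set G) ∧ ∀ θ ∈ b, ∀ θ' : Cfsg.IrrCharacter (Subgroup.centralizer (D : Set G)), (∀ h h' : Subgroup.centralizer (D : Set G), (h' : G) = g * h * g⁻¹ → (θ' : Subgroup.centralizer (D : Set G) → ℂ) h' = (θ : Subgroup.centralizer (D : Set G) → ℂ) h) → θ' ∈ b)) (e : ℕ) (he : (Subgroup.centralizer (D : Set G)).relIndex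 T = e) : e ∣ p - 1 ∧ (∀ χ ∈ B, Cfsg.blockHeight p B (χ : G → ℂ) = 0) ∧ ∃ X Y : Set (Cfsg.IrrCharacter G), B = X ∪ Y ∧ Disjoint X Y ∧ Nat.card X = e ∧ Nat.card Y = (p ^ a - 1) / e ∧ (∀ ψ ∈ Y, ∀ ψ' ∈ Y, ∀ g : G, ¬ p ∣ orderOf g → (ψ : G → ℂ) g = (ψ' : G → ℂ) g) ∧ ∃ (δ : Cfsg.IrrCharacter G → ℤ) (δ₀ : ℤ), (∀ χ ∈ X, δ χ = 1 ∨ δ χ = -1) ∧ (δ₀ = 1 ∨ δ₀ = -1) ∧ (∀ ψ ∈ Y, ∀ g : G, ¬ p ∣ orderOf g → (δ₀ : ℂ) * (ψ : G → ℂ) g + ∑ᶠ χ ∈ X, (δ χ : ℂ) * (χ : G → ℂ) g = 0) ∧ (∀ χ ∈ X, ∀ χ' ∈ X, δ χ * (Cfsg.charDegree (χ : G → ℂ) : ℤ) ≡ δ χ' * (Cfsg.charDegree (χ' : G → ℂ) : ℤ) [ZMOD (p : ℤ) ^ a]) ∧ (∀ ψ ∈ Y, ∀ χ ∈ X, (Cfsg.charDegree (ψ : G → ℂ) : ℤ) ≡ -((e : ℤ) * δ₀ * δ χ * (Cfsg.charDegree (χ : G → ℂ) : ℤ)) [ZMOD (p : ℤ) ^ a]) := by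
      haveI : PM p M := ⟨hM⟩
      have := Fintype.ofFinite G
      have := Fintype.ofFinite D
      obtain ⟨m, hm⟩ := exists_mp_of_ind hBD (cyc_ab hD) le_rfl le_sup_right hind
      obtain ⟨_, ζ, δ, α, s, h1⟩ := m.exists_sf hD (by
        rintro rfl
        exact (Nat.one_lt_pow (Nat.one_le_iff_ne_zero.1 ha) (Fact.out : p.Prime).one_lt).ne (by rw [← hDa, Subgroup.card_bot]))
      have e1 : Nat.card (autE D.subtype (H8.nN D ⊓ H8.St m.e)) = e := by
        rw [m.card_autE, ← he, hm]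
        congr 1
        ext g
        rw [hT]
        exact and_congr_right fun hg => (stab_iff_St hind.1 (H8.nN_le_nN_cC D hg)).symm
      have R : ∀ ψ ∈ ζ '' {1}ᶜ, ∀ g : G, ¬ p ∣ orderOf g → (δ : ℂ) * (ψ : G → ℂ) g =
          ∑ᶠ χ ∈ B \ ζ '' {1}ᶜ, (α χ : ℂ) * (χ : G → ℂ) g := by
        rintro _ ⟨l, hl, rfl⟩ g hg
        simpa using s.exc.rel l hl g hg
      have C : ∀ χ ∈ B \ ζ '' {1}ᶜ, ∀ χ' ∈ B \ ζ '' {1}ᶜ, α χ * (charDegree (χ : G → ℂ) : ℤ) ≡
          α χ' * (charDegree (χ' : G → ℂ) : ℤ) [ZMOD (p : ℤ) ^ a] := fun χ hχ χ' hχ' => by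
        have := dvd_of_const (((χ'.2.isGen.intCast_smul (α χ')).sub (χ.2.isGen.intCast_smul (α χ))).restrict D)
          (a := 0) (n := α χ' * charDegree (χ' : G → ℂ) - α χ * charDegree (χ : G → ℂ))
          (by simp [χ.2.coe_charDegree, χ'.2.coe_charDegree]) fun v hv => by
            simpa [sub_eq_zero] using s.sing hχ' hχ (g := v) (by
              rw [← not_not (a := _ ∣ _), ← pp_eq_one_iff, pp_of_isPE (isPE_of_mem s.pg v.2)]
              simpa using hv)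
        rw [hDa, sub_zero] at this
        exact Int.modEq_iff_dvd.2 (by exact_mod_cast this)
      refine ⟨e1 ▸ h1, fun χ => s.height hB (IsDefectGroup.card hB hBD), _, _,
        (Set.diff_union_of_subset s.exc.subset).symm, Set.disjoint_sdiff_left, e1 ▸ s.card,
        by rw [s.card_exc, e1, hDa], fun ψ h ψ' h' g => s.exc.reg_eq h h', α, -δ, s.sgn,
        by rcases s.exc.sign with h | h <;> simp [h], fun ψ h g hg => by rw [← R ψ h g hg]; simp, C,
        fun ψ h χ hχ => ?_⟩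
      have h2 := R ψ h 1 not_dvd_orderOf_one
      simp only [← fun χ : IrrCharacter G => χ.2.coe_charDegree,
        finsum_mem_eq_finite_toFinset_sum _ (Set.toFinite _)] at h2
      have h3 : δ * (charDegree (ψ : G → ℂ) : ℤ) = ∑ χ ∈ (Set.toFinite (B \ ζ '' {1}ᶜ)).toFinset,
        α χ * charDegree (χ : G → ℂ) := by exact_mod_cast h2
      have h4 := Int.ModEq.sum (s := (Set.toFinite (B \ ζ '' {1}ᶜ)).toFinset)
        fun χ' h' => C χ' (by simpa using h') χ hχ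
      rw [← h3, Finset.sum_const, ← Set.ncard_eq_toFinset_card, ← Nat.card_coe_set_eq, s.card, e1] at h4
      convert h4.mul_left δ using 1
      · rcases s.exc.sign with h | h <;> simp [h]
      · simp [mul_assoc, mul_left_comm]

end Cfsg.Agent.S4696
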