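import Cfsg.Statements.S4697
import Cfsg.Agent.H8.Avg3
import Cfsg.Agent.H1.Basic

set_option autoImplicit false
open Cfsg

namespace Cfsg.Agent.S4697

open H5 H7 H8 Finset

/-- Let p be a prime, M a maximal ideal of the algebraic integers containing p, and B a p-block of the finite group G with an abelian defect group D of order p^d. If D has rank 2 (its least number of generators is 2) then B contains at most p^d irreducible characters; if D has rank 3 then the number k of irreducible characters in B satisfies k^3 ≤ p^(5d). -/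
theorem result {G : Type*} [Group G] [Finite G] (p : ℕ) [Fact p.Prime] (M : Ideal Cfsg.AlgInt) (hM : Cfsg.IsPModular p M) (B : Set (Cfsg.IrrCharacter G)) (hB : Cfsg.IsPBlock M B) (D : Subgroup G) (hBD : Cfsg.IsDefectGroup p M B D) (hab : IsMulCommutative D) (d : ℕ) (hDd : Nat.card D = p ^ d) : (Group.rank D = 2 → Nat.card B ≤ p ^ d) ∧ (Group.rank D = 3 → Nat.card B ^ 3 ≤ p ^ (5 * d)) := by
  classical
  haveI : PM p M := ⟨hM⟩
  have hp : p.Prime := Fact.out
  have e : p ^ blockDefect p B = p ^ d := (IsDefectGroup.card hB hBD).symm.trans hDd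
  obtain rfl := Nat.pow_right_injective hp.two_le e
  have hD : IsDefectGroup p M B D.subtype.range := by rwa [Subgroup.range_subtype]
  have cm : ∀ x y : D, x * y = y * x := hab.is_comm.comm
  have hc : ∀ x y : D, D.subtype x * D.subtype y = D.subtype y * D.subtype x := fun x y => by
    rw [← map_mul, cm, map_mul]
  obtain ⟨S, h1, h2⟩ := Group.rank_spec D
  refine ⟨fun h => ?_, fun h => ?_⟩
  · obtain ⟨a, b, -, rfl⟩ := card_eq_two.1 (h1.trans h)
    exact card_le_of_gen_two hB hD hc (a := a) (b := b) (by simpa using h2)
  · obtain ⟨a, b, c, -, -, -, rfl⟩ := card_eq_three.1 (h1.trans h)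
    have key : ∀ a b c : D, Subgroup.closure ({a, b, c} : Set D) = ⊤ → orderOf b ≤ orderOf a →
        orderOf c ≤ orderOf a → Nat.card B ^ 3 ≤ p ^ (5 * blockDefect p B) := fun a b c h3 h4 h5 => by
      refine card_le_of_gen_three hB hD hc (a := a) (b := b) (c := c) (by simpa using h3) ?_
      have n : ∀ H K : Subgroup D, H ≤ Subgroup.normalizer (K : Set D) := fun H K x _ =>
        Subgroup.mem_normalizer_iff.2 fun y => by rw [cm x y, mul_inv_cancel_right]
      rw [Set.insert_eq, Set.insert_eq, Subgroup.closure_union, Subgroup.closure_union,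
        ← Subgroup.zpowers_eq_closure, ← Subgroup.zpowers_eq_closure,
        ← Subgroup.zpowers_eq_closure] at h3
      have h6 := (H1.card_sup_dvd (n (Subgroup.zpowers b ⊔ Subgroup.zpowers c) (Subgroup.zpowers a))).trans
        (Nat.mul_dvd_mul_left _ (H1.card_sup_dvd (n (Subgroup.zpowers c) (Subgroup.zpowers b))))
      rw [h3, Subgroup.card_top, hDd, Nat.card_zpowers, Nat.card_zpowers, Nat.card_zpowers] at h6
      refine (Nat.le_of_dvd (Nat.mul_pos (orderOf_pos _) (Nat.mul_pos (orderOf_pos _)
        (orderOf_pos _))) h6).trans ?_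
      rw [Subgroup.subtype_apply, Subgroup.orderOf_coe, pow_three]
      exact Nat.mul_le_mul_left _ (Nat.mul_le_mul h4 h5)
    have h3 : Subgroup.closure ({a, b, c} : Set D) = ⊤ := by simpa using h2
    rcases le_total (orderOf a) (orderOf b) with h4 | h4 <;>
    rcases le_total (orderOf b) (orderOf c) with h5 | h5 <;>
    rcases le_total (orderOf a) (orderOf c) with h6 | h6 <;>
    first
      | exact key a b c h3 (by omega) (by omega)
      | exact key b a c (by rwa [Set.insert_comm]) (by omega) (by omega)
      | exact key c a b (by rwa [Set.insert_comm, Set.pair_comm c b]) (by omega) (by omega)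

end Cfsg.Agent.S4697
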