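import Cfsg.Statements.S4699
import Mathlib
import Cfsg.Agent.H5.Column

set_option autoImplicit false
open Cfsg

namespace Cfsg.Agent.S4699

open Module Polynomial

theorem sum_free {Γ X : Type*} [Group Γ] [Fintype Γ] (act : Γ → X → X) (h1 : ∀ x, act 1 x = x)
    (hm : ∀ a b x, act (a * b) x = act a (act b x))
    (s : Finset X) (hs : ∀ x ∈ s, ∀ u, act u x ∈ s) (hfree : ∀ x ∈ s, ∀ u, act u x = x → u = 1) :
    ∃ t : Finset X, t ⊆ s ∧ ∀ {M : Type*} [AddCommMonoid M] (f : X → M),
      ∑ g ∈ s, f g = ∑ y ∈ t, ∑ u : Γ, f (act u y) := by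
  classical
  induction s using Finset.strongInduction with
  | H s ih =>
    rcases s.eq_empty_or_nonempty with rfl | ⟨g, hg⟩
    · exact ⟨∅, subset_rfl, fun f => by simp⟩
    let φ : Γ → X := fun x => act x g
    have hφ : Function.Injective φ := by
      intro u u' h
      have h : act u g = act u' g := h
      have h2 : u'⁻¹ * u = 1 := hfree g hg _ (by rw [hm, h, ← hm, inv_mul_cancel, h1])
      exact (inv_mul_eq_one.1 h2).symm
    let D : Finset X := Finset.univ.image φ
    have hD : D ⊆ s := fun x hx => by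
      obtain ⟨y, -, rfl⟩ := Finset.mem_image.1 hx
      exact hs g hg _
    have hgD : g ∈ D := Finset.mem_image.2 ⟨1, Finset.mem_univ _, h1 g⟩
    obtain ⟨t, hts, ht⟩ := ih (s \ D) (Finset.sdiff_ssubset hD ⟨g, hgD⟩) (fun x hx u => by
      rw [Finset.mem_sdiff] at hx ⊢
      refine ⟨hs x hx.1 u, fun h => hx.2 ?_⟩
      obtain ⟨y, -, hy⟩ := Finset.mem_image.1 h
      refine Finset.mem_image.2 ⟨u⁻¹ * y, Finset.mem_univ _, ?_⟩
      have hy : act y g = act u x := hy
      show act (u⁻¹ * y) g = x
      rw [hm, hy, ← hm, inv_mul_cancel, h1]) (fun x hx => hfree x (Finset.mem_sdiff.1 hx).1)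
    have hgt : g ∉ t := fun h => (Finset.mem_sdiff.1 (hts h)).2 hgD
    refine ⟨insert g t, Finset.insert_subset hg (hts.trans Finset.sdiff_subset), fun f => ?_⟩
    rw [Finset.sum_insert hgt, ← ht f, ← Finset.sum_sdiff hD, add_comm,
      Finset.sum_image (fun a _ b _ h => hφ h)]

theorem geom_char {F A : Type*} [Field F] (p n : ℕ) [Fact p.Prime] [CharP F p] [Ring A] [Algebra F A]
    (T : A) : ∑ i ∈ Finset.range (p ^ n), T ^ i = (T - 1) ^ (p ^ n - 1) := by
  have h : ∑ i ∈ Finset.range (p ^ n), (X : F[X]) ^ i = (X - 1) ^ (p ^ n - 1) := by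
    apply mul_right_cancel₀ (b := (X : F[X]) - 1) (by simpa using X_sub_C_ne_zero (1 : F))
    rw [geom_sum_mul, ← pow_succ, Nat.sub_add_cancel (Nat.one_le_pow _ _ (Fact.out : p.Prime).pos),
      sub_pow_char_pow, one_pow]
  have := congrArg (aeval T) h
  simpa [map_sum] using this

theorem tr_mem {F E : Type*} [Field F] (p n d : ℕ) [Fact p.Prime] [CharP F p] [Ring E] [Algebra F E]
    (a b ψ : E) (hb : (b - 1) ^ d = 0) (hd : d + p ≤ p ^ n) :
    ∃ w, ∑ i ∈ Finset.range (p ^ n), a ^ i * ψ * b ^ i = (a - 1) ^ p * w := by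
  let L : Module.End F E := LinearMap.mulLeft F a
  let R : Module.End F E := LinearMap.mulRight F b
  have hLR : Commute L R := by ext y; simp [L, R, mul_assoc]
  have hL : ∀ (i : ℕ) y, (L ^ i) y = a ^ i * y := fun i y => by
    simp [L, LinearMap.pow_mulLeft]
  have hR : ∀ (i : ℕ) y, (R ^ i) y = y * b ^ i := fun i y => by
    simp [R, LinearMap.pow_mulRight]
  have hL1 : ∀ (i : ℕ) y, ((L - 1) ^ i) y = (a - 1) ^ i * y := fun i y => by
    have : L - 1 = LinearMap.mulLeft F (a - 1) := by ext y; simp [L, sub_mul]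
    simp [this, LinearMap.pow_mulLeft]
  have hR1 : ∀ (i : ℕ) y, ((R - 1) ^ i) y = y * (b - 1) ^ i := fun i y => by
    have : R - 1 = LinearMap.mulRight F (b - 1) := by ext y; simp [R, mul_sub]
    simp [this, LinearMap.pow_mulRight]
  have h1 : ∑ i ∈ Finset.range (p ^ n), a ^ i * ψ * b ^ i
      = (∑ i ∈ Finset.range (p ^ n), (L * R) ^ i) ψ := by
    rw [LinearMap.sum_apply]
    refine Finset.sum_congr rfl fun i _ => ?_
    rw [hLR.mul_pow, Module.End.mul_apply, hL, hR, mul_assoc]
  have c1 : Commute (L - 1) R := hLR.sub_left (Commute.one_left _)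
  have c2 : Commute ((L - 1) * R) (R - 1) :=
    (c1.sub_right (Commute.one_right _)).mul_left ((Commute.refl R).sub_right (Commute.one_right _))
  have h2 : L * R - 1 = (L - 1) * R + (R - 1) := by rw [sub_mul, one_mul]; abel
  rw [h1, geom_char (F := F) p n, h2, c2.add_pow, LinearMap.sum_apply]
  let W : Submodule F E := LinearMap.range (LinearMap.mulLeft F ((a - 1) ^ p))
  suffices h : ∑ m ∈ Finset.range (p ^ n - 1 + 1), (((L - 1) * R) ^ m * (R - 1) ^ (p ^ n - 1 - m) *
      ((p ^ n - 1).choose m : Module.End F E)) ψ ∈ W by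
    obtain ⟨w, hw⟩ := h
    exact ⟨w, hw.symm⟩
  refine W.sum_mem fun m _ => ?_
  rw [c1.mul_pow, Module.End.mul_apply, Module.End.mul_apply, Module.End.mul_apply, hL1, hR, hR1]
  by_cases hm : p ≤ m
  · obtain ⟨j, rfl⟩ := Nat.exists_eq_add_of_le hm
    exact ⟨_, by rw [pow_add, mul_assoc]; rfl⟩
  · rw [pow_eq_zero_of_le (by omega) hb]
    simp

/-- Let p be a prime and G a finite group whose Sylow p-subgroup P is cyclic of order p^n with n ≥ 2 and meets every other Sylow p-subgroup trivially. Then every faithful irreducible representation of G on a finite-dimensional space over a finite field of characteristic p has dimension at least p^n − (p − 1). -/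
theorem result {G : Type*} [Group G] [Finite G] (p : ℕ) [Fact p.Prime] (P : Sylow p G) (hcyc : IsCyclic P) (n : ℕ) (hn : 2 ≤ n) (hPn : Nat.card P = p ^ n) (hTI : ∀ Q : Sylow p G, Q ≠ P → (P : Subgroup G) ⊓ (Q : Subgroup G) = ⊥) (F : Type*) [Field F] [Finite F] [CharP F p] (V : Type*) [AddCommGroup V] [Module F V] [FiniteDimensional F V] (ρ : Representation F G V) (hfaith : Function.Injective ρ) (hirr : ρ.IsIrreducible) : p ^ n - (p - 1) ≤ Module.finrank F V := by
  classical
  haveI := Fintype.ofFinite G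
  by_contra hlt
  have hp2 : 2 ≤ p := (Fact.out : p.Prime).two_le
  set d := finrank F V
  have hd : d + p ≤ p ^ n := by omega
  obtain ⟨x, hx⟩ := hcyc.exists_generator
  have hox : orderOf (x : G) = p ^ n := by
    rw [← hPn, ← orderOf_eq_card_of_forall_mem_zpowers hx]
    exact Subgroup.orderOf_coe (x : (P : Subgroup G))
  have hV : Nontrivial V := by
    by_contra h
    rw [not_nontrivial_iff_subsingleton] at h
    have : (x : G) = 1 := hfaith (Subsingleton.elim _ _)
    rw [this, orderOf_one] at hox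
    have := Nat.pow_lt_pow_right (show 1 < p by omega) (show 0 < n by omega)
    omega
  haveI : CharP (Module.End F V) p := by
    exact charP_of_injective_algebraMap (algebraMap F (Module.End F V)).injective p
  have hnil : ∀ y : G, y ^ p ^ n = 1 → (ρ y - 1) ^ d = 0 := fun y hy => by
    have : IsNilpotent (ρ y - 1) := ⟨p ^ n, by
      rw [sub_pow_char_pow_of_commute _ _ (Commute.one_right _), ← map_pow, hy, map_one, one_pow,
        sub_self]⟩
    have h2 := LinearMap.aeval_self_charpoly (ρ y - 1)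
    rw [(LinearMap.isNilpotent_iff_charpoly _).1 this] at h2
    simpa using h2
  have hxq : (x : G) ^ p ^ n = 1 := by rw [← hox, pow_orderOf_eq_one]
  set u := ρ x - 1 with hu
  let W : Submodule F (Module.End F V) := LinearMap.range (LinearMap.mulLeft F (u ^ p))
  let cl : Finset G := Finset.univ.filter fun y => IsConj (x : G) y
  let f : G → Module.End F V := fun y => (ρ y - 1) ^ (p - 1)
  have hf : ∀ g y : G, f (g * y * g⁻¹) = ρ g * f y * ρ g⁻¹ := fun g y => by
    have h1 : ρ g * ρ g⁻¹ = 1 := by rw [← map_mul, mul_inv_cancel, map_one]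
    have h2 : ρ g⁻¹ * ρ g = 1 := by rw [← map_mul, inv_mul_cancel, map_one]
    have := Units.conj_pow (⟨ρ g, ρ g⁻¹, h1, h2⟩ : (Module.End F V)ˣ) (ρ y - 1) (p - 1)
    simp only [f]
    rw [map_mul, map_mul]
    have h3 : ρ g * ρ y * ρ g⁻¹ - 1 = ρ g * (ρ y - 1) * ρ g⁻¹ := by
      rw [mul_sub, sub_mul, mul_one, h1]
    rw [h3]
    exact this
  have hcomm : ∀ v : (P : Subgroup G), (v : G) * x = x * v := fun v => by
    obtain ⟨k, rfl⟩ := hx v
    exact ((Commute.refl (x : G)).zpow_left k).eq
  obtain ⟨t, -, ht⟩ := sum_free (Γ := (P : Subgroup G)) (fun v (y : G) => v * y * (v : G)⁻¹)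
    (fun y => by simp) (fun a b y => by push_cast; group) (cl.filter fun y => y ∉ (P : Subgroup G))
    (fun y hy v => by
      simp only [cl, Finset.mem_filter, Finset.mem_univ, true_and] at hy ⊢
      refine ⟨hy.1.trans (isConj_iff.2 ⟨v, rfl⟩), fun h => hy.2 ?_⟩
      exact ((P : Subgroup G).mul_mem_cancel_left v.2).1
        (((P : Subgroup G).mul_mem_cancel_right ((P : Subgroup G).inv_mem v.2)).1 h))
    (fun y hy v hv => by
      simp only [cl, Finset.mem_filter, Finset.mem_univ, true_and] at hy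
      obtain ⟨⟨g, rfl⟩, hy2⟩ := (⟨isConj_iff.1 hy.1, hy.2⟩ : (∃ c : G, c * x * c⁻¹ = y) ∧ _)
      have h1 : g⁻¹ * v * g * x = x * (g⁻¹ * v * g) := by
        calc _ = g⁻¹ * (v * (g * x * g⁻¹) * (v : G)⁻¹) * v * g := by group
          _ = _ := by rw [hv]; group
      obtain ⟨j, hj⟩ := P.isPGroup' v
      have hj' : (v : G) ^ p ^ j = 1 := congrArg Subtype.val hj
      have h2 : g⁻¹ * v * g ∈ (P : Subgroup G) := by
        have h3 : IsPGroup p (Subgroup.zpowers (g⁻¹ * v * g)) := by
          refine IsPGroup.iff_card.2 ?_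
          rw [Nat.card_zpowers]
          have : orderOf (g⁻¹ * v * g) ∣ p ^ j := orderOf_dvd_of_pow_eq_one (by
            have := conj_pow (a := g⁻¹) (b := (v : G)) (i := p ^ j)
            rw [inv_inv] at this
            rw [this, hj']; group)
          obtain ⟨i, -, hi⟩ := (Nat.dvd_prime_pow Fact.out).1 this
          exact ⟨i, hi⟩
        have h4 := P.is_maximal' (IsPGroup.to_sup_of_normal_right' h3 P.isPGroup' (by
          rw [Subgroup.zpowers_le]
          apply Subgroup.centralizer_le_normalizer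
          intro z hz
          obtain ⟨k, hk⟩ := hx ⟨z, hz⟩
          have hk' : (x : G) ^ k = z := congrArg Subtype.val hk
          rw [← hk']
          exact ((show Commute (x : G) (g⁻¹ * v * g) from h1.symm).zpow_left k).eq)) le_sup_right
        exact h4.le (Subgroup.mem_sup_left (Subgroup.mem_zpowers _))
      have hmem : ∀ z ∈ (P : Subgroup G), g * z * g⁻¹ ∈ ((g • P : Sylow p G) : Subgroup G) :=
        fun z hz => by
          rw [Sylow.coe_subgroup_smul]
          exact (Subgroup.mem_smul_pointwise_iff_exists _ _ _).2 ⟨z, hz, rfl⟩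
      have h5 := hTI (g • P) (fun h => hy2 (by
        have := hmem x x.2
        rwa [h] at this))
      have h6 : (v : G) ∈ (P : Subgroup G) ⊓ ((g • P : Sylow p G) : Subgroup G) :=
        ⟨v.2, by
          have := hmem _ h2
          rwa [show g * (g⁻¹ * v * g) * g⁻¹ = v by group] at this⟩
      rw [h5] at h6
      exact Subtype.ext h6)
  set X := cl.filter fun y => y ∈ (P : Subgroup G) with hX
  have hsplit : ∀ φ : G → Module.End F V, ∑ y ∈ cl, φ y = ∑ y ∈ X, φ y +
      ∑ y ∈ t, ∑ v : (P : Subgroup G), φ (v * y * (v : G)⁻¹) := fun φ => by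
    rw [← ht φ, Finset.sum_filter_add_sum_filter_not]
  -- the number of conjugates inside `P`
  have hXc : (X.card : F) ≠ 0 := by
    intro h0
    have h1 := hsplit fun _ => 1
    simp only [Finset.sum_const, Finset.card_univ, nsmul_eq_mul, mul_one] at h1
    rw [← Nat.card_eq_fintype_card, hPn, ← map_natCast (algebraMap F (Module.End F V)) X.card, h0,
      map_zero, zero_add, Nat.cast_pow, CharP.cast_eq_zero (Module.End F V) p, zero_pow (by omega), mul_zero,
      CharP.cast_eq_zero_iff (Module.End F V) p] at h1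
    have h2 : cl.card = (Subgroup.centralizer ({(x : G)} : Set G)).index :=
      H5.card_filter_isConj (x : G)
    rw [h2] at h1
    refine P.not_dvd_index (h1.trans (Subgroup.index_dvd_of_le fun v hv => ?_))
    rw [Subgroup.mem_centralizer_singleton_iff]
    exact hcomm ⟨v, hv⟩
  have hW1 : ∀ y : G, ∑ v : (P : Subgroup G), f (v * y * (v : G)⁻¹) ∈ W := fun y => by
    obtain ⟨w, hw⟩ := tr_mem (F := F) p n d (ρ x) (ρ (x : G)⁻¹) (f y)
      (hnil _ (by rw [inv_pow, hxq, inv_one])) hd
    refine ⟨w, ?_⟩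
    show u ^ p * w = _
    rw [← hw]
    have hox' : orderOf x = p ^ n := by rw [← hox]; exact (Subgroup.orderOf_coe (x : (P : Subgroup G))).symm
    refine Finset.sum_bij (fun i _ => x ^ i) (fun _ _ => Finset.mem_univ _) (fun i hi j hj h => ?_)
      (fun v _ => ?_) (fun i _ => ?_)
    · rw [← hox'] at hi hj
      exact pow_injOn_Iio_orderOf (Finset.mem_range.1 hi) (Finset.mem_range.1 hj) h
    · have := mem_zpowers_iff_mem_range_orderOf.1 (hx v)
      rw [hox'] at this
      obtain ⟨i, hi, h⟩ := Finset.mem_image.1 this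
      exact ⟨i, hi, h⟩
    · rw [hf, ← map_pow, ← map_pow, inv_pow]; rfl
  have hW2 : ∀ y ∈ X, f y - u ^ (p - 1) ∈ W := fun y hy => by
    simp only [hX, cl, Finset.mem_filter, Finset.mem_univ, true_and] at hy
    obtain ⟨k, hk⟩ := mem_powers_iff_mem_zpowers.2 (hx ⟨y, hy.2⟩)
    have hk' : (x : G) ^ k = y := congrArg Subtype.val hk
    have hcop : ¬ p ∣ k := by
      rintro ⟨m, rfl⟩
      have h1 : orderOf y = p ^ n := by
        obtain ⟨c, hc⟩ := hy.1
        rw [← hox]; exact (SemiconjBy.orderOf_eq _ hc).symm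
      have h2 : y ^ p ^ (n - 1) = 1 := by
        rw [← hk', ← pow_mul, mul_comm p m, mul_assoc, ← pow_succ', Nat.sub_add_cancel (by omega),
          mul_comm, pow_mul, hxq, one_pow]
      have h3 := Nat.le_of_dvd (by positivity) (orderOf_dvd_of_pow_eq_one h2)
      rw [h1] at h3
      have := Nat.pow_lt_pow_right (show 1 < p by omega) (show n - 1 < n by omega)
      omega
    have hpoly : ((Polynomial.X : F[X]) - C 1) ^ p ∣
        (Polynomial.X ^ k - 1) ^ (p - 1) - (Polynomial.X - C 1) ^ (p - 1) := by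
      have e1 : (Polynomial.X : F[X]) ^ k - 1 =
          (∑ i ∈ Finset.range k, Polynomial.X ^ i) * (Polynomial.X - C 1) := by
        rw [map_one, geom_sum_mul]
      have e2 : (Polynomial.X - C 1 : F[X]) ∣ (∑ i ∈ Finset.range k, Polynomial.X ^ i) ^ (p - 1) - 1 := by
        rw [dvd_iff_isRoot, IsRoot.def]
        have : ((k : ZMod p)) ^ (p - 1) = 1 :=
          ZMod.pow_card_sub_one_eq_one (by rwa [Ne, ZMod.natCast_eq_zero_iff])
        have h5 := congrArg (ZMod.castHom (dvd_refl p) F) this
        simp [eval_finset_sum] at h5 ⊢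
        rw [h5, sub_self]
      obtain ⟨r, hr⟩ := e2
      refine ⟨r, ?_⟩
      have e3 : (Polynomial.X - C 1 : F[X]) ^ p = (Polynomial.X - C 1) ^ (p - 1) * (Polynomial.X - C 1) := by
        rw [← pow_succ, Nat.sub_add_cancel (by omega)]
      rw [e1, mul_pow, e3, mul_assoc, ← hr]
      ring
    obtain ⟨r, hr⟩ := hpoly
    have := congrArg (aeval (ρ x : Module.End F V)) hr
    simp only [map_sub, map_pow, map_mul, aeval_X, map_one] at this
    refine ⟨aeval (ρ x : Module.End F V) r, ?_⟩
    show u ^ p * _ = _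
    rw [hu, ← this, ← hk']
    simp only [f, map_pow]
  let c : Module.End F V := ∑ y ∈ cl, f y
  have hc : c - (X.card : F) • u ^ (p - 1) ∈ W := by
    have : c - (X.card : F) • u ^ (p - 1) = ∑ y ∈ X, (f y - u ^ (p - 1)) +
        ∑ y ∈ t, ∑ v : (P : Subgroup G), f (v * y * (v : G)⁻¹) := by
      simp only [c]
      rw [hsplit, Finset.sum_sub_distrib, Finset.sum_const, Nat.cast_smul_eq_nsmul]
      abel
    rw [this]
    exact W.add_mem (W.sum_mem hW2) (W.sum_mem fun y _ => hW1 y)
  obtain ⟨w, hw⟩ := hc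
  have hw : u ^ p * w = c - (X.card : F) • u ^ (p - 1) := hw
  have hcg : ∀ g : G, ρ g * c = c * ρ g := fun g => by
    have h2 : ρ g⁻¹ * ρ g = 1 := by rw [← map_mul, inv_mul_cancel, map_one]
    have : ρ g * c * ρ g⁻¹ = c := by
      simp only [c, Finset.mul_sum, Finset.sum_mul, ← hf]
      refine Finset.sum_bij (fun y _ => g * y * g⁻¹) (fun y hy => ?_) (fun a _ b _ h => by simpa using h)
        (fun y hy => ⟨g⁻¹ * y * g⁻¹⁻¹, ?_, by group⟩) (fun _ _ => rfl)
      all_goals
        simp only [cl, Finset.mem_filter, Finset.mem_univ, true_and] at hy ⊢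
        exact hy.trans (isConj_iff.2 ⟨_, rfl⟩)
    conv_rhs => rw [← this, mul_assoc, h2, mul_one]
  have hud : u ^ d = 0 := hnil _ hxq
  obtain ⟨e, he⟩ : ∃ e, p = e + 2 := ⟨p - 2, by omega⟩
  have hc0 : c = 0 := by
    let U : Subrepresentation ρ := ⟨LinearMap.range c, by
      rintro g _ ⟨v, rfl⟩
      exact ⟨ρ g v, (LinearMap.congr_fun (hcg g) v).symm⟩⟩
    rcases eq_bot_or_eq_top U with h | h
    · exact LinearMap.range_eq_bot.1 (congrArg Subrepresentation.toSubmodule h)
    · exfalso
      have h1 : Function.Surjective c := LinearMap.range_eq_top.1 (congrArg Subrepresentation.toSubmodule h)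
      have h2 : c = u * (u ^ (e + 1) * w + (X.card : F) • u ^ e) := by
        rw [mul_add, ← mul_assoc, ← pow_succ', mul_smul_comm, ← pow_succ', ← sub_eq_iff_eq_add]
        rw [he] at hw
        exact hw.symm
      have h3 : Function.Surjective u := by
        rw [h2] at h1
        exact Function.Surjective.of_comp h1
      have h4 : Function.Surjective (u ^ d) := by
        rw [Module.End.coe_pow]; exact h3.iterate d
      rw [hud] at h4
      obtain ⟨v, hv⟩ := exists_ne (0 : V)
      obtain ⟨z, hz⟩ := h4 v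
      exact hv hz.symm
  rw [hc0, zero_sub] at hw
  have hit : ∀ k : ℕ, ∃ w', u ^ (p - 1) = u ^ k * u ^ (p - 1) * w' := fun k => by
    induction k with
    | zero => exact ⟨1, by simp⟩
    | succ k ih =>
      obtain ⟨w', hw'⟩ := ih
      have h1 : u ^ (p - 1) = u * u ^ (p - 1) * (-(X.card : F)⁻¹ • w) := by
        rw [← pow_succ', Nat.sub_add_cancel (by omega), mul_smul_comm, hw, smul_neg, smul_smul,
          neg_mul, inv_mul_cancel₀ hXc]
        simp
      refine ⟨(-(X.card : F)⁻¹ • w) * w', ?_⟩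
      conv_lhs => rw [hw', h1]
      simp only [pow_succ, mul_assoc]
  obtain ⟨w', hw'⟩ := hit d
  rw [hud, zero_mul, zero_mul] at hw'
  have h1 : ρ ((x : G) ^ p) = ρ 1 := by
    have : u ^ p = 0 := pow_eq_zero_of_le (by omega) hw'
    rw [hu, sub_pow_char_of_commute _ (Commute.one_right _), one_pow, sub_eq_zero] at this
    rw [map_pow, map_one, this]
  have h3 := Nat.le_of_dvd (by omega) (orderOf_dvd_of_pow_eq_one (hfaith h1))
  rw [hox] at h3
  have := Nat.pow_lt_pow_right (show 1 < p by omega) (show 1 < n by omega)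
  rw [pow_one] at this
  omega

end Cfsg.Agent.S4699
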