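import Cfsg.Statements.S4702
import Cfsg.Agent.H23.Zass5
import Cfsg.Agent.H10.BR1

set_option autoImplicit false
open Cfsg

namespace Cfsg.Agent.S4702

open H18 H23 Subgroup MulAction
open scoped MatrixGroups

/-- Let G be a triply transitive permutation group on a finite set of odd size m ≥ 3 in which only the identity fixes three or more points. Then m = 2^a + 1 for some a ≥ 1 and G is isomorphic to SL(2, 2^a). -/
theorem result {α : Type*} [Fintype α] [DecidableEq α] (hm : 3 ≤ Fintype.card α) (hodd : Odd (Fintype.card α)) (G : Subgroup (Equiv.Perm α)) (h3 : MulAction.IsMultiplyPretransitive G α 3) (hfix : ∀ g : G, 3 ≤ Nat.card (MulAction.fixedBy α g) → g = 1) : ∃ a : ℕ, 1 ≤ a ∧ Fintype.card α = 2 ^ a + 1 ∧ ∃ (F : Type) (_ : Field F) (_ : Fintype F), Fintype.card F = 2 ^ a ∧ Nonempty (G ≃* Matrix.SpecialLinearGroup (Fin 2) F) := by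
  have key : ∃ (F : Type) (_ : Field F) (_ : Fintype F), Fintype.card F + 1 = Fintype.card α ∧
      Nonempty (G ≃* PGL(2, F)) := by
    by_cases h : Fintype.card α = 3
    · obtain ⟨F, _, _, h1, h2⟩ := pgl_of_three (G := G) h (two_of_multiply
        (isMultiplyPretransitive_of_le (n := 3) (by omega) (by rw [Nat.card_eq_fintype_card, h])))
      exact ⟨F, _, _, by omega, h2⟩
    obtain ⟨a, b, hab⟩ := Fintype.exists_pair_of_one_lt_card (α := α) (by omega)
    obtain ⟨Q, h, hQ⟩ := exists_ZS_of_sharp3 (by omega) h3 (fun x => eq_bot_iff.2 fun g hg =>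
      hfix g ((Nat.card_fin 3).ge.trans <| Nat.card_le_card_of_injective (fun i => (⟨x i,
        DFunLike.congr_fun (mem_stabilizer_iff.1 hg) i⟩ : fixedBy α g)) fun i j e =>
          x.injective (congrArg Subtype.val e))) hab
    have h1 := h.cardΩ
    rw [Nat.card_eq_fintype_card] at h1
    obtain ⟨F, _, _, h2, h4⟩ := h.pgl_of_abel hQ (.inl (by
      rw [h1, Nat.odd_add_one] at hodd; simpa using hodd))
    exact ⟨F, _, _, by omega, h4⟩
  obtain ⟨F, _, _, h1, ⟨e⟩⟩ := key
  have h2 : Even (Fintype.card F) := by rw [← h1, Nat.odd_add_one] at hodd; simpa using hodd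
  obtain ⟨e'⟩ := H10.SL_equiv_PGL_of_even h2
  obtain ⟨p, _, n, hp, h4⟩ := FiniteField.card' F
  obtain rfl := (hp.even_iff).1 (Nat.even_pow.1 (h4 ▸ h2)).1
  exact ⟨n, n.2, by omega, F, _, _, h4, ⟨e.trans e'.symm⟩⟩

end Cfsg.Agent.S4702
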