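import Cfsg.Statements.S4706
import Cfsg.Agent.H10.E3
import Cfsg.Agent.S0252
import Cfsg.Agent.S0253

set_option autoImplicit false
open Cfsg

namespace Cfsg.Agent.S4706

open H5 H10 Subgroup MulAction
open scoped MatrixGroups

/-- Let p > 2 be a prime and G a permutation group on p letters whose Sylow p-subgroup P has normalizer of order 2p. Then either P is normal in G, or p − 1 = 2^a for some a and G is isomorphic to SL(2, 2^a). -/
theorem result {α : Type*} [Fintype α] [DecidableEq α] {p : ℕ} [Fact p.Prime] (hp : 2 < p) (hα : Fintype.card α = p) (G : Subgroup (Equiv.Perm α)) (P : Sylow p G) (hN : Nat.card (Subgroup.normalizer ((P : Subgroup G) : Set G)) = 2 * p) : (P : Subgroup G).Normal ∨ ∃ (a : ℕ) (F : Type) (_ : Field F) (_ : Fintype F), p = 2 ^ a + 1 ∧ Fintype.card F = 2 ^ a ∧ Nonempty (G ≃* Matrix.SpecialLinearGroup (Fin 2) F) := by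
  classical
  have hpp : p.Prime := Fact.out
  haveI := Fintype.ofFinite G
  by_contra! hcon
  obtain ⟨hn, hcon⟩ := hcon
  have hd : p ∣ Nat.card G := (Dvd.intro_left 2 hN.symm).trans (card_subgroup_dvd_card _)
  have hP : Nat.card (P : Subgroup G) = p := by
    rw [P.card_eq_multiplicity, factorization_eq_one_of hpp hd fun h => ?_, pow_one]
    have h1 := h.trans (card_subgroup_dvd_card G)
    rw [Nat.card_perm, Nat.card_eq_fintype_card, hα, ← Nat.mul_factorial_pred hpp.ne_zero, sq,
      Nat.mul_dvd_mul_iff_left hpp.pos, hpp.dvd_factorial] at h1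
    omega
  have hO := pPrimeCore_eq_bot_of_prime_degree hα hd
  have h1 := card_mul_relIndex (centralizer_le_normalizer ((P : Subgroup G) : Set G))
  obtain ⟨c, hc⟩ := card_dvd_of_le (comm_of_card_prime hP)
  have he : 𝐂[(P : Subgroup G)].relIndex 𝐍[(P : Subgroup G)] = 2 ∧ c = 1 := by
    have h2 : 𝐂[(P : Subgroup G)].relIndex 𝐍[(P : Subgroup G)] ≠ 1 := fun h =>
      hn (normal_of_inf_le hO P le_top (inf_le_left.trans (relIndex_eq_one.1 h)))
    rw [hN, hc, hP, mul_assoc, mul_comm 2, Nat.mul_right_inj hpp.ne_zero] at h1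
    rcases (Nat.dvd_prime Nat.prime_two).1 (Dvd.intro_left _ h1) with h | h
    · exact absurd h h2
    · exact ⟨h, by rw [h] at h1; omega⟩
  have S : SC P := ⟨hP, (eq_of_le_of_card_ge (comm_of_card_prime hP) (by rw [hc, he.2, mul_one])).symm⟩
  have hG := perfect_of_prime_relIndex hO hP hn (he.1 ▸ Nat.prime_two) S.hC
  obtain ⟨D⟩ := exists_PB hp.ne' P hP he.1 (by omega)
  obtain ⟨χ, h2, h3, hsum⟩ := D.exists_pair
  obtain ⟨x, hx, hx1⟩ := D.exists_ne_one
  have hk : ∀ ζ : IrrCharacter G, ζ ≠ irrOne G → charKer (ζ : G → ℂ) = ⊥ := fun ζ hζ => by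
    haveI := ζ.2.isCharacter.normal_charKer
    by_contra h
    have h4 := le_of_normal_ne_bot hO hP h
    have h5 := Sylow.normalizer_sup_eq_top' P h4
    have h6 : (charKer (ζ : G → ℂ)).index ∣ 2 := by
      have h7 := card_mul_relIndex (le_inf le_normalizer h4 :
        (P : Subgroup G) ≤ 𝐍[(P : Subgroup G)] ⊓ charKer (ζ : G → ℂ))
      have h8 := card_mul_relIndex (inf_le_left :
        𝐍[(P : Subgroup G)] ⊓ charKer (ζ : G → ℂ) ≤ _)
      rw [hN, ← h7, hP, inf_comm, inf_relIndex_right, mul_assoc, mul_comm 2,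
        Nat.mul_right_inj hpp.ne_zero, ← relIndex_sup_right 𝐍[(P : Subgroup G)]] at h8
      rw [← relIndex_top_right, ← h5]
      exact Dvd.intro_left _ h8
    rcases (Nat.dvd_prime Nat.prime_two).1 h6 with h | h
    · exact hζ (Subtype.ext (ζ.2.charKer_eq_top_iff.1 (index_eq_one.1 h)))
    · exact index_ne_two_of_perfect hG _ h
  obtain ⟨hε, hf, -⟩ := D.e2_formula S h3 hsum (hk χ h2) (two_le_deg hG h2)
  obtain ⟨ν, m, h4, h5, h6, h7⟩ := exists_sub_trivial (isCharacter_fixedBy (G := G) α)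
  have h8 : ∀ y ∈ (P : Subgroup G), y ≠ 1 → ν y = -m := fun y hy hy1 => by
    have := h7 y
    rw [show fixedBy α y = ∅ from Set.eq_empty_of_forall_notMem
      (exists_zpow_smul_of_prime hα (D.ord hy hy1)).1] at this
    simp only [Nat.card_eq_fintype_card, Fintype.card_eq_zero, Nat.cast_zero] at this
    linear_combination -this
  have h9 : ν 1 = p - m := by
    have := h7 1
    rw [fixedBy_one_eq_univ, Nat.card_univ, Nat.card_eq_fintype_card, hα] at this
    linear_combination -this
  obtain ⟨a, ha⟩ := exists_avg_one (P : Subgroup G) h4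
  have h10 := card_mul_avg (P : Subgroup G) ν 1
  simp only [mul_one] at h10
  rw [sum_eq_of_const _ _ _ h8, ha, hP, h9] at h10
  have h11 : a + m = 1 := by
    apply Nat.cast_injective (R := ℂ)
    apply mul_left_cancel₀ (show (p : ℂ) ≠ 0 by exact_mod_cast hpp.ne_zero)
    push_cast
    linear_combination h10
  have h12 : m ≠ 0 := by
    rintro rfl
    rw [classInner_one_right, Nat.cast_zero, mul_eq_zero, inv_eq_zero,
      or_iff_right card_ne_zero_complex, ← Nat.cast_sum, Nat.cast_eq_zero,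
      Finset.sum_eq_zero_iff] at h6
    have := h6 1 (Finset.mem_univ _)
    rw [fixedBy_one_eq_univ, Nat.card_univ, Nat.card_eq_fintype_card, hα] at this
    omega
  obtain ⟨rfl, rfl⟩ : a = 0 ∧ m = 1 := by omega
  have h13 : charDegree ν + 1 = p := by
    apply Nat.cast_injective (R := ℂ)
    push_cast
    rw [h4.coe_charDegree, h9]; simp
  obtain ⟨ζ, hζ⟩ := exists_const h4.isClassFunction (g := 1) (by
    rw [← h4.coe_charDegree]; exact_mod_cast (by omega : charDegree ν ≠ 0))
  obtain ⟨h14, h15⟩ := const_le (P : Subgroup G) h4 hζ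
  replace h15 := h15 (by simpa using ha)
  have hζ1 : ζ ≠ irrOne G := by rintro rfl; exact hζ h5
  have h16 := two_le_deg hG h2
  have h17 : charDegree (χ : G → ℂ) + 1 = p ∧ D.δ χ = -1 := by
    by_cases hX : ζ ∈ D.X
    · obtain rfl : ζ = χ := by
        by_contra h
        have h3 := hsum (fun ξ => if ξ = ζ then 1 else 0 : _ → ℕ)
        simp [hX, Ne.symm h, Ne.symm hζ1] at h3
      have := D.avg_sg hX (m := 0) (by simpa using h15)
      rcases D.δ_sign ζ hX with h | h <;> rw [h] at this <;> omega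
    by_cases hY : ζ ∈ D.Y
    · exfalso
      have h18 := S.dvd_of_avg_eq_zero he.1 ζ.2.isCharacter h15
      rw [D.degY ζ hY] at h14 h18
      obtain ⟨k, hk⟩ := Int.modEq_iff_dvd.1 D.f_mod.symm
      have hodd := hpp.eq_two_or_odd.resolve_left hp.ne'
      rw [hε] at hk
      have hf1 : (D.f : ℤ) + 1 ≤ p := by omega
      have hf2 : (2 : ℤ) ≤ charDegree (χ : G → ℂ) := by omega
      push_cast at hk
      rcases D.δ_sign χ h3 with h | h <;> rw [h] at hk hf
      · have : k < 1 := by nlinarith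
        have : 0 < k := by nlinarith
        omega
      · have : k < 2 := by nlinarith
        have : 0 < k := by nlinarith
        obtain rfl : k = 1 := by omega
        omega
    · have := D.avg_out' S hX hY (m := 0) (by simpa using h15)
      have := ζ.2.charDegree_pos
      omega
  obtain ⟨θ, hθ⟩ := D.Y_nonempty
  have h18 := D.card_of_e2 S h3 h2 hsum (hk χ h2) h17.1 h17.2 hθ (hk θ (D.ne_one_of_mem_Y hθ))
  obtain ⟨n, hn'⟩ := exists_card_sylow_eq p G
  have h19 := S.card_G he.1
  have h20 : (1 + n * p) * 2 = (p - 1) * (p - 2) := by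
    rw [hn', h18, mul_assoc, ← mul_assoc _ 2, mul_comm _ p] at h19
    exact (Nat.eq_of_mul_eq_mul_left hpp.pos h19).symm
  obtain ⟨q, rfl⟩ : ∃ q, p = q + 3 := ⟨p - 3, by omega⟩
  have h21 : 2 * n = q := by
    refine Nat.eq_of_mul_eq_mul_left hpp.pos ?_
    rw [show q + 3 - 1 = q + 2 from rfl, show q + 3 - 2 = q + 1 from rfl] at h20
    linarith
  obtain ⟨-, ⟨rfl, -, ⟨e⟩⟩ | ⟨-, -, a, F, _, _, h22, h23, ⟨e⟩⟩⟩ :=
    br_core hG hO P hP hn' (nonRep_of_lt (by omega))
  · subst h21
    haveI := Fintype.ofFinite (GaloisField 2 2)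
    have h22 : Fintype.card (GaloisField 2 2) = 4 := by
      rw [← Nat.card_eq_fintype_card, GaloisField.card 2 2 two_ne_zero]; rfl
    obtain ⟨e1⟩ := Cfsg.Agent.S0253.result (F := ZMod (2 * 1 + 3)) (by simp)
    obtain ⟨e2⟩ := Cfsg.Agent.S0252.result h22
    obtain ⟨e3⟩ := PSL_equiv_PGL_of_even (F := GaloisField 2 2) (by rw [h22]; decide)
    obtain ⟨e4⟩ := SL_equiv_PGL_of_even (F := GaloisField 2 2) (by rw [h22]; decide)
    exact (hcon 2 _ _ _ rfl h22).false (e.trans (e1.trans (e2.symm.trans (e3.trans e4.symm))))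
  · obtain ⟨e4⟩ := SL_equiv_PGL_of_even (F := F) (by
      rw [h22, Nat.even_pow]; refine ⟨even_two, ?_⟩; rintro rfl; omega)
    exact (hcon a F _ _ h23 h22).false (e.trans e4.symm)

end Cfsg.Agent.S4706
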