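import Cfsg.Statements.S4707
import Cfsg.Agent.H10.W2p2
import Cfsg.Agent.H10.E4
import Cfsg.Agent.H10.Small
import Cfsg.Agent.H16.Jordan
import Cfsg.Agent.H16.PTools

set_option autoImplicit false
open Cfsg

namespace Cfsg.Agent.S4707

open H5 H10 Subgroup MulAction in

/-- Let p > 3 be a prime and G a primitive permutation group of degree 2p that is not doubly transitive. If a Sylow p-subgroup of G has normalizer of order 2p, then p = 5 and G is isomorphic to the alternating group of degree 5. -/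
theorem result {α : Type*} [Fintype α] [DecidableEq α] {p : ℕ} [Fact p.Prime] (hp : 3 < p) (hα : Fintype.card α = 2 * p) (G : Subgroup (Equiv.Perm α)) (hprim : MulAction.IsPreprimitive G α) (hnot2 : ¬ MulAction.IsMultiplyPretransitive G α 2) (P : Sylow p G) (hN : Nat.card (Subgroup.normalizer ((P : Subgroup G) : Set G)) = 2 * p) : p = 5 ∧ Nonempty (G ≃* alternatingGroup (Fin 5)) := by
  classical
  have hpp : p.Prime := Fact.out
  obtain ⟨a₀⟩ : Nonempty α := Fintype.card_pos_iff.1 (by omega)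
  have hT : ∀ K : Subgroup G, K.Normal → K ≠ ⊥ → 2 * p ∣ Nat.card K := fun K _ h => by
    have h1 : IsPretransitive K α :=
      IsQuasiPreprimitive.isPretransitive_of_normal fun h2 => h (eq_bot_iff.2 fun g hg =>
        mem_bot.2 (eq_of_smul_eq_smul fun a : α => by
          rw [one_smul]; exact (h2 ▸ Set.mem_univ a : a ∈ fixedPoints K α) ⟨g, hg⟩))
    have := index_dvd_card (stabilizer K a₀)
    rwa [index_stabilizer_of_transitive, Nat.card_eq_fintype_card, hα] at this
  have hi : (stabilizer G a₀).index = 2 * p :=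
    (index_stabilizer_of_transitive G a₀).trans (Nat.card_eq_fintype_card.trans hα)
  have hd : p ∣ Nat.card G := ((Dvd.intro_left 2 rfl).trans hi.symm.dvd).trans (index_dvd_card _)
  obtain ⟨σ, hσ⟩ := exists_prime_orderOf_dvd_card' (G := G) p hd
  have o : orderOf (σ : Equiv.Perm α) = p := by rwa [orderOf_coe]
  obtain ⟨j, j0, hj⟩ := H16.exists_card_support_of_prime hpp o
  have h2 := Finset.card_le_univ (σ : Equiv.Perm α).support
  rcases Nat.lt_or_ge j 2 with h | h
  · obtain rfl : j = 1 := by omega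
    have := (H16.transitive_of_cycle hprim hpp (by omega) (Equiv.Perm.isCycle_of_prime_order (o ▸ hpp)
      (by rw [o]; omega)) (by omega) σ.2).isMultiplyPretransitive
    exact absurd (isMultiplyPretransitive_of_le (n := Fintype.card α - p + 1) (by omega)
      (by rw [Nat.card_eq_fintype_card]; omega)) hnot2
  have fp : ∀ x : α, σ • x ≠ x := fun x => Equiv.Perm.mem_support.1 (by
    rw [Finset.eq_univ_of_card _ (le_antisymm h2 (by rw [hj, hα]; exact Nat.mul_le_mul_right _ h))]
    exact Finset.mem_univ _)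
  have : Fintype G := Fintype.ofFinite _
  obtain ⟨r, χ₁, χ₂, h1, h2, h3, h4, h5⟩ :=
    (wielandt_two_p hα (hσ ▸ pow_orderOf_eq_one σ) fp a₀).resolve_left hnot2
  obtain ⟨x, x0, hx, hs⟩ := H16.rank3_two_m hα a₀ r h1 h2 h3 h4 h5
  obtain ⟨S, he, -, hS⟩ := simple_of_two_p (by omega) (by_contra fun h =>
    H1.not_dvd_card_pPrimeCore hpp ((Dvd.intro_left 2 rfl).trans (hT _ inferInstance h))) P hd
    (fun h => by
      obtain ⟨k, hk⟩ := P.isPGroup'.exists_card_eq
      have := (Dvd.intro p rfl).trans (hk ▸ hT _ h (P.ne_bot_of_dvd_card hd))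
      have := (Nat.prime_dvd_prime_iff_eq Nat.prime_two hpp).1 (Nat.prime_two.dvd_of_dvd_pow this)
      omega) hN
  have hc := card_of_deg_sub_one hp S he h1 h4
  obtain ⟨b, hb⟩ := Fintype.exists_ne_of_one_lt_card (by omega) a₀
  have h6 : 2 * x + 1 ∣ Nat.card (stabilizer G a₀) := by
    refine Dvd.dvd.trans ?_ ((index_stabilizer (stabilizer G a₀) b).symm.dvd.trans (index_dvd_card _))
    rw [← Nat.card_coe_set_eq]
    rcases hs b hb with e | e <;> exact e ▸ Dvd.intro_left _ rfl
  have h7 := (stabilizer G a₀).card_mul_index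
  rw [hi, hc] at h7
  have h8 : 2 * Nat.card (stabilizer G a₀) = (p - 1) * (p - 2) :=
    Nat.eq_of_mul_eq_mul_left hpp.pos (by linarith)
  obtain ⟨y, rfl⟩ : ∃ y, x = y + 1 := ⟨x - 1, by omega⟩
  have h9 : 2 * (y + 1) + 1 ∣ 3 := by
    obtain ⟨k, hk⟩ := h6
    rw [hk, show p - 1 = 2 * (y + 1) ^ 2 + 2 * (y + 1) by omega,
      show p - 2 = 2 * y ^ 2 + 6 * y + 3 by rw [hx]; ring_nf; omega] at h8
    zify at h8 ⊢
    exact ⟨8 * k + 4 * (2 * y + 3) - (2 * y + 3) ^ 3, by linear_combination -4 * h8⟩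
  obtain rfl : y = 0 := by have := Nat.le_of_dvd (by omega) h9; omega
  obtain rfl : p = 5 := hx
  exact ⟨rfl, equiv_A5_of_simple hc⟩

end Cfsg.Agent.S4707
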