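import Cfsg.Statements.S4708
import Cfsg.Agent.H7.Misc2

set_option autoImplicit false
open Cfsg

namespace Cfsg.Agent.S4708

open H5 H7

/-- Let p be a prime, M a maximal ideal of the algebraic integers containing p, G a finite group and H a normal subgroup. Write λ(X) for the sum of the squares of the degrees of the irreducible characters in the principal p-block of a group X. Then λ(H) ≤ λ(G) ≤ [G : H]·λ(H). -/
theorem result {G : Type*} [Group G] [Finite G] (p : ℕ) [Fact p.Prime] (M : Ideal Cfsg.AlgInt) (hM : Cfsg.IsPModular p M) (H : Subgroup G) [H.Normal] : (∑ᶠ θ ∈ Cfsg.principalBlock M H, Cfsg.charDegree (θ : H → ℂ) ^ 2) ≤ (∑ᶠ χ ∈ Cfsg.principalBlock M G, Cfsg.charDegree (χ : G → ℂ) ^ 2) ∧ (∑ᶠ χ ∈ Cfsg.principalBlock M G, Cfsg.charDegree (χ : G → ℂ) ^ 2) ≤ H.index * ∑ᶠ θ ∈ Cfsg.principalBlock M H, Cfsg.charDegree (θ : H → ℂ) ^ 2 := by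
  haveI : PM p M := ⟨hM⟩
  classical
  have := Fintype.ofFinite H
  have h := ne_subtype H
  have hb := isPBlock_principalBlock (M := M) (G := H)
  have hB := isPBlock_principalBlock (M := M) (G := G)
  have h0 : classInner (fun x => (irrOne G : G → ℂ) (H.subtype x)) (irrOne H) ≠ 0 := by
    rw [show (fun x => (irrOne G : G → ℂ) (H.subtype x)) = irrOne H from rfl,
      (irrOne H).2.classInner_self]
    exact one_ne_zero
  constructor
  · choose m hm hm' using fun χ : IrrCharacter G => (χ.2.isCharacter.comp H.subtype).exists_nat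
    have h1 : ∀ χ : IrrCharacter G, charDegree (χ : G → ℂ) =
        ∑ θ : IrrCharacter H, m χ θ * charDegree (θ : H → ℂ) := fun χ => by
      have := congrFun (hm' χ) 1
      rw [← Nat.cast_inj (R := ℂ), χ.2.coe_charDegree]
      push_cast
      simpa [H8.coe_deg] using this
    rw [finsum_mem_irr, finsum_mem_irr]
    calc _ ≤ ∑ θ : IrrCharacter H, ∑ χ : IrrCharacter G, if χ ∈ principalBlock M G then
            (m χ θ * charDegree (θ : H → ℂ)) ^ 2 else 0 := Finset.sum_le_sum fun θ _ => ?_
      _ ≤ _ := by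
        rw [Finset.sum_comm]
        refine Finset.sum_le_sum fun χ _ => ?_
        split_ifs
        · rw [h1]; exact Finset.sum_sq_le_sq_sum_of_nonneg fun _ _ => Nat.zero_le _
        · simp
    split_ifs with hθ
    · obtain ⟨χ, h2, h3⟩ := h.exists_over_of_cover hb hB hθ irrOne_mem_principalBlock
        (cov_of_cover h.inj hb hB ⟨_, irrOne_mem_principalBlock, _, irrOne_mem_principalBlock, h0⟩
          irrOne_mem_principalBlock hθ)
      refine le_trans ?_ (Finset.single_le_sum (fun _ _ => Nat.zero_le _) (Finset.mem_univ χ))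
      rw [if_pos h2]
      refine Nat.pow_le_pow_left (Nat.le_mul_of_pos_left _ (Nat.pos_of_ne_zero fun e => h3 ?_)) 2
      rw [hm, e, Nat.cast_zero]
    · exact Nat.zero_le _
  · have hi : h.Invt (principalBlock M H) := fun g θ hθ =>
      (sameBlock_equiv (h.cjA g) (χ := fun _ => 1)).2 hθ
    have h1 := (hi.isSat_covSet (isSat_of_isPBlock hb)).subset_of_mem hB
      ⟨_, irrOne_mem_principalBlock, h0⟩ irrOne_mem_principalBlock
    have h2 := congrArg (fun a => a.coeff (H.subtype 1)) hi.mapDomain_eB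
    simp only [coeff_mapDomain_apply h.inj, coeff_eB] at h2
    rw [map_one, blockCoeff_one, blockCoeff_one] at h2
    rw [div_eq_div_iff card_ne_zero_complex card_ne_zero_complex, ← H.card_mul_index] at h2
    have h3 : H.index * ∑ᶠ θ ∈ principalBlock M H, charDegree (θ : H → ℂ) ^ 2 =
        ∑ᶠ χ ∈ covSet H.subtype (principalBlock M H), charDegree (χ : G → ℂ) ^ 2 := by
      refine Nat.eq_of_mul_eq_mul_right (Nat.card_pos (α := H)) ?_
      rw [← Nat.cast_inj (R := ℂ)]
      push_cast at h2 ⊢
      rw [← h2]; ring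
    rw [h3, finsum_mem_irr, finsum_mem_irr]
    refine Finset.sum_le_sum fun χ _ => ?_
    split_ifs with h4 h5
    exacts [le_rfl, absurd (h1 h4) h5, Nat.zero_le _, le_rfl]

end Cfsg.Agent.S4708
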