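import Cfsg.Statements.S4709
import Cfsg.Agent.H7.Homo

set_option autoImplicit false
open Cfsg

namespace Cfsg.Agent.S4709

open H5 H7

/-- Let p be a prime, M a maximal ideal of the algebraic integers containing p, and G a finite group with a nontrivial abelian Sylow p-subgroup P; put N = N_G(P), C = C_G(P). Suppose N/C is cyclic of order m with 1 < m < #P − 1 (C has index m in N and N is generated by C and one element), and C_G(y) ∩ N = C for every non-identity y ∈ P. Put r = (#P − 1)/m. Then there is s ≤ m such that the principal p-block is the disjoint union of a set X of s characters containing the principal character and a set Y of r characters, with integers a_χ ≠ 0 (χ ∈ X), d and a sign δ = ±1, such that: every χ ∈ X takes the value a_χ at every element whose p-part is a non-identity element of P; there is a map ζ from the non-principal linear characters ψ of P onto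 Y, constant on N-conjugacy classes, with ζ_ψ(z) = d + δ·Σ ψ'(y) for every z whose p-part y is a non-identity element of P, the sum running over the N-conjugates ψ' of ψ; (d − δ)^2 + (r − 1) d^2 + Σ_{χ ∈ X} a_χ^2 = m + 1; all members of Y agree on p-regular elements; and (r d − δ) η(g) + Σ_{χ ∈ X} a_χ χ(g) = 0 for every η ∈ Y and every p-regular g. -/
theorem result {G : Type*} [Group G] [Finite G] (p : ℕ) [Fact p.Prime] (M : Ideal Cfsg.AlgInt) (hM : Cfsg.IsPModular p M) (P : Sylow p G) (hab : IsMulCommutative P) (hP1 : Nat.card P ≠ 1) (m : ℕ) (hm1 : 1 < m) (hm2 : m + 1 < Nat.card P) (hCN : (Subgroup.centralizer ((P : Subgroup G) : Set G)).relIndex (Subgroup.normalizer ((P : Subgroup G) : Set G)) = m) (hcyc : ∃ g : G, g ∈ Subgroup.normalizer ((P : Subgroup G) : Set G) ∧ Subgroup.centralizer ((P : Subgroup G) : Set G) ⊔ Subgroup.zpowers g = Subgroup.normalizer ((P : Subgroup G)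 : Set G)) (hfrob : ∀ y : G, y ∈ (P : Subgroup G) → y ≠ 1 → Subgroup.centralizer ({y} : Set G) ⊓ Subgroup.normalizer ((P : Subgroup G) : Set G) = Subgroup.centralizer ((P : Subgroup G) : Set G)) : ∃ (s : ℕ) (X Y : Set (Cfsg.IrrCharacter G)), s ≤ m ∧ Cfsg.principalBlock M G = X ∪ Y ∧ Disjoint X Y ∧ Nat.card X = s ∧ Nat.card Y = (Nat.card P - 1) / m ∧ (∃ χ₁ ∈ X, (χ₁ : G → ℂ) = fun _ => 1) ∧ ∃ (a : Cfsg.IrrCharacter G → ℤ) (d δ : ℤ) (ζ : (↥(P : Subgroup G) →* ℂˣ) → Cfsg.IrrCharacter G), (δ = 1 ∨ δ = -1) ∧ (∀ χ ∈ X, a χ ≠ 0 ∧ ∀ z y : G, Cfsg.IsPPart p z y → y ∈ (P : Subgroup G) → y ≠ 1 → (χ : G → ℂ) z = (a χ : ℂ)) ∧ (∀ ψ : ↥(P : Subgroup G) →* ℂˣ, ψ ≠ 1 → ζ ψ ∈ Y) ∧ (∀ η ∈ Y, ∃ ψ : ↥(P : Subgroup G) →* ℂˣ, ψ ≠ 1 ∧ ζ ψ = η) ∧ (∀ ψ ψ' : ↥(P : Subgroup G) →* ℂˣ, ψ ≠ 1 → (∃ n : G, n ∈ Subgroup.normalizer ((P : Subgroup G) : Set G) ∧ ∀ w w' : ↥(P : Subgroup G), (w' : G) = n * w * n⁻¹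 → ψ' w' = ψ w) → ζ ψ' = ζ ψ) ∧ (∀ ψ : ↥(P : Subgroup G) →* ℂˣ, ψ ≠ 1 → ∀ (z : G) (y : ↥(P : Subgroup G)), Cfsg.IsPPart p z (y : G) → (y : G) ≠ 1 → (ζ ψ : G → ℂ) z = (d : ℂ) + (δ : ℂ) * ∑ᶠ ψ' ∈ {ψ' : ↥(P : Subgroup G) →* ℂˣ | ∃ n : G, n ∈ Subgroup.normalizer ((P : Subgroup G) : Set G) ∧ ∀ w w' : ↥(P : Subgroup G), (w' : G) = n * w * n⁻¹ → ψ' w' = ψ w}, ((ψ' y : ℂˣ) : ℂ)) ∧ ((d - δ) ^ 2 + ((Nat.card P - 1) / m - 1 : ℤ) * d ^ 2 + ∑ᶠ χ ∈ X, a χ ^ 2 = (m : ℤ) + 1) ∧ (∀ η ∈ Y, ∀ η' ∈ Y, ∀ g : G, ¬ p ∣ orderOf g → (η : G → ℂ) g = (η' : G → ℂ) g) ∧ (∀ η ∈ Y, ∀ g : G, ¬ p ∣ orderOf g → ((((Nat.card P - 1) / m : ℕ) : ℂ) * d - δ) * (η : G → ℂ) g + ∑ᶠ χ ∈ X, (a χ : ℂ) * (χ : G → ℂ) g = 0) := by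
  haveI : PM p M := ⟨hM⟩
  classical
  have := Fintype.ofFinite G
  have := Fintype.ofFinite (P : Subgroup G)
  have : Nontrivial (P : Subgroup G) := Finite.one_lt_card_iff_nontrivial.1 (by omega)
  have h : FA p (P : Subgroup G) := ⟨sylIn_top P, Subgroup.le_centralizer _, fun y hy y1 => (hfrob y hy y1).le⟩
  have F := h.fam (M := M)
  obtain ⟨ζ, δ, d, α, x⟩ := F.exists_exc
  have hE := (card_autN (P : Subgroup G)).trans hCN
  have v1 : ∀ χ ∈ principalBlock M G, ∀ z : G, ∀ v : (P : Subgroup G), v ≠ 1 → IsPPart p z v →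
      (χ : G → ℂ) z = dn (famP M (P : Subgroup G)) χ v := fun χ hχ z v hv e => by
    rw [FA.dn_famP hv, if_pos hχ, h.apply hχ v.2 (by simpa) (isPPart_iff.1 e ▸ IsConj.refl _)]
  have hO : ∀ ψ ψ' : (P : Subgroup G) →* ℂˣ, (∃ n : G, n ∈ Subgroup.normalizer ((P : Subgroup G) : Set G) ∧ ∀ w w' : ↥(P : Subgroup G), (w' : G) = n * w * n⁻¹ → ψ' w' = ψ w) ↔ Orb (autN (P : Subgroup G)) ψ ψ' :=
    fun ψ ψ' => (orb_autE (P : Subgroup G).subtype_injective (autN_le _)).symm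
  have hY : Nat.card (ζ '' {1}ᶜ) = (Nat.card P - 1) / m := by
    rw [← x.card F, hE, Nat.add_sub_cancel, Nat.mul_div_cancel _ (by omega)]
  refine ⟨_, principalBlock M G \ ζ '' {1}ᶜ, ζ '' {1}ᶜ, hE ▸ x.card_le F,
    (Set.diff_union_of_subset x.subset).symm, Set.disjoint_sdiff_left, rfl, hY,
    ⟨irrOne G, ⟨irrOne_mem_principalBlock, x.notMem F (c := 1) (by omega) fun v hv => by
      rw [FA.dn_famP hv, if_pos irrOne_mem_principalBlock]; rfl⟩, rfl⟩, α, d, δ, ζ, x.sign,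
    fun χ hχ => ⟨x.ne F hχ, fun z y e hy y1 => by
      rw [v1 χ hχ.1 z ⟨y, hy⟩ (by simpa) e, x.non χ hχ _ (by simpa)]⟩, fun ψ hψ => ⟨ψ, hψ, rfl⟩,
    fun η hη => hη, fun ψ ψ' hψ e => ?_, fun ψ hψ z y e y1 => ?_, ?_,
    fun η hη η' hη' g hg => x.reg_eq hη hη' hg, fun η hη g hg => hY ▸ x.rel' hη hg⟩
  · have := (hO _ _).1 e
    exact ((x.eq_iff _ hψ _ (this.ne_one hψ)).2 this).symm
  · simp only [hO]
    rw [h.fr.finsum_Orb hψ, v1 _ (x.mem ψ hψ) z y (by simpa using y1) e, x.exc ψ hψ y (by simpa using y1)]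
  · have := x.norm
    rwa [hE, hY, Int.natCast_div, Nat.cast_sub Nat.card_pos] at this

end Cfsg.Agent.S4709
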