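import Cfsg.Statements.S4711
import Cfsg.Agent.H8.Ito
import Cfsg.Agent.H8.BSol
import Cfsg.Agent.H7.Height
import Cfsg.Agent.H3.Frobenius
import Cfsg.Agent.H18.BG6

set_option autoImplicit false
open Cfsg

namespace Cfsg.Agent.S4711

open H5 H7 H8 H18
open scoped commutatorElement

/-- Let p be a prime, M a maximal ideal of the algebraic integers containing p, G a finite group, P a Sylow p-subgroup and N = N_G(P). Then G has p-length 1 (G = O_{p',p,p'}(G)) if and only if every irreducible character in the principal p-block of G restricts to an irreducible character of N. -/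
theorem result {G : Type*} [Group G] [Finite G] (p : ℕ) [Fact p.Prime] (M : Ideal Cfsg.AlgInt) (hM : Cfsg.IsPModular p M) (P : Sylow p G) : Cfsg.PLengthLE p 1 G ↔ ∀ χ ∈ Cfsg.principalBlock M G, Cfsg.IsIrrCharacter ↥(Subgroup.normalizer ((P : Subgroup G) : Set G)) (fun n : ↥(Subgroup.normalizer ((P : Subgroup G) : Set G)) => (χ : G → ℂ) n) := by
  haveI : PM p M := ⟨hM⟩
  have hp : p.Prime := Fact.out
  have := Fintype.ofFinite G
  rw [← pl1_top_iff hp]
  set N := Subgroup.normalizer ((P : Subgroup G) : Set G) with hN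
  have := Fintype.ofFinite N
  have hPN : (P : Subgroup G) ≤ N := Subgroup.le_normalizer
  constructor
  · intro h χ hχ
    have h1 := plength1_Frattini hp h (hall_sylow_top hp P)
    set O := O[{p}ᶜ]((⊤ : Subgroup G))
    haveI : O.Normal := nml_top_iff.1 pcore_nml
    have h2 := principalBlock_subset_kerSet (p := p) (M := M) (N := O) (pcore_pi.not_dvd' hp rfl) hχ
    obtain ⟨χ', h3, h4⟩ := χ.2.exists_deflate O fun n hn => χ.2.mem_charKer.2 (h2 n hn)
    have h5 := h3.comp_surjective ((QuotientGroup.mk' O).comp N.subtype) fun x => by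
      obtain ⟨g, rfl⟩ := QuotientGroup.mk_surjective x
      obtain ⟨a, ha, n, hn, rfl⟩ := Subgroup.mem_sup_of_normal_left.1 (h1.ge (Subgroup.mem_top g))
      exact ⟨⟨n, hn.2⟩, by simp [(QuotientGroup.eq_one_iff a).2 ha]⟩
    simpa [h4] using h5
  intro h
  haveI hn1 : ((P : Subgroup G).subgroupOf N).Normal := Subgroup.normal_in_normalizer
  have hs : H4.PSol p (⊤ : Subgroup N) := H4.PSol.of_quotient (N := (P : Subgroup G).subgroupOf N)
    (H4.pSol_of_isPGroup (P.subtype hPN).isPGroup') (H4.pSol_of_coprime (by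
      rw [Subgroup.card_top]
      exact ((Nat.Prime.coprime_iff_not_dvd hp).2 (P.subtype hPN).not_dvd_index).symm))
  set O := pPrimeCore p N
  have key : ∀ U : Subgroup N, U.Normal → O ≤ U → ∃ K : Subgroup G, K.Normal ∧ ∀ x : N, (x : G) ∈ K ↔ x ∈ U := by
    intro U hU hO
    refine ⟨⨅ χ : {χ : IrrCharacter G // χ ∈ principalBlock M G ∧ ∀ u ∈ U, (u : G) ∈ charKer χ.1}, charKer χ.1.1,
      Subgroup.normal_iInf_normal fun χ => χ.1.2.isCharacter.normal_charKer, fun x => ?_⟩
    rw [Subgroup.mem_iInf]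
    refine ⟨fun h1 => by_contra fun h2 => ?_, fun h1 χ => χ.2.2 x h1⟩
    obtain ⟨ψ, h3, h4, h5⟩ := exists_irr_le_charKer_not_mem U h2
    obtain ⟨χ, h6, h7⟩ := (locSet_normalizer P.isPGroup').indB_principal (M := M).exists_over (ξ := ⟨ψ, h3⟩) (by
      rw [principal_of_pSol hs]
      exact fun n hn => h3.mem_charKer.1 (h4 (hO hn)))
    have h8 : (fun n : N => χ.1 n) = ψ := (h χ h6).eq_of_classInner_ne_zero h3 h7
    have h9 : ∀ u : N, (u : G) ∈ charKer χ.1 ↔ u ∈ charKer ψ := fun u => by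
      rw [χ.2.mem_charKer, h3.mem_charKer, ← h8]; rfl
    exact h5 ((h9 x).1 (h1 ⟨χ, h6, fun u hu => (h9 u).2 (h4 hu)⟩))
  haveI hn2 : ((⁅(P : Subgroup G), (P : Subgroup G)⁆).subgroupOf N).Normal :=
    normal_subgroupOf_of_le_normalizer (norm_comm le_rfl le_rfl)
  obtain ⟨L, hL, hL'⟩ := key ((P : Subgroup G).subgroupOf N ⊔ O) inferInstance le_sup_right
  obtain ⟨K, hK, hK'⟩ := key ((⁅(P : Subgroup G), (P : Subgroup G)⁆).subgroupOf N ⊔ O) inferInstance le_sup_right
  have hPL : (P : Subgroup G) ≤ L := fun x hx => (hL' ⟨x, hPN hx⟩).2 (Subgroup.mem_sup_left hx)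
  have hcomm : ∀ x ∈ (P : Subgroup G), ∀ y ∈ (P : Subgroup G), (x : G ⧸ K) * y = y * x := by
    intro x hx y hy
    have h1 := Subgroup.commutator_mem_commutator hx hy
    have h2 := (QuotientGroup.eq_one_iff _).2 ((hK' ⟨_, hPN (Subgroup.commutator_le_self _ h1)⟩).2
      (Subgroup.mem_sup_left h1))
    exact commutatorElement_eq_one_iff_mul_comm.1 h2
  have hfus : ∀ x ∈ (P : Subgroup G), ∀ g ∈ L, g * x * g⁻¹ ∈ (P : Subgroup G) →
      x⁻¹ * (g * x * g⁻¹) ∈ ⁅(P : Subgroup G), (P : Subgroup G)⁆ := by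
    intro x hx g hg h1
    let H := (Subgroup.centralizer {(x : G ⧸ K)}).comap (QuotientGroup.mk' K)
    have hH : ∀ y, y ∈ H ↔ (y : G ⧸ K) * x = x * y := fun y => Subgroup.mem_centralizer_singleton_iff
    obtain ⟨n, hn, u, hu, rfl⟩ := H3.exists_normalizer_mul_of_sylow_le (H := H ⊓ L) P (g := g)
      (le_inf (fun y hy => (hH y).2 (hcomm y hy x hx)) hPL) fun y hy => ⟨(hH _).2 (by
        have := hcomm y hy _ h1
        simp only [QuotientGroup.mk_mul, QuotientGroup.mk_inv] at this ⊢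
        calc _ = (g : G ⧸ K)⁻¹ * (y * (g * x * (g : G ⧸ K)⁻¹)) * g := by group
          _ = _ := by rw [this]; group), hL.conj_mem' y (hPL hy) g⟩
    have h2 : n ∈ H := by
      obtain ⟨a, ha, o, ho, e⟩ := Subgroup.mem_sup_of_normal_right.1
        ((hL' ⟨n, hn⟩).1 ((L.mul_mem_cancel_right hu.2).1 hg))
      have e' : n = a * o := (congrArg Subtype.val e).symm
      rw [e', hH, QuotientGroup.mk_mul, (QuotientGroup.eq_one_iff _).2 ((hK' o).2 (Subgroup.mem_sup_right ho)),
        mul_one]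
      exact hcomm _ ha x hx
    have h3 := (hH _).1 (H.mul_mem h2 hu.1)
    have h4 := (P : Subgroup G).mul_mem ((P : Subgroup G).inv_mem hx) h1
    have h5 : x⁻¹ * (n * u * x * (n * u)⁻¹) ∈ K := by
      rw [← QuotientGroup.eq_one_iff, QuotientGroup.mk_mul, QuotientGroup.mk_mul, QuotientGroup.mk_mul _ _ x, h3,
        QuotientGroup.mk_inv, QuotientGroup.mk_inv]
      group
    obtain ⟨a, ha, o, ho, e⟩ := Subgroup.mem_sup_of_normal_right.1 ((hK' ⟨_, hPN h4⟩).1 h5)
    have ha' : (a : G) ∈ ⁅(P : Subgroup G), (P : Subgroup G)⁆ := ha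
    have e' : x⁻¹ * (n * u * x * (n * u)⁻¹) = a * o := (congrArg Subtype.val e).symm
    have h6 : o ∈ (P.subtype hPN : Subgroup N) ⊓ O := ⟨by
      have := (P : Subgroup G).mul_mem ((P : Subgroup G).inv_mem (Subgroup.commutator_le_self _ ha')) h4
      rwa [e', inv_mul_cancel_left] at this, ho⟩
    rw [H4.inf_pPrimeCore_eq_bot (P.subtype hPN).isPGroup', Subgroup.mem_bot] at h6
    rw [e', h6]
    simpa using ha'
  have h1 := (hasNormalPComplement_iff hp).1 (H3.hasNormalPComplement_of_commutator_inf_le (P.subtype hPL)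
    (H3.commutator_inf_sylow_le _ fun x hx g hg => by
      have := hfus x hx g g.2 hg
      rw [← Subgroup.map_subgroupOf_eq_of_le hPL, ← Subgroup.map_commutator] at this
      obtain ⟨y, hy, e⟩ := this
      rwa [← show y = x⁻¹ * (g * x * g⁻¹) from Subtype.ext e]))
  exact pl1_of_nml (nml_top (K := L)).pcore nml_top pcore_pi h1.idx.of_compl_compl
    ((hall_sylow_top hp P).idx_of_le hPL)

end Cfsg.Agent.S4711
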