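import Cfsg.Statements.S4712
import Cfsg.Agent.H7.IBr
import Cfsg.Agent.H7.Sect

set_option autoImplicit false
open Cfsg

namespace Cfsg.Agent.S4712

open H5 H7

open scoped ComplexConjugate

section
variable {G : Type*} [Group G] [Finite G] {p : ℕ} [hp : Fact p.Prime] {M : Ideal AlgInt} [PM p M]

theorem sum_mu_aut [Fintype G] {A : Set (IrrCharacter G)} (hA : IsSat M A) (φ : G →* G) :
    ∃ n : ℕ, (∑ y, if p ∣ orderOf y then 0 else mu A (φ y) y) = n := by
  classical
  refine ⟨∑ i : IBr M G, if i ∈ IB M A then Nat.card G * bres φ i i else 0, ?_⟩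
  have h1 : ∀ y : G, (if p ∣ orderOf y then 0 else mu A (φ y) y) =
      ∑ i : IBr M G, if i ∈ IB M A then
        ∑ j, (bres φ i j : ℂ) * (bch p j y * conj (pim i y)) else 0 := by
    intro y
    split_ifs with h
    · refine (Finset.sum_eq_zero fun i _ => ?_).symm
      simp [bch_of_dvd _ h]
    · rw [hA.mu_eq_sum (p := p) (not_dvd_orderOf_map φ h)]
      refine Finset.sum_congr rfl fun i _ => ?_
      split_ifs
      · rw [bch_comp φ i h, Finset.sum_mul]
        simp only [mul_assoc]
      · rfl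
  simp only [h1]
  rw [Finset.sum_comm]
  push_cast
  refine Finset.sum_congr rfl fun i _ => ?_
  split_ifs
  · rw [Finset.sum_comm]
    simp only [← Finset.mul_sum, ← card_mul_classInner, inner_bch_pim]
    simp [mul_comm]
  · simp

theorem sum_mu_pow {A : Set (IrrCharacter G)} (hA : IsSat M A) {k : ℕ}
    (hk : ∀ y : G, ¬ p ∣ orderOf y → y ^ k = y) {u : G} (hu : IsPE p u)
    [Fintype (Subgroup.centralizer ({u} : Set G))] :
    ∃ n : ℕ, (∑ y : Subgroup.centralizer ({u} : Set G),
      if p ∣ orderOf y then 0 else mu A ((u * y) ^ k) (u * y)) = n := by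
  have hc : ∀ y : Subgroup.centralizer ({u} : Set G), Commute u y := fun y =>
    (Subgroup.mem_centralizer_singleton_iff.1 y.2).symm
  have h1 : ∀ y : Subgroup.centralizer ({u} : Set G), ¬ p ∣ orderOf y →
      (u * y) ^ k = u ^ k * y := fun y hy => by
    rw [(hc y).mul_pow, hk y (by rwa [Subgroup.orderOf_coe])]
  by_cases h : IsConj (u ^ k) u
  · obtain ⟨x, hx⟩ := isConj_iff.1 h
    let φ : Subgroup.centralizer ({u} : Set G) →* Subgroup.centralizer ({u} : Set G) :=
      { toFun := fun y => ⟨x * y * x⁻¹, Subgroup.mem_centralizer_singleton_iff.2 (by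
          have := ((hc y).pow_left k).eq
          calc x * y * x⁻¹ * u = x * y * x⁻¹ * (x * u ^ k * x⁻¹) := by rw [hx]
            _ = x * (y * u ^ k) * x⁻¹ := by group
            _ = x * u ^ k * x⁻¹ * (x * y * x⁻¹) := by rw [← this]; group
            _ = _ := by rw [hx])⟩
        map_one' := Subtype.ext (by simp)
        map_mul' := fun a b => Subtype.ext (by simp) }
    obtain ⟨n, hn⟩ := sum_mu_aut (p := p) (isSat_indSet (M := M)
      (φ := (Subgroup.centralizer ({u} : Set G)).subtype) (A := A)) φ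
    refine ⟨n, hn ▸ Finset.sum_congr rfl fun y _ => ?_⟩
    split_ifs with hy
    · rfl
    · rw [← mu_section hA hu (not_dvd_orderOf_map φ hy) hy, h1 y hy]
      refine mu_congr_left _ (isConj_iff.2 ⟨x, ?_⟩) _
      change _ = u * (x * y * x⁻¹)
      calc _ = x * u ^ k * x⁻¹ * (x * y * x⁻¹) := by group
        _ = _ := by rw [hx]
  · refine ⟨0, ?_⟩
    rw [Nat.cast_zero]
    refine Finset.sum_eq_zero fun y _ => ?_
    split_ifs with hy
    · rfl
    · have hy' : ¬ p ∣ orderOf (y : G) := by rwa [Subgroup.orderOf_coe]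
      rw [h1 y hy]
      refine mu_eq_zero (p := p) hA ?_
      rwa [pp_mul_of (hu.pow k) hy' ((hc y).pow_left k), pp_mul_of hu hy' (hc y)]

theorem rank_le_fixed {A : Set (IrrCharacter G)} (hA : IsSat M A) {k : ℕ}
    (hk0 : k.Coprime (Nat.card G)) (hk : ∀ y : G, ¬ p ∣ orderOf y → y ^ k = y) :
    blockRank p A ≤ Nat.card {χ : IrrCharacter G // χ ∈ A ∧
      ∀ g, (χ : G → ℂ) (g ^ k) = (χ : G → ℂ) g} := by
  classical
  letI := Fintype.ofFinite G
  have h1 : ∑ g : G, mu A (g ^ k) g = ((Nat.card G * Nat.card {χ : IrrCharacter G // χ ∈ A ∧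
      ∀ g, (χ : G → ℂ) (g ^ k) = (χ : G → ℂ) g} : ℕ) : ℂ) := by
    simp only [mu_eq]
    rw [Finset.sum_comm, Nat.card_eq_fintype_card (α := {χ : IrrCharacter G // _}),
      Fintype.card_subtype, Finset.card_eq_sum_ones, Finset.sum_filter, Finset.mul_sum]
    push_cast
    refine Finset.sum_congr rfl fun χ _ => ?_
    by_cases hχ : χ ∈ A
    · simp only [hχ, if_true, true_and]
      rw [← card_mul_classInner (fun g => (χ : G → ℂ) (g ^ k)),
        (χ.2.pow_arg hk0).classInner_eq χ.2]
      congr 1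
      exact if_congr funext_iff rfl rfl
    · simp [hχ]
  rw [sum_sections (p := p)] at h1
  have h2 : ∀ u : G, ∃ n : ℕ, (u = 1 → n = Nat.card G * blockRank p A) ∧ (if IsPE p u then
      ∑ y : Subgroup.centralizer ({u} : Set G),
        (if p ∣ orderOf y then 0 else mu A ((u * y) ^ k) (u * y)) else 0) = n := by
    intro u
    by_cases h0 : u = 1
    · subst h0
      refine ⟨_, fun _ => rfl, ?_⟩
      have h3 := sum_mu_section hA (isPE_one (p := p) (G := G))
      rw [lr_one hA, show Subgroup.centralizer ({1} : Set G) = ⊤ by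
        ext; simp [Subgroup.mem_centralizer_iff] |> fun h => show Nat.card
          (Subgroup.centralizer ({1} : Set G)) = Nat.card G by rw [h, Subgroup.card_top]] at h3
      rw [if_pos isPE_one]
      push_cast
      rw [← h3]
      refine Finset.sum_congr rfl fun y _ => ?_
      split_ifs with hy
      · rfl
      · rw [one_mul, hk y (by rwa [Subgroup.orderOf_coe])]
    · split_ifs with hu
      · obtain ⟨n, hn⟩ := sum_mu_pow hA hk hu
        exact ⟨n, fun h => absurd h h0, hn⟩
      · exact ⟨0, fun h => absurd h h0, Nat.cast_zero.symm⟩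
  choose n hn1 hn2 using h2
  simp only [hn2] at h1
  rw [← Nat.cast_sum, Nat.cast_inj] at h1
  refine Nat.le_of_mul_le_mul_left ?_ (Nat.card_pos (α := G))
  rw [← h1, ← hn1 1 rfl]
  exact Finset.single_le_sum (fun _ _ => Nat.zero_le _) (Finset.mem_univ _)

end

/-- Let p be an odd prime, M a maximal ideal of the algebraic integers containing p, G a finite group of order n with p-part p^a, and B a p-block of G. Call an irreducible character χ p-rational when χ(g^k) = χ(g) for every g and every k coprime to n with k ≡ 1 modulo n/p^a (χ is fixed by the Galois automorphisms fixing the roots of unity of order prime to p). Then the number of p-rational irreducible characters in B is at least the p-regular rank of B (the number of irreducible Brauer characters in B). -/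
theorem result {G : Type*} [Group G] [Finite G] (p : ℕ) [Fact p.Prime] (hodd : p ≠ 2) (M : Ideal Cfsg.AlgInt) (hM : Cfsg.IsPModular p M) (B : Set (Cfsg.IrrCharacter G)) (hB : Cfsg.IsPBlock M B) : Cfsg.blockRank p B ≤ Nat.card {χ : Cfsg.IrrCharacter G // χ ∈ B ∧ ∀ k : ℕ, Nat.Coprime k (Nat.card G) → k ≡ 1 [MOD Nat.card G / p ^ (Nat.card G).factorization p] → ∀ g : G, (χ : G → ℂ) (g ^ k) = (χ : G → ℂ) g} := by
  classical
  haveI : PM p M := ⟨hM⟩
  have hp : p.Prime := Fact.out
  set a := (Nat.card G).factorization p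
  set m := Nat.card G / p ^ a with hm
  have hG0 : Nat.card G ≠ 0 := Nat.card_pos.ne'
  have hn : p ^ a * m = Nat.card G := Nat.ordProj_mul_ordCompl_eq_self _ p
  have hco : Nat.Coprime (p ^ a) m := (Nat.coprime_ordCompl hp hG0).pow_left _
  haveI := ZMod.isCyclic_units_of_prime_pow p hp hodd a
  haveI : NeZero (p ^ a) := ⟨pow_ne_zero _ hp.ne_zero⟩
  obtain ⟨r, hr⟩ := IsCyclic.exists_monoid_generator (α := (ZMod (p ^ a))ˣ)
  obtain ⟨k, hk1, hk2⟩ := Nat.chineseRemainder hco (r : ZMod (p ^ a)).val 1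
  have hk0 : k.Coprime (Nat.card G) := by
    rw [← hn]
    refine Nat.Coprime.mul_right ?_ ?_
    · rw [Nat.Coprime, hk1.gcd_eq]; exact ZMod.val_coe_unit_coprime r
    · rw [Nat.Coprime, hk2.gcd_eq]; simp
  have hk : ∀ y : G, ¬ p ∣ orderOf y → y ^ k = y := by
    intro y hy
    have h1 : orderOf y ∣ m := by
      have h2 : orderOf y ∣ p ^ a * m := hn ▸ orderOf_dvd_natCard y
      exact (Nat.Coprime.pow_right a ((hp.coprime_iff_not_dvd.2 hy).symm)).dvd_of_dvd_mul_left h2
    conv_rhs => rw [← pow_one y]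
    exact pow_eq_pow_iff_modEq.2 (hk2.of_dvd h1)
  refine (rank_le_fixed (isSat_of_isPBlock hB) hk0 hk).trans (le_of_eq (Nat.card_congr
    (Equiv.subtypeEquivRight fun χ => and_congr_right fun _ => ⟨fun h l hl1 hl2 g => ?_,
      fun h => h k hk0 hk2⟩)))
  obtain ⟨j, hj⟩ := hr (ZMod.unitOfCoprime l (Nat.Coprime.coprime_dvd_right ⟨m, hn.symm⟩ hl1))
  have h3 : l ≡ k ^ j [MOD Nat.card G] := by
    rw [← hn]
    refine (Nat.modEq_and_modEq_iff_modEq_mul hco).1 ⟨?_, ?_⟩
    · rw [← ZMod.natCast_eq_natCast_iff, Nat.cast_pow,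
        (ZMod.natCast_eq_natCast_iff _ _ _).2 hk1, ZMod.natCast_zmod_val, ← Units.val_pow_eq_pow_val]
      simp only at hj
      rw [hj, ZMod.coe_unitOfCoprime]
    · exact hl2.trans (by simpa using (hk2.pow j).symm)
  rw [pow_eq_pow_iff_modEq.2 (h3.of_dvd (orderOf_dvd_natCard g))]
  clear hj h3
  induction j with
  | zero => simp
  | succ j ih => rw [pow_succ, pow_mul, h, ih]

end Cfsg.Agent.S4712
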