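import Cfsg.Statements.S4714
import Cfsg.Agent.H7.StarNil

set_option autoImplicit false
open Cfsg

namespace Cfsg.Agent.S4714

open H5 H7

/-- Let p be a prime, M a maximal ideal of the algebraic integers containing p, D a p-subgroup of the finite group G with G = D·C_G(D), and B a p-block with defect group D. Let χ be a member of B having D in its kernel (there is exactly one, the canonical character of B). Then the irreducible characters in B are exactly the functions θ on G for which there is an irreducible character ζ of D such that θ(yx) = ζ(y)χ(x) whenever y ∈ D, x has order prime to p and x commutes with y, and θ(z) = 0 whenever the p-part of z does not lie in D. -/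
theorem result {G : Type*} [Group G] [Finite G] (p : ℕ) [Fact p.Prime] (M : Ideal Cfsg.AlgInt) (hM : Cfsg.IsPModular p M) (D : Subgroup G) (hD : IsPGroup p D) (hG : D ⊔ Subgroup.centralizer (D : Set G) = ⊤) (B : Set (Cfsg.IrrCharacter G)) (hB : Cfsg.IsPBlock M B) (hBD : Cfsg.IsDefectGroup p M B D) (χ : Cfsg.IrrCharacter G) (hχ : χ ∈ B) (hχD : ∀ y ∈ D, (χ : G → ℂ) y = (χ : G → ℂ) 1) : (∀ θ : Cfsg.IrrCharacter G, θ ∈ B ↔ ∃ ζ : Cfsg.IrrCharacter D, (∀ (y : D) (x : G), ¬ p ∣ orderOf x → Commute (y : G) x → (θ : G → ℂ) ((y : G) * x) = (ζ : D → ℂ) y * (χ : G → ℂ) x) ∧ (∀ z : G, (∀ y : G, Cfsg.IsPPart p z y → y ∉ D) → (θ : G → ℂ) z = 0)) ∧ ∀ ζ : Cfsg.IrrCharacter D, ∃ θ ∈ B, (∀ (y : D) (x : G), ¬ p ∣ orderOf x → Commute (y : G) x → (θ : G → ℂ) ((y : G) * x) = (ζ : D → ℂ) y * (χ : G → ℂ) x) ∧ (∀ z : G, (∀ y : G, Cfsg.IsPPart p z y → y ∉ D) → (θ : G → ℂ) z = 0) := by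
    haveI : PM p M := ⟨hM⟩
    have := Fintype.ofFinite D
    obtain ⟨m⟩ := nonempty_mp hB hBD
    have hn : D.Normal := Subgroup.normalizer_eq_top_iff.1 (top_le_iff.1 (hG.ge.trans
      (sup_le (H8.le_nN_self D) (H8.cC_le_nN D))))
    have hc : ∀ v w : D, IsConj (v : G) w → IsConj v w := fun v w h => by
      obtain ⟨x, hx⟩ := isConj_iff.1 h
      obtain ⟨d, hd, c, hc, rfl⟩ := Subgroup.mem_sup_of_normal_left.1 (hG.ge (Subgroup.mem_top x))
      refine isConj_iff.2 ⟨⟨d, hd⟩, Subtype.ext ?_⟩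
      rw [← hx, mul_assoc d c, ← hc v v.2]; simp [mul_assoc]
    have h : m.Nl := fun v w e => hc v w e.isConj
    have val : ∀ (η : IrrCharacter D) {ψ : IrrCharacter G}, ψ ∈ B → ∀ (y : D) (x : G),
        ¬ p ∣ orderOf x → Commute (y : G) x →
        m.star (η : D → ℂ) (ψ : G → ℂ) (y * x) = (η : D → ℂ) y * (ψ : G → ℂ) (y * x) :=
      fun η ψ hψ y x hx e => m.star_eq_mul hψ (h.stb η.2.isClassFunction) fun v hv => by
        rw [pp_mul_of (m.isPE y) hx e] at hv
        exact (η.2.isClassFunction.eq_of_isConj (hc _ _ hv)).symm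
    have h0 : blockHeight p B (χ : G → ℂ) = 0 := by
      obtain ⟨χ₀, h1, h0⟩ := exists_height_zero (p := p) (block_nonempty hB)
      obtain ⟨η, e⟩ := h.exists_star h1 h0 hχ
      have h2 : ∀ y : D, ‖(η : D → ℂ) y‖ = ‖(η : D → ℂ) 1‖ := fun y => by
        have e1 := val η h1 y 1 not_dvd_orderOf_one (Commute.one_right _)
        rw [e, mul_one, hχD y y.2, ← e, m.star_reg _ h1 not_dvd_orderOf_one] at e1
        have e2 := congrArg norm e1
        rw [norm_mul, norm_mul] at e2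
        have e3 := norm_pos_iff.2 χ₀.2.apply_one_ne_zero
        refine le_antisymm (η.2.isCharacter.norm_le y) (le_of_mul_le_mul_right ?_ e3)
        rw [e2]
        exact mul_le_mul_of_nonneg_left (χ₀.2.isCharacter.norm_le _) (norm_nonneg _)
      have h3 := η.2.sum_norm_sq
      obtain ⟨n, -, hn⟩ := η.2.exists_apply_one
      simp only [h2, hn, Finset.sum_const, Finset.card_univ, nsmul_eq_mul, Complex.norm_natCast,
        Nat.card_eq_fintype_card] at h3
      have h4 : (n : ℝ) ^ 2 = 1 := mul_left_cancel₀ (Nat.cast_ne_zero.2 Fintype.card_ne_zero)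
        (h3.trans (mul_one _).symm)
      have h5 : n = 1 := by
        have : n ^ 2 = 1 := by exact_mod_cast h4
        exact (pow_eq_one_iff.1 this).resolve_right two_ne_zero
      rw [MP.Nl.height_star (m := m) h1 h0 hχ e, charDegree_eq hn, h5]; simp
    obtain ⟨Φ, hΦ⟩ := h.exists_equiv hχ h0
    have key : ∀ ζ : IrrCharacter D, (∀ (y : D) (x : G), ¬ p ∣ orderOf x → Commute (y : G) x →
        ((Φ ζ).1 : G → ℂ) ((y : G) * x) = (ζ : D → ℂ) y * (χ : G → ℂ) x) ∧
        ∀ z : G, (∀ y : G, IsPPart p z y → y ∉ D) → ((Φ ζ).1 : G → ℂ) z = 0 := fun ζ => by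
      refine ⟨fun y x hx e => ?_, fun z hz => ?_⟩
      · rw [hΦ, val ζ hχ y x hx e, (χ.2.mem_charKer.2 (hχD y y.2) :) x]
      · by_contra h1
        rw [hΦ] at h1
        obtain ⟨v, -, hv⟩ := m.isConj_of_star_ne_zero h1
        obtain ⟨x, hx⟩ := isConj_iff.1 hv.symm
        exact hz _ (isPPart_pp z) (hx ▸ hn.conj_mem _ v.2 x)
    refine ⟨fun θ => ⟨fun hθ => ⟨Φ.symm ⟨θ, hθ⟩, by simpa using key (Φ.symm ⟨θ, hθ⟩)⟩,
      fun ⟨ζ, h1, h2⟩ => ?_⟩, fun ζ => ⟨_, (Φ ζ).2, key ζ⟩⟩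
    have : θ = (Φ ζ).1 := Subtype.ext (funext fun g => by
      by_cases hg : pp p g ∈ D
      · rw [← pp_mul_pr (p := p) g]
        exact (h1 ⟨_, hg⟩ _ (not_dvd_orderOf_pr g) (commute_pp_pr g)).trans
          ((key ζ).1 ⟨_, hg⟩ _ (not_dvd_orderOf_pr g) (commute_pp_pr g)).symm
      · rw [h2 g fun y hy => isPPart_iff.1 hy ▸ hg, (key ζ).2 g fun y hy => isPPart_iff.1 hy ▸ hg])
    exact this ▸ (Φ ζ).2

end Cfsg.Agent.S4714
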