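import Cfsg.Statements.S4715
import Cfsg.Agent.H7.StarNil

set_option autoImplicit false
open Cfsg

namespace Cfsg.Agent.S4715

open H5 H7

open H8 (cC nN c1 St io)

section
variable {G : Type*} [Group G] [Finite G] {p : ℕ} [hp : Fact p.Prime] {M : Ideal AlgInt} [PM p M]
  {B : Set (IrrCharacter G)} {P : Subgroup G}

theorem height_le_defect {χ : IrrCharacter G} (hχ : χ ∈ B) (M : Ideal AlgInt) [PM p M] :
    blockHeight p B (χ : G → ℂ) ≤ blockDefect p B := by
  have h1 := factorization_add_defect (M := M) (p := p) hχ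
  have h2 := factorization_charDegree_le' (M := M) (p := p) χ.2
  omega

theorem isIntegral_ct (m : MP p M B P) {χ : IrrCharacter G} (hχ : χ ∈ B) {θ : G → ℂ}
    (hθ : IsGeneralizedCharacter G θ) (v : P) : IsIntegral ℤ
      ((p : ℂ) ^ (blockDefect p B - blockHeight p B (χ : G → ℂ)) * m.ct v (χ : G → ℂ) θ) := by
  have := Fintype.ofFinite G
  have := Fintype.ofFinite (c1 (v : G))
  obtain ⟨k, hk⟩ := χ.2.charDegree_dvd_card
  have hk0 : k ≠ 0 := by rintro rfl; exact Nat.card_pos.ne' hk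
  obtain ⟨j, n, hn, e⟩ := Nat.exists_eq_pow_mul_and_not_dvd hk0 p hp.out.ne_one
  have h1 := factorization_add_defect (M := M) (p := p) hχ
  have hn0 : n ≠ 0 := by rintro rfl; simp at hn
  rw [hk, Nat.factorization_mul (charDegree_ne_zero χ.2) hk0, e,
    Nat.factorization_mul (pow_ne_zero _ hp.out.ne_zero) hn0, Finsupp.add_apply, Finsupp.add_apply,
    Nat.factorization_pow_self hp.out, Nat.factorization_eq_zero_of_not_dvd hn] at h1
  refine H8.isIntegral_of_coprime (a := n) (b := p ^ blockHeight p B (χ : G → ℂ))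
    (Nat.Coprime.pow_right _ ((Nat.Prime.coprime_iff_not_dvd hp.out).2 hn).symm) ?_ ?_
  · convert H8.isIntegral_card_mul_ctr (mul_selfC _) (isPE_coe.1 (m.isPE v)) (m.bu_sat v)
      (hθ.restrict _) χ.2 using 1
    rw [← m.ct_eq, hk, e, ← charDegree_cast χ.2.isCharacter,
      show blockDefect p B - blockHeight p B (χ : G → ℂ) = j by omega]
    have : (charDegree (χ : G → ℂ) : ℂ) ≠ 0 := Nat.cast_ne_zero.2 (charDegree_ne_zero χ.2)
    push_cast; field_simp
  · obtain ⟨i, hi⟩ := Nat.exists_eq_add_of_le (m.defect_bu_le v)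
    rw [Nat.cast_pow, ← mul_assoc, ← pow_add, Nat.add_sub_cancel' (height_le_defect hχ M), hi,
      pow_add, mul_right_comm]
    exact (m.isIntegral_ct χ.2.isGen hθ v).mul ((isIntegral_algebraMap (x := (p : ℤ))).pow i)

/-- The number of major subsections is bounded by every defect of a character. -/
theorem card_major_le (m : MP p M B P) {χ : IrrCharacter G} (hχ : χ ∈ B) {s : Finset (Quotient m.fs)}
    (hs : ∀ c ∈ s, ∃ z : P, (z : G) ∈ cC P ∧ Quotient.mk _ z = c) :
    s.card ≤ p ^ (blockDefect p B - blockHeight p B (χ : G → ℂ)) := by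
  classical
  have := Fintype.ofFinite (Quotient m.fs)
  have := Fintype.ofFinite G
  have := Fintype.ofFinite P
  have hc := χ.2.isClassFunction
  have tp : ∀ v, H8.TP ((p : ℂ) ^ (blockDefect p B - blockHeight p B (χ : G → ℂ)) *
      m.ct v (χ : G → ℂ) χ) := fun v => by
    rw [← Nat.cast_pow]; exact (H8.tp_natCast _).mul (m.tp_ct χ.2.isGen v)
  rw [Finset.card_eq_sum_ones]
  refine (H8.amgm_tp _ (fun _ => 1) (fun c => (p : ℂ) ^ (blockDefect p B -
    blockHeight p B (χ : G → ℂ)) * m.ct c.out (χ : G → ℂ) χ)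
    (fun c _ => isIntegral_ct m hχ χ.2.isGen _) (fun c h => ?_) (fun c _ => tp _) ?_).1
  · obtain ⟨z, hz, rfl⟩ := hs c h
    rw [MP.FC.ct_eq (Quotient.exact (Quotient.out_eq (Quotient.mk m.fs z))) hc hc]
    exact mul_ne_zero (pow_ne_zero _ (Nat.cast_ne_zero.2 hp.out.ne_zero))
      (m.ct_self_major_ne_zero hz hχ)
  · have h1 := m.sum_ct hχ hc
    rw [m.sum_cl fun v w e => e.ct_eq hc hc, χ.2.classInner_self] at h1
    rw [← mul_one ((p ^ _ : ℕ) : ℂ), ← h1, Finset.mul_sum, ← Finset.sum_add_sum_compl s]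
    simp only [Nat.cast_one, one_mul, Nat.cast_pow, add_sub_cancel_left]
    exact H8.TP.sum fun c _ => tp _

theorem card_center_le (m : MP p M B P) {χ : IrrCharacter G} (hχ : χ ∈ B) :
    Nat.card (Subgroup.center P) ≤ (P ⊔ cC P).relIndex (nN P ⊓ St m.e) *
      p ^ (blockDefect p B - blockHeight p B (χ : G → ℂ)) := by
  classical
  have := Fintype.ofFinite (Quotient m.fs)
  have := Fintype.ofFinite P
  have hz : ∀ z : P, z ∈ Subgroup.center P → (z : G) ∈ cC P := fun z hz g hg =>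
    congrArg Subtype.val (Subgroup.mem_center_iff.1 hz ⟨g, hg⟩)
  rw [Nat.card_eq_fintype_card, Fintype.card_subtype]
  refine (Finset.card_le_mul_card_image (f := Quotient.mk m.fs) _ _ fun c hc => ?_).trans
    (Nat.mul_le_mul_left _ (card_major_le m hχ fun c hc => ?_))
  swap
  · obtain ⟨z, h1, rfl⟩ := Finset.mem_image.1 hc
    exact ⟨z, hz z (Finset.mem_filter.1 h1).2, rfl⟩
  obtain ⟨z, h1, rfl⟩ := Finset.mem_image.1 hc
  replace h1 := hz z (Finset.mem_filter.1 h1).2
  have := Fintype.ofFinite (↥(nN P ⊓ St m.e) ⧸ (P ⊔ cC P).subgroupOf (nN P ⊓ St m.e))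
  rw [Subgroup.relIndex, Subgroup.index, Nat.card_eq_fintype_card, ← Finset.card_univ,
    ← Finset.card_image_of_injective _ Subtype.val_injective]
  refine Finset.card_le_card_of_surjOn (fun q => q.out * (z : G) * (q.out : G)⁻¹) ?_
  intro g hg
  obtain ⟨w, hw, rfl⟩ := Finset.mem_image.1 hg
  simp only [Finset.mem_filter] at hw
  obtain ⟨n, hn, e⟩ := MP.FC.exists_of_central (m := m) (Quotient.exact hw.2.symm) h1 (hz w hw.1.2)
  obtain ⟨h, hh⟩ := QuotientGroup.mk_out_eq_mul ((P ⊔ cC P).subgroupOf (nN P ⊓ St m.e)) ⟨n, hn⟩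
  refine ⟨QuotientGroup.mk ⟨n, hn⟩, Finset.mem_univ _, ?_⟩
  have h2 : (h : G) ∈ c1 (z : G) := (sup_le (fun g hg => Subgroup.mem_centralizer_singleton_iff.2
    (h1 g hg)) fun g hg => Subgroup.mem_centralizer_singleton_iff.2 (hg z z.2).symm :
      P ⊔ cC P ≤ c1 (z : G)) h.2
  simp only [hh, Subgroup.coe_mul]
  rw [← e, mul_assoc n, Subgroup.mem_centralizer_singleton_iff.1 h2]; group

end

/-- Let p be a prime, M a maximal ideal of the algebraic integers containing p, B a p-block of the finite group G with defect group D of order p^d, H = D·C_G(D), b a block of H inducing B, T the stabilizer of b in N_G(D) and e = [T : H] the inertial index of B; let n be the integer with p^n ≤ e < p^(n+1) and p^c the order of the centre of D. Then every irreducible character in B has height h with h + c ≤ n + d. -/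
theorem result {G : Type*} [Group G] [Finite G] (p : ℕ) [Fact p.Prime] (M : Ideal Cfsg.AlgInt) (hM : Cfsg.IsPModular p M) (B : Set (Cfsg.IrrCharacter G)) (hB : Cfsg.IsPBlock M B) (D : Subgroup G) (hBD : Cfsg.IsDefectGroup p M B D) (d : ℕ) (hDd : Nat.card D = p ^ d) (H : Subgroup G) (hH : H = D ⊔ Subgroup.centralizer (D : Set G)) (b : Set (Cfsg.IrrCharacter H)) (hind : Cfsg.IsInducedBlock M H b B) (T : Subgroup G) (hT : ∀ g : G, g ∈ T ↔ (g ∈ Subgroup.normalizer (D : Set G) ∧ ∀ θ ∈ b, ∀ θ' : Cfsg.IrrCharacter H, (∀ h h' : H, (h' : G) = g * h * g⁻¹ → (θ' : H → ℂ) h' = (θ : H → ℂ) h) → θ' ∈ b)) (e : ℕ) (he : H.relIndex T = e) (n : ℕ) (hn : p ^ n ≤ e ∧ e < p ^ (n + 1)) (c : ℕ) (hc : Nat.card (Subgroup.center D) = p ^ c) : ∀ χ ∈ B, Cfsg.blockHeight p B (χ : G → ℂ) + c ≤ n + d := by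
    haveI : PM p M := ⟨hM⟩
    subst hH he
    obtain ⟨m, hm⟩ := exists_mp_of_ind hBD le_sup_left le_sup_right le_rfl hind
    obtain rfl : T = nN D ⊓ St m.e := Subgroup.ext fun g => by
      rw [hT, hm]
      exact and_congr_right fun hg => stab_iff_St hind.1
        (H8.nN_inf_le_sup _ _ ⟨hg, H8.nN_le_nN_cC D hg⟩)
    intro χ hχ
    have h1 := card_center_le m hχ
    have h2 := height_le_defect hχ M
    have hp := (Fact.out : p.Prime)
    obtain rfl := Nat.pow_right_injective hp.two_le (hDd.symm.trans (IsDefectGroup.card hB hBD))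
    have h3 := h1.trans_lt (Nat.mul_lt_mul_of_pos_right hn.2 (pow_pos hp.pos _))
    rw [hc, ← pow_add, Nat.pow_lt_pow_iff_right hp.one_lt] at h3
    omega

end Cfsg.Agent.S4715
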