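import Cfsg.Statements.S4717
import Cfsg.Agent.H7.Misc

set_option autoImplicit false
open Cfsg

namespace Cfsg.Agent.S4717

open H5 H7

/-- Let p be a prime, M a maximal ideal of the algebraic integers containing p, and r a natural number; say that a finite group X has deficiency class r when X has no non-principal p-block of defect ≥ r. If G has deficiency class r then so does the centralizer of every p-element of G; conversely, if r > 0 and the centralizer of every element of order p has deficiency class r, then G has deficiency class r. -/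
theorem result {G : Type*} [Group G] [Finite G] (p : ℕ) [Fact p.Prime] (M : Ideal Cfsg.AlgInt) (hM : Cfsg.IsPModular p M) (r : ℕ) : ((∀ B' : Set (Cfsg.IrrCharacter G), Cfsg.IsPBlock M B' → B' ≠ Cfsg.principalBlock M G → Cfsg.blockDefect p B' < r) → ∀ y : G, (∃ k : ℕ, orderOf y = p ^ k) → (∀ B' : Set (Cfsg.IrrCharacter ↥(Subgroup.centralizer ({y} : Set G))), Cfsg.IsPBlock M B' → B' ≠ Cfsg.principalBlock M ↥(Subgroup.centralizer ({y} : Set G)) → Cfsg.blockDefect p B' < r)) ∧ (0 < r → (∀ y : G, orderOf y = p → (∀ B' : Set (Cfsg.IrrCharacter ↥(Subgroup.centralizer ({y} : Set G))), Cfsg.IsPBlock M B' → B' ≠ Cfsg.principalBlock M ↥(Subgroup.centralizer ({y} : Set G)) → Cfsg.blockDefect p B' < r)) → (∀ B' : Set (Cfsg.IrrCharacter G), Cfsg.IsPBlock M B' → B' ≠ Cfsg.principalBlock M G → Cfsg.blockDefect p B' < r)) := by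
  haveI : PM p M := ⟨hM⟩
  refine ⟨fun h y hy b hb hne => ?_, fun hr h B hB hne => ?_⟩
  · obtain ⟨B, hB⟩ := (locSet_centralizer hy).exists_indB hb
    exact (hB.defect_le Subtype.val_injective).trans_lt
      (h B hB.2.1 fun e => hne ((hB.third_main Subtype.val_injective).1 e))
  · by_contra h1
    obtain ⟨D, hD⟩ := exists_isDefectGroup p hB
    have h2 : D ≠ ⊥ := fun e => by
      have := (IsDefectGroup.eq_bot_iff hB hD).1 e
      omega
    obtain ⟨y, hy, hyD, ho⟩ := exists_mem_center_of_ne_bot (IsDefectGroup.isPGroup hD) h2
    have hle : D ≤ Subgroup.centralizer ({y} : Set G) := le_centralizer_singleton_iff.2 hyD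
    have hle' : Subgroup.centralizer (D : Set G) ≤ Subgroup.centralizer ({y} : Set G) :=
      Subgroup.centralizer_le (by simpa using hy)
    have hK : D ⊔ Subgroup.centralizer (D : Set G) ≤ Subgroup.centralizer ({y} : Set G) :=
      sup_le hle hle'
    have L := locSet_subtype (IsDefectGroup.isPGroup hD) le_sup_left le_sup_right
      (sup_centralizer_le_normalizer D)
    obtain ⟨e, he, hDe⟩ := first_main_exists L hB hD
    have L' := locSet_inclusion (IsDefectGroup.isPGroup hD) hK le_sup_left le_sup_right
      (sup_centralizer_le_normalizer D)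
    obtain ⟨b, hb⟩ := L'.exists_indB he.1
    have h3 : IndB M (Subgroup.centralizer ({y} : Set G)).subtype b B := hb.of_comp he
    have h4 := h y ho b hb.2.1 fun e => hne ((h3.third_main Subtype.val_injective).2 e)
    have h5 := hb.defect_le (p := p) (Subgroup.inclusion_injective hK)
    have h6 := IsDefectGroup.card he.1 hDe
    rw [L.card_comap, IsDefectGroup.card hB hD] at h6
    have h7 := Nat.pow_right_injective (Fact.out : p.Prime).two_le h6
    omega

end Cfsg.Agent.S4717
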