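import Cfsg.Statements.S4719
import Cfsg.Agent.H21.Bound
import Cfsg.Agent.S4494
import Cfsg.Agent.S4717
import Cfsg.Agent.S0133
import Cfsg.Agent.H7.Block
import Cfsg.Agent.H5.Central

set_option autoImplicit false
universe u
open Cfsg

namespace Cfsg.Agent.S4719

open H18 H21 Subgroup

def DC (M : Ideal AlgInt) (r : ℕ) (G : Type u) [Group G] : Prop :=
  ∀ B : Set (IrrCharacter G), IsPBlock M B → B ≠ principalBlock M G → blockDefect 2 B < r

theorem aux (a j : ℕ) : ∃ N : ℕ, ∀ (G : Type u) [Group G] [Finite G] (M : Ideal AlgInt) (r : ℕ) (W E : Subgroup G),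
    IsPModular 2 M → DC M r G → ¬ 2 ^ (a + 1) ∣ Nat.card G → W ≤ center G → W ≤ E → Abel E → (∀ x ∈ E, x * x = 1) →
    Nat.card E = 2 ^ (r + 1) → Nat.card W * 2 ^ j = 2 ^ r → Nat.card G ≤ N := by
  induction j with
  | zero =>
    obtain ⟨N, hN⟩ := H21.landau.{u} (2 ^ (2 * a) + 4)
    refine ⟨N, fun G _ _ M r W E hM h ha hW _ _ _ _ hc => hN G ?_⟩
    have := hM.2.1
    have h0 : Nat.card G ≠ 0 := Nat.card_pos.ne'
    have h1 := S4494.result 2 M hM _ (H7.isPBlock_principalBlock (M := M) (G := G))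
    have h2 : principalBlock M G = Set.univ := Set.eq_univ_of_forall fun χ => by
      by_contra hχ
      refine (h _ (H7.isPBlock_blockOf χ) fun e => hχ (e ▸ H7.mem_blockOf_self χ)).not_ge (Nat.le_sub_of_add_le ?_)
      refine (Nat.add_le_add_left (Nat.sInf_le (Set.mem_image_of_mem _ (H7.mem_blockOf_self χ))) _).trans ?_
      have h3 : 2 ^ r * charDegree (χ : G → ℂ) ∣ Nat.card G := by
        rw [← hc, pow_zero, mul_one, ← W.card_mul_index]
        exact mul_dvd_mul_left _ ((H5.Cfsg.IsIrrCharacter.charDegree_dvd_index_center χ.2).trans (index_dvd_of_le hW))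
      have h4 : charDegree (χ : G → ℂ) ≠ 0 := fun e => h0 (by simpa [e] using h3)
      have := (Nat.factorization_le_iff_dvd (by positivity) h0).2 h3 2
      rwa [Nat.factorization_mul (by positivity) h4, Finsupp.add_apply, Nat.Prime.factorization_pow Nat.prime_two,
        Finsupp.single_eq_same] at this
    have h3 : 2 ^ (2 * blockDefect 2 (principalBlock M G)) ≤ 2 ^ (2 * a) :=
      Nat.pow_le_pow_right two_pos (Nat.mul_le_mul_left _ ((Nat.sub_le _ _).trans (Nat.le_of_lt_succ
        (lt_of_not_ge fun e => ha ((Nat.prime_two.pow_dvd_iff_le_factorization h0).2 e)))))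
    rw [← S0133.result, ← Nat.card_univ, ← h2]
    omega
  | succ j ih =>
    obtain ⟨c, hc⟩ := ih
    obtain ⟨N, hN⟩ := four_bound.{u} c (a + 1)
    refine ⟨N * 2 ^ a, fun G _ _ M r W E hM h ha hW hWE hE he hEc hWc => ?_⟩
    have : W.Normal := norm_top_iff.1 (cent_norm (cent_symm (hW.trans (center_le_centralizer _))))
    have key : ∀ w ∈ E, w ∉ W → orderOf w = 2 ∧ Nat.card (W ⊔ zpowers w :) = Nat.card W * 2 := fun w hw hw' => by
      have h2 : orderOf w = 2 := H9.orderOf_eq_two.2 ⟨he w hw, fun e => hw' (e ▸ W.one_mem)⟩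
      refine ⟨h2, ?_⟩
      rw [card_sup_of_cent (hW.trans (center_le_centralizer _)), card_zpowers', h2]
      refine le_bot_iff.1 fun g hg => ?_
      rcases eq_or_eq_of_mem_zpowers h2 hg.2 with rfl | rfl
      · exact one_mem _
      · exact absurd hg.1 hw'
    have key2 : ∀ w ∈ E, w ∉ W → orderOf w = 2 ∧ Nat.card C1(w) ≤ c := fun w hw hw' => by
      obtain ⟨h2, h3⟩ := key w hw hw'
      have hEw : E ≤ C1(w) := le_C1_iff.2 (hE hw)
      have h4 : W ⊔ zpowers w ≤ E := sup_le hWE (zpowers_le.2 hw)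
      refine ⟨h2, hc C1(w) M r ((W ⊔ zpowers w).subgroupOf _) (E.subgroupOf _) hM
        ((S4717.result 2 M hM r).1 h w ⟨1, by rw [h2, pow_one]⟩) (fun e => ha (e.trans (card_subgroup_dvd_card _)))
        (fun g hg => mem_center_iff.2 fun k => Subtype.ext ?_) (comap_mono h4)
        (cent_iff.2 fun s hs t ht => Subtype.ext (comm_of_cent hE hs ht)) (fun s hs => Subtype.ext (he s hs))
        ((card_subgroupOf hEw).trans hEc) ?_⟩
      · exact comm_of_cent (cent_sup (cent_symm (hW.trans (center_le_centralizer _))) C_zpowers.ge) k.2 hg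
      · rw [card_subgroupOf (h4.trans hEw), h3, ← hWc]; ring
    have hlt : ∀ V : Subgroup G, Nat.card V ≤ Nat.card W * 2 → ∃ w ∈ E, w ∉ V := fun V hV => by
      by_contra! e
      have h1 := card_le (A := E) (B := V) e
      rw [hEc, pow_succ, ← hWc, pow_succ] at h1
      have : 0 < Nat.card W * 2 ^ j := Nat.mul_pos Nat.card_pos (by positivity)
      have : Nat.card W ≤ Nat.card W * 2 ^ j := Nat.le_mul_of_pos_right _ (by positivity)
      nlinarith
    obtain ⟨x, hx, hxW⟩ := hlt W (by omega)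
    obtain ⟨y, hy, hyW⟩ := hlt _ (key x hx hxW).2.le
    have hn : ∀ w, w = x ∨ w = y ∨ w = x * y → w ∈ E ∧ w ∉ W := by
      rintro _ (rfl | rfl | rfl)
      · exact ⟨hx, hxW⟩
      · exact ⟨hy, fun e => hyW (mem_sup_left e)⟩
      · refine ⟨E.mul_mem hx hy, fun e => hyW ?_⟩
        exact (mul_mem_cancel_left (mem_sup_right (mem_zpowers x))).1 (mem_sup_left e)
    rw [card_eq_card_quotient_mul_card_subgroup W]
    refine Nat.mul_le_mul (hN _ (fun e => ha (e.trans (card_quotient_dvd_card W))) _ _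
      (Four.quot (fun w hw => key2 w (hn w hw).1 (hn w hw).2) W fun w hw => (hn w hw).2)) ?_
    obtain ⟨k, -, hk⟩ := (Nat.dvd_prime_pow Nat.prime_two).1 (Dvd.intro _ hWc)
    rw [hk]
    refine Nat.pow_le_pow_right two_pos (Nat.le_of_lt_succ (lt_of_not_ge fun e => ha ?_))
    exact (pow_dvd_pow 2 e).trans (hk ▸ card_subgroup_dvd_card _)

/-- For every natural number a there is a bound N with the following property. Let G be a finite group with Sylow 2-subgroups of order 2^a and r ≥ 0 such that G has no non-principal 2-block (relative to a maximal ideal of the algebraic integers containing 2) of defect ≥ r, and suppose a Sylow 2-subgroup of G contains an elementary abelian subgroup of order 2^(r+1). Then the order of G is at most N. -/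
theorem result (a : ℕ) : ∃ N : ℕ, ∀ (G : Type u) [Group G] [Finite G] (M : Ideal Cfsg.AlgInt) (r : ℕ) (P : Sylow 2 G), Cfsg.IsPModular 2 M → Nat.card P = 2 ^ a → (∀ B : Set (Cfsg.IrrCharacter G), Cfsg.IsPBlock M B → B ≠ Cfsg.principalBlock M G → Cfsg.blockDefect 2 B < r) → (∃ E : Subgroup G, E ≤ (P : Subgroup G) ∧ IsMulCommutative E ∧ (∀ x ∈ E, x * x = 1) ∧ Nat.card E = 2 ^ (r + 1)) → Nat.card G ≤ N := by
  choose f hf using aux.{u} a
  refine ⟨(Finset.range (a + 1)).sup f, fun G _ _ M r P hM hP h ⟨E, hEP, hE, he, hEc⟩ => ?_⟩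
  have h1 := card_le hEP
  rw [hP, hEc, Nat.pow_le_pow_iff_right one_lt_two] at h1
  refine (hf r G M r ⊥ E hM h (fun e => ?_) bot_le bot_le (abel_of_comm hE) he hEc (by simp)).trans
    (Finset.le_sup (f := f) (Finset.mem_range.2 (by omega)))
  rw [P.card_eq_multiplicity, Nat.pow_right_inj one_lt_two] at hP
  have := (Nat.prime_two.pow_dvd_iff_le_factorization Nat.card_pos.ne').1 e
  omega

end Cfsg.Agent.S4719
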