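import Cfsg.Statements.S4720
import Cfsg.Agent.H7.Sect

set_option autoImplicit false
open Cfsg

namespace Cfsg.Agent.S4720

open H5 H7

/-- Let p be a prime, M a maximal ideal of the algebraic integers containing p, P a p-subgroup of the finite group G, N a subgroup with P ≤ N ≤ N_G(P), and U a nonempty subset of P normalized by N such that an element of U and an element of P that are conjugate in G are already conjugate in N, and such that λ(C_G(y)) = w·#C_N(y) for every y ∈ U with one rational number w, where λ(X) denotes the sum of the squares of the degrees of the irreducible characters in the principal p-block of X. For a complex function θ on P and χ in the principal block of G put a_χ(θ) = #P⁻¹ Σ_{y ∈ P} χ(y) θ(y⁻¹). Then for generalized characters θ, η of P with θ vanishing outside U, Σ_χ a_χ(θ)·conj(a_χ(η)) = (w/#P²)·Σ_{y ∈ P} θ(y)·conj(Σ_{x ∈ N} η(x y x⁻¹)) (η extended by zero off P; the conjugates lie in P), the first sum over the principal p-block of G. -/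
theorem result {G : Type*} [Group G] [Finite G] (p : ℕ) [Fact p.Prime] (M : Ideal Cfsg.AlgInt) (hM : Cfsg.IsPModular p M) (P : Subgroup G) (hP : IsPGroup p P) (N : Subgroup G) (hPN : P ≤ N) (hNN : N ≤ Subgroup.normalizer (P : Set G)) (U : Set G) (hUne : U.Nonempty) (hUP : U ⊆ (P : Set G)) (hUN : ∀ n ∈ N, ∀ u ∈ U, n * u * n⁻¹ ∈ U) (hfus : ∀ u ∈ U, ∀ g : G, g * u * g⁻¹ ∈ (P : Set G) → ∃ n ∈ N, n * u * n⁻¹ = g * u * g⁻¹) (w : ℚ) (hw : ∀ y ∈ U, ((∑ᶠ ψ ∈ Cfsg.principalBlock M ↥(Subgroup.centralizer ({y} : Set G)), Cfsg.charDegree (ψ : ↥(Subgroup.centralizer ({y} : Set G)) → ℂ) ^ 2) : ℚ) = w * Nat.card ↥(N ⊓ Subgroup.centralizer ({y} : Set G))) (θ η : ↥P → ℂ) (hθ : Cfsg.IsGeneralizedCharacter ↥P θ) (hη : Cfsg.IsGeneralizedCharacter ↥P η) (hθU : ∀ y : ↥P, (y : G) ∉ U → θ y = 0) : ∑ᶠ χ ∈ Cfsg.principalBlock M G, ((Nat.card ↥P : ℂ)⁻¹ * ∑ᶠ y : ↥P, (χ : G → ℂ) (y : G) * θ y⁻¹) * (starRingEnd ℂ) ((Nat.card ↥P : ℂ)⁻¹ * ∑ᶠ y : ↥P, (χ : G → ℂ) (y : G) * η y⁻¹) = ((w : ℂ) / ((Nat.card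 ↥P : ℂ) ^ 2)) * ∑ᶠ y : ↥P, θ y * (starRingEnd ℂ) (∑ᶠ x : ↥N, Cfsg.extendByZero P η ((x : G) * (y : G) * (x : G)⁻¹)) := by
  haveI : PM p M := ⟨hM⟩
  classical
  have := Fintype.ofFinite G
  have hA := isSat_of_isPBlock (isPBlock_principalBlock (M := M) (G := G))
  have h1 : ∀ y : P, θ y * ∑ y' : P, (starRingEnd ℂ) (η y') * mu (principalBlock M G) y' y =
      w * (θ y * (starRingEnd ℂ) (∑ x : N, extendByZero P η ((x : G) * y * (x : G)⁻¹))) := fun y => by
    by_cases hy : (y : G) ∈ U
    swap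
    · simp [hθU y hy]
    have h2 := sum_conj_eq (G := N) (fun x => extendByZero P η x) ⟨y, hPN y.2⟩
    simp only [Subgroup.coe_mul, Subgroup.coe_inv] at h2
    have h3 : Nat.card (Subgroup.centralizer ({⟨y, hPN y.2⟩} : Set N)) =
        Nat.card (N ⊓ Subgroup.centralizer ({(y : G)} : Set G) : Subgroup G) := by
      rw [← Subgroup.card_map_of_injective N.subtype_injective,
        map_centralizer_singleton N.subtype_injective, Subgroup.range_subtype, inf_comm]
      rfl
    have h4 : mu (principalBlock M G) y y =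
        w * Nat.card (N ⊓ Subgroup.centralizer ({(y : G)} : Set G) : Subgroup G) := by
      rw [mu_principal_pe (isPE_of_mem hP y.2), ← mu_one_one]
      have := hw y hy
      rw [finsum_mem_irr] at this ⊢
      have h5 := congrArg (Rat.cast : ℚ → ℂ) this
      push_cast at h5 ⊢
      rw [← h5]
      exact Finset.sum_congr rfl fun _ _ => by split_ifs <;> simp
    rw [h2, h3, mul_left_comm, nsmul_eq_mul, map_mul, map_natCast, ← mul_assoc (w : ℂ), ← h4, map_sum,
      Finset.mul_sum _ _ (mu _ _ _), Finset.sum_filter]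
    congr 1
    have h5 := sum_extendByZero_mul P (fun y => (starRingEnd ℂ) (η y))
      fun g => mu (principalBlock M G) g y
    rw [← h5, ← Finset.sum_subset (Finset.subset_univ (Finset.univ.filter (· ∈ N))) fun g _ hg => by
      rw [extendByZero_of_not_mem _ _ fun h => hg (by simpa using hPN h), zero_mul],
      Finset.sum_subtype (p := (· ∈ N)) (F := inferInstance) _ (by simp)]
    refine Finset.sum_congr rfl fun x _ => ?_
    rw [extendByZero_conj]
    split_ifs with h
    · rw [mul_comm]; exact congrArg (· * _) (mu_congr_left _ (N.subtype.map_isConj h).symm _)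
    · by_cases hx : (x : G) ∈ P
      · rw [mu_pe_eq_zero hA (isPE_of_mem hP hx) (isPE_of_mem hP y.2) fun e => h ?_, mul_zero]
        obtain ⟨g, hg⟩ := isConj_iff.1 e.symm
        obtain ⟨n, hn, e'⟩ := hfus y hy g (hg ▸ hx)
        exact isConj_iff.2 ⟨⟨n, hn⟩, Subtype.ext (e'.trans hg)⟩
      · rw [extendByZero_of_not_mem _ _ hx, map_zero, zero_mul]
  rw [finsum_mem_irr]
  simp only [finsum_eq_sum_of_fintype]
  rw [div_eq_inv_mul, mul_assoc, Finset.mul_sum _ _ (w : ℂ), ← Finset.sum_congr rfl fun y _ => h1 y,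
    ← Equiv.sum_comp (Equiv.inv P), Finset.mul_sum]
  simp only [Equiv.inv_apply, mu_eq, Finset.mul_sum]
  rw [Finset.sum_congr rfl fun y _ => Finset.sum_comm, Finset.sum_comm]
  refine Finset.sum_congr rfl fun χ _ => ?_
  split_ifs
  · rw [map_sum, Finset.sum_mul_sum]
    refine Finset.sum_congr rfl fun y _ => ?_
    rw [← Equiv.sum_comp (Equiv.inv P)]
    refine Finset.sum_congr rfl fun y' _ => ?_
    simp [χ.2.apply_inv]
    ring
  · simp

end Cfsg.Agent.S4720
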