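import Cfsg.Statements.S4721
import Cfsg.Agent.H7.Homo
import Cfsg.Agent.H7.FSOdd
import Cfsg.Agent.S0944

set_option autoImplicit false
open Cfsg

namespace Cfsg.Agent.S4721

open H5 H7

theorem sq_of {x y z : ℕ} {u v w : ℤ} (hx : 0 < x) (hy : 0 < y) (hz : 0 < z) (h1 : 1 + x = y + z)
    (h2 : 1 + u = v + w) (h3 : 1 + (u : ℝ) ^ 2 / x = v ^ 2 / y + w ^ 2 / z) (hu : u ≠ x) :
    IsSquare (x * y * z) := by
  have h1 : (y : ℚ) = 1 + x - z := by exact_mod_cast (by omega : (y : ℤ) = 1 + x - z)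
  have h2 : (v : ℚ) = 1 + u - w := by exact_mod_cast (by omega : v = 1 + u - w)
  have h3 : 1 + (u : ℚ) ^ 2 / x = v ^ 2 / y + w ^ 2 / z := by exact_mod_cast h3
  have hu : (u : ℚ) - x ≠ 0 := sub_ne_zero.2 (by exact_mod_cast hu)
  have hs : (1 + x : ℚ) ≠ 0 := by positivity
  refine Rat.isSquare_natCast_iff.1 ⟨x * (v * z - w * y) / (u - x), ?_⟩
  field_simp at h3
  rw [div_mul_div_comm, eq_div_iff (mul_ne_zero hu hu)]
  push_cast
  rw [h1, h2] at *
  linear_combination (x * (1 + x : ℚ)) * h3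

theorem four {a b c : ℤ} {x y z : ℕ} {u v w : ℤ} (ha : a = 1 ∨ a = -1) (hb : b = 1 ∨ b = -1)
    (hc : c = 1 ∨ c = -1) (hx : 0 < x) (hy : 0 < y) (hz : 0 < z)
    (h1 : 1 + a * x + b * y + c * z = 0) (h2 : 1 + a * u + b * v + c * w = 0)
    (h3 : 1 + a * (u : ℝ) ^ 2 / x + b * v ^ 2 / y + c * w ^ 2 / z = 0) (hu : u ≠ x) (hv : v ≠ y)
    (hw : w ≠ z) : a + b + c = -1 ∧ IsSquare (x * y * z) := by
  have key : ∀ (s : ℝ) (j : Fin 4), s ≠ 0 → (∀ i, i ≠ j → 0 ≤ s * ![1, (a : ℝ), b, c] i) → False :=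
    fun s j hs h => by
    have := H7.eq_of_three_sums Finset.univ (fun i => s * ![1, (a : ℝ), b, c] i) ![1, x, y, z]
      ![1, u, v, w] (fun i => by fin_cases i <;> simp [hx, hy, hz])
      (by have : (1 + a * x + b * y + c * z : ℝ) = 0 := by exact_mod_cast h1
          simp [Fin.sum_univ_four]; linear_combination s * this)
      (by have : (1 + a * u + b * v + c * w : ℝ) = 0 := by exact_mod_cast h2
          simp [Fin.sum_univ_four]; linear_combination s * this)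
      (by simp [Fin.sum_univ_four]; linear_combination s * h3) j fun i _ => h i
    have e := (this 1 (by simp) (by rcases ha with e | e <;> simp [hs, e])).trans
      (this 0 (by simp) (by simp [hs])).symm
    simp only [Matrix.cons_val_one, Matrix.cons_val_zero, div_one] at e
    exact hu (by exact_mod_cast (div_eq_one_iff_eq (by positivity)).1 e)
  rcases ha with rfl | rfl <;> rcases hb with rfl | rfl <;> rcases hc with rfl | rfl
  · omega
  · exact (key 1 3 one_ne_zero fun i hi => by fin_cases i <;> simp at hi ⊢).elim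
  · exact (key 1 2 one_ne_zero fun i hi => by fin_cases i <;> simp at hi ⊢).elim
  · exact ⟨rfl, sq_of hx hy hz (u := u) (v := v) (w := w) (by omega) (by omega) (by push_cast at h3; linear_combination h3) hu⟩
  · exact (key 1 1 one_ne_zero fun i hi => by fin_cases i <;> simp at hi ⊢).elim
  · exact ⟨rfl, by
      rw [mul_comm x]
      exact sq_of hy hx hz (u := v) (v := u) (w := w) (by omega) (by omega)
        (by push_cast at h3; linear_combination h3) hv⟩
  · exact ⟨rfl, by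
      rw [mul_comm, ← mul_assoc]
      exact sq_of hz hx hy (u := w) (v := u) (w := v) (by omega) (by omega)
        (by push_cast at h3; linear_combination h3) hw⟩
  · exact (key (-1) 0 (by simp) fun i hi => by fin_cases i <;> simp at hi ⊢).elim

/-- Let p be a prime, M a maximal ideal of the algebraic integers containing p, and G a finite group with a nontrivial abelian Sylow p-subgroup P, N = N_G(P), C = C_G(P), such that N/C is cyclic of order 3, #P > 4, and C_G(y) ∩ N = C for every non-identity y ∈ P. Then the principal p-block is the disjoint union of a set X of exactly 3 characters containing the principal character and a set Y of (#P − 1)/3 characters, with signs a_χ = ±1 (χ ∈ X, a = 1 at the principal character) and δ = ±1 such that every χ ∈ X takes the value a_χ at every element whose p-part is a non-identity element of P, and there is a map ζ from the non-principal linear characters of P onto Y, constant on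 N-conjugacy classes, with ζ_ψ(z) = δ·Σ ψ'(y) over the N-orbit of ψ, for z with p-part y ≠ 1 in P. If moreover G has an involution lying in no proper normal subgroup of G, then exactly two of the three numbers −δ and a_χ (χ ∈ X non-principal) equal −1, and the product of the degrees of the two non-principal members of X and of any member of Y is a perfect square. -/
theorem result {G : Type*} [Group G] [Finite G] (p : ℕ) [Fact p.Prime] (M : Ideal Cfsg.AlgInt) (hM : Cfsg.IsPModular p M) (P : Sylow p G) (hab : IsMulCommutative P) (hP1 : Nat.card P ≠ 1) (hCN : (Subgroup.centralizer ((P : Subgroup G) : Set G)).relIndex (Subgroup.normalizer ((P : Subgroup G) : Set G)) = 3) (hcyc : ∃ g : G, g ∈ Subgroup.normalizer ((P : Subgroup G) : Set G) ∧ Subgroup.centralizer ((P : Subgroup G) : Set G) ⊔ Subgroup.zpowers g = Subgroup.normalizer ((P : Subgroup G) : Set G)) (hm2 : 3 + 1 < Nat.card P) (hfrob : ∀ y : G, y ∈ (P : Subgroup G)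 → y ≠ 1 → Subgroup.centralizer ({y} : Set G) ⊓ Subgroup.normalizer ((P : Subgroup G) : Set G) = Subgroup.centralizer ((P : Subgroup G) : Set G)) : ∃ (X Y : Set (Cfsg.IrrCharacter G)), Cfsg.principalBlock M G = X ∪ Y ∧ Disjoint X Y ∧ Nat.card X = 3 ∧ Nat.card Y = (Nat.card P - 1) / 3 ∧ (∃ χ₁ ∈ X, (χ₁ : G → ℂ) = fun _ => 1) ∧ ∃ (a : Cfsg.IrrCharacter G → ℤ) (δ : ℤ) (ζ : (↥(P : Subgroup G) →* ℂˣ) → Cfsg.IrrCharacter G), (δ = 1 ∨ δ = -1) ∧ (∀ χ ∈ X, (a χ = 1 ∨ a χ = -1) ∧ ∀ z y : G, Cfsg.IsPPart p z y → y ∈ (P : Subgroup G) → y ≠ 1 → (χ : G → ℂ) z = (a χ : ℂ)) ∧ (∀ ψ : ↥(P : Subgroup G) →* ℂˣ, ψ ≠ 1 → ζ ψ ∈ Y) ∧ (∀ η ∈ Y, ∃ ψ : ↥(P : Subgroup G) →* ℂˣ, ψ ≠ 1 ∧ ζ ψ = η) ∧ (∀ ψ ψ' : ↥(P : Subgroup G) →* ℂˣ, ψ ≠ 1 → (∃ n : G, n ∈ Subgroup.normalizer ((P : Subgroup G) : Set G) ∧ ∀ w w' : ↥(P : Subgroup G), (w' : G) = n * w * n⁻¹ → ψ' w' = ψ w) → ζ ψ' = ζ ψ) ∧ (∀ ψ : ↥(P : Subgroup G) →* ℂˣ, ψ ≠ 1 → ∀ (z : G) (y : ↥(P : Subgroup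 G)), Cfsg.IsPPart p z (y : G) → (y : G) ≠ 1 → (ζ ψ : G → ℂ) z = (δ : ℂ) * ∑ᶠ ψ' ∈ {ψ' : ↥(P : Subgroup G) →* ℂˣ | ∃ n : G, n ∈ Subgroup.normalizer ((P : Subgroup G) : Set G) ∧ ∀ w w' : ↥(P : Subgroup G), (w' : G) = n * w * n⁻¹ → ψ' w' = ψ w}, ((ψ' y : ℂˣ) : ℂ)) ∧ ((∃ t : G, orderOf t = 2 ∧ ∀ K : Subgroup G, K.Normal → t ∈ K → K = ⊤) → Nat.card {χ : Cfsg.IrrCharacter G // χ ∈ X ∧ (χ : G → ℂ) ≠ (fun _ => 1) ∧ a χ = -1} + (if δ = 1 then 1 else 0) = 2 ∧ ∀ η ∈ Y, IsSquare (Cfsg.charDegree (η : G → ℂ) * ∏ᶠ χ ∈ {χ : Cfsg.IrrCharacter G | χ ∈ X ∧ (χ : G → ℂ) ≠ fun _ => 1}, Cfsg.charDegree (χ : G → ℂ))) := by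
  haveI : PM p M := ⟨hM⟩
  classical
  have := Fintype.ofFinite G
  have := Fintype.ofFinite (P : Subgroup G)
  have : Nontrivial (P : Subgroup G) := Finite.one_lt_card_iff_nontrivial.1 (by omega)
  have h : FA p (P : Subgroup G) := ⟨sylIn_top P, Subgroup.le_centralizer _, fun y hy y1 => (hfrob y hy y1).le⟩
  have F := h.fam (M := M)
  obtain ⟨ζ, δ, d, α, x⟩ := F.exists_exc
  have hE := (card_autN (P : Subgroup G)).trans hCN
  have o1 : ∀ v ≠ 1, dn (famP M (P : Subgroup G)) (irrOne G) v = 1 := fun v hv => by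
    rw [FA.dn_famP hv, if_pos irrOne_mem_principalBlock]; rfl
  obtain ⟨rfl, h5, h6, χ₂, χ₃, n2, n3, n23, hX⟩ := x.three F P.isPGroup' hE hm2
    irrOne_mem_principalBlock o1
  have v1 : ∀ χ ∈ principalBlock M G, ∀ z : G, ∀ v : (P : Subgroup G), v ≠ 1 → IsPPart p z v →
      (χ : G → ℂ) z = dn (famP M (P : Subgroup G)) χ v := fun χ hχ z v hv e => by
    rw [FA.dn_famP hv, if_pos hχ, h.apply hχ v.2 (by simpa) (isPPart_iff.1 e ▸ IsConj.refl _)]
  have hO : ∀ ψ ψ' : (P : Subgroup G) →* ℂˣ, (∃ n : G, n ∈ Subgroup.normalizer ((P : Subgroup G) : Set G) ∧ ∀ w w' : ↥(P : Subgroup G), (w' : G) = n * w * n⁻¹ → ψ' w' = ψ w) ↔ Orb (autN (P : Subgroup G)) ψ ψ' :=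
    fun ψ ψ' => (orb_autE (P : Subgroup G).subtype_injective (autN_le _)).symm
  have hY : Nat.card (ζ '' {1}ᶜ) = (Nat.card P - 1) / 3 := by
    rw [← x.card F, hE, Nat.add_sub_cancel, Nat.mul_div_cancel _ (by omega)]
  have m2 : χ₂ ∈ principalBlock M G \ ζ '' {1}ᶜ := hX.ge (by simp)
  have m3 : χ₃ ∈ principalBlock M G \ ζ '' {1}ᶜ := hX.ge (by simp)
  refine ⟨principalBlock M G \ ζ '' {1}ᶜ, ζ '' {1}ᶜ,
    (Set.diff_union_of_subset x.subset).symm, Set.disjoint_sdiff_left,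
    Set.ncard_eq_three.2 ⟨_, _, _, n2, n3, n23, hX⟩, hY,
    ⟨irrOne G, hX.ge (by simp), rfl⟩, α, δ, ζ, x.sign,
    fun χ hχ => ⟨h5 χ hχ, fun z y e hy y1 => by
      rw [v1 χ hχ.1 z ⟨y, hy⟩ (by simpa) e, x.non χ hχ _ (by simpa)]⟩, fun ψ hψ => ⟨ψ, hψ, rfl⟩,
    fun η hη => hη, fun ψ ψ' hψ e => ?_, fun ψ hψ z y e y1 => ?_, fun ⟨t, ht, hK⟩ => ?_⟩
  · have := (hO _ _).1 e
    exact ((x.eq_iff _ hψ _ (this.ne_one hψ)).2 this).symm
  · simp only [hO]
    rw [h.fr.finsum_Orb hψ, v1 _ (x.mem ψ hψ) z y (by simpa using y1) e,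
      x.exc ψ hψ y (by simpa using y1), Int.cast_zero, zero_add]
  have t2 : t * t = 1 := by rw [← sq, ← ht, pow_orderOf_eq_one]
  have hp : ¬ p ∣ orderOf t := fun e => by
    obtain rfl := (Nat.prime_dvd_prime_iff_eq Fact.out Nat.prime_two).1 (ht ▸ e)
    obtain ⟨K, k1, k2, k3⟩ := h.exists_ker_two (M := M) hE hm2
    obtain ⟨v, -, e⟩ := h.exists_conj e
    rw [pp_of_isPE ⟨1, ht⟩] at e
    obtain ⟨c, rfl⟩ := isConj_iff.1 e.symm
    exact k2 (hK K k1 (k1.conj_mem _ (k3 v.2) c))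
  obtain ⟨y, y1⟩ := exists_ne (1 : (P : Subgroup G))
  have hy : IsPPart p (y : G) y := isPPart_iff.2 (pp_of_isPE (isPE_of_mem P.isPGroup' y.2)).symm
  have e1 := h.sum_cls (M := M) (by omega) t2 y1 fun u _ hu _ _ => by
    have := (isPE_of_mem P.isPGroup' u.2).eq_one (orderOf_eq_of_isConj hu ▸ hp)
    rw [this, isConj_one_left] at hu
    simp [hu] at ht
  have s3 : ∀ f : IrrCharacter G → ℂ, ∑ᶠ χ ∈ principalBlock M G \ ζ '' {1}ᶜ, f χ =
      f (irrOne G) + (f χ₂ + f χ₃) := fun f => by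
    rw [hX, finsum_mem_insert _ (by simp [n2, n3]) (Set.toFinite _), finsum_mem_pair n23]
  have key : ∀ η ∈ ζ '' {1}ᶜ, -δ + α χ₂ + α χ₃ = -1 ∧ IsSquare (charDegree (η : G → ℂ) *
      charDegree (χ₂ : G → ℂ) * charDegree (χ₃ : G → ℂ)) := fun η hη => by
    have e2 := x.rel' hη hp
    have e3 := x.rel' hη not_dvd_orderOf_one
    have e4 := h.fr.sum_osum x.eq_iff fun η' =>
      (η' : G → ℂ) t * (η' : G → ℂ) t / (η' : G → ℂ) 1 * (η' : G → ℂ) y
    rw [← Finset.sum_erase_eq_sub (Finset.mem_univ _), Finset.sum_congr rfl (g := fun l =>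
      (η : G → ℂ) t * (η : G → ℂ) t / (η : G → ℂ) 1 * δ * osum (autN (P : Subgroup G)) l y)
      fun l hl => by
        have hl := Finset.ne_of_mem_erase hl
        rw [v1 _ (x.mem l hl) y y y1 hy, x.exc l hl y y1, x.reg_eq ⟨l, hl, rfl⟩ hη hp,
          x.reg_eq ⟨l, hl, rfl⟩ hη not_dvd_orderOf_one]
        push_cast; ring, ← Finset.mul_sum, Finset.sum_erase_eq_sub (Finset.mem_univ _),
      show ∑ l, osum (autN (P : Subgroup G)) l y = 0 from Finset.sum_comm.trans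
        (Finset.sum_eq_zero fun σ _ => sum_hom_apply h.fr.comm (by simpa)), hE] at e4
    rw [← Set.diff_union_of_subset x.subset, finsum_mem_union Set.disjoint_sdiff_left
      (Set.toFinite _) (Set.toFinite _), s3, v1 _ m2.1 y y y1 hy, v1 _ m3.1 y y y1 hy,
      x.non _ m2 y y1, x.non _ m3 y y1, eq_div_of_mul_eq three_ne_zero ((mul_comm _ _).trans e4)] at e1
    rw [s3, h6] at e2 e3
    obtain ⟨u, hu, -⟩ := Cfsg.Agent.S0944.result η t ht
    obtain ⟨v, hv, -⟩ := Cfsg.Agent.S0944.result χ₂ t ht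
    obtain ⟨w, hw, -⟩ := Cfsg.Agent.S0944.result χ₃ t ht
    have k : ∀ χ : IrrCharacter G, irrOne G ≠ χ → ∀ u : ℤ, (χ : G → ℂ) t = u →
        u ≠ charDegree (χ : G → ℂ) := fun χ n u hu e =>
      n (Subtype.ext (χ.2.charKer_eq_top_iff.1 (hK _ χ.2.isCharacter.normal_charKer
        (χ.2.mem_charKer.2 (by rw [hu, e, ← H8.coe_deg, Int.cast_natCast])))).symm)
    simp only [osum, MonoidHom.one_apply, Units.val_one, Finset.sum_const, Finset.card_univ,
      ← Nat.card_eq_fintype_card, hE, irrOne_apply, hu, hv, hw, ← H8.coe_deg] at e1 e2 e3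
    refine four (by rcases x.sign with e | e <;> simp [e]) (h5 _ m2) (h5 _ m3) (H8.deg_pos _)
      (H8.deg_pos _) (H8.deg_pos _) ?_ ?_ ?_ (k η (by
        rintro rfl; exact x.notMem F (by omega) o1 hη) u hu) (k _ n2 v hv) (k _ n3 w hw)
    · apply Int.cast_injective (α := ℂ); push_cast at e3 ⊢; linear_combination e3
    · apply Int.cast_injective (α := ℂ); push_cast at e2 ⊢; linear_combination e2
    · apply Complex.ofReal_injective; push_cast at e1 ⊢; linear_combination e1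
  have hX' : {χ : IrrCharacter G | χ ∈ principalBlock M G \ ζ '' {1}ᶜ ∧ (χ : G → ℂ) ≠ fun _ => 1} =
      {χ₂, χ₃} := by
    rw [hX]; ext χ
    simp only [Set.mem_setOf_eq, Set.mem_insert_iff, Set.mem_singleton_iff, Ne, coe_eq_one_iff]
    constructor
    · tauto
    · rintro (rfl | rfl) <;> simp [n2.symm, n3.symm]
  refine ⟨?_, fun η hη => by rw [hX', finprod_mem_pair n23, ← mul_assoc]; exact (key η hη).2⟩
  obtain ⟨l, hl⟩ := F.exists_ne_one
  have e := (key _ ⟨l, hl, rfl⟩).1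
  have : Nat.card {χ : IrrCharacter G // χ ∈ principalBlock M G \ ζ '' {1}ᶜ ∧ (χ : G → ℂ) ≠ (fun _ => 1) ∧ α χ = -1} = (({χ₂, χ₃} : Finset _).filter fun χ => α χ = -1).card := by
    rw [← Nat.card_eq_finsetCard]
    exact Nat.card_congr (Equiv.subtypeEquivRight fun χ => by
      rw [← and_assoc, show _ ∧ _ ↔ _ from Set.ext_iff.1 hX' χ]; simp)
  rw [this, Finset.card_filter, Finset.sum_pair n23]
  rcases x.sign with a | a <;> rcases h5 _ m2 with b | b <;> rcases h5 _ m3 with c | c <;>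
    simp [a, b, c] at e ⊢

end Cfsg.Agent.S4721
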