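import Cfsg.Statements.S4722
import Cfsg.Agent.H7.Invol

set_option autoImplicit false
open Cfsg

namespace Cfsg.Agent.S4722

open H5 H7

/-- Let M be a maximal ideal of the algebraic integers containing 2, P a 2-subgroup of the finite group G, U a subset of P, and t an involution of G such that no element of U is inverted by any conjugate of t. Let θ be a generalized character of P vanishing outside U, and for χ in the principal 2-block B₀ put a_χ = #P⁻¹ Σ_{y ∈ P} χ(y) θ(y⁻¹). Then Σ_{χ ∈ B₀} a_χ χ(t)^2/χ(1) = 0, Σ_{χ ∈ B₀} a_χ χ(1) = 0 and Σ_{χ ∈ B₀} a_χ χ(t) = 0. If moreover #P⁻¹ Σ_{y ∈ P} θ(y) ≠ 0, then either at least two of the a_χ have positive real part and at least two have negative real part, or G has a proper normal subgroup containing O_2'(G) and t. -/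
theorem result {G : Type*} [Group G] [Finite G] (M : Ideal Cfsg.AlgInt) (hM : Cfsg.IsPModular 2 M) (P : Subgroup G) (hP : IsPGroup 2 P) (U : Set G) (hUP : U ⊆ (P : Set G)) (t : G) (ht : orderOf t = 2) (hinv : ∀ u ∈ U, ∀ g : G, (g * t * g⁻¹) * u * (g * t * g⁻¹)⁻¹ ≠ u⁻¹) (θ : ↥P → ℂ) (hθ : Cfsg.IsGeneralizedCharacter ↥P θ) (hθU : ∀ y : ↥P, (y : G) ∉ U → θ y = 0) : (∑ᶠ χ ∈ Cfsg.principalBlock M G, ((Nat.card ↥P : ℂ)⁻¹ * ∑ᶠ y : ↥P, (χ : G → ℂ) (y : G) * θ y⁻¹) * (χ : G → ℂ) t ^ 2 / (χ : G → ℂ) 1 = 0) ∧ (∑ᶠ χ ∈ Cfsg.principalBlock M G, ((Nat.card ↥P : ℂ)⁻¹ * ∑ᶠ y : ↥P, (χ : G → ℂ) (y : G) * θ y⁻¹) * (χ : G → ℂ) 1 = 0) ∧ (∑ᶠ χ ∈ Cfsg.principalBlock M G, ((Nat.card ↥P : ℂ)⁻¹ * ∑ᶠ y : ↥P, (χ : G → ℂ) (y : G) * θ y⁻¹) * (χ : G → ℂ) t = 0) ∧ ((Nat.card ↥P : ℂ)⁻¹ * ∑ᶠ y : ↥P, θ y ≠ 0 → (2 ≤ Nat.card {χ : Cfsg.IrrCharacter G // χ ∈ Cfsg.principalBlock M G ∧ 0 < (((Nat.card ↥P : ℂ)⁻¹ *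 ∑ᶠ y : ↥P, (χ : G → ℂ) (y : G) * θ y⁻¹)).re} ∧ 2 ≤ Nat.card {χ : Cfsg.IrrCharacter G // χ ∈ Cfsg.principalBlock M G ∧ (((Nat.card ↥P : ℂ)⁻¹ * ∑ᶠ y : ↥P, (χ : G → ℂ) (y : G) * θ y⁻¹)).re < 0}) ∨ ∃ K : Subgroup G, K.Normal ∧ K ≠ ⊤ ∧ Cfsg.pPrimeCore 2 G ≤ K ∧ t ∈ K) := by
  haveI : PM 2 M := ⟨hM⟩
  classical
  have := Fintype.ofFinite G
  have hA := isSat_of_isPBlock (isPBlock_principalBlock (M := M) (G := G))
  have htt : t * t = 1 := by rw [← sq, ← ht, pow_orderOf_eq_one]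
  have hti : t⁻¹ = t := inv_eq_of_mul_eq_one_right htt
  have hinv' : ∀ y : P, θ y⁻¹ ≠ 0 → ∀ s, IsConj t s → s * y * s⁻¹ ≠ (y : G)⁻¹ := fun y hy s hs e => by
    obtain ⟨g, rfl⟩ := isConj_iff.1 hs
    exact hinv _ (by_contra fun h => hy (hθU _ h)) g (by rw [Subgroup.coe_inv, ← conj_inv, e])
  have key : ∀ c : IrrCharacter G → ℂ, (∀ y : P, θ y⁻¹ ≠ 0 →
      ∑ᶠ χ ∈ principalBlock M G, c χ * (χ : G → ℂ) y = 0) → ∑ᶠ χ ∈ principalBlock M G,
      ((Nat.card P : ℂ)⁻¹ * ∑ᶠ y : P, (χ : G → ℂ) y * θ y⁻¹) * c χ = 0 := fun c h => by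
    have h1 : ∀ y : P, (Nat.card P : ℂ)⁻¹ * θ y⁻¹ *
        ∑ᶠ χ ∈ principalBlock M G, c χ * (χ : G → ℂ) y = 0 := fun y => by
      by_cases h0 : θ y⁻¹ = 0
      · rw [h0, mul_zero, zero_mul]
      · rw [h y h0, mul_zero]
    rw [← Finset.sum_eq_zero (s := Finset.univ) fun y _ => h1 y, finsum_mem_irr]
    simp only [finsum_mem_irr]
    simp only [finsum_eq_sum_of_fintype, Finset.mul_sum, Finset.sum_mul]
    rw [Finset.sum_comm]
    refine Finset.sum_congr rfl fun χ _ => ?_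
    split_ifs
    · exact Finset.sum_congr rfl fun y _ => by ring
    · simp
  have k1 := key (fun χ => (χ : G → ℂ) t * (χ : G → ℂ) t / (χ : G → ℂ) 1) fun y hy =>
    sum_invol_eq_zero hA htt htt (by rw [pp_of_isPE (isPE_of_mem hP y.2)]; exact hinv' y hy)
  have k2 := key (fun χ => (χ : G → ℂ) 1) fun y hy => by
    rw [← mu_pe_eq_zero hA (isPE_of_mem hP y.2) isPE_one fun e => hinv' y hy t (IsConj.refl t)
      (by simp [isConj_one_left.1 e])]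
    exact finsum_mem_congr rfl fun χ _ => by rw [χ.2.isCharacter.conj_apply_one, mul_comm]
  have hr : ∀ χ : IrrCharacter G, (starRingEnd ℂ) ((χ : G → ℂ) t) = (χ : G → ℂ) t := fun χ => by
    rw [← χ.2.apply_inv, hti]
  have k3 := key (fun χ => (χ : G → ℂ) t) fun y hy => by
    rw [← mu_pe_eq_zero hA (isPE_of_mem hP y.2) ⟨1, ht⟩ fun e => hinv' y hy y e.symm
      (by rw [mul_self_of_isConj htt e.symm, one_mul])]
    exact finsum_mem_congr rfl fun χ _ => by rw [hr, mul_comm]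
  simp only [← sq, ← mul_div_assoc] at k1
  refine ⟨k1, k2, k3, fun h0 => ?_⟩
  have ha : ∀ χ : IrrCharacter G, ∃ n : ℤ,
      (Nat.card P : ℂ)⁻¹ * ∑ᶠ y : P, (χ : G → ℂ) y * θ y⁻¹ = n := fun χ => by
    obtain ⟨n, hn⟩ := (χ.2.isGen.restrict P).exists_classInner_int hθ
    refine ⟨n, ?_⟩
    rw [← hn, finsum_eq_sum_of_fintype, inv_mul_eq_iff_eq_mul₀ card_ne_zero_complex, card_mul_classInner]
    exact Finset.sum_congr rfl fun y _ => by rw [hθ.apply_inv]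
  choose a ha using ha
  have h1 : a (irrOne G) ≠ 0 := fun e => h0 (by
    have := ha (irrOne G)
    rw [e, finsum_eq_sum_of_fintype, ← Equiv.sum_comp (Equiv.inv P)] at this
    simpa [finsum_eq_sum_of_fintype] using this)
  simp only [ha, Complex.intCast_re] at k1 k2 k3 ⊢
  set S := Finset.univ.filter (· ∈ principalBlock M G)
  have hv : ∀ χ : IrrCharacter G, (χ : G → ℂ) t = ((χ : G → ℂ) t).re := fun χ =>
    (Complex.conj_eq_iff_re.1 (hr χ)).symm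
  rw [finsum_mem_irr, ← Finset.sum_filter] at k1 k2 k3
  have l1 : ∑ χ ∈ S, (a χ : ℝ) * (charDegree (χ : G → ℂ) : ℝ) = 0 := by
    simp only [← H8.coe_deg] at k2; exact_mod_cast k2
  have l2 : ∑ χ ∈ S, (a χ : ℝ) * ((χ : G → ℂ) t).re = 0 := by
    rw [Finset.sum_congr rfl fun χ _ => by rw [hv χ]] at k3; exact_mod_cast k3
  have l3 : ∑ χ ∈ S, (a χ : ℝ) * ((χ : G → ℂ) t).re ^ 2 / (charDegree (χ : G → ℂ) : ℝ) = 0 := by
    rw [Finset.sum_congr rfl fun χ _ => by rw [hv χ, ← H8.coe_deg]] at k1; exact_mod_cast k1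
  have hd : ∀ χ : IrrCharacter G, (0 : ℝ) < charDegree (χ : G → ℂ) := fun χ => by
    exact_mod_cast χ.2.charDegree_pos
  have hS : irrOne G ∈ S := Finset.mem_filter.2 ⟨Finset.mem_univ _, irrOne_mem_principalBlock⟩
  have main : (∃ j, ∀ i ∈ S, a i ≠ 0 → ((i : G → ℂ) t).re / charDegree (i : G → ℂ) =
      (((j : IrrCharacter G) : G → ℂ) t).re / charDegree (j : G → ℂ)) →
      ∃ K : Subgroup G, K.Normal ∧ K ≠ ⊤ ∧ pPrimeCore 2 G ≤ K ∧ t ∈ K := fun ⟨j, hj⟩ => by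
    obtain ⟨χ, h2, h3, h4⟩ : ∃ χ ∈ S, χ ≠ irrOne G ∧ a χ ≠ 0 := by
      by_contra! h
      rw [Finset.sum_eq_single (irrOne G) (fun χ h2 h3 => by simp [h χ h2 h3])
        (fun h => absurd hS h)] at l1
      exact h1 (by exact_mod_cast (mul_eq_zero.1 l1).resolve_right (hd _).ne')
    refine ⟨charKer (χ : G → ℂ), χ.2.isCharacter.normal_charKer,
      fun e => h3 (Subtype.ext (χ.2.charKer_eq_top_iff.1 e)), mem_kerSet_iff_le.1
        (principalBlock_subset_kerSet not_dvd_card_pPrimeCore (Finset.mem_filter.1 h2).2),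
      χ.2.mem_charKer.2 ?_⟩
    have h5 := (hj χ h2 h4).trans (hj _ hS h1).symm
    rw [charDegree_eq (G := G) (χ := irrOne G) (n := 1) (by simp), div_eq_iff (hd χ).ne'] at h5
    rw [hv, h5, ← H8.coe_deg]
    simp
  have hle : ∀ q : IrrCharacter G → Prop, ¬ 2 ≤ Nat.card {χ // χ ∈ principalBlock M G ∧ q χ} →
      ∃ j, ∀ i ∈ S, i ≠ j → ¬ q i := fun q h => by
    have := Finite.card_le_one_iff_subsingleton.1 (Nat.le_of_lt_succ (not_le.1 h))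
    by_cases e : ∃ j ∈ S, q j
    · obtain ⟨j, h1, h2⟩ := e
      exact ⟨j, fun i h3 h4 h5 => h4 (congrArg Subtype.val (this.elim
        ⟨i, (Finset.mem_filter.1 h3).2, h5⟩ ⟨j, (Finset.mem_filter.1 h1).2, h2⟩))⟩
    · exact ⟨irrOne G, fun i h1 _ h2 => e ⟨i, h1, h2⟩⟩
  rw [or_iff_not_imp_left, not_and_or]
  rintro (h | h)
  · obtain ⟨j, hj⟩ := hle _ h
    refine main ⟨j, fun i hi h0 => eq_of_three_sums S (fun i => -(a i : ℝ)) _ _ hd
      (by simpa using l1) (by simpa using l2) (by simpa [neg_div] using l3) j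
      (fun i hi e => by simpa using hj i hi e) i hi (by simpa using h0)⟩
  · obtain ⟨j, hj⟩ := hle _ h
    exact main ⟨j, fun i hi h0 => eq_of_three_sums S (fun i => (a i : ℝ)) _ _ hd l1 l2 l3 j
      (fun i hi e => by simpa using hj i hi e) i hi (by simpa using h0)⟩

end Cfsg.Agent.S4722
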