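import Cfsg.Statements.S4723
import Cfsg.Agent.H7.Misc2

set_option autoImplicit false
open Cfsg

namespace Cfsg.Agent.S4723

open H5 H7

/-- Let p be a prime, M a maximal ideal of the algebraic integers containing p, H a normal subgroup of the finite group G and b a p-block of H. Let T be the stabilizer of b in G. Then b contains a character θ of height zero whose own stabilizer in G (the elements g with θ(g h g⁻¹) = θ(h) for all h ∈ H) has index prime to p in T, i.e. contains a Sylow p-subgroup of T. -/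
theorem result {G : Type*} [Group G] [Finite G] (p : ℕ) [Fact p.Prime] (M : Ideal Cfsg.AlgInt) (hM : Cfsg.IsPModular p M) (H : Subgroup G) [H.Normal] (b : Set (Cfsg.IrrCharacter ↥H)) (hb : Cfsg.IsPBlock M b) (T : Subgroup G) (hT : (∀ g : G, g ∈ T ↔ ∀ θ ∈ b, ∀ θ' : Cfsg.IrrCharacter ↥H, (∀ h h' : ↥H, (h' : G) = g * h * g⁻¹ → (θ' : ↥H → ℂ) h' = (θ : ↥H → ℂ) h) → θ' ∈ b)) : ∃ θ ∈ b, Cfsg.blockHeight p b (θ : ↥H → ℂ) = 0 ∧ ∃ S : Subgroup G, S ≤ T ∧ (∀ g : G, g ∈ S ↔ (g ∈ T ∧ ∀ h h' : ↥H, (h' : G) = g * h * g⁻¹ → (θ : ↥H → ℂ) h' = (θ : ↥H → ℂ) h)) ∧ ¬ p ∣ S.relIndex T := by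
  haveI : PM p M := ⟨hM⟩
  classical
  have := Fintype.ofFinite G
  have := Fintype.ofFinite H
  have hT' : ∀ g, g ∈ T ↔ ∀ θ ∈ b, ieq ((ne_subtype H).cjA g) θ ∈ b := by
    have key : ∀ g, g ∈ T ↔ ∀ θ ∈ b, ieq ((ne_subtype H).cjA g⁻¹) θ ∈ b := fun g => by
      rw [hT]
      refine forall₂_congr fun θ _ => ⟨fun h => h _ fun x x' e => ?_, fun h θ' e => ?_⟩
      · rw [ieq_apply, cjA_subtype]
        exact congrArg _ (Subtype.ext (by simp [e, mul_assoc]))
      · convert h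
        exact Subtype.ext (funext fun x => e _ _ (by simp [cjA_subtype, mul_assoc]))
    intro g
    rw [← inv_mem_iff, key, inv_inv]
  have hHT : H ≤ T := fun x hx => (hT' x).2 fun θ hθ => by
    convert hθ
    exact Subtype.ext ((coe_ieq_cjA x θ).trans (H6.cj_of_mem θ.2.isClassFunction hx))
  obtain ⟨B, hB, h1, h2⟩ := (ne_incl hHT).exists_cover_defect_ge (p := p) hb (fr_invt hT' hHT)
  obtain ⟨ψ, hψ, h0⟩ := exists_height_zero (p := p) (block_nonempty hB)
  obtain ⟨θ, hθ, h3⟩ := h1 hψ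
  have hI := fr_inertia hb hT' hθ
  obtain ⟨h4, h5⟩ := H6.corr_irr θ.2 hI hHT ψ.2 h3
  obtain ⟨e, he⟩ := (h4.isCharacter.restrict H).exists_classInner_nat θ.2.isCharacter
  have h6 := H6.clifford_degree h4 θ.2 (h5 ▸ h3)
  have e0 : e ≠ 0 := fun e0 => h3 (h5.symm.trans (by rw [he, e0, Nat.cast_zero]))
  rw [he, indFun_apply_one, ← Subgroup.relIndex_mul_index hI, ← ψ.2.coe_charDegree,
    ← θ.2.coe_charDegree] at h6
  have h7 : charDegree (ψ : T → ℂ) =
      e * ((H6.inertia (θ : H → ℂ)).relIndex T * charDegree (θ : H → ℂ)) := by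
    refine Nat.eq_of_mul_eq_mul_left (Nat.pos_of_ne_zero (T.index_ne_zero_of_finite)) ?_
    rw [← Nat.cast_inj (R := ℂ)]
    push_cast at h6 ⊢
    rw [h6]; ring
  have i0 : (H6.inertia (θ : H → ℂ)).relIndex T ≠ 0 := Subgroup.index_ne_zero_of_finite
  have e1 := factorization_add_defect (p := p) (M := M) hψ
  have e2 := factorization_add_defect (p := p) (M := M) hθ
  have e3 := factorization_card_range (p := p) (ne_incl hHT).inj
  rw [h7, Nat.factorization_mul e0 (mul_ne_zero i0 θ.2.charDegree_pos.ne'),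
    Nat.factorization_mul i0 θ.2.charDegree_pos.ne', Finsupp.add_apply, Finsupp.add_apply] at e1
  refine ⟨θ, hθ, by omega, H6.inertia (θ : H → ℂ), hI, fun g => ⟨fun h => ⟨hI h, fun x x' e => ?_⟩,
    fun h => H6.mem_inertia'.2 fun x => h.2 _ _ rfl⟩, fun h => ?_⟩
  · rw [← H6.mem_inertia'.1 h x]
    exact congrArg _ (Subtype.ext e)
  · have := (Fact.out : p.Prime).factorization_pos_of_dvd i0 h
    omega

end Cfsg.Agent.S4723
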