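import Cfsg.Statements.S4724
import Cfsg.Agent.H9.Tt3
import Cfsg.Agent.H16.PrimeDeg2
import Cfsg.Agent.H10.BR4
import Cfsg.Agent.H10.PSL2Max
import Cfsg.Agent.S0252
import Cfsg.Agent.S0253

set_option autoImplicit false
open Cfsg

namespace Cfsg.Agent.S4724

open H5 H7 H10 H9.Tt Subgroup MulAction Finset in
theorem card_le_of_invol {G α : Type*} [Group G] [Fintype G] [MulAction G α] [FaithfulSMul G α]
    [Fintype α] (h3 : IsMultiplyPretransitive G α 3) {z : G} (hz : z * z = 1) (hz1 : z ≠ 1)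
    (hfix : ∀ a b : α, z • a = a → z • b = b → a = b) {m : ℕ} (hC : Nat.card 𝐂(z) ≤ m)
    (hm : m + 1 ≤ Fintype.card α) (h2 : 3 ≤ Fintype.card α) :
    Fintype.card α ≤ m + 1 ∧ Nat.card G ≤ (Fintype.card α).descFactorial 3 := by
  classical
  have tr : ∀ {a b c a' b' c' : α}, a ≠ b → a ≠ c → b ≠ c → a' ≠ b' → a' ≠ c' → b' ≠ c' →
      ∃ g : G, g • a = a' ∧ g • b = b' ∧ g • c = c' := by
    intro a b c a' b' c' h1 h2 h3 h4 h5 h6
    have inj : ∀ {a b c : α}, a ≠ b → a ≠ c → b ≠ c → Function.Injective ![a, b, c] := by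
      intro a b c h1 h2 h3 i j
      fin_cases i <;> fin_cases j <;> simp [h1, h2, h3, h1.symm, h2.symm, h3.symm]
    obtain ⟨g, hg⟩ := exists_smul_eq G (⟨_, inj h1 h2 h3⟩ : Fin 3 ↪ α) ⟨_, inj h4 h5 h6⟩
    exact ⟨g, DFunLike.congr_fun hg 0, DFunLike.congr_fun hg 1, DFunLike.congr_fun hg 2⟩
  have third : ∀ a b : α, ∃ c, a ≠ c ∧ b ≠ c := fun a b => by
    obtain ⟨c, -, hc⟩ := exists_mem_notMem_of_card_lt_card (s := {a, b}) (t := univ)
      (card_le_two.trans_lt h2)
    exact ⟨c, fun e => hc (by simp [e]), fun e => hc (by simp [e])⟩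
  obtain ⟨b, hb⟩ : ∃ b : α, z • b ≠ b := by
    by_contra! h; exact hz1 (eq_of_smul_eq_smul (α := α) (by simpa using h))
  have zz : ∀ a : α, z • z • a = a := fun a => by rw [← mul_smul, hz, one_smul]
  obtain ⟨d, hd1, hd2⟩ := third b (z • b)
  let T : α → α → Finset G := fun u v => univ.filter fun g => g • u = b ∧ g • v = z • b
  have hT : ∀ u v, u ≠ v → #(T u v) = #(T b (z • b)) := fun u v h => by
    obtain ⟨w, h1, h2⟩ := third u v
    obtain ⟨g, g1, g2, -⟩ := tr h h1 h2 hb.symm hd1 hd2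
    refine card_bij' (fun k _ => k * g⁻¹) (fun k _ => k * g) (fun k hk => ?_) (fun k hk => ?_)
      (by simp) (by simp)
    · have := (mem_filter.1 hk).2
      simp only [T, mem_filter, mem_univ, true_and, mul_smul]
      rw [inv_smul_eq_iff.2 g1.symm, inv_smul_eq_iff.2 g2.symm]; exact this
    · simpa [T, mul_smul, g1, g2] using hk
  let A : Finset G := univ.filter fun g => g • z • g⁻¹ • b = z • b
  have a1 : (Fintype.card α - 1) * #(T b (z • b)) ≤ #A := by
    have h1 : Fintype.card α - 1 ≤ #(univ.filter fun u : α => z • u ≠ u) := by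
      have := card_filter_add_card_filter_not (s := univ) (fun u : α => z • u = u)
      have h2 : #(univ.filter fun u : α => z • u = u) ≤ 1 :=
        card_le_one.2 fun a ha b hb => hfix a b (mem_filter.1 ha).2 (mem_filter.1 hb).2
      rw [card_univ] at this
      simp only [ne_eq]; omega
    refine (Nat.mul_le_mul_right _ h1).trans ?_
    rw [← smul_eq_mul, ← sum_const, sum_congr rfl fun u hu => (hT u _ (mem_filter.1 hu).2.symm).symm,
      ← card_biUnion fun u _ v _ h => disjoint_left.2 fun g g1 g2 => h (MulAction.injective g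
        ((mem_filter.1 g1).2.1.trans (mem_filter.1 g2).2.1.symm))]
    refine card_le_card (biUnion_subset.2 fun u _ g hg => ?_)
    obtain ⟨-, g1, g2⟩ := mem_filter.1 hg
    exact mem_filter.2 ⟨mem_univ _, by rw [inv_smul_eq_iff.2 g1.symm, g2]⟩
  have a2 : #A ≤ m * #(A.image fun g => g * z * g⁻¹) := card_le_mul_card_image _ _ fun s hs => by
    obtain ⟨g, -, rfl⟩ := mem_image.1 hs
    refine le_trans ?_ hC
    rw [Nat.card_eq_fintype_card, Fintype.card_subtype]
    refine card_le_card_of_injOn (fun k => g⁻¹ * k) (fun k hk => ?_) (mul_right_injective _).injOn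
    have := (mem_filter.1 (mem_coe.1 hk)).2
    simp only [coe_filter, mem_univ, true_and, Set.mem_setOf_eq, mem_C]
    calc g⁻¹ * k * z = g⁻¹ * (k * z * k⁻¹) * k := by group
      _ = _ := by rw [this]; group
  have sq : ∀ g : G, g * z * g⁻¹ * (g * z * g⁻¹) = 1 := fun g => by
    calc _ = g * (z * z) * g⁻¹ := by group
      _ = 1 := by rw [hz]; group
  have a3 : (A.image fun g => g * z * g⁻¹) ⊆ T (z • b) b := fun s hs => by
    obtain ⟨g, hg, rfl⟩ := mem_image.1 hs
    have h1 : (g * z * g⁻¹) • b = z • b := by simpa [mul_smul] using (mem_filter.1 hg).2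
    exact mem_filter.2 ⟨mem_univ _, by rw [← h1, ← mul_smul, sq, one_smul], h1⟩
  have a4 := card_le_card a3
  have a5 := hT _ _ hb
  have a6 : 0 < #(T b (z • b)) := card_pos.2 ⟨1, by simp [T]⟩
  have a7 : Fintype.card α - 1 ≤ m := by nlinarith
  have a8 : #(T (z • b) b) ≤ #(A.image fun g => g * z * g⁻¹) := by
    rw [show Fintype.card α - 1 = m by omega] at a1
    rw [a5]; exact Nat.le_of_mul_le_mul_left (a1.trans a2) (by omega)
  have inv : ∀ k : G, k • b = b → k • z • b = z • b → z * k * z = k⁻¹ := fun k k1 k2 => by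
    have : z * k ∈ T (z • b) b := by simp [T, mul_smul, k1, k2, zz]
    rw [← eq_of_subset_of_card_le a3 a8] at this
    obtain ⟨g, -, hg⟩ := mem_image.1 this
    have h1 := sq g
    rw [hg, ← mul_assoc] at h1
    exact eq_inv_of_mul_eq_one_left h1
  have triv : ∀ k : G, k • b = b → k • z • b = z • b → k • d = d → k = 1 := fun k k1 k2 k3 => by
    refine eq_of_smul_eq_smul (α := α) fun a => ?_
    rw [one_smul]
    by_cases h1 : b = a
    · rwa [← h1]
    by_cases h2 : z • b = a
    · rwa [← h2]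
    obtain ⟨g, g1, g2, rfl⟩ := tr hb.symm hd1 hd2 hb.symm h1 h2
    have h3 := inv (k * g) (by rw [mul_smul, g1, k1]) (by rw [mul_smul, g2, k2])
    have h4 : k * g = g * k := by
      rw [show z * (k * g) * z = z * k * z * (z * g * z) by
        rw [show z * k * z * (z * g * z) = z * k * (z * z) * g * z by group, hz]; group,
        inv k k1 k2, inv g g1 g2, ← mul_inv_rev, inv_inj] at h3
      exact h3.symm
    rw [← mul_smul, h4, mul_smul, k3]
  refine ⟨by omega, ?_⟩
  have inj : Function.Injective ![b, z • b, d] := by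
    intro i j
    fin_cases i <;> fin_cases j <;> simp [hb, hd1, hd2, hb.symm, hd1.symm, hd2.symm]
  have := Fintype.card_le_of_injective (fun g : G => g • (⟨_, inj⟩ : Fin 3 ↪ α)) fun g h e => by
    have e' := inv_smul_eq_iff.2 e.symm
    rw [← mul_smul] at e'
    exact (inv_mul_eq_one.1 (triv _ (DFunLike.congr_fun e' 0) (DFunLike.congr_fun e' 1)
      (DFunLike.congr_fun e' 2)))
  rwa [Fintype.card_embedding_eq, Fintype.card_fin, ← Nat.card_eq_fintype_card] at this

open H5 H7 H10 H9.Tt Subgroup MulAction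

/-- Let G be a transitive permutation group of prime degree p having exactly one irreducible character of degree p. Let P be a Sylow p-subgroup and suppose N_G(P) = P·E for a subgroup E with P ∩ E = 1, such that the normalizer of E has order 2·#E and E meets each of its conjugates by elements outside its normalizer trivially. Then p is 5, 7 or 11 and G is isomorphic to PSL(2, p). -/
theorem result {α : Type*} [Fintype α] [DecidableEq α] {p : ℕ} [Fact p.Prime] (hα : Fintype.card α = p) (G : Subgroup (Equiv.Perm α)) [MulAction.IsPretransitive G α] (huniq : ∃! χ : Cfsg.IrrCharacter G, Cfsg.charDegree (χ : G → ℂ) = p) (P : Sylow p G) (E : Subgroup G) (hPE : (P : Subgroup G) ⊔ E = Subgroup.normalizer ((P : Subgroup G) : Set G)) (hPE' : (P : Subgroup G) ⊓ E = ⊥) (hNE : Nat.card (Subgroup.normalizer (E : Set G)) = 2 * Nat.card E) (hTI : ∀ g : G, g ∉ Subgroup.normalizer (E : Set G) → E ⊓ E.map (MulAut.conj g).toMonoidHom = ⊥) : (p = 5 ∨ p = 7 ∨ p = 11) ∧ ∃ (F : Type) (_ : Field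 F) (_ : Fintype F), Fintype.card F = p ∧ Nonempty (G ≃* Matrix.ProjectiveSpecialLinearGroup (Fin 2) F) := by
  classical
  haveI := Fintype.ofFinite G
  have hp : p.Prime := Fact.out
  have hα' : Nat.card α = p := by rw [Nat.card_eq_fintype_card, hα]
  obtain ⟨hP, -, hC, -⟩ := H16.prime_degree_sylow hα' P
  have S : SC P := ⟨hP, hC⟩
  have hO : pPrimeCore p G = ⊥ := pPrimeCore_eq_bot_of_prime_degree hα
    (S.hP.symm.dvd.trans (card_subgroup_dvd_card _))
  have hE : ∀ y ∈ E, y ∈ (P : Subgroup G) → y = 1 := fun y h1 h2 =>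
    mem_bot.1 (hPE' ▸ mem_inf.2 ⟨h2, h1⟩)
  have hEN : E ≤ 𝐍[(P : Subgroup G)] := hPE ▸ le_sup_right
  have hN : ∀ g, g ∈ 𝐍[(P : Subgroup G)] ↔ ∃ y ∈ E, y⁻¹ * g ∈ (P : Subgroup G) := fun g => by
    refine ⟨fun h => ?_, fun ⟨y, h1, h2⟩ => by
      simpa using mul_mem (hEN h1) (le_normalizer h2)⟩
    rw [← hPE, sup_comm, ← SetLike.mem_coe, coe_mul_of_left_le_normalizer_right _ _ hEN] at h
    obtain ⟨y, h1, x, h2, rfl⟩ := h
    exact ⟨y, h1, by rw [inv_mul_cancel_left]; exact h2⟩
  have he : 𝐂[(P : Subgroup G)].relIndex 𝐍[(P : Subgroup G)] = Nat.card E := by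
    refine (Nat.card_congr (Equiv.ofBijective (fun y : E => ((⟨y, hEN y.2⟩ : 𝐍[(P : Subgroup G)]) :
      _ ⧸ 𝐂[(P : Subgroup G)].subgroupOf 𝐍[(P : Subgroup G)])) ⟨fun a b h => ?_, fun c => ?_⟩)).symm
    · have h1 := QuotientGroup.eq.1 h
      have := hE _ (a⁻¹ * b).2 (S.hC.le h1)
      exact Subtype.ext (inv_mul_eq_one.1 this)
    · obtain ⟨g, rfl⟩ := QuotientGroup.mk_surjective c
      obtain ⟨y, h1, h2⟩ := (hN g).1 g.2
      exact ⟨⟨y, h1⟩, QuotientGroup.eq.2 (S.hC.ge h2)⟩
  obtain ⟨κ, hκ⟩ : ∃ κ : E →* (ZMod p)ˣ, Function.Injective κ := by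
    have : ∀ (Q : Subgroup G) (n : ℕ), Nat.card Q = n → IsCyclic Q →
        Nonempty (MulAut Q ≃* (ZMod n)ˣ) := by
      rintro Q _ rfl _; exact ⟨IsCyclic.mulAutMulEquiv Q⟩
    obtain ⟨f⟩ := this P p S.hP (isCyclic_of_prime_card S.hP)
    refine ⟨f.toMonoidHom.comp ((P : Subgroup G).normalizerMonoidHom.comp (inclusion hEN)),
      f.injective.comp ((injective_iff_map_eq_one _).2 fun y hy => Subtype.ext (hE _ y.2 ?_))⟩
    have : inclusion hEN y ∈ (P : Subgroup G).normalizerMonoidHom.ker := hy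
    rw [normalizerMonoidHom_ker] at this
    exact S.hC.le this
  haveI : IsCyclic E := isCyclic_of_injective κ hκ
  have ti : ∀ g, ∀ y ∈ E, y ≠ 1 → g * y * g⁻¹ ∈ E → g ∈ 𝐍[E] := fun g y h1 h2 h3 =>
    by_contra fun h4 => h2 (by
      have : g * y * g⁻¹ ∈ E ⊓ E.map (MulAut.conj g).toMonoidHom := ⟨h3, y, h1, rfl⟩
      rw [hTI g h4] at this
      simpa using this)
  have hsq : p ^ 2 ≤ Nat.card G := by
    obtain ⟨ψ, hψ, -⟩ := huniq
    have h := sum_sq_degrees (G := G)
    rw [Finset.sum_congr rfl (g := fun χ : IrrCharacter G => (charDegree (χ : G → ℂ) : ℂ) ^ 2)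
      fun χ _ => by rw [χ.2.coe_charDegree]] at h
    have h' : ∑ χ : IrrCharacter G, charDegree (χ : G → ℂ) ^ 2 = Nat.card G := by exact_mod_cast h
    rw [← h', ← hψ]
    exact Finset.single_le_sum (f := fun χ : IrrCharacter G => charDegree (χ : G → ℂ) ^ 2)
      (fun _ _ => Nat.zero_le _) (Finset.mem_univ ψ)
  have hE1 : E ≠ ⊥ := by
    rintro rfl
    rw [normalizer_eq_top, card_top, card_bot] at hNE
    nlinarith [hp.two_le]
  have hG := perfect_of_uniq S hEN hE hO hE1 hPE huniq
  have hp2 := ne_two_of_perfect hG S.hP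
  have h1n := one_lt_card_sylow_of_perfect hG P S.hP
  obtain ⟨D⟩ := exists_PB hp2 P S.hP he (by rwa [Ne, card_eq_one])
  generalize (p - 1) / Nat.card E = t at D
  obtain ⟨n, hn⟩ := exists_card_sylow_eq p G
  have hn1 : n ≤ 1 := by
    rcases Nat.even_or_odd (Nat.card E) with h | h
    swap
    · have := card_sylow_le_of_odd S hO hE1 (fun h => by
        haveI := Sylow.unique_of_normal P h
        rw [Nat.card_unique] at h1n; omega) hN hE κ hκ h (dih_of_odd hG (fun a ha b hb =>
          congrArg Subtype.val (mul_comm' (⟨a, ha⟩ : E) ⟨b, hb⟩)) hNE ti h) D huniq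
      nlinarith [hp.pos]
    obtain ⟨a⟩ : Nonempty α := Fintype.card_pos_iff.1 (hα ▸ hp.pos)
    have ht : t ≠ 1 := by
      rintro rfl
      refine D.not_deg_sub_one hG S h odd_one ((isCharacter_fixedBy (G := G) α).sub_irr
        isIrrCharacter_one ?_) (by simp [hα]) fun x hx hx1 => ?_
      · haveI := Fintype.ofFinite (stabilizer G a)
        rw [fixedBy_eq_indFun_one α a, frobenius_reciprocity _ _ (isClassFunction_const 1),
          isIrrCharacter_one.classInner_self]
        exact one_ne_zero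
      · have : fixedBy α x = ∅ := Set.eq_empty_of_forall_notMem
          (exists_zpow_smul_of_prime hα (orderOf_of_mem_card_prime S.hP hx hx1)).1
        rw [Pi.sub_apply, this]; simp
    have hte := D.te
    have ht0 := D.t_pos
    have hev : Even (Nat.card 𝐍[(P : Subgroup G)]) := S.card_N he P ▸ h.mul_left p
    haveI : Nontrivial G := Finite.one_lt_card_iff_nontrivial.1 (by nlinarith [hp.two_le])
    have h3 := H16.three_transitive_of_even hα G
      (fun h => (Group.IsSolvable.commutator_lt_top_of_nontrivial G).ne hG) P hev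
    obtain ⟨⟨z, hz⟩, hz2⟩ := exists_prime_orderOf_dvd_card' (hp := ⟨Nat.prime_two⟩) 2 h.two_dvd
    rw [orderOf_mk] at hz2
    have hz1 : z ≠ 1 := by rintro rfl; simp at hz2
    obtain ⟨-, -, c, -, -, -, -, -, hc⟩ := H16.exists_dihedral_coord hα' hp2 P hev
    obtain ⟨k, b, hk⟩ := hc z (hEN hz)
    obtain ⟨h4, h5⟩ := card_le_of_invol h3 (z := z) (by rw [← sq, ← hz2, pow_orderOf_eq_one]) hz1
      (fun u v hu hv => by_contra fun huv => hz1 (eq_of_smul_eq_smul (α := α) fun w => by
        have e1 := hk u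
        have e2 := hk v
        rw [hu] at e1
        rw [hv] at e2
        have e3 : k = 1 := mul_right_cancel₀ (sub_ne_zero.2 (c.injective.ne huv))
          (by linear_combination e2 - e1)
        exact c.injective (by rw [hk, one_smul]; rw [e3] at e1 ⊢; linear_combination -e1)))
      (m := 2 * Nat.card E) (hNE ▸ card_le_of_le fun g hg => ti g z hz hz1 (by
        rw [mem_C.1 hg, mul_inv_cancel_right]; exact hz))
      (by rw [hα]; nlinarith [show 2 ≤ t by omega]) (by have := hp.two_le; omega)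
    rw [S.card_G he, hn, hα] at h5
    rw [hα] at h4
    obtain ⟨q, rfl⟩ : ∃ q, p = q + 2 := ⟨p - 2, by have := hp.two_le; omega⟩
    simp only [Nat.descFactorial_succ, Nat.descFactorial_zero, Nat.add_sub_cancel, Nat.sub_zero,
      mul_one, show q + 2 - 1 = q + 1 from rfl] at h5
    by_contra h6
    have h7 : (1 + 2 * (q + 2)) * (Nat.card E * (q + 2)) ≤ q * (2 * Nat.card E * (q + 2)) :=
      ((Nat.mul_le_mul_right _ (by nlinarith)).trans h5).trans (by gcongr; omega)
    nlinarith [Nat.mul_pos (Nat.card_pos (α := E)) hp.pos]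
  obtain ⟨h3, ⟨-, -, ⟨f⟩⟩ | ⟨h4, -, m, F, _, _, h5, h6, ⟨f⟩⟩⟩ :=
    br_core hG hO P S.hP hn (nonRep_of_lt (by omega))
  · refine ⟨?_, ZMod p, inferInstance, inferInstance, ZMod.card p, ⟨f⟩⟩
    by_contra! h
    obtain ⟨a⟩ : Nonempty α := Fintype.card_pos_iff.1 (hα ▸ hp.pos)
    have h4 : ((stabilizer G a).map f.toMonoidHom).index = p := by
      exact (index_map_equiv _ f).trans ((index_stabilizer_of_transitive G a).trans hα')
    have := le_index_of_ne_top (H := (stabilizer G a).map f.toMonoidHom)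
      (fun e => by rw [e, index_top] at h4; omega) (by rw [ZMod.card]; omega)
      (by rw [ZMod.card]; omega) (by rw [ZMod.card]; omega) (by rw [ZMod.card]; omega)
      (by rw [ZMod.card]; rintro rfl; norm_num at hp) (by rw [ZMod.card]; omega)
    rw [ZMod.card, h4] at this
    omega
  · obtain rfl : p = 5 := by omega
    have h7 : Fintype.card F = 4 := by omega
    obtain ⟨f1⟩ := PSL_equiv_PGL_of_even (F := F) (by rw [h7]; decide)
    obtain ⟨f2⟩ := Cfsg.Agent.S0252.result h7
    obtain ⟨f3⟩ := Cfsg.Agent.S0253.result (ZMod.card 5)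
    exact ⟨Or.inl rfl, ZMod 5, inferInstance, inferInstance, ZMod.card 5,
      ⟨f.trans (f1.symm.trans (f2.trans f3.symm))⟩⟩

end Cfsg.Agent.S4724
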