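import Cfsg.Statements.S4725
import Cfsg.Agent.H7.Misc2

set_option autoImplicit false
open Cfsg

namespace Cfsg.Agent.S4725

open H5 H7

/-- Let p be a prime, M a maximal ideal of the algebraic integers containing p, H a subgroup of the finite group G, and b a p-block of H inducing the p-block B of G, with b and B of the same defect. Then for every height-zero ζ ∈ b there is a height-zero χ ∈ B whose multiplicity in the character induced from ζ is not divisible by p. -/
theorem result {G : Type*} [Group G] [Fintype G] (p : ℕ) [Fact p.Prime] (M : Ideal Cfsg.AlgInt) (hM : Cfsg.IsPModular p M) (H : Subgroup G) (b : Set (Cfsg.IrrCharacter ↥H)) (B : Set (Cfsg.IrrCharacter G)) (hind : Cfsg.IsInducedBlock M H b B) (hdef : Cfsg.blockDefect p b = Cfsg.blockDefect p B) (ζ : Cfsg.IrrCharacter ↥H) (hζ : ζ ∈ b) (hζ0 : Cfsg.blockHeight p b (ζ : ↥H → ℂ) = 0) : ∃ χ ∈ B, Cfsg.blockHeight p B (χ : G → ℂ) = 0 ∧ ∃ a : ℕ, Cfsg.classInner (Cfsg.indFun H (ζ : ↥H → ℂ)) (χ : G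 → ℂ) = (a : ℂ) ∧ ¬ p ∣ a := by
  haveI : PM p M := ⟨hM⟩
  have := Fintype.ofFinite H
  have h := isInducedBlock_iff_indB.1 hind
  obtain ⟨ψ, hψ, h0⟩ := exists_height_zero (p := p) (block_nonempty h.2.1)
  refine exists_of_lam_zr_ne_zero h.2.1 hψ ζ.2.isCharacter.indFun ?_
  have h1 := lam_zr_ne_zero_of_height h.2.1 hψ hψ h0
  have hψH := ψ.2.isCharacter.comp H.subtype
  rw [← (h.2.2 ζ hζ ψ hψ).lam_zr H.subtype_injective ψ.2.isClassFunction, lam_zr ζ.2 hψH] at h1
  have h2 : om (ψ : G → ℂ) (zr p (indFun H (ζ : H → ℂ))) =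
      ((H.index * charDegree (ζ : H → ℂ) : ℕ) : ℂ) / charDegree (ψ : G → ℂ) *
        om (ζ : H → ℂ) (zr p fun x => (ψ : G → ℂ) (H.subtype x)) := by
    rw [om_apply, ev_zr_comm ζ.2.isCharacter.indFun ψ.2.isCharacter,
      ev_indFun _ _ (zr_mem_Z ψ.2.isClassFunction), res_zr H.subtype_injective,
      ev_eq_om ζ.2.apply_one_ne_zero, Nat.cast_mul, ζ.2.coe_charDegree, ψ.2.coe_charDegree]
    ring
  have h3 : red M (((H.index * charDegree (ζ : H → ℂ) : ℕ) : ℂ) / charDegree (ψ : G → ℂ)) ≠ 0 := by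
    rw [red_natCast_div_ne_zero_iff (mul_ne_zero Subgroup.index_ne_zero_of_finite
      ζ.2.charDegree_pos.ne') ψ.2.charDegree_pos.ne', Nat.factorization_mul
      Subgroup.index_ne_zero_of_finite ζ.2.charDegree_pos.ne', Finsupp.add_apply]
    have e1 := factorization_add_defect (p := p) (M := M) hζ
    have e2 := factorization_add_defect (p := p) (M := M) hψ
    have e3 := factorization_index_add (p := p) H
    omega
  rw [lam_zr ψ.2 ζ.2.isCharacter.indFun, h2, red_mul (mem_O_of_red_ne_zero h3) (om_zr_mem_O ζ.2 hψH)]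
  exact mul_ne_zero h3 h1

end Cfsg.Agent.S4725
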