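import Cfsg.Statements.S4726
import Cfsg.Agent.H7.Misc2
import Cfsg.Agent.H8.Pairs4

set_option autoImplicit false
open Cfsg

namespace Cfsg.Agent.S4726

open H5 H7

/-- Let p be a prime, M a maximal ideal of the algebraic integers containing p, H a subgroup of the finite group G and b a p-block of H with defect group D₀ such that C_G(D₀) ≤ H. Then b induces a block of G, and for every block B of G induced by b there is a defect group D of B with Z(D) ≤ Z(D₀) ≤ D₀ ≤ D (as subgroups of G). In particular, if the defect groups of B are abelian then D₀ is a defect group of B. -/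
theorem result {G : Type*} [Group G] [Finite G] (p : ℕ) [Fact p.Prime] (M : Ideal Cfsg.AlgInt) (hM : Cfsg.IsPModular p M) (H : Subgroup G) (b : Set (Cfsg.IrrCharacter ↥H)) (hb : Cfsg.IsPBlock M b) (D₀ : Subgroup ↥H) (hD₀ : Cfsg.IsDefectGroup p M b D₀) (hC : Subgroup.centralizer ((D₀.map H.subtype : Subgroup G) : Set G) ≤ H) : Cfsg.InducedBlockDefined M H b ∧ ∀ B : Set (Cfsg.IrrCharacter G), Cfsg.IsInducedBlock M H b B → (∃ D : Subgroup G, Cfsg.IsDefectGroup p M B D ∧ (Subgroup.center ↥D).map D.subtype ≤ ((Subgroup.center ↥D₀).map D₀.subtype).map H.subtype ∧ ((Subgroup.center ↥D₀).map D₀.subtype).map H.subtype ≤ D₀.map H.subtype ∧ D₀.map H.subtype ≤ D) ∧ (∀ D : Subgroup G, Cfsg.IsDefectGroup p M B D → IsMulCommutative ↥D → Cfsg.IsDefectGroup p M B (D₀.map H.subtype)) := by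
  haveI : PM p M := ⟨hM⟩
  set Q := D₀.map H.subtype with hQ
  have hD := IsDefectGroup.isPGroup hD₀
  have L := locSet_normalizer hD
  set φ := (Subgroup.normalizer (D₀ : Set H)).subtype
  obtain ⟨c, hc, -⟩ := first_main_exists L hb hD₀
  have hr : (H.subtype.comp φ).range = H ⊓ Subgroup.normalizer (Q : Set G) := by
    ext x
    refine ⟨?_, fun h => ⟨⟨⟨x, h.1⟩, (H8.mem_nN_map _ H.subtype_injective).1 h.2⟩, rfl⟩⟩
    rintro ⟨y, rfl⟩
    exact ⟨y.1.2, (H8.mem_nN_map _ H.subtype_injective).2 y.2⟩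
  have hQH : Q ≤ H := Subgroup.map_subtype_le _
  have L' : LocSet p (H.subtype.comp φ) Q := ⟨H.subtype_injective.comp L.inj, hD.map _,
    hr ▸ le_inf hQH Subgroup.le_normalizer, hr ▸ le_inf hC (H8.cC_le_nN Q), hr ▸ inf_le_right⟩
  obtain ⟨B', hB'⟩ := L'.exists_indB hc.1
  have hi := hc.of_comp hB'
  refine ⟨⟨B', isInducedBlock_iff_indB.2 hi⟩, fun B hB => ?_⟩
  obtain rfl := hi.unique (isInducedBlock_iff_indB.1 hB)
  have h1 := (H8.indB_iff_Br L' hc.1 hi.2.1).1 hB'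
  have h2 := congrArg (H8.mp H.subtype) ((H8.indB_iff_Br L hc.1 hb).1 hc)
  rw [map_mul, H8.mp_Br H.subtype_injective, H8.mp_mp] at h2
  set j := H8.mp (H.subtype.comp φ) (fB M c)
  have hj : j ∈ H8.ZI (F M) (⊤ ⊓ H8.cC Q) (⊤ ⊓ H8.cC Q) := by
    have h3 := (H8.mp_mem_ZI L'.inj).2 (H8.fB_mem_ZI (M := M) c)
    rw [← MonoidHom.range_eq_map] at h3
    have h4 := H8.Br_eq_self_of_normal h3 ((H8.mp_idem L'.inj).2 (fB_idem hc.1)) L'.pgrp L'.le L'.norm
    rw [top_inf_eq]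
    exact ⟨(congrArg (· ∈ _) h4).mp (H8.Br_mem_Sp_cC _ _), Inv_anti L'.cent h3.2⟩
  obtain ⟨e, he, h3⟩ := H8.exists_prim_le (H8.comm_blk _) hj ((H8.mp_idem L'.inj).2 (fB_idem hc.1))
    ((H8.mp_ne_zero L'.inj).2 (fB_ne_zero hc.1))
  have hp : H8.Pair p ⊤ Q e := ⟨L'.pgrp, he⟩
  obtain ⟨D, e', h4, h5, h6⟩ := H8.BP.exists_le_def H8.tw_tt (H8.blk_fB_of_isPBlock hi.2.1)
    ⟨le_top, hp, by rw [← h3, ← mul_assoc, h1]⟩
  have h7 : D ⊓ (Q ⊔ H8.cC Q) = Q := by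
    have k1 : D ⊓ (Q ⊔ H8.cC Q) ≤ H := inf_le_right.trans (sup_le hQH hC)
    have k2 : IsPGroup p (D ⊓ (Q ⊔ H8.cC Q) : Subgroup G) := h4.pg.to_le inf_le_left
    have k3 : Q ≤ D ⊓ (Q ⊔ H8.cC Q) := le_inf h6.le le_sup_left
    have k4 := H8.Br_ne_zero_of_le (inf_le_inf_left D (sup_centralizer_le_normalizer Q))
      (h6.Br_ne_zero h5.pair (H8.le_nN_top _))
    refine ((H8.def_io hb).1 hD₀).eq_of_le k3 k1 k2 fun h0 => k4 ?_
    have k5 : Br Q (H8.io M H b) * e = e := by rw [← h3, ← mul_assoc]; exact congrArg (· * e) h2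
    rw [← k5, H8.Br_mul' k2 (Br_mem_Inv (inf_le_right.trans (sup_centralizer_le_normalizer Q))
      (Inv_anti k1 (H8.io_mem_ZI b).2)) (H8.mem_Inv_iff_le.2 (inf_le_right.trans
        (sup_le hp.le_St' (by simpa using hp.le_St)))), H8.Br_Br_of_le k3, h0, zero_mul]
  have h8 := (H8.def_fB hi.2.1).2 h4
  refine ⟨⟨D, h8, ?_, Subgroup.map_mono (Subgroup.map_subtype_le _), h6.le⟩, fun E hE hc => ?_⟩
  · rintro _ ⟨z, hz, rfl⟩
    have k1 : (z : G) ∈ H8.cC Q := fun x hx =>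
      congrArg Subtype.val (Subgroup.mem_center_iff.1 hz ⟨x, h6.le hx⟩)
    obtain ⟨y, hy, e⟩ := h7.le ⟨z.2, Subgroup.mem_sup_right k1⟩
    exact ⟨y, ⟨⟨y, hy⟩, Subgroup.mem_center_iff.2 fun w => Subtype.ext (Subtype.ext (by
      simpa [← e] using k1 w ⟨w, w.2, rfl⟩)), rfl⟩, e⟩
  · obtain ⟨x, rfl⟩ := IsDefectGroup.exists_cj_eq hi.2.1 hE h8
    have k1 : cj x E ≤ Q ⊔ H8.cC Q := le_sup_of_le_right fun a ha b hb => by
      have := congrArg Subtype.val (hc.is_comm.comm ⟨_, mem_cj.1 (h6.le hb)⟩ ⟨_, mem_cj.1 ha⟩)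
      simp [mul_assoc] at this
      simpa [← mul_assoc] using this
    rw [inf_eq_left.2 k1] at h7
    exact h7 ▸ h8

end Cfsg.Agent.S4726
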