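import Cfsg.Statements.S4727
import Cfsg.Agent.H8.Ker

set_option autoImplicit false
open Cfsg

namespace Cfsg.Agent.S4727

open H5 H7 H8

/-- Let p be a prime, π a set of primes containing p, M a maximal ideal of the algebraic integers containing p, and B a p-block of the finite group G with defect group D; let B₁ be the block of N_G(D) with defect group D that induces B (the Brauer correspondent of B). Suppose every element of O_π'(N_G(D)), the largest normal subgroup of N_G(D) whose order has no prime divisor in π, lies in the kernel of every member of B₁. If y is a p-element whose centralizer C has a normal Hall π'-subgroup (every element of C whose order has no prime divisor in π lies in O_π'(C)), then χ(y x) = χ(y) for every χ ∈ B and every x ∈ C whose order has no prime divisor in π. -/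
theorem result {G : Type*} [Group G] [Finite G] (p : ℕ) [Fact p.Prime] (M : Ideal Cfsg.AlgInt) (hM : Cfsg.IsPModular p M) (π : Set ℕ) (hpπ : p ∈ π) (B : Set (Cfsg.IrrCharacter G)) (hB : Cfsg.IsPBlock M B) (D : Subgroup G) (hBD : Cfsg.IsDefectGroup p M B D) (B₁ : Set (Cfsg.IrrCharacter ↥(Subgroup.normalizer (D : Set G)))) (hB₁ : Cfsg.IsInducedBlock M (Subgroup.normalizer (D : Set G)) B₁ B) (hB₁D : Cfsg.IsDefectGroup p M B₁ (D.subgroupOf (Subgroup.normalizer (D : Set G)))) (hker : ∀ n : ↥(Subgroup.normalizer (D : Set G)), n ∈ Cfsg.piCore {q | q ∉ π} ↥(Subgroup.normalizer (D : Set G)) → n ∈ Cfsg.blockKer B₁) (y : G) (hy : ∃ k : ℕ, orderOf y = p ^ k) (hC : ∀ x : ↥(Subgroup.centralizer ({y} : Set G)), (∀ q : ℕ, q.Prime → q ∣ orderOf x → q ∉ π) → x ∈ Cfsg.piCore {q | q ∉ π} ↥(Subgroup.centralizer ({y} : Set G))) : ∀ χ ∈ B, ∀ x : G, x ∈ Subgroup.centralizer ({y} : Set G) → (∀ q : ℕ, q.Prime → q ∣ orderOf x → q ∉ π) → (χ : G → ℂ) (y * x) = (χ : G → ℂ) y := by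
  haveI : PM p M := ⟨hM⟩
  have hQ := H1.divClosed_pi {q | q ∉ π}
  have hp' : ∀ n : ℕ, (∀ q : ℕ, q.Prime → q ∣ n → q ∈ {q | q ∉ π}) → ¬ p ∣ n :=
    fun n h e => h p Fact.out e hpπ
  have h0 := io_eq_Br hB hBD hB₁ ▸ (kr_io_iff hB₁.1 (hp' _ (H1.qCore_prop hQ))).2 hker
  intro χ hχ x hx hπ
  have hy' : y ∈ c1 y := Subgroup.mem_centralizer_singleton_iff.2 rfl
  have hc : Commute y x := (Subgroup.mem_centralizer_singleton_iff.1 hx).symm
  have h1 := eq_blockPart_indSet (p := p) (φ := (c1 y).subtype) Subtype.val_injective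
    (isSat_of_isPBlock hB) (h := ⟨y, hy'⟩ * ⟨x, hx⟩) (by
      rw [Subgroup.range_subtype]; exact (congrArg c1 (pp_mul_of hy (hp' _ hπ) hc)).le) hχ
  have h2 := eq_blockPart_indSet (p := p) (φ := (c1 y).subtype) Subtype.val_injective
    (isSat_of_isPBlock hB) (h := ⟨y, hy'⟩) (by
      rw [Subgroup.range_subtype]; exact (congrArg c1 (pp_of_isPE hy)).le) hχ
  refine h1.trans (Eq.trans (finsum_mem_congr rfl fun ξ hξ => ?_) h2.symm)
  have L := locSet_centralizer (p := p) hy
  have hb := isPBlock_blockOf (M := M) ξ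
  obtain ⟨P, hP⟩ := exists_def p (Tw.refl _) (blk_io' hb)
  have h3 : Subgroup.zpowers y ≤ P := hP.le_of_normal (Subgroup.zpowers_le.2 hy') L.pgrp (by
    rw [Br_eq_self_of_normal (io_mem_ZI _) (io_idem (isSat_of_isPBlock hb)) L.pgrp
      (Subgroup.zpowers_le.2 hy') (by simpa using L.norm)]
    exact (blk_io' hb).ne) (by simpa using L.norm)
  have h4 := kr_of_indB hQ hp' hBD h0 ((L.mem_indSet_iff hB).1 hξ) hP
    ((cC_anti h3).trans (centralizer_zpowers y).le) ⟨x, hx⟩ (hC _ (by simpa using hπ)) ξ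
    (mem_blockOf_self ξ)
  rw [ξ.2.isCharacter.apply_mul_comm, mem_charKer_def.1 (ξ.2.mem_charKer.2 h4)]

end Cfsg.Agent.S4727
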