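import Cfsg.Statements.S4728
import Cfsg.Agent.H8.Ker

set_option autoImplicit false
open Cfsg

namespace Cfsg.Agent.S4728

open H5 H7 H8

/-- Let p be a prime, π a set of primes containing p, M a maximal ideal of the algebraic integers containing p, B a p-block of the finite group G with defect group D, and B₁ the block of N_G(D) with defect group D inducing B. Let D₀ be a p-subgroup, H₀ = D₀·C_G(D₀), and b a block of H₀ inducing B. Write O_π'(X) for the largest normal subgroup of X whose order has no prime divisor in π. Suppose that O_π'(C_G(D₀)) is a normal Hall π'-subgroup of C_G(D₀) (it contains every element of C_G(D₀) whose order has no prime divisor in π) and that every element of it lies in the kernel of every member of b. Then every element of O_π'(N_G(D)) lies in the kernel of every member of B₁. -/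
theorem result {G : Type*} [Group G] [Finite G] (p : ℕ) [Fact p.Prime] (M : Ideal Cfsg.AlgInt) (hM : Cfsg.IsPModular p M) (π : Set ℕ) (hpπ : p ∈ π) (B : Set (Cfsg.IrrCharacter G)) (hB : Cfsg.IsPBlock M B) (D : Subgroup G) (hBD : Cfsg.IsDefectGroup p M B D) (B₁ : Set (Cfsg.IrrCharacter ↥(Subgroup.normalizer (D : Set G)))) (hB₁ : Cfsg.IsInducedBlock M (Subgroup.normalizer (D : Set G)) B₁ B) (hB₁D : Cfsg.IsDefectGroup p M B₁ (D.subgroupOf (Subgroup.normalizer (D : Set G)))) (D₀ : Subgroup G) (hD₀ : IsPGroup p D₀) (H₀ : Subgroup G) (hH₀ : H₀ = D₀ ⊔ Subgroup.centralizer (D₀ : Set G)) (b : Set (Cfsg.IrrCharacter ↥H₀)) (hb : Cfsg.IsInducedBlock M H₀ b B) (hcompl : ∀ x : ↥(Subgroup.centralizer (D₀ : Set G)), (∀ q : ℕ, q.Prime → q ∣ orderOf x → q ∉ π) → x ∈ Cfsg.piCore {q | q ∉ π} ↥(Subgroup.centralizer (D₀ : Set G))) (hkerb : ∀ x : ↥(Subgroup.centralizer (D₀ : Set G)), x ∈ Cfsg.piCore {q | q ∉ π} ↥(Subgroup.centralizer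 (D₀ : Set G)) → ∀ θ ∈ b, ∀ h : ↥H₀, (h : G) = (x : G) → (θ : ↥H₀ → ℂ) h = (θ : ↥H₀ → ℂ) 1) : ∀ n : ↥(Subgroup.normalizer (D : Set G)), n ∈ Cfsg.piCore {q | q ∉ π} ↥(Subgroup.normalizer (D : Set G)) → n ∈ Cfsg.blockKer B₁ := by
  haveI : PM p M := ⟨hM⟩
  subst hH₀
  have hQ := H1.divClosed_pi {q | q ∉ π}
  have hp' : ∀ n : ℕ, (∀ q : ℕ, q.Prime → q ∣ n → q ∈ {q | q ∉ π}) → ¬ p ∣ n :=
    fun n h e => h p Fact.out e hpπ
  have hn : D₀ ⊔ cC D₀ ≤ nN D₀ := sup_le (le_nN_self D₀) (cC_le_nN D₀)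
  have h1 := (isInducedBlock_iff_Br hD₀ le_sup_left le_sup_right hn hb.1 hB).1 hb
  have h2 := (blk_iff_of_normal' hD₀ le_sup_left le_sup_right hn).1 (blk_io' hb.1)
  have h3 : Pair p ⊤ D₀ (io M _ b) := ⟨hD₀, by
    rw [top_inf_eq]
    refine ⟨ZI_mono le_rfl le_sup_right h2.mem, h2.idem, h2.ne, fun j hj => h2.prim j ⟨hj.1, ?_⟩⟩
    exact mem_Inv_sup.2 ⟨mem_Inv_of_Sp_cC hj.1, hj.2⟩⟩
  refine (kr_io_iff hB₁.1 (hp' _ (H1.qCore_prop hQ))).1 ?_
  rw [io_eq_Br hB hBD hB₁]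
  refine kr_top hQ hp' (blk_fB_of_isPBlock hB) ((def_fB hB).1 hBD) ⟨le_top, h3, h1⟩
    (N := OQ (fun n => ∀ q : ℕ, q.Prime → q ∣ n → q ∈ {q | q ∉ π}) (cC D₀)) ?_
    fun x hx h => ⟨⟨x, hx⟩, hcompl _ (by simpa using h), rfl⟩
  rw [← Subgroup.map_subgroupOf_eq_of_le ((oq_le (cC D₀)).trans (le_sup_right : _ ≤ D₀ ⊔ cC D₀))]
  refine (kr_mp Subtype.val_injective).2 (kr_fB_of_subset fun θ hθ n hn => ?_)
  obtain ⟨x, hx, e⟩ := hn
  exact hkerb x hx θ hθ n e.symm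

end Cfsg.Agent.S4728
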