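import Cfsg.Statements.S4729
import Cfsg.Agent.H7.Misc2
import Cfsg.Agent.H6.Det

set_option autoImplicit false
open Cfsg

namespace Cfsg.Agent.S4729

open H5 H7

/-- Let p be a prime, M a maximal ideal of the algebraic integers containing p, G a finite perfect group and P a Sylow p-subgroup. If the principal p-block of G contains a faithful irreducible character of degree less than 2p, then the centralizer of P is a p-group. -/
theorem result {G : Type*} [Group G] [Finite G] (p : ℕ) [Fact p.Prime] (M : Ideal Cfsg.AlgInt) (hM : Cfsg.IsPModular p M) (hperf : commutator G = ⊤) (P : Sylow p G) (χ : Cfsg.IrrCharacter G) (hχ : χ ∈ Cfsg.principalBlock M G) (hfaith : ∀ g : G, (χ : G → ℂ) g = (χ : G → ℂ) 1 → g = 1) (hdeg : Cfsg.charDegree (χ : G → ℂ) < 2 * p) : IsPGroup p ↥(Subgroup.centralizer ((P : Subgroup G) : Set G)) := by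
  haveI : PM p M := ⟨hM⟩
  classical
  have hp : p.Prime := Fact.out
  suffices h : ∀ y ∈ Subgroup.centralizer ((P : Subgroup G) : Set G), ¬ p ∣ orderOf y → y = 1 by
    intro g
    have h1 := pp_mul_pr (p := p) (g : G)
    rw [h _ (pr_mem g.2) (not_dvd_orderOf_pr _), mul_one] at h1
    exact (isPE_coe.1 (h1 ▸ isPE_pp (g : G))).exists_pow
  intro y hy hy'
  set K := Subgroup.zpowers y
  have := Fintype.ofFinite K
  have hK : ¬ p ∣ Nat.card K := by rwa [Nat.card_zpowers]
  have hc : ∀ a b : K, a * b = b * a := fun a b => mul_comm' a b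
  obtain ⟨m, hm, hm'⟩ := (χ.2.isCharacter.restrict K).exists_nat
  have h1 : ∀ θ : IrrCharacter K, θ ≠ irrOne K → p ∣ m θ := fun θ hθ => by
    have h2 : ∀ k : K, (χ : G → ℂ) k / (χ : G → ℂ) 1 - 1 ∈ mC M := fun k =>
      div_sub_one_mem_mC hχ fun h => P.not_dvd_index (h.trans (Subgroup.index_dvd_of_le
        (le_centralizer_singleton_iff.2 (Subgroup.zpowers_le.2 hy k.2))))
    have h3 := card_mul_classInner (irrOne K : K → ℂ) θ
    rw [classInner_irr, if_neg hθ.symm, mul_zero] at h3
    have h4 : ((Nat.card K * m θ : ℕ) : ℂ) = (χ : G → ℂ) 1 *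
        ∑ k : K, ((χ : G → ℂ) k / (χ : G → ℂ) 1 - 1) * (starRingEnd ℂ) ((θ : K → ℂ) k) := by
      simp only [sub_mul, Finset.sum_sub_distrib, mul_sub]
      simp only [irrOne_apply] at h3
      rw [← h3, mul_zero, sub_zero, Nat.cast_mul, ← hm, card_mul_classInner, Finset.mul_sum]
      exact Finset.sum_congr rfl fun k _ => by field_simp [χ.2.apply_one_ne_zero]
    refine (hp.dvd_mul.1 ((natCast_mem_mC_iff (M := M) _).1 ?_)).resolve_left hK
    rw [h4]
    exact mul_mem_mC_left (char_mem_O χ.2.isCharacter 1)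
      (sum_mem fun k _ => mul_mem_mC_right (h2 k) (conj_char_mem_O θ.2.isCharacter k))
  have h2 : charDegree (χ : G → ℂ) = ∑ θ, m θ := by
    have := congrFun hm' 1
    rw [← Nat.cast_inj (R := ℂ), χ.2.coe_charDegree]
    simpa [fun θ : IrrCharacter K => θ.2.apply_one_of_comm hc] using this
  have h3 : ∀ g, detChar (χ : G → ℂ) g = 1 := fun g => by
    rw [← H6.coe_detHom, Abelianization.commutator_subset_ker (H6.detHom (χ : G → ℂ))
      (hperf ▸ Subgroup.mem_top g), Units.val_one]
  have h4 : ∀ k : K, ∏ θ : IrrCharacter K, (θ : K → ℂ) k ^ m θ = 1 := fun k => by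
    have h5 := congrFun (H6.detChar_restrict K χ.2.isCharacter) k
    rw [h3, hm', H6.detChar_sum _ fun θ _ => θ.2.isCharacter.natCast_smul _, Finset.prod_apply] at h5
    rw [← h5]
    exact Finset.prod_congr rfl fun θ _ => by
      rw [H6.detChar_natCast_smul θ.2.isCharacter,
        H6.detChar_of_apply_one θ.2.isCharacter (θ.2.apply_one_of_comm hc), Pi.pow_apply]
  have h5 : ∀ θ : IrrCharacter K, θ ≠ irrOne K → m θ = 0 := fun θ hθ => by
    by_contra h0
    have h6 : p ≤ m θ := Nat.le_of_dvd (Nat.pos_of_ne_zero h0) (h1 θ hθ)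
    have h7 : ∀ η, η ≠ θ → η ≠ irrOne K → m η = 0 := fun η h7 h8 => by
      have := Finset.add_le_sum (f := m) (fun _ _ => Nat.zero_le _) (Finset.mem_univ η)
        (Finset.mem_univ θ) h7
      exact Nat.eq_zero_of_dvd_of_lt (h1 η h8) (by omega)
    have h8 : m θ = p := by
      have := Finset.single_le_sum (f := m) (fun _ _ => Nat.zero_le _) (Finset.mem_univ θ)
      obtain ⟨c, hc⟩ := h1 θ hθ
      have : c = 1 := by
        rcases c with _ | _ | c
        · omega
        · rfl
        · nlinarith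
      rw [hc, this, mul_one]
    obtain ⟨lam, hl⟩ := θ.2.exists_hom_of_comm hc
    refine hθ (Subtype.ext (funext fun k => ?_))
    have h9 := h4 k
    rw [Finset.prod_eq_single θ (fun η _ h => by
      by_cases e : η = irrOne K
      · simp [e]
      · simp [h7 η h e]) (by simp), h8] at h9
    have h10 : (θ : K → ℂ) k ^ Nat.card K = 1 := by
      rw [hl, ← Units.val_pow_eq_pow_val, ← map_pow, pow_card_eq_one', map_one, Units.val_one]
    exact (pow_eq_one_iff_of_coprime (hp.coprime_iff_not_dvd.2 hK)).1 ⟨h9, h10⟩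
  have h6 : ∀ k : K, (χ : G → ℂ) k = m (irrOne K) := fun k => by
    rw [congrFun hm' k, Finset.sum_apply, Finset.sum_eq_single (irrOne K)
      (fun θ _ h => by simp [h5 θ h]) (by simp)]
    simp
  exact hfaith y ((h6 ⟨y, Subgroup.mem_zpowers y⟩).trans (h6 1).symm)

end Cfsg.Agent.S4729
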