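import Cfsg.Statements.S4730
import Cfsg.Agent.H7.Misc2

set_option autoImplicit false
open Cfsg

namespace Cfsg.Agent.S4730

open H5 H7

/-- Let p be a prime, M a maximal ideal of the algebraic integers containing p, and G a finite group with trivial centre, Sylow p-subgroup P of order p^a and centre Z(P) of order p^b. If χ is a faithful irreducible character of G whose degree is a power of p, then the p-block of χ has defect at most a − b; in particular, if P is abelian then χ lies in a block of defect zero. -/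
theorem result {G : Type*} [Group G] [Finite G] (p : ℕ) [Fact p.Prime] (M : Ideal Cfsg.AlgInt) (hM : Cfsg.IsPModular p M) (hZ : Subgroup.center G = ⊥) (P : Sylow p G) (a b : ℕ) (ha : Nat.card P = p ^ a) (hb : Nat.card (Subgroup.center ↥(P : Subgroup G)) = p ^ b) (χ : Cfsg.IrrCharacter G) (hfaith : ∀ g : G, (χ : G → ℂ) g = (χ : G → ℂ) 1 → g = 1) (n : ℕ) (hdeg : Cfsg.charDegree (χ : G → ℂ) = p ^ n) : Cfsg.blockDefect p (Cfsg.blockOf M (χ : G → ℂ)) ≤ a - b ∧ (IsMulCommutative ↥(P : Subgroup G) → Cfsg.blockDefect p (Cfsg.blockOf M (χ : G → ℂ)) = 0) := by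
  haveI : PM p M := ⟨hM⟩
  classical
  have hp : p.Prime := Fact.out
  have hB := isPBlock_blockOf (M := M) χ
  suffices h : blockDefect p (blockOf M (χ : G → ℂ)) ≤ a - b by
    refine ⟨h, fun hc => ?_⟩
    rw [Subgroup.center_eq_top_iff.2 hc, Subgroup.card_top, ha, Nat.pow_right_inj hp.one_lt] at hb
    omega
  obtain ⟨ψ, hψ, h0⟩ := exists_height_zero (p := p) (block_nonempty hB)
  have e1 := factorization_add_defect (p := p) (M := M) hψ
  rw [P.card_eq_multiplicity, Nat.pow_right_inj hp.one_lt] at ha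
  suffices b ≤ (charDegree (ψ : G → ℂ)).factorization p by omega
  set Z := Subgroup.center (P : Subgroup G)
  have := Fintype.ofFinite Z
  have hk : charKer (χ : G → ℂ) = ⊥ := eq_bot_iff.2 fun g hg => hfaith g (χ.2.mem_charKer.1 hg)
  have h1 : ∀ z : Z, z ≠ 1 → (ψ : G → ℂ) z / (ψ : G → ℂ) 1 ∈ mC M := fun z hz => by
    have h2 : ¬ p ∣ (Subgroup.centralizer ({((z : P) : G)} : Set G)).index := fun h =>
      P.not_dvd_index (h.trans (Subgroup.index_dvd_of_le fun x hx =>
        Subgroup.mem_centralizer_singleton_iff.2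
          (congrArg Subtype.val (Subgroup.mem_center_iff.1 z.2 ⟨x, hx⟩))))
    have h3 := (χ.2.eq_zero_or_mem_charCenter_of_coprime
      (hdeg ▸ (hp.coprime_iff_not_dvd.2 h2).pow_left n)).resolve_right (by
        rw [χ.2.charCenter_eq_center hk, hZ]; simpa using hz)
    refine mem_mC_of_mul_left (natCast_mem (O M) _) (mt (natCast_mem_mC_iff _).1 h2) ?_
    have := neg_mem (mem_mC.2 (hψ ((z : P) : G)))
    simpa [centralChar, h3, mul_div_assoc] using this
  obtain ⟨m, hm⟩ := (ψ.2.isCharacter.comp ((P : Subgroup G).subtype.comp Z.subtype)).exists_classInner_nat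
    isCharacter_one
  have h2 : ((p ^ b * m : ℕ) : ℂ) / charDegree (ψ : G → ℂ) =
      1 + ∑ z ∈ Finset.univ.erase (1 : Z), (ψ : G → ℂ) z / (ψ : G → ℂ) 1 := by
    rw [Nat.cast_mul, ← hm, ← hb, card_mul_classInner, Finset.sum_div,
      ← Finset.add_sum_erase _ _ (Finset.mem_univ 1), ψ.2.coe_charDegree]
    simp [ψ.2.apply_one_ne_zero]
  have h3 := sum_mem (t := Finset.univ.erase (1 : Z)) fun z hz => h1 z (Finset.ne_of_mem_erase hz)
  have h4 : red M (((p ^ b * m : ℕ) : ℂ) / charDegree (ψ : G → ℂ)) ≠ 0 := by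
    rw [h2, red_add (one_mem _) (mem_O_of_mem_mC h3), red_eq_zero h3, red_one, add_zero]
    exact one_ne_zero
  have m0 : m ≠ 0 := fun e => h4 (by simp [e])
  rw [red_natCast_div_ne_zero_iff (mul_ne_zero (pow_pos hp.pos _).ne' m0) ψ.2.charDegree_pos.ne',
    Nat.factorization_mul (pow_pos hp.pos _).ne' m0, Finsupp.add_apply,
    Nat.factorization_pow_self hp] at h4
  omega

end Cfsg.Agent.S4730
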