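import Cfsg.Statements.S4731
import Cfsg.Agent.H7.Misc2

set_option autoImplicit false
open Cfsg

namespace Cfsg.Agent.S4731

open H5 H7

/-- Let p ≠ q be primes, M_p and M_q maximal ideals of the algebraic integers containing p and q respectively, and G a finite group with no element of order pq; let q^b be the q-part of the order of G. For a p-block B_p (relative to M_p), a q-block B_q (relative to M_q) and a p-singular element y, the sum of χ(1)χ(y) over the irreducible characters χ lying in both B_p and B_q is q^b times an algebraic integer. -/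
theorem result {G : Type*} [Group G] [Finite G] (p q : ℕ) [Fact p.Prime] [Fact q.Prime] (hpq : p ≠ q) (Mp Mq : Ideal Cfsg.AlgInt) (hMp : Cfsg.IsPModular p Mp) (hMq : Cfsg.IsPModular q Mq) (hno : ∀ g : G, orderOf g ≠ p * q) (b : ℕ) (hb : (Nat.card G).factorization q = b) (Bp : Set (Cfsg.IrrCharacter G)) (hBp : Cfsg.IsPBlock Mp Bp) (Bq : Set (Cfsg.IrrCharacter G)) (hBq : Cfsg.IsPBlock Mq Bq) (y : G) (hy : p ∣ orderOf y) : ∃ ω : Cfsg.AlgInt, ∑ᶠ χ ∈ Bp ∩ Bq, (Cfsg.charDegree (χ : G → ℂ) : ℂ) * (χ : G → ℂ) y = (q : ℂ) ^ b * (ω : ℂ) := by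
  haveI : PM p Mp := ⟨hMp⟩
  haveI : PM q Mq := ⟨hMq⟩
  classical
  have hp : p.Prime := Fact.out
  have hq : q.Prime := Fact.out
  have h0 : ∀ g : G, p ∣ orderOf g → ¬ q ∣ orderOf g := fun g h1 h2 =>
    hno _ (orderOf_pow_orderOf_div (orderOf_pos g).ne'
      (((Nat.coprime_primes hp hq).2 hpq).mul_dvd_of_dvd_of_dvd h1 h2))
  obtain ⟨Q⟩ : Nonempty (Sylow q G) := inferInstance
  have := Fintype.ofFinite Q
  have h1 : ∑ u : Q, mu (Bp ∩ Bq) u y⁻¹ = mu (Bp ∩ Bq) 1 y⁻¹ :=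
    Finset.sum_eq_single (1 : Q) (fun u _ hu => mu_inter_eq_zero (isSat_of_isPBlock hBp)
      (isSat_of_isPBlock hBq) h0 (by_contra fun h => hu (Subtype.ext
        ((isPE_of_mem Q.isPGroup' u.2).eq_one h))) (by rwa [orderOf_inv])) (by simp)
  choose n hn using fun χ : IrrCharacter G =>
    (χ.2.isCharacter.restrict Q).exists_classInner_nat isCharacter_one
  refine ⟨⟨∑ χ : IrrCharacter G, if χ ∈ Bp ∩ Bq then n χ * (χ : G → ℂ) y else 0,
    IsIntegral.sum _ fun χ _ => ?_⟩, ?_⟩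
  · split_ifs
    · exact (isIntegral_natCast _).mul (χ.2.isCharacter.isIntegral y)
    · exact isIntegral_zero
  have h2 : ∑ᶠ χ ∈ Bp ∩ Bq, (charDegree (χ : G → ℂ) : ℂ) * (χ : G → ℂ) y = mu (Bp ∩ Bq) 1 y⁻¹ :=
    finsum_mem_congr rfl fun χ _ => by rw [χ.2.coe_charDegree, χ.2.apply_inv, Complex.conj_conj]
  rw [h2, ← h1, ← hb, ← Nat.cast_pow, ← Q.card_eq_multiplicity, Finset.mul_sum]
  simp only [mu_eq]
  rw [Finset.sum_comm]
  refine Finset.sum_congr rfl fun χ _ => ?_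
  split_ifs
  · rw [← hn, ← mul_assoc, card_mul_classInner, Finset.sum_mul, χ.2.apply_inv]
    simp
  · simp

end Cfsg.Agent.S4731
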