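import Cfsg.Statements.S4732
import Cfsg.Agent.H8.FanL

set_option autoImplicit false
universe u v
open Cfsg

namespace Cfsg.Agent.S4732

open H8 H8.Fan Subgroup

/-- Let p be a prime. There is a function f of two natural-number arguments such that every finite group G admitting a faithful representation of degree n over a field of characteristic p, with Sylow p-subgroups of order p^m, has a normal abelian subgroup A with [G : A] < f(m, n). -/
theorem result (p : ℕ) [Fact p.Prime] : ∃ f : ℕ → ℕ → ℕ, ∀ (G : Type u) [Group G] [Finite G] (F : Type v) [Field F] [CharP F p] (n : ℕ) (ρ : Representation F G (Fin n → F)), Function.Injective ρ → ∀ m : ℕ, (Nat.card G).factorization p = m → ∃ A : Subgroup G, A.Normal ∧ IsMulCommutative A ∧ A.index < f m n := by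
  have hp : p.Prime := Fact.out
  choose c hc using fun m n => bf.{u, v} (p := p) (m := m) n
  refine ⟨fun m n => (c m n).factorial + 1, fun G _ _ F _ _ n ρ hρ m hm => ?_⟩
  let K := AlgebraicClosure F
  let σ : Representation K G (Fin n → K) :=
    ((Matrix.toLinAlgEquiv' (R := K) (n := Fin n)).toMulEquiv.toMonoidHom.comp
      ((algebraMap F K).mapMatrix.toMonoidHom.comp
        (LinearMap.toMatrixAlgEquiv' (R := F) (n := Fin n)).toMulEquiv.toMonoidHom)).comp ρ
  have hσ : Function.Injective σ := by
    intro x y e
    apply hρ
    apply (LinearMap.toMatrixAlgEquiv' (R := F) (n := Fin n)).injective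
    apply Matrix.map_injective (algebraMap F K).injective
    exact (Matrix.toLinAlgEquiv' (R := K) (n := Fin n)).injective e
  obtain ⟨A, h1, h2⟩ := hc m n K (Fin n → K) (by simp) G σ hσ (by
    rw [← hm]; exact Nat.pow_succ_factorization_not_dvd Nat.card_pos.ne' hp)
  refine ⟨A.normalCore, inferInstance, ?_, Nat.lt_succ_of_le ?_⟩
  · haveI := le_centralizer_iff_isMulCommutative.1 h1
    exact H1.isMulCommutative_of_le A.normalCore_le
  · classical
    letI := Fintype.ofFinite (G ⧸ A)
    rw [normalCore_eq_ker, index_ker]
    refine (Nat.le_of_dvd Nat.card_pos (card_subgroup_dvd_card _)).trans ?_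
    rw [Nat.card_perm]
    exact Nat.factorial_le h2

end Cfsg.Agent.S4732
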