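import Cfsg.Statements.S4735
import Cfsg.Agent.H7.Misc2

set_option autoImplicit false
open Cfsg

namespace Cfsg.Agent.S4735

open H5 H7

/-- Let p be a prime, M a maximal ideal of the algebraic integers containing p, G a finite group, H = O_p'(G) and Ḡ = G/H. For x ∈ G write λ(G, x) for the sum of |χ(x)|^2 over the irreducible characters χ in the principal p-block of G. Then λ(G, x) is a positive integer, λ(G, x) = λ(Ḡ, x̄) where x̄ is the image of x, and λ(G, x) ≤ #C_Ḡ(x̄). Moreover λ(G, 1) = [G : H] if and only if the principal block is the only p-block of Ḡ. -/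
theorem result {G : Type*} [Group G] [Finite G] (p : ℕ) [Fact p.Prime] (M : Ideal Cfsg.AlgInt) (hM : Cfsg.IsPModular p M) (x : G) : (∃ n : ℕ, 0 < n ∧ ∑ᶠ χ ∈ Cfsg.principalBlock M G, Complex.normSq ((χ : G → ℂ) x) = n) ∧ ∑ᶠ χ ∈ Cfsg.principalBlock M G, Complex.normSq ((χ : G → ℂ) x) = ∑ᶠ ψ ∈ Cfsg.principalBlock M (G ⧸ Cfsg.pPrimeCore p G), Complex.normSq ((ψ : G ⧸ Cfsg.pPrimeCore p G → ℂ) (QuotientGroup.mk x)) ∧ ∑ᶠ χ ∈ Cfsg.principalBlock M G, Complex.normSq ((χ : G → ℂ) x) ≤ (Nat.card ↥(Subgroup.centralizer ({(QuotientGroup.mk x : G ⧸ Cfsg.pPrimeCore p G)} : Set (G ⧸ Cfsg.pPrimeCore p G))) : ℝ) ∧ ((∑ᶠ χ ∈ Cfsg.principalBlock M G, Cfsg.charDegree (χ : G → ℂ) ^ 2) = (Cfsg.pPrimeCore p G).index ↔ ∀ B : Set (Cfsg.IrrCharacter (G ⧸ Cfsg.pPrimeCore p G)), Cfsg.IsPBlock M B → B = Cfsg.principalBlock M (G ⧸ Cfsg.pPrimeCore p G)) := by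
  haveI : PM p M := ⟨hM⟩
  classical
  have hπ := QuotientGroup.mk'_surjective (pPrimeCore p G)
  have h1 : principalBlock M G ∩ kerSet (QuotientGroup.mk' (pPrimeCore p G)).ker =
      principalBlock M G := Set.inter_eq_left.2 (by
    rw [QuotientGroup.ker_mk']; exact principalBlock_subset_kerSet not_dvd_card_pPrimeCore)
  have h2 := preimage_principal (M := M) hπ fun χ ψ hχ hψ => sameBlock_of_comp' hπ
    (by rw [QuotientGroup.ker_mk']; exact not_dvd_card_pPrimeCore) hχ hψ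
  have h3 : ∀ g h, mu (principalBlock M G) g h =
      mu (principalBlock M (G ⧸ pPrimeCore p G)) g h := fun g h => by
    rw [← h1, mu_icomp hπ, h2]; rfl
  have h4 : ∑ᶠ χ ∈ principalBlock M G, Complex.normSq ((χ : G → ℂ) x) =
      ∑ᶠ ψ ∈ principalBlock M (G ⧸ pPrimeCore p G),
        Complex.normSq ((ψ : G ⧸ pPrimeCore p G → ℂ) (QuotientGroup.mk x)) := by
    rw [← Complex.ofReal_inj, mu_self_eq, mu_self_eq, h3]
  refine ⟨?_, h4, ?_, ?_⟩
  · obtain ⟨n, hn⟩ := exists_int_of_forall_ringEquiv (isIntegral_mu (principalBlock M G) x x)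
      fun σ => gal_mu σ (gal_mem_principal σ) x x
    rw [← mu_self_eq] at hn
    have h5 : ∑ᶠ χ ∈ principalBlock M G, Complex.normSq ((χ : G → ℂ) x) = n := by exact_mod_cast hn
    have h6 : (0 : ℝ) < n := by
      rw [← h5, finsum_mem_irr]
      refine Finset.sum_pos' (fun χ _ => ?_) ⟨irrOne G, Finset.mem_univ _, ?_⟩
      · split_ifs
        exacts [Complex.normSq_nonneg _, le_rfl]
      · simp [irrOne_mem_principalBlock]
    lift n to ℕ using by exact_mod_cast h6.le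
    exact ⟨n, by exact_mod_cast h6, h5⟩
  · rw [h4, ← sum_irr_normSq, finsum_mem_irr]
    refine Finset.sum_le_sum fun χ _ => ?_
    split_ifs
    exacts [(Complex.normSq_eq_norm_sq _).le, by positivity]
  · have h5 : ∑ᶠ χ ∈ principalBlock M G, charDegree (χ : G → ℂ) ^ 2 =
        ∑ᶠ χ ∈ principalBlock M (G ⧸ pPrimeCore p G), charDegree (χ : G ⧸ pPrimeCore p G → ℂ) ^ 2 := by
      rw [← Nat.cast_inj (R := ℂ), mu_one_one, mu_one_one, h3]; rfl
    have h6 : (pPrimeCore p G).index =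
        ∑ χ : IrrCharacter (G ⧸ pPrimeCore p G), charDegree (χ : G ⧸ pPrimeCore p G → ℂ) ^ 2 := by
      rw [← Nat.cast_inj (R := ℂ), Subgroup.index, ← sum_sq_degrees]
      push_cast
      exact Finset.sum_congr rfl fun χ _ => by rw [χ.2.coe_charDegree]
    rw [h5, h6, finsum_mem_irr, Finset.sum_eq_sum_iff_of_le fun χ _ => by split_ifs <;> simp]
    refine ⟨fun h B hB => ?_, fun h χ _ => if_pos (h _ (isPBlock_blockOf χ) ▸ mem_blockOf_self χ)⟩
    obtain ⟨χ, hχ⟩ := block_nonempty hB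
    refine block_eq_of_mem hB isPBlock_principalBlock hχ (by_contra fun e => ?_)
    have := h χ (Finset.mem_univ _)
    rw [if_neg e] at this
    exact (pow_pos χ.2.charDegree_pos 2).ne this

end Cfsg.Agent.S4735
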