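import Cfsg.Statements.S4736
import Cfsg.Agent.H8.Ito
import Cfsg.Agent.H8.BSol
import Cfsg.Agent.H8.B1

set_option autoImplicit false
open Cfsg

namespace Cfsg.Agent.S4736

open H5 H6 H7 H8

/-- Let p be a prime, M a maximal ideal of the algebraic integers containing p, and G a finite p-solvable group with Sylow p-subgroup P. Then P is abelian if and only if every irreducible character in the principal p-block of G has height zero. -/
theorem result {G : Type*} [Group G] [Finite G] (p : ℕ) [Fact p.Prime] (M : Ideal Cfsg.AlgInt) (hM : Cfsg.IsPModular p M) (hsolv : Cfsg.IsPSolvable p G) (P : Sylow p G) : IsMulCommutative P ↔ ∀ χ ∈ Cfsg.principalBlock M G, Cfsg.blockHeight p (Cfsg.principalBlock M G) (χ : G → ℂ) = 0 := by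
  haveI : PM p M := ⟨hM⟩
  have hp' : p.Prime := Fact.out
  have hs := H4.isPSolvable_iff.1 hsolv
  have hπ := QuotientGroup.mk'_surjective (pPrimeCore p G)
  have hB := principal_of_pSol (M := M) hs
  constructor
  · intro hc χ hχ
    rw [height_principal_iff (p := p) hχ]
    rw [hB] at hχ
    obtain ⟨χ', h1, h2⟩ := χ.2.exists_deflate (pPrimeCore p G) fun n hn => χ.2.mem_charKer.2 (hχ n hn)
    rw [← show (fun g : G => χ' g) = χ.1 from funext h2, charDegree_inflate]
    have h3 : IsMulCommutative (P.mapSurjective hπ : Subgroup (G ⧸ pPrimeCore p G)) := by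
      rw [Sylow.coe_mapSurjective]; infer_instance
    refine not_dvd_of_normal_comm (P.mapSurjective hπ) ?_ h3 h1
    have h4 := (hs.quotient (pPrimeCore p G)).centralizer_pCore_le (H1.pPrimeCore_quotient_eq_bot p G)
    have h5 := H1.pCore_le_sylow (P.mapSurjective hπ)
    rw [le_antisymm (fun x hx => h4 fun y hy => congrArg Subtype.val
      (h3.is_comm.comm (⟨y, h5 hy⟩ : (P.mapSurjective hπ : Subgroup _)) ⟨x, hx⟩)) h5]
    infer_instance
  · intro h
    have h1 : ∀ χ, IsIrrCharacter (G ⧸ pPrimeCore p G) χ → ¬ p ∣ charDegree χ := fun χ hχ => by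
      have h2 : (⟨fun g : G => χ g, hχ.inflate⟩ : IrrCharacter G) ∈ principalBlock M G := by
        rw [hB]
        intro n hn
        simp [(QuotientGroup.eq_one_iff n).2 hn]
      rw [← charDegree_inflate]
      exact (height_principal_iff (p := p) h2).1 (h _ h2)
    haveI := ito_normal _ (hs.quotient (pPrimeCore p G)) h1 (P.mapSurjective hπ)
    have h2 := comm_of_normal_of_not_dvd (P.mapSurjective hπ).isPGroup' h1
    refine ⟨⟨fun a b => Subtype.ext ?_⟩⟩
    have h3 : (((a : G) * b : G) : G ⧸ pPrimeCore p G) = ((b : G) * a : G) := congrArg Subtype.val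
      (h2.is_comm.comm (⟨((a : G) : G ⧸ pPrimeCore p G), Subgroup.mem_map_of_mem _ a.2⟩ :
        (P.mapSurjective hπ : Subgroup (G ⧸ pPrimeCore p G))) ⟨((b : G) : G ⧸ pPrimeCore p G),
        Subgroup.mem_map_of_mem _ b.2⟩)
    have h4 : ((a : G) * b)⁻¹ * (b * a) ∈ (P : Subgroup G) ⊓ pPrimeCore p G :=
      ⟨(a * b)⁻¹.2 |> fun h => Subgroup.mul_mem _ h (b * a).2, QuotientGroup.eq.1 h3⟩
    rw [H4.inf_pPrimeCore_eq_bot P.isPGroup', Subgroup.mem_bot] at h4
    exact inv_mul_eq_one.1 h4

end Cfsg.Agent.S4736
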