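import Cfsg.Statements.S4955
import Cfsg.Agent.H8.KGV
import Cfsg.Agent.H8.CM

set_option autoImplicit false
open Cfsg

namespace Cfsg.Agent.S4955

open H5 H8 H6 Cfsg
open scoped ComplexConjugate ComplexOrder

/-- Let X be a finite group with an abelian normal Sylow p-subgroup V (a normal p-subgroup of index prime to p in which any two elements commute), and let G be a complement to V in X. Then for every v in V, writing C for the centralizer of v in G, the number k(X) of conjugacy classes of X satisfies k(X) ≤ (order of C)·(order of V) − ((order of G) − k(G)); the statement is written with the subtracted term moved to the left. In particular, if some v in V is centralized by no nonidentity element of G, then k(X) is at most the order of V. -/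
theorem result {X : Type*} [Group X] [Finite X] (p : ℕ) [Fact p.Prime] (V : Subgroup X) [V.Normal] (hVp : IsPGroup p V) (hidx : ¬ p ∣ V.index) (hab : ∀ a ∈ V, ∀ b ∈ V, a * b = b * a) (G : Subgroup X) (hGV : Subgroup.IsComplement' V G) (v : X) (hv : v ∈ V) : Nat.card (ConjClasses X) + Nat.card G ≤ Nat.card ↥(G ⊓ Subgroup.centralizer ({v} : Set X)) * Nat.card V + Nat.card (ConjClasses G) := by
  classical
  have hp : p.Prime := Fact.out
  letI := Fintype.ofFinite X
  have hC := card_cent_split hGV (C := Subgroup.centralizer {v})
    (fun a ha => Subgroup.mem_centralizer_singleton_iff.2 (hab a ha v hv))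
  have h1 := sum_irr_mul_conj_of_isConj (IsConj.refl v)
  have h2 := sum_ker_mul_conj V v v
  have hv1 : (v : X ⧸ V) = 1 := (QuotientGroup.eq_one_iff v).2 hv
  have hq : Nat.card (X ⧸ V) = Nat.card G := Nat.card_congr hGV.symm.QuotientMulEquiv.toEquiv
  rw [if_pos (IsConj.refl _), hv1, Subgroup.centralizer_eq_top_iff_subset.2 (by simp),
    Subgroup.card_top, hq] at h2
  rw [← Finset.sum_filter_add_sum_filter_not _ (fun χ : IrrCharacter X => V ≤ charKer χ.1), h2,
    hC] at h1
  have hk := Finset.card_filter_add_card_filter_not (s := (Finset.univ : Finset (IrrCharacter X)))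
    (fun χ : IrrCharacter X => V ≤ charKer χ.1)
  rw [Finset.card_univ, ← Nat.card_eq_fintype_card, card_irr_eq_card_conjClasses,
    ← Nat.subtype_card (p := fun χ : IrrCharacter X => V ≤ charKer χ.1) _ (by simp),
    card_irr_ker hGV] at hk
  obtain ⟨k, hk'⟩ := hVp ⟨v, hv⟩
  have hvk : v ^ p ^ k = 1 := congrArg Subtype.val hk'
  have htp : ∀ χ : IrrCharacter X, TP (χ.1 v * conj (χ.1 v)) := fun χ =>
    tp_mul_conj (char_mem_CM χ.2.isCharacter v)
  set s := Finset.univ.filter fun χ : IrrCharacter X => ¬ V ≤ charKer χ.1
  set c := Nat.card (G ⊓ Subgroup.centralizer {v} : Subgroup X) * Nat.card V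
  have hle : Nat.card G ≤ c := by
    have h3 := (TP.sum (s := s) fun χ _ => htp χ).nonneg
    rw [eq_sub_of_add_eq' h1, sub_nonneg] at h3
    exact_mod_cast h3
  have := (amgm_tp s (fun _ => 1) (fun χ => χ.1 v * conj (χ.1 v))
    (fun χ _ => (χ.2.isCharacter.isIntegral v).mul (isIntegral_conj (χ.2.isCharacter.isIntegral v)))
    (fun χ _ => by
      have := ne_zero_of_pow_eq_one χ.2.isCharacter hp
        (fun h => hidx (h.trans (ito_degree_dvd V hab χ.2))) hvk
      simpa using this) (fun χ _ => htp χ) (N := c - Nat.card G) (by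
      simp only [Nat.cast_one, one_mul]
      rw [eq_sub_of_add_eq' h1, Nat.cast_sub hle, sub_self]; exact tp_zero)).1
  rw [← Finset.card_eq_sum_ones] at this
  omega

end Cfsg.Agent.S4955
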