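import Cfsg.Statements.S4956
import Cfsg.Agent.H8.KGV

set_option autoImplicit false
open Cfsg

namespace Cfsg.Agent.S4956

open H5 H8 Cfsg

/-- Let X be a finite group, V an abelian normal subgroup of X (any two elements of V commute) and G a complement to V in X whose order is coprime to that of V. Let S be a set of representatives of the orbits of G on V under conjugation: S lies in V and every element of V is conjugate under G to exactly one member of S. Then the number of conjugacy classes of X equals the sum, over s in S, of the number of conjugacy classes of the centralizer of s in G. -/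
theorem result {X : Type*} [Group X] [Finite X] (V : Subgroup X) [V.Normal] (hab : ∀ a ∈ V, ∀ b ∈ V, a * b = b * a) (G : Subgroup X) (hGV : Subgroup.IsComplement' V G) (hcop : (Nat.card V).Coprime (Nat.card G)) (S : Finset X) (hSV : ∀ s ∈ S, s ∈ V) (hrep : ∀ v ∈ V, ∃! s, s ∈ S ∧ ∃ g ∈ G, g * v * g⁻¹ = s) : Nat.card (ConjClasses X) = ∑ s ∈ S, Nat.card (ConjClasses ↥(G ⊓ Subgroup.centralizer ({s} : Set X))) := by
  classical
  obtain ⟨hd, hs⟩ := H1.isComplement'_iff_of_normal.1 hGV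
  have hN : V.Normal := inferInstance
  have eqG : ∀ g ∈ G, ∀ g' ∈ G, ∀ a ∈ V, g = a * g' → g = g' := by
    intro g hg g' hg' a ha e
    have : a ∈ V ⊓ G := ⟨ha, by
      rw [show a = g * g'⁻¹ by rw [e]; group]; exact G.mul_mem hg (G.inv_mem hg')⟩
    rw [hd, Subgroup.mem_bot] at this
    rw [e, this, one_mul]
  let F : (Σ s : S, ConjClasses ↥(G ⊓ Subgroup.centralizer ({(s : X)} : Set X))) → ConjClasses X :=
    fun z => ConjClasses.mk ((z.1 : X) * (Quotient.out z.2).1)
  have hF : ∀ (s : S) (h : ↥(G ⊓ Subgroup.centralizer ({(s : X)} : Set X))),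
      F ⟨s, ConjClasses.mk h⟩ = ConjClasses.mk ((s : X) * h) := by
    intro s h
    obtain ⟨c, hc⟩ := isConj_iff.1 (ConjClasses.mk_eq_mk_iff_isConj.1
      (Quotient.out_eq (ConjClasses.mk h)))
    refine ConjClasses.mk_eq_mk_iff_isConj.2 (isConj_iff.2 ⟨c, ?_⟩)
    rw [← congrArg Subtype.val hc]
    have := Subgroup.mem_centralizer_singleton_iff.1 c.2.2
    simp only [Subgroup.coe_mul, Subgroup.coe_inv, ← mul_assoc, this]
  rw [← Finset.sum_coe_sort S, ← Nat.card_sigma]
  refine (Nat.card_congr (Equiv.ofBijective F ⟨?_, ?_⟩)).symm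
  · rintro ⟨s, C⟩ ⟨t, D⟩ e
    obtain ⟨h, rfl⟩ := ConjClasses.mk_surjective C
    obtain ⟨k, rfl⟩ := ConjClasses.mk_surjective D
    rw [hF, hF, ConjClasses.mk_eq_mk_iff_isConj, isConj_iff] at e
    obtain ⟨y, hy⟩ := e
    have c1 : Commute (s : X) h := (Subgroup.mem_centralizer_singleton_iff.1 h.2.2).symm
    have c2 : Commute (t : X) k := (Subgroup.mem_centralizer_singleton_iff.1 k.2.2).symm
    have pw : ∀ g ∈ G, g ^ Nat.card G = 1 := fun g hg =>
      congrArg Subtype.val (pow_card_eq_one' (x := (⟨g, hg⟩ : G)))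
    have e1 : (y * s * y⁻¹) ^ Nat.card G = (t : X) ^ Nat.card G := by
      have := congrArg (· ^ Nat.card G) hy
      simp only [conj_pow, c1.mul_pow, c2.mul_pow, pw _ h.2.1, pw _ k.2.1, mul_one] at this
      rw [conj_pow, this]
    have e2 : y * s * y⁻¹ = t := by
      have := (powCoprime hcop).injective (a₁ := (⟨_, hN.conj_mem _ (hSV s s.2) y⟩ : V))
        (a₂ := ⟨t, hSV t t.2⟩) (Subtype.ext e1)
      exact congrArg Subtype.val this
    obtain ⟨a, ha, u, hu, rfl⟩ := H1.exists_mul_of_isComplement' hGV y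
    have e3 : u * s * u⁻¹ = t := by
      rw [← e2]
      calc _ = a * a⁻¹ * (u * s * u⁻¹) := by group
        _ = _ := by rw [mul_assoc, hab _ (inv_mem ha) _ (hN.conj_mem _ (hSV s s.2) u)]; group
    obtain rfl : s = t := Subtype.ext ((hrep s (hSV s s.2)).unique ⟨s.2, 1, one_mem _, by simp⟩
      ⟨t.2, u, hu, e3⟩)
    have e4 : a * u * h * (a * u)⁻¹ = k := by
      apply mul_left_cancel (a := (s : X))
      rw [← hy]
      calc _ = (a * u * s * (a * u)⁻¹) * (a * u * h * (a * u)⁻¹) := by rw [e2]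
        _ = _ := by group
    have e5 : (k : X) = u * h * u⁻¹ := eqG _ k.2.1 _ (mul_mem (mul_mem hu h.2.1) (inv_mem hu))
      (a * (u * h * u⁻¹ * a⁻¹ * (u * h * u⁻¹)⁻¹)) (mul_mem ha (hN.conj_mem _ (inv_mem ha) _))
      (by rw [← e4]; group)
    congr 1
    refine ConjClasses.mk_eq_mk_iff_isConj.2 (isConj_iff.2 ⟨⟨u, hu, ?_⟩, Subtype.ext e5.symm⟩)
    exact Subgroup.mem_centralizer_singleton_iff.2 (mul_inv_eq_iff_eq_mul.1 e3)
  · intro C
    obtain ⟨x, rfl⟩ := ConjClasses.mk_surjective C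
    obtain ⟨a, ha, g, hg, rfl⟩ := H1.exists_mul_of_isComplement' hGV x
    letI : MulAction X X := MulAction.compHom X (MulAut.conj : X →* MulAut X)
    obtain ⟨k, hk, hk2⟩ := H1.exists_fixed_point (A := Subgroup.zpowers g) (K := V)
      (by simp [Subgroup.normalizer_eq_top])
      (hcop.symm.coprime_dvd_left (Subgroup.card_dvd_of_le (Subgroup.zpowers_le.2 hg)))
      (Or.inl (H1.isSolvable_zpowers g)) (a * g) (by
        rintro _ ⟨i, rfl⟩
        refine ⟨g ^ i * ((a * g) ^ i)⁻¹, ?_, ?_⟩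
        · rw [← QuotientGroup.eq_one_iff]; simp [(QuotientGroup.eq_one_iff a).2 ha]
        · change g ^ i * ((a * g) ^ i)⁻¹ * (a * g) * (g ^ i * ((a * g) ^ i)⁻¹)⁻¹ =
            g ^ i * (a * g) * (g ^ i)⁻¹
          have := ((Commute.refl (a * g)).zpow_left i).inv_left.eq
          calc _ = g ^ i * (((a * g) ^ i)⁻¹ * (a * g)) * (a * g) ^ i * (g ^ i)⁻¹ := by
                simp only [mul_inv_rev, inv_inv, mul_assoc]
            _ = _ := by rw [this]; simp only [mul_assoc, inv_mul_cancel_left])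
    have h1 : g * (k * (a * g) * k⁻¹) * g⁻¹ = k * (a * g) * k⁻¹ := hk2 g (Subgroup.mem_zpowers g)
    have hc : k * a * (g * k⁻¹ * g⁻¹) ∈ V := mul_mem (mul_mem hk ha) (hN.conj_mem _ (inv_mem hk) g)
    obtain ⟨s, ⟨hs, u, hu, e⟩, -⟩ := hrep _ hc
    refine ⟨⟨⟨s, hs⟩, ConjClasses.mk ⟨u * g * u⁻¹, G.mul_mem (G.mul_mem hu hg) (G.inv_mem hu), ?_⟩⟩, ?_⟩
    · refine Subgroup.mem_centralizer_singleton_iff.2 ?_
      simp only [← e]
      calc _ = u * (g * (k * (a * g) * k⁻¹) * g⁻¹) * u⁻¹ := by group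
        _ = _ := by rw [h1]; group
    · rw [hF]
      refine ConjClasses.mk_eq_mk_iff_isConj.2 (isConj_iff.2 ⟨(u * k)⁻¹, ?_⟩)
      simp only [← e]
      group

end Cfsg.Agent.S4956
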