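import Cfsg.Statements.S4958
import Cfsg.Agent.H8.Knorr

set_option autoImplicit false
open Cfsg

namespace Cfsg.Agent.S4958

open H5 H8 Cfsg

/-- Let X be a finite group and V a normal subgroup of X in which every element has order dividing the prime p, whose index in X is prime to p and which is its own centralizer in X; so V is an elementary abelian normal Sylow p-subgroup, and any complement G to V in X is a group of order prime to p acting faithfully on the vector space V by conjugation (the coprime linear setting of the k(GV) problem). Let G be a complement to V in X and suppose that for some v in V the centralizer of v in G is abelian. Then the number of conjugacy classes of X is at most the order of V (the abelian-stabilizer criterion for the k(GV) problem). -/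
theorem result {X : Type*} [Group X] [Finite X] (p : ℕ) [Fact p.Prime] (V : Subgroup X) [V.Normal] (hVexp : ∀ v ∈ V, v ^ p = 1) (hidx : ¬ p ∣ V.index) (hself : Subgroup.centralizer (V : Set X) = V) (G : Subgroup X) (hGV : Subgroup.IsComplement' V G) (v : X) (hv : v ∈ V) (hab : ∀ a ∈ G ⊓ Subgroup.centralizer ({v} : Set X), ∀ b ∈ G ⊓ Subgroup.centralizer ({v} : Set X), a * b = b * a) : Nat.card (ConjClasses X) ≤ Nat.card V := by
  classical
  have hp : p.Prime := Fact.out
  have hV : ∀ a ∈ V, ∀ b ∈ V, a * b = b * a := fun a ha b hb => (hself.ge hb) a ha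
  obtain ⟨H, hH⟩ : ∃ H, G ⊓ Subgroup.centralizer {v} = H := ⟨_, rfl⟩
  rw [hH] at hab
  have hH1 : H ≤ G := hH ▸ inf_le_left
  letI := Fintype.ofFinite H
  letI : CommGroup H := { (inferInstance : Group H) with
    mul_comm := fun a b => Subtype.ext (hab _ a.2 _ b.2) }
  letI := Fintype.ofFinite (H →* ℂˣ)
  obtain ⟨k, hk⟩ := IsPGroup.iff_card.1 (H1.isPGroup_of_pow_eq_one hVexp)
  have hG : ¬ p ∣ Nat.card G := by rwa [← hGV.symm.index_eq_card]
  have hpos : (0 : ℝ) < Nat.card H * Nat.card H := by
    have : (0 : ℝ) < Nat.card H := by exact_mod_cast Nat.card_pos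
    positivity
  have := knorr_crit hVexp hidx hV hGV hv hH hpos fun θ h1 h2 =>
    knorr_abelian H.subtype hV (by
      rw [hk]
      exact (Nat.Coprime.pow_left k ((Nat.Prime.coprime_iff_not_dvd hp).2 fun e =>
        hG (e.trans (Subgroup.card_dvd_of_le hH1)))).symm) (fun h hh => by
      have : (h : X) ∈ V ⊓ G := ⟨hself.le fun w hw => (hh w hw).symm, hH1 h.2⟩
      rw [(H1.isComplement'_iff_of_normal.1 hGV).1] at this
      exact Subtype.ext this) h1 h2
  exact_mod_cast le_of_mul_le_mul_right this hpos

end Cfsg.Agent.S4958
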