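import Cfsg.Statements.S4959
import Cfsg.Agent.H7.RV2
import Cfsg.Agent.H1.LiftChar
import Cfsg.Agent.H20.AFT

set_option autoImplicit false
open Cfsg

namespace Cfsg.Agent.S4959

open H5 H7

/-- Let X be a finite group and V a normal subgroup of X in which every element has order dividing the prime p, whose index in X is prime to p and which is its own centralizer in X; so V is an elementary abelian normal Sylow p-subgroup, and any complement G to V in X is a group of order prime to p acting faithfully on the vector space V by conjugation (the coprime linear setting of the k(GV) problem). Let G be a complement to V in X, let v be in V and let H be the centralizer of v in G. Suppose there is a subgroup U of V normalized by H, on which H acts faithfully, and carrying an H-invariant bi-additive pairing β with values in the integers modulo p that is nondegenerate on U (equivalently: the restriction of the module V to H has a faithful self-dual submodule; such a v is called a real vector for G). Then the number of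 conjugacy classes of X is at most the order of V (the real-vector criterion for the k(GV) problem). The pairing is given as a function on X whose relevant values are those on pairs from U. -/
theorem result {X : Type*} [Group X] [Finite X] (p : ℕ) [Fact p.Prime] (V : Subgroup X) [V.Normal] (hVexp : ∀ v ∈ V, v ^ p = 1) (hidx : ¬ p ∣ V.index) (hself : Subgroup.centralizer (V : Set X) = V) (G : Subgroup X) (hGV : Subgroup.IsComplement' V G) (v : X) (hv : v ∈ V) (U : Subgroup X) (hUV : U ≤ V) (hUinv : ∀ h ∈ G, h * v * h⁻¹ = v → ∀ u ∈ U, h * u * h⁻¹ ∈ U) (hUfaith : ∀ h ∈ G, h * v * h⁻¹ = v → (∀ u ∈ U, h * u * h⁻¹ = u) → h = 1) (β : X → X → ZMod p) (hβl : ∀ u ∈ U, ∀ u' ∈ U, ∀ w ∈ U, β (u * u') w = β u w + β u' w) (hβr : ∀ u ∈ U, ∀ w ∈ U, ∀ w' ∈ U, β u (w * w') = β u w + β u w') (hβinv : ∀ h ∈ G, h * v * h⁻¹ = v → ∀ u ∈ U, ∀ w ∈ U, β (h * u * h⁻¹) (h * w * h⁻¹) = β u w) (hβnd : ∀ u ∈ U, (∀ w ∈ U, β u w = 0) → u = 1) : Nat.card (ConjClasses X) ≤ Nat.card V := by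
  classical
  have := Fintype.ofFinite X
  obtain ⟨H, hH⟩ : ∃ H, G ⊓ Subgroup.centralizer {v} = H := ⟨_, rfl⟩
  have := Fintype.ofFinite H
  have h1 : ∀ h : H, h.1 ∈ G ∧ h * v * h.1⁻¹ = v := fun h => ⟨(hH.ge h.2).1,
    mul_inv_eq_iff_eq_mul.2 (Subgroup.mem_centralizer_singleton_iff.1 (hH.ge h.2).2)⟩
  have hU : H18.Elem p U := ⟨fun a ha b hb => hself.ge (hUV ha) b (hUV hb), fun a ha => hVexp a (hUV ha)⟩
  have := Fintype.ofFinite (H1.EV hU)
  let B : H1.EV hU →ₗ[ZMod p] H1.EV hU →ₗ[ZMod p] ZMod p := AddMonoidHom.toZModLinearMap p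
    (AddMonoidHom.mk' (fun u => AddMonoidHom.toZModLinearMap p (AddMonoidHom.mk'
      (fun w => β u.val w.val) fun a b => hβr _ u.mem _ a.mem _ b.mem))
      fun a b => LinearMap.ext fun w => hβl _ a.mem _ b.mem _ w.mem)
  obtain ⟨η, e1, e2⟩ := sq_dual (ρ := H1.elemRep hU H.subtype fun h => H20.mem_normalizer_of_conj
    fun u hu => hUinv h (h1 h).1 (h1 h).2 u hu) (B := B)
    (fun e => hidx (hGV.symm.index_eq_card ▸ e.trans (Subgroup.card_dvd_of_le (hH ▸ inf_le_left))))
    (fun h x y => hβinv h (h1 h).1 (h1 h).2 _ x.mem _ y.mem)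
    fun x h => H1.EV.ext (hβnd _ x.mem fun w hw => h (H1.EV.mk hU w hw))
  refine rv_crit (H1.isPGroup_of_pow_eq_one hVexp) hidx (fun a ha b hb => hself.ge hb a ha) hGV hv hH
    hUV (fun h e => Subtype.ext (hUfaith h (h1 h).1 (h1 h).2 fun u hu => mul_inv_eq_iff_eq_mul.2
      (Subgroup.mem_centralizer_singleton_iff.1 (e hu)).symm)) e1 fun h => ?_
  convert e2 h
  exact Nat.card_congr
    { toFun := fun x => ⟨H1.EV.mk hU x x.2.1, H1.EV.ext (mul_inv_eq_iff_eq_mul.2
        (Subgroup.mem_centralizer_singleton_iff.1 x.2.2).symm)⟩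
      invFun := fun x => ⟨x.1.val, x.1.mem, Subgroup.mem_centralizer_singleton_iff.2
        (mul_inv_eq_iff_eq_mul.1 (congrArg H1.EV.val x.2)).symm⟩
      left_inv := fun _ => rfl
      right_inv := fun _ => rfl }

end Cfsg.Agent.S4959
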