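import Cfsg.Statements.S4964
import Cfsg.Agent.H7.Misc2
import Cfsg.Agent.H17.Coprime
import Cfsg.Agent.H2.Frattini

set_option autoImplicit false
open Cfsg

namespace Cfsg.Agent.S4964

open H5 H7

/-- Let D be a normal p-subgroup of the finite group G, let D′ be its commutator subgroup (normal in G), and fix a maximal ideal M of the algebraic integers containing p. Then (i) two irreducible characters of G ⧸ D′ lie in the same p-block if and only if their inflations to G do, and (ii) every p-block of G contains the inflation of some irreducible character of G ⧸ D′; so inflation induces a bijection between the p-blocks of G ⧸ D′ and the p-blocks of G. -/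
theorem result {G : Type*} [Group G] [Finite G] (p : ℕ) [Fact p.Prime] (M : Ideal Cfsg.AlgInt) (hM : Cfsg.IsPModular p M) (D : Subgroup G) [D.Normal] (hD : IsPGroup p D) : (∀ χ ψ : Cfsg.IrrCharacter (G ⧸ ⁅D, D⁆), Cfsg.SameBlock M (χ : G ⧸ ⁅D, D⁆ → ℂ) (ψ : G ⧸ ⁅D, D⁆ → ℂ) ↔ Cfsg.SameBlock M ((χ : G ⧸ ⁅D, D⁆ → ℂ) ∘ QuotientGroup.mk) ((ψ : G ⧸ ⁅D, D⁆ → ℂ) ∘ QuotientGroup.mk)) ∧ ∀ B : Set (Cfsg.IrrCharacter G), Cfsg.IsPBlock M B → ∃ χ : Cfsg.IrrCharacter (G ⧸ ⁅D, D⁆), ∃ θ ∈ B, (θ : G → ℂ) = (χ : G ⧸ ⁅D, D⁆ → ℂ) ∘ QuotientGroup.mk := by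
  haveI : PM p M := ⟨hM⟩
  have hπ := QuotientGroup.mk'_surjective ⁅D, D⁆
  have hle : ⁅D, D⁆ ≤ D := Subgroup.commutator_le_left _ _
  have h1 : IsPGroup p (QuotientGroup.mk' ⁅D, D⁆).ker := by
    rw [QuotientGroup.ker_mk']; exact hD.to_le hle
  refine ⟨fun χ ψ => ⟨sameBlock_comp hπ χ.2 ψ.2, fun h => ?_⟩, fun B hB => ?_⟩
  · refine (sameBlock_iff_pRegular (p := p) χ.2 ψ.2).2 fun x hx => ?_
    have := Subgroup.Normal.map ‹D.Normal› _ hπ
    by_cases hc : x ∈ Subgroup.centralizer (D.map (QuotientGroup.mk' ⁅D, D⁆) : Set (G ⧸ ⁅D, D⁆))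
    · obtain ⟨y, hy, rfl⟩ := exists_pRegular_lift hπ hx
      have h2 : ⁅D, Subgroup.zpowers y⁆ ≤ ⁅D, D⁆ := by
        rw [← QuotientGroup.ker_mk' ⁅D, D⁆, ← Subgroup.map_eq_bot_iff, Subgroup.map_commutator,
          MonoidHom.map_zpowers]
        exact H17.commutator_eq_bot_of_le_centralizer' (Subgroup.zpowers_le.2 hc)
      have h3 := (H17.Cop.of_pgroup' (A := Subgroup.zpowers y) (by rwa [Nat.card_zpowers]) hD
        (by rw [Subgroup.normalizer_eq_top]; exact le_top)).eq_centralizer_sup_commutator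
      have := hD.isNilpotent
      have h4 := H2.eq_of_sup_of_le_frattini (N := ⁅D, D⁆) (by
        rw [← Subgroup.map_subtype_commutator]
        exact Subgroup.map_mono H2.commutator_le_frattini_of_nilpotent) inf_le_left
        (le_antisymm (sup_le hle inf_le_left) (h3.le.trans (by
          rw [sup_comm]; exact sup_le_sup_right h2 _)))
      have h5 : y ∈ Subgroup.centralizer ((QuotientGroup.mk' ⁅D, D⁆).ker : Set G) := by
        rw [QuotientGroup.ker_mk', ← le_centralizer_singleton_iff, ← centralizer_zpowers]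
        exact hle.trans (inf_eq_left.1 h4)
      rw [← centralChar_comp_eq hπ h1 _ hy h5, ← centralChar_comp_eq hπ h1 _ hy h5]
      exact (sameBlock_iff_red (χ.2.comp_surjective _ hπ) (ψ.2.comp_surjective _ hπ)).1 h y
    · rw [not_not.1 (mt (mem_centralizer_of_lam χ.2 (hD.map _)) hc),
        not_not.1 (mt (mem_centralizer_of_lam ψ.2 (hD.map _)) hc)]
  · obtain ⟨b, hb, h2, -⟩ := exists_dominated hπ h1 hB
    obtain ⟨χ, hχ⟩ := block_nonempty hb
    exact ⟨χ, _, h2 hχ, rfl⟩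

end Cfsg.Agent.S4964
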