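import Cfsg.Statements.S4965
import Cfsg.Agent.H8.KGV

set_option autoImplicit false
open Cfsg

namespace Cfsg.Agent.S4965

open H5 H8 Cfsg

/-- Let X be a finite group with an abelian normal subgroup V (any two elements of V commute), and let φ be the action of X ⧸ V on V induced by conjugation (well defined because V is abelian; the hypothesis hφ says that the class of x acts as conjugation by x). Then X has at most as many conjugacy classes as the semidirect product of V by X ⧸ V formed with this action: the split extension has the largest class number among extensions with the given action. -/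
theorem result {X : Type*} [Group X] [Finite X] (V : Subgroup X) [V.Normal] (hab : ∀ a ∈ V, ∀ b ∈ V, a * b = b * a) (φ : X ⧸ V →* MulAut ↥V) (hφ : ∀ (x : X) (v : ↥V), ((φ (QuotientGroup.mk x) v : ↥V) : X) = x * v * x⁻¹) : Nat.card (ConjClasses X) ≤ Nat.card (ConjClasses (SemidirectProduct ↥V (X ⧸ V) φ)) := by
  classical
  have hc : Nat.card (SemidirectProduct V (X ⧸ V) φ) = Nat.card X := by
    rw [SemidirectProduct.card, mul_comm, ← Subgroup.card_eq_card_quotient_mul_card_subgroup]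
  haveI : Finite (SemidirectProduct V (X ⧸ V) φ) :=
    Nat.finite_of_card_ne_zero (by rw [hc]; exact Nat.card_pos.ne')
  apply Nat.le_of_mul_le_mul_right _ (Nat.card_pos (α := X))
  rw [← card_comm_eq_card_conjClasses_mul_card, ← hc, ← card_comm_eq_card_conjClasses_mul_card]
  have key : ∀ q : (X ⧸ V) × (X ⧸ V), ∃ r : X × X, ∀ x y : X, Commute x y → (x : X ⧸ V) = q.1 →
      (y : X ⧸ V) = q.2 → Commute r.1 r.2 ∧ x * r.1⁻¹ ∈ V ∧ y * r.2⁻¹ ∈ V := by
    intro q
    by_cases h : ∃ x y : X, Commute x y ∧ (x : X ⧸ V) = q.1 ∧ (y : X ⧸ V) = q.2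
    · obtain ⟨a, b, h1, h2, h3⟩ := h
      refine ⟨(a, b), fun x y _ hx hy => ⟨h1, ?_, ?_⟩⟩
      · rw [← QuotientGroup.eq_one_iff]; simp [hx, h2]
      · rw [← QuotientGroup.eq_one_iff]; simp [hy, h3]
    · exact ⟨(1, 1), fun x y h1 h2 h3 => (h ⟨x, y, h1, h2, h3⟩).elim⟩
  choose r hr using key
  refine Nat.card_le_card_of_injective (fun z => ⟨(⟨⟨_, (hr (z.1.1, z.1.2) _ _ z.2 rfl rfl).2.1⟩,
    z.1.1⟩, ⟨⟨_, (hr (z.1.1, z.1.2) _ _ z.2 rfl rfl).2.2⟩, z.1.2⟩), ?_⟩) ?_
  · obtain ⟨⟨x, y⟩, h⟩ := z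
    obtain ⟨h1, h2, h3⟩ := hr (x, y) _ _ h rfl rfl
    have h' : x * y = y * x := h
    ext
    · simp only [SemidirectProduct.mul_left, Subgroup.coe_mul, hφ]
      generalize r (x, y) = a at h1 h2 h3
      obtain ⟨a, b⟩ := a
      have h1' : a * b = b * a := h1
      have e1 := hab _ h2 _ (‹V.Normal›.conj_mem _ h3 a)
      have e2 := hab _ h3 _ (‹V.Normal›.conj_mem _ h2 b)
      have e3 := hab _ h2 _ (‹V.Normal›.conj_mem _ h3 x)
      have e4 := hab _ h3 _ (‹V.Normal›.conj_mem _ h2 y)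
      simp only at *
      have f1 : x * (y * b⁻¹) * x⁻¹ = a * (y * b⁻¹) * a⁻¹ := by
        calc _ = x * a⁻¹ * (a * (y * b⁻¹) * a⁻¹) * (x * a⁻¹)⁻¹ := by group
          _ = _ := by rw [e1]; group
      have f2 : y * (x * a⁻¹) * y⁻¹ = b * (x * a⁻¹) * b⁻¹ := by
        calc _ = y * b⁻¹ * (b * (x * a⁻¹) * b⁻¹) * (y * b⁻¹)⁻¹ := by group
          _ = _ := by rw [e2]; group
      rw [f1, f2]
      calc _ = (x * y) * (a * b)⁻¹ := by group
        _ = (y * x) * (b * a)⁻¹ := by rw [h', h1']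
        _ = _ := by group
    · simp only [SemidirectProduct.mul_right, ← QuotientGroup.mk_mul, h']
  · rintro ⟨⟨x, y⟩, h⟩ ⟨⟨x', y'⟩, h'⟩ e
    simp only [Subtype.mk.injEq, Prod.mk.injEq, SemidirectProduct.ext_iff] at e
    obtain ⟨⟨e1, e2⟩, e3, e4⟩ := e
    rw [e2, e4] at e1 e3
    exact Subtype.ext (Prod.ext (mul_right_cancel e1) (mul_right_cancel e3))

end Cfsg.Agent.S4965
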