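import Cfsg.Statements.S4967
import Mathlib

set_option autoImplicit false
open Cfsg

namespace Cfsg.Agent.S4967

open Module

theorem abs_part {F K H : Type*} [Field F] [Fintype F] [Field K] [Algebra F K] [Finite K]
    [CommGroup H] [Finite H] (φ : H →* K) (hinj : Function.Injective φ)
    (hgen : Submodule.span F (Set.range φ) = ⊤) (h2 : 2 ≤ finrank F K) :
    (∃ B : LinearMap.BilinForm F K, B.Nondegenerate ∧
      ∀ (h : H) (x y : K), B (φ h * x) (φ h * y) = B x y) ↔
    (Even (finrank F K) ∧ Nat.card H ∣ Fintype.card F ^ (finrank F K / 2) + 1) := by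
  classical
  have hmi : ∀ h : H, φ h * φ h⁻¹ = 1 := fun h => by rw [← map_mul, mul_inv_cancel, map_one]
  set Fr := FiniteField.frobeniusAlgEquivOfAlgebraic F K with hFr
  have hFrp : ∀ (j : ℕ) (x : K), (Fr ^ j) x = x ^ (Fintype.card F ^ j) := fun j x => by
    rw [AlgEquiv.coe_pow, hFr, FiniteField.coe_frobeniusAlgEquivOfAlgebraic_iterate]
  have hord : orderOf Fr = finrank F K := FiniteField.orderOf_frobeniusAlgEquivOfAlgebraic F K
  haveI : IsCyclic H := isCyclic_of_injective_ringHom φ hinj
  constructor
  · rintro ⟨B, hB, hinv⟩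
    let e : K ≃ₗ[F] Dual F K := LinearMap.BilinForm.toDual B.flip hB.flip
    have he : ∀ y x, e y x = B x y := fun y x => rfl
    let L : K →ₗ[F] Dual F K := (LinearMap.mul F K).compr₂ (B.flip 1)
    have hL : ∀ a x, L a x = B (a * x) 1 := fun a x => rfl
    let σ : K →ₗ[F] K := e.symm.toLinearMap ∘ₗ L
    have hσ1 : ∀ a x, B x (σ a) = B (a * x) 1 := fun a x => by
      rw [← he, ← hL]; simp [σ]
    have ext : ∀ y z : K, (∀ x, B x y = B x z) → y = z := fun y z h => by
      apply e.injective; ext x; rw [he, he, h]
    have hh : ∀ (h : H) (x y : K), B (φ h * x) y = B x (φ h⁻¹ * y) := fun h x y => by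
      rw [← hinv h x (φ h⁻¹ * y), ← mul_assoc, hmi, one_mul]
    have hσh : ∀ h : H, σ (φ h) = φ h⁻¹ := fun h => ext _ _ fun x => by
      rw [hσ1, hh, mul_one]
    have hσ : ∀ a x y, B (a * x) y = B x (σ a * y) := by
      intro a
      have ha : a ∈ Submodule.span F (Set.range φ) := by rw [hgen]; trivial
      induction ha using Submodule.span_induction with
      | mem a ha => obtain ⟨h, rfl⟩ := ha; intro x y; rw [hσh, hh]
      | zero => intro x y; simp
      | add a b _ _ iha ihb => intro x y; simp [add_mul, iha, ihb]
      | smul c a _ iha => intro x y; simp [iha]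
    let τ : K →ₐ[F] K := AlgHom.ofLinearMap σ (ext _ _ fun x => by rw [hσ1, one_mul])
      (fun a b => ext _ _ fun x => by
        rw [hσ1, mul_comm a b, mul_assoc, hσ, hσ, mul_one])
    let τ' : K ≃ₐ[F] K := AlgEquiv.ofBijective τ (τ.bijective)
    have hτ' : ∀ h : H, τ' (φ h) = φ h⁻¹ := hσh
    obtain ⟨⟨j, hj⟩, hjj⟩ := (FiniteField.bijective_frobeniusAlgEquivOfAlgebraic_pow F K).2 τ'
    have hjj' : Fr ^ j = τ' := hjj
    have hsq : τ' * τ' = 1 := by
      have : (τ' * τ').toLinearMap = (1 : K ≃ₐ[F] K).toLinearMap := by
        apply LinearMap.ext_on_range hgen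
        intro h
        show τ' (τ' (φ h)) = φ h
        rw [hτ', hτ', inv_inv]
      ext x
      exact LinearMap.congr_fun this x
    have hdvd : finrank F K ∣ j + j := by
      rw [← hord, orderOf_dvd_iff_pow_eq_one, pow_add, hjj', hsq]
    have hj0 : j ≠ 0 := by
      rintro rfl
      have hb : Submodule.span F (Set.range φ) ≤ Submodule.span F {(1 : K)} := by
        rw [Submodule.span_le]
        rintro _ ⟨h, rfl⟩
        have h1 := hτ' h
        rw [← hjj', pow_zero, AlgEquiv.one_apply] at h1
        have h3 := hmi h
        rw [← h1] at h3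
        rcases mul_self_eq_one_iff.1 h3 with h4 | h4
        · rw [h4]; exact Submodule.mem_span_singleton_self _
        · rw [h4]; exact Submodule.neg_mem _ (Submodule.mem_span_singleton_self _)
      rw [hgen] at hb
      have := Submodule.finrank_mono hb
      rw [finrank_top, finrank_span_singleton one_ne_zero] at this
      omega
    obtain ⟨c, hc⟩ := hdvd
    have hc1 : c = 1 := by
      rcases c with _ | _ | c
      · omega
      · rfl
      · nlinarith
    subst hc1
    have hn : finrank F K = j + j := by omega
    refine ⟨⟨j, hn⟩, ?_⟩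
    have hj2 : finrank F K / 2 = j := by omega
    rw [hj2, ← IsCyclic.exponent_eq_card]
    apply Monoid.exponent_dvd_of_forall_pow_eq_one
    intro h
    apply hinj
    have h1 := hτ' h
    rw [← hjj', hFrp] at h1
    rw [map_pow, pow_succ, h1, mul_comm, hmi, map_one]
  · rintro ⟨-, hdvd⟩
    set m := finrank F K / 2
    let τ := Fr ^ m
    have hτ : ∀ h : H, φ h * τ (φ h) = 1 := fun h => by
      have : h ^ (Fintype.card F ^ m + 1) = 1 :=
        orderOf_dvd_iff_pow_eq_one.1 ((orderOf_dvd_natCard h).trans hdvd)
      rw [hFrp, ← pow_succ', ← map_pow, this, map_one]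
    let B : LinearMap.BilinForm F K := (Algebra.traceForm F K).compl₂ τ.toLinearMap
    have hBe : ∀ x y, B x y = Algebra.trace F K (x * τ y) := fun x y => rfl
    have hnd := traceForm_nondegenerate F K
    refine ⟨B, ⟨fun x hx => hnd.1 x fun y => ?_, fun y hy => ?_⟩, fun h x y => ?_⟩
    · have := hx (τ.symm y)
      rw [hBe, AlgEquiv.apply_symm_apply] at this
      exact this
    · have := hnd.2 (τ y) fun x => hy x
      exact (map_eq_zero_iff τ τ.injective).1 this
    · rw [hBe, hBe, map_mul τ]
      congr 1
      linear_combination (x * τ y) * hτ h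

/-- Let F be a finite field with r elements and of characteristic p, H a finite abelian group of order prime to p, and V a faithful irreducible representation of H over F of dimension n (faithful: distinct elements act differently; irreducible: the only H-invariant subspaces are 0 and V). Call V self-dual when it carries a nondegenerate H-invariant bilinear form. If n = 1 and V is self-dual then H has order at most 2. If n ≥ 2 then V is self-dual if and only if n is even and the order of H divides r^(n/2) + 1. -/
theorem result {F : Type*} [Field F] [Fintype F] (p : ℕ) [Fact p.Prime] [CharP F p] {H : Type*} [CommGroup H] [Finite H] (hcop : ¬ p ∣ Nat.card H) {V : Type*} [AddCommGroup V] [Module F V] [FiniteDimensional F V] (ρ : Representation F H V) (hfaith : Function.Injective ρ) (hirr : ∀ U : Submodule F V, (∀ h : H, ∀ u ∈ U, ρ h u ∈ U) → U = ⊥ ∨ U = ⊤) : (Module.finrank F V = 1 → (∃ B : LinearMap.BilinForm F V, B.Nondegenerate ∧ ∀ h : H, ∀ x y : V, B (ρ h x) (ρ h y) = B x y) → Nat.card H ≤ 2) ∧ (2 ≤ Module.finrank F V → ((∃ B : LinearMap.BilinForm F V, B.Nondegenerate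 ∧ ∀ h : H, ∀ x y : V, B (ρ h x) (ρ h y) = B x y) ↔ (Even (Module.finrank F V) ∧ Nat.card H ∣ Fintype.card F ^ (Module.finrank F V / 2) + 1))) := by
  classical
  refine ⟨fun h1 hB => ?_, fun h2 => ?_⟩
  · obtain ⟨B, hB, hinv⟩ := hB
    obtain ⟨v, hv, hall⟩ := finrank_eq_one_iff'.1 h1
    have hvv : B v v ≠ 0 := fun h0 => hv (hB.1 v fun y => by
      obtain ⟨c, rfl⟩ := hall y
      simp [h0])
    have key : ∀ h : H, ρ h ∈ ({1, -1} : Finset (V →ₗ[F] V)) := fun h => by
      obtain ⟨c, hc⟩ := hall (ρ h v)
      have h3 := hinv h v v
      rw [← hc] at h3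
      have h4 : c * c = 1 := by
        apply mul_right_cancel₀ hvv
        simp at h3
        rw [one_mul, mul_assoc]; exact h3
      have h5 : ∀ d : F, c = d → ρ h = d • (1 : V →ₗ[F] V) := fun d hd => by
        ext y
        obtain ⟨a, rfl⟩ := hall y
        rw [map_smul, ← hc, hd]; simp [smul_comm a d]
      rcases mul_self_eq_one_iff.1 h4 with h6 | h6
      · rw [h5 _ h6]; simp
      · rw [h5 _ h6]; simp
    calc Nat.card H ≤ Nat.card ({1, -1} : Finset (V →ₗ[F] V)) :=
          Nat.card_le_card_of_injective (fun h => ⟨ρ h, key h⟩)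
            (fun a b hab => hfaith (congrArg Subtype.val hab))
      _ ≤ 2 := by rw [Nat.card_eq_fintype_card, Fintype.card_coe]; exact Finset.card_le_two
  · haveI : Finite V := Module.finite_of_finite F
    haveI : Finite (V →ₗ[F] V) := DFunLike.finite _
    haveI : Nontrivial V := Module.nontrivial_of_finrank_pos (R := F) (by omega)
    let K : Subalgebra F (Module.End F V) := Algebra.adjoin F (Set.range ρ)
    have hcomm : ∀ a ∈ Set.range ρ, ∀ b ∈ Set.range ρ, a * b = b * a := by
      rintro _ ⟨a, rfl⟩ _ ⟨b, rfl⟩
      rw [← map_mul, mul_comm, map_mul]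
    have hK : ∀ a b : K, a * b = b * a := fun a b =>
      (Algebra.isMulCommutative_adjoin F hcomm).is_comm.comm a b
    let φ : H →* K := (ρ : H →* Module.End F V).codRestrict K.toSubmonoid
      fun h => Algebra.subset_adjoin ⟨h, rfl⟩
    have hφ : ∀ h, (φ h : Module.End F V) = ρ h := fun h => rfl
    have hinjK : ∀ a : K, a ≠ 0 → Function.Injective (a : Module.End F V) := fun a ha => by
      rcases hirr (LinearMap.ker (a : Module.End F V)) (fun h u hu => by
        have := congrArg (fun t : K => (t : Module.End F V) u) (hK a (φ h))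
        simp only [MulMemClass.coe_mul, hφ, Module.End.mul_apply] at this
        rw [LinearMap.mem_ker] at hu ⊢
        rw [this, hu, map_zero]) with h0 | h0
      · exact LinearMap.ker_eq_bot.1 h0
      · exact absurd (Subtype.ext (LinearMap.ker_eq_top.1 h0)) ha
    haveI : NoZeroDivisors K := ⟨fun {a b} hab => by
      by_contra hne
      push Not at hne
      apply hne.2
      apply Subtype.ext
      ext x
      apply hinjK a hne.1
      have := congrArg (fun t : K => (t : Module.End F V) x) hab
      simpa using this⟩
    haveI : IsDomain K := NoZeroDivisors.to_isDomain K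
    have hF : IsField K := by
      letI : CommRing K := { (inferInstance : Ring K) with mul_comm := hK }
      exact Finite.isField_of_domain K
    obtain ⟨v, hv⟩ := exists_ne (0 : V)
    let ev : K →ₗ[F] V := (LinearMap.applyₗ v) ∘ₗ K.val.toLinearMap
    have hev : ∀ a : K, ev a = (a : Module.End F V) v := fun a => rfl
    have hevφ : ∀ (h : H) (a : K), ev (φ h * a) = ρ h (ev a) := fun h a => rfl
    have hbij : Function.Bijective ev := by
      constructor
      · rw [injective_iff_map_eq_zero]
        intro a ha
        by_contra hne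
        exact hv (hinjK a hne (by rw [map_zero]; exact ha))
      · rcases hirr (LinearMap.range ev) (by
          rintro h _ ⟨a, rfl⟩; exact ⟨φ h * a, rfl⟩) with h0 | h0
        · exfalso
          have : ev 1 ∈ LinearMap.range ev := ⟨1, rfl⟩
          rw [h0] at this
          exact hv this
        · exact LinearMap.range_eq_top.1 h0
    let e : K ≃ₗ[F] V := LinearEquiv.ofBijective ev hbij
    have he : ∀ (h : H) (a : K), e (φ h * a) = ρ h (e a) := hevφ
    have hrk : finrank F K = finrank F V := e.finrank_eq
    have hgen : Submodule.span F (Set.range φ) = ⊤ := by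
      apply Submodule.map_injective_of_injective (f := K.val.toLinearMap) Subtype.val_injective
      rw [Submodule.map_span, Submodule.map_top]
      have h1 : K.val.toLinearMap '' Set.range φ = Set.range ρ := by
        rw [← Set.range_comp]; rfl
      have h3 : LinearMap.range K.val.toLinearMap = Subalgebra.toSubmodule K := by
        ext x; simp
      rw [h1, h3, Algebra.adjoin_eq_span]
      congr 1
      have : Set.range ρ = (MonoidHom.mrange (ρ : H →* Module.End F V) : Set _) := rfl
      rw [this, Submonoid.closure_eq]
    have hinjφ : Function.Injective φ := fun a b hab => hfaith (congrArg Subtype.val hab)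
    letI : Field K := hF.toField
    have := abs_part (F := F) (K := K) φ hinjφ hgen (by rw [hrk]; exact h2)
    rw [hrk] at this
    rw [← this]
    constructor
    · rintro ⟨B, hB, hinv⟩
      refine ⟨B.compl₁₂ e.toLinearMap e.toLinearMap, ⟨fun x hx => ?_, fun y hy => ?_⟩,
        fun h x y => ?_⟩
      · apply e.injective
        rw [map_zero]
        refine hB.1 _ fun y => ?_
        simpa using hx (e.symm y)
      · apply e.injective
        rw [map_zero]
        refine hB.2 _ fun x => ?_
        simpa using hy (e.symm x)
      · show B (e _) (e _) = B (e x) (e y)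
        rw [he, he, hinv]
    · rintro ⟨B, hB, hinv⟩
      refine ⟨B.compl₁₂ e.symm.toLinearMap e.symm.toLinearMap, ⟨fun x hx => ?_, fun y hy => ?_⟩,
        fun h x y => ?_⟩
      · apply e.symm.injective
        rw [map_zero]
        refine hB.1 _ fun y => ?_
        simpa using hx (e y)
      · apply e.symm.injective
        rw [map_zero]
        refine hB.2 _ fun x => ?_
        simpa using hy (e x)
      · obtain ⟨x, rfl⟩ := e.surjective x
        obtain ⟨y, rfl⟩ := e.surjective y
        show B (e.symm _) (e.symm _) = B (e.symm (e x)) (e.symm (e y))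
        rw [← he, ← he]
        simp only [LinearEquiv.symm_apply_apply]
        exact hinv h x y

end Cfsg.Agent.S4967
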