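import Cfsg.Statements.S5014
import Cfsg.Agent.H28.RankOne

set_option autoImplicit false
open Cfsg

namespace Cfsg.Agent.S5014
open H28


/-- Let X = ⟨A, B⟩ be a rank one group with unipotent subgroups A and B and let Ω be the set of conjugates of A under X. Then Ω has at least three members, X acts doubly transitively on Ω by conjugation (any two ordered pairs of distinct members are carried to one another by a single element of X), and A acts regularly on Ω with A removed: for C, D in Ω different from A there is exactly one element of A conjugating C to D. -/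
theorem result {G : Type*} [Group G] {A B : Subgroup G} (h : Cfsg.IsRankOnePair A B) :
    (∃ C₁ ∈ Cfsg.unipotentSubgroups A B, ∃ C₂ ∈ Cfsg.unipotentSubgroups A B, ∃ C₃ ∈ Cfsg.unipotentSubgroups A B,
      C₁ ≠ C₂ ∧ C₁ ≠ C₃ ∧ C₂ ≠ C₃) ∧
    (∀ C₁ ∈ Cfsg.unipotentSubgroups A B, ∀ C₂ ∈ Cfsg.unipotentSubgroups A B, ∀ D₁ ∈ Cfsg.unipotentSubgroups A B,
      ∀ D₂ ∈ Cfsg.unipotentSubgroups A B, C₁ ≠ C₂ → D₁ ≠ D₂ →
        ∃ x ∈ A ⊔ B, Cfsg.conjBy C₁ x = D₁ ∧ Cfsg.conjBy C₂ x = D₂) ∧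
    (∀ C ∈ Cfsg.unipotentSubgroups A B, ∀ D ∈ Cfsg.unipotentSubgroups A B, C ≠ A → D ≠ A →
      ∃! a : G, a ∈ A ∧ Cfsg.conjBy C a = D) := by
  rw [unip_eq_Om h]
  refine ⟨?_, ?_, ?_⟩
  · obtain ⟨a, ha, ha1⟩ := exists_ne_one (r1_ne_bot h)
    exact ⟨A, left_mem_Om, B, right_mem_Om, cj a B, cj_mem_Om_left ha right_mem_Om, h.ne,
      (cj_right_ne_left h ha).symm, (cj_ne_right h ha ha1).symm⟩
  · intro C₁ h₁ C₂ h₂ D₁ h₃ D₂ h₄ hC hD
    obtain ⟨x, hx, rfl, rfl⟩ := exists_cj_pair h h₁ h₂ hC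
    obtain ⟨y, hy, rfl, rfl⟩ := exists_cj_pair h h₃ h₄ hD
    refine ⟨y * x⁻¹, mul_mem hy (inv_mem hx), ?_, ?_⟩ <;> rw [cj_def, cj_mul, cj_inv_cj]
  · rintro C (rfl | ⟨a, ha, rfl⟩) D (rfl | ⟨a', ha', rfl⟩) hC hD
    · exact absurd rfl hC
    · exact absurd rfl hC
    · exact absurd rfl hD
    · refine ⟨a' * a⁻¹, ⟨A.mul_mem ha' (A.inv_mem ha), by rw [cj_def, cj_mul, cj_inv_cj]⟩, fun c ⟨hc, h2⟩ => ?_⟩
      rw [cj_def, ← cj_mul] at h2
      rw [← r1_eq_of_cj_eq h (A.mul_mem hc ha) ha' h2]; group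

end Cfsg.Agent.S5014
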