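import Cfsg.Statements.S5015
import Cfsg.Agent.H28.RankOne

set_option autoImplicit false
open Cfsg

namespace Cfsg.Agent.S5015
open H28


/-- Let a group Y act doubly transitively on a set Ω with at least three points, and suppose that the stabilizer of a point α contains a nilpotent subgroup A, normalized by that stabilizer, which acts regularly on the points other than α. Then for any y in Y moving α, the subgroups A and y A y⁻¹ are the unipotent subgroups of a rank one group, and the normal closure of A in Y (the subgroup generated by all conjugates of A) is generated by A and y A y⁻¹ alone. -/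
theorem result {Y Ω : Type*} [Group Y] [MulAction Y Ω]
    (h2 : MulAction.IsMultiplyPretransitive Y Ω 2) (hΩ : 3 ≤ ENat.card Ω) (α : Ω) (A : Subgroup Y)
    (hA : A ≤ MulAction.stabilizer Y α) (hAn : ∀ y ∈ MulAction.stabilizer Y α, Cfsg.conjBy A y = A)
    (hnil : Group.IsNilpotent A) (hreg : ∀ β γ : Ω, β ≠ α → γ ≠ α → ∃! a : Y, a ∈ A ∧ a • β = γ)
    (y : Y) (hy : y ∉ MulAction.stabilizer Y α) :
    Cfsg.IsRankOnePair A (Cfsg.conjBy A y) ∧ Subgroup.normalClosure (A : Set Y) = A ⊔ Cfsg.conjBy A y := by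
  have htr : ∀ a b c d : Ω, a ≠ b → c ≠ d → ∃ g : Y, g • a = c ∧ g • b = d :=
    fun a b c d hab hcd => MulAction.is_two_pretransitive_iff.1 h2 hab hcd
  -- the subgroup attached to a point
  have hU : ∀ g g' : Y, g • α = g' • α → cj g A = cj g' A := by
    intro g g' hg
    have : g'⁻¹ * g ∈ MulAction.stabilizer Y α := by
      rw [MulAction.mem_stabilizer_iff, mul_smul, hg, inv_smul_smul]
    have h3 : cj (g'⁻¹ * g) A = A := hAn _ this
    rw [cj_mul, cj_eq_iff, inv_inv] at h3
    exact h3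
  have hfix : ∀ g : Y, ∀ a ∈ cj g A, a • g • α = g • α := by
    intro g a ha
    have : (g⁻¹ * a * g) • α = α := hA (mem_cj.1 ha)
    rw [mul_smul, mul_smul, inv_smul_eq_iff] at this
    exact this
  have hreg' : ∀ g : Y, ∀ β γ : Ω, β ≠ g • α → γ ≠ g • α → ∃ a ∈ cj g A, a • β = γ := by
    intro g β γ hβ hγ
    obtain ⟨a, ⟨ha, h3⟩, -⟩ := hreg (g⁻¹ • β) (g⁻¹ • γ) (fun h => hβ (by rw [← h]; simp)) (fun h => hγ (by rw [← h]; simp))
    exact ⟨g * a * g⁻¹, conj_mem_cj ha, by rw [mul_smul, mul_smul, h3]; simp⟩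
  have hfree : ∀ g : Y, ∀ a ∈ cj g A, ∀ β : Ω, β ≠ g • α → a • β = β → a = 1 := by
    intro g a ha β hβ h3
    have hβ' : g⁻¹ • β ≠ α := fun h => hβ (by rw [← h]; simp)
    obtain ⟨a', -, huniq⟩ := hreg (g⁻¹ • β) (g⁻¹ • β) hβ' hβ'
    have h4 := huniq _ ⟨mem_cj.1 ha, by rw [mul_smul, mul_smul, smul_inv_smul, h3]⟩
    have h5 := huniq 1 ⟨A.one_mem, one_smul _ _⟩
    have h6 : g⁻¹ * a * g = 1 := h4.trans h5.symm
    have : a = g * (g⁻¹ * a * g) * g⁻¹ := by group
    rw [this, h6]; group
  have hthird : ∀ β γ : Ω, ∃ δ : Ω, δ ≠ β ∧ δ ≠ γ := by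
    intro β γ
    by_contra hcon
    push Not at hcon
    have : (Set.univ : Set Ω) ⊆ {β, γ} := by
      intro δ _
      by_cases h : δ = β
      · exact Or.inl h
      · exact Or.inr (hcon δ h)
    have h3 := Set.encard_le_encard this
    rw [Set.encard_univ] at h3
    have h4 : ({β, γ} : Set Ω).encard ≤ 2 := by
      refine (Set.encard_insert_le _ _).trans ?_
      rw [Set.encard_singleton]; norm_num
    have := hΩ.trans (h3.trans h4)
    norm_num at this
  have cond : ∀ g g' : Y, g • α ≠ g' • α → RankOneCondition (cj g A) (cj g' A) := by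
    intro g g' hne
    rw [cond_iff]
    intro a ha ha1
    have h3 : a • g' • α ≠ g' • α := fun h => ha1 (hfree g a ha _ hne.symm h)
    obtain ⟨b, hb, h4⟩ := hreg' g' (g • α) (a • g' • α) hne h3
    refine ⟨b, hb, ?_, ?_⟩
    · rintro rfl
      rw [one_smul] at h4
      apply hne
      have := hfix g a ha
      rw [← this] at h4
      exact smul_left_cancel a h4
    · rw [← cj_mul, ← cj_mul]
      apply hU
      rw [mul_smul, mul_smul, h4]
  have hy' : (1 : Y) • α ≠ y • α := by rw [one_smul]; exact fun h => hy h.symm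
  have hR : IsRankOnePair A (cj y A) := by
    refine ⟨fun h => ?_, hnil, nilpotent_cj hnil y, by simpa using cond 1 y hy', by simpa using cond y 1 hy'.symm⟩
    obtain ⟨δ, hδ1, hδ2⟩ := hthird α (y • α)
    obtain ⟨a, ⟨ha, h3⟩, -⟩ := hreg (y • α) δ (by simpa using hy'.symm) hδ1
    rw [h] at ha
    exact hδ2 (h3.symm.trans (hfix y a ha))
  refine ⟨hR, le_antisymm ?_ (sup_le Subgroup.le_normalClosure ?_)⟩
  · have hall : ∀ g : Y, cj g A ≤ A ⊔ cj y A := by
      intro g
      by_cases hg : g • α = α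
      · rw [hU g 1 (by simpa using hg), cj_one]; exact le_sup_left
      · obtain ⟨a, ⟨ha, h3⟩, -⟩ := hreg (y • α) (g • α) (by simpa using hy'.symm) hg
        rw [← hU (a * y) g (by rw [mul_smul, h3]), cj_mul]
        exact cj_le_of_mem (Subgroup.mem_sup_left ha) le_sup_right
    unfold Subgroup.normalClosure
    rw [Subgroup.closure_le]
    intro x hx
    obtain ⟨a, ha, h3⟩ := Group.mem_conjugatesOfSet_iff.1 hx
    obtain ⟨g, rfl⟩ := isConj_iff.1 h3
    exact hall g (conj_mem_cj ha)
  · rw [cj_def, ← cj_normal (N := Subgroup.normalClosure (A : Set Y)) inferInstance y]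
    exact cj_mono Subgroup.le_normalClosure

end Cfsg.Agent.S5015
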