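import Cfsg.Statements.S5017
import Cfsg.Agent.H28.RankOne

set_option autoImplicit false
open Cfsg

namespace Cfsg.Agent.S5017
open H28


/-- Let X be a rank one group with unipotent subgroups A and B and N a normal subgroup of X. Then either X = N A or N lies in the centre of X. Consequently a perfect rank one group is quasisimple. -/
theorem result {X : Type*} [Group X] {A B : Subgroup X} (h : Cfsg.IsRankOneGroup X A B) :
    (∀ N : Subgroup X, N.Normal → N ⊔ A = ⊤ ∨ N ≤ Subgroup.center X) ∧
    (Group.IsPerfect X → Cfsg.IsQuasisimple X) := by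
  have key : ∀ N : Subgroup X, N.Normal → N ⊔ A = ⊤ ∨ N ≤ Subgroup.center X := by
    intro N hN
    rcases r1_normal h.2 (N := N) (fun x _ => cj_normal hN x) with h2 | h2
    · left
      rw [eq_top_iff, ← h.1]
      exact sup_le le_sup_right h2
    · right
      intro n hn
      exact Subgroup.mem_center_iff.2 fun x => (h2 n hn (h.1 ▸ Subgroup.mem_top n) x (h.1 ▸ Subgroup.mem_top x)).symm
  refine ⟨key, fun hp => ⟨hp, ?_⟩⟩
  have hnt : Nontrivial (X ⧸ Subgroup.center X) := by
    rw [QuotientGroup.nontrivial_iff]
    intro h3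
    apply r1_commutator_ne_bot h.2
    exact commutator_eq_bot_iff.2 fun a _ b _ => (Subgroup.mem_center_iff.1 (h3 ▸ Subgroup.mem_top b) a)
  refine ⟨fun M hM => ?_⟩
  have hN : (M.comap (QuotientGroup.mk' (Subgroup.center X))).Normal := hM.comap _
  rcases key _ hN with h2 | h2
  · right
    set N := M.comap (QuotientGroup.mk' (Subgroup.center X)) with hNdef
    have hnil : Group.IsNilpotent (X ⧸ N) := by
      have := h.2.nilpotent_left
      refine Group.nilpotent_of_surjective ((QuotientGroup.mk' N).comp A.subtype) ?_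
      intro q
      obtain ⟨x, rfl⟩ := QuotientGroup.mk_surjective q
      have hx : x ∈ ((N ⊔ A : Subgroup X) : Set X) := h2 ▸ Subgroup.mem_top x
      rw [Subgroup.normal_mul] at hx
      obtain ⟨n, hn, a, ha, rfl⟩ := hx
      refine ⟨⟨a, ha⟩, ?_⟩
      simp [(QuotientGroup.eq_one_iff n).2 hn]
    have hperf : Group.IsPerfect (X ⧸ N) := Group.IsPerfect.ofSurjective (QuotientGroup.mk'_surjective N)
    have hsub : Subsingleton (X ⧸ N) := by
      by_contra hns
      rw [not_subsingleton_iff_nontrivial] at hns
      exact Group.IsPerfect.not_isNilpotent (X ⧸ N) hnil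
    have hNtop : N = ⊤ := by
      rw [eq_top_iff]; intro x _
      exact (QuotientGroup.eq_one_iff x).1 (Subsingleton.elim _ _)
    rw [eq_top_iff]
    intro q _
    obtain ⟨x, rfl⟩ := QuotientGroup.mk_surjective q
    have : x ∈ N := hNtop ▸ Subgroup.mem_top x
    exact this
  · left
    rw [eq_bot_iff]
    intro q hq
    obtain ⟨x, rfl⟩ := QuotientGroup.mk_surjective q
    exact (QuotientGroup.eq_one_iff x).2 (h2 hq)

end Cfsg.Agent.S5017
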