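import Cfsg.Statements.S5020
import Cfsg.Agent.H28.SpecialP

set_option autoImplicit false
open Cfsg

namespace Cfsg.Agent.S5020
open H28


/-- Let X be a special rank one group with abelian unipotent subgroups A and B, and H = N(A) ∩ N(B) its diagonal subgroup. Then either A has at most three elements and X is isomorphic to SL₂(2), SL₂(3) or PSL₂(3); or X = X' A with the commutator subgroup X' quasisimple and the commutator subgroup ⁅A, H⁆ having more than three elements. -/
theorem result {X : Type*} [Group X] {A B : Subgroup X} (h : Cfsg.IsRankOneGroup X A B)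
    (hs : Cfsg.IsSpecialRankOnePair A B) (hab : Cfsg.HasAbelianUnipotents A B) :
    (ENat.card A ≤ 3 ∧ (Nonempty (X ≃* Matrix.SpecialLinearGroup (Fin 2) (ZMod 2)) ∨
        Nonempty (X ≃* Matrix.SpecialLinearGroup (Fin 2) (ZMod 3)) ∨
        Nonempty (X ≃* Matrix.ProjectiveSpecialLinearGroup (Fin 2) (ZMod 3)))) ∨
    (commutator X ⊔ A = ⊤ ∧ Cfsg.IsQuasisimple (commutator X) ∧
      3 < ENat.card ↥(⁅A, Cfsg.rankOneDiagonal A B⁆ : Subgroup X)) := by
  by_cases h3 : 3 < ENat.card A
  · right
    have hp : commutator X = ⊤ := by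
      have := special_le_commutator_sup hs hab.1 h3
      rwa [h.1] at this
    refine ⟨by rw [hp, top_sup_eq], ?_, by rwa [special_le_commutator hs hab.1 h3]⟩
    rw [hp]
    exact quasisimple_congr Subgroup.topEquiv.symm (r1_quasisimple h ⟨hp⟩)
  · left
    have h3' := not_lt.1 h3
    refine ⟨h3', ?_⟩
    have hfin : Finite A := by
      by_contra hc
      rw [not_finite_iff_infinite] at hc
      rw [ENat.card_eq_top_of_infinite] at h3'
      exact absurd h3' (by decide)
    have hc3 : Nat.card A ≤ 3 := by
      rw [ENat.card_eq_coe_natCard] at h3'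
      exact_mod_cast h3'
    have hc1 : 1 < Nat.card A := (Subgroup.one_lt_card_iff_ne_bot A).2 (r1_ne_bot h.2)
    obtain ⟨a, ha, ha1⟩ := exists_ne_one (r1_ne_bot h.2)
    have key : ∀ (p : ℕ) [Fact p.Prime], Nat.card A = p →
        Nonempty (X ≃* SL2 (ZMod p)) ∨ Nonempty (X ≃* Matrix.ProjectiveSpecialLinearGroup (Fin 2) (ZMod p)) := by
      intro p hp hc
      have hel : IsElementaryAbelian p A := ⟨hab.1, fun x hx => by
        have := pow_card_eq_one' (G := A) (x := ⟨x, hx⟩)
        rw [hc] at this
        exact congrArg Subtype.val this⟩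
      have gen : ∀ (C : Subgroup X), Nat.card C = p → ∀ c ∈ C, c ≠ 1 → Subgroup.zpowers c = C := by
        intro C hC c hc hc1
        have : Finite C := Nat.finite_of_card_ne_zero (by rw [hC]; exact hp.out.ne_zero)
        have h1 := zpowers_eq_top_of_prime_card hC (g := ⟨c, hc⟩) (fun h => hc1 (congrArg Subtype.val h))
        have h2 := congrArg (Subgroup.map C.subtype) h1
        rwa [MonoidHom.map_zpowers, ← MonoidHom.range_eq_map, Subgroup.range_subtype] at h2
      have hB : Nat.card B = p := by
        obtain ⟨x, -, hx, -⟩ := r1_exists_swap h.2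
        obtain ⟨e⟩ := cj_equiv x A
        rw [← hx, ← Nat.card_congr e.toEquiv, hc]
      have := psl2Pair_equiv (special_psl2Pair hs hel ha ha1)
      rw [gen A hc a ha ha1, gen B hB _ (ptn_spec h.2 ha ha1).1 (ptn_spec h.2 ha ha1).2.1, h.1] at this
      rcases this with ⟨⟨e⟩⟩ | ⟨⟨e⟩⟩
      · exact Or.inl ⟨Subgroup.topEquiv.symm.trans e⟩
      · exact Or.inr ⟨Subgroup.topEquiv.symm.trans e⟩
    have : Nat.card A = 2 ∨ Nat.card A = 3 := by omega
    rcases this with h2 | h2
    · left
      rcases key 2 h2 with h4 | ⟨⟨e⟩⟩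
      · exact h4
      · have : Subgroup.center (SL2 (ZMod 2)) = ⊥ := by
          rw [eq_bot_iff]
          intro g hg
          rcases sl2_center hg with rfl | rfl
          · exact one_mem _
          · exact Subgroup.mem_bot.2 (by decide)
        exact ⟨e.trans ((QuotientGroup.quotientMulEquivOfEq this).trans QuotientGroup.quotientBot)⟩
    · right
      exact key 3 h2

end Cfsg.Agent.S5020
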