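import Cfsg.Statements.S5023
import Cfsg.Agent.H28.Special

set_option autoImplicit false
open Cfsg

namespace Cfsg.Agent.S5023
open H28


/-- Let X be a rank one group with unipotent subgroups A and B that acts faithfully on an abelian group V (written additively) with A acting quadratically: a' • (a • v − v) = a • v − v for all a, a' in A and v in V. Then A is either torsion-free or an elementary abelian p-group for some prime p. -/
theorem result {X : Type*} [Group X] {A B : Subgroup X} (h : Cfsg.IsRankOneGroup X A B)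
    {V : Type*} [AddCommGroup V] [DistribMulAction X V] (hf : ∀ x : X, (∀ v : V, x • v = v) → x = 1)
    (hq : ∀ a ∈ A, ∀ a' ∈ A, ∀ v : V, a' • (a • v - v) = a • v - v) :
    (∀ a ∈ A, a ≠ 1 → ¬ IsOfFinOrder a) ∨ ∃ p : ℕ, p.Prime ∧ Cfsg.IsElementaryAbelian p A := by
  set ρ := DistribMulAction.toAddMonoidEnd X V
  have hq' : ∀ a ∈ A, ∀ a' ∈ A, (ρ a' - 1) * (ρ a - 1) = 0 := by
    intro a ha a' ha'
    ext n
    exact sub_eq_zero.2 (hq a ha a' ha' n)
  have hcomm : ∀ x y : X, (ρ y - 1) * (ρ x - 1) = 0 → (ρ x - 1) * (ρ y - 1) = 0 → Commute x y := by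
    intro x y h1 h2
    have e : ρ (x * y) = ρ (y * x) := by
      rw [map_mul, map_mul]
      have : ρ x * ρ y = ρ y * ρ x + ((ρ x - 1) * (ρ y - 1) - (ρ y - 1) * (ρ x - 1)) := by noncomm_ring
      rw [this, h1, h2]; simp
    have := hf ((y * x)⁻¹ * (x * y)) fun v => by
      rw [mul_smul, inv_smul_eq_iff]
      exact DFunLike.congr_fun e v
    exact (inv_mul_eq_one.1 this).symm
  have hs := special_of_quadratic h ρ hq' (by
    by_contra hc
    push Not at hc
    exact r1_commutator_ne_bot h.2 (commutator_eq_bot_iff.2 fun a _ b _ => hcomm a b (hc a b) (hc b a)))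
  rcases special_elem_or_div hs (comm_of_commute fun a ha b hb => hcomm a b (hq' a ha b hb) (hq' b hb a ha)) with h1 | h1
  · exact Or.inr h1
  · exact Or.inl h1.1

end Cfsg.Agent.S5023
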