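import Cfsg.Statements.S5024
import Cfsg.Agent.H28.Root

set_option autoImplicit false
open Cfsg

namespace Cfsg.Agent.S5024
open H28


/-- Let S be a set of abstract root subgroups of G, A and C members of S, B a rank one partner of A in S and D a rank one partner of C in S. If the rank one group ⟨A, B⟩ is contained in ⟨C, D⟩ then the two coincide, and C and D are conjugates of A inside ⟨A, B⟩. -/
theorem result {G : Type*} [Group G] {S : Set (Subgroup G)} (hS : Cfsg.IsRootSubgroupSet S)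
    {A B C D : Subgroup G} (hA : A ∈ S) (hC : C ∈ S) (hB : B ∈ Cfsg.rankOnePartners S A) (hD : D ∈ Cfsg.rankOnePartners S C)
    (hle : A ⊔ B ≤ C ⊔ D) : A ⊔ B = C ⊔ D ∧ C ∈ Cfsg.unipotentSubgroups A B ∧ D ∈ Cfsg.unipotentSubgroups A B := by
  have key : ∀ E ∈ S, ∀ F : Subgroup G, IsRankOnePair E F → E ≤ C ⊔ D → F ≤ C ⊔ D → E ∈ Om C D := by
    intro E hE F hEF h1 h2
    rcases mem_Om_or_comm hS hD.2 hC hD.1 hE h1 with h | h
    · exact h
    · exact absurd (comm_bot_mono h le_rfl h2) (r1_commutator_ne_bot hEF)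
  have hA' := key A hA B hB.2 (le_sup_left.trans hle) (le_sup_right.trans hle)
  have hB' := key B hB.1 A (r1_symm hB.2) (le_sup_right.trans hle) (le_sup_left.trans hle)
  rw [unip_eq_Om hB.2, Om_eq_of_mem_Om hD.2 hA' hB' hB.2.ne]
  exact ⟨sup_eq_of_mem_Om hD.2 hA' hB' hB.2.ne, left_mem_Om, right_mem_Om⟩

end Cfsg.Agent.S5024
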