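import Cfsg.Statements.S5026
import Cfsg.Agent.H28.Root

set_option autoImplicit false
open Cfsg

namespace Cfsg.Agent.S5026
open H28


/-- Let S be a degenerate set of abstract root subgroups of G (a set of abstract transvection groups) and let a, b be commuting non-identity elements of members of S with a b ≠ 1. Then the members of S centralizing a b are exactly those centralizing both a and b. -/
theorem result {G : Type*} [Group G] {S : Set (Subgroup G)} (hS : Cfsg.IsRootSubgroupSet S) (hdeg : Cfsg.IsDegenerateRootSet S)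
    {a b : G} (ha : a ∈ Cfsg.rootElements S) (hb : b ∈ Cfsg.rootElements S) (hab : a * b = b * a) (hab1 : a * b ≠ 1) :
    Cfsg.centralizingMembers S (Subgroup.zpowers (a * b)) =
      Cfsg.centralizingMembers S (Subgroup.zpowers a) ∩ Cfsg.centralizingMembers S (Subgroup.zpowers b) := by
  have key : ∀ (C : Subgroup G) (x : G), C ≤ Subgroup.centralizer (Subgroup.zpowers x : Set G) ↔ ∀ c ∈ C, Commute x c := by
    intro C x
    constructor
    · intro h c hc
      exact Subgroup.mem_centralizer_iff.1 (h hc) x (Subgroup.mem_zpowers x)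
    · intro h c hc
      refine Subgroup.mem_centralizer_iff.2 ?_
      rintro _ ⟨n, rfl⟩
      exact (h c hc).zpow_left n
  ext C
  simp only [centralizingMembers, Set.mem_ofPred_eq, Set.mem_inter_iff, key]
  constructor
  · rintro ⟨hC, h⟩
    have h1 : ∀ c ∈ C, Commute a c := by
      by_contra hn
      obtain ⟨ha1, A, hA, haA⟩ := ha
      obtain ⟨hb1, B, hB, hbB⟩ := hb
      have hAC : IsRankOnePair A C := by
        rcases hS.pair A hA C hC with h2 | h2 | h2
        · exact absurd (fun c hc => comm_commute h2 haA hc) hn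
        · exact h2
        · exact absurd h2 (hdeg A hA C hC)
      have e : cj b⁻¹ C = cj a C := by
        rw [eq_comm, cj_eq_iff, ← cj_mul, ← mul_inv_rev, ← hab, cj_of_commute fun c hc => (h c hc).inv_left]
      have hn : cj b⁻¹ A = A := by
        refine NI.eq_of_mem hS ⟨C, hC, hAC⟩ (cj_mem hS hA _) haA ha1 ?_
        rw [mem_cj, inv_inv, ← hab, mul_inv_cancel_right]; exact haA
      have := eq_of_acts hS hAC hC hB haA ha1 (B.inv_mem hbB) e hn
      subst this
      exact hab1 (r1_not_commute hAC (B.mul_mem haA hbB) h)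
    refine ⟨⟨hC, h1⟩, hC, fun c hc => ?_⟩
    simpa using (h1 c hc).inv_left.mul_left (h c hc)
  · rintro ⟨⟨hC, h1⟩, -, h2⟩
    exact ⟨hC, fun c hc => (h1 c hc).mul_left (h2 c hc)⟩

end Cfsg.Agent.S5026
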