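import Cfsg.Statements.S5027
import Cfsg.Agent.H28.Root

set_option autoImplicit false
open Cfsg

namespace Cfsg.Agent.S5027
open H28


/-- Let S be a set of abstract root subgroups of G such that every member of S has a rank one partner in S (the graph of rank one pairs on S has no isolated vertex). Then the second centre of G equals its centre. -/
theorem result {G : Type*} [Group G] {S : Set (Subgroup G)} (hS : Cfsg.IsRootSubgroupSet S)
    (hF : ∀ A ∈ S, ¬ Cfsg.IsIsolatedIn (Cfsg.FAdj S) S A) : Subgroup.upperCentralSeries G 2 = Subgroup.center G := by
  apply le_antisymm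
  · intro z hz
    have key : ∀ A ∈ S, A ≤ Subgroup.centralizer {z} := by
      intro A hA a ha
      by_cases ha1 : a = 1
      · subst ha1; exact one_mem _
      obtain ⟨B, hB, h⟩ := (ni_iff hA).1 (hF A hA)
      have hc : z * a * z⁻¹ * a⁻¹ ∈ Subgroup.center G := by
        have := (Subgroup.mem_upperCentralSeries_succ_iff (n := 1)).1 hz a
        rwa [Subgroup.upperCentralSeries_one] at this
      have := central_mul_not_root hS h hB (cj_mem hS hA z) ha ha1
        (fun x _ => (Subgroup.mem_center_iff.1 hc x).symm) (fun x _ => (Subgroup.mem_center_iff.1 hc x).symm)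
        (by rw [inv_mul_cancel_right]; exact conj_mem_cj ha)
      exact Subgroup.mem_centralizer_singleton_iff.2 (commutatorElement_eq_one_iff_commute.1 this).symm
    have : (⊤ : Subgroup G) ≤ Subgroup.centralizer {z} := by
      rw [← hS.generates]; exact iSup₂_le key
    exact Subgroup.mem_center_iff.2 fun g => Subgroup.mem_centralizer_singleton_iff.1 (this (Subgroup.mem_top g))
  · rw [← Subgroup.upperCentralSeries_one]
    exact Subgroup.upperCentralSeries_mono G (by norm_num)

end Cfsg.Agent.S5027
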