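import Cfsg.Statements.S5029
import Cfsg.Agent.H28.Root

set_option autoImplicit false
open Cfsg

namespace Cfsg.Agent.S5029
open H28


/-- Let S be a set of abstract root subgroups of G, A ∈ S having a rank one partner in S, and B ∈ S with C = ⁅A, B⁆ ∈ S. Then the members of S contained in AC are the conjugates of A by elements of B together with C, they partition AC, the members of S inside AC partition AC so that A is a line partner of C, and for every non-identity a ∈ A the map b ↦ a⁻¹ b⁻¹ a b is an isomorphism from B onto C. -/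
theorem result {G : Type*} [Group G] {S : Set (Subgroup G)} (hS : Cfsg.IsRootSubgroupSet S)
    {A B : Subgroup G} (hA : ¬ Cfsg.IsIsolatedIn (Cfsg.FAdj S) S A) (hAS : A ∈ S) (hB : B ∈ S) (hC : ⁅A, B⁆ ∈ S) :
    Cfsg.membersIn S (A ⊔ ⁅A, B⁆) = (fun b : G => Cfsg.conjBy A b) '' (B : Set G) ∪ {⁅A, B⁆} ∧
    Cfsg.IsSubgroupPartition (A ⊔ ⁅A, B⁆) (Cfsg.membersIn S (A ⊔ ⁅A, B⁆)) ∧
    A ∈ Cfsg.linePartners S ⁅A, B⁆ ∧
    ∀ a ∈ A, a ≠ 1 → ∃ φ : ↥B ≃* ↥⁅A, B⁆, ∀ b : ↥B, (φ b : G) = a⁻¹ * (b : G)⁻¹ * a * b := by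
  have hN := (ni_iff hAS).1 hA
  have h := rc_of_mem hS hAS hB hC
  refine ⟨rc_membersIn hS hN hAS h, rc_partition hS hN hAS h, rc_line_left hS hN hAS h, fun a ha ha1 => ?_⟩
  have hm : ∀ b ∈ B, a⁻¹ * b⁻¹ * a * b ∈ ⁅A, B⁆ := fun b hb => by
    simpa [commutatorElement_def] using Subgroup.commutator_mem_commutator (A.inv_mem ha) (B.inv_mem hb)
  let f : B →* ↥⁅A, B⁆ := MonoidHom.mk' (fun b => ⟨a⁻¹ * (b : G)⁻¹ * a * b, hm b b.2⟩) fun b b' => by
    apply Subtype.ext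
    have := rc_mul_right h (A.inv_mem ha) (B.inv_mem b.2) (B.inv_mem b'.2)
    rw [← mul_inv_rev, ← (commute_of_comm (hS.commutative B hB) b.2 b'.2).eq] at this
    simpa [commutatorElement_def] using this
  refine ⟨MulEquiv.ofBijective f ⟨fun b b' e => ?_, fun c => ?_⟩, fun b => rfl⟩
  · have e' := congrArg Subtype.val e
    have := rc_eq_of_comm_eq h (fun a ha ha1 b hb hb1 => rc_comm_ne_one hS hN hAS h ha ha1 hb hb1) (A.inv_mem ha)
      (inv_ne_one.2 ha1) (B.inv_mem b.2) (B.inv_mem b'.2) (by simpa [commutatorElement_def, f] using e')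
    exact Subtype.ext (inv_injective this)
  · obtain ⟨b, hb, e⟩ := rc_surj h (A.inv_mem ha) (inv_ne_one.2 ha1) c.2
    exact ⟨⟨b⁻¹, B.inv_mem hb⟩, Subtype.ext (by simpa [commutatorElement_def, f] using e)⟩

end Cfsg.Agent.S5029
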