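import Cfsg.Statements.S5030
import Cfsg.Agent.H28.Root

set_option autoImplicit false
open Cfsg

namespace Cfsg.Agent.S5030
open H28


/-- Let S be a set of abstract root subgroups of G and A, B, C ∈ S with ⁅A, B⁆ ∈ S and ⁅B, C⁆ ∈ S, where A and C are different and commute. For a non-identity b ∈ B put X = ⟨A, b⁻¹ C b⟩ and Y = ⟨b⁻¹ A b, C⟩ and R = ⟨A, B, C⟩. Then X and Y are either both abelian or both nilpotent of class exactly two; X and Y commute elementwise; XY is normal in R with R = (XY) B; and R is nilpotent. -/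
theorem result {G : Type*} [Group G] {S : Set (Subgroup G)} (hS : Cfsg.IsRootSubgroupSet S)
    {A B C : Subgroup G} (hA : A ∈ S) (hB : B ∈ S) (hC : C ∈ S) (hAB : ⁅A, B⁆ ∈ S) (hBC : ⁅B, C⁆ ∈ S)
    (hAC : C ∈ Cfsg.commutingPartners S A)
    {b : G} (hb : b ∈ B) (hb1 : b ≠ 1) :
    ((IsMulCommutative ↥(A ⊔ Cfsg.conjBy C b⁻¹) ∧ IsMulCommutative ↥(Cfsg.conjBy A b⁻¹ ⊔ C)) ∨
      ((¬ IsMulCommutative ↥(A ⊔ Cfsg.conjBy C b⁻¹) ∧
          ⁅⁅A ⊔ Cfsg.conjBy C b⁻¹, A ⊔ Cfsg.conjBy C b⁻¹⁆, A ⊔ Cfsg.conjBy C b⁻¹⁆ = ⊥) ∧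
        (¬ IsMulCommutative ↥(Cfsg.conjBy A b⁻¹ ⊔ C) ∧
          ⁅⁅Cfsg.conjBy A b⁻¹ ⊔ C, Cfsg.conjBy A b⁻¹ ⊔ C⁆, Cfsg.conjBy A b⁻¹ ⊔ C⁆ = ⊥))) ∧
    ⁅A ⊔ Cfsg.conjBy C b⁻¹, Cfsg.conjBy A b⁻¹ ⊔ C⁆ = ⊥ ∧
    (∀ r ∈ A ⊔ B ⊔ C, Cfsg.conjBy ((A ⊔ Cfsg.conjBy C b⁻¹) ⊔ (Cfsg.conjBy A b⁻¹ ⊔ C)) r =
      (A ⊔ Cfsg.conjBy C b⁻¹) ⊔ (Cfsg.conjBy A b⁻¹ ⊔ C)) ∧
    ((A ⊔ Cfsg.conjBy C b⁻¹) ⊔ (Cfsg.conjBy A b⁻¹ ⊔ C)) ⊔ B = A ⊔ B ⊔ C ∧
    Group.IsNilpotent ↥(A ⊔ B ⊔ C) := by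
  have h1 := rc_of_mem hS hA hB hAB
  have h2 := rc_symm (rc_of_mem hS hB hC hBC)
  have hc := hAC.2.2
  have hb' := B.inv_mem hb
  have hb1' := inv_ne_one.2 hb1
  obtain ⟨k1, k2, k3⟩ := string_XY hS hA hC h1 h2 hc hb' hb1'
  obtain ⟨k1', -, -⟩ := string_XY hS hC hA h2 h1 (comm_bot_symm hc) hb' hb1'
  rw [sup_comm C] at k1'
  simp only [cj_def]
  have three : ∀ {A C : Subgroup G}, A ∈ S → C ∈ S → RootCommutatorCase S A B → RootCommutatorCase S C B → ⁅A, C⁆ = ⊥ →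
      IsMulCommutative ↥(A ⊔ cj b⁻¹ C) → IsMulCommutative ↥(cj b⁻¹ A ⊔ C) := by
    intro A C hA hC h1 h2 hc hX
    have e1 : ⁅A, cj b⁻¹ C⁆ = ⊥ := comm_bot_mono (comm_self_bot hX) le_sup_left le_sup_right
    have e2 : ⁅A, ⁅C, B⁆⁆ = ⊥ := by
      have := comm_bot_sup hc e1
      rw [rc_sup_cj h2 hb' hb1'] at this
      exact comm_bot_mono this le_rfl le_sup_right
    have e3 : ⁅⁅A, B⁆, C⁆ = ⊥ := by
      refine Subgroup.commutator_commutator_eq_bot_of_rotate ?_ ?_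
      · rw [Subgroup.commutator_comm B]; exact comm_bot_symm e2
      · rw [comm_bot_symm hc]; simp
    have e4 : ⁅cj b⁻¹ A, C⁆ = ⊥ := comm_bot_mono (sup_comm_bot hc e3) (cj_le_sup_comm hb') le_rfl
    exact comm_of_commute (commutator_eq_bot_iff.1 (sup_comm_bot (comm_bot_sup (self_comm hS (cj_mem hS hA _)) e4)
      (comm_bot_sup (comm_bot_symm e4) (self_comm hS hC))))
  refine ⟨?_, k2, ?_, ?_, string_nilpotent hS hA hB hC h1 h2 hc⟩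
  · by_cases hX : IsMulCommutative ↥(A ⊔ cj b⁻¹ C)
    · exact Or.inl ⟨hX, three hA hC h1 h2 hc hX⟩
    · refine Or.inr ⟨⟨hX, k1⟩, fun hY => hX ?_, k1'⟩
      have sw : ∀ X Y : Subgroup G, IsMulCommutative ↥(X ⊔ Y) → IsMulCommutative ↥(Y ⊔ X) := fun X Y h => by
        rwa [sup_comm]
      exact sw _ _ (three hC hA h2 h1 (comm_bot_symm hc) (sw _ _ hY))
  · rw [k3]
    intro r hr
    refine mem_normalizer_iff_cj.1 ((sup_le (sup_le ?_ ?_) ?_ : A ⊔ B ⊔ C ≤ _) hr)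
    · exact (le_sup_left.trans le_sup_left).trans Subgroup.le_normalizer
    · intro x hx
      have key : ∀ {A : Subgroup G}, RootCommutatorCase S A B → ∀ x ∈ B, cj x (A ⊔ ⁅A, B⁆) = A ⊔ ⁅A, B⁆ := by
        intro A h
        have k : ∀ x ∈ B, cj x (A ⊔ ⁅A, B⁆) ≤ A ⊔ ⁅A, B⁆ := fun x hx => by
          rw [cj_sup, cj_of_comm_bot (comm_bot_symm (rc_right h)) hx]
          exact sup_le (cj_le_sup_comm hx) le_sup_right
        exact fun x hx => le_antisymm (k x hx) (by simpa using cj_mono (g := x) (k x⁻¹ (B.inv_mem hx)))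
      rw [mem_normalizer_iff_cj, cj_sup, key h1 x hx, key h2 x hx]
    · exact (le_sup_left.trans le_sup_right).trans Subgroup.le_normalizer
  · apply le_antisymm
    · refine sup_le (sup_le (sup_le ?_ ?_) (sup_le ?_ ?_)) ?_
      · exact le_sup_left.trans le_sup_left
      · exact cj_le_of_mem (Subgroup.mem_sup_left (Subgroup.mem_sup_right hb')) le_sup_right
      · exact cj_le_of_mem (Subgroup.mem_sup_left (Subgroup.mem_sup_right hb')) (le_sup_left.trans le_sup_left)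
      · exact le_sup_right
      · exact le_sup_right.trans le_sup_left
    · refine sup_le (sup_le ?_ le_sup_right) ?_
      · exact (le_sup_left.trans le_sup_left).trans le_sup_left
      · exact (le_sup_right.trans le_sup_right).trans le_sup_left

end Cfsg.Agent.S5030
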