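import Cfsg.Statements.S5031
import Cfsg.Agent.H28.Root2

set_option autoImplicit false
open Cfsg

namespace Cfsg.Agent.S5031
open H28


/-- Let S be a set of abstract root subgroups of G and let A, B ∈ S lie in different connected components of the graph of rank one pairs on S, each component having more than one member. Then B is not a line partner of A. -/
theorem result {G : Type*} [Group G] {S : Set (Subgroup G)} (hS : Cfsg.IsRootSubgroupSet S)
    {A B : Subgroup G} (hA : A ∈ S) (hB : B ∈ S)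
    (hne : Cfsg.componentOf (Cfsg.FAdj S) S A ≠ Cfsg.componentOf (Cfsg.FAdj S) S B)
    (hA2 : ∃ A' ∈ Cfsg.componentOf (Cfsg.FAdj S) S A, A' ≠ A) (hB2 : ∃ B' ∈ Cfsg.componentOf (Cfsg.FAdj S) S B, B' ≠ B) :
    B ∉ Cfsg.linePartners S A := by
  intro hL
  have key : ∀ {A B : Subgroup G}, A ∈ S → B ∈ linePartners S A → NI S A → ¬ Relation.ReflTransGen (FAdj S) A B →
      ∀ a ∈ A, a ≠ 1 → ∀ b ∈ B, b ≠ 1 → ∀ C ∈ S, C ≤ A ⊔ B → a * b ∈ C → Relation.ReflTransGen (FAdj S) A C := by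
    intro A B hA hL ⟨E, hE, h⟩ hn a ha ha1 b hb hb1 C hC hle hab
    have notc : ∀ T ∈ S, T ≤ A ⊔ B → ⁅T, E⁆ ≠ ⊥ := fun T hT hle hc => by
      obtain ⟨e, he, he1⟩ := exists_ne_one (hS.ne_bot T hT)
      exact he1 (line_not_comm hS hA hL hE h (hle he) fun b hb => comm_commute hc he hb)
    have p : ∀ T ∈ S, IsRankOnePair T E → Relation.ReflTransGen (FAdj S) A T := fun T hT h' =>
      (Relation.ReflTransGen.single ⟨hA, hE, h⟩).tail ⟨hE, hT, r1_symm h'⟩
    rcases hS.pair B hL.1.1 E hE with h1 | h1 | h1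
    · exact absurd h1 (notc B hL.1.1 le_sup_right)
    · exact absurd (p B hL.1.1 h1) hn
    rcases hS.pair C hC E hE with h2 | h2 | h2
    · exact absurd h2 (notc C hC hle)
    · exact p C hC h2
    exfalso
    refine not_nilpotent_of_elem h ha ha1 ?_ (le_sup_right.trans le_sup_left)
      (string_nilpotent hS hC hE hL.1.1 h2 h1 (comm_bot_mono (line_comm hS hA hL) hle le_sup_right))
    simpa using mul_mem (Subgroup.mem_sup_left (Subgroup.mem_sup_left hab) : a * b ∈ C ⊔ E ⊔ B)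
      (Subgroup.mem_sup_right (B.inv_mem hb))
  have hn : ¬ Relation.ReflTransGen (FAdj S) A B := fun h => hne (Set.ext fun C =>
    ⟨fun h' => ⟨h'.1, (fconn_symm h).trans h'.2⟩, fun h' => ⟨h'.1, h.trans h'.2⟩⟩)
  obtain ⟨A', hA', hA1⟩ := hA2
  obtain ⟨B', hB', hB1⟩ := hB2
  obtain ⟨a, ha, ha1⟩ := exists_ne_one (hS.ne_bot A hA)
  obtain ⟨b, hb, hb1⟩ := exists_ne_one (hS.ne_bot B hB)
  have hab : a * b ≠ 1 := fun e => ha1 (line_inf hA hL ha (by rw [eq_inv_of_mul_eq_one_left e]; exact B.inv_mem hb))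
  obtain ⟨C, hC, hle, he⟩ := line_root hL (mul_mem (Subgroup.mem_sup_left ha) (Subgroup.mem_sup_right hb)) hab
  have p1 := key hA hL (ni_of_fconn hA'.2 hA1) hn a ha ha1 b hb hb1 C hC hle he
  have p2 := key hB (line_symm hA hL) (ni_of_fconn hB'.2 hB1) (fun h => hn (fconn_symm h)) b hb hb1 a ha ha1 C hC
    (by rwa [sup_comm]) (by rwa [← (comm_commute hL.1.2.2 ha hb).eq])
  exact hn (p1.trans (fconn_symm p2))

end Cfsg.Agent.S5031
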