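import Cfsg.Statements.S5032
import Cfsg.Agent.H28.Root2

set_option autoImplicit false
open Cfsg

namespace Cfsg.Agent.S5032
open H28


/-- Let S be a set of abstract root subgroups of G with more than one member. Then the graph of rank one pairs on S is connected if and only if S is a single conjugacy class of G and some member of S has a rank one partner in S. -/
theorem result {G : Type*} [Group G] {S : Set (Subgroup G)} (hS : Cfsg.IsRootSubgroupSet S) (h2 : ∃ A ∈ S, ∃ B ∈ S, A ≠ B) :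
    Cfsg.IsConnectedFamily (Cfsg.FAdj S) S ↔
      (Cfsg.IsConjClassOfSubgroups S ∧ ∃ A ∈ S, ¬ Cfsg.IsIsolatedIn (Cfsg.FAdj S) S A) := by
  constructor
  · intro h
    obtain ⟨A, hA, B, hB, hne⟩ := h2
    refine ⟨⟨⟨A, hA⟩, fun C hC D hD => fconn_conj hS (h C hC D hD)⟩, A, hA, (ni_iff hA).2 (ni_of_fconn (h A hA B hB) hne.symm)⟩
  · rintro ⟨hcl, A, hA, hN⟩ C hC D hD
    obtain ⟨g, rfl⟩ := hcl.2 C hC D hD
    exact fconn_cj hS g C hC (all_ni hS hcl hA ((ni_iff hA).1 hN) C hC)

end Cfsg.Agent.S5032
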