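import Cfsg.Statements.S5033
import Cfsg.Agent.H28.Root2

set_option autoImplicit false
open Cfsg

namespace Cfsg.Agent.S5033
open H28


/-- Quasisimplicity criterion for groups generated by abstract root subgroups. Let S be a set of abstract root subgroups of G with more than one member such that: the graph of rank one pairs on S is connected; no two different members of S have the same set of commuting members of S; if S is degenerate then every member of S has more than three elements; and every rank one pair in S is special. Then for every A ∈ S one has G = G' A with A ∩ G' ≠ 1, and the commutator subgroup G' is quasisimple. Moreover G is perfect if S is non-degenerate, or if some rank one pair A, B in S generates a perfect group. -/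
theorem result {G : Type*} [Group G] {S : Set (Subgroup G)} (hS : Cfsg.IsRootSubgroupSet S) (h2 : ∃ A ∈ S, ∃ B ∈ S, A ≠ B)
    (h1 : Cfsg.IsConnectedFamily (Cfsg.FAdj S) S)
    (h2' : ∀ A ∈ S, ∀ C ∈ S, A ≠ C → Cfsg.centralizingMembers S A ≠ Cfsg.centralizingMembers S C)
    (h3 : Cfsg.IsDegenerateRootSet S → ∀ A ∈ S, 3 < ENat.card A)
    (h4 : ∀ A ∈ S, ∀ B ∈ Cfsg.rankOnePartners S A, Cfsg.IsSpecialRankOnePair A B) :
    (∀ A ∈ S, commutator G ⊔ A = ⊤ ∧ A ⊓ commutator G ≠ ⊥) ∧ Cfsg.IsQuasisimple ↥(commutator G) ∧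
    (Cfsg.IsNondegenerateRootSet S → commutator G = ⊤) ∧
    ((∃ A ∈ S, ∃ B ∈ Cfsg.rankOnePartners S A, Group.IsPerfect ↥(A ⊔ B)) → commutator G = ⊤) := by
  obtain ⟨A0, hA0, B0, hB0, hne⟩ := h2
  have hcl : IsConjClassOfSubgroups S := ⟨⟨A0, hA0⟩, fun C hC D hD => fconn_conj hS (h1 C hC D hD)⟩
  have hall := all_ni hS hcl hA0 (ni_of_fconn (h1 A0 hA0 B0 hB0) hne.symm)
  have top : ∀ N : Subgroup G, N.Normal → ∀ A ∈ S, A ≤ N → N = ⊤ := by
    intro N hN A hA h
    rw [eq_top_iff, ← hS.generates]
    refine iSup₂_le fun B hB => ?_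
    obtain ⟨g, rfl⟩ := hcl.2 A hA B hB
    rw [← cj_normal hN g]; exact cj_mono h
  have dich : (∀ A ∈ S, ∀ B ∈ S, IsRankOnePair A B → ⁅A ⊔ B, A ⊔ B⁆ = A ⊔ B) ∨
      ∃ A ∈ S, ∃ B ∈ S, RootCommutatorCase S A B := by
    by_cases hd : IsDegenerateRootSet S
    · exact Or.inl fun A hA B hB h => special_le_commutator_sup (h4 A hA B ⟨hB, h⟩) (hS.commutative A hA) (h3 hd A hA)
    · right
      by_contra h
      exact hd fun A hA B hB h' => h ⟨A, hA, B, hB, h'⟩
  have hp : commutator G = ⊤ := by
    rcases dich with h | ⟨A, -, B, -, h⟩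
    · obtain ⟨B, hB, r⟩ := hall A0 hA0
      exact top _ inferInstance A0 hA0 (le_sup_left.trans ((h A0 hA0 B hB r).ge.trans (Subgroup.commutator_mono le_top le_top)))
    · exact top _ inferInstance _ h.1 (Subgroup.commutator_mono le_top le_top)
  have key : ∀ N : Subgroup G, N.Normal → N = ⊤ ∨ N ≤ Subgroup.center G := by
    intro N hN
    by_cases hT : N = ⊤
    · exact Or.inl hT
    right
    have no : ∀ A ∈ S, ¬ A ≤ N := fun A hA h => hT (top N hN A hA h)
    set f := QuotientGroup.mk' N
    have hk : f.ker = N := QuotientGroup.ker_mk' N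
    have cmN : ∀ E C : Subgroup G, ⁅E.map f, C.map f⁆ = ⊥ → ⁅E, C⁆ ≤ N := fun E C h => by
      rw [← hk, ← Subgroup.map_eq_bot_iff, Subgroup.map_commutator, h]
    have cm : ∀ A B : Subgroup G, ⁅A, B⁆ = ⊥ → ⁅A.map f, B.map f⁆ = ⊥ := fun A B h => by
      rw [← Subgroup.map_commutator, h, Subgroup.map_bot]
    have step : ∀ E ∈ S, ∀ C ∈ S, ⁅E.map f, C.map f⁆ = ⊥ → ⁅E, C⁆ = ⊥ := by
      intro E hE C hC h
      rcases hS.pair E hE C hC with r | r | r
      · exact r
      · exfalso
        rcases r1_normal r (fun x _ => cj_normal hN x) with h5 | h5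
        · have h6 : C.map f ≤ E.map f := by
            have := Subgroup.map_mono (f := f) h5
            rwa [Subgroup.map_sup, (Subgroup.map_eq_bot_iff _).2 hk.ge, bot_sup_eq] at this
          rcases dich with h7 | h7
          · refine no E hE (le_sup_left.trans ((h7 E hE C hC r).ge.trans (cmN _ _ ?_)))
            rw [Subgroup.map_sup, sup_eq_left.2 h6]
            exact cm E E (self_comm hS hE)
          · obtain ⟨⟨F, hF, h8⟩, -⟩ := nondeg_special hS hcl h7 hE hC r
            exact no _ h8.1 (cmN _ _ (comm_bot_mono (cm _ _ (comm_bot_symm hF.1.2.2)) le_rfl h6))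
        · exact r1_commutator_ne_bot (r1_map_central r f (by rw [hk]; exact h5)) h
      · exact absurd (cmN _ _ h) (no _ r.1)
    have nrm : ∀ n ∈ N, ∀ A ∈ S, cj n A = A := by
      intro n hn A hA
      by_contra hne
      have e : (cj n A).map f = A.map f := by
        rw [map_cj, show f n = 1 from (hk.ge hn), cj_one]
      apply h2' _ (cj_mem hS hA n) A hA hne
      ext E
      simp only [centralizingMembers, Set.mem_ofPred_eq, ← Subgroup.commutator_eq_bot_iff_le_centralizer]
      refine and_congr_right fun hE => ⟨fun h => step E hE A hA (e ▸ cm _ _ h), fun h => step E hE _ (cj_mem hS hA n) ?_⟩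
      rw [e]; exact cm _ _ h
    intro n hn
    rw [Subgroup.mem_center_iff]
    refine root_induction hS (P := fun g => g * n = n * g) (fun A hA a ha => ?_) (by simp) (fun x y hx hy => ?_)
    · obtain ⟨B, hB, r⟩ := hall A hA
      have h5 : n * a * n⁻¹ * a⁻¹ ∈ A := A.mul_mem (nrm n hn A hA ▸ conj_mem_cj ha) (A.inv_mem ha)
      have h6 : n * a * n⁻¹ * a⁻¹ ∈ N := by
        simpa [mul_assoc] using N.mul_mem hn (hN.conj_mem _ (N.inv_mem hn) a)
      have := r1_eq_one r h5 (nrm _ h6 B hB)
      rw [mul_inv_eq_one, mul_inv_eq_iff_eq_mul] at this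
      exact this.symm
    · rw [mul_assoc, hy, ← mul_assoc, hx, mul_assoc]
  have hnt : Nontrivial G := by
    obtain ⟨a, -, ha1⟩ := exists_ne_one (hS.ne_bot A0 hA0)
    exact ⟨a, 1, ha1⟩
  have hq := quasisimple_of_normal ⟨hp⟩ hnt key
  rw [hp]
  exact ⟨fun A hA => ⟨by simp, by simpa using hS.ne_bot A hA⟩, quasisimple_congr Subgroup.topEquiv.symm hq,
    fun _ => rfl, fun _ => rfl⟩

end Cfsg.Agent.S5033
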