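import Cfsg.Statements.S5035
import Cfsg.Agent.H28.Root2

set_option autoImplicit false
open Cfsg

namespace Cfsg.Agent.S5035
open H28


/-- Let S be a set of abstract root subgroups of G whose graph of rank one pairs is connected, and f a homomorphism from G onto a group H. Then either the images of the members of S form a set of abstract root subgroups of H whose graph of rank one pairs is again connected, or H equals the image of a member of S. -/
theorem result {G H : Type*} [Group G] [Group H] {S : Set (Subgroup G)} (hS : Cfsg.IsRootSubgroupSet S)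
    (hc : Cfsg.IsConnectedFamily (Cfsg.FAdj S) S) (f : G →* H) (hf : Function.Surjective f) :
    (Cfsg.IsRootSubgroupSet ((fun A : Subgroup G => A.map f) '' S) ∧
      Cfsg.IsConnectedFamily (Cfsg.FAdj ((fun A : Subgroup G => A.map f) '' S)) ((fun A : Subgroup G => A.map f) '' S)) ∨
    ∃ A ∈ S, A.map f = ⊤ := by
  by_cases h0 : ∃ A ∈ S, A.map f = ⊥
  · right
    obtain ⟨A, hA, h⟩ := h0
    refine ⟨A, hA, ?_⟩
    have : (⊤ : Subgroup G) ≤ f.ker := by
      rw [← hS.generates]
      refine iSup₂_le fun B hB => ?_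
      obtain ⟨g, rfl⟩ := fconn_conj hS (hc A hA B hB)
      rw [← Subgroup.map_eq_bot_iff, map_cj, h, cj_bot]
    refine eq_top_iff.2 fun x _ => ?_
    obtain ⟨y, rfl⟩ := hf x
    rw [show f y = 1 from this (Subgroup.mem_top y)]
    exact one_mem _
  left
  push Not at h0
  have r1 : ∀ A B : Subgroup G, IsRankOnePair A B → A.map f = B.map f ∨ IsRankOnePair (A.map f) (B.map f) := by
    intro A B h
    have k : ∀ A B : Subgroup G, B ≤ f.ker ⊔ A → B.map f ≤ A.map f := fun A B h => by
      have := Subgroup.map_mono (f := f) h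
      rwa [Subgroup.map_sup, (Subgroup.map_eq_bot_iff _).2 le_rfl, bot_sup_eq] at this
    rcases r1_normal h (fun x _ => cj_normal (inferInstance : f.ker.Normal) x) with h1 | h1
    · left
      obtain ⟨x, -, e1, e2⟩ := r1_exists_swap h
      have := cj_mono (g := x) h1
      rw [cj_sup, e1, e2, cj_normal inferInstance] at this
      exact le_antisymm (k _ _ this) (k _ _ h1)
    · exact Or.inr (r1_map_central h f h1)
  have cm : ∀ A B : Subgroup G, ⁅A, B⁆ = ⊥ → ⁅A.map f, B.map f⁆ = ⊥ := fun A B h => by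
    rw [← Subgroup.map_commutator, h, Subgroup.map_bot]
  refine ⟨⟨?_, ?_, ?_, ?_, ?_⟩, ?_⟩
  · rintro _ ⟨A, hA, rfl⟩
    exact comm_of_commute (commutator_eq_bot_iff.1 (cm A A (self_comm hS hA)))
  · rintro _ ⟨A, hA, rfl⟩
    exact h0 A hA
  · rw [iSup_image, eq_top_iff, ← Subgroup.map_top_of_surjective f hf, ← hS.generates]
    simp only [Subgroup.map_iSup]
    exact le_rfl
  · rintro _ ⟨A, hA, rfl⟩ g
    obtain ⟨g, rfl⟩ := hf g
    exact ⟨cj g A, cj_mem hS hA g, map_cj f g A⟩
  · rintro _ ⟨A, hA, rfl⟩ _ ⟨B, hB, rfl⟩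
    rcases hS.pair A hA B hB with h | h | h
    · exact Or.inl (cm A B h)
    · rcases r1 A B h with h | h
      · left
        show ⁅A.map f, B.map f⁆ = ⊥
        rw [← h]; exact cm A A (self_comm hS hA)
      · exact Or.inr (Or.inl h)
    · right; right
      refine ⟨⟨_, h.1, Subgroup.map_commutator _ _ _⟩, ?_, ?_, ?_⟩
      · show ∀ c ∈ ⁅A.map f, B.map f⁆, ∀ x ∈ A.map f ⊔ B.map f, c * x = x * c
        rw [← Subgroup.map_commutator, ← Subgroup.map_sup]
        rintro _ ⟨c, hc, rfl⟩ _ ⟨x, hx, rfl⟩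
        rw [← map_mul, h.2.1 c hc x hx, map_mul]
      · rintro _ ⟨a, ha, rfl⟩ ha1
        show _ = ⁅A.map f, B.map f⁆
        rw [← Subgroup.map_commutator, ← h.2.2.1 a ha (by rintro rfl; exact ha1 (map_one f)), MonoidHom.map_closure,
          Subgroup.coe_map, Set.image_image, Set.image_image]
        simp
      · rintro _ ⟨a, ha, rfl⟩ ha1
        show _ = ⁅A.map f, B.map f⁆
        rw [← Subgroup.map_commutator, ← h.2.2.2 a ha (by rintro rfl; exact ha1 (map_one f)), MonoidHom.map_closure,
          Subgroup.coe_map, Set.image_image, Set.image_image]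
        simp
  · rintro _ ⟨A, hA, rfl⟩ _ ⟨B, hB, rfl⟩
    have h := hc A hA B hB
    clear hB
    induction h with
    | refl => exact Relation.ReflTransGen.refl
    | tail _ h ih =>
      rcases r1 _ _ h.2.2 with h1 | h1
      · simpa only [← h1] using ih
      · exact ih.tail ⟨⟨_, h.1, rfl⟩, ⟨_, h.2.1, rfl⟩, h1⟩

end Cfsg.Agent.S5035
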