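import Cfsg.Statements.S5036
import Cfsg.Agent.H28.Root2

set_option autoImplicit false
open Cfsg

namespace Cfsg.Agent.S5036
open H28


/-- Let S be a set of abstract root subgroups of G, A, B ∈ S with C = ⁅A, B⁆ ∈ S, and D ∈ S with ⁅D, C⁆ = A. Put X = ⟨B, D⟩ and N = AC. Then B, D form a rank one pair; the conjugates of A under X are the conjugates of C under X, namely the conjugates of A by elements of B together with C, equally the conjugates of C by elements of D together with A, and they partition N; and the centralizer of N in X is central in X. -/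
theorem result {G : Type*} [Group G] {S : Set (Subgroup G)} (hS : Cfsg.IsRootSubgroupSet S)
    {A B D : Subgroup G} (hA : A ∈ S) (hB : B ∈ S) (hC : ⁅A, B⁆ ∈ S) (hD : D ∈ S) (hDC : ⁅D, ⁅A, B⁆⁆ = A) :
    Cfsg.IsRankOnePair B D ∧
    {E | ∃ x ∈ B ⊔ D, E = Cfsg.conjBy A x} = {E | ∃ x ∈ B ⊔ D, E = Cfsg.conjBy ⁅A, B⁆ x} ∧
    {E | ∃ x ∈ B ⊔ D, E = Cfsg.conjBy A x} = (fun b : G => Cfsg.conjBy A b) '' (B : Set G) ∪ {⁅A, B⁆} ∧
    {E | ∃ x ∈ B ⊔ D, E = Cfsg.conjBy A x} = (fun d : G => Cfsg.conjBy ⁅A, B⁆ d) '' (D : Set G) ∪ {A} ∧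
    Cfsg.IsSubgroupPartition (A ⊔ ⁅A, B⁆) {E | ∃ x ∈ B ⊔ D, E = Cfsg.conjBy A x} ∧
    ∀ x ∈ (B ⊔ D) ⊓ Subgroup.centralizer ((A ⊔ ⁅A, B⁆ : Subgroup G) : Set G), ∀ y ∈ B ⊔ D, x * y = y * x := by
  have h1 := rc_of_mem hS hA hB hC
  have e : ⁅⁅A, B⁆, D⁆ = A := by rw [Subgroup.commutator_comm, hDC]
  have h2 : RootCommutatorCase S ⁅A, B⁆ D := rc_of_mem hS hC hD (by rw [e]; exact hA)
  have r := opp_r1 hS hA hB hD h1 h2 e
  have hAD : ⁅A, D⁆ = ⊥ := by have := rc_right h2; rwa [e] at this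
  -- generic facts for a commutator pair with non-isolated right member
  have cen : ∀ {P Q : Subgroup G}, Q ∈ S → NI S Q → RootCommutatorCase S P Q → ∀ x,
      x ∈ ⁅P, Q⁆ ↔ x ∈ P ⊔ ⁅P, Q⁆ ∧ ∀ q ∈ Q, Commute x q := by
    intro P Q hQ hN h x
    refine ⟨fun hx => ⟨Subgroup.mem_sup_right hx, fun q hq => comm_commute (rc_right h) hx hq⟩, fun ⟨hx, hc⟩ => ?_⟩
    obtain ⟨a, ha, c, hc', rfl⟩ := mem_sup_of_comm (comm_bot_symm (rc_left h)) hx
    by_cases ha1 : a = 1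
    · simpa [ha1] using hc'
    obtain ⟨q, hq, hq1⟩ := exists_ne_one (hS.ne_bot Q hQ)
    refine absurd (commutatorElement_eq_one_iff_commute.2 ?_) (rc_comm_ne_one hS hN hQ (rc_symm h) hq hq1 ha ha1)
    have := (hc q hq).mul_left (comm_commute (rc_right h) hc' hq).inv_left
    simpa using this.symm
  set C := ⁅A, B⁆ with hCdef
  have cB : ∀ x, x ∈ C ↔ x ∈ A ⊔ C ∧ ∀ q ∈ B, Commute x q := cen hB ⟨D, hD, r⟩ h1
  have cD : ∀ x, x ∈ A ↔ x ∈ A ⊔ C ∧ ∀ q ∈ D, Commute x q := by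
    have := cen hD ⟨B, hB, r1_symm r⟩ h2
    rwa [e, sup_comm] at this
  have nB : ∀ b ∈ B, cj b (A ⊔ C) = A ⊔ C := fun b hb => rc_normalizes h1 hb
  have nD : ∀ d ∈ D, cj d (A ⊔ C) = A ⊔ C := fun d hd => by
    have := rc_normalizes h2 hd
    rwa [e, sup_comm] at this
  have key : ∀ b ∈ B, ∀ d ∈ D, cj d B = cj b D → cj d C = cj b A := by
    intro b hb d hd hbd
    ext x
    rw [mem_cj, mem_cj, cB, cD, ← mem_cj, ← mem_cj, nB b hb, nD d hd]
    have k : ∀ (g : G) (U : Subgroup G), (∀ q ∈ U, Commute (g⁻¹ * x * g) q) ↔ ∀ q ∈ cj g U, Commute x q := by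
      intro g U
      constructor
      · rintro h _ ⟨q, hq, rfl⟩
        have := (h q hq).map (MulAut.conj g)
        simpa [mul_assoc] using this
      · intro h q hq
        have := (h _ (conj_mem_cj hq)).map (MulAut.conj g⁻¹)
        simpa [mul_assoc] using this
    rw [k, k, hbd]
  have hBC : ∀ b ∈ B, cj b C = C := fun b hb => cj_of_comm_bot (comm_bot_symm (rc_right h1)) hb
  have hDA : ∀ d ∈ D, cj d A = A := fun d hd => cj_of_comm_bot (comm_bot_symm hAD) hd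
  have hAC : ∀ x ∈ A, x ∈ C → x = 1 := fun x hx hx' => by
    by_contra hx1
    obtain ⟨q, hq, hq1⟩ := exists_ne_one (hS.ne_bot B hB)
    exact rc_comm_ne_one hS ⟨D, hD, r⟩ hB (rc_symm h1) hq hq1 hx hx1
      (commutatorElement_eq_one_iff_commute.2 (((cB x).1 hx').2 q hq).symm)
  set T : Set (Subgroup G) := (fun b : G => conjBy A b) '' (B : Set G) ∪ {C} with hT
  have hT' : T = (fun d : G => conjBy C d) '' (D : Set G) ∪ {A} := by
    apply Set.Subset.antisymm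
    · rintro _ (⟨b, hb, rfl⟩ | rfl)
      · by_cases hb1 : b = 1
        · right; simp [hb1, cj_def]
        · obtain ⟨d, hd, -, hbd⟩ := r1_exists r hb hb1
          exact Or.inl ⟨d, hd, key b hb d hd hbd⟩
      · exact Or.inl ⟨1, D.one_mem, by simp [cj_def]⟩
    · rintro _ (⟨d, hd, rfl⟩ | rfl)
      · by_cases hd1 : d = 1
        · right; simp [hd1, cj_def]
        · obtain ⟨b, hb, -, hbd⟩ := r1_exists (r1_symm r) hd hd1
          exact Or.inl ⟨b, hb, (key b hb d hd hbd.symm).symm⟩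
      · exact Or.inl ⟨1, B.one_mem, by simp [cj_def]⟩
  have hst : B ⊔ D ≤ setStab T := by
    refine sup_le (le_setStab ?_) (le_setStab ?_)
    · rintro b hb _ (⟨b', hb', rfl⟩ | rfl)
      · exact Or.inl ⟨b * b', B.mul_mem hb hb', cj_mul b b' A⟩
      · exact Or.inr (hBC b hb)
    · rw [hT']
      rintro b hb _ (⟨b', hb', rfl⟩ | rfl)
      · exact Or.inl ⟨b * b', D.mul_mem hb hb', cj_mul b b' C⟩
      · exact Or.inr (hDA b hb)
  obtain ⟨b0, hb0, hb01⟩ := exists_ne_one (hS.ne_bot B hB)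
  obtain ⟨d0, hd0, -, hbd0⟩ := r1_exists r hb0 hb01
  have k0 := key b0 hb0 d0 hd0 hbd0
  have eA : {E | ∃ x ∈ B ⊔ D, E = conjBy A x} = T := by
    apply Set.Subset.antisymm
    · rintro _ ⟨x, hx, rfl⟩
      exact (hst hx A).1 (Or.inl ⟨1, B.one_mem, by simp [cj_def]⟩)
    · rintro _ (⟨b, hb, rfl⟩ | rfl)
      · exact ⟨b, Subgroup.mem_sup_left hb, rfl⟩
      · refine ⟨d0⁻¹ * b0, mul_mem (Subgroup.mem_sup_right (D.inv_mem hd0)) (Subgroup.mem_sup_left hb0), ?_⟩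
        rw [cj_def, cj_mul, ← k0, cj_inv_cj]
  have eC : {E | ∃ x ∈ B ⊔ D, E = conjBy C x} = T := by
    apply Set.Subset.antisymm
    · rintro _ ⟨x, hx, rfl⟩
      exact (hst hx C).1 (Or.inr rfl)
    · rw [hT']
      rintro _ (⟨b, hb, rfl⟩ | rfl)
      · exact ⟨b, Subgroup.mem_sup_right hb, rfl⟩
      · refine ⟨b0⁻¹ * d0, mul_mem (Subgroup.mem_sup_left (B.inv_mem hb0)) (Subgroup.mem_sup_right hd0), ?_⟩
        rw [cj_def, cj_mul, k0, cj_inv_cj]
  refine ⟨r, eA.trans eC.symm, eA, eA.trans hT', ?_, ?_⟩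
  · rw [eA]
    have hAC' : A ⊓ C = ⊥ := eq_bot_iff.2 fun x hx => Subgroup.mem_bot.2 (hAC x hx.1 hx.2)
    refine ⟨?_, fun x hx _ => ?_, ?_⟩
    · rintro _ (⟨b, hb, rfl⟩ | rfl)
      · exact cj_le_sup_comm hb
      · exact le_sup_right
    · rcases rc_mem_line h1 hx with h | ⟨b, hb, a, ha, -, rfl⟩
      · exact ⟨C, Or.inr rfl, h⟩
      · exact ⟨_, Or.inl ⟨b, hb, rfl⟩, conj_mem_cj ha⟩
    · have k1 : ∀ b ∈ B, cj b A ⊓ C = ⊥ := fun b hb => by
        rw [← hBC b hb, ← cj_inf, hAC', cj_bot]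
      rintro _ (⟨b, hb, rfl⟩ | rfl) _ (⟨b', hb', rfl⟩ | rfl) hne
      · have hbb : b⁻¹ * b' ≠ 1 := fun h => hne (by rw [inv_mul_eq_one.1 h])
        obtain ⟨d, hd, -, hbd⟩ := r1_exists r (B.mul_mem (B.inv_mem hb) hb') hbb
        have := key _ (B.mul_mem (B.inv_mem hb) hb') d hd hbd
        show cj b A ⊓ cj b' A = ⊥
        rw [show cj b' A = cj b (cj d C) by rw [this, ← cj_mul]; simp, ← cj_inf, ← hDA d hd, ← cj_inf, hAC']
        simp
      · exact k1 b hb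
      · rw [inf_comm]; exact k1 b' hb'
      · exact absurd rfl hne
  · have hn : B ⊔ D ≤ Subgroup.normalizer ((A ⊔ C : Subgroup G) : Set G) :=
      sup_le (fun b hb => mem_normalizer_iff_cj.2 (nB b hb)) (fun b hb => mem_normalizer_iff_cj.2 (nD b hb))
    have hn2 : ∀ x ∈ B ⊔ D, cj x (Subgroup.centralizer ((A ⊔ C : Subgroup G) : Set G)) =
        Subgroup.centralizer ((A ⊔ C : Subgroup G) : Set G) := by
      have k : ∀ x ∈ B ⊔ D, cj x (Subgroup.centralizer ((A ⊔ C : Subgroup G) : Set G)) ≤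
        Subgroup.centralizer ((A ⊔ C : Subgroup G) : Set G) := by
        rintro x hx _ ⟨y, hy, rfl⟩ z hz
        have hz' : x⁻¹ * z * x ∈ A ⊔ C := by
          rw [← mem_cj, mem_normalizer_iff_cj.1 (hn hx)]; exact hz
        have := congrArg (fun t => x * t * x⁻¹) (hy _ hz')
        simpa [mul_assoc] using this
      exact fun x hx => le_antisymm (k x hx) (by simpa using cj_mono (g := x) (k x⁻¹ (inv_mem hx)))
    rcases r1_normal r hn2 with h | h
    · exfalso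
      apply hS.ne_bot A hA
      rw [← e]
      refine comm_bot_mono (comm_bot_sup (B := Subgroup.centralizer ((A ⊔ C : Subgroup G) : Set G)) ?_ (rc_right h1)) le_rfl h
      exact commutator_eq_bot_iff.2 fun c hc y hy => hy c (Subgroup.mem_sup_right hc)
    · exact fun x hx y hy => h x hx.2 hx.1 y hy

end Cfsg.Agent.S5036
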