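import Cfsg.Statements.S5037
import Cfsg.Agent.H28.Root2

set_option autoImplicit false
open Cfsg

namespace Cfsg.Agent.S5037
open H28


/-- Let S be a class of abstract root subgroups of G that is either degenerate or non-degenerate (so either the commutator case never occurs, or all three cases occur), and A ≠ C members of S. If every member of S commuting with A commutes with C, then A and C have the same commuting members of S; and if every rank one partner of A is a rank one partner of C, then A and C commute and have the same rank one partners. -/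
theorem result {G : Type*} [Group G] {S : Set (Subgroup G)} (hS : Cfsg.IsRootSubgroupClass S)
    (hdn : Cfsg.IsDegenerateRootSet S ∨ Cfsg.IsNondegenerateRootSet S)
    {A C : Subgroup G} (hA : A ∈ S) (hC : C ∈ S) (hAC : A ≠ C) :
    (Cfsg.centralizingMembers S A ⊆ Cfsg.centralizingMembers S C →
      Cfsg.centralizingMembers S A = Cfsg.centralizingMembers S C) ∧
    (Cfsg.rankOnePartners S A ⊆ Cfsg.rankOnePartners S C →
      ⁅A, C⁆ = ⊥ ∧ Cfsg.rankOnePartners S A = Cfsg.rankOnePartners S C) := by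
  obtain ⟨hS, hcl⟩ := hS
  have cm : ∀ {U E : Subgroup G}, E ∈ centralizingMembers S U ↔ E ∈ S ∧ ⁅E, U⁆ = ⊥ := by
    intro U E
    rw [Subgroup.commutator_eq_bot_iff_le_centralizer]; rfl
  by_cases hN : NI S A
  swap
  · have no : ∀ P ∈ S, ∀ Q ∈ S, ¬ IsRankOnePair P Q := fun P hP Q hQ h => hN (all_ni hS hcl hP ⟨Q, hQ, h⟩ A hA)
    have all : ∀ P ∈ S, ∀ Q ∈ S, ⁅P, Q⁆ = ⊥ := fun P hP Q hQ => by
      rcases hdn with h | ⟨-, ⟨P', hP', Q', hQ', h⟩, -⟩
      · exact ((hS.pair P hP Q hQ).resolve_right fun h' => h'.elim (no P hP Q hQ) (h P hP Q hQ))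
      · exact absurd h (no P' hP' Q' hQ')
    exact ⟨fun h => h.antisymm fun E hE => cm.2 ⟨hE.1, all E hE.1 A hA⟩,
      fun h => ⟨all A hA C hC, h.antisymm fun E hE => absurd hE.2 (no C hC E hE.1)⟩⟩
  have hall := all_ni hS hcl hA hN
  constructor
  · intro h
    have hAC : ⁅A, C⁆ = ⊥ := (cm.1 (h (cm.2 ⟨hA, self_comm hS hA⟩))).2
    obtain ⟨D, hD, r⟩ := hall C hC
    rcases hS.pair A hA D hD with h1 | h1 | h1
    · exact absurd (comm_bot_symm (cm.1 (h (cm.2 ⟨hD, comm_bot_symm h1⟩))).2) (r1_commutator_ne_bot r)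
    · obtain ⟨g, e1, e2⟩ := exists_swap_of_common hAC h1 r
      refine h.antisymm fun E hE => ?_
      have k1 : cj g⁻¹ E ∈ centralizingMembers S A := cm.2 ⟨cj_mem hS hE.1 _, by
        have := comm_bot_cj (cm.1 hE).2 g⁻¹
        rwa [← e1, cj_inv_cj] at this⟩
      have := comm_bot_cj (cm.1 (h k1)).2 g
      rw [cj_cj_inv, e2] at this
      exact cm.2 ⟨hE.1, this⟩
    · exact absurd (cm.1 (h (cm.2 ⟨h1.1, rc_left h1⟩))).2 (hS.ne_bot _ (rc_rc hS hC hD hA r hAC h1).1)
  · intro h
    have hAC : ⁅A, C⁆ = ⊥ := by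
      rcases hS.pair C hC A hA with h1 | h1 | h1
      · exact comm_bot_symm h1
      · exact absurd rfl (h ⟨hC, r1_symm h1⟩).2.ne
      · obtain ⟨D, hD, r, h2, e⟩ := rc_exists_partner hS hall hA hC h1
        have := rc_right h2
        rw [e] at this
        exact absurd this (r1_commutator_ne_bot (h ⟨hD, r⟩).2)
    obtain ⟨D, hD, r⟩ := hN
    obtain ⟨g, e1, e2⟩ := exists_swap_of_common hAC r (h ⟨hD, r⟩).2
    refine ⟨hAC, h.antisymm fun E hE => ⟨hE.1, ?_⟩⟩
    have k1 : cj g⁻¹ E ∈ rankOnePartners S A := ⟨cj_mem hS hE.1 _, by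
        have := r1_cj hE.2 g⁻¹
        rwa [← e1, cj_inv_cj] at this⟩
    have := r1_cj (h k1).2 g
    rwa [cj_cj_inv, e2] at this

end Cfsg.Agent.S5037
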