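import Cfsg.Statements.S5038
import Cfsg.Agent.H28.Root2

set_option autoImplicit false
open Cfsg

namespace Cfsg.Agent.S5038
open H28


/-- Let S be a set of abstract root subgroups of G in which every member has a rank one partner, A ∈ S and B a line partner of A. Then the subgroup generated by the members of S normalizing AB permutes the members of S inside AB doubly transitively by conjugation. -/
theorem result {G : Type*} [Group G] {S : Set (Subgroup G)} (hS : Cfsg.IsRootSubgroupSet S)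
    (hF : ∀ A ∈ S, ¬ Cfsg.IsIsolatedIn (Cfsg.FAdj S) S A) {A B : Subgroup G} (hA : A ∈ S) (hB : B ∈ Cfsg.linePartners S A) :
    ∀ C₁ ∈ Cfsg.membersIn S (A ⊔ B), ∀ C₂ ∈ Cfsg.membersIn S (A ⊔ B), ∀ D₁ ∈ Cfsg.membersIn S (A ⊔ B),
      ∀ D₂ ∈ Cfsg.membersIn S (A ⊔ B), C₁ ≠ C₂ → D₁ ≠ D₂ →
        ∃ x ∈ ⨆ E ∈ Cfsg.normalizingMembers S (A ⊔ B), E, Cfsg.conjBy C₁ x = D₁ ∧ Cfsg.conjBy C₂ x = D₂ := by
  have hall : ∀ A ∈ S, NI S A := fun A hA => (ni_iff hA).1 (hF A hA)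
  set K := ⨆ E ∈ normalizingMembers S (A ⊔ B), E with hK
  have key : ∀ P ∈ membersIn S (A ⊔ B), ∀ Q ∈ membersIn S (A ⊔ B), ∀ Q' ∈ membersIn S (A ⊔ B), Q ≠ P → Q' ≠ P →
      ∃ x ∈ K, cj x P = P ∧ cj x Q = Q' := by
    intro P hP Q hQ Q' hQ' h1 h2
    obtain ⟨D, hD, hn, h⟩ := line_transv_at hS hall hA hB hP.1 hP.2
    obtain ⟨h3, h4, h5⟩ := h Q hQ.1 hQ.2 h1
    obtain ⟨d, hd, e⟩ := line_cj_of_ne hS hall hQ.1 hQ'.1 h3 h4 (h5 ▸ hQ'.2) h2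
    refine ⟨d, (le_iSup₂_of_le (f := fun E (_ : E ∈ normalizingMembers S (A ⊔ B)) => E) D
      ⟨hD, fun d hd => mem_normalizer_iff_cj.2 (hn d hd)⟩ le_rfl : D ≤ K) hd, ?_, e.symm⟩
    exact cj_of_comm_bot (comm_bot_symm (h4 ▸ rc_right h3)) hd
  -- a third point
  have third : ∀ P ∈ membersIn S (A ⊔ B), ∀ Q ∈ membersIn S (A ⊔ B), ∃ R ∈ membersIn S (A ⊔ B), R ≠ P ∧ R ≠ Q := by
    obtain ⟨a, ha, ha1⟩ := exists_ne_one (hS.ne_bot A hA)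
    obtain ⟨b, hb, hb1⟩ := exists_ne_one (hS.ne_bot B hB.1.1)
    have hab : a * b ≠ 1 := fun e => ha1 (line_inf hA hB ha (by rw [eq_inv_of_mul_eq_one_left e]; exact B.inv_mem hb))
    obtain ⟨E, hE, hle, he⟩ := line_root hB (mul_mem (Subgroup.mem_sup_left ha) (Subgroup.mem_sup_right hb)) hab
    have h1 : E ≠ A := by
      rintro rfl
      exact hb1 (line_inf hA hB (by simpa using E.mul_mem (E.inv_mem ha) he) hb)
    have h2 : E ≠ B := by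
      rintro rfl
      exact ha1 (line_inf hA hB ha (by simpa using E.mul_mem he (E.inv_mem hb)))
    have h3 : B ≠ A := hB.1.2.1
    intro P hP Q hQ
    by_cases e1 : A ≠ P ∧ A ≠ Q
    · exact ⟨A, ⟨hA, le_sup_left⟩, e1⟩
    by_cases e2 : B ≠ P ∧ B ≠ Q
    · exact ⟨B, ⟨hB.1.1, le_sup_right⟩, e2⟩
    refine ⟨E, ⟨hE, hle⟩, ?_, ?_⟩ <;> rintro rfl <;> grind
  have hKn : ∀ x ∈ K, ∀ P ∈ membersIn S (A ⊔ B), cj x P ∈ membersIn S (A ⊔ B) := by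
    intro x hx P hP
    have : K ≤ Subgroup.normalizer ((A ⊔ B : Subgroup G) : Set G) := iSup₂_le fun E hE => hE.2
    exact ⟨cj_mem hS hP.1 x, (mem_normalizer_iff_cj.1 (this hx)) ▸ cj_mono hP.2⟩
  intro C₁ h1 C₂ h2 D₁ h3 D₂ h4 hC hD
  obtain ⟨R, hR, hR1, hR2⟩ := third C₁ h1 D₁ h3
  obtain ⟨x, hx, -, e⟩ := key R hR C₁ h1 D₁ h3 hR1.symm hR2.symm
  obtain ⟨y, hy, e1, e2⟩ := key D₁ h3 (cj x C₂) (hKn x hx _ h2) D₂ h4 (by rw [← e]; simpa using hC.symm) hD.symm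
  exact ⟨y * x, K.mul_mem hy hx, by rw [cj_def, cj_mul, e, e1], by rw [cj_def, cj_mul, e2]⟩

end Cfsg.Agent.S5038
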