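import Cfsg.Statements.S5040
import Cfsg.Agent.H28.Root2

set_option autoImplicit false
open Cfsg

namespace Cfsg.Agent.S5040
open H28


/-- Let S be a non-degenerate class of abstract root subgroups of G and Δ a weak TI-subset of S. Then the members of Δ commute with one another elementwise. -/
theorem result {G : Type*} [Group G] {S : Set (Subgroup G)} (hS : Cfsg.IsRootSubgroupClass S) (hnd : Cfsg.IsNondegenerateRootSet S)
    {Δ : Set (Subgroup G)} (hΔ : Cfsg.IsWeakTISubset S Δ) : Cfsg.IsAbelianFamily Δ := by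
  obtain ⟨hS, hcl⟩ := hS
  obtain ⟨h1, -, h3, h4⟩ := hΔ
  have key : ∀ A ∈ Δ, ∀ E ∈ S, ⁅E, A⁆ = ⊥ → E ≤ setStab Δ := by
    intro A hA E hE hc
    refine le_setStab fun e he C hC => ?_
    by_cases he1 : e = 1
    · simpa [he1] using hC
    rcases h4 e ⟨he1, E, hE, he⟩ with h | h
    · rw [← h]; exact ⟨C, hC, rfl⟩
    · exact absurd hA (Set.disjoint_left.1 h ⟨A, hA, cj_of_comm_bot hc he⟩)
  have fin : ∀ A ∈ Δ, ∀ D ∈ S, IsRankOnePair A D → ¬ D ≤ setStab Δ := by
    intro A hA D hD r hle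
    have := line_gen hS hcl hnd (h1 hA) hD r (fun C hC => key A hA C hC.1.1 (comm_bot_symm hC.1.2.2)) hle
    refine h3 (h1.antisymm fun E hE => ?_)
    obtain ⟨g, rfl⟩ := hcl.2 A (h1 hA) E hE
    exact ((this ▸ Subgroup.mem_top g : g ∈ setStab Δ) A).1 hA
  intro A hA B hB
  rcases hS.pair A (h1 hA) B (h1 hB) with h | h | h
  · exact fun a ha b hb => comm_commute h ha hb
  · exact absurd (key B hB B (h1 hB) (self_comm hS (h1 hB))) (fin A hA B (h1 hB) h)
  · obtain ⟨P, hP, Q, hQ, r⟩ := hnd.2.1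
    obtain ⟨D, hD, r, h2, e⟩ := rc_exists_partner hS (all_ni hS hcl hP ⟨Q, hQ, r⟩) (h1 hB) (h1 hA) h
    have := rc_right h2
    rw [e] at this
    exact absurd (key A hA D hD (comm_bot_symm this)) (fin B hB D hD r)

end Cfsg.Agent.S5040
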