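import Cfsg.Statements.S5043
import Cfsg.Agent.H20.RT
import Cfsg.Agent.H11.Symp
import Cfsg.Agent.H10.SL

set_option autoImplicit false
open Matrix
open Cfsg H20

namespace Cfsg.Agent.S5043

/-- Let k be a field and n a natural number. In SL_{n+3}(k) (so in every dimension at least 3) the conjugates of the root subgroup of elementary transvections 1 + c E₁₂ (c ∈ k) — that is, the groups of transvections attached to an incident point–hyperplane pair — form a non-degenerate class of abstract k-root subgroups of SL_{n+3}(k) whose graph of rank one pairs is connected. -/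
theorem result (k : Type*) [Field k] (n : ℕ) :
    Cfsg.IsRootSubgroupClass {A : Subgroup (Matrix.SpecialLinearGroup (Fin (n + 3)) k) |
        ∃ g : Matrix.SpecialLinearGroup (Fin (n + 3)) k,
          A = Cfsg.conjBy (Subgroup.closure {t : Matrix.SpecialLinearGroup (Fin (n + 3)) k |
            ∃ c : k, (t : Matrix (Fin (n + 3)) (Fin (n + 3)) k) = Matrix.transvection 0 1 c}) g} ∧
    Cfsg.IsNondegenerateRootSet {A : Subgroup (Matrix.SpecialLinearGroup (Fin (n + 3)) k) |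
        ∃ g : Matrix.SpecialLinearGroup (Fin (n + 3)) k,
          A = Cfsg.conjBy (Subgroup.closure {t : Matrix.SpecialLinearGroup (Fin (n + 3)) k |
            ∃ c : k, (t : Matrix (Fin (n + 3)) (Fin (n + 3)) k) = Matrix.transvection 0 1 c}) g} ∧
    Cfsg.IsKRootSubgroupSet k {A : Subgroup (Matrix.SpecialLinearGroup (Fin (n + 3)) k) |
        ∃ g : Matrix.SpecialLinearGroup (Fin (n + 3)) k,
          A = Cfsg.conjBy (Subgroup.closure {t : Matrix.SpecialLinearGroup (Fin (n + 3)) k |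
            ∃ c : k, (t : Matrix (Fin (n + 3)) (Fin (n + 3)) k) = Matrix.transvection 0 1 c}) g} ∧
    Cfsg.IsConnectedFamily (Cfsg.FAdj {A : Subgroup (Matrix.SpecialLinearGroup (Fin (n + 3)) k) |
        ∃ g : Matrix.SpecialLinearGroup (Fin (n + 3)) k,
          A = Cfsg.conjBy (Subgroup.closure {t : Matrix.SpecialLinearGroup (Fin (n + 3)) k |
            ∃ c : k, (t : Matrix (Fin (n + 3)) (Fin (n + 3)) k) = Matrix.transvection 0 1 c}) g})
      {A : Subgroup (Matrix.SpecialLinearGroup (Fin (n + 3)) k) |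
        ∃ g : Matrix.SpecialLinearGroup (Fin (n + 3)) k,
          A = Cfsg.conjBy (Subgroup.closure {t : Matrix.SpecialLinearGroup (Fin (n + 3)) k |
            ∃ c : k, (t : Matrix (Fin (n + 3)) (Fin (n + 3)) k) = Matrix.transvection 0 1 c}) g} := by
  let ρ : SpecialLinearGroup (Fin (n + 3)) k →* Matrix (Fin (n + 3)) (Fin (n + 3)) k := SpecialLinearGroup.coeMonoidHom
  let N : Set (Matrix (Fin (n + 3)) (Fin (n + 3)) k) := {α | α ≠ 0 ∧ ∃ x φ, φ ⬝ᵥ x = 0 ∧ α = vecMulVec x φ}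
  have mul : ∀ x φ y ψ : Fin (n + 3) → k, vecMulVec x φ * vecMulVec y ψ = (φ ⬝ᵥ y) • vecMulVec x ψ := fun x φ y ψ => by
    rw [vecMulVec_mul_vecMulVec, vecMulVec_smul]
  have aba : ∀ x φ y ψ : Fin (n + 3) → k,
      vecMulVec x φ * vecMulVec y ψ * vecMulVec x φ = (φ ⬝ᵥ y * ψ ⬝ᵥ x) • vecMulVec x φ := fun x φ y ψ => by
    rw [mul, smul_mul_assoc, mul, smul_smul]
  have R : RT.RS k ρ N := by
    refine ⟨Subtype.val_injective, ?_, fun _ h => h.1, ?_, ?_, ?_⟩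
    · rintro _ ⟨-, x, φ, h, rfl⟩; rw [mul, h, zero_smul]
    · rintro _ ⟨-, x, φ, h, rfl⟩ c
      refine ⟨⟨1 + c • vecMulVec x φ, ?_⟩, rfl⟩
      rw [← smul_vecMulVec, vecMulVec_eq Unit, det_one_add_replicateCol_mul_replicateRow]
      simp [h]
    · rintro _ ⟨h0, x, φ, h, rfl⟩ g
      refine ⟨fun e => h0 ?_, ρ g *ᵥ x, φ ᵥ* ρ g⁻¹, ?_, by rw [mul_vecMulVec, vecMulVec_mul]⟩
      · have := congrArg (fun x => ρ g⁻¹ * x * ρ g) e
        simpa [← mul_assoc, ← map_mul, mul_assoc _ (ρ g⁻¹)] using this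
      · rw [← dotProduct_mulVec, mulVec_mulVec, ← map_mul, inv_mul_cancel, map_one, one_mulVec, h]
    · rintro _ ⟨-, x, φ, h, rfl⟩ _ ⟨-, y, ψ, h', rfl⟩
      refine ⟨_, aba .., by rw [aba, mul_comm], fun c => ?_⟩
      by_cases e : vecMulVec x φ * vecMulVec y ψ - vecMulVec y ψ * vecMulVec x φ = 0
      · exact Or.inl (sub_eq_zero.1 e)
      refine Or.inr ⟨e, ?_⟩
      rcases mul_eq_zero.1 c with c | c
      · exact ⟨-(ψ ⬝ᵥ x) • y, φ, by simp [c], by simp [mul, c]⟩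
      · exact ⟨(φ ⬝ᵥ y) • x, ψ, by simp [c], by simp [mul, c]⟩
  have sN : ∀ i j, i ≠ j → single i j (1 : k) ∈ N := fun i j h =>
    ⟨fun e => by simpa using congrFun (congrFun e i) j, _, _, by simp [h], single_eq_single_vecMulVec_single i j⟩
  have top : ⨆ A ∈ RT.T k ρ '' N, A = ⊤ := by
    refine eq_top_iff.2 fun g _ => H10.SL_transvection_induction (· ∈ _) (fun i j h c => ?_) (fun _ _ => mul_mem) g
    exact Subgroup.mem_iSup_of_mem (RT.T k ρ (single i j 1)) (Subgroup.mem_iSup_of_mem ⟨_, sN i j h, rfl⟩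
      (Subgroup.subset_closure ⟨c, show Matrix.transvection i j c = _ by simp [Matrix.transvection]⟩))
  have C := R.conn (by
    rintro _ ⟨h0, x, φ, h, rfl⟩ _ ⟨h0', y, ψ, h', rfl⟩
    have ex : ∀ x : Fin (n + 3) → k, x ≠ 0 → ∃ z, x ⬝ᵥ z ≠ 0 := fun x h => by
      by_contra! e
      exact h (dotProduct_eq_zero x e)
    rw [Ne, vecMulVec_eq_zero, not_or] at h0 h0'
    obtain ⟨z, -, z1, z2⟩ := H11.exists_both_ne_zero ⊤ (dotProductBilin k k φ) (dotProductBilin k k ψ)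
      (let ⟨z, h⟩ := ex φ h0.2; ⟨z, trivial, h⟩) (let ⟨z, h⟩ := ex ψ h0'.2; ⟨z, trivial, h⟩)
    have ex2 : ∀ x φ : Fin (n + 3) → k, x ≠ 0 → φ ⬝ᵥ x = 0 → φ ⬝ᵥ z ≠ 0 →
        ∃ χ ∈ LinearMap.ker (dotProductBilin k k z), dotProductBilin k k x χ ≠ 0 := fun x φ x0 h h' => by
      obtain ⟨w, hw⟩ := ex x x0
      exact ⟨w - (z ⬝ᵥ w / φ ⬝ᵥ z) • φ, by simp [dotProduct_comm z φ, h'], by simpa [dotProduct_comm x φ, h] using hw⟩
    obtain ⟨χ, c0, c1, c2⟩ := H11.exists_both_ne_zero _ _ _ (ex2 x φ h0.1 h z1) (ex2 y ψ h0'.1 h' z2)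
    simp only [dotProductBilin_apply_apply, LinearMap.mem_ker, dotProduct_comm _ χ] at z1 z2 c0 c1 c2
    have hz : vecMulVec z χ ≠ 0 := vecMulVec_ne_zero (fun e => z1 (by simp [e])) fun e => c1 (by simp [e])
    have a := vecMulVec_ne_zero h0.1 h0.2
    refine .tail (.single ⟨⟨a, _, _, h, rfl⟩, ⟨hz, _, _, c0, rfl⟩, ?_⟩)
      ⟨⟨hz, _, _, c0, rfl⟩, ⟨vecMulVec_ne_zero h0'.1 h0'.2, _, _, h', rfl⟩, ?_⟩ <;> rw [aba]
    · exact smul_ne_zero (mul_ne_zero z1 c1) a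
    · exact smul_ne_zero (mul_ne_zero c2 z2) hz)
  have h01 := sN 0 1 (by simp)
  have e1 : 2 % (n + 3) = 2 := Nat.mod_eq_of_lt (by omega)
  have e2 : (0 : Fin (n + 3)) ≠ 2 := by simp [Fin.ext_iff, e1]
  have e3 : (1 : Fin (n + 3)) ≠ 2 := by simp [Fin.ext_iff, e1]
  have h02 := sN 0 2 e2
  have h12 := sN 1 2 e3
  have h10 := sN 1 0 (by simp)
  have L := RT.cls_of_conn ⟨_, Set.mem_image_of_mem _ h01⟩ C
  have E : {A : Subgroup (Matrix.SpecialLinearGroup (Fin (n + 3)) k) | ∃ g, A = Cfsg.conjBy (Subgroup.closure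
      {t : Matrix.SpecialLinearGroup (Fin (n + 3)) k | ∃ c : k, t.1 = Matrix.transvection 0 1 c}) g} = RT.T k ρ '' N := by
    have : Subgroup.closure {t : Matrix.SpecialLinearGroup (Fin (n + 3)) k | ∃ c : k, t.1 = Matrix.transvection 0 1 c} =
        RT.T k ρ (single 0 1 1) := by simp [RT.T, Matrix.transvection, ρ]
    rw [this]
    ext A
    exact ⟨by rintro ⟨g, rfl⟩; exact (R.root top).conj_mem _ ⟨_, h01, rfl⟩ g, L.2 _ ⟨_, h01, rfl⟩ A⟩
  rw [E]
  refine ⟨⟨R.root top, L⟩, ⟨⟨_, ⟨_, h01, rfl⟩, _, ⟨_, h02, rfl⟩, fun e => ?_, R.comm_bot h01 h02 (by simp [e2.symm])⟩,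
    ⟨_, ⟨_, h01, rfl⟩, _, ⟨_, h10, rfl⟩, R.r1 h01 h10 (by simpa using h01.1)⟩,
    ⟨_, ⟨_, h01, rfl⟩, _, ⟨_, h12, rfl⟩, R.rc h01 h12 (by simp [e2.symm]) (by simp [e2.symm])
      (by simpa [e2.symm] using h02)⟩⟩, R.kroot top, C⟩
  obtain ⟨g, hg⟩ := R.ex _ h02 1
  obtain ⟨c, hc⟩ := (RT.mem_T (R.sq _ h01)).1 (e.ge (Subgroup.subset_closure ⟨1, hg⟩))
  simpa [e3, Matrix.smul_apply] using congrFun (congrFun (hg.symm.trans hc) 0) 2

end Cfsg.Agent.S5043
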