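import Cfsg.Statements.S5044
import Cfsg.Agent.H13.RI5

set_option autoImplicit false
open Cfsg

namespace Cfsg.Agent.S5044

open H13

/-- Let G be a finite group generated by a set D of root involutions (a conjugation-invariant set of involutions any two of which commute, have product of odd order, or have product of order 4 whose square lies in D), and suppose some product of two different commuting members of D lies again in D. Then either the commuting graph of D is connected, or the quotient of G by the preimage of the centre of G/O₂(G) is isomorphic to L₂(q), Sz(q) or U₃(q) for a power q > 2 of 2. -/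
theorem result {G : Type*} [Group G] [Finite G] {D : Set G} (hD : Cfsg.IsRootInvolutionSet D)
    (hDD : (D ∩ Cfsg.commutingProducts D).Nonempty) :
    Cfsg.IsConnectedSet (Cfsg.CommAdj D) D ∨
    (∃ (F : Type) (_ : Field F) (_ : Fintype F), CharP F 2 ∧ 4 ≤ Fintype.card F ∧
      Nonempty (G ⧸ Cfsg.twoZCore G ≃* Matrix.ProjectiveSpecialLinearGroup (Fin 2) F)) ∨
    Cfsg.Lie.IsoSuzuki (G ⧸ Cfsg.twoZCore G) ∨
    (∃ (F : Type) (_ : Field F) (_ : Fintype F) (q : ℕ), CharP F 2 ∧ Fintype.card F = q ^ 2 ∧ 4 ≤ q ∧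
      Nonempty (G ⧸ Cfsg.twoZCore G ≃* Cfsg.PSU 3 F q)) := by
  obtain ⟨_, k, e, he, d, hd, -, -, rfl⟩ := hDD
  refine or_iff_not_imp_left.2 fun n => ?_
  haveI : Fact (Nat.Prime 2) := ⟨Nat.prime_two⟩
  have p4 : ∀ n : ℕ, 2 ≤ n → 4 ≤ 2 ^ n := fun n hn => Nat.pow_le_pow_right (n := 2) two_pos hn
  obtain ⟨F, _, _, ⟨m, h1, h2⟩, f⟩ | h | ⟨F, _, _, m, h1, h2, f⟩ := bender_of_discon (ri_of hD) hD.generates hd he k n
  · exact .inl ⟨F, _, _, charP_of_card_eq_prime_pow h2, h2 ▸ p4 m h1, f⟩
  · exact .inr (.inl h)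
  · exact .inr (.inr ⟨F, _, _, 2 ^ m, charP_of_card_eq_prime_pow (h2.trans (pow_mul _ _ _).symm), h2, p4 m h1, f⟩)

end Cfsg.Agent.S5044
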