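import Cfsg.Statements.S5045
import Cfsg.Agent.H13.RI2

set_option autoImplicit false
open Cfsg

namespace Cfsg.Agent.S5045

open H13 H18 Subgroup Relation

/-- Let G be a finite group generated by a set D of root involutions, and W the set of members of D whose product with every other member of D has even order or is trivial (the isolated vertices of the odd-order-product graph on D). Then W is conjugation-invariant and generates a normal 2-subgroup of G meeting D in exactly W; the commutator of two members of D lying in different connected components of that graph, each with more than one member, lies in the subgroup generated by W; and for a in such a component, every member of D commuting with a, different from a and with product with a in D, lies in that component or in W. -/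
theorem result {G : Type*} [Group G] [Finite G] {D : Set G} (hD : Cfsg.IsRootInvolutionSet D) :
    (∀ w ∈ {w | Cfsg.IsIsolatedElem (Cfsg.OddAdj D) D w}, ∀ g : G, g * w * g⁻¹ ∈ {w | Cfsg.IsIsolatedElem (Cfsg.OddAdj D) D w}) ∧
    (Subgroup.closure {w | Cfsg.IsIsolatedElem (Cfsg.OddAdj D) D w}).Normal ∧
    IsPGroup 2 ↥(Subgroup.closure {w | Cfsg.IsIsolatedElem (Cfsg.OddAdj D) D w}) ∧
    (Subgroup.closure {w | Cfsg.IsIsolatedElem (Cfsg.OddAdj D) D w} : Set G) ∩ D = {w | Cfsg.IsIsolatedElem (Cfsg.OddAdj D) D w} ∧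
    (∀ a ∈ D, ∀ b ∈ D, (∃ a' ∈ Cfsg.elemComponentOf (Cfsg.OddAdj D) D a, a' ≠ a) →
      (∃ b' ∈ Cfsg.elemComponentOf (Cfsg.OddAdj D) D b, b' ≠ b) →
      Cfsg.elemComponentOf (Cfsg.OddAdj D) D a ≠ Cfsg.elemComponentOf (Cfsg.OddAdj D) D b →
        a * b * a⁻¹ * b⁻¹ ∈ Subgroup.closure {w | Cfsg.IsIsolatedElem (Cfsg.OddAdj D) D w}) ∧
    (∀ a ∈ D, (∃ a' ∈ Cfsg.elemComponentOf (Cfsg.OddAdj D) D a, a' ≠ a) →
      Cfsg.productPartners D a ⊆ Cfsg.elemComponentOf (Cfsg.OddAdj D) D a ∪ {w | Cfsg.IsIsolatedElem (Cfsg.OddAdj D) D w}) := by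
  have h := ri_of hD
  have nD : ∀ g : G, g ∈ normalizer D := fun g => h.mem_nD (hD.generates ▸ mem_top g)
  have iso : ∀ w, IsIsolatedElem (OddAdj D) D w ↔ w ∈ D ∧ ∀ b ∈ D, ¬ Od w b := fun w =>
    ⟨fun k => ⟨k.1, fun b hb o => (k.2 b).1 ⟨k.1, hb, o⟩⟩, fun k => ⟨k.1, fun b =>
      ⟨fun o => k.2 b o.2.1 o.2.2, fun o => k.2 b o.1 (Od.symm o.2.2)⟩⟩⟩
  rw [show {w | IsIsolatedElem (OddAdj D) D w} = {w | w ∈ D ∧ ∀ b ∈ D, ¬ Od w b} from Set.ext iso]
  set W := {w | w ∈ D ∧ ∀ b ∈ D, ¬ Od w b}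
  have cj : ∀ w ∈ W, ∀ g : G, g * w * g⁻¹ ∈ W := fun w hw g =>
    ⟨nDc (nD g) hw.1, fun b hb o => hw.2 _ (nDc' (nD g) hb) (od_conj'.1 o)⟩
  have nm : (closure W).Normal := norm_top_iff.1 (norm_closure fun g _ w hw => cj w hw g)
  have pW := h.two_closure (T := W) (fun _ k => k.1) (fun d hd e he => by simpa [h.inv hd.1] using cj e he d)
    fun a ha b hb => ha.2 b hb.1
  have nb : ∀ a, (∃ a' ∈ elemComponentOf (OddAdj D) D a, a' ≠ a) → ∃ x ∈ D, Od a x := fun a ⟨a', k, n⟩ =>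
    let ⟨x, i, _⟩ := k.2.cases_head.resolve_left n.symm; ⟨x, i.2.1, i.2.2⟩
  have X : ∀ a ∈ D, (∃ a' ∈ elemComponentOf (OddAdj D) D a, a' ≠ a) →
      productPartners D a ⊆ elemComponentOf (OddAdj D) D a ∪ W := fun a ha k e he => by
    obtain ⟨x, hx, o⟩ := nb a k
    by_cases n : e ∈ W
    · exact .inr n
    · obtain ⟨y, hy, o'⟩ : ∃ y ∈ D, Od e y := by by_contra! c; exact n ⟨he.1.1, c⟩
      exact .inl ⟨he.1.1, h.X_comp ha hx o he.1.1 hy o' he.2⟩
  refine ⟨cj, nm, pW.isPGroup, Set.ext fun w => ⟨fun k => ⟨k.2, fun b hb o => RI.nod_of_two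
    (pW.sup_norm' ((piElt_of_pow_eq_one Nat.prime_two (pow_two b ▸ h.sq b hb)).zpowers) norm_of_normal) (h.sq w k.2) (mem_sup_left k.1)
    (mem_sup_right (mem_zpowers b)) o⟩, fun k => ⟨subset_closure k, k.1⟩⟩, fun a ha b hb ka kb ne => ?_, X⟩
  have cn : ∀ {c}, ReflTransGen (OddAdj D) a c → ReflTransGen (OddAdj D) b c → False := fun i j => ne (Set.ext fun x =>
    ⟨fun k => ⟨k.1, j.trans ((ocon_symm i).trans k.2)⟩, fun k => ⟨k.1, i.trans ((ocon_symm j).trans k.2)⟩⟩)
  rw [h.inv ha, h.inv hb]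
  have a2 := h.sq a ha; have b2 := h.sq b hb
  rcases h.tri ha hb with c | c | c
  · rw [show a * b * a * b = 1 from wd[c & a2 & b2]]; exact one_mem _
  · exact (cn (.single ⟨ha, hb, c⟩) .refl).elim
  have s := h.br_symm ha hb c
  have m : ∀ {a}, a ∈ D → ∀ {z}, z ∈ D → z * a ∈ D → z ∈ productPartners D a := fun ha z hz k =>
    ⟨⟨hz, h.comm hz ha k, h.ne_of_mul hz k⟩, k⟩
  rcases X a ha ka (m ha c (s ▸ h.br_mul hb ha)) with i | i
  · exact subset_closure ((X b hb kb (m hb c (h.br_mul ha hb))).resolve_left fun j => cn i.2 j.2)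
  · exact subset_closure i

end Cfsg.Agent.S5045
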