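import Cfsg.Statements.S5046
import Cfsg.Agent.H13.RI2

set_option autoImplicit false
open Cfsg

namespace Cfsg.Agent.S5046

open H13 H18 Subgroup Relation

/-- Let G be a finite group generated by a set D of root involutions whose odd-order-product graph is connected, and d ∈ D. Then the members e of D with the same commuting members as d are exactly those for which the union of the commuting members of d and the members whose product with d has order 4 equals the corresponding union for e. -/
theorem result {G : Type*} [Group G] [Finite G] {D : Set G} (hD : Cfsg.IsRootInvolutionSet D)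
    (hc : Cfsg.IsConnectedSet (Cfsg.OddAdj D) D) {d : G} (hd : d ∈ D) :
    Cfsg.sameCommutingClass D d =
      {e | e ∈ D ∧ Cfsg.commutingMembers D d ∪ Cfsg.fourPartners D d = Cfsg.commutingMembers D e ∪ Cfsg.fourPartners D e} := by
  have h := ri_of hD
  ext e
  refine and_congr_right fun he => ?_
  by_cases ne : d = e
  · simp [ne]
  have k : ∀ {d}, d ∈ D → ∀ z, z ∈ commutingMembers D d ∪ fourPartners D d ↔ z ∈ D ∧ ¬ Od d z := fun hd z =>
    ⟨fun k => k.elim (fun k => ⟨k.1, fun o => h.od_nc hd k.1 o k.2.symm⟩) fun k =>
      ⟨k.1, h.fo_nod hd k.1 ((h.fo_iff hd k.1).2 k.2)⟩, fun k => (h.tri hd k.1).elim (fun c => .inl ⟨k.1, c.symm⟩)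
      fun c => .inr ⟨k.1, (h.fo_iff hd k.1).1 (c.resolve_left k.2)⟩⟩
  have := (rc_of_con h hc hd he ne).E_iff hd he
  simp only [Set.ext_iff, k hd, k he, and_congr_right_iff, not_iff_not]
  simpa only [commutingMembers, Set.mem_ofPred_eq, and_congr_right_iff] using this

end Cfsg.Agent.S5046
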