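import Cfsg.Statements.S5047
import Cfsg.Agent.H13.RI2

set_option autoImplicit false
open Cfsg

namespace Cfsg.Agent.S5047

open H13 H18 Subgroup Relation

/-- Let G be a finite group generated by a set D of root involutions whose odd-order-product graph is connected, a ∈ D, and b a member of D different from a, commuting with a, with ab ∈ D, but not having the same commuting members as a. Then some member x of D with bx of order 4 has ax of order 3. -/
theorem result {G : Type*} [Group G] [Finite G] {D : Set G} (hD : Cfsg.IsRootInvolutionSet D)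
    (hc : Cfsg.IsConnectedSet (Cfsg.OddAdj D) D) {a b : G} (ha : a ∈ D) (hb : b ∈ Cfsg.productPartners D a)
    (hbE : b ∉ Cfsg.sameCommutingClass D a) : ∃ x ∈ Cfsg.fourPartners D b, orderOf (a * x) = 3 := by
  have h := rc_of_con (ri_of hD) hc ha hb.1.1 hb.1.2.2.symm
  obtain ⟨z, hz, o, n⟩ : ∃ z ∈ D, Od a z ∧ ¬ Od b z := by
    by_contra! n
    exact hbE ⟨hb.1.1, Set.ext fun c => and_congr_right ((h.E_iff ha hb.1.1).2 (h.A_eq ha hb.1.1 n) c)⟩
  obtain ⟨f, hf, -, c, e⟩ := h.L5 ha hz o hb.1.1 hb.2 (h.X_fo ha hz hb.1.1 o hb.2 n)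
  obtain ⟨x, hx, -, o3, i⟩ := h.L6 hf ha c
  exact ⟨x, ⟨hx, (h.fo_iff hb.1.1 hx).1 (by rw [e] at i; unfold Fo; rwa [i])⟩, o3⟩

end Cfsg.Agent.S5047
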