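import Cfsg.Statements.S5048
import Cfsg.Agent.H13.RI2

set_option autoImplicit false
open Cfsg

namespace Cfsg.Agent.S5048

open H13 H18 Subgroup Relation

/-- Let G be a finite group generated by a set D of root involutions whose odd-order-product graph is connected, with some product of two different commuting members of D again in D. Then the largest solvable normal subgroup of G is the preimage of the centre of G/O₂(G), and the quotient of G by it is a simple group. -/
theorem result {G : Type*} [Group G] [Finite G] {D : Set G} (hD : Cfsg.IsRootInvolutionSet D)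
    (hc : Cfsg.IsConnectedSet (Cfsg.OddAdj D) D) (hDD : (D ∩ Cfsg.commutingProducts D).Nonempty) :
    Cfsg.solvableRadical G = Cfsg.twoZCore G ∧ IsSimpleGroup (G ⧸ Cfsg.twoZCore G) := by
  obtain ⟨_, k, e, he, d, hd, -, n, rfl⟩ := hDD
  have h := rc_of_con (ri_of hD) hc he hd ((ri_of hD).ne_of_mul he k)
  refine ⟨le_antisymm (sSup_le fun N hN => ?_) (le_sSup ⟨inferInstance, ?_⟩), h.simple_quo hD.generates hd he k⟩
  · have := hN.1
    refine ((h.nml_cases hD.generates hd he k).resolve_left fun e => ?_).1
    have := Solv.eq_bot_of_le_der (H := N) hN.2 (by rw [e]; exact (h.perfect hD.generates hd he k).ge)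
    exact h.ne d hd (eq_one_of_eq_bot (e.symm.trans this) (mem_top d))
  · have pQ : PiGrp {2} (pCore 2 G) := pCore_eq (G := G) Nat.prime_two ▸ pcore_pi
    have := pQ.solv
    have : Solv (center (G ⧸ pCore 2 G)) := Group.isSolvable_of_comm fun a b => Subtype.ext (mem_center_iff.1 b.2 a)
    have le : pCore 2 G ≤ twoZCore G := fun x hx => by
      rw [twoZCore, mem_comap, show QuotientGroup.mk' _ x = 1 from (QuotientGroup.eq_one_iff _).2 hx]; exact one_mem _
    exact Group.isSolvable_of_ker_le_range (inclusion le) (((QuotientGroup.mk' (pCore 2 G)).comp (twoZCore G).subtype).codRestrict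
      (center _) fun x => x.2) fun x hx => ⟨⟨x, (QuotientGroup.eq_one_iff _).1 (congrArg Subtype.val hx)⟩, rfl⟩

end Cfsg.Agent.S5048
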