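import Cfsg.Statements.S5049
import Cfsg.Agent.H18.Nil
import Cfsg.Agent.H9.Dihedral

set_option autoImplicit false
open Cfsg

namespace Cfsg.Agent.S5049

open H18 Subgroup

/-- Let G be a finite group generated by a set D of odd transpositions (root involutions with no product of order 4), Q = O₂(G), and for a ∈ D let Q_a be the commutator subgroup of Q with a. Then every member of D commuting with a centralizes Q_a; and for b ∈ D with ab of odd order greater than 1, the centralizer of ab in Q is the intersection of the centralizers of a and b in Q. -/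
theorem result {G : Type*} [Group G] [Finite G] {D : Set G} (hD : Cfsg.IsOddTranspositionSet D) {a : G} (ha : a ∈ D) :
    (∀ e ∈ Cfsg.commutingMembers D a, ∀ q ∈ ⁅Cfsg.pCore 2 G, Subgroup.zpowers a⁆, e * q = q * e) ∧
    (∀ b ∈ Cfsg.oddPartners D a,
      Cfsg.pCore 2 G ⊓ Subgroup.centralizer {a * b} = Cfsg.pCore 2 G ⊓ Subgroup.centralizer {a} ⊓ Subgroup.centralizer {b}) := by
  have two := Nat.prime_two
  have pQ : PiGrp {2} (pCore 2 G) := pCore_eq (G := G) two ▸ pcore_pi
  have : (pCore 2 G).Normal := pCore_eq (G := G) two ▸ pcore_nml.normal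
  set Q := pCore 2 G
  have sq : ∀ d ∈ D, d * d = 1 := fun d hd => H9.mul_self_of_orderOf (hD.1.orderOf_eq d hd)
  have pr : ∀ a ∈ D, ∀ b ∈ D, a * b = b * a ∨ Odd (orderOf (a * b)) := fun a ha b hb =>
    (hD.1.pair a ha b hb).imp_right fun h => h.resolve_right fun h => hD.2 a ha b hb h.1
  have pe : ∀ d ∈ D, PiElt {2} d := fun d hd => piElt_of_pow_eq_one two (pow_two d ▸ sq d hd)
  have k : ∀ e ∈ D, e * a = a * e → ∀ q ∈ Q, Commute e (q * a * q⁻¹) := fun e he h q hq =>
    (pr e he _ (hD.1.conj_mem a ha q)).elim id fun o => by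
      have : PiElt {2} (e * (q * a * q⁻¹)) := (pQ.sup_norm' ((pe e he).mul' (pe a ha) h).zpowers norm_of_normal).elt (by
        simpa [mul_assoc] using mul_mem_sup (this.conj_mem _ (mul_mem hq (this.conj_mem _ (inv_mem hq) a)) e)
          (mem_zpowers (e * a)))
      rw [eq_inv_of_mul_eq_one_right (this.eq_one' ((piNat_compl_iff_coprime two).2 (Nat.coprime_two_right.2 o)))]
      exact (Commute.refl e).inv_right
  refine ⟨fun e he q hq => ((commutator_le.2 fun q hq b hb => ?_ : _ ≤ C1(e)) hq e rfl), fun b hb => le_antisymm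
    (fun q hq => ?_) fun q hq => ⟨hq.1.1, mem_C1.2 (Commute.mul_right (mem_C1.1 hq.1.2) (mem_C1.1 hq.2))⟩⟩
  · obtain ⟨n, rfl⟩ := mem_zpowers_iff.1 hb
    rw [commutatorElement_def, ← conj_zpow]
    exact mul_mem (zpow_mem (mem_C1.2 (k e he.1 he.2 q hq).symm) n) (inv_mem (zpow_mem (mem_C1.2 he.2.symm) n))
  · have ia := H9.inv_eq_of_mul_self (sq a ha)
    have qd : q ∈ C1(a * b) := hq.2
    have aN : a ∈ N(C1(a * b)) := mem_N_iff_cj.2 (by rw [cj_C1, H9.left_inverts (sq a ha) (sq b hb.1), C1_inv])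
    have c1 : q * (a * q⁻¹ * a⁻¹) ∈ Q := mul_mem hq.1 (this.conj_mem _ (inv_mem hq.1) a)
    have c2 : q * (a * q⁻¹ * a⁻¹) ∈ C1(a * b) := mul_mem qd (conj_mem_N aN (inv_mem qd))
    have e : q * a * q⁻¹ * b = q * (a * q⁻¹ * a⁻¹) * (a * b) := by group
    generalize hc : q * (a * q⁻¹ * a⁻¹) = c at *
    have od : PiElt {2}ᶜ (a * b) := (piNat_compl_iff_coprime two).2 (Nat.coprime_two_right.2 hb.2.2)
    have : c = 1 := by
      rcases pr _ (hD.1.conj_mem a ha q) b hb.1 with h | h
      · have : PiElt {2} (c * (a * b)) := e ▸ (pe _ (hD.1.conj_mem a ha q)).mul' (pe b hb.1) h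
        have := (this.of_mem_zpowers (mem_zpowers_mul_right (mem_C1.1 c2) (pQ.elt c1) od)).eq_one' od
        exact absurd ((eq_inv_of_mul_eq_one_right this).trans ia) hb.2.1
      · exact (pQ.elt c1).eq_one' (PiElt.of_mem_zpowers ((piNat_compl_iff_coprime two).2 (Nat.coprime_two_right.2 (e ▸ h)))
          (mem_zpowers_mul_left (mem_C1.1 c2) (pQ.elt c1) od))
    have qa : Commute q a := commutatorElement_eq_one_iff_commute.1 (by rw [← this, ← hc, commutatorElement_def]; group)
    exact ⟨⟨hq.1, mem_C1.2 qa⟩, mem_C1.2 (inv_mul_cancel_left a b ▸ qa.inv_right.mul_right (mem_C1.1 qd))⟩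

end Cfsg.Agent.S5049
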