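import Cfsg.Statements.S5051
import Cfsg.Agent.H13.RI8

set_option autoImplicit false
open Cfsg

namespace Cfsg.Agent.S5051

open H13 H18 Subgroup

/-- Let G be a finite group generated by a set D of odd transpositions, d ∈ D, x ∈ D with dx of odd order greater than 1, and X the subgroup generated by x together with the members of D having the same commuting members as d. Then X/O₂(X) is isomorphic to L₂(q) or Sz(q) for a power q > 2 of 2, or is a dihedral group. -/
theorem result {G : Type*} [Group G] [Finite G] {D : Set G} (hD : Cfsg.IsOddTranspositionSet D) {d x : G} (hd : d ∈ D)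
    (hx : x ∈ Cfsg.oddPartners D d) :
    (∃ (F : Type) (_ : Field F) (_ : Fintype F), CharP F 2 ∧ 4 ≤ Fintype.card F ∧
      Nonempty ((↥(Subgroup.closure (Cfsg.sameCommutingClass D d ∪ {x})) ⧸
        Cfsg.pCore 2 ↥(Subgroup.closure (Cfsg.sameCommutingClass D d ∪ {x}))) ≃* Matrix.ProjectiveSpecialLinearGroup (Fin 2) F)) ∨
    Cfsg.Lie.IsoSuzuki ((↥(Subgroup.closure (Cfsg.sameCommutingClass D d ∪ {x})) ⧸
        Cfsg.pCore 2 ↥(Subgroup.closure (Cfsg.sameCommutingClass D d ∪ {x})))) ∨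
    (∃ n : ℕ, Nonempty ((↥(Subgroup.closure (Cfsg.sameCommutingClass D d ∪ {x})) ⧸
        Cfsg.pCore 2 ↥(Subgroup.closure (Cfsg.sameCommutingClass D d ∪ {x}))) ≃* DihedralGroup n)) := by
  have h := ot_of hD
  rw [Ec_eq]
  set X := closure (Ec D d ∪ {x})
  have dX : d ∈ X := subset_closure (.inl (Ec_self hd))
  have xX : x ∈ X := subset_closure (.inr rfl)
  obtain ⟨s, -⟩ := h.s51 (d := ⟨d, dX⟩) (x := ⟨x, xX⟩) (T := X.subtype ⁻¹' Ec D d) X.subtype X.subtype_injective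
    (QuotientGroup.mk' (pCore 2 X)) (QuotientGroup.mk'_surjective _) (by
      rw [QuotientGroup.ker_mk', pCore_eq Nat.prime_two]; exact pcore_pi) (H1.pCore_quotient_eq_bot 2 X)
    (fun g => h.mem_nD (hD.1.generates ▸ mem_top _)) hd hx.1 ⟨hx.2.1.symm, hx.2.2⟩ (fun _ k => k)
    (top_le_iff.1 (closure_closure_coe_preimage.ge.trans (Subgroup.closure_mono fun y hy =>
      hy.imp id fun e => Subtype.ext e)))
  generalize QuotientGroup.mk' (pCore 2 X) ⟨d, dX⟩ = d' at s
  generalize QuotientGroup.mk' (pCore 2 X) ⟨x, xX⟩ = x' at s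
  by_cases k : ∃ t ∈ Ec {y | IsConj x' y} d', t ≠ d'
  · obtain ⟨t, ht, n⟩ := k
    obtain ⟨F, _, _, h1, h2, -, f⟩ | i := s.iso ht n
    exacts [.inl ⟨F, _, _, h1, h2, f⟩, .inr (.inl i.1)]
  push Not at k
  obtain ⟨f⟩ := H9.nonempty_closure_pair_equiv_dihedral (H9.orderOf_eq_two.2 ⟨s.sq _ s.hd, s.ne _ s.hd⟩)
    (H9.orderOf_eq_two.2 ⟨s.sq _ s.hx, s.ne _ s.hx⟩)
  have : closure {d', x'} = ⊤ := top_le_iff.1 (s.gen.ge.trans (Subgroup.closure_mono fun y hy => hy.imp (k y) id))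
  exact .inr (.inr ⟨_, ⟨(topEquiv.symm.trans (MulEquiv.subgroupCongr this.symm)).trans f⟩⟩)

end Cfsg.Agent.S5051
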