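import Cfsg.Statements.S5052
import Cfsg.Agent.H13.OT4

set_option autoImplicit false
open Cfsg

namespace Cfsg.Agent.S5052

open H13 H18 Subgroup

/-- Let G be a finite group with O₂(G) = 1 and trivial centre, generated by a class D of odd transpositions whose commuting graph is connected, with some product of two different commuting members again in D. Then for each d ∈ D the members of D with the same commuting members as d, together with 1, form a subgroup E(d); and for every x ∈ D with dx of odd order greater than 1, the subgroup generated by E(d) and x is isomorphic to L₂(q) where q is the order of E(d). -/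
theorem result {G : Type*} [Group G] [Finite G] {D : Set G} (hD : Cfsg.IsOddTranspositionSet D) (hcl : Cfsg.IsRootInvolutionClass D)
    (hO : Cfsg.pCore 2 G = ⊥) (hZ : Subgroup.center G = ⊥) (hDD : (D ∩ Cfsg.commutingProducts D).Nonempty)
    (hc : Cfsg.IsConnectedSet (Cfsg.CommAdj D) D) {d : G} (hd : d ∈ D) :
    (Cfsg.sameCommutingSubgroup D d : Set G) = Cfsg.sameCommutingClass D d ∪ {1} ∧
    ∀ x ∈ Cfsg.oddPartners D d, ∃ (F : Type) (_ : Field F) (_ : Fintype F),
      Fintype.card F = Nat.card ↥(Cfsg.sameCommutingSubgroup D d) ∧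
      Nonempty (↥(Subgroup.closure (Cfsg.sameCommutingClass D d ∪ {x})) ≃* Matrix.ProjectiveSpecialLinearGroup (Fin 2) F) := by
  have t := ot_of hD
  obtain ⟨_, k, a, ha, b, hb, -, -, rfl⟩ := hDD
  obtain ⟨x, hx, y, hy, o⟩ : ∃ x ∈ D, ∃ y ∈ D, Od x y := by
    by_contra! n
    have := t.two_closure le_rfl t.cnj n
    rw [hD.1.generates] at this
    exact t.ne d hd (eq_one_of_eq_bot hO (pCore_eq (G := G) Nat.prime_two ▸ le_pcore (nml_top_iff.2 inferInstance) this (mem_top d)))
  have r := rc_of_cls hcl hx hy o
  have h : OC D := ⟨t, r, r.X_all hb ha k⟩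
  rw [sameCommutingSubgroup, Ec_eq]
  refine ⟨Set.ext fun u => ⟨fun i => (h.U_eq hD.1.generates hO hZ hd i).symm, ?_⟩,
    fun x hx => h.l2 hD.1.generates hO hZ hd hx.1 ⟨hx.2.1.symm, hx.2.2⟩ hc⟩
  rintro (i | rfl)
  exacts [subset_closure i, one_mem _]

end Cfsg.Agent.S5052
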