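import Cfsg.Statements.S5053
import Cfsg.Agent.H13.RI6

set_option autoImplicit false
open Cfsg

namespace Cfsg.Agent.S5053

open H13 H18 Subgroup

/-- Let G be a finite group generated by a non-degenerate conjugacy class D of root involutions (some two different members commute, some two have product of odd order, some two have product of order 4) and T a weak TI-subset of D: a subset with more than one element, different from D, whose conjugate by any member of D equals T or is disjoint from it. Then T generates an abelian subgroup. -/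
theorem result {G : Type*} [Group G] [Finite G] {D : Set G} (hD : Cfsg.IsNondegenerateRootInvolutionSet D)
    (hcl : Cfsg.IsRootInvolutionClass D)     {T : Set G} (hT : Cfsg.IsWeakTISubsetOfElements D T) : IsMulCommutative ↥(Subgroup.closure T) := by
  obtain ⟨hD, -, ⟨a, ha, b, hb, n, o⟩, e, he, f, hf, k⟩ := hD
  have h := rc_of_cls hcl ha hb ⟨n, o⟩
  replace k := (h.fo_iff he hf).2 k
  obtain ⟨h1, -, h3, h4⟩ := hT
  have key : ∀ a ∈ T, ∀ d ∈ D, d * a = a * d → d ∈ normalizer T := fun a ha d hd c t => by
    have := (h4 d hd).resolve_right fun i => Set.disjoint_left.1 i ⟨a, ha, by simp [c]⟩ ha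
    exact ⟨fun i => this.le ⟨t, i, rfl⟩, fun i => by
      obtain ⟨s, hs, e⟩ := this.ge i
      exact (show s = t by simpa using e) ▸ hs⟩
  have fin : ∀ a ∈ T, ∀ x ∈ D, Od a x → x ∉ normalizer T := fun a ha x hx o m => h3 (h1.antisymm fun y hy => by
    obtain ⟨g, -, rfl⟩ := h.cls a (h1 ha) y hy
    exact nDc ((h.gen_X hD.generates he hf k (h1 ha) hx o (fun y hy j => key a ha y hy (h.comm hy (h1 ha) j)) m).ge
      (mem_top g)) ha)
  refine (abel_closure fun a ha b hb => h.comm_of (h1 ha) (h1 hb) (fun o => fin a ha b (h1 hb) o (key b hb b (h1 hb) rfl))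
    fun c => ?_).comm
  obtain ⟨x, hx, o, -, i⟩ := h.L6 (h1 ha) (h1 hb) c
  have s := h.br_symm c hx (by unfold Fo; rw [i]; exact h1 ha)
  refine fin b hb x hx o (key a ha x hx ?_)
  generalize a * b * a * b = z at *
  exact wd[i & s]

end Cfsg.Agent.S5053
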