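import Cfsg.Statements.S5054
import Cfsg.Agent.H13.RI6

set_option autoImplicit false
open Cfsg

namespace Cfsg.Agent.S5054

open H13 Subgroup

/-- Let G be a finite group generated by a non-degenerate conjugacy class D of root involutions. Then for every d ∈ D and every x ∈ D with dx of odd order greater than 1, G is generated by x together with the members of D different from d that commute with d and have product with d in D; and the graph on D joining two different commuting members whose product lies in D is connected. -/
theorem result {G : Type*} [Group G] [Finite G] {D : Set G} (hD : Cfsg.IsNondegenerateRootInvolutionSet D)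
    (hcl : Cfsg.IsRootInvolutionClass D) :
    (∀ d ∈ D, ∀ x ∈ Cfsg.oddPartners D d, Subgroup.closure (Cfsg.productPartners D d ∪ {x}) = ⊤) ∧
    Cfsg.IsConnectedSet (Cfsg.ProdAdj D) D := by
  obtain ⟨hD, -, ⟨a, ha, b, hb, n, o⟩, e, he, f, hf, k⟩ := hD
  have h := rc_of_cls hcl ha hb ⟨n, o⟩
  replace k := (h.fo_iff he hf).2 k
  exact ⟨fun d hd x hx => h.gen_X hD.generates he hf k hd hx.1 ⟨hx.2.1.symm, hx.2.2⟩ (fun y hy j => subset_closure
    (.inl ⟨⟨hy, h.comm hy hd j, h.ne_of_mul hy j⟩, j⟩)) (subset_closure (.inr rfl)), h.econ hD.generates he hf k⟩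

end Cfsg.Agent.S5054
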