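import Cfsg.Statements.S5055
import Cfsg.Agent.H13.RS2

set_option autoImplicit false
open Cfsg

namespace Cfsg.Agent.S5055

open H13 H18 Subgroup
open scoped commutatorElement

/-- The Root Structure Theorem for root involutions. Let G be a finite group with O₂(G) = 1 and trivial centre, generated by a non-degenerate class D of root involutions such that for every d ∈ D the members of D with the same commuting members as d, together with 1, form a subgroup E(d). For d ∈ D let M_d be the subgroup generated by d and the members e ≠ d of D commuting with d with ed ∈ D, let W_d be the set of members of D commuting with d that have no partner with product of odd order among the members commuting with d, and let N_d be the subgroup generated by W_d. Then N_d = M_d; the members of D in N_d are d and the e just described; the commutator subgroup of N_d is E(d); and the members of D central in N_d are exactly those with the same commuting members as d. -/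
theorem result {G : Type*} [Group G] [Finite G] {D : Set G} (hD : Cfsg.IsNondegenerateRootInvolutionSet D)
    (hcl : Cfsg.IsRootInvolutionClass D) (hO : Cfsg.pCore 2 G = ⊥) (hZ : Subgroup.center G = ⊥)
    (hE : ∀ d ∈ D, (Cfsg.sameCommutingSubgroup D d : Set G) = Cfsg.sameCommutingClass D d ∪ {1}) {d : G} (hd : d ∈ D) :
    Subgroup.closure {w | Cfsg.IsIsolatedElem (Cfsg.OddAdj (Cfsg.commutingMembers D d)) (Cfsg.commutingMembers D d) w} =
      Subgroup.closure (Cfsg.productPartners D d ∪ {d}) ∧
    D ∩ (Subgroup.closure (Cfsg.productPartners D d ∪ {d}) : Set G) = Cfsg.productPartners D d ∪ {d} ∧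
    ⁅Subgroup.closure (Cfsg.productPartners D d ∪ {d}), Subgroup.closure (Cfsg.productPartners D d ∪ {d})⁆ =
      Cfsg.sameCommutingSubgroup D d ∧
    Cfsg.sameCommutingClass D d = {e | e ∈ D ∧ e ∈ Subgroup.closure (Cfsg.productPartners D d ∪ {d}) ∧
      ∀ y ∈ Subgroup.closure (Cfsg.productPartners D d ∪ {d}), e * y = y * e} := by
  obtain ⟨hD, -, ⟨a, ha, b, hb, n, o⟩, e, he, f, hf, k⟩ := hD
  have r := rc_of_cls hcl ha hb ⟨n, o⟩
  replace k := (r.fo_iff he hf).2 k
  simp only [sameCommutingSubgroup, Ec_eq] at hE ⊢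
  have h : RS D := ⟨r, fun d hd s hs t ht n =>
    ((hE d hd).le (mul_mem (subset_closure hs) (subset_closure ht))).resolve_right n⟩
  rw [h.Xd_eq hd]
  refine ⟨congrArg _ (Set.ext fun w => ⟨fun i => h.wa hd i.1.1 i.1.2 fun y hy c o => (i.2 y).1 ⟨i.1, ⟨hy, c⟩, o⟩, fun i =>
    ⟨⟨i.1, h.Xd_c hd i⟩, fun y => ⟨fun j => h.Xd_nod hd i j.2.1.1 j.2.1.2 j.2.2,
      fun j => h.Xd_nod hd i j.1.1 j.1.2 (Od.symm j.2.2)⟩⟩⟩),
    Set.ext fun u => ⟨fun i => h.MD hd i.1 i.2, fun i => ⟨i.1, subset_closure i⟩⟩,
    (h.comm_le hd).antisymm ((closure_le _).2 fun t ht => ?_), Set.ext fun t => ⟨fun i =>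
      ⟨i.1, subset_closure (h.Ec_Xd hd i), fun y hy => mem_C1.1 ((closure_le (C1(t) : Subgroup G)).2
        (fun s hs => mem_C1.2 ((i.2 s hs.1).1 (h.Xd_c hd hs))) hy) |>.symm⟩, fun i =>
      h.cz hd i.1 (fun y hy => h.M_nod hd i.1 i.2.1 hy) fun r hr => (i.2.2 r (subset_closure hr)).symm⟩⟩
  obtain ⟨g, hg, rfl⟩ := h.cls _ k t ht.1
  have he' := nDc hg he; have hf' := nDc hg hf
  rw [show g * (e * f * e * f) * g⁻¹ = g * e * g⁻¹ * (g * f * g⁻¹) * (g * e * g⁻¹) * (g * f * g⁻¹) by group] at ht ⊢
  have := commutator_mem_commutator (subset_closure (h.L' hd ht he' (h.brl he' hf' ht.1)))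
    (subset_closure (h.L' hd ht hf' (h.br_mul he' hf')))
  rwa [commutatorElement_def, h.inv he', h.inv hf'] at this

end Cfsg.Agent.S5055
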