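import Cfsg.Statements.S5057


set_option autoImplicit false
open Cfsg

open Equiv Subgroup

namespace Cfsg.Agent.S5057

theorem a6 : ∀ g : Perm (Fin 6), Perm.sign g = 1 → g ^ 3 = 1 ∨ g ^ 4 = 1 ∨ g ^ 5 = 1 := by
  decide +kernel

theorem ord (g : alternatingGroup (Fin 6)) : orderOf g ∣ 3 ∨ orderOf g ∣ 4 ∨ orderOf g ∣ 5 := by
  simp only [orderOf_dvd_iff_pow_eq_one, Subtype.ext_iff]
  exact a6 g g.2

theorem ct (g : alternatingGroup (Fin 6)) (hg : orderOf g = 2) :
    (g : Perm (Fin 6)).cycleType = {2, 2} := by
  rw [← orderOf_coe] at hg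
  obtain ⟨n, hn⟩ := Perm.cycleType_prime_order (hg ▸ Nat.prime_two)
  have h1 := Perm.sum_cycleType (g : Perm (Fin 6))
  have h2 := Perm.sign_of_cycleType (g : Perm (Fin 6))
  have h3 := Finset.card_le_univ (g : Perm (Fin 6)).support
  rw [hg] at hn
  rw [hn, Multiset.sum_replicate, smul_eq_mul] at h1
  rw [Perm.mem_alternatingGroup.1 g.2, hn] at h2
  rw [← h1, Fintype.card_fin] at h3
  obtain rfl | rfl | rfl : n = 0 ∨ n = 1 ∨ n = 2 := by omega
  · exact absurd h2 (by decide)
  · exact hn
  · exact absurd h2 (by decide)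

/-- The involutions of the alternating group of degree 6 form a class of root involutions (a single conjugacy class of involutions generating the group, any two of which commute, have product of odd order, or have product of order 4 whose square is again an involution of the class), and the product of any two of them has order at most 5. -/
theorem result :
    Cfsg.IsRootInvolutionClass {g : ↥(alternatingGroup (Fin 6)) | orderOf g = 2} ∧
    ∀ d ∈ {g : ↥(alternatingGroup (Fin 6)) | orderOf g = 2}, ∀ e ∈ {g : ↥(alternatingGroup (Fin 6)) | orderOf g = 2},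
      orderOf (d * e) ≤ 5 := by
  have hc : ∀ d : alternatingGroup (Fin 6), orderOf d = 2 → ∀ g, orderOf (g * d * g⁻¹) = 2 :=
    fun d hd g => hd ▸ orderOf_injective (MulAut.conj g).toMonoidHom (MulAut.conj g).injective d
  let t : alternatingGroup (Fin 6) := ⟨swap 0 1 * swap 2 3, Perm.mem_alternatingGroup.2 (by decide)⟩
  have ht : orderOf t = 2 := orderOf_eq_prime (by decide) (by decide)
  refine ⟨⟨⟨fun _ h => h, ?_, hc, fun a ha b hb => ?_⟩, ⟨t, ht⟩, fun a ha b hb => ?_⟩,
    fun d _ e _ => ?_⟩
  · have := alternatingGroup.isSimpleGroup (α := Fin 6) (by simp)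
    have hn : (closure {g : alternatingGroup (Fin 6) | orderOf g = 2}).Normal := by
      refine ⟨fun x hx g => ?_⟩
      induction hx using closure_induction with
      | mem x hx => exact subset_closure (hc x hx g)
      | one => simp
      | mul x y _ _ hx hy => simpa [mul_assoc] using mul_mem hx hy
      | inv x _ hx => simpa [mul_assoc] using inv_mem hx
    refine hn.eq_bot_or_eq_top.resolve_left fun h => ?_
    have : t ∈ (⊥ : Subgroup _) := h ▸ subset_closure ht
    simp [mem_bot.1 this] at ht
  · have h2 : (a * b) ^ 2 = 1 → a * b = b * a := fun h => by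
      have ha : a * a = 1 := by rw [← sq, ← ha.out, pow_orderOf_eq_one]
      have hb : b * b = 1 := by rw [← sq, ← hb.out, pow_orderOf_eq_one]
      rw [sq] at h
      rw [eq_inv_of_mul_eq_one_left h, mul_inv_rev, inv_eq_of_mul_eq_one_left ha,
        inv_eq_of_mul_eq_one_left hb]
    rcases ord (a * b) with h | h | h
    · exact .inr (.inl (Odd.of_dvd_nat (by decide) h))
    · obtain ⟨k, hk, e⟩ := (Nat.dvd_prime_pow Nat.prime_two (m := 2)).1 h
      interval_cases k
      · exact .inr (.inl (e ▸ by decide))
      · exact .inl (h2 (orderOf_dvd_iff_pow_eq_one.1 (e ▸ by decide)))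
      · exact .inr (.inr ⟨e, by rw [Set.mem_ofPred, orderOf_pow, e]; rfl⟩)
    · exact .inr (.inl (Odd.of_dvd_nat (by decide) h))
  · obtain ⟨g, hg⟩ := isConj_iff.1 (alternatingGroup.isConj_of (σ := a) (τ := b)
      (Perm.isConj_of_cycleType_eq ((ct a ha).trans (ct b hb).symm))
      (by rw [← Perm.sum_cycleType, ct a ha]; decide))
    exact ⟨g, hg.symm⟩
  · rcases ord (d * e) with h | h | h <;> exact (Nat.le_of_dvd (by decide) h).trans (by decide)

end Cfsg.Agent.S5057
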