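import Cfsg.Statements.S5058
import Cfsg.Agent.H13.RI1
import Cfsg.Agent.S5043

set_option autoImplicit false
open Matrix
open Cfsg

namespace Cfsg.Agent.S5058

open H13 Subgroup H9
open scoped commutatorElement

theorem sl2_odd {F : Type*} [Field F] [Fintype F] [CharP F 2] {u l : SpecialLinearGroup (Fin 2) F}
    (hu : u ∈ upperUnipotentSL2 F) (hl : l ∈ lowerUnipotentSL2 F) (u1 : u ≠ 1) (l1 : l ≠ 1) :
    Odd (orderOf (u * l)) ∧ (Fintype.card F = 2 → (u * l) ^ 3 = 1) := by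
  have two : (2 : F) = 0 := CharTwo.two_eq_zero
  obtain ⟨c, hc⟩ : ∃ c : F, u.1 = !![1, c; 0, 1] := by
    clear u1
    induction hu using closure_induction'' with
    | mem x hx => exact ⟨x.1 0 1, by ext i j; fin_cases i <;> fin_cases j <;> simp [hx.1, hx.2.1, hx.2.2]⟩
    | inv_mem x hx =>
      exact ⟨-x.1 0 1, by ext i j; fin_cases i <;> fin_cases j <;> simp [adjugate_fin_two, hx.1, hx.2.1, hx.2.2]⟩
    | one => exact ⟨0, by simp [one_fin_two]⟩
    | mul x y _ _ i j => obtain ⟨c, i⟩ := i; obtain ⟨d, j⟩ := j; exact ⟨d + c, by simp [i, j]⟩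
  obtain ⟨d, hd⟩ : ∃ c : F, l.1 = !![1, 0; c, 1] := by
    clear l1
    induction hl using closure_induction'' with
    | mem x hx => exact ⟨x.1 1 0, by ext i j; fin_cases i <;> fin_cases j <;> simp [hx.1, hx.2.1, hx.2.2]⟩
    | inv_mem x hx =>
      exact ⟨-x.1 1 0, by ext i j; fin_cases i <;> fin_cases j <;> simp [adjugate_fin_two, hx.1, hx.2.1, hx.2.2]⟩
    | one => exact ⟨0, by simp [one_fin_two]⟩
    | mul x y _ _ i j => obtain ⟨c, i⟩ := i; obtain ⟨d, j⟩ := j; exact ⟨c + d, by simp [i, j]⟩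
  have c0 : c ≠ 0 := fun e => u1 (Subtype.ext (by simp [hc, e, one_fin_two]))
  have d0 : d ≠ 0 := fun e => l1 (Subtype.ext (by simp [hd, e, one_fin_two]))
  refine ⟨Nat.not_even_iff_odd.1 fun e => ?_, fun e => Subtype.ext ?_⟩
  · obtain ⟨e1, e2, e3⟩ := central_involution (x := u) (y := l)
      (by ext i j; fin_cases i <;> fin_cases j <;> simp [hc, CharTwo.add_self_eq_zero])
      (by ext i j; fin_cases i <;> fin_cases j <;> simp [hd, CharTwo.add_self_eq_zero]) e
    generalize (u * l) ^ (orderOf (u * l) / 2) = z at *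
    have a := fun i j => congrFun (congrFun (congrArg Subtype.val e2.eq) i) j
    have b := fun i j => congrFun (congrFun (congrArg Subtype.val e3.eq) i) j
    have a0 := a 0 0; have a1 := a 0 1; have b0 := b 0 0
    simp [hc, hd, mul_apply, vecMul, dotProduct, c0, d0] at a0 a1 b0
    have dt := z.2
    rw [det_fin_two, a0, mul_zero, sub_zero] at dt
    have k : z.1 0 0 = z.1 1 1 := mul_right_cancel₀ c0 (by linear_combination a1)
    have k' : z.1 1 1 = 1 := by
      rw [k] at dt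
      have : (z.1 1 1 - 1) ^ 2 = 0 := by linear_combination dt - (z.1 1 1 - 1) * two
      exact sub_eq_zero.1 (pow_eq_zero_iff two_ne_zero |>.1 this)
    exact ne_one_of_orderOf e1 (Subtype.ext (by ext i j; fin_cases i <;> fin_cases j <;> simp [a0, b0, k, k']))
  · have o : ∀ c : F, c ≠ 0 → c = 1 := fun c h => by simpa [e] using FiniteField.pow_card_sub_one_eq_one c h
    ext i j
    fin_cases i <;> fin_cases j <;> simp [pow_succ, hc, hd, o c c0, o d d0, CharTwo.add_self_eq_zero]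

/-- Let F be a finite field of characteristic 2 and n a natural number. Then the transvections of SL_{n+3}(F) (so in every dimension at least 3) (the conjugates of the elementary matrices 1 + c E₁₂, c ≠ 0) form a class of root involutions of SL_{n+3}(F); when F has two elements they form a class of {3,4}⁺-transpositions (every product of odd order has order 1 or 3). -/
theorem result (F : Type*) [Field F] [Fintype F] [CharP F 2] (n : ℕ) :
    Cfsg.IsRootInvolutionClass {t : Matrix.SpecialLinearGroup (Fin (n + 3)) F | ∃ c : F, c ≠ 0 ∧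
        ∃ g : Matrix.SpecialLinearGroup (Fin (n + 3)) F, ((g⁻¹ * t * g : Matrix.SpecialLinearGroup (Fin (n + 3)) F) :
          Matrix (Fin (n + 3)) (Fin (n + 3)) F) = Matrix.transvection 0 1 c} ∧
    (Fintype.card F = 2 → Cfsg.IsThreeFourPlusTranspositionSet {t : Matrix.SpecialLinearGroup (Fin (n + 3)) F | ∃ c : F, c ≠ 0 ∧
        ∃ g : Matrix.SpecialLinearGroup (Fin (n + 3)) F, ((g⁻¹ * t * g : Matrix.SpecialLinearGroup (Fin (n + 3)) F) :
          Matrix (Fin (n + 3)) (Fin (n + 3)) F) = Matrix.transvection 0 1 c}) := by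
  obtain ⟨⟨hS, -⟩, -, ⟨-, hK⟩, -⟩ := S5043.result F n
  set D := {t : Matrix.SpecialLinearGroup (Fin (n + 3)) F | ∃ c : F, c ≠ 0 ∧
        ∃ g : Matrix.SpecialLinearGroup (Fin (n + 3)) F, ((g⁻¹ * t * g : Matrix.SpecialLinearGroup (Fin (n + 3)) F) :
          Matrix (Fin (n + 3)) (Fin (n + 3)) F) = Matrix.transvection 0 1 c}
  set A := Subgroup.closure {t : Matrix.SpecialLinearGroup (Fin (n + 3)) F |
            ∃ c : F, (t : Matrix (Fin (n + 3)) (Fin (n + 3)) F) = Matrix.transvection 0 1 c}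
  have n01 : (0 : Fin (n + 3)) ≠ 1 := by simp
  have s2 : ∀ (x : Matrix.SpecialLinearGroup (Fin (n + 3)) F) (c : F), x.1 = Matrix.transvection 0 1 c → x * x = 1 :=
    fun x c e => Subtype.ext (show x.1 * x.1 = 1 by
      rw [e, transvection_mul_transvection_same _ _ n01, CharTwo.add_self_eq_zero, transvection_zero])
  have mA : ∀ t ∈ A, ∃ c : F, t.1 = Matrix.transvection 0 1 c := fun t ht => by
    induction ht using closure_induction'' with
    | mem x hx => exact hx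
    | inv_mem x hx =>
      obtain ⟨c, hx⟩ := hx
      exact ⟨c, by rwa [inv_eq_of_mul_self (s2 x c hx)]⟩
    | one => exact ⟨0, by simp⟩
    | mul x y _ _ i j =>
      obtain ⟨c, i⟩ := i; obtain ⟨d, j⟩ := j; exact ⟨c + d, by simp [i, j, transvection_mul_transvection_same _ _ n01]⟩
  have mD : ∀ t, t ∈ D ↔ t ≠ 1 ∧ ∃ g, t ∈ conjBy A g := fun t => ⟨fun ⟨c, c0, g, e⟩ => ⟨fun i => c0 (by
    simpa [i, transvection, n01] using (congrFun (congrFun e 0) 1).symm), g, H18.mem_cj.2 (subset_closure ⟨c, e⟩)⟩,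
    fun ⟨t1, g, k⟩ => let ⟨c, e⟩ := mA _ (H18.mem_cj.1 k); ⟨c, fun i => conj_ne' t1 g (Subtype.ext (by simp [e, i])), g, e⟩⟩
  have sq : ∀ t ∈ D, t * t = 1 := fun t ⟨c, _, g, e⟩ => by
    simpa [mul_assoc] using conj_sq (s2 _ _ e) g
  have pr : ∀ a ∈ D, ∀ b ∈ D, a * b = b * a ∨ (Odd (orderOf (a * b)) ∧ (Fintype.card F = 2 → (a * b) ^ 3 = 1)) ∨
      (orderOf (a * b) = 4 ∧ (a * b) ^ 2 ∈ D) := fun a ha b hb => by
    obtain ⟨a1, g, ma⟩ := (mD a).1 ha
    obtain ⟨b1, k, mb⟩ := (mD b).1 hb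
    have a2 := sq a ha; have b2 := sq b hb
    rcases hS.pair _ ⟨g, rfl⟩ _ ⟨k, rfl⟩ with h | h | h
    · exact .inl (H18.comm_of_cent (H18.comm_eq_bot_iff.1 h) ma mb)
    · obtain ⟨φ, -, -, e1, e2⟩ := hK _ ⟨g, rfl⟩ _ ⟨k, rfl⟩ h
      obtain ⟨u, hu, rfl⟩ := e1.ge ma
      obtain ⟨l, hl, rfl⟩ := e2.ge mb
      obtain ⟨i, j⟩ := sl2_odd hu hl (fun e => a1 (by simp [e])) fun e => b1 (by simp [e])
      rw [← map_mul]
      exact .inr (.inl ⟨i.of_dvd_nat (orderOf_map_dvd φ _), fun e => by rw [← map_pow, j e, map_one]⟩)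
    · refine (em _).imp_right fun c => .inr ?_
      obtain ⟨w, e⟩ := h.1
      have m : (a * b) ^ 2 ∈ D := (mD _).2 ⟨fun i => c (by rw [pow_two] at i; exact wd[i & a2 & b2]), w, by
        have := commutator_mem_commutator ma mb
        rwa [e, commutatorElement_def, inv_eq_of_mul_self a2, inv_eq_of_mul_self b2, mul_assoc, ← pow_two] at this⟩
      exact ⟨orderOf_eq_prime_pow (p := 2) (n := 1) (by simpa using ((mD _).1 m).1) (by
        rw [show 2 ^ (1 + 1) = 2 + 2 by rfl, pow_add]; exact sq _ m), m⟩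
  have R : IsRootInvolutionSet D := ⟨fun d hd => orderOf_eq_two.2 ⟨sq d hd, ((mD d).1 hd).1⟩,
    top_le_iff.1 (hS.generates.ge.trans (iSup₂_le (by
      rintro _ ⟨g, rfl⟩ t ht
      by_cases e : t = 1
      exacts [e ▸ one_mem _, subset_closure ((mD t).2 ⟨e, g, ht⟩)]))),
    fun d ⟨c, c0, g, e⟩ k => ⟨c, c0, k * g, by rw [← e, show (k * g)⁻¹ * (k * d * k⁻¹) * (k * g) = g⁻¹ * d * g by group]⟩,
    fun a ha b hb => (pr a ha b hb).imp_right (Or.imp_left And.left)⟩
  let t0 : Matrix.SpecialLinearGroup (Fin (n + 3)) F := ⟨transvection 0 1 1, det_transvection_of_ne _ _ n01 _⟩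
  have cl : ∀ t ∈ D, IsConj t0 t := fun t ⟨c, c0, g, e⟩ => by
    have e1 : 2 % (n + 3) = 2 := Nat.mod_eq_of_lt (by omega)
    have e2 : (0 : Fin (n + 3)) ≠ 2 := by simp [Fin.ext_iff, e1]
    have e3 : (1 : Fin (n + 3)) ≠ 2 := by simp [Fin.ext_iff, e1]
    let δ : Matrix.SpecialLinearGroup (Fin (n + 3)) F := ⟨diagonal (Pi.mulSingle 0 c * Pi.mulSingle 2 c⁻¹), by
      simp [Finset.prod_mul_distrib, c0]⟩
    refine (show IsConj t0 (g⁻¹ * t * g) from isConj_iff.2 ⟨δ, mul_inv_eq_iff_eq_mul.2 (Subtype.ext ?_)⟩).trans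
      (isConj_iff.2 ⟨g, by group⟩)
    show δ.1 * t0.1 = (g⁻¹ * t * g).1 * δ.1
    rw [e]
    ext i j
    simp only [δ, t0, transvection, Matrix.add_apply, diagonal_mul, mul_diagonal, Matrix.single_apply, Matrix.one_apply]
    by_cases k : 0 = i ∧ 1 = j
    · obtain ⟨rfl, rfl⟩ := k; simp [Pi.mulSingle_apply, e2, e3, n01.symm, n01]
    · by_cases k' : i = j <;> simp [k, k']
      subst k'; simp [k]
  refine ⟨⟨R, ⟨t0, 1, one_ne_zero, 1, by rw [inv_one, one_mul, mul_one]⟩, fun a ha b hb => ?_⟩, fun e => ⟨R, fun a ha b hb o => ?_⟩⟩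
  · obtain ⟨g, e⟩ := isConj_iff.1 ((cl a ha).symm.trans (cl b hb)); exact ⟨g, e.symm⟩
  · have a2 := sq a ha; have b2 := sq b hb
    rcases pr a ha b hb with h | h | h
    · exact .inl (orderOf_eq_one_iff.2 (H5.eq_one_of_odd o wd[h & a2 & b2]))
    · exact (Nat.dvd_prime Nat.prime_three).1 (orderOf_dvd_of_pow_eq_one (h.2 e))
    · exact absurd (h.1 ▸ o) (by decide)

end Cfsg.Agent.S5058
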