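import Cfsg.Statements.S5060
import Cfsg.Agent.H20.QD1

set_option autoImplicit false
open Cfsg H20

namespace Cfsg.Agent.S5060

/-- Let k ⊆ K be fields with the characteristic of k not 2 and k not of order 3, and let α ∈ K be a non-zero element algebraic over k. Then the subgroup of SL₂(K) generated by the upper unitriangular matrices with entry c and the lower unitriangular matrices with entry cα, c ranging over k, is exactly the group of matrices of SL₂(K) with all entries in k(α). -/
theorem result {k K : Type*} [Field k] [Field K] [Algebra k K] (hk2 : ringChar k ≠ 2) (hk3 : Nat.card k ≠ 3)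
    (α : K) (hα : IsAlgebraic k α) (hα0 : α ≠ 0) :
    (Subgroup.closure ({g : Matrix.SpecialLinearGroup (Fin 2) K | ∃ c : k, (g : Matrix (Fin 2) (Fin 2) K) = !![1, algebraMap k K c; 0, 1]} ∪
        {g : Matrix.SpecialLinearGroup (Fin 2) K | ∃ c : k, (g : Matrix (Fin 2) (Fin 2) K) = !![1, 0; algebraMap k K c * α, 1]}) :
      Set (Matrix.SpecialLinearGroup (Fin 2) K)) =
    {g : Matrix.SpecialLinearGroup (Fin 2) K | ∀ i j : Fin 2, (g : Matrix (Fin 2) (Fin 2) K) i j ∈ IntermediateField.adjoin k ({α} : Set K)} := by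
  let L := IntermediateField.adjoin k ({α} : Set K)
  have : FiniteDimensional k L := IntermediateField.adjoin.finiteDimensional hα.isIntegral
  let ζ : L := ⟨α, IntermediateField.mem_adjoin_simple_self k α⟩
  let φ : H28.SL2 L →* H28.SL2 K := Matrix.SpecialLinearGroup.map (L.val : L →+* K)
  have hg : Algebra.adjoin k {ζ} = ⊤ := by
    have := (IntermediateField.adjoin.powerBasis hα.isIntegral).adjoin_gen_eq_top
    rwa [IntermediateField.adjoin.powerBasis_gen] at this
  ext g
  constructor
  · intro hg
    have : g ∈ φ.range := by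
      refine (Subgroup.closure_le _).2 ?_ hg
      rintro g (⟨c, hc⟩ | ⟨c, hc⟩)
      · exact ⟨H28.xU (algebraMap k L c), by rw [QP.map_xU]; exact Subtype.ext hc.symm⟩
      · exact ⟨H28.xL (algebraMap k L c * ζ), by rw [QP.map_xL]; exact Subtype.ext hc.symm⟩
    obtain ⟨h, rfl⟩ := this
    exact fun i j => (h.1 i j).2
  · intro hg'
    let h : H28.SL2 L := ⟨Matrix.of fun i j => ⟨g.1 i j, hg' i j⟩, Subtype.ext (by
      have := H28.sl2_det g
      rw [Matrix.det_fin_two]
      exact this)⟩
    have e : φ h = g := by apply H28.sl2_ext <;> rfl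
    rw [← e, SetLike.mem_coe, ← Subgroup.mem_comap]
    refine (QP.gen_field (QP.big_of hk2 hk3) (ζ := ζ) (fun e => hα0 (congrArg Subtype.val e)) hg
      ⟨fun c => ?_, fun c => ?_⟩).ge (Subgroup.mem_top h)
    · exact Subgroup.mem_comap.2 (Subgroup.subset_closure (Or.inl ⟨c, by rw [QP.map_xU]; rfl⟩))
    · exact Subgroup.mem_comap.2 (Subgroup.subset_closure (Or.inr ⟨c, by rw [QP.map_xL]; rfl⟩))

end Cfsg.Agent.S5060
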