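import Cfsg.Statements.S5063
import Cfsg.Agent.H20.QP4

set_option autoImplicit false
universe u
open Cfsg H20

namespace Cfsg.Agent.S5063

/-- Let k be a field of characteristic not 2 with k not of order 3, M a finite-dimensional k-vector space and G ≤ GL(M) such that (G, M) is a quadratic pair (M irreducible for G, and G generated by its quadratically acting elements σ whose scalar family 1 + c(σ − 1), c ∈ k, lies in G). Write 𝒬_d for the quadratic elements of G of minimal commutator rank, E(σ) for the subgroup generated by the members of 𝒬_d with the same fixed space and commutator space as σ, and Σ for the set of these subgroups. Then G is a central product of finitely many quasisimple normal subgroups G₁, …, G_s (pairwise commuting and together generating G), each generated by the quadratic elements of G it contains, and every quadratic element of G lies in one of them. -/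
theorem result {k : Type u} [Field k] (hk2 : ringChar k ≠ 2) (hk3 : Nat.card k ≠ 3)
    {M : Type u} [AddCommGroup M] [Module k M] [FiniteDimensional k M]
    {G : Subgroup (LinearMap.GeneralLinearGroup k M)} (hG : Cfsg.IsQuadraticPair G) :
    ∃ (s : ℕ) (Gi : Fin s → Subgroup (LinearMap.GeneralLinearGroup k M)),
      (∀ i, Gi i ≤ G ∧ ∀ g ∈ G, Cfsg.conjBy (Gi i) g = Gi i) ∧ (∀ i j, i ≠ j → ⁅Gi i, Gi j⁆ = ⊥) ∧ (⨆ i, Gi i) = G ∧
      (∀ i, Cfsg.IsQuasisimple ↥(Gi i) ∧ Subgroup.closure (Cfsg.quadraticElements G ∩ (Gi i : Set (LinearMap.GeneralLinearGroup k M))) = Gi i) ∧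
      Cfsg.quadraticElements G ⊆ ⋃ i, (Gi i : Set (LinearMap.GeneralLinearGroup k M)) := by
  obtain ⟨𝒢, f, a, b, c, d⟩ := QP.decomp' (QP.big_of hk2 hk3) hG
  have := f.to_subtype
  let e := (Finite.equivFin 𝒢).symm
  refine ⟨_, fun i => (e i).1, fun i => ⟨(a _ (e i).2).1, (a _ (e i).2).2.1⟩,
    fun i j h => b _ (e i).2 _ (e j).2 fun h' => h (e.injective (Subtype.ext h')),
    le_antisymm (iSup_le fun i => (a _ (e i).2).1) (c.trans (iSup₂_le fun H hH => le_iSup_of_le (e.symm ⟨H, hH⟩) (by
      beta_reduce; rw [e.apply_symm_apply]))),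
    fun i => ⟨(a _ (e i).2).2.2.1.qs, le_antisymm ((Subgroup.closure_le _).2 Set.inter_subset_right)
      ((a _ (e i).2).2.2.2.trans (Subgroup.closure_mono fun g hg => ⟨?_, hg.1⟩))⟩, fun g hg => ?_⟩
  · exact QP.quad_iff.2 ⟨(QP.quad_iff.1 hg).1.mono (a _ (e i).2).1, (QP.quad_iff.1 hg).2⟩
  · obtain ⟨H, hH, q⟩ := d _ (QP.quad_iff.1 hg).1 (QP.quad_iff.1 hg).2
    exact Set.mem_iUnion.2 ⟨e.symm ⟨H, hH⟩, by
      beta_reduce; rw [e.apply_symm_apply]; exact (QP.quad_iff.2 ⟨q, (QP.quad_iff.1 hg).2⟩).1⟩

end Cfsg.Agent.S5063
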