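import Cfsg.Statements.S5067
import Cfsg.Agent.H20.QU

set_option autoImplicit false
open Cfsg H20

namespace Cfsg.Agent.S5067

/-- Let P be a non-abelian nilpotent p-group (every element of p-power order; P possibly infinite) generated by two abelian subgroups E and F. Then the normal closure of E in P, and likewise that of F, has nilpotency class strictly smaller than that of P. -/
theorem result {P : Type*} [Group P] {p : ℕ} [Fact p.Prime] (hP : IsPGroup p P) [Group.IsNilpotent P]
    (hna : ¬ IsMulCommutative P) {E F : Subgroup P} (hE : IsMulCommutative ↥E) (hF : IsMulCommutative ↥F) (hgen : E ⊔ F = ⊤) :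
    Group.nilpotencyClass ↥(Subgroup.normalClosure (E : Set P)) < Group.nilpotencyClass P ∧
    Group.nilpotencyClass ↥(Subgroup.normalClosure (F : Set P)) < Group.nilpotencyClass P := by
  open scoped commutatorElement in
  have key : ∀ E : Subgroup P, IsMulCommutative E →
      Group.nilpotencyClass ↥(Subgroup.normalClosure (E : Set P)) < Group.nilpotencyClass P := by
    intro E hE
    set N := Subgroup.normalClosure (E : Set P) with hN
    let K := (⊤ : Subgroup P).lowerCentralSeries 2
    let π := QuotientGroup.mk' K
    have h1 : ∀ x y z : P, Commute (π ⁅x, y⁆) (π z) := fun x y z => by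
      rw [← commutatorElement_eq_one_iff_commute, ← map_commutatorElement]
      exact (QuotientGroup.eq_one_iff _).2 (Subgroup.commutator_mem_commutator
        (Subgroup.commutator_mem_commutator (Subgroup.mem_top x) (Subgroup.mem_top y)) (Subgroup.mem_top z))
    have h2 : ∀ a ∈ Group.conjugatesOfSet (E : Set P), ∀ b ∈ Group.conjugatesOfSet (E : Set P), Commute (π a) (π b) := by
      intro a ha b hb
      obtain ⟨e, he, hc⟩ := Group.mem_conjugatesOfSet_iff.1 ha
      obtain ⟨f, hf, hd⟩ := Group.mem_conjugatesOfSet_iff.1 hb
      obtain ⟨x, rfl⟩ := isConj_iff.1 hc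
      obtain ⟨y, rfl⟩ := isConj_iff.1 hd
      rw [show x * e * x⁻¹ = ⁅x, e⁆ * e by simp [commutatorElement_def], map_mul]
      refine (h1 _ _ _).mul_left ?_
      rw [show y * f * y⁻¹ = ⁅y, f⁆ * f by simp [commutatorElement_def], map_mul]
      exact (h1 _ _ _).symm.mul_right ((H28.commute_of_comm hE he hf).map π)
    have h3 : ∀ a ∈ N, ∀ b ∈ N, Commute (π a) (π b) := fun a ha b hb => by
      induction ha, hb using Subgroup.closure_induction₂ with
      | mem x y hx hy => exact h2 x hx y hy
      | one_left => simp
      | one_right => simp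
      | mul_left _ _ _ _ _ _ h h' => rw [map_mul]; exact h.mul_left h'
      | mul_right _ _ _ _ _ _ h h' => rw [map_mul]; exact h.mul_right h'
      | inv_left _ _ _ _ h => rw [map_inv]; exact h.inv_left
      | inv_right _ _ _ _ h => rw [map_inv]; exact h.inv_right
    have h4 : ∀ n, N.lowerCentralSeries (n + 1) ≤ (⊤ : Subgroup P).lowerCentralSeries (n + 2) := fun n => by
      induction n with
      | zero =>
        refine Subgroup.commutator_le.2 fun a ha b hb => (QuotientGroup.eq_one_iff (N := K) _).1 ?_
        exact (map_commutatorElement π a b).trans (commutatorElement_eq_one_iff_commute.2 (h3 a ha b hb))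
      | succ n ih => exact Subgroup.commutator_mono ih le_top
    have h5 : ¬ Group.nilpotencyClass P ≤ 1 := fun h => hna (by
      rw [← Subgroup.lowerCentralSeries_eq_bot_iff_nilpotencyClass_le] at h
      refine ⟨⟨fun a b => commutatorElement_eq_one_iff_commute.1 ?_⟩⟩
      exact h.le (Subgroup.commutator_mem_commutator (Subgroup.mem_top a) (Subgroup.mem_top b)))
    obtain ⟨n, hn⟩ : ∃ n, Group.nilpotencyClass P = n + 2 := ⟨Group.nilpotencyClass P - 2, by omega⟩
    have h6 := h4 n
    rw [← hn, Subgroup.lowerCentralSeries_nilpotencyClass, ← Subgroup.top_subtype_lowerCentralSeries, le_bot_iff,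
      Subgroup.map_eq_bot_iff_of_injective _ N.subtype_injective,
      Subgroup.lowerCentralSeries_eq_bot_iff_nilpotencyClass_le] at h6
    omega
  exact ⟨key E hE, key F hF⟩

end Cfsg.Agent.S5067
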