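import Cfsg.Statements.S5069
import Cfsg.Agent.H20.QP4

set_option autoImplicit false
universe u
open Cfsg H20

namespace Cfsg.Agent.S5069

/-- Let k be a field of characteristic not 2 with k not of order 3, M a finite-dimensional k-vector space and G ≤ GL(M) such that (G, M) is a quadratic pair (M irreducible for G, and G generated by its quadratically acting elements σ whose scalar family 1 + c(σ − 1), c ∈ k, lies in G). Write 𝒬_d for the quadratic elements of G of minimal commutator rank, E(σ) for the subgroup generated by the members of 𝒬_d with the same fixed space and commutator space as σ, and Σ for the set of these subgroups. Then Σ is a disjoint union of finitely many parts Σ₁, …, Σ_r such that the subgroups G_i generated by the Σ_i commute pairwise, each G_i is quasisimple, and inside G_i the members of Σ_i form a class of abstract root subgroups in which every rank one pair A, B contains subgroups A₀ ≤ A, B₀ ≤ B generating an image of SL₂(k₁) with central kernel on unitriangular subgroups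 for some field k₁ with at least four elements. -/
theorem result {k : Type u} [Field k] (hk2 : ringChar k ≠ 2) (hk3 : Nat.card k ≠ 3)
    {M : Type u} [AddCommGroup M] [Module k M] [FiniteDimensional k M]
    {G : Subgroup (LinearMap.GeneralLinearGroup k M)} (hG : Cfsg.IsQuadraticPair G) :
    ∃ (r : ℕ) (part : Fin r → Set (Subgroup (LinearMap.GeneralLinearGroup k M))),
      (⋃ i, part i) = Cfsg.quadraticRootSubgroups G ∧ (∀ i j, i ≠ j → Disjoint (part i) (part j)) ∧ (∀ i, (part i).Nonempty) ∧
      (∀ i j, i ≠ j → ⁅(⨆ A ∈ part i, A), (⨆ A ∈ part j, A)⁆ = ⊥) ∧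
      (∀ i, Cfsg.IsQuasisimple ↥(⨆ A ∈ part i, A) ∧
        Cfsg.IsRootSubgroupClass ((fun A : Subgroup (LinearMap.GeneralLinearGroup k M) => A.subgroupOf (⨆ B ∈ part i, B)) '' (part i)) ∧
        ∀ A ∈ part i, ∀ B ∈ Cfsg.rankOnePartners (part i) A, ∃ A₀ B₀ : Subgroup (LinearMap.GeneralLinearGroup k M), A₀ ≤ A ∧ B₀ ≤ B ∧
          ∃ (k₁ : Type u) (_ : Field k₁), 3 < ENat.card k₁ ∧ Cfsg.IsPSL2PairOver k₁ A₀ B₀) := by
  have hk := QP.big_of hk2 hk3
  have hN := QP.nu_of_irr hG.1
  rw [QP.qrs_eq]
  have := (QP.cls_finite hk hN).to_subtype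
  let e := (Finite.equivFin (QP.cls G '' QP.Sg G)).symm
  have ne : ∀ i j, i ≠ j → (e i).1 ≠ (e j).1 := fun i j h h' => h (e.injective (Subtype.ext h'))
  refine ⟨_, fun i => (e i).1, Set.Subset.antisymm (Set.iUnion_subset fun i => ?_) fun A hA => ?_, fun i j h => ?_,
    fun i => ?_, fun i j h => ?_, fun i => ?_⟩
  · obtain ⟨A, hA, h⟩ := (e i).2
    exact h ▸ QP.cls_sub hA
  · refine Set.mem_iUnion.2 ⟨e.symm ⟨_, A, hA, rfl⟩, ?_⟩
    rw [e.apply_symm_apply]
    exact QP.cls_self
  · have := ne i j h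
    obtain ⟨A, hA, h1⟩ := (e i).2
    obtain ⟨B, hB, h2⟩ := (e j).2
    simp only [← h1, ← h2] at this ⊢
    exact Set.disjoint_left.2 fun C a b => this (by rw [← QP.cls_eq a, QP.cls_eq b])
  · obtain ⟨A, hA, h⟩ := (e i).2
    exact ⟨A, h.le QP.cls_self⟩
  · have := ne i j h
    obtain ⟨A, hA, h1⟩ := (e i).2
    obtain ⟨B, hB, h2⟩ := (e j).2
    simp only [← h1, ← h2] at this ⊢
    exact QP.cls_comm hk hN hA hB this
  · obtain ⟨A, hA, h⟩ := (e i).2
    beta_reduce
    rw [← h]
    refine ⟨(QP.cls_qs hk hN hA).qs, QP.cls_root hk hN hA, fun B hB C hC => ?_⟩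
    obtain ⟨α, a, rfl⟩ := QP.cls_sub hA hB
    obtain ⟨β, b, rfl⟩ := QP.cls_sub hA hC.1
    exact a.psl2 hk b hC.2

end Cfsg.Agent.S5069
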