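import Cfsg.Statements.S5070
import Cfsg.Agent.H20.RT2

set_option autoImplicit false
open Matrix
open Cfsg H20

namespace Cfsg.Agent.S5070

/-- Let F be a field, m a natural number and V = F^{2(m+1)} with the standard non-degenerate alternating form f(u, v) = uᵀ J v. For a non-zero vector p let T(p) be the group of symplectic transvections v ↦ v + c f(v, p) p, c ∈ F. Then the subgroups T(p), p ≠ 0, generate the symplectic group Sp_{2(m+1)}(F) and form a degenerate class of abstract F-root subgroups of it (any two of them either commute elementwise or are the unipotent subgroups of a rank one group that is an image of SL₂(F) with central kernel, never the commutator case), and their graph of rank one pairs is connected. -/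
theorem result (F : Type*) [Field F] (m : ℕ) :
    Cfsg.IsRootSubgroupClass {A : Subgroup ↥(Matrix.symplecticGroup (Fin (m + 1)) F) | ∃ p : Fin (m + 1) ⊕ Fin (m + 1) → F, p ≠ 0 ∧
        A = Subgroup.closure {g : ↥(Matrix.symplecticGroup (Fin (m + 1)) F) | ∃ c : F, ∀ v : Fin (m + 1) ⊕ Fin (m + 1) → F,
          (g : Matrix (Fin (m + 1) ⊕ Fin (m + 1)) (Fin (m + 1) ⊕ Fin (m + 1)) F) *ᵥ v =
            v + (c * (v ⬝ᵥ (Matrix.J (Fin (m + 1)) F *ᵥ p))) • p}} ∧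
    Cfsg.IsDegenerateRootSet {A : Subgroup ↥(Matrix.symplecticGroup (Fin (m + 1)) F) | ∃ p : Fin (m + 1) ⊕ Fin (m + 1) → F, p ≠ 0 ∧
        A = Subgroup.closure {g : ↥(Matrix.symplecticGroup (Fin (m + 1)) F) | ∃ c : F, ∀ v : Fin (m + 1) ⊕ Fin (m + 1) → F,
          (g : Matrix (Fin (m + 1) ⊕ Fin (m + 1)) (Fin (m + 1) ⊕ Fin (m + 1)) F) *ᵥ v =
            v + (c * (v ⬝ᵥ (Matrix.J (Fin (m + 1)) F *ᵥ p))) • p}} ∧
    Cfsg.IsKRootSubgroupSet F {A : Subgroup ↥(Matrix.symplecticGroup (Fin (m + 1)) F) | ∃ p : Fin (m + 1) ⊕ Fin (m + 1) → F, p ≠ 0 ∧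
        A = Subgroup.closure {g : ↥(Matrix.symplecticGroup (Fin (m + 1)) F) | ∃ c : F, ∀ v : Fin (m + 1) ⊕ Fin (m + 1) → F,
          (g : Matrix (Fin (m + 1) ⊕ Fin (m + 1)) (Fin (m + 1) ⊕ Fin (m + 1)) F) *ᵥ v =
            v + (c * (v ⬝ᵥ (Matrix.J (Fin (m + 1)) F *ᵥ p))) • p}} ∧
    Cfsg.IsConnectedFamily (Cfsg.FAdj {A : Subgroup ↥(Matrix.symplecticGroup (Fin (m + 1)) F) | ∃ p : Fin (m + 1) ⊕ Fin (m + 1) → F, p ≠ 0 ∧
        A = Subgroup.closure {g : ↥(Matrix.symplecticGroup (Fin (m + 1)) F) | ∃ c : F, ∀ v : Fin (m + 1) ⊕ Fin (m + 1) → F,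
          (g : Matrix (Fin (m + 1) ⊕ Fin (m + 1)) (Fin (m + 1) ⊕ Fin (m + 1)) F) *ᵥ v =
            v + (c * (v ⬝ᵥ (Matrix.J (Fin (m + 1)) F *ᵥ p))) • p}})
      {A : Subgroup ↥(Matrix.symplecticGroup (Fin (m + 1)) F) | ∃ p : Fin (m + 1) ⊕ Fin (m + 1) → F, p ≠ 0 ∧
        A = Subgroup.closure {g : ↥(Matrix.symplecticGroup (Fin (m + 1)) F) | ∃ c : F, ∀ v : Fin (m + 1) ⊕ Fin (m + 1) → F,
          (g : Matrix (Fin (m + 1) ⊕ Fin (m + 1)) (Fin (m + 1) ⊕ Fin (m + 1)) F) *ᵥ v =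
            v + (c * (v ⬝ᵥ (Matrix.J (Fin (m + 1)) F *ᵥ p))) • p}} := by
  have R := RT.tN_rs (K := F) (l := -1) (e := (H11.spEquiv (m + 1) F).toMonoidHom) (H11.stdSymp_nondeg (m + 1))
    (by simp) (H11.spEquiv (m + 1) F).injective (fun u a => (H11.spEquiv (m + 1) F).surjective _) (fun _ => trivial)
    fun a => ⟨_, rfl⟩
  have key : ∀ (p : Fin (m + 1) ⊕ Fin (m + 1) → F) (g : Matrix.symplecticGroup (Fin (m + 1)) F) (c : F),
      (∀ v, g.1 *ᵥ v = v + (c * (v ⬝ᵥ (Matrix.J (Fin (m + 1)) F *ᵥ p))) • p) ↔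
        RT.rho (H11.spEquiv (m + 1) F).toMonoidHom g = 1 + c • RT.tA (H11.stdSymp (m + 1) F) (-1) p := fun p g c => by
    rw [LinearMap.ext_iff]
    refine forall_congr' fun v => ?_
    have : (H11.stdSymp (m + 1) F).h p v = -(v ⬝ᵥ (Matrix.J (Fin (m + 1)) F *ᵥ p)) := by
      rw [H11.PForm.symp_symm, H11.stdSymp, H11.sympS_h, Matrix.toBilin'_apply']
    simp [this, smul_smul]
  simp only [key]
  have e : {A : Subgroup (Matrix.symplecticGroup (Fin (m + 1)) F) | ∃ p, p ≠ 0 ∧ A = Subgroup.closure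
      {g | ∃ c : F, RT.rho (H11.spEquiv (m + 1) F).toMonoidHom g = 1 + c • RT.tA (H11.stdSymp (m + 1) F) (-1) p}} =
      RT.T F (RT.rho (H11.spEquiv (m + 1) F).toMonoidHom) '' RT.tN (H11.stdSymp (m + 1) F) (-1) := by
    ext A
    constructor
    · rintro ⟨p, h, rfl⟩; exact ⟨_, ⟨p, ⟨h, trivial⟩, rfl⟩, rfl⟩
    · rintro ⟨_, ⟨p, h, rfl⟩, rfl⟩; exact ⟨p, h.1, rfl⟩
  rw [e]
  have top : ⨆ A ∈ RT.T F (RT.rho (H11.spEquiv (m + 1) F).toMonoidHom) '' RT.tN (H11.stdSymp (m + 1) F) (-1), A = ⊤ := by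
    refine H11.eq_top_of_map_equiv (H11.spEquiv (m + 1) F) ?_
    rw [eq_top_iff, ← (H11.stdSymp_nondeg (m + 1)).symp_T_eq_top, H11.PForm.T_le_iff]
    intro u a _ h _
    obtain ⟨g, hg⟩ := (H11.spEquiv (m + 1) F).surjective ((H11.stdSymp (m + 1) F).eich u 0 a)
    refine ⟨g, Subgroup.mem_iSup_of_mem (RT.T F _ (RT.tA _ (-1) u)) (Subgroup.mem_iSup_of_mem ⟨_, ⟨u, ⟨h, trivial⟩, rfl⟩, rfl⟩
      (Subgroup.subset_closure ⟨-a, LinearMap.ext fun x => ?_⟩)), hg⟩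
    rw [RT.rho_apply, MulEquiv.coe_toMonoidHom, hg, H11.PForm.symp_transv_apply]
    simp [smul_smul]
  have C := R.conn (RT.tN_conn (H11.stdSymp_nondeg (m + 1)) (by simp))
  exact ⟨⟨R.root top, RT.cls_of_conn ⟨_, _, ⟨Pi.single (.inl 0) 1, ⟨by simp, trivial⟩, rfl⟩, rfl⟩ C⟩,
    R.degen top (RT.tN_degen (H11.stdSymp_nondeg (m + 1)) (by simp)), R.kroot top, C⟩

end Cfsg.Agent.S5070
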