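import Cfsg.Statements.S5071
import Cfsg.Agent.H20.RT2

set_option autoImplicit false
open Matrix
open Cfsg H20

namespace Cfsg.Agent.S5071

/-- Let F be a finite field with q² elements, n a natural number, and h the Hermitian form Σ uᵢ vᵢ^q on F^{n+2}. For a non-zero isotropic vector p let T(p) be the group of unitary transvections with centre ⟨p⟩: the elements of SU_{n+2}(q) moving every vector by a multiple of p and fixing every vector perpendicular to p. Let Σ be the set of these T(p) and G₀ the subgroup they generate. Then, viewed inside G₀, the members of Σ form a degenerate class of abstract k-root subgroups of G₀ for some field k with q elements (any two commute or are the unipotent subgroups of a rank one group that is an image of SL₂(k) with central kernel, never the commutator case), and their graph of rank one pairs is connected. -/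
theorem result (F : Type*) [Field F] [Fintype F] (q n : ℕ) (hF : Fintype.card F = q ^ 2) :
    Cfsg.IsRootSubgroupClass ((fun A : Subgroup ↥(Cfsg.SU (n + 2) F q) => A.subgroupOf (⨆ B ∈ {A : Subgroup ↥(Cfsg.SU (n + 2) F q) | ∃ p : Fin (n + 2) → F, p ≠ 0 ∧ Cfsg.hermForm (n + 2) F q p p = 0 ∧
          A = Subgroup.closure {g : ↥(Cfsg.SU (n + 2) F q) |
            (∀ v : Fin (n + 2) → F, ∃ c : F, ((g : Matrix.SpecialLinearGroup (Fin (n + 2)) F) : Matrix (Fin (n + 2)) (Fin (n + 2)) F) *ᵥ v = v + c • p) ∧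
            ∀ v : Fin (n + 2) → F, Cfsg.hermForm (n + 2) F q v p = 0 →
              ((g : Matrix.SpecialLinearGroup (Fin (n + 2)) F) : Matrix (Fin (n + 2)) (Fin (n + 2)) F) *ᵥ v = v}}, B)) ''
      {A : Subgroup ↥(Cfsg.SU (n + 2) F q) | ∃ p : Fin (n + 2) → F, p ≠ 0 ∧ Cfsg.hermForm (n + 2) F q p p = 0 ∧
          A = Subgroup.closure {g : ↥(Cfsg.SU (n + 2) F q) |
            (∀ v : Fin (n + 2) → F, ∃ c : F, ((g : Matrix.SpecialLinearGroup (Fin (n + 2)) F) : Matrix (Fin (n + 2)) (Fin (n + 2)) F) *ᵥ v = v + c • p) ∧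
            ∀ v : Fin (n + 2) → F, Cfsg.hermForm (n + 2) F q v p = 0 →
              ((g : Matrix.SpecialLinearGroup (Fin (n + 2)) F) : Matrix (Fin (n + 2)) (Fin (n + 2)) F) *ᵥ v = v}}) ∧
    Cfsg.IsDegenerateRootSet ((fun A : Subgroup ↥(Cfsg.SU (n + 2) F q) => A.subgroupOf (⨆ B ∈ {A : Subgroup ↥(Cfsg.SU (n + 2) F q) | ∃ p : Fin (n + 2) → F, p ≠ 0 ∧ Cfsg.hermForm (n + 2) F q p p = 0 ∧
          A = Subgroup.closure {g : ↥(Cfsg.SU (n + 2) F q) |
            (∀ v : Fin (n + 2) → F, ∃ c : F, ((g : Matrix.SpecialLinearGroup (Fin (n + 2)) F) : Matrix (Fin (n + 2)) (Fin (n + 2)) F) *ᵥ v = v + c • p) ∧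
            ∀ v : Fin (n + 2) → F, Cfsg.hermForm (n + 2) F q v p = 0 →
              ((g : Matrix.SpecialLinearGroup (Fin (n + 2)) F) : Matrix (Fin (n + 2)) (Fin (n + 2)) F) *ᵥ v = v}}, B)) ''
      {A : Subgroup ↥(Cfsg.SU (n + 2) F q) | ∃ p : Fin (n + 2) → F, p ≠ 0 ∧ Cfsg.hermForm (n + 2) F q p p = 0 ∧
          A = Subgroup.closure {g : ↥(Cfsg.SU (n + 2) F q) |
            (∀ v : Fin (n + 2) → F, ∃ c : F, ((g : Matrix.SpecialLinearGroup (Fin (n + 2)) F) : Matrix (Fin (n + 2)) (Fin (n + 2)) F) *ᵥ v = v + c • p) ∧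
            ∀ v : Fin (n + 2) → F, Cfsg.hermForm (n + 2) F q v p = 0 →
              ((g : Matrix.SpecialLinearGroup (Fin (n + 2)) F) : Matrix (Fin (n + 2)) (Fin (n + 2)) F) *ᵥ v = v}}) ∧
    (∃ (L : Type) (_ : Field L) (_ : Fintype L), Fintype.card L = q ∧ Cfsg.IsKRootSubgroupSet L ((fun A : Subgroup ↥(Cfsg.SU (n + 2) F q) => A.subgroupOf (⨆ B ∈ {A : Subgroup ↥(Cfsg.SU (n + 2) F q) | ∃ p : Fin (n + 2) → F, p ≠ 0 ∧ Cfsg.hermForm (n + 2) F q p p = 0 ∧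
          A = Subgroup.closure {g : ↥(Cfsg.SU (n + 2) F q) |
            (∀ v : Fin (n + 2) → F, ∃ c : F, ((g : Matrix.SpecialLinearGroup (Fin (n + 2)) F) : Matrix (Fin (n + 2)) (Fin (n + 2)) F) *ᵥ v = v + c • p) ∧
            ∀ v : Fin (n + 2) → F, Cfsg.hermForm (n + 2) F q v p = 0 →
              ((g : Matrix.SpecialLinearGroup (Fin (n + 2)) F) : Matrix (Fin (n + 2)) (Fin (n + 2)) F) *ᵥ v = v}}, B)) ''
      {A : Subgroup ↥(Cfsg.SU (n + 2) F q) | ∃ p : Fin (n + 2) → F, p ≠ 0 ∧ Cfsg.hermForm (n + 2) F q p p = 0 ∧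
          A = Subgroup.closure {g : ↥(Cfsg.SU (n + 2) F q) |
            (∀ v : Fin (n + 2) → F, ∃ c : F, ((g : Matrix.SpecialLinearGroup (Fin (n + 2)) F) : Matrix (Fin (n + 2)) (Fin (n + 2)) F) *ᵥ v = v + c • p) ∧
            ∀ v : Fin (n + 2) → F, Cfsg.hermForm (n + 2) F q v p = 0 →
              ((g : Matrix.SpecialLinearGroup (Fin (n + 2)) F) : Matrix (Fin (n + 2)) (Fin (n + 2)) F) *ᵥ v = v}})) ∧
    Cfsg.IsConnectedFamily (Cfsg.FAdj ((fun A : Subgroup ↥(Cfsg.SU (n + 2) F q) => A.subgroupOf (⨆ B ∈ {A : Subgroup ↥(Cfsg.SU (n + 2) F q) | ∃ p : Fin (n + 2) → F, p ≠ 0 ∧ Cfsg.hermForm (n + 2) F q p p = 0 ∧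
          A = Subgroup.closure {g : ↥(Cfsg.SU (n + 2) F q) |
            (∀ v : Fin (n + 2) → F, ∃ c : F, ((g : Matrix.SpecialLinearGroup (Fin (n + 2)) F) : Matrix (Fin (n + 2)) (Fin (n + 2)) F) *ᵥ v = v + c • p) ∧
            ∀ v : Fin (n + 2) → F, Cfsg.hermForm (n + 2) F q v p = 0 →
              ((g : Matrix.SpecialLinearGroup (Fin (n + 2)) F) : Matrix (Fin (n + 2)) (Fin (n + 2)) F) *ᵥ v = v}}, B)) ''
      {A : Subgroup ↥(Cfsg.SU (n + 2) F q) | ∃ p : Fin (n + 2) → F, p ≠ 0 ∧ Cfsg.hermForm (n + 2) F q p p = 0 ∧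
          A = Subgroup.closure {g : ↥(Cfsg.SU (n + 2) F q) |
            (∀ v : Fin (n + 2) → F, ∃ c : F, ((g : Matrix.SpecialLinearGroup (Fin (n + 2)) F) : Matrix (Fin (n + 2)) (Fin (n + 2)) F) *ᵥ v = v + c • p) ∧
            ∀ v : Fin (n + 2) → F, Cfsg.hermForm (n + 2) F q v p = 0 →
              ((g : Matrix.SpecialLinearGroup (Fin (n + 2)) F) : Matrix (Fin (n + 2)) (Fin (n + 2)) F) *ᵥ v = v}})) ((fun A : Subgroup ↥(Cfsg.SU (n + 2) F q) => A.subgroupOf (⨆ B ∈ {A : Subgroup ↥(Cfsg.SU (n + 2) F q) | ∃ p : Fin (n + 2) → F, p ≠ 0 ∧ Cfsg.hermForm (n + 2) F q p p = 0 ∧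
          A = Subgroup.closure {g : ↥(Cfsg.SU (n + 2) F q) |
            (∀ v : Fin (n + 2) → F, ∃ c : F, ((g : Matrix.SpecialLinearGroup (Fin (n + 2)) F) : Matrix (Fin (n + 2)) (Fin (n + 2)) F) *ᵥ v = v + c • p) ∧
            ∀ v : Fin (n + 2) → F, Cfsg.hermForm (n + 2) F q v p = 0 →
              ((g : Matrix.SpecialLinearGroup (Fin (n + 2)) F) : Matrix (Fin (n + 2)) (Fin (n + 2)) F) *ᵥ v = v}}, B)) ''
      {A : Subgroup ↥(Cfsg.SU (n + 2) F q) | ∃ p : Fin (n + 2) → F, p ≠ 0 ∧ Cfsg.hermForm (n + 2) F q p p = 0 ∧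
          A = Subgroup.closure {g : ↥(Cfsg.SU (n + 2) F q) |
            (∀ v : Fin (n + 2) → F, ∃ c : F, ((g : Matrix.SpecialLinearGroup (Fin (n + 2)) F) : Matrix (Fin (n + 2)) (Fin (n + 2)) F) *ᵥ v = v + c • p) ∧
            ∀ v : Fin (n + 2) → F, Cfsg.hermForm (n + 2) F q v p = 0 →
              ((g : Matrix.SpecialLinearGroup (Fin (n + 2)) F) : Matrix (Fin (n + 2)) (Fin (n + 2)) F) *ᵥ v = v}}) := by
  obtain ⟨σ, hq, hσ, hne⟩ := H11.exists_frob hF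
  obtain ⟨l, l0, hl⟩ := H11.exists_mem_unit_Λ hσ hne
  rw [H11.mem_unitP_Λ] at hl
  let K : Subfield F := σ.eqLocusField (RingHom.id F)
  let r : Shrink.{0} K ≃+* K := Shrink.ringEquiv.{0} K
  let ι : Shrink.{0} K →+* F := K.subtype.comp r.toRingHom
  have hι : ∀ a, σ a = a ↔ ∃ c, ι c = a := fun a =>
    ⟨fun h => ⟨r.symm ⟨a, h⟩, by simp [ι]⟩, by rintro ⟨c, rfl⟩; exact (r c).2⟩
  letI := ι.toAlgebra
  have hΛ : ∀ a, a ∈ (H11.unitP σ hσ).Λ ↔ ∃ c, a = ι c * l := fun a => by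
    rw [H11.mem_unitP_Λ]
    constructor
    · intro h
      obtain ⟨c, hc⟩ := (hι (a / l)).1 (by
        rw [map_div₀, show σ a = -a by linear_combination h, show σ l = -l by linear_combination hl, neg_div_neg_eq])
      exact ⟨c, by rw [hc, div_mul_cancel₀ _ l0]⟩
    · rintro ⟨c, rfl⟩
      rw [map_mul, (hι _).2 ⟨c, rfl⟩, ← mul_add, hl, mul_zero]
  let S := H11.stdUnit hσ hne (Fin (n + 2))
  have hS : S.Nondeg := H11.stdUnit_nondeg hσ hne _
  let e : Cfsg.SU (n + 2) F q →* S.Isom := S.SIsom.subtype.comp (H11.suEquiv hσ hne hq (n + 2)).toMonoidHom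
  have R := RT.tN_rs (K := Shrink.{0} K) (e := e) hS l0
    (Subtype.val_injective.comp (H11.suEquiv hσ hne hq (n + 2)).injective)
    (fun u a => ⟨(H11.suEquiv hσ hne hq (n + 2)).symm ⟨_, S.eich_mem_SIsom u 0 a⟩, by simp [e]⟩)
    (fun c => (hΛ _).2 ⟨c, rfl⟩) fun a => (hι _).1 (by
      simp only [map_mul, hσ, H11.unitP_ε, one_mul, show σ l = -l by linear_combination hl]; ring)
  have E : {A : Subgroup ↥(Cfsg.SU (n + 2) F q) | ∃ p : Fin (n + 2) → F, p ≠ 0 ∧ Cfsg.hermForm (n + 2) F q p p = 0 ∧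
      A = Subgroup.closure {g : ↥(Cfsg.SU (n + 2) F q) | (∀ v : Fin (n + 2) → F, ∃ c : F, g.1.1 *ᵥ v = v + c • p) ∧
        ∀ v : Fin (n + 2) → F, Cfsg.hermForm (n + 2) F q v p = 0 → g.1.1 *ᵥ v = v}} =
      RT.T (Shrink.{0} K) (RT.rho e) '' RT.tN S l := by
    simp only [← H11.stdUnit_h_eq hσ hne hq, ← H11.PForm.unit_sing]
    have := fun p hp => RT.tA_iff (K := Shrink.{0} K) (e := e) (u := p) hS hp fun a => (hΛ a).1
    ext A
    constructor
    · rintro ⟨p, h, h', rfl⟩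
      exact ⟨_, ⟨p, ⟨h, h'⟩, rfl⟩, congrArg Subgroup.closure (Set.ext fun g => (this p ⟨h, h'⟩ g).symm)⟩
    · rintro ⟨_, ⟨p, h, rfl⟩, rfl⟩
      exact ⟨p, h.1, h.2, congrArg Subgroup.closure (Set.ext fun g => (this p h g).symm)⟩
  rw [E, R.sub_eq]
  have C := R.sub.conn (RT.tN_conn hS l0)
  obtain ⟨x, y, H⟩ := hS.unit_exists_hyp hne (by simp)
  refine ⟨⟨R.sub.root R.sub_top, RT.cls_of_conn ⟨_, _, ⟨x, ⟨fun h => by simpa [h] using H.3, H.1⟩, rfl⟩, rfl⟩ C⟩,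
    R.sub.degen R.sub_top (RT.tN_degen hS l0), ⟨_, _, Fintype.ofFinite _, ?_, R.sub.kroot R.sub_top⟩, C⟩
  rw [← @Nat.card_eq_fintype_card _ (Fintype.ofFinite _), ← H11.card_unit_Λ hσ hne (Nat.card_eq_fintype_card.trans hF)]
  refine Nat.card_congr (Equiv.ofBijective (fun c => ⟨_, (hΛ _).2 ⟨c, rfl⟩⟩) ⟨fun a b h => ?_, fun a => ?_⟩)
  · exact ι.injective (mul_right_cancel₀ l0 (congrArg Subtype.val h))
  · obtain ⟨c, hc⟩ := (hΛ _).1 a.2
    exact ⟨c, Subtype.ext hc.symm⟩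

end Cfsg.Agent.S5071
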