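import Cfsg.Statements.S5073
import Cfsg.Agent.H20.QP3

set_option autoImplicit false
universe u
open Cfsg H20

namespace Cfsg.Agent.S5073

/-- Let k be a field of characteristic not 2 with k not of order 3, M a finite-dimensional k-vector space and G ≤ GL(M) such that (G, M) is a quadratic pair (M irreducible for G, and G generated by its quadratically acting elements σ whose scalar family 1 + c(σ − 1), c ∈ k, lies in G). Write 𝒬_d for the quadratic elements of G of minimal commutator rank, E(σ) for the subgroup generated by the members of 𝒬_d with the same fixed space and commutator space as σ, and Σ for the set of these subgroups. Let E, F ∈ Σ. If some non-identity element of E commutes with some non-identity element of F, or some non-identity element of E normalizes F, then E and F commute elementwise. -/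
theorem result {k : Type u} [Field k] (hk2 : ringChar k ≠ 2) (hk3 : Nat.card k ≠ 3)
    {M : Type u} [AddCommGroup M] [Module k M] [FiniteDimensional k M]
    {G : Subgroup (LinearMap.GeneralLinearGroup k M)} (hG : Cfsg.IsQuadraticPair G)
    {E F : Subgroup (LinearMap.GeneralLinearGroup k M)} (hE : E ∈ Cfsg.quadraticRootSubgroups G) (hF : F ∈ Cfsg.quadraticRootSubgroups G)
    (h : (∃ e ∈ E, e ≠ 1 ∧ ∃ f ∈ F, f ≠ 1 ∧ e * f = f * e) ∨ E ⊓ Subgroup.normalizer (F : Set (LinearMap.GeneralLinearGroup k M)) ≠ ⊥) :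
    ⁅E, F⁆ = ⊥ := by
  have hk := QP.big_of hk2 hk3
  rw [QP.qrs_eq] at hE hF
  obtain ⟨α, ha, rfl⟩ := hE
  obtain ⟨β, hb, rfl⟩ := hF
  obtain ⟨e, he, e1, hn⟩ : ∃ e ∈ QP.E G α, e ≠ 1 ∧ H28.cj e (QP.E G β) = QP.E G β := by
    rcases h with ⟨e, he, e1, f, hf, f1, h⟩ | h
    · obtain ⟨y, hy, rfl⟩ := QP.E_cases hf
      refine ⟨e, he, e1, ?_⟩
      rw [← hb.E_eq hy fun e => f1 (QP.un_eq_one.2 e), QP.cj_E (QP.E_le he)]
      have := congrArg Units.val h
      simp only [Units.val_mul, QP.un_val, mul_add, add_mul, mul_one, one_mul, add_right_inj] at this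
      rw [this, mul_assoc, Units.mul_inv, mul_one]
    · obtain ⟨e, he, e1⟩ := H28.exists_ne_one h
      exact ⟨e, he.1, e1, H28.mem_normalizer_iff_cj.1 he.2⟩
  refine (ha.uc hk hb (by_contra fun hne => e1 (H28.r1_eq_one (ha.r1 hk hb hne) he hn))).comm_or.resolve_right fun c => ?_
  obtain ⟨x, hx, rfl⟩ := QP.E_cases he
  have x0 : x ≠ 0 := fun e => e1 (QP.un_eq_one.2 e)
  have m : x * β - β * x ∈ QP.cE G β := by
    refine (QP.un_mem (h := (c.q hx hb.mem_cE).sq)).1 ?_
    rw [← c.comm_un hx hb.mem_cE]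
    exact mul_mem (hn.le (H28.conj_mem_cj (QP.un_mem.2 hb.mem_cE))) (inv_mem (QP.un_mem.2 hb.mem_cE))
  have n := c.ne' hx x0 hb.mem_cE hb.ne
  have := c.ann hx (δ := β) (by rw [← c.d.cE_eq (c.mem hx hb.mem_cE) n, hb.cE_eq m n]; exact hb.mem_cE)
  exact n (by rw [this.1, this.2, sub_zero])

end Cfsg.Agent.S5073
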