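import Cfsg.Statements.S5081
import Cfsg.Agent.H20.AFT

set_option autoImplicit false
open Cfsg H20

namespace Cfsg.Agent.S5081

/-- Let F be a saturated fusion system over a finite p-group S, P a proper subgroup of S that is fully normalized, and H the subgroup of Aut_F(P) generated by the automorphisms that extend to maps of the system defined on strictly larger subgroups of S. Then either P is not essential and H is all of Aut_F(P), or P is essential and the image of H in Out_F(P) = Aut_F(P)/Inn(P) is strongly p-embedded there. -/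
theorem result {Ω : Type*} [Group Ω] {S : Subgroup Ω} [Finite S] (p : ℕ) [Fact p.Prime] (hS : IsPGroup p S) (F : Cfsg.FusionSystem S) (hF : F.IsSaturated p) (P : Subgroup Ω) (hPS : P < S) (hPn : F.IsFullyNormalized P) (H : Subgroup (MulAut P)) (hH : H = Subgroup.closure {α : MulAut P | ∃ (Q : Subgroup Ω) (hPQ : P < Q) (φ : Q →* Ω), φ ∈ F.Hom Q ∧ ∀ x : P, φ (Subgroup.inclusion hPQ.le x) = α x}) : (¬ F.IsEssential p P ∧ H = F.autGroup P) ∨ (F.IsEssential p P ∧ ∃ _ : ((Cfsg.Inn P).subgroupOf (F.autGroup P)).Normal, Cfsg.IsStronglyPEmbedded p ((H.subgroupOf (F.autGroup P)).map (QuotientGroup.mk' ((Cfsg.Inn P).subgroupOf (F.autGroup P))))) := by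
  have hP := hPS.le
  have e : H.map (ext P) = ExtA F P := by
    rw [hH, MonoidHom.map_closure, ExtA]
    congr 1
    ext σ
    constructor
    · rintro ⟨α, ⟨Q, hPQ, φ, hφ, e⟩, rfl⟩
      obtain ⟨τ, hτ, e'⟩ := exists_mor hφ
      have e'' : ∀ x ∈ P, τ x = ext P α x := fun x hx => by
        rw [ext_apply α hx, ← e ⟨x, hx⟩, e']; rfl
      exact ⟨(mem_AutF hP).2 ⟨(hτ.mono hPQ.le).congr fun x hx => (e'' x hx).symm, ext_mem_Supp α⟩,
        Q, τ, hPQ, hτ, e''⟩
    · rintro ⟨⟨α, -, rfl⟩, Q, τ, hPQ, hτ, e⟩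
      exact ⟨α, ⟨Q, hPQ, _, hτ.toHom_mem, fun x => (e x x.2).trans (ext_apply_coe α x)⟩, rfl⟩
  by_cases he : F.IsEssential p P
  · refine Or.inr ⟨he, inn_normal F P, ?_⟩
    have := inn_normal F P
    obtain ⟨f, f1, f2, f3, f4⟩ := exists_out F P
    have h1 := spe_img f1 f2 f3 (fn_syl hS hF hPn) (inn_lt hS (centric_self he.1) le_rfl hPS)
      (lt_of_le_of_ne ExtA_le (ess_ExtA hS hF he)) (GamF_le_ExtA (fn_rec hS hF hPn))
    convert h1 using 1
    ext y
    rw [(f1.mono ExtA_le).mem_img, ← e]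
    constructor
    · rintro ⟨α, hα, rfl⟩
      exact ⟨_, ⟨α, hα, rfl⟩, f4 α⟩
    · rintro ⟨_, ⟨α, hα, rfl⟩, rfl⟩
      have h2 : α ∈ F.autGroup P := ext_mem_AutF.1 (ExtA_le (e ▸ ⟨α, hα, rfl⟩))
      exact ⟨⟨α, h2⟩, hα, (f4 ⟨α, h2⟩).symm⟩
  · refine Or.inl ⟨he, Subgroup.map_injective ext_injective ?_⟩
    rw [e]; exact ExtA_eq_of_not_ess hS hF hPn hPS.ne he

end Cfsg.Agent.S5081
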