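import Cfsg.Statements.S5087
import Cfsg.Agent.H20.AFT

set_option autoImplicit false
open Cfsg H20

namespace Cfsg.Agent.S5087

/-- In a saturated fusion system over a finite p-group S, a subgroup Q is normal in the system if and only if every subgroup P that equals S or is essential contains Q and every element of Aut_F(P) maps Q onto itself. -/
theorem result {Ω : Type*} [Group Ω] {S : Subgroup Ω} [Finite S] (p : ℕ) [Fact p.Prime] (hS : IsPGroup p S) (F : Cfsg.FusionSystem S) (hF : F.IsSaturated p) (Q : Subgroup Ω) : F.IsNormal Q ↔ ∀ P : Subgroup Ω, (P = S ∨ F.IsEssential p P) → (Q ≤ P ∧ ∀ α ∈ F.autGroup P, (Q.subgroupOf P).map α.toMonoidHom = Q.subgroupOf P) := by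
  have key : ∀ P : Subgroup Ω, Q ≤ P → ∀ α : MulAut P,
      ((Q.subgroupOf P).map α.toMonoidHom = Q.subgroupOf P ↔ ext P α ∈ Stab Q) := by
    intro P hQ α
    rw [← ((homOn_ext α).mono hQ).img_eq_iff, ← subgroupOf_map_eq (ψ := P.subtype.comp α.toMonoidHom)
      hQ (fun x => (ext_apply_coe α x).symm), ← Subgroup.map_map,
      ← (Subgroup.map_injective P.subtype_injective).eq_iff, Subgroup.map_subgroupOf_eq_of_le hQ]
  constructor
  · intro h P hP
    have hc := EssS.crfn hS hF hP
    have hQ := normal_le_of_cr hS h hc.1 hc.2.1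
    exact ⟨hQ, fun α hα => (key P hQ α).2
      ((AutF_mor hc.1.1 (ext_mem_AutF.2 hα)).sc_stab (normal_sc h) hQ)⟩
  · refine fun h => normal_of_ess hS hF fun P hP => ⟨(h P hP).1, ?_⟩
    rintro _ ⟨α, hα, rfl⟩
    exact (key P (h P hP).1 α).1 ((h P hP).2 α hα)

end Cfsg.Agent.S5087
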