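import Cfsg.Statements.S5088
import Cfsg.Agent.H20.AFT

set_option autoImplicit false
open Cfsg H20

namespace Cfsg.Agent.S5088

/-- In a saturated fusion system over a finite p-group, a subgroup Q is normal in the system if and only if there is a chain of subgroups 1 = Q₀ ≤ Q₁ ≤ ⋯ ≤ Qₙ = Q such that each Qᵢ with i ≥ 1 is strongly closed in the system and [Q, Qᵢ] ≤ Qᵢ₋₁. -/
theorem result {Ω : Type*} [Group Ω] {S : Subgroup Ω} [Finite S] (p : ℕ) [Fact p.Prime] (hS : IsPGroup p S) (F : Cfsg.FusionSystem S) (hF : F.IsSaturated p) (Q : Subgroup Ω) : F.IsNormal Q ↔ ∃ (n : ℕ) (Qs : Fin (n + 1) → Subgroup Ω), Qs 0 = ⊥ ∧ Qs (Fin.last n) = Q ∧ Monotone Qs ∧ ∀ i : Fin n, F.StronglyClosed (Qs i.succ) ∧ ⁅Q, Qs i.succ⁆ ≤ Qs (Fin.castSucc i) := by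
  constructor
  · intro h
    obtain ⟨n, c, h0, h1, h2⟩ := chain_iff.1 (normal_chain hS h)
    exact ⟨n, c, h0, h1, monotone_of_chain fun i => (h2 i).1,
      fun i => ⟨normal_sc (h2 i).2.2.1, (h2 i).2.2.2⟩⟩
  · rintro ⟨n, c, h0, h1, -, h3⟩
    have hsc : ∀ i, F.StronglyClosed (c i) := fun i => by
      refine Fin.cases ?_ (fun j => (h3 j).1) i
      rw [h0]; exact sc_bot F
    exact normal_of_chain hS hF (h1 ▸ hsc _)
      (chain_iff.2 ⟨n, c, h0, h1, fun i => ⟨hsc _, hsc _, (h3 i).2⟩⟩)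

end Cfsg.Agent.S5088
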