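import Cfsg.Statements.S5089
import Cfsg.Agent.H20.AFT

set_option autoImplicit false
open Cfsg H20

namespace Cfsg.Agent.S5089

/-- A saturated fusion system over a finite p-group has a nontrivial subgroup that is normal in the system (O_p(F) ≠ 1) if and only if some nontrivial abelian subgroup is strongly closed in the system. -/
theorem result {Ω : Type*} [Group Ω] {S : Subgroup Ω} [Finite S] (p : ℕ) [Fact p.Prime] (hS : IsPGroup p S) (F : Cfsg.FusionSystem S) (hF : F.IsSaturated p) : F.core ≠ ⊥ ↔ ∃ Q : Subgroup Ω, Q ≠ ⊥ ∧ IsMulCommutative Q ∧ F.StronglyClosed Q := by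
  constructor
  · intro h
    have hn := core_normal F
    have := fin_of_le hn.1
    refine ⟨cIn F.core F.core, cIn_ne_bot (hS.to_le hn.1) h, ⟨⟨fun a b => Subtype.ext ?_⟩⟩,
      normal_sc (normal_cIn hn le_rfl (sc_wc (normal_sc hn)))⟩
    exact Subgroup.mem_centralizer_iff.1 b.2.2 a a.2.1
  · rintro ⟨Q, h1, h2, h3⟩ h
    refine h1 (eq_bot_iff.2 (h ▸ le_core (normal_of_abelian hS hF h3 ?_)))
    rw [Subgroup.commutator_eq_bot_iff_le_centralizer]
    intro x hx
    exact Subgroup.mem_centralizer_iff.2 fun y hy =>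
      congrArg Subtype.val (h2.is_comm.comm (⟨y, hy⟩ : Q) ⟨x, hx⟩)

end Cfsg.Agent.S5089
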