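import Cfsg.Statements.S5094
import Cfsg.Agent.H9.IsoP

set_option autoImplicit false
open Cfsg

namespace Cfsg.Agent.S5094

/-- functions into `G` with the pointwise conjugation action -/
def W (P G : Type*) := P → G

instance {P G : Type*} [Group G] : MulAction G (W P G) where
  smul h f := fun a => h * f a * h⁻¹
  one_smul f := by funext a; change 1 * f a * 1⁻¹ = f a; simp
  mul_smul g h f := by
    funext a; change g * h * f a * (g * h)⁻¹ = g * (h * f a * h⁻¹) * g⁻¹; group

/-- Glauberman's Z*-Theorem in fusion language: for a finite group G with Sylow 2-subgroup S, the centre of the fusion system of G on S is the set of elements of S whose image in G/O(G) is central, O(G) being the largest normal subgroup of odd order. -/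
theorem result {G : Type*} [Group G] [Finite G] (S : Sylow 2 G) : (Cfsg.groupFusionSystem (S : Subgroup G)).center = (S : Subgroup G) ⊓ (Subgroup.center (G ⧸ Cfsg.oddCore G)).comap (QuotientGroup.mk' (Cfsg.oddCore G)) := by
  apply le_antisymm
  · refine sSup_le fun Q hQ x hx => ?_
    have hxS : x ∈ S := hQ.1 hx
    refine ⟨hxS, ?_⟩
    have hiso : IsIsolated x := H9.iso_of_sylow S hxS fun g hg => by
      obtain ⟨ψ, -, h1, h2⟩ := hQ.2 (Subgroup.zpowers x) (conjHom _ g)
        ⟨Subgroup.zpowers_le.2 hxS, fun a => by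
          obtain ⟨i, hi⟩ := Subgroup.mem_zpowers_iff.1 a.2
          change g * (a : G) * g⁻¹ ∈ (S : Subgroup G)
          rw [← hi, ← conj_zpow]
          exact Subgroup.zpow_mem _ hg i, g, fun _ => rfl⟩
      exact (h1 ⟨x, Subgroup.mem_zpowers x⟩).symm.trans (h2 ⟨x, hx⟩)
    obtain ⟨k, hk⟩ := H9.exists_pow_of_mem S.isPGroup' hxS
    exact H9.zstar_two_center (H9.iso_quotient hiso hk _)
      (k := k) (by
        change ((x : G ⧸ pPrimeCore 2 G)) ^ 2 ^ k = 1
        rw [← QuotientGroup.mk_pow, hk]; rfl) (H1.pPrimeCore_quotient_eq_bot 2 G)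
  · set Z := (S : Subgroup G) ⊓ (Subgroup.center (G ⧸ Cfsg.oddCore G)).comap
      (QuotientGroup.mk' (Cfsg.oddCore G)) with hZ
    refine le_sSup (show (groupFusionSystem (S : Subgroup G)).IsCentral Z from ⟨inf_le_left, ?_⟩)
    rintro P φ ⟨hP, hφ, g, hg⟩
    have hcomm : ∀ z ∈ Z, ∀ h : G, h * z * h⁻¹ * z⁻¹ ∈ oddCore G := fun z hz h => by
      rw [← QuotientGroup.eq_one_iff]
      have := Subgroup.mem_center_iff.1 hz.2 (h : G ⧸ oddCore G)
      simp only [QuotientGroup.mk_mul, QuotientGroup.mk_inv]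
      rw [QuotientGroup.mk'_apply] at this
      rw [this]; simp
    have hcop := H1.coprime_card_pPrimeCore 2 G
    have hZS : ∀ z ∈ Z, ∀ s ∈ (S : Subgroup G), Commute s z := fun z hz s hs => by
      obtain ⟨k, hk⟩ := H9.exists_pow_of_mem S.isPGroup' hz.1
      exact H9.iso_commute_of_mem (H9.iso_of_commutator_mem hk hcop (hcomm z hz)) S.isPGroup'
        hz.1 hs
    have hZp : IsPGroup 2 Z := S.isPGroup'.to_inf_left
    have hc : (Nat.card Z).Coprime (Nat.card (oddCore G)) := H1.IsPGroup.coprime_card hZp hcop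
    have : IsMulCommutative Z := ⟨⟨fun a b => Subtype.ext (hZS b b.2 a a.2.1).eq⟩⟩
    have hs : Group.IsSolvable Z ∨ Group.IsSolvable (oddCore G) := Or.inl (Group.isSolvable_of_comm fun a b => mul_comm' a b)
    -- `g = n c` with `c` centralizing `Z`
    obtain ⟨c, hcZ, hc'⟩ : ∃ c ∈ Subgroup.centralizer (Z : Set G),
        (c : G ⧸ oddCore G) = g := by
      have h1 : (g : G ⧸ oddCore G) ∈ (Subgroup.centralizer (Z : Set G)).map
          (QuotientGroup.mk' (oddCore G)) := by
        rw [H1.map_mk'_centralizer hc hs]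
        rintro _ ⟨z, hz, rfl⟩
        exact (Subgroup.mem_center_iff.1 hz.2 _).symm
      exact h1
    -- `c` already induces `φ` up to the odd core; fix it with coprime action on a point
    have hn : g * c⁻¹ ∈ oddCore G := by
      rw [← QuotientGroup.eq_one_iff]; simp [hc']
    let x0 : W P G := fun a => c * a * c⁻¹
    have hsm : ∀ (h : G) (f : W P G) (a : P), (h • f) a = h * f a * h⁻¹ := fun _ _ _ => rfl
    obtain ⟨d, hd, e⟩ := H1.exists_centralizer_smul_eq (A := Z) (K := oddCore G)
      (X := W P G) Subgroup.le_normalizer_of_normal hc hs (x := x0) (fun z hz => by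
        funext a
        rw [hsm]
        have h1 : Commute z c := hcZ z hz
        have h2 : Commute z (a : G) := (hZS z hz a (hP a.2)).symm
        have h3 : Commute z (c * a * c⁻¹) := (h1.mul_right h2).mul_right h1.inv_right
        change z * (c * a * c⁻¹) * z⁻¹ = c * a * c⁻¹
        rw [h3.eq]; simp) hn (fun z hz => by
        funext a
        change z * (g * c⁻¹ * (c * a * c⁻¹) * (g * c⁻¹)⁻¹) * z⁻¹ =
          g * c⁻¹ * (c * a * c⁻¹) * (g * c⁻¹)⁻¹
        have h1 : g * c⁻¹ * (c * a * c⁻¹) * (g * c⁻¹)⁻¹ = φ a := by rw [hg]; group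
        rw [h1, ← (hZS z hz _ (hφ a)).eq]; simp)
    have hdc : d * c ∈ Subgroup.centralizer (Z : Set G) := Subgroup.mul_mem _ hd.2 hcZ
    have hPe : ∀ a : P, d * c * a * (d * c)⁻¹ = φ a := fun a => by
      have : d * (c * a * c⁻¹) * d⁻¹ = g * c⁻¹ * (c * a * c⁻¹) * (g * c⁻¹)⁻¹ := congrFun e a
      rw [hg]
      calc d * c * a * (d * c)⁻¹ = d * (c * a * c⁻¹) * d⁻¹ := by group
        _ = _ := by rw [this]; group
    have hZe : ∀ z ∈ Z, d * c * z * (d * c)⁻¹ = z := fun z hz => by
      rw [← hdc z hz, mul_inv_cancel_right]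
    refine ⟨conjHom _ (d * c), ⟨sup_le hP inf_le_left, fun a => ?_, d * c, fun _ => rfl⟩,
      fun a => hPe a, fun a => hZe a a.2⟩
    have : P ⊔ Z ≤ (S : Subgroup G).comap (MulAut.conj (d * c)).toMonoidHom :=
      sup_le (fun a ha => by
        change d * c * a * (d * c)⁻¹ ∈ (S : Subgroup G)
        rw [hPe ⟨a, ha⟩]; exact hφ _) (fun z hz => by
        change d * c * z * (d * c)⁻¹ ∈ (S : Subgroup G)
        rw [hZe z hz]; exact hz.1)
    exact this a.2

end Cfsg.Agent.S5094
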