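import Cfsg.Statements.S5105
import Cfsg.Agent.H20.Model

set_option autoImplicit false
open Cfsg H20

namespace Cfsg.Agent.S5105

/-- Model Theorem, rigidity: if G is a model of a constrained fusion system over a finite p-group S (through ι : S → G), then every automorphism of G fixing ι(S) elementwise is conjugation by ι(z) for some z in the centre of S. -/
theorem result {Ω : Type*} [Group Ω] {S : Subgroup Ω} [Finite S] (p : ℕ) [Fact p.Prime] (hS : IsPGroup p S) (F : Cfsg.FusionSystem S) (hF : F.IsConstrained p) {G : Type*} [Group G] (ι : S →* G) (hG : F.IsModel p G ι) (ψ : G ≃* G) (hψ : ∀ x : S, ψ (ι x) = ι x) : ∃ z : S, z ∈ Subgroup.center S ∧ ∀ g : G, ψ g = ι z * g * (ι z)⁻¹ := by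
  obtain ⟨f, hf, e⟩ := exists_fun_of_hom ι
  have h := (model_iff e).1 hG
  have := h.fin
  obtain ⟨z, h1, h2⟩ := aut_eq_conj h.syl h.cent (ψ := ψ) (fun a _ b _ => map_mul ψ a b)
    (fun _ _ => trivial) fun t ht => by
      obtain ⟨u, hu, rfl⟩ := hf.mem_img.1 ht
      rw [← e ⟨u, hu⟩, hψ]
  rw [← h.iso.inj.img_cIn le_rfl le_rfl] at h1
  obtain ⟨u, hu, rfl⟩ := (hf.mono cIn_le).mem_img.1 h1
  exact ⟨⟨u, hu.1⟩, Subgroup.mem_center_iff.2 fun g => Subtype.ext (hu.2 g g.2),
    fun g => by rw [e]; exact h2 g trivial⟩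

end Cfsg.Agent.S5105
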