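import Cfsg.Statements.S5107
import Cfsg.Agent.H20.AFT

set_option autoImplicit false
open Cfsg H20

namespace Cfsg.Agent.S5107

/-- If a Sylow p-subgroup S of a finite group G has nilpotency class at most two and its centre is strongly closed in S with respect to G, then every map of the fusion system of G on S is conjugation by an element of N_G(S), and S is the largest subgroup normal in that fusion system. -/
theorem result {G : Type*} [Group G] [Finite G] (p : ℕ) [Fact p.Prime] (S : Sylow p G) (hcl : ⁅(S : Subgroup G), (S : Subgroup G)⁆ ≤ (S : Subgroup G) ⊓ Subgroup.centralizer ((S : Subgroup G) : Set G)) (hZ : Cfsg.IsStronglyClosed ((S : Subgroup G) ⊓ Subgroup.centralizer ((S : Subgroup G) : Set G)) (S : Subgroup G)) : (∀ (P : Subgroup G) (φ : P →* G), φ ∈ (Cfsg.groupFusionSystem (S : Subgroup G)).Hom P → ∃ g ∈ Subgroup.normalizer ((S : Subgroup G) : Set G), ∀ x : P, φ x = g * (x : G) * g⁻¹) ∧ (Cfsg.groupFusionSystem (S : Subgroup G)).core = S := by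
  have hF := sat_group (p := p) S
  have hsc : (groupFusionSystem (S : Subgroup G)).StronglyClosed
      ((S : Subgroup G) ⊓ Subgroup.centralizer ((S : Subgroup G) : Set G)) :=
    sc_of inf_le_left fun P σ hσ hP x hx => by
      obtain ⟨-, h1, g, e⟩ := mor_group_iff.1 hσ
      rw [e x hx]; exact hZ.2 x (hP hx) g (e x hx ▸ h1 x hx)
  have hn : (groupFusionSystem (S : Subgroup G)).IsNormal S :=
    normal_of_chain S.2 hF (sc_top _) (Relation.ReflTransGen.tail (.single ⟨hsc, sc_bot _, by
      rw [Subgroup.commutator_comm, le_bot_iff, Subgroup.commutator_eq_bot_iff_le_centralizer]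
      exact inf_le_right⟩) ⟨sc_top _, hsc, hcl⟩)
  refine ⟨fun P φ hφ => ?_, le_antisymm core_le (le_core hn)⟩
  obtain ⟨σ, hσ, e⟩ := exists_mor hφ
  obtain ⟨α, hα, e'⟩ := normal_ext_aut hn hσ.le hσ
  rw [AutF_group le_rfl] at hα
  obtain ⟨g, -, h2, rfl⟩ := mem_AutK'.1 hα
  exact ⟨g, h2, fun x => by rw [e, ← e' x x.2, cr_apply h2 (hσ.le x.2)]⟩

end Cfsg.Agent.S5107
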