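import Cfsg.Statements.S5110
import Cfsg.Agent.H20.PPrime

set_option autoImplicit false
open Cfsg H20

namespace Cfsg.Agent.S5110

/-- Saturation criterion: let F be a fusion system over a finite p-group S and H a family of subgroups of S closed under conjugacy in F, such that every conjugacy class inside H contains a fully automized receptive member, F is the smallest fusion system over S containing all its maps with source in H, and every centric subgroup outside H is conjugate in F to some P for which Aut_S(P) ∩ O_p(Aut_F(P)) is not contained in Inn(P). Then F is saturated. -/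
theorem result {Ω : Type*} [Group Ω] {S : Subgroup Ω} [Finite S] (p : ℕ) [Fact p.Prime] (hS : IsPGroup p S) (F : Cfsg.FusionSystem S) (ℋ : Set (Subgroup Ω)) (hℋS : ∀ P ∈ ℋ, P ≤ S) (hℋconj : ∀ P ∈ ℋ, ∀ Q, F.IsConj P Q → Q ∈ ℋ) (hsat : ∀ P ∈ ℋ, ∃ Q, F.IsConj P Q ∧ F.IsFullyAutomized p Q ∧ F.IsReceptive Q) (hgen : ∀ E : Cfsg.FusionSystem S, (∀ P ∈ ℋ, F.Hom P ⊆ E.Hom P) → F ≤ E) (hstar : ∀ P : Subgroup Ω, F.IsCentric P → P ∉ ℋ → ∃ Q, F.IsConj P Q ∧ ¬ (Cfsg.autInducedBy S Q ⊓ (Cfsg.pCore p ↥(F.autGroup Q)).map (F.autGroup Q).subtype ≤ Cfsg.Inn Q)) : F.IsSaturated p := by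
  refine sat_of_family hS (fun P => P ∈ ℋ) (fun P σ h1 h2 => hℋconj P h1 _ h2.isConj) hsat
    (fun E h => le_iff_sub.1 (hgen E fun P hP => hom_subset_iff.2 fun σ => h P σ hP)) fun P h1 h2 => ?_
  obtain ⟨Q, h3, h4⟩ := hstar P h1 h2
  obtain ⟨σ, h5, rfl⟩ := isConj_iff.1 h3
  obtain ⟨α, ⟨h6, h7⟩, h8⟩ := SetLike.not_le_iff_exists.1 h4
  have h9 : ext _ α ∈ AutK S (img P σ) := map_autInducedBy (K := S) (P := img P σ) ▸
    Subgroup.mem_map_of_mem _ h6
  obtain ⟨g, a1, a2, a3⟩ := mem_AutK'.1 h9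
  refine ⟨σ, h5, g, ⟨a1, a2⟩, fun a4 => h8 ?_, a3 ▸ mem_pCore_iff.1 h7⟩
  have a5 : ext _ α ∈ AutK (img P σ) (img P σ) := a3 ▸ cr_mem_AutK a4 a2
  rw [← map_Inn] at a5
  exact (Subgroup.mem_map_iff_mem ext_injective).1 a5

end Cfsg.Agent.S5110
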