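import Cfsg.Statements.S5114
import Cfsg.Agent.H20.Solv

set_option autoImplicit false
open Cfsg H20

namespace Cfsg.Agent.S5114

/-- Let F be a saturated fusion system over a finite p-group S and E a fusion system over S contained in F. If Aut_E(P) contains the subgroup of Aut_F(P) generated by its elements of p-power order for every subgroup P that is centric in F, then the same holds for every subgroup of S (E has index prime to p in F), every map of F with source a subgroup P of S is an element of Aut_F(S) composed with a map of E, and a subgroup is centric in E exactly when it is centric in F. -/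
theorem result {Ω : Type*} [Group Ω] {S : Subgroup Ω} [Finite S] (p : ℕ) [Fact p.Prime] (hS : IsPGroup p S) (F : Cfsg.FusionSystem S) (hF : F.IsSaturated p) (E : Cfsg.FusionSystem S) (hEF : E.IsSubsystemOf F) (h : ∀ P : Subgroup Ω, F.IsCentric P → (Subgroup.closure {α : ↥(F.autGroup P) | ∃ k : ℕ, orderOf α = p ^ k}).map (F.autGroup P).subtype ≤ E.autGroup P) : E.HasPrimeToPIndexIn F p ∧ (∀ (P : Subgroup Ω) (φ : P →* Ω), φ ∈ F.Hom P → ∃ α ∈ F.autGroup S, ∃ φ₀ ∈ E.Hom P, ∀ (x : P) (hx : φ₀ x ∈ S), φ x = ((α ⟨φ₀ x, hx⟩ : S) : Ω)) ∧ ∀ P : Subgroup Ω, E.IsCentric P ↔ F.IsCentric P := by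
  have hsub := sub_of_isSub hEF
  obtain ⟨E₀, h1, h2⟩ := frat_of_PGen hS hF hsub fun P hc _ _ => by
    rw [← map_ext_PGen]; exact Subgroup.map_mono (h P hc)
  refine ⟨⟨hEF, fun P hP => ?_⟩, fun P φ hφ => ?_, fun P => ⟨fun hP => h2.centric_iff.1
    (centric_iff.2 ⟨hP.1, fun σ hσ => (centric_iff.1 hP).2 σ (h1 _ _ hσ)⟩), fun hP =>
      centric_iff.2 ⟨hP.1, fun σ hσ => (centric_iff.1 hP).2 σ (hsub _ _ hσ)⟩⟩⟩
  · rw [← Subgroup.map_le_map_iff_of_injective ext_injective, map_ext_PGen]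
    exact (h2.PGen_le hS hF hP).trans h1.AutF_le
  · obtain ⟨α, hα, φ₀, h3, h4⟩ := (inv_iff.2 h2).2.2.2 P (F.le_of_mem hφ).1 φ hφ
    exact ⟨α, hα, φ₀, sub_iff.2 h1 P h3, h4⟩

end Cfsg.Agent.S5114
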