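import Cfsg.Statements.S5115
import Cfsg.Agent.H20.Solv

set_option autoImplicit false
open Cfsg H20

namespace Cfsg.Agent.S5115

/-- If the 2-fusion system of a finite group G on a Sylow 2-subgroup S is constrained, then for every subnormal subgroup H of G the 2-fusion system of H on S ∩ H is constrained. -/
theorem result {G : Type*} [Group G] [Finite G] (S : Sylow 2 G) (hF : (Cfsg.groupFusionSystem (S : Subgroup G)).IsConstrained 2) (H : Subgroup G) (hH : H.IsSubnormal) : (Cfsg.groupFusionSystem ((S : Subgroup G).subgroupOf H)).IsConstrained 2 := by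
  rw [groupFS_eq] at hF ⊢
  obtain ⟨h1, h2⟩ := group_subn (syl_top S) (N := H) (hH.comap _) le_top
  obtain ⟨k, h3, h4, h5⟩ := exists_subtype_fun H
  refine (iso_group h3 h4 ?_).constrained h2.pgroup (subn_constrained S.2 hF h1)
  ext y
  rw [(h3.hom.mono inf_le_right).mem_img, Subgroup.mem_subgroupOf]
  exact ⟨fun ⟨x, hx, e⟩ => by rw [← e, h5 x hx.2]; exact hx.1,
    fun h => ⟨y, ⟨h, y.2⟩, Subtype.ext (h5 _ y.2)⟩⟩

end Cfsg.Agent.S5115
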