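import Cfsg.Statements.S5139
import Cfsg.Agent.H20.Trans

set_option autoImplicit false
open Cfsg H20

namespace Cfsg.Agent.S5139

/-- Let G be a finite group with Sylow p-subgroup S and O^p(G) the subgroup generated by the elements of order prime to p. Then the p-residual subsystem of the fusion system of G on S — the saturated subsystem of p-power index over the hyperfocal subgroup — is the fusion system of O^p(G) on S ∩ O^p(G): its maps are exactly the conjugation maps by elements of O^p(G) between subgroups of S ∩ O^p(G). -/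
theorem result {G : Type*} [Group G] [Finite G] (p : ℕ) [Fact p.Prime] (S : Sylow p G) (E : Cfsg.FusionSystem ((Cfsg.groupFusionSystem (S : Subgroup G)).hyperfocalSubgroup p)) (hE : (Cfsg.groupFusionSystem (S : Subgroup G)).IsPResidual p E) : ∃ h : (S : Subgroup G) ⊓ Cfsg.pResidual p G ≤ Cfsg.pResidual p G, ∀ P : Subgroup G, E.Hom P = (Cfsg.fusionSystemOfSubgroup (Cfsg.pResidual p G) ((S : Subgroup G) ⊓ Cfsg.pResidual p G) h).Hom P := by
  refine ⟨inf_le_right, ?_⟩
  have hs := syl_top S
  have h1 : PPI (fusionSystemOfSubgroup (pResidual p G) ((S : Subgroup G) ⊓ pResidual p G) inf_le_right)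
      (groupFusionSystem (S : Subgroup G)) p := by
    rw [groupFS_eq]
    exact group_ppi hs le_top Res_top.le inf_le_left (by rw [Res_top])
  have h2 := ppi_iff.1 hE.2
  have h3 := Cfsg.Agent.S5093.result p S
  have := fin_of_le h2.sub.le
  exact (h1.sub_of_le hs.pgroup hE.1 h2.sub h3.le).hom_eq (h2.sub_of_le hs.pgroup
    (hs.inf_of_le le_top (Res_top (p := p) (G := G) ▸ le_normalizer_Res)).sat h1.sub h3.ge)

end Cfsg.Agent.S5139
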