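import Cfsg.Statements.S5142
import Cfsg.Agent.H20.PPrime

set_option autoImplicit false
open Cfsg H20

namespace Cfsg.Agent.S5142

/-- Let F be a saturated fusion system over a finite p-group S and E a normal subsystem of F over T. Then the p'-residual subsystem of E (the least saturated subsystem of E over T of index prime to p) is contained in every normal subsystem of F over T; together with its normality in F (the case of a weakly normal E) this makes it the least normal subsystem of F over T. -/
theorem result {Ω : Type*} [Group Ω] {S : Subgroup Ω} [Finite S] (p : ℕ) [Fact p.Prime] (hS : IsPGroup p S) (F : Cfsg.FusionSystem S) (hF : F.IsSaturated p) {T : Subgroup Ω} (E : Cfsg.FusionSystem T) (hE : E.IsNormalIn F p) (D : Cfsg.FusionSystem T) (hD : E.IsPPrimeResidual p D) : ∀ D' : Cfsg.FusionSystem T, D'.IsNormalIn F p → D.IsSubsystemOf D' := by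
  have := fin_of_le (nrm_inv hE).le
  exact fun D' h => sub_iff.2 ((ppr_iff.1 hD).sub_of_wn hS (nrm_inv hE) (nrm_inv h) hE.1.1 h.1.1).sub

end Cfsg.Agent.S5142
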