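import Cfsg.Statements.S5143
import Cfsg.Agent.H20.Cent

set_option autoImplicit false
open Cfsg H20

namespace Cfsg.Agent.S5143

/-- Let F be a saturated fusion system over a finite p-group S, E a normal subsystem over T, and R a subgroup with T ≤ R ≤ S. Then there is exactly one saturated subsystem D of F over R (exactly one family of map sets) whose p-residual subsystem is that of E: the hyperfocal subgroups of D and E coincide and the p-residual subsystems of D and of E have the same maps. -/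
theorem result {Ω : Type*} [Group Ω] {S : Subgroup Ω} [Finite S] (p : ℕ) [Fact p.Prime] (hS : IsPGroup p S) (F : Cfsg.FusionSystem S) (hF : F.IsSaturated p) {T : Subgroup Ω} (E : Cfsg.FusionSystem T) (hE : E.IsNormalIn F p) (R : Subgroup Ω) (hTR : T ≤ R) (hRS : R ≤ S) : ∃ D : Cfsg.FusionSystem R, (D.IsSaturated p ∧ D.IsSubsystemOf F ∧ D.hyperfocalSubgroup p = E.hyperfocalSubgroup p ∧ ∀ (D₁ : Cfsg.FusionSystem (D.hyperfocalSubgroup p)) (E₁ : Cfsg.FusionSystem (E.hyperfocalSubgroup p)), D.IsPResidual p D₁ → E.IsPResidual p E₁ → ∀ P : Subgroup Ω, D₁.Hom P = E₁.Hom P) ∧ ∀ D' : Cfsg.FusionSystem R, D'.IsSaturated p → D'.IsSubsystemOf F → D'.hyperfocalSubgroup p = E.hyperfocalSubgroup p → (∀ (D₁ : Cfsg.FusionSystem (D'.hyperfocalSubgroup p)) (E₁ : Cfsg.FusionSystem (E.hyperfocalSubgroup p)), D'.IsPResidual p D₁ → E.IsPResidual p E₁ → ∀ P : Subgroup Ω, D₁.Hom P = E₁.Hom P) → ∀ P : Subgroup Ω, D'.Hom P =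 D.Hom P := by
  have h := nrm_inv hE
  have := fin_of_le h.le
  have := fin_of_le hRS
  have hT := hS.to_le h.le
  have hR := hS.to_le hRS
  obtain ⟨D, h1⟩ := exists_isPr hS hE hTR hRS
  have h2 := h1.hyp_eq hS hE
  have := fin_of_le (hyp_le : E.hyperfocalSubgroup p ≤ T)
  obtain ⟨E₀, e1, e2⟩ := exists_ppi hT hE.1.1 hyp_le le_rfl
  have e3 := e2.nrm_hyp hS hE e1
  refine ⟨D, ⟨h1.sat, sub_iff.2 h1.sub, h2, fun D₁ E₁ a b => ?_⟩, fun D' a b c d => ?_⟩
  · have := fin_of_le (hyp_le : D.hyperfocalSubgroup p ≤ R)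
    exact Sub.hom_eq ((ppi_iff.1 b.2).sub_of_le hT a.1 (h1.ppi.sub_of_le hR a.1 (ppi_iff.1 a.2).sub
      h1.ppi.hyp) h2.le) ((ppi_iff.1 a.2).sub_of_le hR b.1 ((ppi_iff.1 b.2).sub.trans h1.ppi.sub) h2.ge)
  · obtain ⟨D₁, d1, d2⟩ := exists_ppi hR a hyp_le le_rfl
    have d3 := d D₁ E₀ ⟨d1, ppi_iff.2 d2⟩ ⟨e1, ppi_iff.2 e2⟩
    have d4 : IsPr F E₀ p D' := ⟨a, sub_iff.1 b, d2.congr (sub_of_hom_eq d3) (sub_of_hom_eq' d3)⟩
    have d5 : IsPr F E₀ p D := ⟨h1.sat, h1.sub, e2.trans h1.ppi h2.le⟩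
    exact Sub.hom_eq (d5.mono hS e3 d4 le_rfl) (d4.mono hS e3 d5 le_rfl)

end Cfsg.Agent.S5143
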