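import Cfsg.Statements.S5147
import Cfsg.Agent.H20.Solv
import Cfsg.Agent.S5115

set_option autoImplicit false
open Cfsg H20

namespace Cfsg.Agent.S5147

/-- Let G be a finite group with Sylow 2-subgroup S whose 2-fusion system on S is constrained, and L a component of G (a subnormal quasisimple subgroup). Then the 2-fusion system of L/Z(L) on the image of S ∩ L is constrained. -/
theorem result {G : Type*} [Group G] [Finite G] (S : Sylow 2 G) (hF : (Cfsg.groupFusionSystem (S : Subgroup G)).IsConstrained 2) (L : Subgroup G) (hL : Cfsg.IsComponent L) : (Cfsg.groupFusionSystem (((S : Subgroup G).subgroupOf L).map (QuotientGroup.mk' (Subgroup.center L)))).IsConstrained 2 := by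
  have h1 := S5115.result S hF L hL.1
  rw [groupFS_eq] at h1 ⊢
  have h2 : Syl 2 ((S : Subgroup G).subgroupOf L) ⊤ := by
    obtain ⟨k, h3, h4, h5⟩ := exists_subtype_fun L
    have := (group_subn (syl_top S) (N := L) (hL.1.comap _) le_top).2.img h3.hom
    convert this
    · ext y
      rw [(h3.hom.mono inf_le_right).mem_img, Subgroup.mem_subgroupOf]
      exact ⟨fun h => ⟨y, ⟨h, y.2⟩, Subtype.ext (h5 _ y.2)⟩,
        fun ⟨x, hx, e⟩ => by rw [← e, h5 x hx.2]; exact hx.1⟩
    · exact h4.symm
  have h := epi_group h2 (homOn_hom ⊤ (QuotientGroup.mk' (Subgroup.center L))) (H' := ⊤) (by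
    rw [img_hom, ← MonoidHom.range_eq_map, MonoidHom.range_eq_top]
    exact QuotientGroup.mk'_surjective _) (img_hom _ _) (h1 := le_top) (h2 := le_top)
  refine h.constrained h2.pgroup h1 (central_of_fix h2.pgroup h1.1 (h.hom.pre_le _)
    fun P σ hσ x hx hq => ?_)
  obtain ⟨-, -, g, -, h3⟩ := mor_sub_iff.1 hσ
  rw [h3 x hx, Subgroup.mem_center_iff.1 ((QuotientGroup.eq_one_iff x).1 hq.2) g]; group

end Cfsg.Agent.S5147
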