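import Cfsg.Statements.S5160
import Cfsg.Agent.H20.Solv

set_option autoImplicit false
open Cfsg H20

namespace Cfsg.Agent.S5160

/-- Let G be a finite group with nontrivial Sylow p-subgroup S and F its fusion system on S. Suppose (a) no nontrivial proper subgroup of S is strongly closed in F, and (b) the automorphisms of S induced by G are generated by those induced, for R running over the fully normalized radical centric subgroups of F, by the subgroup of N_G(R) generated by its elements of p-power order. Then F is simple. -/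
theorem result {G : Type*} [Group G] [Finite G] (p : ℕ) [Fact p.Prime] (S : Sylow p G) (hS1 : (S : Subgroup G) ≠ ⊥) (ha : ∀ T : Subgroup G, (Cfsg.groupFusionSystem (S : Subgroup G)).StronglyClosed T → T = ⊥ ∨ T = (S : Subgroup G)) (hb : Cfsg.autInducedBy ⊤ (S : Subgroup G) = ⨆ (R : Subgroup G) (_ : (Cfsg.groupFusionSystem (S : Subgroup G)).IsFullyNormalized R ∧ (Cfsg.groupFusionSystem (S : Subgroup G)).IsRadical p R ∧ (Cfsg.groupFusionSystem (S : Subgroup G)).IsCentric R), Cfsg.autInducedBy (Subgroup.closure {g : G | g ∈ Subgroup.normalizer (R : Set G) ∧ ∃ k : ℕ, orderOf g = p ^ k}) (S : Subgroup G)) : (Cfsg.groupFusionSystem (S : Subgroup G)).IsSimple p := by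
  have hF := sat_group S
  refine simple_of hF hS1 ha fun D hD => ?_
  have hi := nrm_inv hD
  rw [AutF_group le_rfl, ← map_autInducedBy, hb, Subgroup.map_iSup]
  refine iSup_le fun R => ?_
  rw [Subgroup.map_iSup]
  refine iSup_le fun hR => ?_
  rw [map_autInducedBy]
  intro σ hσ
  obtain ⟨g, h1, h2, rfl⟩ := mem_AutK'.1 hσ
  have h3 : cr S g ∈ AutF (groupFusionSystem (S : Subgroup G)) S := by
    rw [AutF_group le_rfl]; exact cr_mem_AutK (Subgroup.mem_top g) h2
  have h4 : g ∈ PGen p (Subgroup.normalizer (R : Set G)) := by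
    refine Subgroup.closure_mono (fun x hx => ?_) h1
    exact ⟨hx.1, pElt_iff.2 hx.2⟩
  refine Sub.mem_AutF h3 (mor_of_centric S.2 hF hD.1.1 hi.sub hR.2.2 hR.1.1 (AutF_mor le_rfl h3)
    ((AutF_mor hR.1.1 (hi.PGen_le S.2 hF hR.1.1 (x := cr R g) ?_)).congr fun x hx => by
      rw [cr_apply h2 (hR.1.1 hx), cr_apply (PGen_le h4) hx]))
  rw [AutF_group hR.1.1, AutK, top_inf_eq]
  exact (homOn_cr R).img_PGen_le (mem_img_of_mem _ h4)

end Cfsg.Agent.S5160
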