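import Cfsg.Statements.S5163
import Cfsg.Agent.H23.FSL

set_option autoImplicit false
open Cfsg

namespace Cfsg.Agent.S5163

/-- For a finite field K of characteristic p and n ≥ 3, the p-fusion system of the projective special linear group PSL_n(K) on a Sylow p-subgroup is simple. -/
theorem result {K : Type*} [Field K] [Fintype K] (p : ℕ) [Fact p.Prime] [CharP K p] (n : ℕ) (hn : 3 ≤ n) (S : Sylow p (Matrix.ProjectiveSpecialLinearGroup (Fin n) K)) : (Cfsg.groupFusionSystem (S : Subgroup (Matrix.ProjectiveSpecialLinearGroup (Fin n) K))).IsSimple p := by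
  obtain ⟨m, rfl⟩ : ∃ m, n = m + 1 := ⟨n - 1, by omega⟩
  let e : Unit ⊕ Fin m ≃ Fin (m + 1) := Fintype.equivOfCardEq (by simp [add_comm])
  refine H23.FS.simple_SL (F := K) (κ := Fin m) (by simpa using hn)
    ((QuotientGroup.mk' _).comp (H24.slReindex e).toMonoidHom)
    ((QuotientGroup.mk'_surjective _).comp (H24.slReindex e).surjective)
    (fun x hx => Subgroup.mem_center_iff.2 fun y => (H24.slReindex e).injective ?_) S
  simpa using Subgroup.mem_center_iff.1 ((QuotientGroup.eq_one_iff _).1 hx) (H24.slReindex e y)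

end Cfsg.Agent.S5163
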