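import Cfsg.Statements.S5164
import Cfsg.Agent.H23.Wr2
import Cfsg.Agent.H21.Alt

set_option autoImplicit false
open Cfsg

namespace Cfsg.Agent.S5164

open H18 Subgroup H23.Wr Equiv

/-- For n ≥ 6 and a prime p, a nontrivial Sylow p-subgroup of the alternating group of degree n is abelian if and only if n < p². -/
theorem result (n p : ℕ) (hn : 6 ≤ n) [Fact p.Prime] (S : Sylow p (alternatingGroup (Fin n))) (hS : (S : Subgroup (alternatingGroup (Fin n))) ≠ ⊥) : IsMulCommutative S ↔ n < p ^ 2 := by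
  have hp : p.Prime := Fact.out
  have hP := hall_sylow_top hp S
  refine ⟨fun h => by_contra fun hn' => ?_, fun h => ?_⟩
  · obtain ⟨A, hA⟩ := exists_good p (n / p) (Fin (n / p)) (by simp)
    have hβ : Fintype.card (Fin (n % p)) < p := by simpa using Nat.mod_lt _ hp.pos
    have hm : p ≤ n / p := (Nat.le_div_iff_mul_le hp.pos).2 (by rw [← sq]; omega)
    have h3 : 3 ≤ Fintype.card (Fin (n / p)) := by
      rcases hp.eq_two_or_odd' with rfl | h
      · simp; omega
      · have := hp.two_le; obtain ⟨k, rfl⟩ := h; simp; omega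
    obtain ⟨R, hR⟩ := (syl_alt hβ hA).exists_sylow
    let e := (Fintype.equivOfCardEq ((card_model (p := p) n).trans (Fintype.card_fin n).symm)).altCongrHom
    obtain ⟨c, -, hc⟩ := sylow_le_cj hp hP (hall_sylow_top hp (R.mapSurjective (f := e.toMonoidHom) e.surjective)).pi le_top
    have h4 : Abel (cj c⁻¹ S) := (abel_of_comm h).cj _
    obtain ⟨σ, hσ, h5⟩ := exists_mem_ne_one' (H := A) fun e => by
      have := hA.card
      rw [e, card_bot, eq_comm, Nat.pow_eq_one, Nat.card_perm, Nat.card_eq_fintype_card, Fintype.card_fin] at this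
      exact (hp.factorization_pos_of_dvd (Nat.factorial_ne_zero _) (hp.dvd_factorial.2 hm)).ne' (this.resolve_left hp.ne_one)
    obtain ⟨x, hx⟩ : ∃ x, σ x ≠ x := by by_contra h; push Not at h; exact h5 (Equiv.ext h)
    obtain ⟨y, h6, h7⟩ := exists_third h3 x (σ x)
    have h8 : ∀ g (hg : g ∈ T p (Fin (n % p)) A ⊓ alternatingGroup _), e ⟨g, hg.2⟩ ∈ cj c⁻¹ S := fun g hg =>
      cj_le_iff.1 hc ⟨⟨g, hg.2⟩, by rw [hR]; exact hg, rfl⟩
    have h9 := comm_of_cent h4 (h8 _ ⟨δ_mem hσ, sign_δ_of (H20.pElt_of_mem hA.syl.pgroup hσ)⟩)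
      (h8 _ ⟨el_mem, el_pair_mem (x := x) (y := y) 1⟩)
    rw [← map_mul, ← map_mul] at h9
    have := congrArg Subtype.val (e.injective h9)
    simpa [h6.symm, h7.symm, hx] using DFunLike.congr_fun this (.inl (x, 0))
  · have := H21.abel_of_card_lt_sq hp (P := (S : Subgroup _).map (alternatingGroup (Fin n)).subtype)
      (by rw [PiGrp, H18.card_map_subtype]; exact hP.pi) (by simpa using h)
    exact ⟨⟨fun a b => Subtype.ext (Subtype.ext (comm_of_cent this ⟨_, a.2, rfl⟩ ⟨_, b.2, rfl⟩))⟩⟩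

end Cfsg.Agent.S5164
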