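import Cfsg.Statements.S5171
import Cfsg.Agent.H23.FCl
import Cfsg.Agent.H11.Symp
import Cfsg.Agent.H11.Mat

set_option autoImplicit false
open Cfsg

namespace Cfsg.Agent.S5171

open H11 H11.PForm Module

/-- For a finite field K of characteristic p and m ≥ 2, excluding the case m = 2 with K of two elements, the p-fusion system of the projective symplectic group PSp_{2m}(K) on a Sylow p-subgroup is simple. -/
theorem result {K : Type*} [Field K] [Fintype K] (p : ℕ) [Fact p.Prime] [CharP K p] (m : ℕ) (hm : 2 ≤ m) (hex : m = 2 → 3 ≤ Fintype.card K) (S : Sylow p (Cfsg.PSp m K)) : (Cfsg.groupFusionSystem (S : Subgroup (Cfsg.PSp m K))).IsSimple p := by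
  have hS := stdSymp_nondeg (F := K) m
  have hd := finrank_sum_fun (F := K) m
  have hE : ∀ {V : Type _} [AddCommGroup V] [Module K V] [FiniteDimensional K V] {T : PForm (sympP K) V},
      T.Nondeg → T.SIsom = ⊤ := fun {V} _ _ _ {T} h =>
    top_unique (h.symp_E_eq_top ▸ T.E_le_iff.2 fun u v a _ => det_eich T u v a)
  obtain ⟨e, f, H⟩ := hS.symp_exists_hyp (by omega)
  have hW := hS.restrict_perp H.nondeg
  have hd' := H.finrank_perp
  obtain ⟨e₂, f₂, H₂⟩ := hW.symp_exists_hyp (by omega)
  refine H23.FS.simple_form hS (fun _ _ => trivial) (by simp) (fun a _ ha B hB x _ => ?_) H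
    (e₂ := e₂) (f₂ := f₂) ⟨H₂.1, H₂.2, H₂.3⟩ e₂.2 f₂.2 (.inr ?_) ((hE hS).trans hS.symp_E_eq_top.symm)
    (hW.symp_E_eq_top ▸ le_top)
    ((QuotientGroup.mk' _).comp ((spEquiv m K).symm.toMonoidHom.comp (Subgroup.subtype _)))
    ((QuotientGroup.mk'_surjective _).comp ((spEquiv m K).symm.surjective.comp fun g => ⟨⟨g, hE hS ▸ trivial⟩, rfl⟩))
    (fun x hx => Subgroup.mem_center_iff.2 fun y => Subtype.ext ((spEquiv m K).symm.injective ?_)) S
  · obtain ⟨s, t, h⟩ := H23.FS.exists_sq_sub_sq (x / a)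
    have := B.sub_mem (hB s) (hB t)
    simp only [RingHom.id_apply] at this
    rwa [show s * a * s - t * a * t = x by rw [← div_mul_cancel₀ x ha, h]; ring] at this
  · by_cases h3 : 3 ≤ Fintype.card K
    · exact .inl (exists_ne_zero_ne_one (by rwa [Nat.card_eq_fintype_card]))
    obtain ⟨U, hU, hU2⟩ := hW.symp_exists_ts 2 (by omega)
    have : Module.Free K U := Module.Free.of_divisionRing K U
    let b := Module.finBasisOfFinrankEq K U hU2
    refine .inr ⟨(b 0).1, (b 0).1.2, (b 1).1, (b 1).1.2, hU.h_eq (b 0).2 (b 1).2, fun h => b.ne_zero 0 (Subtype.ext (Subtype.ext h)),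
      fun h => b.ne_zero 1 (Subtype.ext (Subtype.ext h)), fun h => ?_⟩
    have h1 : b 0 + b 1 = 0 := Subtype.ext (Subtype.ext h)
    have := congrArg (fun x => b.repr x 0) h1
    simp at this
  · have := Subgroup.mem_center_iff.1 ((QuotientGroup.eq_one_iff _).1 hx) ((spEquiv m K).symm y)
    simpa using this

end Cfsg.Agent.S5171
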