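import Cfsg.Statements.S5172
import Cfsg.Agent.H23.FCl
import Cfsg.Agent.H11.Unit
import Cfsg.Agent.H11.Mat

set_option autoImplicit false
open Cfsg

namespace Cfsg.Agent.S5172

open H11 H11.PForm Module

/-- For a finite field K with q² elements of characteristic p and n ≥ 4, the p-fusion system of the projective special unitary group PSU_n(q) (realised over K) on a Sylow p-subgroup is simple. -/
theorem result {K : Type*} [Field K] [Fintype K] (p q : ℕ) [Fact p.Prime] [CharP K p] (hK : Fintype.card K = q ^ 2) (n : ℕ) (hn : 4 ≤ n) (S : Sylow p (Cfsg.PSU n K q)) : (Cfsg.groupFusionSystem (S : Subgroup (Cfsg.PSU n K q))).IsSimple p := by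
  obtain ⟨σ, hq, hσ, hne⟩ := exists_frob hK
  have hS := stdUnit_nondeg hσ hne (Fin n)
  have hd : finrank K (Fin n → K) = n := by simp
  obtain ⟨e, f, H⟩ := hS.unit_exists_hyp hne (by omega)
  have hW := hS.restrict_perp H.nondeg
  have hd' := H.finrank_perp
  obtain ⟨e₂, f₂, H₂⟩ := hW.unit_exists_hyp hne (by omega)
  obtain ⟨a, ha0, ha⟩ := exists_mem_unit_Λ hσ hne
  refine H23.FS.simple_form hS (fun a h => mem_unitP_Λ.2 (by simpa using h)) (fun h => ha0 (by rwa [h] at ha))
    (fun a ha ha0 B hB x hx => ?_) H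
    (e₂ := e₂) (f₂ := f₂) ⟨H₂.1, H₂.2, H₂.3⟩ e₂.2 f₂.2 (.inl ?_) (H.unit_SIsom_eq_E hne hS)
    (H₂.unit_SIsom_eq_E hne hW).le
    ((QuotientGroup.mk' _).comp (suEquiv hσ hne hq n).symm.toMonoidHom)
    ((QuotientGroup.mk'_surjective _).comp (suEquiv hσ hne hq n).symm.surjective)
    (fun x hx => Subgroup.mem_center_iff.2 fun y => (suEquiv hσ hne hq n).symm.injective ?_) S
  · have h1 := mem_unitP_Λ.1 ha
    have h2 := mem_unitP_Λ.1 hx
    obtain ⟨c, hc⟩ := exists_norm_eq hσ hne (μ := x / a) (by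
      rw [map_div₀, eq_neg_of_add_eq_zero_right h1, eq_neg_of_add_eq_zero_right h2, neg_div_neg_eq])
    have := hB c
    rwa [show c * a * σ c = x by rw [← div_mul_cancel₀ x ha0, ← hc]; ring] at this
  · obtain ⟨d, hd⟩ := exists_σ_ne hne
    exact ⟨d, by simpa [sub_eq_zero] using hd.symm⟩
  · have := Subgroup.mem_center_iff.1 ((QuotientGroup.eq_one_iff _).1 hx) ((suEquiv hσ hne hq n).symm y)
    simpa using this

end Cfsg.Agent.S5172
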