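import Cfsg.Statements.S5311
import Cfsg.Agent.H20.Solv

set_option autoImplicit false
open Cfsg H20

namespace Cfsg.Agent.S5311

/-- The layer of a saturated fusion system F over a finite p-group S is characteristic in F: for every automorphism α of S that is an automorphism of F (α and its inverse are morphisms from F to F) and every layer E of F over T, α carries T onto T and, for every map φ of E with source P, the map induced by α on α(P) (that is, α ∘ φ ∘ α⁻¹) is a map of E. -/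
theorem result {Ω : Type*} [Group Ω] {S : Subgroup Ω} [Finite S] (p : ℕ) [Fact p.Prime] (hS : IsPGroup p S) (F : Cfsg.FusionSystem S) (hF : F.IsSaturated p)
    (α : ↥S ≃* ↥S) (hα : F.IsMorphism F (S.subtype.comp α.toMonoidHom))
    (hα' : F.IsMorphism F (S.subtype.comp α.symm.toMonoidHom))
    {T : Subgroup Ω} (E : Cfsg.FusionSystem T) (hE : E.IsLayerOf F p) :
    Cfsg.FusionSystem.imageAlong (S.subtype.comp α.toMonoidHom) T = T ∧
      ∀ (P : Subgroup Ω) (φ : ↥P →* Ω), φ ∈ E.Hom P →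
        ∀ φ' : ↥(Cfsg.FusionSystem.imageAlong (S.subtype.comp α.toMonoidHom) P) →* Ω,
          Cfsg.FusionSystem.InducedAlong (S.subtype.comp α.toMonoidHom) φ φ' →
            φ' ∈ E.Hom (Cfsg.FusionSystem.imageAlong (S.subtype.comp α.toMonoidHom) P) := by
  obtain ⟨f, -, e⟩ := exists_fun_of_hom (S.subtype.comp α.toMonoidHom)
  obtain ⟨k, -, e'⟩ := exists_fun_of_hom (S.subtype.comp α.symm.toMonoidHom)
  have h1 := (mph_iff e).1 hα
  have h2 := (mph_iff e').1 hα'
  have hkf : ∀ x ∈ S, k (f x) = x := fun x hx => by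
    rw [← e ⟨x, hx⟩]
    exact (e' (α ⟨x, hx⟩)).symm.trans (by simp)
  have hfk : ∀ x ∈ S, f (k x) = x := fun x hx => by
    rw [← e' ⟨x, hx⟩]
    exact (e (α.symm ⟨x, hx⟩)).symm.trans (by simp)
  have hi : InjOn' S f := ⟨h1.hom, fun x hx h => by rw [← hkf x hx, h, h2.hom.one]⟩
  have hs : img S f = S := le_antisymm h1.le fun x hx =>
    hfk x hx ▸ mem_img_of_mem f (h2.le (mem_img_of_mem k hx))
  have h3 : Iso F F f := ⟨hi, hs, fun P σ σ' hP hm r => ⟨fun hσ => h1.mor hσ r, fun hσ => by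
    have := h2.mor hσ (hi.rl_symm hkf hP hm r)
    rwa [hi.img_img_inv hkf hP] at this⟩⟩
  have key : ∀ f k : Ω → Ω, Iso F F f → (∀ x ∈ S, k (f x) = x) → ∀ E' : FusionSystem (img T f),
      Iso E E' f → Sub E E' := fun f k h hk E' h' => by
    have hT := (nrm_inv hE.1).le
    have := fin_of_le hT
    refine sub_of_isSub (hE.2.2 _ E' (h.nrm hS h' hE.1) fun U C hC => ?_)
    have hU := subn_le hC.1
    have := fin_of_le hU
    obtain ⟨C', h4⟩ := exists_iso C ((h.symm hk).inj.mono hU) rfl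
    have h5 := sub_of_isSub (hE.2.1 _ C' ((h.symm hk).comp_of hS h4 hC))
    have := h4.finite
    exact sub_iff.2 (h'.sub ((h4.symm fun x hx => h.inv_apply hk x (hU hx))) h5)
  have hT := (nrm_inv hE.1).le
  have := fin_of_le hT
  obtain ⟨E₁, h4⟩ := exists_iso E (hi.mono hT) rfl
  have := h4.finite
  have e1 : T = img T f := eq_of_le_of_card_le (key f k h3 hkf E₁ h4).le (hi.card_img hT).le
  refine ⟨(imageAlong_eq e hT).trans e1.symm, fun P φ hφ φ' hφ' => ?_⟩
  obtain ⟨σ, hσ, e2⟩ := exists_mor hφ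
  have hP := hσ.le.trans hT
  have e3 := imageAlong_eq e hP
  obtain ⟨E₂, h5⟩ := exists_iso E ((h3.symm hkf).inj.mono hT) rfl
  have h6 := key k f (h3.symm hkf) hfk E₂ h5
  have := h5.finite
  have h7 := h5.symm fun x hx => hfk x (hT hx)
  obtain ⟨σ', h8, h9⟩ := h7.map (h6 _ _ hσ)
  refine (e3 ▸ h8 : Mor E (FusionSystem.imageAlong (S.subtype.comp α.toMonoidHom) P) σ').mem_hom ?_
  obtain ⟨a, b, c, d⟩ := hφ'
  rintro ⟨y, hy⟩
  obtain ⟨x, hx, rfl⟩ := (h1.hom.mono hP).mem_img.1 (e3 ▸ hy)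
  have := d ⟨x, hx⟩
  simp only [e] at this
  rw [this, h9 x hx, e2]

end Cfsg.Agent.S5311
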