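import Cfsg.Statements.S5345
import Cfsg.Agent.H28.G1

set_option autoImplicit false
open Cfsg

namespace Cfsg.Agent.S5345
open H28


/-- Let D be a conjugation-invariant generating set of 3-transpositions of a finite group G and T a Sylow 2-subgroup of G. Then the members of D lying in T generate an abelian subgroup, and their number is the width of D (the largest number of pairwise commuting members of D). -/
theorem result {G : Type*} [Group G] [Finite G] {D : Set G} (hD : Cfsg.IsThreeTranspositionGroup D) (T : Sylow 2 G) : IsMulCommutative (Subgroup.closure {d : G | d ∈ D ∧ d ∈ T}) ∧ {d : G | d ∈ D ∧ d ∈ T}.ncard = Cfsg.commutingWidth D := by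
  have cm : ∀ (T : Sylow 2 G), ∀ a ∈ {d : G | d ∈ D ∧ d ∈ T}, ∀ b ∈ {d : G | d ∈ D ∧ d ∈ T}, Commute a b := by
    intro T a ha b hb
    obtain ⟨k, hk⟩ := T.2 ⟨a * b, T.1.mul_mem ha.2 hb.2⟩
    exact t3_comm_of_pgroup Nat.prime_two (by decide) hD.1 ha.1 hb.1 (k := k) (by simpa using congrArg Subtype.val hk)
  refine ⟨⟨⟨fun x y => Subtype.ext (comm_of_closure (cm T) x.2 y.2).eq⟩⟩, le_antisymm (le_width (fun _ h => h.1) (cm T)) ?_⟩
  obtain ⟨E, h1, h2, h3⟩ := exists_width D
  have hp : IsPGroup 2 (Subgroup.closure E) :=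
    pgroup_closure_of_comm (fun a ha => by rw [pow_two]; exact t3_sq hD.1 (h1 ha)) h2
  obtain ⟨S, hS⟩ := hp.exists_le_sylow
  obtain ⟨g, rfl⟩ := MulAction.exists_smul_eq G S T
  rw [← h3, ← Set.ncard_image_of_injective E (f := fun x => g * x * g⁻¹) (fun x y h => by simpa using h)]
  refine Set.ncard_le_ncard ?_ (Set.toFinite _)
  rintro _ ⟨x, hx, rfl⟩
  refine ⟨hD.2.1 g x (h1 hx), ?_⟩
  have : x ∈ (S : Subgroup G) := hS (Subgroup.subset_closure hx)
  exact Subgroup.smul_mem_pointwise_smul x (MulAut.conj g) S this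

end Cfsg.Agent.S5345
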