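import Cfsg.Statements.S5347
import Cfsg.Agent.H28.G1

set_option autoImplicit false
open Cfsg

namespace Cfsg.Agent.S5347
open H28


/-- Let D be a conjugation-invariant generating set of 3-transpositions of a finite group G, p a prime bigger than 3, and P a p-subgroup of G. If a member d of D normalizes P then d centralizes P. -/
theorem result {G : Type*} [Group G] [Finite G] {D : Set G} (hD : Cfsg.IsThreeTranspositionGroup D) {p : ℕ} (hp : p.Prime) (hp3 : 3 < p) (P : Subgroup G) (hP : IsPGroup p P) {d : G} (hd : d ∈ D) (hnorm : d ∈ Subgroup.normalizer (P : Set G)) : ∀ x ∈ P, Commute d x := by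
  intro x hx
  have h1 : d * x * d⁻¹ * x⁻¹ ∈ P := P.mul_mem ((Subgroup.mem_normalizer_iff.1 hnorm x).1 hx) (P.inv_mem hx)
  obtain ⟨k, hk⟩ := hP ⟨_, h1⟩
  have hk' : (d * (x * d * x⁻¹)) ^ p ^ k = 1 := by
    have : (d * x * d⁻¹ * x⁻¹) ^ p ^ k = 1 := by simpa using congrArg Subtype.val hk
    rw [t3_inv hD.1 hd] at this
    simpa [mul_assoc] using this
  have hc := t3_comm_of_pgroup hp (by omega) hD.1 hd (hD.2.1 x d hd) hk'
  have := t3_eq_of_odd hD.1 hd (hD.2.1 x d hd) hc ((hp.odd_of_ne_two (by omega)).pow) hk'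
  show d * x = x * d
  conv_lhs => rw [this]
  group

end Cfsg.Agent.S5347
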