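import Cfsg.Statements.S5363
import Cfsg.Agent.H28.Dih

set_option autoImplicit false
open Cfsg

namespace Cfsg.Agent.S5363
open H28
open H28


/-- Let D be a conjugation-invariant set of involutions of a finite group G. Then every product of two members of D has odd order or order 2 if and only if, for every a in D and every b in D different from a and commuting with a, the members of D commuting with a b are exactly those commuting with both a and b. -/
theorem result {G : Type*} [Group G] [Finite G] {D : Set G} (hinv : ∀ d ∈ D, orderOf d = 2) (hconj : ∀ g : G, ∀ d ∈ D, g * d * g⁻¹ ∈ D) : (∀ a ∈ D, ∀ b ∈ D, Odd (orderOf (a * b)) ∨ orderOf (a * b) = 2) ↔ ∀ a ∈ D, ∀ b ∈ D, b ≠ a → Commute a b → {y : G | y ∈ D ∧ Commute (a * b) y} = {y : G | y ∈ D ∧ Commute a y} ∩ {y : G | y ∈ D ∧ Commute b y} := by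
  have s : ∀ d ∈ D, d * d = 1 := fun d hd => sq_of_ord (hinv d hd)
  constructor
  · have k : ∀ a ∈ D, ∀ b ∈ D, ∀ y ∈ D, b ≠ a → Commute a b → Commute (a * b) y →
        (∀ a ∈ D, ∀ b ∈ D, Odd (orderOf (a * b)) ∨ orderOf (a * b) = 2) → Commute a y := fun a ha b hb y hy n c h H => by
      have z : a * b * (a * b) = 1 := by rw [← pow_two, sq_of_comm (s a ha) (s b hb) c]
      have c' : Commute (y * a) (a * b) := h.symm.mul_left ((Commute.refl a).mul_right c)
      have e : y * b = y * a * (a * b) := by rw [mul_assoc, canc (s a ha)]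
      refine (comm_of_sq (s y hy) (s a ha) ?_).symm
      rcases H y hy a ha with o | o
      · rcases H y hy b hb with o' | o'
        · have := congrArg (· ^ orderOf (y * a)) (pow_orderOf_eq_one (y * b))
          rw [← pow_mul, e, c'.mul_pow, mul_comm, pow_mul, pow_orderOf_eq_one, one_pow, one_mul, one_pow,
            pow_odd_of_sq z (o.mul (e ▸ o')), mul_eq_one_iff_inv_eq, inv_of_sq (s a ha)] at this
          exact (n this.symm).elim
        · have := pow_orderOf_eq_one (y * b)
          rwa [o', e, c'.mul_pow, pow_two (a * b), z, mul_one] at this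
      · exact o ▸ pow_orderOf_eq_one _
    intro H a ha b hb n c
    ext y
    exact ⟨fun h => ⟨⟨h.1, k a ha b hb y h.1 n c h.2 H⟩, h.1, k b hb a ha y h.1 n.symm c.symm (c.eq ▸ h.2) H⟩,
      fun h => ⟨h.1.1, h.1.2.mul_left h.2.2⟩⟩
  intro H a ha b hb
  refine (Nat.even_or_odd' _).elim fun m h => h.elim (fun h => .inr ?_) fun h => .inl ⟨m, h⟩
  have m0 : m ≠ 0 := by rintro rfl; exact (orderOf_pos _).ne' h
  obtain ⟨h1, -, h3, h4⟩ := cen_inv (s a ha) (s b hb) h m0
  have : a * (a * b) ^ m ∈ D := by
    obtain ⟨k, rfl | rfl⟩ := Nat.even_or_odd' m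
    · rw [refl_even (s a ha) (s b hb)]; exact hconj _ _ ha
    · rw [refl_odd (s a ha) (s b hb)]; exact hconj _ _ hb
  have := (H a ha _ this (by simpa using h1) ((Commute.refl a).mul_right h3)).subset
    (show b ∈ _ from ⟨hb, by rw [canc (s a ha)]; exact h4.symm⟩)
  have := Nat.le_of_dvd two_pos (orderOf_dvd_of_pow_eq_one (sq_of_comm (s a ha) (s b hb) this.1.2))
  omega

end Cfsg.Agent.S5363
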