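import Cfsg.Statements.S5364
import Cfsg.Agent.H28.Dih

set_option autoImplicit false
open Cfsg

namespace Cfsg.Agent.S5364
open H28
open H28


/-- Let D be a conjugation-invariant set of involutions of a finite group G and t an involution in the centre of G such that d t does not lie in D for any d in D. If the images of the members of D in G modulo the subgroup generated by t satisfy the 3-transposition order conditions (each has order 2 and any two have product of order at most 3), then so do the members of D. -/
theorem result {G : Type*} [Group G] [Finite G] {D : Set G} (hinv : ∀ d ∈ D, orderOf d = 2) (hconj : ∀ g : G, ∀ d ∈ D, g * d * g⁻¹ ∈ D) (t : G) (ht : orderOf t = 2) (htZ : t ∈ Subgroup.center G) (hDt : ∀ d ∈ D, d * t ∉ D) [(Subgroup.zpowers t).Normal] (himg : Cfsg.IsThreeTranspositionSet ((QuotientGroup.mk : G → G ⧸ Subgroup.zpowers t) '' D)) : Cfsg.IsThreeTranspositionSet D := by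
  have s : ∀ d ∈ D, d * d = 1 := fun d hd => sq_of_ord (hinv d hd)
  have c : ∀ d ∈ D, ∀ e ∈ D, d * e * d ∈ D := fun d hd e he => by simpa [inv_of_sq (s d hd)] using hconj d e he
  have z : ∀ x : G, (x : G ⧸ Subgroup.zpowers t) = 1 → x = 1 ∨ x = t := fun x h => by
    obtain ⟨k, rfl⟩ := mem_powers_iff_mem_zpowers.2 ((QuotientGroup.eq_one_iff x).1 h)
    obtain ⟨k, rfl | rfl⟩ := Nat.even_or_odd' k <;> simp [pow_succ, pow_mul, sq_of_ord ht]
  refine ⟨hinv, fun d hd e he => (himg.2 _ ⟨d, hd, rfl⟩ _ ⟨e, he, rfl⟩).imp (fun h => ?_) fun h => ?_⟩ <;>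
    refine (z _ h).resolve_right fun k => ?_
  · refine hDt e he ?_
    rw [Subgroup.mem_center_iff.1 htZ e, ← k]
    simpa [pow_two, mul_assoc, s e he] using c d hd e he
  · refine hDt _ (c e he d hd) ?_
    rw [Subgroup.mem_center_iff.1 htZ, ← k]
    simpa [pow_succ, mul_assoc, canc (s e he), canc (s d hd), s e he] using c d hd e he

end Cfsg.Agent.S5364
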