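import Cfsg.Statements.S5366
import Cfsg.Agent.H28.FS
import Cfsg.Agent.H28.T3

set_option autoImplicit false
open Cfsg

namespace Cfsg.Agent.S5366
open H28
open H28 H28.FS LineSystem


/-- Let L be a nondegenerate Fischer space on the point type X (every point on a line). Then for every point x the map t(x) — sending a point collinear with x to the third point of their common line and fixing every other point — is a permutation of X of order 2 and an automorphism of the line system; and the set of all t(x) satisfies the 3-transposition order conditions in the permutation group of X (any two have product of order at most 3). -/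
theorem result {X : Type*} (L : Set (Set X)) (hL : Cfsg.IsFischerSpace L) (hnd : Cfsg.LineSystem.IsNondegenerate L) : (∀ x : X, ∃ σ : Equiv.Perm X, ⇑σ = Cfsg.LineSystem.lineMap L x ∧ orderOf σ = 2 ∧ Cfsg.LineSystem.IsIso L L σ) ∧ Cfsg.IsThreeTranspositionSet {σ : Equiv.Perm X | ∃ x : X, ⇑σ = Cfsg.LineSystem.lineMap L x} := by
  have i : ∀ x, Function.Involutive (lineMap L x) := fun x y => Tm.eq hL.1 ((tm L x y).elim (fun h => .inl h.swap)
    fun h => by rw [h.1]; exact .inr ⟨rfl, h.2⟩)
  let t : X → Equiv.Perm X := fun x => (i x).toPerm _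
  have s : ∀ x, t x * t x = 1 := fun x => Equiv.ext (i x)
  have a : ∀ x l, l ∈ L → t x '' l ∈ L := fun x l hl => by
    obtain ⟨p, hp⟩ := Set.nonempty_of_ncard_ne_zero (s := l) (by rw [hL.2.1 l hl]; decide)
    obtain ⟨q, r, rfl, h⟩ := exists_R hL.2.1 hl hp
    simpa [Set.image_insert_eq, t] using (au hL x p q r h _ (tm ..) _ (tm ..) _ (tm ..)).2.2.2
  have b : ∀ x, IsIso L L (t x) := fun x l => ⟨a x l, fun h => by
    simpa [Set.image_image, t, i x _] using a x _ h⟩
  have o : ∀ x, orderOf (t x) = 2 := fun x => ord_of_sq (s x) fun e => by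
    obtain ⟨l, hl, hx⟩ := hnd x
    obtain ⟨y, z, -, h⟩ := exists_R hL.2.1 hl hx
    exact h.2.1 ((Tm.eq hL.1 (.inl h)).symm.trans (DFunLike.congr_fun e y))
  have c : ∀ x y, t x * t y * t x = t (t x y) := fun x y => Equiv.ext fun z => by
    obtain ⟨z, rfl⟩ := (t x).surjective z
    exact (congrArg (fun w => t x (t y w)) (i x z)).trans (Tm.eq hL.1 ((Tm_iso (b x)).2 (tm ..))).symm
  have e : ∀ σ : Equiv.Perm X, ∀ x, ⇑σ = lineMap L x → σ = t x := fun σ x h => DFunLike.coe_injective h
  refine ⟨fun x => ⟨t x, rfl, o x, b x⟩, ?_, ?_⟩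
  · rintro σ ⟨x, h⟩
    rw [e σ x h, o]
  rintro σ ⟨x, h⟩ τ ⟨y, k⟩
  rw [e σ x h, e τ y k]
  rcases tm L x y with h | h
  · exact .inr (cube_of_braid (s x) (s y) ((c x y).trans ((congrArg t (Tm.eq hL.1 (.inl h.symm))).symm.trans (c y x).symm)))
  · exact .inl (sq_of_comm (s x) (s y) ((comm_iff_conj (s x)).2 ((c x y).trans (congrArg t h.1))))

end Cfsg.Agent.S5366
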