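import Cfsg.Statements.S5387
import Cfsg.Agent.S2088
import Cfsg.Agent.H21.SchurCover


set_option autoImplicit false
set_option linter.unusedVariables false
open Cfsg

namespace Cfsg.Agent.S5387

theorem key {E Q L : Type*} [Group E] [Group Q] [Group L] [Finite L] (π : E →* Q) (p : Group.IsPerfect E)
    (s : Function.Surjective π) (t : HasCyclicSchurMultiplier E 1)
    (ρ : Multiplicative (ZMod 3 × ZMod 4 × ZMod 4) →* π.ker) (hρ : Function.Surjective ρ) (h : Group.IsPerfect L)
    (hc : Nat.card (Subgroup.center L) = 4) (he : ∀ x ∈ Subgroup.center L, x * x = 1)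
    (e : L ⧸ Subgroup.center L ≃* Q) : ∃ η : E →* L, Function.Surjective η ∧
      η.ker = (powMonoidHom 2).range.map (π.ker.subtype.comp ρ) := by
  let ξ := e.toMonoidHom.comp (QuotientGroup.mk' (Subgroup.center L))
  have k : ξ.ker = Subgroup.center L :=
    (MonoidHom.ker_comp_of_injective _ _ e.injective).trans (QuotientGroup.ker_mk' _)
  obtain ⟨η, hη⟩ := H21.exists_lift_of_perfect_of_trivial p t π ξ
    (e.surjective.comp (QuotientGroup.mk'_surjective _)) k.le
  have sη : Function.Surjective η := H21.surjective_of_stem k.le (fun _ _ => Group.IsPerfect.mem_commutator) (hη ▸ s)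
  have a : ∀ x, π x = ξ (η x) := fun x => by rw [← hη]; rfl
  let f := η.comp (π.ker.subtype.comp ρ)
  have r : f.range = Subgroup.center L := by
    rw [← k]
    refine le_antisymm ?_ fun y hy => ?_
    · rintro _ ⟨x, rfl⟩
      exact (a _).symm.trans (ρ x).2
    · obtain ⟨x, rfl⟩ := sη y
      obtain ⟨z, hz⟩ := hρ ⟨x, (a x).trans hy⟩
      exact ⟨z, congrArg (fun w : π.ker => η w) hz⟩
  have i : f.ker.index = 4 := by rw [Subgroup.index_ker, r, hc]
  have i2 : (powMonoidHom 2 : Multiplicative (ZMod 3 × ZMod 4 × ZMod 4) →* _).range.index = 4 := by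
    have c := Subgroup.card_mul_index (powMonoidHom 2 : Multiplicative (ZMod 3 × ZMod 4 × ZMod 4) →* _).ker
    have c1 := Subgroup.card_mul_index (powMonoidHom 2 : Multiplicative (ZMod 3 × ZMod 4 × ZMod 4) →* _).range
    rw [Subgroup.index_ker] at c
    have c2 : Nat.card (powMonoidHom 2 : Multiplicative (ZMod 3 × ZMod 4 × ZMod 4) →* _).ker = 4 := by
      exact (Nat.card_eq_fintype_card (α := {x : Multiplicative (ZMod 3 × ZMod 4 × ZMod 4) // x ^ 2 = 1})).trans
        (show _ = 4 by decide +kernel)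
    rw [c2, mul_comm, ← c1] at c
    exact (Nat.eq_of_mul_eq_mul_left Nat.card_pos c).symm
  have l : (powMonoidHom 2).range ≤ f.ker := by
    rintro _ ⟨x, rfl⟩
    exact (map_pow f x 2).trans ((sq _).trans (he _ (r.le ⟨x, rfl⟩)))
  have q : (powMonoidHom 2).range = f.ker := by
    have := Subgroup.relIndex_mul_index l
    rw [i, i2] at this
    exact le_antisymm l (Subgroup.relIndex_eq_one.1 (by omega))
  refine ⟨η, sη, le_antisymm (fun x hx => ?_) ?_⟩
  · obtain ⟨z, hz⟩ := hρ ⟨x, (a x).trans (by rw [show η x = 1 from hx, map_one])⟩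
    have w : (π.ker.subtype.comp ρ) z = x := congrArg Subtype.val hz
    exact ⟨z, q.ge (show η _ = 1 by rw [w]; exact hx), w⟩
  · rintro _ ⟨z, hz, rfl⟩
    exact q.le hz

/-- Up to isomorphism there is at most one quasisimple group whose centre is elementary abelian of order 4 and whose central quotient is isomorphic to the projective special linear group of dimension 3 over the field with four elements: any two such groups are isomorphic. -/
theorem result {L₁ L₂ : Type*} [Group L₁] [Finite L₁] [Group L₂] [Finite L₂] (F : Type) [Field F] [Fintype F] (hF : Fintype.card F = 4) (h₁ : Cfsg.IsQuasisimple L₁) (h₂ : Cfsg.IsQuasisimple L₂) (hc₁ : Nat.card (Subgroup.center L₁) = 4) (hc₂ : Nat.card (Subgroup.center L₂) = 4) (he₁ : ∀ x ∈ Subgroup.center L₁, x * x = 1) (he₂ : ∀ x ∈ Subgroup.center L₂, x * x = 1) (e₁ : L₁ ⧸ Subgroup.center L₁ ≃* Matrix.ProjectiveSpecialLinearGroup (Fin 3) F) (e₂ : L₂ ⧸ Subgroup.center L₂ ≃* Matrix.ProjectiveSpecialLinearGroup (Fin 3) F) : Nonempty (L₁ ≃* L₂)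 := by
  have hA := Cfsg.Agent.S2088.result hF
  have hQ : Group.IsPerfect (Matrix.ProjectiveSpecialLinearGroup (Fin 3) F) :=
    have := h₁.1
    Group.IsPerfect.ofSurjective (f := e₁.toMonoidHom.comp (QuotientGroup.mk' _))
      (e₁.surjective.comp (QuotientGroup.mk'_surjective _))
  obtain ⟨E, _, _, π, p, s, c, u⟩ := H21.exists_universal_central_extension.{0, 0} hQ
  have t := (H21.universal_iff_trivial_multiplier p π c s).1 fun X _ ξ a b => (u X ξ a b).exists
  obtain ⟨ρ, hρ⟩ := H21.schur_surj_stem hA π ⟨s, c, fun _ _ => Group.IsPerfect.mem_commutator⟩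
  obtain ⟨η₁, s₁, k₁⟩ := key π p s t ρ hρ h₁.1 hc₁ he₁ e₁
  obtain ⟨η₂, s₂, k₂⟩ := key π p s t ρ hρ h₂.1 hc₂ he₂ e₂
  exact ⟨(QuotientGroup.quotientKerEquivOfSurjective η₁ s₁).symm.trans ((QuotientGroup.quotientMulEquivOfEq
    (k₁.trans k₂.symm)).trans (QuotientGroup.quotientKerEquivOfSurjective η₂ s₂))⟩

end Cfsg.Agent.S5387
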