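import Cfsg.Statements.S5388
import Cfsg.Agent.H28.CzB

set_option autoImplicit false
open Cfsg

namespace Cfsg.Agent.S5388
open H28
section
open H28.Cz H14 H18 MulAction Subgroup
open scoped commutatorElement Pointwise

noncomputable def al : C1(ε) →* Spor.Co1 := (QuotientGroup.mk' _).comp (Subgroup.subtype _)

theorem al_apply (g : C1(ε)) : al g = (g.1 : Spor.Co1) := rfl

theorem mk_neg (g : Co0) : ((g * negOne : Co0) : Spor.Co1) = g :=
  (mk_eq_mk_Co1.2 (Or.inr rfl)).symm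

theorem zp {g : Co0} (h : g = 1 ∨ g = ε ∨ g = ε * negOne ∨ g = negOne) :
    (g : Spor.Co1) ∈ zpowers (ε : Spor.Co1) := by
  rcases h with rfl | rfl | rfl | rfl
  · exact one_mem _
  · exact mem_zpowers _
  · rw [mk_neg]; exact mem_zpowers _
  · rw [← one_mul negOne, mk_neg]; exact one_mem _

theorem memR {x : Spor.Co1} : x ∈ (K.subgroupOf C1(ε)).map al ↔ ∃ k ∈ K, (k : Spor.Co1) = x :=
  ⟨fun ⟨k, hk, e⟩ => ⟨k.1, hk, e⟩, fun ⟨k, hk, e⟩ => ⟨⟨k, K_le_C hk⟩, hk, e⟩⟩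

theorem comm_of {p : C1(ε)} (h : ∀ r ∈ K.subgroupOf C1(ε), al ⁅p, r⁆ = 1) :
    ∀ k ∈ K, p.1 * k = k * p.1 := by
  intro k hk
  have h1 : ((1 : Co0) : Spor.Co1) = (⁅p.1, k⁆ : Co0) := (h ⟨k, K_le_C hk⟩ hk).symm
  rcases mk_eq_mk_Co1.1 h1 with e | e
  · exact commutatorElement_eq_one_iff_mul_comm.1 e
  · refine absurd (?_ : negOne ∈ K) negOne_not_mem
    rw [one_mul] at e
    rw [← e]
    intro q hq
    rw [commutatorElement_def, mul_smul, mul_smul, mul_smul, K.inv_mem hk q hq,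
      K_fix hk (smul_mem_Lm (inv_mem p.2) (fr_mem hq)), smul_inv_smul]

noncomputable def be : C1(ε) →* Om := ρ.codRestrict _ fun g => range_ρ.le ⟨g, rfl⟩

theorem be_one (p : C1(ε)) : be p = 1 ↔ p.1 ∈ K ∨ p.1 * negOne ∈ K :=
  Subtype.ext_iff.trans ker_ρ

theorem hεK : ε * negOne ∈ K := by rw [ε_neg]; exact sgn_mem_K ocG disjoint_compl_left

theorem a1 : al.range = C1((ε : Spor.Co1)) := by
  ext x
  constructor
  · rintro ⟨g, rfl⟩
    exact mem_centralizer_singleton_iff.2 (congrArg (QuotientGroup.mk (s := center Co0))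
      (mem_centralizer_singleton_iff.1 g.2))
  · intro hx
    obtain ⟨g, rfl⟩ := QuotientGroup.mk_surjective x
    have h1 : (ε : Spor.Co1) = (g * ε * g⁻¹ : Co0) := by
      rw [QuotientGroup.mk_mul, QuotientGroup.mk_mul, mem_centralizer_singleton_iff.1 hx]; simp
    rcases mk_eq_mk_Co1.1 h1 with e | e
    · exact ⟨⟨g, mem_centralizer_singleton_iff.2 (mul_inv_eq_iff_eq_mul.1 e)⟩, rfl⟩
    · have := tr_conj g ε
      rw [e, tr_negε, tr_ε] at this
      norm_num at this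

theorem a2 : Function.Surjective be := fun t => by
  obtain ⟨g, hg⟩ := range_ρ.ge t.2
  exact ⟨g, Subtype.ext hg⟩

theorem a3 (p : C1(ε)) : be p = 1 ↔ al p ∈ (K.subgroupOf C1(ε)).map al := by
  rw [be_one, memR]
  constructor
  · rintro (h | h)
    · exact ⟨_, h, rfl⟩
    · exact ⟨_, h, mk_neg _⟩
  · rintro ⟨k, hk, e⟩
    rcases (mk_eq_mk_Co1 (h := p.1)).1 e with e | e
    · exact Or.inl (by rw [e]; exact hk)
    · exact Or.inr (by rw [e, mul_assoc, H14.negOne_sq, mul_one]; exact hk)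

theorem a4 : orderOf (ε : Spor.Co1) = 2 := by
  refine orderOf_eq_prime (by rw [sq, ← QuotientGroup.mk_mul, ε_sq]; rfl) fun e => ?_
  have h1 := tr_ε
  rcases mk_eq_mk_Co1.1 (show ((1 : Co0) : Spor.Co1) = ε from e.symm) with e | e
  · rw [e, ← sgn_empty, tr_sgn] at h1; norm_num at h1
  · rw [e, one_mul, negOne, tr_sgn, Finset.card_univ, card_golayPt] at h1; norm_num at h1

theorem a5 : ∀ x ∈ K.subgroupOf C1(ε), ∀ y ∈ K.subgroupOf C1(ε),
    al ⁅x, y⁆ ∈ zpowers (ε : Spor.Co1) := by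
  intro x hx y hy
  have hs : ∀ k ∈ K.subgroupOf C1(ε), al (k * k) ∈ zpowers (ε : Spor.Co1) := fun k hk =>
    zp ((sq_K hk).imp id fun e => Or.inr (Or.inl e))
  rw [show ⁅x, y⁆ = (x * x) * ((x⁻¹ * y) * (x⁻¹ * y)) * (y⁻¹ * y⁻¹) by
    rw [commutatorElement_def]; group, map_mul, map_mul]
  exact mul_mem (mul_mem (hs x hx) (hs _ (mul_mem (inv_mem hx) hy))) (hs _ (inv_mem hy))

theorem a6 : Nat.card ((K.subgroupOf C1(ε)).map al) = 2 ^ (2 * 4 + 1) := by
  have : Function.Injective (al.comp (K.subgroupOf C1(ε)).subtype) := by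
    refine (injective_iff_map_eq_one _).2 fun k hk => ?_
    rcases mk_eq_mk_Co1.1 (show ((1 : Co0) : Spor.Co1) = k.1.1 from hk.symm) with e | e
    · exact Subtype.ext (Subtype.ext e)
    · exact absurd (by rw [← one_mul negOne, ← e]; exact k.2) negOne_not_mem
  rw [← range_subtype (K.subgroupOf C1(ε)), ← MonoidHom.range_comp, ← Nat.card_congr (MonoidHom.ofInjective this).toEquiv,
    Nat.card_congr (subgroupOfEquivOfLe K_le_C).toEquiv, card_K]
  norm_num

theorem a7 (N : Subgroup Om) (hN : N.Normal) (h2 : IsPGroup 2 N) : N = ⊥ :=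
  haveI := simple_Om
  eq_bot_of_simple card_Om.1 (by norm_num) Nat.prime_three (by norm_num) (by norm_num) N h2

theorem a8 (p : C1(ε)) (h : ∀ r ∈ K.subgroupOf C1(ε), al ⁅p, r⁆ = 1) : be p = 1 := by
  rw [be_one]
  rcases cen_K (comm_of h) with e | e | e | e <;> rw [e]
  · exact Or.inl (one_mem _)
  · exact Or.inr hεK
  · exact Or.inl hεK
  · exact Or.inr (by rw [H14.negOne_sq]; exact one_mem _)

theorem a9 : ∃ g : Spor.Co1, g * ε * g⁻¹ ∈ (K.subgroupOf C1(ε)).map al ∧ g * ε * g⁻¹ ≠ ε := by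
  have ho : bset 0x6c0710 ∈ octads := bset_mem_octads (by decide +kernel)
  obtain ⟨m, hm⟩ := octad_trans o0_mem ho
  have h1 : permH m * ε * (permH m)⁻¹ = sgn _ ho.1 := by
    rw [ε, ← sgn_smul]; exact sgn_congr _ _ hm
  have h2 : ((permH m : Co0) : Spor.Co1) * ε * ((permH m : Co0) : Spor.Co1)⁻¹ =
      (sgn _ ho.1 : Co0) := by rw [← h1]; rfl
  refine ⟨(permH m : Co0), ?_, ?_⟩
  · rw [h2]
    exact memR.2 ⟨_, sgn_mem_K ho.1 ((disj_bset _).2 (by decide +kernel)), rfl⟩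
  · rw [h2]
    intro e
    rcases mk_eq_mk_Co1.1 e.symm with e | e
    · exact absurd (sgn_inj (hd := oG) e) (by decide +kernel)
    · rw [ε_neg] at e
      exact absurd (sgn_inj e) (by decide +kernel)

theorem main : ∃ (Q : Subgroup C1((ε : Spor.Co1))) (_ : Q.Normal),
    IsExtraspecialCentralizerSetting (ε : Spor.Co1) Q 4 ∧
    Nonempty (C1((ε : Spor.Co1)) ⧸ Q ≃* Om) := by
  obtain ⟨Q, hQ, h1, -, -, e, -⟩ := gen_setting al a1 be a2 (K.subgroupOf C1(ε)) a3 a4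
    (memR.2 ⟨_, hεK, mk_neg _⟩) a5 (fun x _ h => zp (cen_K (comm_of h))) (w := 4) (by norm_num)
    a6 a7 a8 a9
  exact ⟨Q, hQ, h1, ⟨e⟩⟩

end


/-- The first Conway group, the automorphism group of the Leech lattice modulo its centre, satisfies the large extraspecial hypothesis of plus type in dimension 8: it has an involution z whose centralizer C has generalized Fitting subgroup Q extraspecial of order 2^9, with C/Q isomorphic to the commutator subgroup of the isometry group of the hyperbolic quadratic form in dimension 8 over the field with two elements, and some conjugate of z other than z lies in Q. -/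
theorem result : ∃ z : Cfsg.Spor.Co1, orderOf z = 2 ∧ ∃ (Q : Subgroup (Subgroup.centralizer ({z} : Set Cfsg.Spor.Co1))) (_ : Q.Normal), Cfsg.generalizedFittingSubgroup (Subgroup.centralizer ({z} : Set Cfsg.Spor.Co1)) = Q ∧ Cfsg.IsExtraspecial 2 Q ∧ Nat.card Q = 2 ^ 9 ∧ Nonempty ((Subgroup.centralizer ({z} : Set Cfsg.Spor.Co1)) ⧸ Q ≃* Cfsg.Omega (ZMod 2) (Cfsg.quadFormPlus 4 (ZMod 2))) ∧ ∃ g : Cfsg.Spor.Co1, (∃ hq : g * z * g⁻¹ ∈ Subgroup.centralizer ({z} : Set Cfsg.Spor.Co1), (⟨g * z * g⁻¹, hq⟩ : Subgroup.centralizer ({z} : Set Cfsg.Spor.Co1)) ∈ Q) ∧ g * z * g⁻¹ ≠ z := by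
  obtain ⟨Q, hQ, ⟨h1, h2, h3, h4, h5⟩, e⟩ := main
  exact ⟨_, h1, Q, hQ, h2, h3, h4, e, h5⟩

end Cfsg.Agent.S5388
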