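import Cfsg.Statements.S5389
import Cfsg.Agent.H28.CsD

set_option autoImplicit false
open Cfsg

namespace Cfsg.Agent.S5389
open H28
section
open H28.Cz H14 H18 H11 Subgroup

theorem simple2 : IsSimpleGroup (commutator (Sm 2).Isom) :=
  simple_of (ndm 2) (no4m 2 (by norm_num)) (by rw [finrank_minus_fun]; omega)
    ((ndm 2).orth_isSimple (by rw [finrank_minus_fun]; omega))

theorem main : ∃ a : Co0, orderOf a = 3 ∧ IsSimpleGroup (SA a) ∧ ∃ (z : SA a) (Q : Subgroup C1(z))
    (_ : Q.Normal), IsExtraspecialCentralizerSetting z Q 3 ∧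
      Nonempty (C1(z) ⧸ Q ≃* Omega (ZMod 2) (quadFormMinus 2 (ZMod 2) 1 1)) := by
  obtain ⟨π, σ, φ, a, D, o, he, g, hg, H⟩ := exists3
  haveI := simple2
  have h4 := no4m 2 (by norm_num)
  have h3 : 3 ≤ Module.finrank (ZMod 2) (Vm 2) := by rw [finrank_minus_fun]; omega
  obtain ⟨Q, hQ, h1, h2, ⟨e⟩⟩ := D.main h4 (w := 3) (by norm_num) (by simp)
    (fun N _ h => eq_bot_of_simple card_m2 (by norm_num) Nat.prime_three (by norm_num) (by norm_num) N h)
    hg (H.1 ▸ ε1_mem) (H.1 ▸ D.fr.ne)
  refine ⟨a, o, D.simple (by norm_num) h4 h3 h1 h2 e (by rw [card_m2]; norm_num)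
    (D.wcl h4 h3 he hg H (u := Pi.single (.inl (.inl 1)) 1) (v := Pi.single (.inl (.inr 1)) 1)
      (by simp) (by simp) (by simp) (by simp [e3]) (by simp [e3])), _, Q, hQ, h1,
    ⟨e.trans (omegaEquiv (qMinus 2 (ZMod 2) 1 1)).symm⟩⟩

end


/-- A simple section of the automorphism group of the Leech lattice satisfying the Suzuki-sporadic-type hypothesis (the group so obtained is the sporadic Suzuki group; that identification is not part of this statement): there is a subgroup A of order 3 of that automorphism group such that the centralizer of A modulo the subgroup generated by A and the centre of the automorphism group is a non-abelian simple group satisfying the large extraspecial hypothesis of minus type in dimension 6 — an involution whose centralizer has extraspecial generalized Fitting subgroup of order 2^7 with quotient the commutator subgroup of the isometry group of the elliptic quadratic form in dimension 6 over the field with two elements, the involution not weakly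 closed in that extraspecial group. -/
theorem result : ∃ A : Subgroup ↥Cfsg.Co0, Nat.card A = 3 ∧ ∃ (hn : ((A ⊔ Subgroup.center ↥Cfsg.Co0).subgroupOf (Subgroup.centralizer (A : Set ↥Cfsg.Co0))).Normal), ∃ (S : Type) (_ : Group S) (_ : Finite S), Nonempty (S ≃* ↥(Subgroup.centralizer (A : Set ↥Cfsg.Co0)) ⧸ (A ⊔ Subgroup.center ↥Cfsg.Co0).subgroupOf (Subgroup.centralizer (A : Set ↥Cfsg.Co0))) ∧ IsSimpleGroup S ∧ ¬ IsMulCommutative S ∧ ∃ z : S, orderOf z = 2 ∧ ∃ (Q : Subgroup (Subgroup.centralizer ({z} : Set S))) (_ : Q.Normal), Cfsg.generalizedFittingSubgroup (Subgroup.centralizer ({z} : Set S)) = Q ∧ Cfsg.IsExtraspecial 2 Q ∧ Nat.card Q = 2 ^ 7 ∧ Nonempty ((Subgroup.centralizer ({z} : Set S)) ⧸ Q ≃* Cfsg.Omega (ZMod 2) (Cfsg.quadFormMinus 2 (ZMod 2) 1 1)) ∧ ∃ g : S, (∃ hq : g * z * g⁻¹ ∈ Subgroup.centralizer ({z} : Set S), (⟨g * z * g⁻¹, hq⟩ : Subgroup.centralizer ({z} : Set S)) ∈ Q) ∧ g * z * g⁻¹ ≠ z := by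
  obtain ⟨a, o, hs, z, Q, hQ, ⟨h1, h2, h3, h4, g, h5, h6⟩, e⟩ := main
  refine ⟨_, (Nat.card_zpowers a).trans o, H28.Cz.WA_normal a, _, _, inferInstance, ⟨MulEquiv.refl _⟩, hs,
    fun hc => h6 ?_, z, h1, Q, hQ, h2, h3, h4, e, g, h5, h6⟩
  rw [hc.is_comm.comm g, mul_inv_cancel_right]

end Cfsg.Agent.S5389
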