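import Cfsg.Statements.S5393
import Cfsg.Agent.H14.M24Use

set_option autoImplicit false
open Cfsg

namespace Cfsg.Agent.S5393

open H14 MulAction
open scoped Pointwise
set_option maxRecDepth 100000

/-- The length-24 code built from the squares modulo 23 contains the all-ones word, and the code modulo the all-ones word is an irreducible module over the field with two elements for the code's automorphism group: a subspace of the code that contains the all-ones word and is invariant under every coordinate permutation preserving the code is either the span of the all-ones word or the whole code. -/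
theorem result : (fun _ : Cfsg.GolayPt => (1 : ZMod 2)) ∈ Cfsg.golayCode ∧ ∀ W : Submodule (ZMod 2) (Cfsg.GolayPt → ZMod 2), (fun _ => (1 : ZMod 2)) ∈ W → W ≤ Cfsg.golayCode → (∀ σ ∈ Cfsg.M24, ∀ w ∈ W, (fun p => w (σ.symm p)) ∈ W) → W = Submodule.span (ZMod 2) {fun _ => (1 : ZMod 2)} ∨ W = Cfsg.golayCode := by
  have h1 : (fun _ : GolayPt => (1 : ZMod 2)) ∈ golayCode := indW_univ ▸ indW_mem.2 univ_mem_GC
  refine ⟨h1, fun W h hW hi => ?_⟩
  by_cases e : ∃ s, indW s ∈ W ∧ s ≠ ∅ ∧ s ≠ Finset.univ
  · obtain ⟨s, hs, e0, e1⟩ := e
    refine .inr (le_antisymm hW fun w hw => ?_)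
    exact indW_support w ▸ (invFam_of hi).of_code (indW_mem.1 (hW hs)) e0 e1 hs (support_mem_GC.2 hw)
  · refine .inl (le_antisymm (fun w hw => ?_) ((Submodule.span_singleton_le_iff_mem _ _).2 h))
    rw [← indW_support w] at hw ⊢
    by_cases e0 : support₂ w = ∅
    · rw [e0, indW_empty]; exact zero_mem _
    · rw [not_not.1 fun e1 => e ⟨_, hw, e0, e1⟩, indW_univ]; exact Submodule.mem_span_singleton_self _

end Cfsg.Agent.S5393
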