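import Cfsg.Statements.S5394
import Cfsg.Agent.H14.M24Use

set_option autoImplicit false
open Cfsg

namespace Cfsg.Agent.S5394

open H14 MulAction
open scoped Pointwise
set_option maxRecDepth 100000

/-- The automorphism group of the length-24 code built from the squares modulo 23 has exactly two conjugacy classes of involutions: an involution either fixes exactly the eight points of an octad or has no fixed points, both kinds occur, and any two involutions of the same kind are conjugate in the group. -/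
theorem result : (∀ g ∈ Cfsg.M24, orderOf g = 2 → (Finset.univ.filter fun p => g p = p) ∈ Cfsg.octads ∨ ∀ p, g p ≠ p) ∧ (∃ g ∈ Cfsg.M24, orderOf g = 2 ∧ (Finset.univ.filter fun p => g p = p) ∈ Cfsg.octads) ∧ (∃ g ∈ Cfsg.M24, orderOf g = 2 ∧ ∀ p, g p ≠ p) ∧ ∀ g ∈ Cfsg.M24, ∀ h ∈ Cfsg.M24, orderOf g = 2 → orderOf h = 2 → ((∀ p, g p ≠ p) ↔ (∀ p, h p ≠ p)) → ∃ k ∈ Cfsg.M24, k * g * k⁻¹ = h := by
  have n0 : ∀ {g} (hg : g ∈ M24), nfix GolayPt (⟨g, hg⟩ : M24) = 0 ↔ ∀ p, g p ≠ p := fun _ => nfix_eq_zero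
  refine ⟨fun g hg h => ?_, ⟨_, (ev M0.gen zA).2, (Subgroup.orderOf_coe _).trans ord_zA, ?_⟩,
    ⟨_, (ev M0.gen zB).2, (Subgroup.orderOf_coe _).trans ord_zB, nfix_eq_zero.1 nfix_zB⟩,
    fun g hg h hh h1 h2 e => ?_⟩
  · rcases cls2 ((orderOf_mk hg).trans h) with ⟨-, k, e⟩ | e
    · have := smul_mem_octads k⁻¹ (fix_zA ▸ oOc.mem (i := 0) (by norm_num))
      rw [fix_conj e, inv_smul_smul] at this
      exact .inl this
    · exact .inr ((n0 hg).1 e.1)
  · exact fix_zA ▸ oOc.mem (i := 0) (by norm_num)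
  · rw [← n0 hg, ← n0 hh, ← orderOf_mk hg, ← orderOf_mk hh] at *
    have : ∃ k : M24, k * ⟨g, hg⟩ * k⁻¹ = ⟨h, hh⟩ := by
      by_cases e' : nfix GolayPt (⟨g, hg⟩ : M24) = 0
      · obtain ⟨a, ha⟩ := cls2B h1 e'
        obtain ⟨b, hb⟩ := cls2B h2 (e.1 e')
        exact conj_trans ha hb
      · obtain ⟨a, ha⟩ := cls2A h1 e'
        obtain ⟨b, hb⟩ := cls2A h2 (mt e.2 e')
        exact conj_trans ha hb
    obtain ⟨k, hk⟩ := this
    exact ⟨k, k.2, congrArg Subtype.val hk⟩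

end Cfsg.Agent.S5394
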