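import Cfsg.Statements.S5396
import Cfsg.Agent.H21.Heis

set_option autoImplicit false
open Cfsg

namespace Cfsg.Agent.S5396

open H18 H21 Subgroup

theorem aux {E : Type*} [Group E] :
    sSup {k : ℕ | ∃ A : Subgroup E, Cfsg.IsElementaryAbelian 2 A ∧ Nat.card A = 2 ^ k} = prank 2 (⊤ : Subgroup E) :=
  congrArg sSup (Set.ext fun _ => exists_congr fun _ =>
    ⟨fun h => ⟨le_top, elem_iff.2 h.1, h.2⟩, fun h => ⟨h.elem.isElem, h.card⟩⟩)

/-- For every n ≥ 1 there exist finite extraspecial 2-groups of order 2^(2n+1) whose 2-rank (the largest rank of an elementary abelian subgroup) is n, and ones whose 2-rank is n + 1 (so for each such order there are two non-isomorphic extraspecial 2-groups, told apart by their 2-rank). -/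
theorem result (n : ℕ) (hn : 1 ≤ n) : ∀ r ∈ ({n, n + 1} : Set ℕ), ∃ (E : Type) (_ : Group E) (_ : Finite E), Cfsg.IsExtraspecial 2 E ∧ Nat.card E = 2 ^ (2 * n + 1) ∧ sSup {k : ℕ | ∃ A : Subgroup E, Cfsg.IsElementaryAbelian 2 A ∧ Nat.card A = 2 ^ k} = r := by
  have hp := Nat.prime_two
  have h0 : (0 : ℤ) < 2 ^ (n + 1) := by positivity
  obtain ⟨m, rfl⟩ : ∃ m, n = m + 1 := ⟨n - 1, by omega⟩
  rintro r (rfl | rfl)
  · have e := card_top.trans (card_minus m)
    refine ⟨Heis (bMinus m), inferInstance, inferInstance, (isExtraspecial_iff_top hp).2 ⟨es_minus m,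
      mt ((es_minus m).abel_iff_card hp e).1 m.succ_ne_zero⟩, card_minus m, ?_⟩
    have := (es_minus m).prank_eq e
    rw [aux]
    rw [ssum_minus] at this
    omega
  · have e := card_top.trans (card_plus (m + 1) 2)
    refine ⟨Heis (bPlus (m + 1) (ZMod 2)), inferInstance, inferInstance, (isExtraspecial_iff_top hp).2 ⟨es_plus _ 2,
      mt ((es_plus _ 2).abel_iff_card hp e).1 m.succ_ne_zero⟩, card_plus _ 2, ?_⟩
    have := (es_plus _ 2).prank_eq e
    rw [aux]
    rw [ssum_plus] at this
    omega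

end Cfsg.Agent.S5396
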