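import Cfsg.Statements.S5405
import Cfsg.Agent.H11.Orth2

set_option autoImplicit false
open scoped MatrixGroups
open Cfsg

namespace Cfsg.Agent.S5405

open Subgroup H11 H11.PForm Module

section
variable {V : Type*} [AddCommGroup V] [Module (ZMod 2) V] {S : PForm (orthP (ZMod 2)) V} {Ω : Subgroup S.Isom} {f : S.Isom → V}
  {a b c : V}

theorem one_of (h : S.q a ≠ 0) : S.q a = 1 := by revert h; generalize S.q a = x; revert x; decide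
theorem rf (h : S.q a ≠ 0) (x : V) : (S.refl a).1 x = x + S.h a x • a := by
  rw [refl_apply, one_of h, inv_one, one_mul, sub_eq_add_neg, ZModModule.neg_eq_self]
theorem hs (a : V) : S.h a a = 0 := by rw [orth_h_self, two_mul, CharTwo.add_self_eq_zero]
theorem q_add (ha : S.q a ≠ 0) (hb : S.q b ≠ 0) (h : S.h a b = 1) : S.q (a + b) ≠ 0 := by
  rw [orth_q_add, one_of ha, one_of hb, h]; decide
theorem r_add (ha : S.q a ≠ 0) (h : S.h a b = 1) : S.refl (a + b) = S.refl a * S.refl b * S.refl a := by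
  nth_rw 2 [← refl_inv a]
  rw [conj_refl, rf ha, h, one_smul, add_comm]

variable (hΩ : ∀ a b, S.q a ≠ 0 → S.q b ≠ 0 → S.refl a * S.refl b ∈ Ω) (hf : ∀ g ∈ Ω, ∀ k ∈ Ω, f (g * k) = f g + g.1 (f k))
include hΩ hf

omit hΩ in
theorem f1 : f 1 = 0 := by simpa using hf 1 (one_mem _) 1 (one_mem _)

theorem shape (ha : S.q a ≠ 0) (hb : S.q b ≠ 0) (h : S.h a b = 1) :
    ∃ x y : ZMod 2, f (S.refl b * S.refl a) = x • b + y • (a + b) := by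
  have h' := (orth_symm S a b).trans h
  have t := hΩ b a hb ha
  have e : S.refl b * S.refl a * (S.refl b * S.refl a * (S.refl b * S.refl a)) = 1 := by
    rw [← refl_mul_self (a + b)]
    nth_rw 1 [add_comm a b, r_add hb h']
    rw [r_add ha h]; simp only [mul_assoc]
  have := f1 hf
  rw [← e, hf _ t _ (mul_mem t t), hf _ t _ t] at this
  generalize f _ = w at this
  refine ⟨S.h a w + S.h b w, S.h b w, ?_⟩
  simp only [isom_mul_apply, rf ha, rf hb, map_add, map_smul, h, h', hs, smul_eq_mul] at this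
  rw [← sub_eq_zero, ← this]
  generalize S.h a w = α, S.h b w = β
  rw [← one_smul (ZMod 2) w]
  match_scalars <;> (try revert α) <;> (try revert β) <;> decide

theorem swap (ha : S.q a ≠ 0) (hb : S.q b ≠ 0) (h : S.h a b = 1) {x y : ZMod 2} (e : f (S.refl b * S.refl a) = x • b + y • (a + b)) :
    f (S.refl a * S.refl b) = y • a + x • (a + b) := by
  have := hf _ (hΩ a b ha hb) _ (hΩ b a hb ha)
  rw [mul_assoc, ← mul_assoc (S.refl b), refl_mul_self, one_mul, refl_mul_self, f1 hf, e] at this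
  simp only [isom_mul_apply, rf ha, rf hb, map_add, map_smul, h, (orth_symm S a b).trans h, hs, smul_eq_mul] at this
  rw [eq_neg_of_add_eq_zero_left this.symm]
  clear e this
  match_scalars <;> revert x y <;> decide

theorem indep (ha : S.q a ≠ 0) (hb : S.q b ≠ 0) (h : S.h a b = 1) {x : ZMod 2} (e : f (S.refl b * S.refl a) = x • b) :
    ∀ c, S.q c ≠ 0 → S.h a c = 1 → ∃ x : ZMod 2, f (S.refl c * S.refl a) = x • c := by
  have k : ∀ c, S.q c ≠ 0 → S.h a c = 1 → S.h b c = 1 → ∃ x : ZMod 2, f (S.refl c * S.refl a) = x • c := fun c hc h1 h2 => by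
    by_cases e0 : c = a + b
    · exact ⟨x, by rw [e0, r_add ha h, mul_assoc, refl_mul_self, mul_one, swap hΩ hf ha hb h (y := 0) (by simpa), zero_smul, zero_add]⟩
    obtain ⟨x', y, e1⟩ := shape hΩ hf ha hc h1
    obtain ⟨u, w, e2⟩ := shape hΩ hf hc hb ((orth_symm S b c).trans h2)
    have := hf _ (hΩ b a hb ha) _ (hΩ a c ha hc)
    rw [mul_assoc, ← mul_assoc (S.refl a), refl_mul_self, one_mul, e, e2, swap hΩ hf ha hc h1 e1] at this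
    simp only [isom_mul_apply, rf ha, rf hb, map_add, map_smul, h1, h2, (orth_symm S a b).trans h, hs, smul_eq_mul] at this
    have e3 := congrArg (S.h b) this
    have e4 := congrArg (S.h c) this
    simp only [map_add, map_smul, h2, (orth_symm S a b).trans h, (orth_symm S a c).trans h1, (orth_symm S b c).trans h2, hs,
      smul_eq_mul] at e3 e4
    obtain rfl | rfl : y = 0 ∨ y = 1 := by generalize y = y; revert y; decide
    · exact ⟨x', by simpa using e1⟩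
    refine absurd ?_ e0
    rw [← sub_eq_zero, ← sub_eq_zero.2 this, ← one_smul (ZMod 2) c]
    clear e e1 e2 this
    match_scalars <;> revert u w x x' <;> decide
  intro c hc h1
  obtain h2 | h2 : S.h b c = 0 ∨ S.h b c = 1 := by generalize S.h b c = y; revert y; decide
  · obtain ⟨y, e⟩ := k (a + c) (q_add ha hc h1) (by simp [hs, h1]) (by simp [h2, (orth_symm S a b).trans h])
    rw [r_add ha h1, mul_assoc, refl_mul_self, mul_one] at e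
    exact ⟨y, by simpa using swap hΩ hf hc ha ((orth_symm S a c).trans h1) (x := 0) (y := y) (by simpa [add_comm] using e)⟩
  · exact k c hc h1 h2

theorem zero (ha : S.q a ≠ 0) (hb : S.q b ≠ 0) (h : S.h a b = 1) {x y : ZMod 2} (e : f (S.refl b * S.refl a) = x • b)
    (e' : f (S.refl a * S.refl b) = y • a) : f (S.refl b * S.refl a) = 0 := by
  have := congrArg (S.h a) (e'.symm.trans (swap hΩ hf ha hb h (y := 0) (by simpa)))
  simp only [map_add, map_smul, hs, h, smul_eq_mul] at this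
  rw [e, show x = 0 by simpa using this.symm, zero_smul]

omit hΩ hf in
theorem h1 [FiniteDimensional (ZMod 2) V] (hS : S.Nondeg) (h4 : S.NotO4) {n : ℕ} (a d : Fin (n + 2) → V) (ht : V → ℕ)
    (chk : (∀ i, S.q (a i) ≠ 0) ∧ (∀ i j, S.h (a i) (d j) = if j = i then 1 else 0) ∧ (∀ i, i ≠ 0 → ∃ j < i, S.h (a i) (a j) = 1) ∧
      ∀ v, S.q v ≠ 0 → (∃ i, v = a i) ∨ ∃ i, S.h (a i) v = 1 ∧ ht (a i + v) < ht v)
    (f : commutator S.Isom → V) (hf : ∀ g k, f (g * k) = f g + g.1.1 (f k)) : ∃ v, ∀ g, f g = g.1.1 v - v := by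
  classical
  obtain ⟨qa, hd, cn, gp⟩ := chk
  have eΩ := (hS.orth_commutator_eq_ker_dick CharTwo.two_eq_zero h4).trans (hS.closure_refl_mul h4).symm
  have hΩ : ∀ a b, S.q a ≠ 0 → S.q b ≠ 0 → S.refl a * S.refl b ∈ commutator S.Isom := fun a b ha hb =>
    eΩ ▸ subset_closure ⟨a, b, ha, hb, rfl⟩
  obtain ⟨F, hF, eF⟩ : ∃ F : S.Isom → V, (∀ g ∈ commutator S.Isom, ∀ k ∈ commutator S.Isom, F (g * k) = F g + g.1 (F k)) ∧
      ∀ g, f g = F g := ⟨fun g => if h : g ∈ commutator S.Isom then f ⟨g, h⟩ else 0, fun g hg k hk => by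
    simp only [dif_pos hg, dif_pos hk, dif_pos (mul_mem hg hk)]; exact hf ⟨g, hg⟩ ⟨k, hk⟩, fun g => by simp⟩
  have nb : ∀ i, ∃ j, S.h (a i) (a j) = 1 := fun i => by
    by_cases h : i = 0
    · obtain ⟨j, h1, h2⟩ := cn 1 (by simp)
      exact ⟨1, by rw [h, ← (Fin.lt_one_iff j).1 h1, orth_symm, h2]⟩
    · exact (cn i h).imp fun _ => And.right
  choose nb hnb using nb
  choose x y e using fun i => shape hΩ hF (qa i) (qa (nb i)) (hnb i)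
  obtain ⟨v, hv⟩ : ∃ v, ∀ i, S.h (a i) v = y i := ⟨∑ j, y j • d j, fun i => by simp [hd]⟩
  refine ⟨v, ?_⟩
  obtain ⟨G, hG⟩ : ∃ G : S.Isom → V, ∀ g, G g = F g - (g.1 v - v) := ⟨_, fun _ => rfl⟩
  have cG : ∀ g ∈ commutator S.Isom, ∀ k ∈ commutator S.Isom, G (g * k) = G g + g.1 (G k) := fun g hg k hk => by
    simp only [hG, hF g hg k hk, map_sub, isom_mul_apply]; abel
  have z0 : ∀ i, ∀ c, S.q c ≠ 0 → S.h (a i) c = 1 → ∃ x : ZMod 2, G (S.refl c * S.refl (a i)) = x • c := fun i =>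
    indep hΩ cG (qa i) (qa _) (hnb i) (x := x i - S.h (a (nb i)) v) (by
      rw [hG, e, isom_mul_apply, rf (qa i), rf (qa _), hv, map_add, map_smul, orth_symm S (a i), hnb]; module)
  have tr : ∀ {a b c}, S.q a ≠ 0 → S.q b ≠ 0 → S.q c ≠ 0 → G (S.refl a * S.refl b) = 0 → G (S.refl b * S.refl c) = 0 →
      G (S.refl a * S.refl c) = 0 := fun ha hb hc e1 e2 => by
    have := cG _ (hΩ _ _ ha hb) _ (hΩ _ _ hb hc)
    rwa [e1, e2, map_zero, add_zero, mul_assoc, ← mul_assoc (S.refl _) (S.refl _) (S.refl _), refl_mul_self, one_mul] at this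
  have z1 : ∀ i, G (S.refl (a i) * S.refl (a 0)) = 0 := fun i => by
    induction i using WellFoundedLT.induction with | _ i ih => ?_
    by_cases h : i = 0
    · rw [h, refl_mul_self, f1 cG]
    obtain ⟨j, h1, h2⟩ := cn i h
    have h3 := (orth_symm S _ _).trans h2
    exact tr (qa i) (qa j) (qa 0) (zero hΩ cG (qa j) (qa i) h3 (z0 j _ (qa i) h3).choose_spec (z0 i _ (qa j) h2).choose_spec) (ih j h1)
  have z2 : ∀ b, S.q b ≠ 0 → (∀ c, S.q c ≠ 0 → S.h b c = 1 → ∃ x : ZMod 2, G (S.refl c * S.refl b) = x • c) ∧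
      G (S.refl b * S.refl (a 0)) = 0 := fun b => by
    induction b using (measure ht).wf.induction with | _ b ih => ?_
    intro hb
    obtain ⟨i, rfl⟩ | ⟨i, h1, h2⟩ := gp b hb
    · exact ⟨z0 i, z1 i⟩
    have h3 := q_add (qa i) hb h1
    have h5 : S.h (a i) (a i + b) = 1 := by simp [hs, h1]
    have h6 := (orth_symm S _ _).trans h5
    have e := zero hΩ cG (qa i) h3 h5 (z0 i _ h3 h5).choose_spec ((ih _ h2 h3).1 _ (qa i) h6).choose_spec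
    rw [r_add (qa i) h1, mul_assoc, refl_mul_self, mul_one] at e
    have k := indep hΩ cG hb (qa i) ((orth_symm S _ _).trans h1) (x := 0) (by simpa)
    exact ⟨k, tr hb (qa i) (qa 0) (by simpa using swap hΩ cG hb (qa i) ((orth_symm S _ _).trans h1) (x := 0) (y := 0) (by simpa))
      (z1 i)⟩
  rintro ⟨g, hg⟩
  rw [eF, ← sub_eq_zero, ← hG]
  have m := fun g => (SetLike.ext_iff.1 eΩ g).2
  change G g = 0
  replace hg := eΩ.le hg
  induction hg using closure_induction with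
  | mem g h =>
    obtain ⟨b, c, hb, hc, rfl⟩ := h
    refine tr hb (qa 0) hc (z2 b hb).2 ?_
    have := cG _ (hΩ _ _ (qa 0) hc) _ (hΩ _ _ hc (qa 0))
    rwa [(z2 c hc).2, map_zero, add_zero, mul_assoc, ← mul_assoc (S.refl c), refl_mul_self, one_mul, refl_mul_self, f1 cG,
      eq_comm] at this
  | one => exact f1 cG
  | mul g k hg hk e1 e2 => rw [cG _ (m _ hg) _ (m _ hk), e1, e2, map_zero, add_zero]
  | inv g hg e => simpa [e, f1 cG] using (cG _ (inv_mem (m _ hg)) _ (m _ hg)).symm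
end

theorem h2 {ι : Type} [Fintype ι] [DecidableEq ι] (Q : QuadraticForm (ZMod 2) (ι → ZMod 2)) (hS : (orthS Q).Nondeg)
    (h4 : (orthS Q).NotO4) {n : ℕ} (e : ι → ℕ) (a d : Fin (n + 2) → ℕ) (t : List ℕ) (dec : ℕ → ι → ZMod 2)
    (chk : (∀ i, Q (dec (a i)) ≠ 0) ∧ (∀ i j, Q (dec (a i) + dec (d j)) - Q (dec (a i)) - Q (dec (d j)) = if j = i then 1 else 0) ∧
      (∀ i, i ≠ 0 → ∃ j < i, Q (dec (a i) + dec (a j)) - Q (dec (a i)) - Q (dec (a j)) = 1) ∧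
      ∀ v, Q v ≠ 0 → (∃ i, v = dec (a i)) ∨ ∃ i, Q (dec (a i) + v) - Q (dec (a i)) - Q v = 1 ∧
        t.getD (∑ k, ((dec (a i) + v) k).val * e k) 0 < t.getD (∑ k, (v k).val * e k) 0)
    (f : Cfsg.Omega (ZMod 2) Q → ι → ZMod 2)
    (hf : ∀ g h, f (g * h) = f g + Matrix.mulVec ((g.1 : GL ι (ZMod 2)) : Matrix ι ι (ZMod 2)) (f h)) :
    ∃ v, ∀ g, f g = Matrix.mulVec ((g.1 : GL ι (ZMod 2)) : Matrix ι ι (ZMod 2)) v - v := by
  obtain ⟨v, hv⟩ := h1 hS h4 (fun i => dec (a i)) (fun i => dec (d i)) (fun v => t.getD (∑ k, (v k).val * e k) 0) chk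
    (fun g => f ⟨(orthEquiv Q).symm g, (mem_Omega_iff _ _).2 (by simp)⟩) fun g k => by
      have := hf ⟨(orthEquiv Q).symm g, (mem_Omega_iff _ _).2 (by simp)⟩ ⟨(orthEquiv Q).symm k, (mem_Omega_iff _ _).2 (by simp)⟩
      simp only [← orthEquiv_apply, MulEquiv.apply_symm_apply] at this
      exact (congrArg f (Subtype.ext (map_mul (orthEquiv Q).symm g.1 k.1))).trans this
  exact ⟨v, fun g => by simpa using hv ⟨_, (mem_Omega_iff _ _).1 g.2⟩⟩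

/-- Vanishing of first cohomology on the natural module for three small orthogonal groups over the field with two elements: for the commutator subgroup of the isometry group of the elliptic quadratic form in dimension 4, of the elliptic form in dimension 6, and of the hyperbolic form in dimension 8, every crossed homomorphism into the natural module (a map f with f(gh) = f(g) + g·f(h)) is principal (of the form g ↦ g·v − v). -/
theorem result : (∀ f : ↥(Cfsg.Omega (ZMod 2) (Cfsg.quadFormMinus 1 (ZMod 2) 1 1)) → ((Fin 1 ⊕ Fin 1) ⊕ Fin 2 → ZMod 2), (∀ g h : ↥(Cfsg.Omega (ZMod 2) (Cfsg.quadFormMinus 1 (ZMod 2) 1 1)), f (g * h) = f g + Matrix.mulVec (((g : ↥(Cfsg.isometryGroup (ZMod 2) (Cfsg.quadFormMinus 1 (ZMod 2) 1 1))) : GL ((Fin 1 ⊕ Fin 1) ⊕ Fin 2) (ZMod 2)) : Matrix ((Fin 1 ⊕ Fin 1) ⊕ Fin 2) ((Fin 1 ⊕ Fin 1) ⊕ Fin 2) (ZMod 2)) (f h)) → ∃ v : (Fin 1 ⊕ Fin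 1) ⊕ Fin 2 → ZMod 2, ∀ g : ↥(Cfsg.Omega (ZMod 2) (Cfsg.quadFormMinus 1 (ZMod 2) 1 1)), f g = Matrix.mulVec (((g : ↥(Cfsg.isometryGroup (ZMod 2) (Cfsg.quadFormMinus 1 (ZMod 2) 1 1))) : GL ((Fin 1 ⊕ Fin 1) ⊕ Fin 2) (ZMod 2)) : Matrix ((Fin 1 ⊕ Fin 1) ⊕ Fin 2) ((Fin 1 ⊕ Fin 1) ⊕ Fin 2) (ZMod 2)) v - v) ∧ (∀ f : ↥(Cfsg.Omega (ZMod 2) (Cfsg.quadFormMinus 2 (ZMod 2) 1 1)) → ((Fin 2 ⊕ Fin 2) ⊕ Fin 2 → ZMod 2), (∀ g h : ↥(Cfsg.Omega (ZMod 2) (Cfsg.quadFormMinus 2 (ZMod 2) 1 1)), f (g * h) = f g + Matrix.mulVec (((g : ↥(Cfsg.isometryGroup (ZMod 2) (Cfsg.quadFormMinus 2 (ZMod 2) 1 1))) : GL ((Fin 2 ⊕ Fin 2) ⊕ Fin 2) (ZMod 2)) : Matrix ((Fin 2 ⊕ Fin 2) ⊕ Fin 2) ((Fin 2 ⊕ Fin 2) ⊕ Fin 2) (ZMod 2)) (f h)) → ∃ v : (Fin 2 ⊕ Fin 2) ⊕ Fin 2 → ZMod 2, ∀ g : ↥(Cfsg.Omega (ZMod 2) (Cfsg.quadFormMinus 2 (ZMod 2) 1 1)), f g = Matrix.mulVec (((g : ↥(Cfsg.isometryGroup (ZMod 2) (Cfsg.quadFormMinus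 2 (ZMod 2) 1 1))) : GL ((Fin 2 ⊕ Fin 2) ⊕ Fin 2) (ZMod 2)) : Matrix ((Fin 2 ⊕ Fin 2) ⊕ Fin 2) ((Fin 2 ⊕ Fin 2) ⊕ Fin 2) (ZMod 2)) v - v) ∧ (∀ f : ↥(Cfsg.Omega (ZMod 2) (Cfsg.quadFormPlus 4 (ZMod 2))) → (Fin 4 ⊕ Fin 4 → ZMod 2), (∀ g h : ↥(Cfsg.Omega (ZMod 2) (Cfsg.quadFormPlus 4 (ZMod 2))), f (g * h) = f g + Matrix.mulVec (((g : ↥(Cfsg.isometryGroup (ZMod 2) (Cfsg.quadFormPlus 4 (ZMod 2)))) : GL (Fin 4 ⊕ Fin 4) (ZMod 2)) : Matrix (Fin 4 ⊕ Fin 4) (Fin 4 ⊕ Fin 4) (ZMod 2)) (f h)) → ∃ v : Fin 4 ⊕ Fin 4 → ZMod 2, ∀ g : ↥(Cfsg.Omega (ZMod 2) (Cfsg.quadFormPlus 4 (ZMod 2))), f g = Matrix.mulVec (((g : ↥(Cfsg.isometryGroup (ZMod 2) (Cfsg.quadFormPlus 4 (ZMod 2)))) : GL (Fin 4 ⊕ Fin 4) (ZMod 2)) : Matrix (Fin 4 ⊕ Fin 4) (Fin 4 ⊕ Fin 4) (ZMod 2)) v - v) := by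
  refine ⟨h2 (qMinus 1 _ 1 1) (sMinus_nondeg _ aniso_two) (.inr (.inr (sMinus_not_hasTS _ aniso_two)))
      (Sum.elim (Sum.elim ![1] ![2]) ![4, 8]) ![3, 5, 8, 4] ![1, 3, 4, 11]
      [0, 0, 0, 0, 0, 0, 1, 0, 0, 2, 3, 0, 1, 1, 2, 0]
      (fun n k => (n / Sum.elim (Sum.elim ![1] ![2]) ![4, 8] k : ℕ)) (by decide +kernel),
    h2 (qMinus 2 _ 1 1) (sMinus_nondeg _ aniso_two) (.inr (.inl (by simp)))
      (Sum.elim (Sum.elim ![1, 2] ![4, 8]) ![16, 32]) ![5, 11, 18, 10, 7, 32] ![43, 5, 32, 7, 42, 16]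
      [0, 0, 0, 0, 0, 0, 0, 0, 0, 0, 0, 0, 0, 1, 1, 0, 10, 4, 0, 2, 3, 0, 3, 0, 1, 1, 0, 0, 2, 0, 0, 2, 0, 4, 8, 6, 5, 0, 5,
      0, 7, 7, 0, 0, 6, 0, 0, 6, 9, 5, 1, 3, 4, 0, 4, 0, 2, 2, 0, 0, 3, 0, 0, 3]
      (fun n k => (n / Sum.elim (Sum.elim ![1, 2] ![4, 8]) ![16, 32] k : ℕ)) (by decide +kernel),
    h2 (qPlus 4 _) (sPlus_nondeg _ _) (.inr (.inl (by simp))) (Sum.elim ![1, 2, 4, 8] ![16, 32, 64, 128])
      ![17, 35, 21, 68, 23, 34, 27, 238] ![205, 17, 238, 12, 170, 27, 136, 8]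
      [0, 0, 0, 0, 0, 0, 0, 0, 0, 0, 0, 0, 0, 0, 0, 0, 0, 0, 0, 10, 0, 0, 0, 0, 0, 22, 0, 0, 0, 18, 0, 14, 0, 0, 0, 0, 0, 0,
      12, 2, 0, 0, 12, 20, 0, 0, 2, 20, 0, 11, 1, 0, 0, 1, 1, 0, 0, 1, 21, 0, 0, 13, 19, 0, 0, 0, 0, 0, 0, 16, 2, 4, 0, 0, 0,
      0, 16, 6, 16, 16, 0, 1, 0, 1, 15, 0, 5, 0, 0, 17, 0, 15, 5, 0, 17, 0, 0, 0, 13, 3, 3, 3, 0, 0, 0, 0, 3, 19, 15, 17, 0,
      0, 0, 2, 2, 0, 4, 0, 0, 14, 0, 14, 18, 0, 18, 0, 0, 4, 0, 0, 0, 0, 0, 0, 0, 0, 28, 4, 4, 4, 12, 4, 8, 6, 0, 5, 0, 27, 0,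
      9, 0, 13, 5, 0, 5, 0, 3, 0, 5, 0, 0, 0, 15, 7, 0, 0, 25, 7, 3, 5, 0, 0, 7, 7, 0, 0, 0, 26, 6, 0, 0, 14, 8, 0, 6, 0, 0,
      6, 6, 0, 0, 2, 0, 0, 0, 0, 11, 21, 11, 11, 11, 3, 9, 7, 0, 0, 0, 0, 0, 10, 0, 12, 22, 0, 10, 0, 2, 0, 6, 0, 0, 10, 0,
      10, 0, 0, 24, 8, 12, 10, 0, 0, 8, 8, 0, 0, 0, 0, 0, 8, 0, 13, 9, 0, 9, 0, 0, 23, 7, 0, 0, 1, 0, 9, 9, 0]
      (fun n k => (n / Sum.elim ![1, 2, 4, 8] ![16, 32, 64, 128] k : ℕ)) (by decide +kernel)⟩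

end Cfsg.Agent.S5405
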