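import Cfsg.Statements.S5407
import Cfsg.Agent.H14.Mons2

set_option autoImplicit false
open Cfsg

namespace Cfsg.Agent.S5407

open H14 H18 Subgroup

/-- Let G be a finite group of Monster type at the involution z with Q the extraspecial normal subgroup of order 2^25 of C = C_G(z) (so C/Q is identified with the first Conway group with Q modulo its centre the Leech lattice modulo 2, and z is not weakly closed in Q). Then under any such identification ψ of the Leech lattice modulo 2 with Q modulo its centre, an element x of Q is a conjugate of z other than z exactly when x modulo the centre is the image under ψ of a lattice vector of squared length 64 in the coordinates used here, that is, of norm 8 in the customary normalisation in which the minimal vectors have norm 4 (twice the minimal norm). -/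
theorem result {G : Type*} [Group G] [Finite G] (z : G) (Q : Subgroup (Subgroup.centralizer ({z} : Set G))) [Q.Normal] (hM : Cfsg.IsOfMonsterType z Q) (e : (Subgroup.centralizer ({z} : Set G)) ⧸ Q ≃* Cfsg.Spor.Co1) (ψ : Cfsg.leechLattice → Q ⧸ Subgroup.center Q) (hψ : Cfsg.IsLeechModTwoIso Q e ψ) (x : Q) : (IsConj z ((x : Subgroup.centralizer ({z} : Set G)) : G) ∧ ((x : Subgroup.centralizer ({z} : Set G)) : G) ≠ z) ↔ ∃ v : Cfsg.leechLattice, Cfsg.sqNorm (v : Cfsg.GolayPt → ℤ) = 64 ∧ ψ v = QuotientGroup.mk x := by
  have h := mt_of hM.1 rfl hψ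
  have key : ∀ v, grR ψ v ((x : C1(z)) : G) ↔ ψ v = QuotientGroup.mk x := fun v =>
    ⟨fun ⟨q, e1, e2⟩ => (Subtype.ext (Subtype.ext e1) : q = x) ▸ e2, fun e => ⟨x, rfl, e⟩⟩
  refine ⟨fun ⟨h1, h2⟩ => ?_, fun ⟨v, h1, h2⟩ =>
    h.conj_of_type4 (exists_mt hM).2 ((key v).2 h2) h1⟩
  obtain ⟨v, hv⟩ := h.surj (mem_map_of_mem C1(z).subtype x.2)
  obtain ⟨w, h3, h4⟩ := h.conj_type4 hv h1 h2
  exact ⟨w, h3, (key w).1 h4⟩

end Cfsg.Agent.S5407
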