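import Cfsg.Statements.S5408
import Cfsg.Agent.H14.Mons2

set_option autoImplicit false
open Cfsg

namespace Cfsg.Agent.S5408

open H14 H18 Subgroup

/-- Let G be a finite group of Monster type at the involution z with Q the extraspecial normal subgroup of order 2^25 of C = C_G(z) (so C/Q is identified with the first Conway group with Q modulo its centre the Leech lattice modulo 2, and z is not weakly closed in Q). Then Q is of plus type: it contains an elementary abelian subgroup of order 2^13. -/
theorem result {G : Type*} [Group G] [Finite G] (z : G) (Q : Subgroup (Subgroup.centralizer ({z} : Set G))) [Q.Normal] (hM : Cfsg.IsOfMonsterType z Q) : ∃ E : Subgroup Q, Cfsg.IsElementaryAbelian 2 E ∧ Nat.card E = 2 ^ 13 := by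
  obtain ⟨⟨P, Rp, h⟩, g, hg, hne⟩ := exists_mt hM
  let f : Q →* G := C1(z).subtype.comp Q.subtype
  have hf : Function.Injective f := (subtype_injective _).comp (subtype_injective _)
  have hr : f.range = Q.map C1(z).subtype := by
    rw [MonoidHom.range_comp, range_subtype]
  refine ⟨(Q.map C1(z).subtype ⊓ cj g (Q.map C1(z).subtype)).comap f,
    ⟨abel_iff.1 (cent_iff.2 fun a ha b hb => hf ?_), fun a ha => hf ?_⟩, ?_⟩
  · rw [map_mul, map_mul]; exact cent_iff.1 (h.inter_abel (h.cj g) hne) _ ha _ hb
  · rw [map_pow, map_one, sq]; exact h.inter_sq (h.cj g) hne ha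
  · rw [← card_map_of_injective hf, map_comap_eq_self (hr ▸ inf_le_left)]
    exact h.card_inter (h.cj g) hg hne

end Cfsg.Agent.S5408
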