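import Cfsg.Statements.S5410
import Cfsg.Agent.H14.Mons2

set_option autoImplicit false
open Cfsg

namespace Cfsg.Agent.S5410

open H14 H18 Subgroup

/-- Let G be a finite group of Monster type at the involution z with Q the extraspecial normal subgroup of order 2^25 of C = C_G(z) (so C/Q is identified with the first Conway group with Q modulo its centre the Leech lattice modulo 2, and z is not weakly closed in Q). Let g in G with s = g z g⁻¹ a member of Q other than z, let X be the image in C/Q of the centralizer of s in C, and let E be the image in C/Q of the intersection of g Q g⁻¹ with C. Then E is a normal subgroup of X, elementary abelian of order 2^11, and it has a complement in X isomorphic to the Mathieu group of degree 24 (the automorphism group of the length-24 binary Golay code). -/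
theorem result {G : Type*} [Group G] [Finite G] (z : G) (Q : Subgroup (Subgroup.centralizer ({z} : Set G))) [Q.Normal] (hM : Cfsg.IsOfMonsterType z Q) (s : G) (hsQ : ∃ hsc : s ∈ Subgroup.centralizer ({z} : Set G), (⟨s, hsc⟩ : Subgroup.centralizer ({z} : Set G)) ∈ Q) (hs : IsConj z s) (hs1 : s ≠ z) (g : G) (hg : g * z * g⁻¹ = s) (X E : Subgroup ((Subgroup.centralizer ({z} : Set G)) ⧸ Q)) (hX : X = ((Subgroup.centralizer ({z} : Set G) ⊓ Subgroup.centralizer ({s} : Set G)).subgroupOf (Subgroup.centralizer ({z} : Set G))).map (QuotientGroup.mk' Q)) (hE : E = (((Q.map (Subgroup.centralizer ({z} : Set G)).subtype).map (MulAut.conj g).toMonoidHom ⊓ Subgroup.centralizer ({z} : Set G)).subgroupOf (Subgroup.centralizer ({z} : Set G))).map (QuotientGroup.mk' Q)) : E ≤ X ∧ (∀ x ∈ X, ∀ y ∈ E, x * y * x⁻¹ ∈ E) ∧ Cfsg.IsElementaryAbelian 2 E ∧ Nat.card E = 2 ^ 11 ∧ ∃ K : Subgroup ((Subgroup.centralizer ({z} : Set G)) ⧸ Q), K ≤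 X ∧ E ⊓ K = ⊥ ∧ E ⊔ K = X ∧ Nonempty (K ≃* Cfsg.M24) := by
  obtain ⟨⟨P, Rp, h⟩, -⟩ := exists_mt hM
  subst hg
  have h' := h.cj g
  obtain ⟨P, Rp, h, h1⟩ := h.exists_std h' (mem_mapQ.2 hsQ) hs1
  have hQ : ∀ a : C1(z), a.1 ∈ Q.map C1(z).subtype ↔ QuotientGroup.mk' Q a = 1 := fun a =>
    (mem_map_iff_mem (f := C1(z).subtype) (subtype_injective _)).trans
      (QuotientGroup.eq_one_iff a).symm
  obtain ⟨θ, hθ⟩ := h.exists_lift (QuotientGroup.mk' Q) fun a => (hQ a).1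
  have key : ∀ B ≤ C1(z), (B.subgroupOf C1(z)).map (QuotientGroup.mk' Q) = (img P B).map θ := by
    intro B hB
    ext x
    refine ⟨?_, ?_⟩
    · rintro ⟨a, ha, rfl⟩
      obtain ⟨k, hk⟩ := h.fst.1 a.2
      exact ⟨k, mem_img.2 ⟨_, ha, hk⟩, hθ a k hk⟩
    · rintro ⟨k, hk, rfl⟩
      obtain ⟨a, ha, hk⟩ := mem_img.1 hk
      exact ⟨⟨a, hB ha⟩, ha, (hθ _ k hk).symm⟩
  have hker : θ.ker = center Co0 := by
    ext k
    obtain ⟨a, ha⟩ := h.snd k
    rw [MonoidHom.mem_ker, hθ ⟨a, h.memC ha⟩ k ha, ← hQ, h.ker ha]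
  have hc : center Co0 ≤ Sg := fun k hk => by
    rcases mem_center_Co0.1 hk with rfl | rfl
    exacts [Sg.one_mem, negOne_mem_Sg]
  rw [key _ inf_le_left, h.img_eq_Mon h1] at hX
  rw [key _ inf_le_right] at hE
  erw [h.img_eq_Sg h' hs1 h1] at hE
  subst hX hE
  have hi : ∀ σ, θ (permH σ) ∈ Sg.map θ → σ = 1 := fun σ ⟨k, hk, e⟩ => by
    have : k⁻¹ * permH σ ∈ θ.ker := by rw [MonoidHom.mem_ker, map_mul, map_inv, e, inv_mul_cancel]
    exact eq_one_of_permH_mem ((mul_mem_cancel_left (inv_mem hk)).1 (hc (hker ▸ this)))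
  refine ⟨map_mono Sg_le_Mon, ?_, ⟨abel_iff.1 (cent_iff.2 ?_), ?_⟩, ?_, (θ.comp permH).range, ?_, ?_,
    ?_, ⟨(MonoidHom.ofInjective ((injective_iff_map_eq_one _).2 fun σ e => hi σ ?_)).symm⟩⟩
  · rintro _ ⟨a, ha, rfl⟩ _ ⟨b, hb, rfl⟩
    exact ⟨_, conj_mem Mon_le_N_Sg ha hb, by simp⟩
  · rintro _ ⟨a, ha, rfl⟩ _ ⟨b, hb, rfl⟩
    rw [← map_mul, Sg_comm ha hb, map_mul]
  · rintro _ ⟨a, ha, rfl⟩
    rw [sq, ← map_mul, Sg_sq ha, map_one]
  · have := H1.card_map_mul_card_inf_ker θ Sg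
    rw [hker, inf_of_le_left hc, card_center_Co0, card_Sg] at this
    omega
  · rintro _ ⟨σ, rfl⟩
    exact ⟨_, permH_mem σ, rfl⟩
  · rw [eq_bot_iff]
    rintro _ ⟨hx, σ, rfl⟩
    rw [hi σ hx, map_one]; exact one_mem _
  · refine le_antisymm (sup_le (map_mono Sg_le_Mon) ?_) ?_
    · rintro _ ⟨σ, rfl⟩
      exact ⟨_, permH_mem σ, rfl⟩
    · rintro _ ⟨_, ⟨σ, c, hc, rfl⟩, rfl⟩
      rw [map_mul]
      exact mul_mem_sup ⟨_, sgn_mem_Sg hc, rfl⟩ ⟨σ, rfl⟩
  · rw [show θ (permH σ) = 1 from e]; exact one_mem _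

end Cfsg.Agent.S5410
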