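import Cfsg.Statements.S5423
import Cfsg.Agent.H2.Tv

set_option autoImplicit false
open Cfsg

open H2.Tv Matrix

namespace Cfsg.Agent.S5423

/-- the affine part -/
def af {n : ℕ} (a : Fin n → F) (k : Matrix (Fin n) (Fin n) F) (t : F × (Fin n → F)) :
    F × (Fin n → F) := (t.1 + a ⬝ᵥ t.2, k *ᵥ t.2)

theorem af_add {n : ℕ} (a : Fin n → F) (k : Matrix (Fin n) (Fin n) F) (s t : F × (Fin n → F)) :
    af a k (s + t) = af a k s + af a k t :=
  Prod.ext (by simp [af]; ring) (by simp [af, mulVec_add])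

theorem af_af {n : ℕ} (a a' : Fin n → F) (k k' : Matrix (Fin n) (Fin n) F) (t : F × (Fin n → F)) :
    af a k (af a' k' t) = af (a' + a ᵥ* k') (k * k') t :=
  Prod.ext (by simp [af, dotProduct_mulVec, add_assoc]) (by simp [af])

theorem af_one {n : ℕ} (t : F × (Fin n → F)) : af 0 1 t = t := by simp [af]

theorem af_id {n : ℕ} {a : Fin n → F} {k : Matrix (Fin n) (Fin n) F} (h : ∀ t, af a k t = t) :
    a = 0 ∧ k = 1 := by
  constructor
  · ext j; simpa [af] using congrArg Prod.fst (h (0, Pi.single j 1))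
  · ext i j
    simpa [af, Pi.single_apply, one_apply] using congrFun (congrArg Prod.snd (h (0, Pi.single j 1))) i

theorem exists_af {n : ℕ} (γ : (F × (Fin n → F)) →+ (F × (Fin n → F))) (h : γ (1, 0) = (1, 0)) :
    ∃ a k, ∀ t, γ t = af a k t := by
  refine ⟨fun j => (γ (0, Pi.single j 1)).1, Matrix.of fun i j => (γ (0, Pi.single j 1)).2 i, ?_⟩
  rintro ⟨x, y⟩
  have e : (x, y) = x • ((1 : F), (0 : Fin n → F)) + ∑ j, y j • ((0 : F), Pi.single j (1 : F)) := by
    refine Prod.ext (by simp [Prod.fst_sum]) ?_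
    ext i; simp [Prod.snd_sum, Finset.sum_apply, Pi.single_apply]
  have hs : ∀ (c : F) t, γ (c • t) = c • γ t := fun c t => (γ.toZModLinearMap 2).map_smul c t
  conv_lhs => rw [e, map_add, map_sum]
  simp only [hs, h]
  refine Prod.ext (by simp [af, Prod.fst_sum, dotProduct, mul_comm]) ?_
  ext i; simp [af, Prod.snd_sum, Finset.sum_apply, mulVec, dotProduct, mul_comm]

theorem exists_coord {U : Type*} [CommGroup U] [Finite U] (n : ℕ) (h2 : ∀ x : U, x ^ 2 = 1)
    (hc : Nat.card U = 2 ^ (n + 1)) (z : U) (hz : z ≠ 1) :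
    ∃ β : (F × (Fin n → F)) ≃+ Additive U, β (1, 0) = Additive.ofMul z := by
  haveI : Fact (Nat.Prime 2) := ⟨Nat.prime_two⟩
  letI : Module F (Additive U) := AddCommGroup.zmodModule (fun x => h2 x.toMul)
  have hz' : Additive.ofMul z ≠ 0 := hz
  obtain ⟨W, hW⟩ := Submodule.exists_isCompl (F ∙ Additive.ofMul z)
  have h1 : Module.finrank F (Additive U) = n + 1 := by
    have := Module.natCard_eq_pow_finrank (K := F) (V := Additive U)
    rw [Nat.card_zmod, show Nat.card (Additive U) = Nat.card U from rfl, hc] at this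
    exact (Nat.pow_right_injective le_rfl this).symm
  have h3 : Module.finrank F W = n := by
    have := Submodule.finrank_add_eq_of_isCompl hW
    rw [finrank_span_singleton hz', h1] at this
    omega
  let e1 := LinearEquiv.toSpanNonzeroSingleton F (Additive U) _ hz'
  let e2 : (Fin n → F) ≃ₗ[F] W := LinearEquiv.ofFinrankEq _ _ (by simp [h3])
  refine ⟨((e1.prodCongr e2).trans (Submodule.prodEquivOfIsCompl _ _ hW)).toAddEquiv, ?_⟩
  simp [e1]

/-- Let G be a finite group that is the split extension of an elementary abelian normal subgroup U of order 2^(n+1), n ≥ 1, by its full automorphism group: U has a complement M in G whose conjugation action on U is faithful and realizes every automorphism of U. Let Z be a subgroup of U of order 2 and Q the largest normal 2-subgroup of the centralizer C of Z. Then Q is extraspecial of order 2^(2n+1) with an elementary abelian subgroup of order 2^(n+1) (plus type), Q is a large extraspecial 2-subgroup of G, and C is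 the split extension of Q by the general linear group of degree n over the field with two elements. -/
theorem result {G : Type*} [Group G] [Finite G] (n : ℕ) (hn : 1 ≤ n) (U M : Subgroup G) [U.Normal] (hU : Cfsg.IsElementaryAbelian 2 U) (hUcard : Nat.card ↥U = 2 ^ (n + 1)) (hUM : U ⊓ M = ⊥) (hUM' : U ⊔ M = ⊤) (hfaith : ∀ m ∈ M, (∀ u ∈ U, m * u * m⁻¹ = u) → m = 1) (hfull : ∀ φ : ↥U ≃* ↥U, ∃ m ∈ M, ∀ u : ↥U, ((φ u : ↥U) : G) = m * u * m⁻¹) (Z : Subgroup G) (hZU : Z ≤ U) (hZ : Nat.card ↥Z = 2) (Q : Subgroup G) (hQ : Q = (Cfsg.pCore 2 ↥(Subgroup.centralizer (Z : Set G))).map (Subgroup.centralizer (Z : Set G)).subtype) : Cfsg.IsExtraspecial 2 ↥Q ∧ Nat.card ↥Q = 2 ^ (2 * n + 1) ∧ (∃ E : Subgroup G, E ≤ Q ∧ Cfsg.IsElementaryAbelian 2 E ∧ Nat.card ↥E = 2 ^ (n + 1)) ∧ Cfsg.IsLargeExtraspecial Q ∧ ∃ K : Subgroup G, K ≤ Subgroup.centralizer (Z : Set G) ∧ Q ⊓ K = ⊥ ∧ Q ⊔ K = Subgroup.centralizer (Z : Set G) ∧ Nonempty (↥K ≃* Matrix.GeneralLinearGroup (Fin n) (ZMod 2))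 := by
  obtain ⟨z, hzZ, hz1, hzu⟩ : ∃ z ∈ Z, z ≠ 1 ∧ ∀ y ∈ Z, y = 1 ∨ y = z := by
    obtain ⟨z, h1, h2⟩ := (Nat.card_eq_two_iff' (1 : Z)).1 hZ
    refine ⟨z, z.2, fun h => h1 (Subtype.ext h), fun y hy => ?_⟩
    by_cases h : y = 1
    · exact Or.inl h
    · exact Or.inr (congrArg Subtype.val (h2 ⟨y, hy⟩ fun e => h (congrArg Subtype.val e)))
  haveI := hU.1
  letI : CommGroup U := { (inferInstance : Group U) with mul_comm := fun a b => mul_comm' a b }
  obtain ⟨β, hβ⟩ := exists_coord (U := U) n (fun x => Subtype.ext (hU.2 x x.2)) hUcard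
    ⟨z, hZU hzZ⟩ (fun h => hz1 (congrArg Subtype.val h))
  let u : F × (Fin n → F) → G := fun t => ((β t).toMul : U)
  have hu_add : ∀ s t, u (s + t) = u s * u t := fun s t => by simp only [u, map_add]; rfl
  have hu_mem : ∀ t, u t ∈ U := fun t => (β t).toMul.2
  have hu_inj : Function.Injective u := fun s t h => β.injective (Subtype.ext h)
  have hu_surj : ∀ x ∈ U, ∃ t, u t = x := fun x hx =>
    ⟨β.symm (Additive.ofMul ⟨x, hx⟩), by simp [u]⟩
  have hu0 : u 0 = 1 := by simp [u]
  have huz : u (1, 0) = z := by simp only [u, hβ]; rfl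
  have hUc : ∀ x ∈ U, ∀ y ∈ U, x * y = y * x := fun x hx y hy =>
    congrArg Subtype.val (mul_comm (⟨x, hx⟩ : U) ⟨y, hy⟩)
  have hex : ∀ d : D n, ∃ m ∈ M, ∀ t, m * u t * m⁻¹ = u (af d.a d.k.1 t) := by
    intro d
    let α : (F × (Fin n → F)) ≃+ (F × (Fin n → F)) :=
      { toFun := af d.a d.k.1, invFun := af d⁻¹.a d⁻¹.k.1
        left_inv := fun t => by
          rw [af_af, ← mul_a, ← Units.val_mul, ← mul_k, inv_mul_cancel]; exact af_one t
        right_inv := fun t => by
          rw [af_af, ← mul_a, ← Units.val_mul, ← mul_k, mul_inv_cancel]; exact af_one t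
        map_add' := af_add _ _ }
    obtain ⟨m, hm, h⟩ := hfull (MulEquiv.toAdditive.symm ((β.symm.trans α).trans β))
    refine ⟨m, hm, fun t => ?_⟩
    rw [← h (β t).toMul]
    show (((β (α (β.symm (β t)))).toMul : U) : G) = _
    rw [β.symm_apply_apply]; rfl
  choose m hmM hm using hex
  have huniq : ∀ x ∈ M, ∀ y ∈ M, (∀ t, x * u t * x⁻¹ = y * u t * y⁻¹) → x = y := by
    intro x hx y hy h
    have := hfaith (y⁻¹ * x) (M.mul_mem (M.inv_mem hy) hx) fun v hv => by
      obtain ⟨t, rfl⟩ := hu_surj v hv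
      calc y⁻¹ * x * u t * (y⁻¹ * x)⁻¹ = y⁻¹ * (x * u t * x⁻¹) * y := by group
        _ = u t := by rw [h]; group
    exact (inv_mul_eq_one.1 this).symm
  have hm_mul : ∀ x y, m (x * y) = m x * m y := fun x y =>
    huniq _ (hmM _) _ (M.mul_mem (hmM _) (hmM _)) fun t => by
      rw [hm, mul_a, mul_k, Units.val_mul, ← af_af, ← hm, ← hm]; group
  let ι : D n →* G := MonoidHom.mk' (fun d => u (d.c, d.b) * m d) fun x y => by
    have : ((x * y).c, (x * y).b) = (x.c, x.b) + af x.a x.k.1 (y.c, y.b) :=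
      Prod.ext (by simp [af, add_assoc]) (by simp [af])
    rw [this, hu_add, ← hm, hm_mul]; group
  have hι : ∀ d, ι d = u (d.c, d.b) * m d := fun _ => rfl
  have hinj : Function.Injective ι := by
    rw [injective_iff_map_eq_one]
    intro d hd
    rw [hι] at hd
    have h1 : m d = 1 := by
      have : m d ∈ U ⊓ M := ⟨by rw [eq_inv_of_mul_eq_one_right hd]; exact U.inv_mem (hu_mem _), hmM d⟩
      rwa [hUM] at this
    rw [h1, mul_one, ← hu0] at hd
    have h2 := hu_inj hd
    have h3 := af_id (a := d.a) (k := d.k.1) fun t => hu_inj (by rw [← hm, h1]; group)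
    exact D.ext (congrArg Prod.fst h2) h3.1 (congrArg Prod.snd h2) (Units.ext h3.2)
  have hm1 : ∀ d : D n, d.a = 0 → d.k = 1 → m d = 1 := fun d h1 h2 =>
    huniq _ (hmM _) _ M.one_mem fun t => by rw [hm, h1, h2, Units.val_one, af_one]; group
  have hιz : ι z0 = z := by rw [hι, hm1 _ rfl rfl, mul_one]; exact huz
  have hCz : ∀ g, g ∈ Subgroup.centralizer (Z : Set G) ↔ g * z = z * g := fun g =>
    ⟨fun h => (h z hzZ).symm, fun h y hy => by
      rcases hzu y hy with rfl | rfl
      · simp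
      · exact h.symm⟩
  have hrange : ι.range = Subgroup.centralizer (Z : Set G) := by
    apply le_antisymm
    · rintro _ ⟨d, rfl⟩
      rw [hCz, ← hιz, ← map_mul, ← map_mul, z0_comm]
    · intro g hg
      have hg' : g ∈ ((U ⊔ M : Subgroup G) : Set G) := hUM' ▸ Subgroup.mem_top g
      rw [Subgroup.normal_mul] at hg'
      obtain ⟨x, hx, y, hy, rfl⟩ := hg'
      obtain ⟨t, rfl⟩ := hu_surj x hx
      have hyz : y * z = z * y := by
        have := (hCz _).1 hg
        simp only at this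
        rw [← mul_assoc, ← hUc _ hx _ (hZU hzZ), mul_assoc, mul_assoc] at this
        exact mul_left_cancel this
      have key : ∀ y : G, y * z = z * y → ∃ a k, ∀ t, y * u t * y⁻¹ = u (af a k t) := by
        intro y hy
        choose γ hγ using fun t => hu_surj _ (‹U.Normal›.conj_mem _ (hu_mem t) y)
        obtain ⟨a, k, h⟩ := exists_af (AddMonoidHom.mk' γ fun s t => hu_inj (by
          rw [hu_add, hγ, hγ, hγ, hu_add]; group)) (hu_inj (by
            show u (γ (1, 0)) = _
            rw [hγ, huz, hy]; group))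
        exact ⟨a, k, fun t => by rw [← h, ← hγ]; rfl⟩
      obtain ⟨a, k, h⟩ := key y hyz
      obtain ⟨a', k', h'⟩ := key y⁻¹ (by rw [inv_mul_eq_iff_eq_mul, ← mul_assoc, hyz]; group)
      have e1 := (af_id (a := a' + a ᵥ* k') (k := k * k') fun t => hu_inj (by
        rw [← af_af, ← h, ← h']; group)).2
      have e2 := (af_id (a := a + a' ᵥ* k) (k := k' * k) fun t => hu_inj (by
        rw [← af_af, ← h', ← h]; group)).2
      refine ⟨⟨t.1, a, t.2, ⟨k, k', e1, e2⟩⟩, ?_⟩
      rw [hι, huniq _ (hmM _) y hy fun t => by rw [hm, h]]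
  refine transfer hn ι hinj _ hrange (fun g hg => (hCz g).2 (hιz ▸ hg)) Q hQ fun K hK h g hg => ?_
  rw [hCz]
  have h1 : z * g * z⁻¹ * g⁻¹ ∈ K :=
    K.mul_mem ((Subgroup.mem_normalizer_iff.1 (hιz ▸ h z0 rfl) g).1 hg) (K.inv_mem hg)
  have h2 : z * g * z⁻¹ * g⁻¹ ∈ U := by
    have := ‹U.Normal›.conj_mem _ (U.inv_mem (hZU hzZ)) g
    simpa [mul_assoc] using U.mul_mem (hZU hzZ) this
  have h3 : z * g * z⁻¹ * g⁻¹ = 1 := orderOf_eq_one_iff.1 (Nat.eq_one_of_dvd_coprimes
    (Nat.coprime_two_right.2 hK) (K.orderOf_dvd_natCard h1) (orderOf_dvd_of_pow_eq_one (hU.2 _ h2)))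
  exact (commutatorElement_eq_one_iff_mul_comm.1 h3).symm

end Cfsg.Agent.S5423
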