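import Cfsg.Statements.S5425
import Cfsg.Agent.H14.CZ2
import Cfsg.Agent.H14.TvM24
import Cfsg.Agent.H14.M24Cls
import Cfsg.Agent.H15.StdL32
import Cfsg.Agent.S0249

set_option autoImplicit false
open Cfsg

namespace Cfsg.Agent.S5425

open H14 L L.TvM24 Subgroup

/-- In the Mathieu group of degree 24 (the automorphism group of the length-24 binary Golay code, acting on the 24 coordinates), let z be an involution whose fixed points form an octad (the support of a code word of weight 8), and let Q be the largest normal 2-subgroup of the centralizer C of z. Then Q is extraspecial of order 2^7 with an elementary abelian subgroup of order 16 (plus type), Q is a large extraspecial 2-subgroup, and C is the split extension of Q by the special linear group of degree 3 over the field with two elements. -/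
theorem result (z : ↥Cfsg.M24) (hz : orderOf z = 2) (hfix : (Finset.univ.filter fun p : Cfsg.GolayPt => (z : Equiv.Perm Cfsg.GolayPt) p = p) ∈ Cfsg.octads) (Q : Subgroup ↥Cfsg.M24) (hQ : Q = (Cfsg.pCore 2 ↥(Subgroup.centralizer ({z} : Set ↥Cfsg.M24))).map (Subgroup.centralizer ({z} : Set ↥Cfsg.M24)).subtype) : Cfsg.IsExtraspecial 2 ↥Q ∧ Nat.card ↥Q = 2 ^ 7 ∧ (∃ E : Subgroup ↥Cfsg.M24, E ≤ Q ∧ Cfsg.IsElementaryAbelian 2 E ∧ Nat.card ↥E = 2 ^ 4) ∧ Cfsg.IsLargeExtraspecial Q ∧ ∃ K : Subgroup ↥Cfsg.M24, K ≤ Subgroup.centralizer ({z} : Set ↥Cfsg.M24) ∧ Q ⊓ K = ⊥ ∧ Q ⊔ K = Subgroup.centralizer ({z} : Set ↥Cfsg.M24) ∧ Nonempty (↥K ≃* Matrix.SpecialLinearGroup (Fin 3) (ZMod 2)) := by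
  obtain ⟨g0, h0⟩ := cls2A hz (by
    rw [← nfix_eq_card]; exact fun e => absurd (hfix.2.symm.trans e) (by norm_num))
  have hN := card_M24
  obtain ⟨M, rfl⟩ : ∃ M : PM M24 GolayPt 24 M24c.nets, ev M.gen TvM24.z = z :=
    ⟨cjM M0 g0⁻¹, by rw [ev_cjM, show TvM24.z = zA by decide +kernel, ← h0]; group⟩
  obtain ⟨S⟩ := H15.StdL32.stdSL (F := ZMod 2) (by simp)
  obtain ⟨S'⟩ := H15.StdL32.std (F := ZMod 2) (by simp)
  have := S0249.result (F := ZMod 2) 3 le_rfl
  have := std_simple S S'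
  have hX := noP_simple Nat.prime_two S.card Nat.prime_three (by norm_num)
  have hP : PresF M24 _ _ _ := Pres.of fun _ _ y hy => H15.StdL32.hom S y hy
  have h := ext M hN hP S.card
  obtain rfl : Q = sub M.gen q := by rw [hQ, h.pCore_eq Nat.prime_two hX, map_subgroupOf_eq_of_le h.le]
  have hK := (lqs M hN hP).iso_bot S.card (ls_low M hN) (by norm_num)
  have hl := (ls_le M hN).trans (eqC M hN).1.ge
  refine ⟨h.es, h.card, ⟨_, (e_le M hN).trans (es_le M hN), ?_, e_card M hN⟩, ?_, _, hl, (h.compl hl hK hX).1,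
    (h.compl hl hK hX).2, hK⟩
  · exact elem_mono (e_le M hN) (es_el M hN)
  · have h1 := (ext (cjM M (ev M.gen g)) hN hP S.card).lx.lw.le_O2 (b_le _ hN ((L.sub_single _ b).ge (mem_zpowers _)))
    rw [ev_cjM, ev_cjM, gz M hN, gb M hN] at h1
    have h2 : orderOf (ev M.gen b) = 2 := by rw [← gz M hN, ← h.ord]; exact (MulAut.conj _).orderOf_eq _
    refine h.lx.isLarge_of_mem (b_le M hN ((L.sub_single _ b).ge (mem_zpowers _))) (H21.sq_of_orderOf h2) (fun h3 => ?_) h1
    rcases h.lx.lw.zp.1 h3 with h4 | h4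
    · rw [h4, orderOf_one] at h2; omega
    · exact bz M hN h4

end Cfsg.Agent.S5425
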