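import Cfsg.Statements.S5426
import Cfsg.Agent.H21.LX4

set_option autoImplicit false
open Cfsg

namespace Cfsg.Agent.S5426

open H18 H1 H21 Subgroup

/-- Let Q be a large extraspecial 2-subgroup of the finite group G (extraspecial; centralizer equal to its centre; normal in the centralizer of its centre; normalizing no non-trivial subgroup of odd order) with centre generated by z, and let M be the normal closure of z in G. Then one of the following holds: Q is normal in G; or M is abelian and the generalized Fitting subgroup of G is its largest normal 2-subgroup; or M is the generalized Fitting subgroup of G and is a non-abelian simple group; or M is the generalized Fitting subgroup of G and is the direct product of a non-abelian simple subgroup L and its conjugate u L u⁻¹ by some u in Q (the two meet trivially and commute elementwise), with z = z₁ (u z₁ u⁻¹) for some z₁ in L whose centralizer in L is a Sylow 2-subgroup of L with Frattini subgroup inside the subgroup generated by z₁, and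 Q is not the largest normal 2-subgroup of the centralizer of z. -/
theorem result {G : Type*} [Group G] [Finite G] (Q : Subgroup G) (hQ : Cfsg.IsLargeExtraspecial Q) (z : G) (hz : ((Subgroup.center ↥Q).map Q.subtype) = Subgroup.zpowers z) (M : Subgroup G) (hM : M = Subgroup.normalClosure ({z} : Set G)) : Q.Normal ∨ (IsMulCommutative ↥M ∧ Cfsg.generalizedFittingSubgroup G = Cfsg.pCore 2 G) ∨ (M = Cfsg.generalizedFittingSubgroup G ∧ IsSimpleGroup ↥M ∧ ¬ IsMulCommutative ↥M) ∨ (M = Cfsg.generalizedFittingSubgroup G ∧ ∃ (L : Subgroup G) (u : G), u ∈ Q ∧ IsSimpleGroup ↥L ∧ ¬ IsMulCommutative ↥L ∧ L ⊓ (L).map (MulAut.conj u).toMonoidHom = ⊥ ∧ (∀ x ∈ L, ∀ y ∈ (L).map (MulAut.conj u).toMonoidHom, x * y = y * x) ∧ L ⊔ (L).map (MulAut.conj u).toMonoidHom = M ∧ ∃ z₁ ∈ L, z = z₁ * (u * z₁ * u⁻¹) ∧ (∃ R : Sylow 2 ↥L, (R : Subgroup ↥L) = (Subgroup.centralizer ({z₁} : Set G)).subgroupOf L ∧ (frattini ↥(R : Subgroup ↥L)).map ((L.subtype).comp (R : Subgroup ↥L).subtype) ≤ Subgroup.zpowers z₁) ∧ Q ≠ (Cfsg.pCore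 2 ↥(Subgroup.centralizer ({z} : Set G))).map (Subgroup.centralizer ({z} : Set G)).subtype) := by
  have h := lx_of_L' hQ.1 hQ.2.1 hQ.2.2.1 hz
  subst hM
  rcases h.cases fun K h1 h2 => hQ.2.2.2 K (pi_odd_iff.1 h1) h2 with ⟨h1, h2⟩ | ⟨h1, hF, h2 | ⟨L, u, a, t, e⟩⟩
  · exact .inr (.inl ⟨h1.comm, h2⟩)
  · exact .inr (.inr (.inl ⟨h1, (simple_of_comp hF h2).2⟩))
  obtain ⟨s1, s2, s3⟩ := simple_of_comp hF t.comp
  have c : L ≤ C(cj u L) := comm_eq_bot_iff.1
    ((t.comp.eq_or_commutator (t.comp.cj_of_mem_normalizer (g := u) (by simp))).resolve_left t.ne.symm)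
  obtain ⟨R, hR⟩ := t.hall.exists_sylow Nat.prime_two
  refine .inr (.inr (.inr ⟨h1, L, u, t.mem, s2, s3, le_bot_iff.1 (s1 ▸ inf_le_inf_left _ (cent_symm c)),
    cent_iff.1 c, e, a, t.aL, t.eq, ⟨R, ?_, ?_⟩, by rw [pCore_map Nat.prime_two]; exact t.ne2⟩))
  · rw [← inf_subgroupOf_left, ← hR, subgroupOf, comap_map_eq_self_of_injective (subtype_injective L)]
  · rw [← map_map, ← phi]
    refine le_trans ?_ t.phi
    rw [← hR, ← mim_subtype, ← mim_subtype, PiGrp.mim_phi (piGrp_of_isPGroup Nat.prime_two R.isPGroup') Nat.prime_two le_top]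

end Cfsg.Agent.S5426
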