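import Cfsg.Statements.S5427
import Cfsg.Agent.H21.LX4

set_option autoImplicit false
open Cfsg

namespace Cfsg.Agent.S5427

open H18 H1 H21 Subgroup

/-- Let z be an involution of the finite group G whose centralizer C has generalized Fitting subgroup Q, an extraspecial 2-group of width at least 2 (order 2^(2w+1), w ≥ 2). Let K be a subgroup of G such that the subgroup U generated by the K-conjugates of z is abelian and C is generated by the C-conjugates of U. Suppose that either some K-conjugate of z other than z lies in Q, or some element u of U ∩ Q outside the subgroup generated by z has z in the largest normal 2-subgroup of its centralizer. Then G is simple and Q is a large extraspecial 2-subgroup of G. -/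
theorem result {G : Type*} [Group G] [Finite G] (z : G) (hz : orderOf z = 2) (Q : Subgroup G) (hQC : Q ≤ Subgroup.centralizer ({z} : Set G)) (hF : (Cfsg.generalizedFittingSubgroup ↥(Subgroup.centralizer ({z} : Set G))).map (Subgroup.centralizer ({z} : Set G)).subtype = Q) (hQ : Cfsg.IsExtraspecial 2 ↥Q) (w : ℕ) (hw : 2 ≤ w) (hcard : Nat.card ↥Q = 2 ^ (2 * w + 1)) (K U : Subgroup G) (hU : U = Subgroup.closure {x : G | ∃ k ∈ K, x = k * z * k⁻¹}) (hUab : IsMulCommutative ↥U) (hgen : Subgroup.closure {x : G | ∃ c ∈ Subgroup.centralizer ({z} : Set G), ∃ u ∈ U, x = c * u * c⁻¹} = Subgroup.centralizer ({z} : Set G)) (h3 : (∃ k ∈ K, k * z * k⁻¹ ∈ Q ∧ k * z * k⁻¹ ≠ z) ∨ ∃ u ∈ U ⊓ Q, u ∉ Subgroup.zpowers z ∧ (∃ hz' : z ∈ Subgroup.centralizer ({u} : Set G), (⟨z, hz'⟩ : ↥(Subgroup.centralizer ({u} : Set G))) ∈ Cfsg.pCore 2 ↥(Subgroup.centralizer ({u} : Set G)))) : IsSimpleGroup G ∧ Cfsg.IsLargeExtraspecial Q := by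
  obtain ⟨h, hO⟩ := lx_of_gfit hz hF hQ
  have hl : IsLargeExtraspecial Q := by
    rcases h3 with ⟨k, -, h1, h2⟩ | ⟨u, hu, h1, hz', h2⟩
    · have p := h.lw.lp h1 h2 (h.symm (eight_lt hw hcard) h1)
      exact h.isLarge_of_mem h1 p.l'.sq p.not_mem (p.l'.le_O2 p.zQ)
    · refine h.isLarge_of_mem hu.2 ?_ h1 (pCore_map (H := C1(u)) Nat.prime_two ▸ ⟨_, h2, rfl⟩)
      have := (abel_of_comm hUab).omega_elem (p := 2)
      refine pow_two u ▸ this.pow u ((?_ : U ≤ Ω[2](U)) hu.1)
      nth_rewrite 1 [hU]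
      rw [closure_le]
      rintro _ ⟨k, hk, rfl⟩
      exact mem_omega (hU ▸ subset_closure ⟨k, hk, rfl⟩) (by rw [conj_pow, ← hz, pow_orderOf_eq_one]; simp)
  refine ⟨h.simple (fun K h1 h2 => hl.2.2.2 K (pi_odd_iff.1 h1) h2) hO ?_, hl⟩
  rw [← hgen, closure_le]
  rintro _ ⟨c, -, u, hu, rfl⟩
  refine normalClosure_normal.conj_mem _ ((?_ : U ≤ _) hu) c
  rw [hU, closure_le]
  rintro _ ⟨k, -, rfl⟩
  exact normalClosure_normal.conj_mem _ (subset_normalClosure (Set.mem_singleton z)) k

end Cfsg.Agent.S5427
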