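import Cfsg.Statements.S5428
import Cfsg.Agent.H21.LX2

set_option autoImplicit false
open Cfsg

namespace Cfsg.Agent.S5428

open H18 H1 H21 Subgroup

/-- Let z be an involution of the finite group G whose centralizer C has generalized Fitting subgroup Q extraspecial (as a 2-group), let A be a subgroup of C of odd order, and let R be the centralizer of A in Q; suppose R has order at least 32, the largest normal subgroup of odd order of the centralizer of the subgroup generated by A and R lies in A, the order of that centralizer is not divisible by 4, and g is an element of G with g z g⁻¹ in R but outside the centre Z of Q. Let M be the subgroup generated by A and the centralizer of A (A is normal in it). Then: the centralizer in M of the subgroup generated by R and A, joined with A, equals the subgroup generated by A and Z; the image of R in M/A is a large extraspecial 2-subgroup of M/A; and g z g⁻¹ is conjugate to z inside the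 subgroup generated by R and the centralizer of A in g Q g⁻¹. -/
theorem result {G : Type*} [Group G] [Finite G] (z : G) (hz : orderOf z = 2) (Q : Subgroup G) (hQC : Q ≤ Subgroup.centralizer ({z} : Set G)) (hF : (Cfsg.generalizedFittingSubgroup ↥(Subgroup.centralizer ({z} : Set G))).map (Subgroup.centralizer ({z} : Set G)).subtype = Q) (hQ : Cfsg.IsExtraspecial 2 ↥Q) (A : Subgroup G) (hA : A ≤ Subgroup.centralizer ({z} : Set G)) (hAodd : Odd (Nat.card ↥A)) (R : Subgroup G) (hR : R = Q ⊓ Subgroup.centralizer (A : Set G)) (hR32 : 32 ≤ Nat.card ↥R) (hO : (Cfsg.oddCore ↥(Subgroup.centralizer ((A ⊔ R : Subgroup G) : Set G))).map (Subgroup.centralizer ((A ⊔ R : Subgroup G) : Set G)).subtype ≤ A) (h4 : ¬ 4 ∣ Nat.card ↥(Subgroup.centralizer ((A ⊔ R : Subgroup G) : Set G))) (g : G) (hgR : g * z * g⁻¹ ∈ R) (hgZ : g * z * g⁻¹ ∉ ((Subgroup.center ↥Q).map Q.subtype)) (M : Subgroup G) (hM : M = Subgroup.centralizer (A : Set G) ⊔ A) [hn : (A.subgroupOf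 M).Normal] : (M ⊓ Subgroup.centralizer ((R ⊔ A : Subgroup G) : Set G)) ⊔ A = A ⊔ ((Subgroup.center ↥Q).map Q.subtype) ∧ Cfsg.IsLargeExtraspecial ((R.subgroupOf M).map (QuotientGroup.mk' (A.subgroupOf M))) ∧ ∃ x ∈ R ⊔ ((Q).map (MulAut.conj g).toMonoidHom ⊓ Subgroup.centralizer (A : Set G)), x * (g * z * g⁻¹) * x⁻¹ = z := by
  obtain ⟨h, -⟩ := lx_of_gfit hz hF hQ
  have l := h.lw
  rw [h.map_center] at hgZ ⊢
  rw [← cj_def]
  rw [pPrimeCore_map Nat.prime_two] at hO
  have hp := pi_odd_iff.2 hAodd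
  have hRQ : R ≤ Q := hR ▸ inf_le_left
  have hRA : R ≤ C(A) := hR ▸ inf_le_right
  have hzA : z ∈ C(A) := le_C1_iff.1 hA
  have hzR : z ∈ R := hR ▸ ⟨l.mem, hzA⟩
  have zz : ∀ {Q : Subgroup G} {z : G}, LX Q z → A ≤ C1(z) → ES 2 (Q ⊓ C(A)) ∧ Z(Q ⊓ C(A)) = zpowers z :=
    fun {Q z} h hA => by
    have hN := hA.trans h.norm
    have cop : Cop A Q := cop_of_pi' hN hp h.lw.pi (.inr h.lw.pi.solv)
    exact ⟨h.es.cop_es_cent cop (h.es.norm_cent_two hN), (h.es.cop_Z_cent cop (h.es.norm_cent_two hN)).trans h.zp_eq.symm⟩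
  have yy : ∀ {Q : Subgroup G} {z x : G}, LX Q z → A ≤ C1(z) → x ∈ Q ⊓ C(A) → x ∉ zpowers z →
      ∃ y ∈ Q ⊓ C(A), y * x * y⁻¹ = x * z := fun {Q z x} h hA hx hx' => by
    by_contra hc
    push Not at hc
    exact hx' ((zz h hA).2 ▸ ⟨hx, mem_C.2 fun y hy => by
      have := (h.lw.conj_or hx.1 hy.1).resolve_right (hc y hy)
      rwa [mul_inv_eq_iff_eq_mul] at this⟩)
  have p := l.lp (hRQ hgR) (fun e => hgZ (by rw [e]; exact mem_zpowers z)) (h.symm (by have := card_le hRQ; omega) (hRQ hgR))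
  obtain ⟨y, hy, y2⟩ := yy h hA (hR ▸ hgR) hgZ
  obtain ⟨q, hq, q2⟩ := yy (h.cj g) (le_C1_iff.2 (hRA hgR)) ⟨p.zQ, hzA⟩ p.symm.not_mem
  rw [← hR] at hy
  have q1 := conj_eq_self_of_C1 (p.l'.cent hq.1)
  generalize g * z * g⁻¹ = x at *
  have ea : q * y * x * (q * y)⁻¹ = z := by
    rw [show q * y * x * (q * y)⁻¹ = q * (y * x * y⁻¹) * q⁻¹ by group, y2, ← conj_mul, q1, q2, ← p.xz, ← mul_assoc,
      p.l'.sq, one_mul]
  have hD : C(A ⊔ R) ≤ A ⊔ zpowers z := by
    have hzD : zpowers z ≤ C(A ⊔ R) := zpowers_le.2 (by rw [C_sup]; exact ⟨hzA, C_anti hRQ l.zC⟩)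
    have hc : Nat.card (zpowers z) = 2 := by rw [card_zpowers', hz]
    have hS : Hall {2} (zpowers z) C(A ⊔ R) := ⟨hzD, piGrp_of_prime Nat.prime_two hc,
      (piNat_compl_iff Nat.prime_two).2 fun c => h4 (by
        rw [← H18.card_mul_relIndex hzD, hc]; exact mul_dvd_mul_left 2 c)⟩
    rw [← hS.sup_compl (Burnside_normal_complement Nat.prime_two hS (inf_le_left.trans
      (C_anti ((zpowers_le.2 hzR).trans le_sup_right)))), sup_comm]
    exact sup_le_sup_right hO _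
  have hAM : A ≤ M := hM ▸ le_sup_right
  have hCM : C(A) ≤ M := hM ▸ le_sup_left
  refine ⟨le_antisymm (sup_le (inf_le_right.trans (by rwa [sup_comm])) le_sup_left) (sup_le le_sup_right
    (le_sup_of_le_left (zpowers_le.2 ⟨hCM hzA, by rw [C_sup]; exact ⟨C_anti hRQ l.zC, hzA⟩⟩))), ?_,
    q * y, mul_mem (mem_sup_right hq) (mem_sup_left hy), ea⟩
  change IsLargeExtraspecial (mim (QuotientGroup.mk' (A.subgroupOf M)) R)
  have hk : mker (QuotientGroup.mk' (A.subgroupOf M)) = A := by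
    rw [mker, mpre, MonoidHom.comap_bot, QuotientGroup.ker_mk', subgroupOf_map_subtype, inf_eq_left.2 hAM]
  have hs : ∀ c, ∃ a ∈ C(A), mfun (QuotientGroup.mk' (A.subgroupOf M)) a = c := fun c => by
    obtain ⟨m, rfl⟩ := QuotientGroup.mk'_surjective _ c
    obtain ⟨a, ha, b, hb, e⟩ := (mem_sup_of_cent le_rfl).1 (hM.le m.2)
    exact ⟨a, ha, by rw [← mfun_coe, mfun_eq_iff (hCM ha) m.2, hk, e]; simpa using hb⟩
  generalize QuotientGroup.mk' (A.subgroupOf M) = f at hk hs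
  have hd : R ⊓ mker f = ⊥ := by rw [hk]; exact PiGrp.inf_eq_bot (l.pi.of_le hRQ) hp
  have key : ∀ c ∈ C(A), ∀ r ∈ R, mfun f c ∈ C1(mfun f r) → c ∈ C1(r) := fun c hc r hr e => by
    have h1 : r⁻¹ * (c * r * c⁻¹) ∈ A := by
      rw [← hk, ← mfun_eq_iff (hCM (hRA hr)) (hCM (mul_mem (mul_mem hc (hRA hr)) (inv_mem hc))),
        mfun_conj (hCM hc) (hCM (hRA hr)), conj_eq_self_of_C1 e]
    have h2 := (l.pi.elt (hRQ hr))
    have h3 := PiElt.eq_one' (h2.inv.mul' (h2.conj c) (by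
      have := mem_C.1 (hRA hr) _ h1
      rw [mul_inv_cancel_left] at this
      rw [eq_mul_inv_iff_mul_eq, this])) (hp.elt h1)
    rw [inv_mul_eq_one, eq_mul_inv_iff_mul_eq] at h3
    exact mem_C1.2 h3.symm
  have hRM := hRA.trans hCM
  obtain ⟨e1, e2⟩ := zz h hA
  rw [← hR] at e1 e2
  have hna : ¬ Abel R := fun c => by have := e1.eq_Z_of_abel c; omega
  obtain ⟨e3, e4⟩ := (isExtraspecial_iff Nat.prime_two).1 (isExtraspecial_of_equiv Nat.prime_two
    (mimEquiv f R hRM hd) ((isExtraspecial_iff Nat.prime_two).2 ⟨e1, hna⟩))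
  have h' : LX (mim f R) (mfun f z) := ⟨e3, e4, ⟨mfun_mem_mim hzR, le_C1_iff.1 (mim_C1 (hRM hzR) (hRQ.trans l.cent))⟩,
    fun e => l.ne (eq_one_of_eq_bot hd ⟨hzR, mem_mker.2 ⟨hRM hzR, e⟩⟩), fun c hc => by
      obtain ⟨c, hc', rfl⟩ := hs c
      have : c ∈ C(A ⊔ R) := by
        rw [C_sup]
        exact ⟨hc', mem_C.2 fun r hr => (mem_C1.1 (key c hc' r hr (C_le_C1 (mfun_mem_mim hr) hc))).symm⟩
      rw [← mim_sup_mker hRM, hk, sup_comm]
      exact mfun_mem_mim (sup_le_sup_left (zpowers_le.2 hzR) _ (hD this)), fun c hc => by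
      obtain ⟨c, hc', rfl⟩ := hs c
      refine mim_norm (A := zpowers c) (zpowers_le.2 ?_) (mfun_mem_mim (mem_zpowers c))
      rw [hR]
      exact norm_inf (inf_le_left.trans h.norm) (inf_le_right.trans le_N) ⟨key c hc' z hzR hc, hc'⟩⟩
  have ha := hCM (mul_mem hq.2 (hRA hy))
  have e5 : (mfun f (q * y))⁻¹ * mfun f z * (mfun f (q * y))⁻¹⁻¹ = mfun f x := by
    rw [← ea, mfun_conj ha (hRM hgR)]; group
  have h1 := e5 ▸ mfun_mem_mim (f := f) hgR
  have p' := h'.lw.lp h1 (fun e => p.ne (by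
    rw [e5, mfun_eq_iff (hRM hgR) (hRM hzR)] at e
    exact inv_mul_eq_one.1 (eq_one_of_eq_bot hd ⟨R.mul_mem (R.inv_mem hgR) hzR, e⟩)))
    (h'.symm (by rw [card_mim_of_disj hRM hd]; omega) h1)
  exact h'.isLarge_of_mem h1 p'.l'.sq p'.not_mem (p'.l'.le_O2 p'.zQ)

end Cfsg.Agent.S5428
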