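import Cfsg.Statements.S5429
import Cfsg.Agent.H21.LX2

set_option autoImplicit false
open Cfsg

namespace Cfsg.Agent.S5429

open H18 H1 H21 Subgroup
open scoped commutatorElement

/-- Let z be an involution of the finite group G with centralizer C whose generalized Fitting subgroup Q is extraspecial of width at least 3 (order 2^(2w+1), w ≥ 3); let g be an element of G with g z g⁻¹ in Q but outside the centre Z of Q, and t an involution lying in both Q and g Q g⁻¹ that is not conjugate to z; write P for the centralizer of t in Q and suppose that the elements of C acting trivially by conjugation on P modulo the subgroup generated by t and z are exactly the elements of Q. Then the image of P in the centralizer of t modulo the subgroup generated by t is a large extraspecial 2-subgroup there, and g z g⁻¹ is conjugate to z inside the subgroup generated by P and the centralizer of t in g Q g⁻¹. -/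
theorem result {G : Type*} [Group G] [Finite G] (z : G) (hz : orderOf z = 2) (Q : Subgroup G) (hQC : Q ≤ Subgroup.centralizer ({z} : Set G)) (hF : (Cfsg.generalizedFittingSubgroup ↥(Subgroup.centralizer ({z} : Set G))).map (Subgroup.centralizer ({z} : Set G)).subtype = Q) (hQ : Cfsg.IsExtraspecial 2 ↥Q) (w : ℕ) (hw : 3 ≤ w) (hcard : Nat.card ↥Q = 2 ^ (2 * w + 1)) (g : G) (hgQ : g * z * g⁻¹ ∈ Q) (hgZ : g * z * g⁻¹ ∉ ((Subgroup.center ↥Q).map Q.subtype)) (t : G) (ht : orderOf t = 2) (htQ : t ∈ Q ⊓ (Q).map (MulAut.conj g).toMonoidHom) (htz : ¬ IsConj z t) (P : Subgroup G) (hP : P = Q ⊓ Subgroup.centralizer ({t} : Set G)) (hCP : ∀ c ∈ Subgroup.centralizer ({z} : Set G), (∀ x ∈ P, ∃ y ∈ Subgroup.closure ({t, z} : Set G), c * x * c⁻¹ = x * y) ↔ c ∈ Q) [hn : ((Subgroup.zpowers t).subgroupOf (Subgroup.centralizer ({t} : Set G))).Normal] : Cfsg.IsLargeExtraspecial ((P.subgroupOf (Subgroup.centralizer ({t} : Set G))).map (QuotientGroup.mk'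 ((Subgroup.zpowers t).subgroupOf (Subgroup.centralizer ({t} : Set G))))) ∧ ∃ x ∈ P ⊔ ((Q).map (MulAut.conj g).toMonoidHom ⊓ Subgroup.centralizer ({t} : Set G)), x * (g * z * g⁻¹) * x⁻¹ = z := by
  obtain ⟨h, -⟩ := lx_of_gfit hz hF hQ
  have l := h.lw
  rw [h.map_center] at hgZ
  rw [← cj_def] at htQ ⊢
  have p := l.lp hgQ (fun e => hgZ (by rw [e]; exact mem_zpowers z)) (h.symm (eight_lt (by omega) hcard) hgQ)
  have hxc : IsConj z (g * z * g⁻¹) := isConj_iff.2 ⟨g, rfl⟩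
  generalize g * z * g⁻¹ = x at *
  generalize cj g Q = Q' at *
  have t2 := sq_of_orderOf ht
  have htz' : t ∉ zpowers z := by
    rw [l.zp]; exact not_or.2 ⟨ne_of_orderOf ht, fun e => htz (e ▸ IsConj.refl _)⟩
  obtain ⟨s, hsQ, es⟩ := h.exists_conj htQ.1 htz'
  have n1 : ¬ IsConj z (t * z) := fun c => htz (c.trans (isConj_iff.2 ⟨s, es⟩).symm)
  have yy : ∀ {Q Q' : Subgroup G} {z x : G}, LP Q Q' z x → t ∈ Q ⊓ Q' → x ≠ t → x * t ≠ z →
      ∃ y ∈ Q ⊓ C1(t), y * x * y⁻¹ = x * z := fun {Q Q' z x} p ht h1 h2 => by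
    by_contra hc
    push Not at hc
    rcases p.l.mem_four ht.1 t2 p.xQ p.l'.sq (mem_C.2 fun y hy => by
      have := (p.l.conj_or p.xQ hy.1).resolve_right (hc y hy)
      rwa [mul_inv_eq_iff_eq_mul] at this) with e | e
    · exact p.not_mem e
    · exact (p.l.zp.1 e).elim (fun e => h1 (by rw [eq_inv_of_mul_eq_one_left e, inv_of_sq t2])) h2
  obtain ⟨y, hy, y2⟩ := yy p htQ (fun e => htz (e ▸ hxc)) fun e => n1 (by
    rwa [l.zcomm htQ.1, show z * t = x by rw [← e, mul_assoc, t2, mul_one]])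
  obtain ⟨q, hq, q2⟩ := yy p.symm ⟨htQ.2, htQ.1⟩ (fun e => htz (e ▸ IsConj.refl _)) fun e => n1 (by
    rwa [l.zcomm htQ.1, e])
  rw [← hP] at hy
  have q1 := conj_eq_self_of_C1 (p.l'.cent hq.1)
  have ea : q * y * x * (q * y)⁻¹ = z := by
    rw [show q * y * x * (q * y)⁻¹ = q * (y * x * y⁻¹) * q⁻¹ by group, y2, ← conj_mul, q1, q2, ← p.xz, ← mul_assoc,
      p.l'.sq, one_mul]
  refine ⟨?_, q * y, mul_mem (mem_sup_right hq) (mem_sup_left hy), ea⟩
  change IsLargeExtraspecial (mim (QuotientGroup.mk' ((zpowers t).subgroupOf C1(t))) P)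
  have hk : mker (QuotientGroup.mk' ((zpowers t).subgroupOf C1(t))) = zpowers t := by
    rw [mker, mpre, MonoidHom.comap_bot, QuotientGroup.ker_mk', subgroupOf_map_subtype, inf_eq_left.2 (zpowers_le.2 C1_self)]
  have hs : ∀ c, ∃ a ∈ C1(t), mfun (QuotientGroup.mk' ((zpowers t).subgroupOf C1(t))) a = c := fun c => by
    obtain ⟨m, rfl⟩ := QuotientGroup.mk'_surjective _ c
    exact ⟨m, m.2, mfun_coe m⟩
  generalize QuotientGroup.mk' ((zpowers t).subgroupOf C1(t)) = f at hk hs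
  have hPM : P ≤ C1(t) := hP ▸ inf_le_right
  have hPQ : P ≤ Q := hP ▸ inf_le_left
  have hzP : z ∈ P := hP ▸ ⟨l.mem, mem_C1_comm.1 (l.cent htQ.1)⟩
  have hxP : x ∈ P := hP ▸ ⟨hgQ, mem_C1_comm.1 (p.l'.cent htQ.2)⟩
  have k1 : ∀ c ∈ C1(t), ∀ r ∈ P, mfun f c ∈ C1(mfun f r) → r⁻¹ * (c * r * c⁻¹) ∈ zpowers t := fun c hc r hr e => by
    rw [← hk, ← mfun_eq_iff (hPM hr) (mul_mem (mul_mem hc (hPM hr)) (inv_mem hc)), mfun_conj hc (hPM hr),
      conj_eq_self_of_C1 e]
  have k2 : ∀ c ∈ C1(t), mfun f c ∈ C1(mfun f z) → c ∈ C1(z) := fun c hc e => by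
    rcases (mem_zp_two t2).1 (k1 c hc z hzP e) with e | e
    · rw [inv_mul_eq_one, eq_mul_inv_iff_mul_eq] at e
      exact mem_C1.2 e.symm
    · exact absurd (isConj_iff.2 ⟨c, by rw [l.zcomm htQ.1, ← e]; group⟩) n1
  have ets : ⁅t, s⁆ ≠ 1 := fun e => LP.not_C l.ne es (mem_C1.2 (commutatorElement_eq_one_iff_mul_comm.1 e).symm)
  obtain ⟨v, rfl⟩ : ∃ v, w = v + 1 := ⟨w - 1, by omega⟩
  have c1 := h.es.pair_card' Nat.prime_two htQ.1 hsQ ets hcard
  have c2 := h.es.pair_es Nat.prime_two htQ.1 hsQ ets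
  have c3 := h.es.pair_cent Nat.prime_two htQ.1 hsQ ets
  rw [← hP] at c1 c2 c3
  have hd : (P ⊓ C1(s)) ⊓ mker f = ⊥ := by
    rw [hk, inf_comm]
    exact prime_TI (by rw [card_zpowers', ht]; exact Nat.prime_two) fun c =>
      LP.not_C l.ne es (mem_C1_comm.1 (c (mem_zpowers t)).2)
  have e0 : mim f P = mim f (P ⊓ C1(s)) := by
    rw [← mim_sup_mker (inf_le_left.trans hPM), hk, c3]
  obtain ⟨e3, e4⟩ := (isExtraspecial_iff Nat.prime_two).1 (isExtraspecial_of_equiv Nat.prime_two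
    (mimEquiv f _ (inf_le_left.trans hPM) hd) ((isExtraspecial_iff Nat.prime_two).2
      ⟨c2, fun c => by have := (c2.abel_iff_card Nat.prime_two c1).1 c; omega⟩))
  rw [← e0] at e3 e4
  have h' : LX (mim f P) (mfun f z) := ⟨e3, e4, ⟨mfun_mem_mim hzP, le_C1_iff.1 (mim_C1 (hPM hzP) (hPQ.trans l.cent))⟩,
    fun e => by
      rcases (mem_zp_two t2).1 (hk ▸ mem_mker.2 ⟨hPM hzP, e⟩) with e | e
      · exact l.ne e
      · exact htz (e ▸ IsConj.refl _), fun c hc => by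
      obtain ⟨c, hc', rfl⟩ := hs c
      refine mfun_mem_mim (hP ▸ ⟨(hCP c (k2 c hc' (C_le_C1 (mfun_mem_mim hzP) hc))).1 fun r hr =>
        ⟨_, (zpowers_le.2 LP.z_mem) (k1 c hc' r hr (C_le_C1 (mfun_mem_mim hr) hc)), by group⟩, hc'⟩), fun c hc => by
      obtain ⟨c, hc', rfl⟩ := hs c
      refine mim_norm (A := zpowers c) (zpowers_le.2 ?_) (mfun_mem_mim (mem_zpowers c))
      rw [hP]
      exact norm_inf (inf_le_left.trans h.norm) (inf_le_right.trans le_N) ⟨k2 c hc' hc, hc'⟩⟩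
  have ha := mul_mem hq.2 (hPM hy)
  have e5 : (mfun f (q * y))⁻¹ * mfun f z * (mfun f (q * y))⁻¹⁻¹ = mfun f x := by
    rw [← ea, mfun_conj ha (hPM hxP)]; group
  have h1 := e5 ▸ mfun_mem_mim (f := f) hxP
  have p' := h'.lw.lp h1 (fun e => by
    rw [e5, mfun_eq_iff (hPM hxP) (hPM hzP), hk] at e
    rcases (mem_zp_two t2).1 e with e | e
    · exact p.ne (inv_mul_eq_one.1 e)
    · exact n1 (by rwa [← e, mul_assoc, l.sq, mul_one, inv_of_sq p.l'.sq]))
    (h'.symm (eight_lt (w := v) (by omega) (by rw [e0, card_mim_of_disj (inf_le_left.trans hPM) hd, c1])) h1)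
  exact h'.isLarge_of_mem h1 p'.l'.sq p'.not_mem (p'.l'.le_O2 p'.zQ)

end Cfsg.Agent.S5429
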