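import Cfsg.Statements.S5430
import Cfsg.Agent.H21.LX2

set_option autoImplicit false
open Cfsg

namespace Cfsg.Agent.S5430

open H18 H1 H21 Subgroup

/-- Let Q be a large extraspecial 2-subgroup of the finite group G (extraspecial; centralizer equal to its centre; normal in the centralizer of its centre; normalizing no non-trivial subgroup of odd order) with centre generated by z, an involution, of width w ≥ 2 (order 2^(2w+1)); let g be an element outside the centralizer H of z with g z g⁻¹ in Q; write V for the subgroup generated by z and g z g⁻¹, X for the subgroup generated by Q and g Q g⁻¹, R for the subgroup generated by the centralizer of z in g Q g⁻¹ and the centralizer of g z g⁻¹ in Q, and E for the intersection of Q and g Q g⁻¹. Then R is the centralizer of V in X and is the largest normal 2-subgroup of X, and X/R is isomorphic to the symmetric group of degree 3; moreover the normalizer of V is the product of X and the centralizer of V in H,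 X is normal in it, and modulo R it is the direct product of X/R and of the centralizer of V in H modulo R. -/
theorem result {G : Type*} [Group G] [Finite G] (Q : Subgroup G) (hQ : Cfsg.IsLargeExtraspecial Q) (z : G) (hz : ((Subgroup.center ↥Q).map Q.subtype) = Subgroup.zpowers z) (hz2 : orderOf z = 2) (w : ℕ) (hw : 2 ≤ w) (hcard : Nat.card ↥Q = 2 ^ (2 * w + 1)) (g : G) (hgH : g ∉ Subgroup.centralizer ({z} : Set G)) (hgQ : g * z * g⁻¹ ∈ Q) (V X R E : Subgroup G) (hV : V = Subgroup.closure ({z, g * z * g⁻¹} : Set G)) (hX : X = Q ⊔ (Q).map (MulAut.conj g).toMonoidHom) (hR : R = ((Q).map (MulAut.conj g).toMonoidHom ⊓ Subgroup.centralizer ({z} : Set G)) ⊔ (Q ⊓ Subgroup.centralizer ({g * z * g⁻¹} : Set G))) (hE : E = Q ⊓ (Q).map (MulAut.conj g).toMonoidHom) : R = X ⊓ Subgroup.centralizer (V : Set G) ∧ R = (Cfsg.pCore 2 ↥X).map X.subtype ∧ (∃ h : (R.subgroupOf X).Normal, Nonempty (↥X ⧸ R.subgroupOf X ≃* Equiv.Perm (Fin 3))) ∧ Subgroup.normalizer (V : Set G)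 = X ⊔ (Subgroup.centralizer ({z} : Set G) ⊓ Subgroup.centralizer (V : Set G)) ∧ (∀ y ∈ Subgroup.normalizer (V : Set G), ∀ x ∈ X, y * x * y⁻¹ ∈ X) ∧ R ≤ Subgroup.centralizer ({z} : Set G) ⊓ Subgroup.centralizer (V : Set G) ∧ (∀ x ∈ X, ∀ c ∈ Subgroup.centralizer ({z} : Set G) ⊓ Subgroup.centralizer (V : Set G), x * c * x⁻¹ * c⁻¹ ∈ R) ∧ X ⊓ (Subgroup.centralizer ({z} : Set G) ⊓ Subgroup.centralizer (V : Set G)) = R := by
  have h := lx_of_L' hQ.1 hQ.2.1 hQ.2.2.1 hz
  have p := h.lw.lp hgQ (fun e => hgH (mem_C1.2 (by rwa [mul_inv_eq_iff_eq_mul] at e)))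
    (h.symm (eight_lt hw hcard) hgQ)
  rw [← cj_def] at hX hR
  have e1 : C(V) = C1(z) ⊓ C1(g * z * g⁻¹) := hV ▸ LP.C_V
  have e2 : C1(z) ⊓ C(V) = C1(z) ⊓ C1(g * z * g⁻¹) := by rw [e1, ← inf_assoc, inf_idem]
  have e3 := p.C_X
  rw [← hX, ← hR] at e3
  have hN : X ≤ N(V) := hX ▸ hV ▸ p.X_norm
  rw [e2, e1, pCore_map Nat.prime_two]
  refine ⟨e3.symm, hX ▸ hR ▸ p.O2_X.symm, ?_, hX ▸ hV ▸ p.N_V, hX ▸ hV ▸ norm_iff.1 p.N_norm_X, hR ▸ p.R_le,
    fun x hx c hc => hR ▸ p.comm_X_le (commutator_mem_commutator (hX ▸ hx) hc), e3⟩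
  subst hV
  obtain ⟨φ, h1, h2⟩ := p.exists_hom
  have e : R.subgroupOf X = (φ.comp (inclusion hN)).ker := by
    ext a
    rw [mem_subgroupOf, MonoidHom.mem_ker, MonoidHom.comp_apply, h1, ← e3]
    exact ⟨And.right, fun c => ⟨a.2, c⟩⟩
  refine ⟨by rw [e]; infer_instance, ?_⟩
  have : (R.subgroupOf X).Normal := by rw [e]; infer_instance
  refine ⟨(QuotientGroup.quotientMulEquivOfEq e).trans
    (QuotientGroup.quotientKerEquivOfSurjective _ fun c => ?_)⟩
  obtain ⟨a, ha, rfl⟩ := h2 c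
  exact ⟨⟨a, hX ▸ ha⟩, rfl⟩

end Cfsg.Agent.S5430
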