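import Cfsg.Statements.S5431
import Cfsg.Agent.H21.LX2

set_option autoImplicit false
open Cfsg

namespace Cfsg.Agent.S5431

open H18 H1 H21 Subgroup
open scoped commutatorElement

/-- Let Q be a large extraspecial 2-subgroup of the finite group G (extraspecial; centralizer equal to its centre; normal in the centralizer of its centre; normalizing no non-trivial subgroup of odd order) with centre generated by z, an involution, of width w ≥ 2 (order 2^(2w+1)); let g be an element outside the centralizer H of z with g z g⁻¹ in Q; write V for the subgroup generated by z and g z g⁻¹, X for the subgroup generated by Q and g Q g⁻¹, R for the subgroup generated by the centralizer of z in g Q g⁻¹ and the centralizer of g z g⁻¹ in Q, and E for the intersection of Q and g Q g⁻¹. Then V is the centre of R, E lies in the second centre of R, R is nilpotent of class at most 3, E and R/E are elementary abelian, R/E is the direct product of the images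 of the centralizer of g z g⁻¹ in Q and of the centralizer of z in g Q g⁻¹ (R is their product and they meet in E), and the commutator subgroup of X and E lies in V. -/
theorem result {G : Type*} [Group G] [Finite G] (Q : Subgroup G) (hQ : Cfsg.IsLargeExtraspecial Q) (z : G) (hz : ((Subgroup.center ↥Q).map Q.subtype) = Subgroup.zpowers z) (hz2 : orderOf z = 2) (w : ℕ) (hw : 2 ≤ w) (hcard : Nat.card ↥Q = 2 ^ (2 * w + 1)) (g : G) (hgH : g ∉ Subgroup.centralizer ({z} : Set G)) (hgQ : g * z * g⁻¹ ∈ Q) (V X R E : Subgroup G) (hV : V = Subgroup.closure ({z, g * z * g⁻¹} : Set G)) (hX : X = Q ⊔ (Q).map (MulAut.conj g).toMonoidHom) (hR : R = ((Q).map (MulAut.conj g).toMonoidHom ⊓ Subgroup.centralizer ({z} : Set G)) ⊔ (Q ⊓ Subgroup.centralizer ({g * z * g⁻¹} : Set G))) (hE : E = Q ⊓ (Q).map (MulAut.conj g).toMonoidHom) : (Subgroup.center ↥R).map R.subtype = V ∧ E ≤ (Subgroup.upperCentralSeries ↥R 2).map R.subtype ∧ Subgroup.upperCentralSeries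 ↥R 3 = ⊤ ∧ Cfsg.IsElementaryAbelian 2 E ∧ (∀ x ∈ R, ∀ y ∈ R, x * y * x⁻¹ * y⁻¹ ∈ E ∧ x ^ 2 ∈ E) ∧ ((Q).map (MulAut.conj g).toMonoidHom ⊓ Subgroup.centralizer ({z} : Set G)) ⊓ (Q ⊓ Subgroup.centralizer ({g * z * g⁻¹} : Set G)) = E ∧ ⁅X, E⁆ ≤ V := by
  have h := lx_of_L' hQ.1 hQ.2.1 hQ.2.2.1 hz
  have p := h.lw.lp hgQ (fun e => hgH (mem_C1.2 (by rwa [mul_inv_eq_iff_eq_mul] at e)))
    (h.symm (eight_lt hw hcard) hgQ)
  rw [← cj_def] at hX hR hE ⊢
  generalize g * z * g⁻¹ = x at *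
  generalize cj g Q = Q' at *
  have hR' : R ≤ C(V) := by rw [hR, hV, LP.C_V]; exact p.R_le
  have hVE : V ≤ E := by rw [hV, hE]; exact le_inf p.V_le (by rw [← LP.V_symm]; exact p.symm.V_le)
  have e1 : (Q' ⊓ C1(z)) ⊓ (Q ⊓ C1(x)) = E := hE ▸ le_antisymm
    (le_inf (inf_le_right.trans inf_le_left) (inf_le_left.trans inf_le_left))
    (le_inf (le_inf inf_le_right (inf_le_left.trans p.l.cent)) (le_inf inf_le_left (inf_le_right.trans p.l'.cent)))
  have hER : E ≤ R := by rw [← e1, hR]; exact inf_le_left.trans le_sup_left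
  have hzV : zpowers z ≤ V := hV ▸ zpowers_le.2 LP.z_mem
  have hxV : zpowers x ≤ V := hV ▸ zpowers_le.2 LP.x_mem
  have e2 : Q ⊓ C(Q ⊓ C1(x)) = V := by
    have := h.es.cent_cent Nat.prime_two (h.zp_eq ▸ hzV) (hV ▸ p.V_le)
    rwa [hV, LP.C_V, ← inf_assoc, inf_eq_left.2 p.l.cent, ← hV] at this
  have hZ : Z(R) = V := by
    refine le_antisymm (fun t ht => ?_) (le_inf (hVE.trans hER) (cent_symm hR'))
    have h1 : t ∈ C(Q ⊓ C1(x)) := C_anti (hR ▸ le_sup_right) ht.2
    have := h.es.mem_sup_of_idx h.na (P := Q ⊓ C1(x)) inf_le_left (inf_le_inf_left _ (C_le_C1 p.xQ))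
      (fun a ha b hb h1 h2 => ⟨Q.mul_mem ha (Q.inv_mem hb), by
        simpa using p.l.mul_mem_cent p.xQ (Q.inv_mem ha) (Q.inv_mem hb) (fun c => h1 ⟨ha, by simpa using c⟩)
          fun c => h2 ⟨hb, by simpa using c⟩⟩)
      (h.norm (p.R_le (hR ▸ ht.1)).1) h1 (.inr fun c hc => p.V_sq (hV ▸ e2 ▸ ⟨hc.1.1, hc.2⟩))
    rw [sup_eq_left.2 h.self] at this
    exact e2 ▸ ⟨this, h1⟩
  have hXE : ⁅X, E⁆ ≤ V := by
    rw [hX]
    refine comm_sup_le ?_ ?_ (le_sup_left.trans (hV ▸ p.X_norm)) (le_sup_right.trans (hV ▸ p.X_norm))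
    · exact commutator_le.2 fun a ha b hb => hzV (p.l.comm a ha b (hE ▸ hb : b ∈ Q ⊓ Q').1)
    · exact commutator_le.2 fun a ha b hb => hxV (p.l'.comm a ha b (hE ▸ hb : b ∈ Q ⊓ Q').2)
  have hE2 : E ≤ Z₂(R) := le_zTwo_iff.2 ⟨hER, by
    rw [comm_comm]
    exact ((comm_mono (hX ▸ hR ▸ LP.R_le_X) le_rfl).trans hXE).trans (cent_symm hR')⟩
  have hn : Q' ⊓ C1(z) ≤ N(Q ⊓ C1(x)) := (le_sup_left.trans p.R_le).trans p.CV_norm
  have hn' : Q ⊓ C1(x) ≤ N(Q' ⊓ C1(z)) := (le_sup_left.trans p.symm.R_le).trans' le_rfl |>.trans p.symm.CV_norm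
  have hRR : ⁅R, R⁆ ≤ E := by
    rw [hR, der_sup]
    refine sup_le (sup_le ?_ (e1 ▸ le_inf (comm_le_left hn') (comm_le_right hn))) ?_
    · exact commutator_le.2 fun a ha b hb => hVE (hxV (p.l'.comm a ha.1 b hb.1))
    · exact commutator_le.2 fun a ha b hb => hVE (hzV (p.l.comm a ha.1 b hb.1))
  have tr : ∀ u ∈ zpowers z, u ∈ zpowers x → u = 1 := fun u h1 h2 =>
    (p.l.zp.1 h1).resolve_right fun e => p.symm.not_mem (e ▸ h2)
  refine ⟨(map_center R).trans hZ, hE2, eq_top_iff.2 fun a _ => Subgroup.mem_upperCentralSeries_succ_iff.2 fun b => ?_,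
    ⟨abel_iff.1 (cent_iff.2 fun a ha b hb => ?_), fun a ha => ?_⟩,
    fun a ha b hb => ⟨hRR (commutator_mem_commutator ha hb), ?_⟩, e1, hXE⟩
  · obtain ⟨c, hc, e⟩ := hE2 (hRR (commutator_mem_commutator a.2 b.2))
    exact (Subtype.ext e : c = ⁅a, b⁆) ▸ hc
  · rw [hE] at ha hb
    have := tr _ (p.l.comm a ha.1 b hb.1) (p.l'.comm a ha.2 b hb.2)
    rwa [mul_inv_eq_one, mul_inv_eq_iff_eq_mul] at this
  · rw [hE] at ha
    rw [pow_two]; exact tr _ (p.l.pow a ha.1) (p.l'.pow a ha.2)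
  · obtain ⟨c, hc, d, hd, rfl⟩ := (mem_sup_of_norm hn).1 (hR ▸ ha)
    have hc' : c ∈ R := hR ▸ mem_sup_left hc
    have := mul_mem (mul_mem (hVE (hxV (p.l'.pow c hc.1))) (hRR (commutator_mem_commutator (inv_mem hc')
      (hR ▸ mem_sup_right hd : d ∈ R)))) (hVE (hzV (p.l.pow d hd.1)))
    convert this using 1
    rw [commutatorElement_def, pow_two]; group

end Cfsg.Agent.S5431
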