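import Cfsg.Statements.S5432
import Cfsg.Agent.H21.Heis

set_option autoImplicit false
open Cfsg

namespace Cfsg.Agent.S5432

open H18 H21 Subgroup

/-- Let E be an extraspecial 2-group of order 2^(2n+1), n ≥ 1. If E contains an elementary abelian subgroup of order 2^(n+1) (plus type), then its outer automorphism group is isomorphic to the full isometry group of the hyperbolic quadratic form in dimension 2n over the field with two elements; otherwise (minus type) it is isomorphic to the full isometry group of the elliptic quadratic form in dimension 2n over that field. -/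
theorem result {E : Type*} [Group E] [Finite E] (hE : Cfsg.IsExtraspecial 2 E) (n : ℕ) (hn : 1 ≤ n) (hcard : Nat.card E = 2 ^ (2 * n + 1)) : ((∃ A : Subgroup E, Cfsg.IsElementaryAbelian 2 A ∧ Nat.card ↥A = 2 ^ (n + 1)) → Nonempty (Cfsg.Out E ≃* Cfsg.isometryGroup (ZMod 2) (Cfsg.quadFormPlus n (ZMod 2)))) ∧ ((¬ ∃ A : Subgroup E, Cfsg.IsElementaryAbelian 2 A ∧ Nat.card ↥A = 2 ^ (n + 1)) → Nonempty (Cfsg.Out E ≃* Cfsg.isometryGroup (ZMod 2) (Cfsg.quadFormMinus (n - 1) (ZMod 2) 1 1))) := by
  have hp := Nat.prime_two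
  obtain ⟨m, rfl⟩ : ∃ m, n = m + 1 := ⟨n - 1, by omega⟩
  obtain ⟨h1, -⟩ := (isExtraspecial_iff_top hp).1 hE
  have e := card_top.trans hcard
  constructor
  · rintro ⟨A, hA, hA'⟩
    obtain ⟨f⟩ := nonempty_equiv_of_ssum h1 (es_plus (m + 1) 2) (hcard.trans (card_plus _ 2).symm)
      ((h1.ssum_of_pelem e ⟨le_top, elem_iff.2 hA, hA'⟩).trans (ssum_plus _).symm)
    exact ⟨(out_congr f).some.trans (Heis.out_equiv (bPlus_nondeg _ _)).some⟩
  · intro h
    have h2 : ¬ 0 < ssum (⊤ : Subgroup E) := fun h2 =>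
      h (((h1.ssum_pos_iff e).1 h2).imp fun A hA => ⟨hA.elem.isElem, hA.card⟩)
    obtain ⟨f⟩ := nonempty_equiv_of_ssum h1 (es_minus m) (hcard.trans (card_minus _).symm)
      (((h1.ssum_eq e).resolve_left fun h3 => h2 (by rw [h3]; positivity)).trans (ssum_minus _).symm)
    rw [Nat.add_sub_cancel, ← bMinus_quad]
    exact ⟨(out_congr f).some.trans (Heis.out_equiv (bMinus_nondeg _)).some⟩

end Cfsg.Agent.S5432
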