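import Cfsg.Statements.S5434
import Cfsg.Agent.H21.LX2

set_option autoImplicit false
open Cfsg

namespace Cfsg.Agent.S5434

open H18 H1 H21 Subgroup

/-- Let Q be a large extraspecial 2-subgroup of the finite group G (extraspecial; centralizer equal to its centre; normal in the centralizer of its centre; normalizing no non-trivial subgroup of odd order), and A a non-trivial subgroup of odd order of the normalizer of Q. Then Q is the central product of the centralizer of A in Q and the commutator subgroup [Q, A] (they generate Q and commute elementwise), [Q, A] is extraspecial, and the centralizer of A in Q is either the centre of Q or extraspecial. -/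
theorem result {G : Type*} [Group G] [Finite G] (Q : Subgroup G) (hQ : Cfsg.IsLargeExtraspecial Q) (A : Subgroup G) (hA : A ≤ Subgroup.normalizer (Q : Set G)) (hAodd : Odd (Nat.card ↥A)) (hA1 : A ≠ ⊥) : (Q ⊓ Subgroup.centralizer (A : Set G)) ⊔ ⁅Q, A⁆ = Q ∧ (∀ x ∈ Q ⊓ Subgroup.centralizer (A : Set G), ∀ y ∈ ⁅Q, A⁆, x * y = y * x) ∧ Cfsg.IsExtraspecial 2 ↥⁅Q, A⁆ ∧ (Q ⊓ Subgroup.centralizer (A : Set G) = ((Subgroup.center ↥Q).map Q.subtype) ∨ Cfsg.IsExtraspecial 2 ↥(Q ⊓ Subgroup.centralizer (A : Set G))) := by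
  obtain ⟨z, h, e⟩ := lx_of_L hQ.1 hQ.2.1 hQ.2.2.1
  have hp := pi_odd_iff.2 hAodd
  have cop : Cop A Q := cop_of_pi' hA hp h.lw.pi (.inr h.lw.pi.solv)
  have hZ := h.es.norm_cent_two hA
  refine ⟨by rw [sup_comm]; exact cop.comm_sup, cent_iff.1 (h.es.cop_cent hA hZ),
    (isExtraspecial_iff Nat.prime_two).2 (h.es.cop_es_comm Nat.prime_two cop hZ fun c =>
      hA1 (PiGrp.eq_bot (h.lw.pi.of_le (c.trans h.self)) hp)), ?_⟩
  by_cases ha : Abel (Q ⊓ C(A))
  · left; rw [map_center, ← h.es.cop_Z_cent cop hZ, ha.Z_eq]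
  · exact .inr ((isExtraspecial_iff Nat.prime_two).2 ⟨h.es.cop_es_cent cop hZ, ha⟩)

end Cfsg.Agent.S5434
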