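import Cfsg.Statements.S5435
import Cfsg.Agent.H26.Transfer
import Cfsg.Agent.H22.Loc

set_option autoImplicit false
open Cfsg

namespace Cfsg.Agent.S5435

/-- Let L be a finite non-abelian simple group with an involution z whose centralizer R is a Sylow 2-subgroup of L whose Frattini subgroup is the subgroup generated by z. Then R is dihedral of order 8. -/
theorem result {L : Type*} [Group L] [Finite L] [IsSimpleGroup L] (hL : ¬ IsMulCommutative L) (z : L) (hz : orderOf z = 2) (R : Sylow 2 L) (hR : (R : Subgroup L) = Subgroup.centralizer ({z} : Set L)) (hΦ : (frattini ↥(R : Subgroup L)).map (R : Subgroup L).subtype = Subgroup.zpowers z) : Nonempty (↥(R : Subgroup L) ≃* DihedralGroup 4) := by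
  open H18 H22 Subgroup in
  have hS := hall_sylow_top Nat.prime_two R
  have ph : ∀ a ∈ Φ((R : Subgroup L)), a = 1 ∨ a = z := fun a ha => (mem_zp_sq (sq1 hz)).1 (hΦ.le ha)
  have sq : ∀ a ∈ R, a * a = 1 ∨ a * a = z := fun a ha => ph _ (sq a ▸ hS.pi.pow_mem_phi Nat.prime_two ha)
  have cm : ∀ a ∈ R, ∀ b ∈ R, a * b = b * a ∨ a * b = z * (b * a) := fun a ha b hb =>
    (ph _ (hS.pi.der_le_phi Nat.prime_two (commutator_mem_commutator ha hb))).imp
      commutatorElement_eq_one_iff_mul_comm.1 fun e => by rw [← e, commutatorElement_def]; group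
  have cz : ∀ a ∈ R, a * z = z * a := fun a ha => mem_C1.1 (hR.le ha)
  have cen : ∀ e ∈ R, e * e = 1 → (∀ a ∈ R, a * e = e * a) → e = 1 ∨ e = z := fun e he e2 h =>
    ph e (le_phi (zpowers_le.2 he) (fun K hK => zpowers_le.2 (by
      obtain ⟨t, h1, h2⟩ := H26.thompson_two R.not_dvd_index (hS.pi.covBy_relIndex hK)
        ((pow_two e).trans e2) (by rw [H26.pResidualOf_top, res_eq_top (simple_no2 hL)]; trivial) R.isPGroup' he h
      have h3 : t ∈ N((R : Subgroup L)) := mem_N_of_finite fun a ha => h2 (mem_map_of_mem _ ha)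
      have h4 := (ph _ (conj_mem_N (norm_phi le_rfl h3) (hΦ.ge (mem_zpowers z)))).resolve_left
        (mt conj_eq_one_iff.1 (ne1 hz))
      rwa [h t (hR.ge (mem_C1.2 (mul_inv_eq_iff_eq_mul.1 h4))), mul_inv_cancel_right] at h1)) (mem_zpowers e))
  obtain ⟨g, h1, h2⟩ : ∃ g, Commute z (g * z * g⁻¹) ∧ g * z * g⁻¹ ≠ z := by
    by_contra! j; exact simple_not_iso hL z ⟨hz, j⟩
  have el : ∀ q ∈ R, q * (g * z * g⁻¹) = g * z * g⁻¹ * q → q * q = 1 := fun q hq c =>
    (sq q hq).resolve_right fun j => by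
      rcases sq (g⁻¹ * q * g) (hR.ge (mem_C1.2 ((MulAut.conj g).injective (by simpa [mul_assoc] using c)))) with k | k
      · exact ne1 hz ((MulAut.conj g⁻¹).injective (by simpa [mul_assoc, ← j] using k))
      · exact h2 (by rw [← k]; simpa [mul_assoc] using j.trans k.symm)
  have y2 := ord2_conj hz g
  have yR : g * z * g⁻¹ ∈ R := hR.ge (mem_C1.2 h1.symm)
  generalize g * z * g⁻¹ = y at *
  obtain ⟨x, hx, xx, xy⟩ : ∃ x ∈ R, x * x = z ∧ x * y = z * (y * x) := by
    obtain ⟨x, hx, c⟩ : ∃ x ∈ R, x * y ≠ y * x := by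
      by_contra! j; exact (cen y yR (sq1 y2) j).elim (ne1 y2) h2
    have c := (cm x hx y yR).resolve_left c
    refine (sq x hx).elim (fun e => ⟨x * y, mul_mem hx yR, ?_, ?_⟩) fun e => ⟨x, hx, e, c⟩
    · rw [← mul_assoc, c, mul_assoc, mul_assoc, mul_assoc, ← mul_assoc x, e, one_mul, sq1 y2, mul_one]
    · rw [mul_assoc, sq1 y2, ← mul_assoc y, mul_one, ← mul_assoc, ← mul_assoc, mul_assoc z, ← c, mul_assoc, sq1 y2, mul_one]
  have sp : ∀ {a b c : L}, a ∈ R → b ∈ R → c ∈ R → b * c = z * (c * b) → a * c = c * a ∨ a * b * c = c * (a * b) :=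
    fun {a b c} ha hb hc e => (cm a ha c hc).imp_right fun j => by
      rw [mul_assoc, e, ← mul_assoc, cz a ha, mul_assoc, ← mul_assoc a, j]; simp [← mul_assoc, sq1 hz]
  have yx : y * x = z * (x * y) := by rw [xy, ← mul_assoc, sq1 hz, one_mul]
  have k : ∀ q ∈ R, q * y = y * q → q * x = x * q → q ∈ closure {y, x} := fun q hq c1 c2 => by
    have ab : ∀ a ∈ R, a * y = y * a → Commute a q := fun a ha c => by
      rw [Commute, SemiconjBy, ← inv_of_sq (el _ (mul_mem ha hq) ((show Commute a y from c).mul_left c1)), mul_inv_rev,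
        inv_of_sq (el a ha c), inv_of_sq (el q hq c1)]
    rcases cen q hq (el q hq c1) fun a ha => (sp ha hx yR xy).elim (ab a ha) fun c => by
      simpa using ((ab _ (mul_mem ha hx) c).mul_left (show Commute q x from c2).symm.inv_left).eq with rfl | rfl
    exacts [one_mem _, xx ▸ mul_mem (subset_closure (by simp)) (subset_closure (by simp))]
  have k' : ∀ q ∈ R, q * y = y * q → q ∈ closure {y, x} := fun q hq c => (sp hq yR hx yx).elim (k q hq c) fun j =>
    (mul_mem_cancel_right (subset_closure (by simp))).1 (k _ (mul_mem hq yR) (by rw [mul_assoc, ← mul_assoc y, ← c, mul_assoc]) j)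
  have x4 : orderOf x = 4 := orderOf_eq_prime_pow (p := 2) (n := 1) (by rw [pow_one, pow_two, xx]; exact ne1 hz)
    (by rw [show 2 ^ (1 + 1) = 2 * 2 from rfl, pow_mul, pow_two, pow_two, xx, sq1 hz])
  rw [show (R : Subgroup L) = closure {y, x} from le_antisymm (fun a ha => (sp ha hx yR xy).elim (k' a ha) fun j =>
    (mul_mem_cancel_right (subset_closure (by simp))).1 (k' _ (mul_mem ha hx) j)) ((closure_le _).2 (by
      rintro _ (rfl | rfl); exacts [yR, hx]))]
  refine H9.nonempty_closure_equiv_dihedral (by norm_num) x4 (sq1 y2) ?_ fun j => ne1 hz ?_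
  · rw [yx, ← mul_assoc, mul_inv_cancel_right, eq_inv_iff_mul_eq_one, mul_assoc, xx, sq1 hz]
  · rwa [(H9.commute_of_mem_zpowers j (mem_zpowers x)).eq, right_eq_mul] at yx

end Cfsg.Agent.S5435
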