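import Cfsg.Statements.S5437
-- import your own Cfsg.Agent.* helpers here

set_option autoImplicit false
open Cfsg

namespace Cfsg.Agent.S5437

/-- Let I be a set of involutions of the finite group G closed under conjugation, and H a subgroup of G. The following are equivalent: (1) for every member x of I lying in H, the conjugates of x lying in H form a single H-class and the centralizer of x lies in H; (2) for every g outside H, no member of I lies in both H and g H g⁻¹; (3) every member of I lying in H fixes exactly one coset in the action of G on the cosets of H. -/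
theorem result {G : Type*} [Group G] [Finite G] (I : Set G) (hI : ∀ x ∈ I, orderOf x = 2) (hIc : ∀ g : G, ∀ x ∈ I, g * x * g⁻¹ ∈ I) (H : Subgroup G) : ((∀ x ∈ I, x ∈ H → (∀ g : G, g * x * g⁻¹ ∈ H → ∃ h ∈ H, h * x * h⁻¹ = g * x * g⁻¹) ∧ Subgroup.centralizer ({x} : Set G) ≤ H) ↔ (∀ g : G, g ∉ H → ∀ x ∈ I, ¬ (x ∈ H ∧ x ∈ (H : Subgroup G).map (MulAut.conj g).toMonoidHom))) ∧ ((∀ g : G, g ∉ H → ∀ x ∈ I, ¬ (x ∈ H ∧ x ∈ (H : Subgroup G).map (MulAut.conj g).toMonoidHom)) ↔ ∀ x ∈ I, x ∈ H → ∃! c : G ⧸ H, x • c = c) := by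
  have m : ∀ g x : G, x ∈ (H : Subgroup G).map (MulAut.conj g).toMonoidHom ↔ g⁻¹ * x * g ∈ H := fun g x =>
    ⟨fun ⟨y, hy, e⟩ => by rw [← e]; simpa [mul_assoc] using hy, fun e => ⟨_, e, by simp [mul_assoc]⟩⟩
  have f : ∀ g x : G, x • (g : G ⧸ H) = g ↔ g⁻¹ * x * g ∈ H := fun g x => by
    rw [MulAction.Quotient.smul_mk, eq_comm, QuotientGroup.eq, smul_eq_mul, mul_assoc]
  simp only [m]
  refine ⟨⟨fun h g hg x hx e => hg ?_, fun h x hx xH => ⟨fun g e => ⟨g, by_contra fun hg => h g⁻¹ (by simpa using hg) x hx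
    ⟨xH, by simpa using e⟩, rfl⟩, fun g e => by_contra fun hg => h g hg x hx ⟨xH, ?_⟩⟩⟩,
    fun h x hx xH => ⟨((1 : G) : G ⧸ H), (f 1 x).2 (by simpa using xH), fun c hc => ?_⟩, fun h g hg x hx e => hg ?_⟩
  · obtain ⟨k, hk, e'⟩ := (h x hx e.1).1 g⁻¹ (by simpa using e.2)
    have : g * k ∈ H := (h x hx e.1).2 (Subgroup.mem_centralizer_singleton_iff.2 (by
      rw [show g * k * x = g * (k * x * k⁻¹) * k by group, e']; group))
    exact (mul_mem_cancel_right hk).1 this
  · rwa [mul_assoc, ← Subgroup.mem_centralizer_singleton_iff.1 e, inv_mul_cancel_left]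
  · obtain ⟨g, rfl⟩ := QuotientGroup.mk_surjective c
    rw [eq_comm, QuotientGroup.eq, inv_one, one_mul]
    exact by_contra fun hg => h g hg x hx ⟨xH, (f g x).1 hc⟩
  · have := (h x hx e.1).unique ((f 1 x).2 (by simpa using e.1)) ((f g x).2 e.2)
    rwa [QuotientGroup.eq, inv_one, one_mul] at this

end Cfsg.Agent.S5437
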