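import Cfsg.Statements.S5438
import Cfsg.Agent.H19.ZD
-- import your own Cfsg.Agent.* helpers here

set_option autoImplicit false
open Cfsg

namespace Cfsg.Agent.S5438

/-- Let z be a 2-central involution of the finite group G (an involution central in some Sylow 2-subgroup) and H a subgroup containing z such that the coset H is the only coset of H fixed by z (in the action of G on the cosets of H). Then H has odd index in G, and for every 2-element x of H the conjugates of x lying in H form a single H-class. -/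
theorem result {G : Type*} [Group G] [Finite G] (z : G) (hz : Cfsg.IsTwoCentralInvolution z) (H : Subgroup G) (hzH : z ∈ H) (hfix : ∀ g : G, g⁻¹ * z * g ∈ H → g ∈ H) : Odd H.index ∧ ∀ x ∈ H, (∃ k : ℕ, orderOf x = 2 ^ k) → ∀ g : G, g * x * g⁻¹ ∈ H → ∃ h ∈ H, h * x * h⁻¹ = g * x * g⁻¹ := by
  obtain ⟨-, P, zP, c⟩ := hz
  have hP := H18.hall_sylow_top Nat.prime_two P
  have PH : (P : Subgroup G) ≤ H := fun g hg => hfix g (by rwa [mul_assoc, ← c g hg, inv_mul_cancel_left])
  have k : ∀ g : G, g * z * g⁻¹ ∈ H → g ∈ H := fun g e => inv_mem_iff.1 (hfix g⁻¹ (by rwa [inv_inv]))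
  refine ⟨H5.piNat_two_compl.1 (Subgroup.relIndex_top_right H ▸ hP.idx_of_le PH), fun x hx ⟨n, hn⟩ g hg => ?_⟩
  have key : ∀ x ∈ H, orderOf x = 2 ^ n → ∃ h ∈ H, h * z * h⁻¹ ∈ Subgroup.centralizer ({x} : Set G) := fun x hx hn => by
    obtain ⟨h, hh, e⟩ := H18.sylow_le_cj' Nat.prime_two (hP.of_le PH le_top)
      (H18.piGrp_of_card_pow Nat.prime_two (H18.card_zpowers'.trans hn)) (Subgroup.zpowers_le.2 hx)
    refine ⟨h, hh, H18.mem_C1.2 ?_⟩
    rw [show h * z * h⁻¹ * x = h * (z * (h⁻¹ * x * h)) * h⁻¹ by group, ← c _ (H18.mem_cj.1 (e (Subgroup.mem_zpowers x)))]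
    group
  have z2 : ∀ g : G, H18.PiGrp {2} (Subgroup.zpowers (g * z * g⁻¹)) := fun g => (hP.cj_top g).pi.of_le
    (Subgroup.zpowers_le.2 (H18.conj_mem_cj zP))
  obtain ⟨h1, hh1, e1⟩ := key x hx hn
  obtain ⟨h2, hh2, e2⟩ := key _ hg ((H9.orderOf_conj' g x).trans hn)
  obtain ⟨R, hR, e⟩ := H18.exists_sylow_le Nat.prime_two (z2 h2) (Subgroup.zpowers_le.2 e2)
  obtain ⟨a, -, ea⟩ := H18.sylow_le_cj Nat.prime_two hP hR.pi le_top
  have aH : a ∈ H := (mul_mem_cancel_right hh2).1 (k _ (by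
    simpa [mul_assoc] using PH (ea (H18.conj_mem_cj (e (Subgroup.mem_zpowers _))))))
  obtain ⟨b, hb, eb⟩ := H18.sylow_le_cj Nat.prime_two hR (z2 (g * h1)) (Subgroup.zpowers_le.2 (by
    simpa [mul_assoc] using H18.cj_C1.le (H18.conj_mem_cj (g := g) e1)))
  have := k (a * b * g * h1) (by
    simpa [mul_assoc] using PH (ea (H18.conj_mem_cj (eb (H18.conj_mem_cj (Subgroup.mem_zpowers _))))))
  refine ⟨b * g, (mul_mem_cancel_left aH).1 (by simpa [mul_assoc] using (mul_mem_cancel_right hh1).1 this), ?_⟩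
  rw [← H18.conj_eq_self_of_C1 hb]; group

end Cfsg.Agent.S5438
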