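import Cfsg.Statements.S5439
import Cfsg.Agent.H19.ZD
-- import your own Cfsg.Agent.* helpers here

set_option autoImplicit false
open Cfsg

namespace Cfsg.Agent.S5439

/-- Let I and J be two different conjugacy classes of involutions of the finite group G and H a subgroup such that every member of I ∪ J fixes exactly one coset in the action on the cosets of H, and such that for every a in I ∩ H and every b in (I ∪ J) ∩ H different from a and commuting with it, the centralizer of a b lies in H. Then H = G. -/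
theorem result {G : Type*} [Group G] [Finite G] (I J : Set G) (a₀ b₀ : G) (ha₀ : orderOf a₀ = 2) (hb₀ : orderOf b₀ = 2) (hI : I = {x | IsConj a₀ x}) (hJ : J = {x | IsConj b₀ x}) (hIJ : I ≠ J) (H : Subgroup G) (hfix : ∀ x ∈ I ∪ J, ∃! c : G ⧸ H, x • c = c) (hcent : ∀ a ∈ I, a ∈ H → ∀ b ∈ I ∪ J, b ∈ H → a ≠ b → a * b = b * a → Subgroup.centralizer ({a * b} : Set G) ≤ H) : H = ⊤ := by
  by_contra hH
  have f : ∀ g x : G, x • (g : G ⧸ H) = g ↔ g⁻¹ * x * g ∈ H := fun g x => by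
    rw [MulAction.Quotient.smul_mk, eq_comm, QuotientGroup.eq, smul_eq_mul, mul_assoc]
  have cI : ∀ g : G, ∀ x ∈ I, g * x * g⁻¹ ∈ I := fun g x hx => by
    rw [hI] at hx ⊢; exact IsConj.trans hx (isConj_iff.2 ⟨g, rfl⟩)
  have cJ : ∀ g : G, ∀ x ∈ J, g * x * g⁻¹ ∈ J := fun g x hx => by
    rw [hJ] at hx ⊢; exact IsConj.trans hx (isConj_iff.2 ⟨g, rfl⟩)
  have uq : ∀ x ∈ I ∪ J, x ∈ H → ∀ g : G, g⁻¹ * x * g ∈ H → g ∈ H := fun x hx xH g e => by
    have := (hfix x hx).unique ((f 1 x).2 (by simpa using xH)) ((f g x).2 e)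
    rwa [QuotientGroup.eq, inv_one, one_mul] at this
  have ex : ∀ x ∈ I ∪ J, ∃ g : G, g⁻¹ * x * g⁻¹⁻¹ ∈ H := fun x hx => by
    obtain ⟨c, hc, -⟩ := hfix x hx
    obtain ⟨g, rfl⟩ := QuotientGroup.mk_surjective c
    exact ⟨g, by simpa using (f g x).1 hc⟩
  have sq : ∀ x y : G, orderOf x = 2 → IsConj x y → y * y = 1 := fun x y o c => by
    obtain ⟨g, rfl⟩ := isConj_iff.1 c
    exact H9.conj_sq (H9.orderOf_eq_two.1 o).1 g
  obtain ⟨g₁, aH⟩ := ex a₀ (.inl (hI ▸ IsConj.refl _))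
  have aI := cI g₁⁻¹ a₀ (hI ▸ IsConj.refl _)
  obtain ⟨g₂, bH⟩ := ex b₀ (.inr (hJ ▸ IsConj.refl _))
  have bJ := cJ g₂⁻¹ b₀ (hJ ▸ IsConj.refl _)
  generalize g₁⁻¹ * a₀ * g₁⁻¹⁻¹ = a at aH aI
  generalize g₂⁻¹ * b₀ * g₂⁻¹⁻¹ = b' at bH bJ
  obtain ⟨g, -, hg⟩ := SetLike.not_le_iff_exists.1 (fun e => hH (top_le_iff.1 e))
  have bH : g⁻¹ * b' * g⁻¹⁻¹ ∉ H := fun e => hg (uq b' (.inr bJ) bH g (by simpa using e))
  have bJ := cJ g⁻¹ b' bJ
  generalize g⁻¹ * b' * g⁻¹⁻¹ = b at bH bJ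
  have a2 := sq a₀ a ha₀ (by rwa [hI] at aI)
  have b2 := sq b₀ b hb₀ (by rwa [hJ] at bJ)
  have refl : ∀ n : ℕ, a * (a * b) ^ n ∈ I ∪ J := fun n => by
    induction n using Nat.strong_induction_on with | _ n ih =>
    match n with
    | 0 => exact .inl (by simpa using aI)
    | 1 => exact .inr (by simpa [H9.tt' a2] using bJ)
    | n + 2 =>
      have e : (a * b)⁻¹ * (a * (a * b) ^ n) * (a * b)⁻¹⁻¹ = a * (a * b) ^ (n + 2) := by
        rw [inv_inv, mul_inv_rev, H9.inv_eq_of_mul_self a2, H9.inv_eq_of_mul_self b2, pow_succ, pow_succ']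
        simp [mul_assoc, H9.tt' a2]
      exact e ▸ (ih n (by omega)).imp (cI _ _) (cJ _ _)
  rcases Nat.even_or_odd (orderOf (a * b)) with o | o
  · obtain ⟨e1, e2, e3⟩ := H9.central_involution a2 b2 o
    have zH := uq a (.inl aI) aH _ (by rwa [mul_assoc, ← e2.eq, inv_mul_cancel_left])
    have := hcent a aI aH _ (refl _) (mul_mem aH zH) (fun e => (H9.orderOf_eq_two.1 e1).2 (left_eq_mul.1 e))
      (by rw [mul_assoc, e2.eq])
    exact bH (this (H18.mem_C1.2 (by rw [H9.tt' a2, e3.eq])))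
  · obtain ⟨n, e⟩ := H5.exists_sqrt o
    have c : IsConj a b := isConj_iff.2 ⟨((a * b) ^ n)⁻¹, by
      have i := H5.inverts_pow (t := a) (x := a * b) (by
        rw [mul_inv_rev, H9.inv_eq_of_mul_self a2, H9.inv_eq_of_mul_self b2, H9.tt' a2]) a2 n
      rw [inv_inv, ← i, H9.tt'' a2, mul_assoc, e, H9.tt' a2]⟩
    refine hIJ ?_
    rw [hI] at aI
    rw [hJ] at bJ
    have c' : IsConj a₀ b₀ := (IsConj.trans aI c).trans (IsConj.symm bJ)
    rw [hI, hJ]
    exact Set.ext fun x => ⟨fun e => c'.symm.trans e, fun e => c'.trans e⟩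

end Cfsg.Agent.S5439
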