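import Cfsg.Statements.S5459
import Cfsg.Agent.H17.Std

set_option autoImplicit false
open Cfsg

namespace Cfsg.Agent.S5459

open H18 Subgroup

/-- Let G be a finite group with a quasisimple normal subgroup L and an involution d such that G is generated by L and d, the centre of L has odd order, and d inverts every element of the centre of L. If the commuting graph on the conjugacy class of the image of d in G modulo the centre of L is connected, then the commuting graph on the conjugacy class of d is connected. -/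
theorem result {G : Type*} [Group G] [Finite G] (L : Subgroup G) [L.Normal] (hL : Cfsg.IsQuasisimple ↥L) (d : G) (hd : orderOf d = 2) (hgen : L ⊔ Subgroup.zpowers d = ⊤) (hodd : Odd (Nat.card ↥(Subgroup.center ↥L))) (hinv : ∀ c ∈ (Subgroup.center ↥L).map L.subtype, d * c * d⁻¹ = c⁻¹) [hn : ((Subgroup.center ↥L).map L.subtype).Normal] (hconn : (Cfsg.commutingGraph (conjugatesOf (QuotientGroup.mk d : G ⧸ (Subgroup.center ↥L).map L.subtype))).Connected) : (Cfsg.commutingGraph (conjugatesOf d)).Connected := by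
  set Z := (center L).map L.subtype
  have ZL : Z ≤ L := map_subtype_le _
  have ZC : L ≤ C(Z) := by rintro l hl _ ⟨z, hz, rfl⟩; exact congrArg Subtype.val (mem_center_iff.1 hz ⟨l, hl⟩).symm
  let Γ := commutingGraph (conjugatesOf d)
  let c : G → Γ →g Γ := fun g => ⟨fun e => ⟨g * e * g⁻¹, e.2.trans (isConj_iff.2 ⟨g, rfl⟩)⟩, fun {a b} h => by
    simp only [Γ, commutingGraph, SimpleGraph.fromRel_adj, ne_eq, Subtype.ext_iff] at h ⊢
    exact ⟨by simpa using h.1, h.2.imp (·.conj g) (·.conj g)⟩⟩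
  let v : conjugatesOf d := ⟨d, IsConj.refl d⟩
  have cm : ∀ g k e, c g (c k e) = c (g * k) e := fun g k e => Subtype.ext (by simp [c, mul_assoc])
  have c1 : ∀ (g : G) (e : conjugatesOf d), Commute g e.1 → c g e = e := fun g e h => Subtype.ext (by simp [c, h.eq])
  let H : Subgroup G :=
    { carrier := {g | Γ.Reachable v (c g v)}
      one_mem' := by simp [c1]
      mul_mem' := fun {g k} hg hk => hg.trans (cm g k v ▸ hk.map (c g))
      inv_mem' := fun {g} hg => by simpa [cm, c1] using (hg.map (c g⁻¹)).symm }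
  have rH : ∀ e, Γ.Reachable v e → e.1 ∈ H := fun e h => h.trans (by simpa [c1 e e (.refl _)] using (h.map (c e)).symm)
  have iv : ∀ e : conjugatesOf d, e.1 * e = 1 ∧ ∀ z ∈ Z, e * z * (e : G)⁻¹ = z⁻¹ := by
    rintro ⟨_, he⟩
    obtain ⟨g, rfl⟩ := isConj_iff.1 he
    refine ⟨by simp [← pow_two, ← hd], fun z hz => ?_⟩
    have := hinv _ (hn.conj_mem' z hz g)
    calc _ = g * (d * (g⁻¹ * z * g) * d⁻¹) * g⁻¹ := by group
      _ = _ := by rw [this]; group
  have lift : ∀ x, (commutingGraph (conjugatesOf (d : G ⧸ Z))).Reachable ⟨_, IsConj.refl _⟩ x →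
      ∃ e, Γ.Reachable v e ∧ (e.1 : G ⧸ Z) = x := fun x h => by
    rw [SimpleGraph.reachable_iff_reflTransGen] at h
    induction h with
    | refl => exact ⟨v, .rfl, rfl⟩
    | @tail a b _ h ih =>
      obtain ⟨e, he, ea⟩ := ih
      obtain ⟨g, hg⟩ := isConj_iff.1 b.2
      obtain ⟨g, rfl⟩ := QuotientGroup.mk_surjective g
      set f := c g v
      have fb : (f.1 : G ⧸ Z) = b := hg
      simp only [commutingGraph, SimpleGraph.fromRel_adj, ne_eq, Subtype.ext_iff, ← ea, ← fb] at h
      have ie := H9.inv_eq_of_mul_self (iv e).1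
      have jf := H9.inv_eq_of_mul_self (iv f).1
      have hz : ((e.1 * f) * (e * f))⁻¹ ∈ Z := inv_mem ((QuotientGroup.eq_one_iff _).1 (by
        have := (h.2.elim id (·.symm)).eq
        simp only [QuotientGroup.mk_mul]
        nth_rw 2 [this]
        rw [mul_assoc, ← mul_assoc (f.1 : G ⧸ Z), ← QuotientGroup.mk_mul, (iv f).1]
        simp [← QuotientGroup.mk_mul, (iv e).1]))
      obtain ⟨w, hw⟩ := (powCoprime (G := Z) (n := 4) (by
        rw [card_map_subtype]
        exact (Nat.coprime_two_right.2 hodd).pow_right 2)).surjective ⟨_, hz⟩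
      replace hw : (w : G) ^ 4 = _ := congrArg Subtype.val hw
      have fw : ((c (w : G)⁻¹ f).1 : G ⧸ Z) = f.1 := by simp [c, (QuotientGroup.eq_one_iff _).2 w.2]
      refine ⟨c (w : G)⁻¹ f, he.trans (SimpleGraph.Adj.reachable ?_), fw.trans fb⟩
      simp only [Γ, commutingGraph, SimpleGraph.fromRel_adj, ne_eq, Subtype.ext_iff]
      refine ⟨fun q => h.1 ((congrArg _ q).trans fw), .inl ?_⟩
      have q1 := (iv f).2 _ w.2
      have q2 := (iv e).2 _ (inv_mem w.2)
      have cw : Commute (e.1 * f) w := mul_inv_eq_iff_eq_mul.1 (by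
        calc _ = e.1 * (f.1 * w * (f : G)⁻¹) * (e : G)⁻¹ := by group
          _ = _ := by rw [q1, q2, inv_inv])
      have q3 : (c (w : G)⁻¹ f).1 = f * w ^ 2 := by
        change (w : G)⁻¹ * f * (w : G)⁻¹⁻¹ = _
        rw [inv_inv, ← q1, pow_two]
        group
      have : e.1 * (c (w : G)⁻¹ f) * (e * c (w : G)⁻¹ f) = 1 := by
        rw [q3, ← mul_assoc e.1 (f : G), ← pow_two, (cw.pow_right 2).mul_pow, ← pow_mul, hw, pow_two, mul_inv_cancel]
      exact (H9.inv_eq_of_mul_self this).symm.trans (by rw [mul_inv_rev, ie, H9.inv_eq_of_mul_self (iv _).1]; rfl)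
  have NH : normalClosure {d} ≤ H ⊔ Z := (closure_le _).2 fun e he => by
    obtain ⟨_, rfl, he⟩ := Group.mem_conjugatesOfSet_iff.1 he
    replace he := (Group.mem_conjugatesOfSet_iff.1 he).elim fun _ k => k.1 ▸ k.2
    obtain ⟨f, hf, q⟩ := lift ⟨e, (QuotientGroup.mk' Z).map_isConj he⟩ (hconn _ _)
    simpa using mul_mem_sup (rH f hf) (QuotientGroup.eq.1 q)
  obtain ⟨pf, -, hq⟩ := H17.qs_iff.1 hL
  have LH : L ≤ H := by
    rcases hq (normalClosure {d} ⊓ L) inf_le_right norm_of_normal with q | q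
    · have : CP (H ⊓ L) Z L := ⟨inf_le_right.trans ZC, (Nrm2.modular' (.inl norm_of_normal) ZL).symm.trans
        (inf_eq_right.2 ((q.ge.trans inf_le_left).trans NH))⟩
      exact (pf.ge.trans (this.der_of_abel (ZL.trans ZC)).le).trans (der_le.trans inf_le_left)
    · have : zpowers d ≤ C(L) := H17.cent_of_comm_le_cent pf ((le_inf ((comm_mono (zpowers_le.2 (subset_normalClosure (s := {d}) rfl))
        le_rfl).trans (commutator_le_left ..)) (commutator_le_right ..)).trans (comm_eq_bot_iff.1 q))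
      exact fun l hl => show Γ.Reachable v _ by rw [c1 l v (zpowers_le.1 this l hl)]
  refine (SimpleGraph.connected_iff_exists_forall_reachable _).2 ⟨v, fun e => ?_⟩
  obtain ⟨g, hg⟩ := isConj_iff.1 e.2
  exact (Subtype.ext hg : c g v = e) ▸ (hgen.ge.trans (sup_le LH (zpowers_le.2 (rH v .rfl)))) (mem_top g)

end Cfsg.Agent.S5459
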