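import Cfsg.Statements.S5463
import Cfsg.Agent.L.B22
import Cfsg.Agent.L.I22


set_option autoImplicit false
set_option linter.unusedVariables false
open Cfsg

namespace Cfsg.Agent.S5463

/-- Let G be a finite group with trivial centre generated by a conjugation-invariant set D of 3-transpositions on which it acts primitively, such that for some d in D the subgroup generated by the members of D other than d commuting with d has central largest normal 2- and 3-subgroups, and suppose G with D is of type M(22). A product j of two distinct commuting members of D determines the pair: any two 2-element sets of commuting members of D with product j coincide. A product j of three distinct pairwise commuting members of D arises from exactly two such 3-element sets. -/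
theorem result {G : Type*} [Group G] [Finite G] {D : Set G} (hD : Cfsg.IsThreeTranspositionGroup D) (hprim : Cfsg.IsPrimitiveUnderConj D) (d₀ : G) (hd₀ : d₀ ∈ D) (h3 : Cfsg.pCore 3 ↥(Subgroup.closure {y : G | y ∈ D ∧ y ≠ d₀ ∧ Commute d₀ y}) ≤ Subgroup.center ↥(Subgroup.closure {y : G | y ∈ D ∧ y ≠ d₀ ∧ Commute d₀ y})) (h2 : Cfsg.pCore 2 ↥(Subgroup.closure {y : G | y ∈ D ∧ y ≠ d₀ ∧ Commute d₀ y}) ≤ Subgroup.center ↥(Subgroup.closure {y : G | y ∈ D ∧ y ≠ d₀ ∧ Commute d₀ y})) (h22 : Cfsg.IsOfTypeM22 G D) : (∀ (j : G) (l l' : List G), (l.Nodup ∧ l.length = 2 ∧ (∀ a ∈ l, a ∈ D) ∧ (∀ a ∈ l, ∀ b ∈ l, Commute a b) ∧ l.prod = j) → (l'.Nodup ∧ l'.length = 2 ∧ (∀ a ∈ l', a ∈ D) ∧ (∀ a ∈ l', ∀ b ∈ l', Commute a b) ∧ l'.prod = j) → (∀ x : G, x ∈ l ↔ x ∈ l')) ∧ ∀ (j : G) (l₀ : List G), (l₀.Nodup ∧ l₀.length = 3 ∧ (∀ a ∈ l₀, a ∈ D) ∧ (∀ a ∈ l₀, ∀ b ∈ l₀, Commute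 a b) ∧ l₀.prod = j) → ∃ l₁ l₂ : List G, (l₁.Nodup ∧ l₁.length = 3 ∧ (∀ a ∈ l₁, a ∈ D) ∧ (∀ a ∈ l₁, ∀ b ∈ l₁, Commute a b) ∧ l₁.prod = j) ∧ (l₂.Nodup ∧ l₂.length = 3 ∧ (∀ a ∈ l₂, a ∈ D) ∧ (∀ a ∈ l₂, ∀ b ∈ l₂, Commute a b) ∧ l₂.prod = j) ∧ ¬ (∀ x : G, x ∈ l₁ ↔ x ∈ l₂) ∧ ∀ l : List G, (l.Nodup ∧ l.length = 3 ∧ (∀ a ∈ l, a ∈ D) ∧ (∀ a ∈ l, ∀ b ∈ l, Commute a b) ∧ l.prod = j) → ((∀ x : G, x ∈ l ↔ x ∈ l₁) ∨ (∀ x : G, x ∈ l ↔ x ∈ l₂)) := by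
  obtain ⟨Ω, _, M, hN, hM⟩ := L.br22 hD h22
  refine ⟨fun j l l' hl hl' => ?_, fun j l₀ hl => ?_⟩
  · subst hM
    exact (L.I22.inv M hN).uniq2 hD.1 le_rfl ⟨hl.1, hl.2.1, hl.2.2.1, hl.2.2.2.1⟩
      ⟨hl'.1, hl'.2.1, hl'.2.2.1, hl'.2.2.2.1⟩ (hl.2.2.2.2.trans hl'.2.2.2.2.symm)
  obtain ⟨g, e⟩ := (L.I22.tr3 M hN).2 l₀ (hM ▸ ⟨hl.1, hl.2.1, hl.2.2.1, hl.2.2.2.1⟩)
  rw [← L.std_cjM] at e
  rw [← L.cls_cjM M g] at hM
  generalize L.cjM M g = M at e hM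
  subst hM
  have t := (L.I22.tr3 M hN).1
  have u := L.I22.tupU M hN
  have p : (L.std M L.K22.a0 L.I22.us).prod = j := by
    rw [L.prod_std, L.I22.prU M hN, ← L.prod_std, ← e, hl.2.2.2.2]
  refine ⟨l₀, _, hl, ⟨u.1, u.2.1, u.2.2.1, u.2.2.2, p⟩, fun h => ?_, fun l h => ?_⟩
  · obtain ⟨w, hw, h1⟩ := List.mem_map.1 ((h (H14.ev M.gen (L.tw L.K22.a0 L.I22.t0))).1
      (e ▸ List.mem_map.2 ⟨_, by simp [L.I22.ts3, L.I22.ts2, L.I22.ts1], rfl⟩))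
    refine L.I22.neU M hN (_, _) (List.mem_map.2 ⟨_, ?_, rfl⟩) h1
    simp only [L.I22.us, List.mem_cons, List.not_mem_nil, or_false] at hw
    rcases hw with rfl | rfl | rfl
    exacts [.head _, .tail _ (.head _), .tail _ (.tail _ (.head _))]
  · subst e
    exact (L.I22.inv M hN).two hD.1 le_rfl t (L.I22.ex4 M hN) u.2.1 ⟨h.1, h.2.1, h.2.2.1, h.2.2.2.1⟩
      (h.2.2.2.2.trans hl.2.2.2.2.symm)

end Cfsg.Agent.S5463
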