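import Cfsg.Statements.S5464
import Cfsg.Agent.L.B23
import Cfsg.Agent.L.I23
import Cfsg.Agent.L.B24
import Cfsg.Agent.L.I24


set_option autoImplicit false
set_option linter.unusedVariables false
open Cfsg

namespace Cfsg.Agent.S5464

/-- Let G be a finite group with trivial centre generated by a conjugation-invariant set D of 3-transpositions on which it acts primitively, such that for some d in D the subgroup generated by the members of D other than d commuting with d has central largest normal 2- and 3-subgroups, and suppose G with D is of type M(23) or of type M(24). Then for m ≤ 3, a product of m distinct pairwise commuting members of D determines the set of factors: any two m-element sets of pairwise commuting members of D with the same product coincide. -/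
theorem result {G : Type*} [Group G] [Finite G] {D : Set G} (hD : Cfsg.IsThreeTranspositionGroup D) (hprim : Cfsg.IsPrimitiveUnderConj D) (d₀ : G) (hd₀ : d₀ ∈ D) (h3 : Cfsg.pCore 3 ↥(Subgroup.closure {y : G | y ∈ D ∧ y ≠ d₀ ∧ Commute d₀ y}) ≤ Subgroup.center ↥(Subgroup.closure {y : G | y ∈ D ∧ y ≠ d₀ ∧ Commute d₀ y})) (h2 : Cfsg.pCore 2 ↥(Subgroup.closure {y : G | y ∈ D ∧ y ≠ d₀ ∧ Commute d₀ y}) ≤ Subgroup.center ↥(Subgroup.closure {y : G | y ∈ D ∧ y ≠ d₀ ∧ Commute d₀ y})) (h : Cfsg.IsOfTypeM23 G D ∨ Cfsg.IsOfTypeM24 G D) (m : ℕ) (hm : m ≤ 3) (j : G) (l l' : List G) (hl : (l.Nodup ∧ l.length = m ∧ (∀ a ∈ l, a ∈ D) ∧ (∀ a ∈ l, ∀ b ∈ l, Commute a b) ∧ l.prod = j)) (hl' : (l'.Nodup ∧ l'.length = m ∧ (∀ a ∈ l', a ∈ D) ∧ (∀ a ∈ l', ∀ b ∈ l', Commute a b) ∧ l'.prod = j)) : (∀ x : G, x ∈ l ↔ x ∈ l') := by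
  have e := hl.2.2.2.2.trans hl'.2.2.2.2.symm
  have t : L.Tup D m l := ⟨hl.1, hl.2.1, hl.2.2.1, hl.2.2.2.1⟩
  have t' : L.Tup D m l' := ⟨hl'.1, hl'.2.1, hl'.2.2.1, hl'.2.2.2.1⟩
  rcases h with h | h
  · obtain ⟨Ω, _, M, hN, rfl⟩ := L.br23 hD h
    have i := L.I23.inv M hN
    refine i.uniq hD.1 le_rfl (fun u v a b e => ?_) hm t t' e
    have h1 := (L.I23.cj4 M hN).trans ((L.I23.tr4 M hN).conj a)
    exact absurd (i.ne 3 le_rfl 2 (by omega) (h1.trans (e ▸ (i.cj 2 (by omega) v b).symm))) (by omega)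
  · obtain ⟨Ω, _, M, hN, rfl⟩ := L.br24 hD hprim h
    have i := L.I24.inv M hN
    exact i.uniq hD.1 (by omega) (fun u v a b e =>
      absurd (i.eq le_rfl (by omega) a b (by rw [e])) (by omega)) hm t t' e

end Cfsg.Agent.S5464
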