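import Cfsg.Statements.S5466
import Cfsg.Agent.L.B24c
import Cfsg.Agent.L.Z24c
import Cfsg.Agent.L.KL


set_option autoImplicit false
set_option linter.unusedVariables false
open Cfsg

namespace Cfsg.Agent.S5466

/-- Let G be a finite group with trivial centre generated by a conjugation-invariant set D of 3-transpositions on which it acts primitively, such that for some d in D the subgroup generated by the members of D other than d commuting with d has central largest normal 2- and 3-subgroups, and suppose G with D is of type M(24), and let L be the commutator subgroup of G. Let d₁, d₂, d₃ be distinct pairwise commuting members of D, j their product, E the subgroup generated by d₁ d₂ and d₁ d₃ (a four-group lying in L), CL the centralizer of j in L and K its generalized Fitting subgroup. Then K is quasisimple with centre E, K is the centralizer of E in L, K modulo E is isomorphic to the projective special unitary group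 of dimension 6 over the field with four elements, CL/K is isomorphic to the symmetric group of degree 3, and CL modulo E is isomorphic to the full automorphism group of that unitary group. -/
theorem result {G : Type*} [Group G] [Finite G] {D : Set G} (hD : Cfsg.IsThreeTranspositionGroup D) (hprim : Cfsg.IsPrimitiveUnderConj D) (d₀ : G) (hd₀ : d₀ ∈ D) (h3 : Cfsg.pCore 3 ↥(Subgroup.closure {y : G | y ∈ D ∧ y ≠ d₀ ∧ Commute d₀ y}) ≤ Subgroup.center ↥(Subgroup.closure {y : G | y ∈ D ∧ y ≠ d₀ ∧ Commute d₀ y})) (h2 : Cfsg.pCore 2 ↥(Subgroup.closure {y : G | y ∈ D ∧ y ≠ d₀ ∧ Commute d₀ y}) ≤ Subgroup.center ↥(Subgroup.closure {y : G | y ∈ D ∧ y ≠ d₀ ∧ Commute d₀ y})) (h24 : Cfsg.IsOfTypeM24 G D) (L : Subgroup G) (hL : L = commutator G) (d₁ d₂ d₃ : G) (h₁ : d₁ ∈ D) (h₂ : d₂ ∈ D) (h₃ : d₃ ∈ D) (h12 : d₁ ≠ d₂) (h13 : d₁ ≠ d₃) (h23 : d₂ ≠ d₃) (c12 : Commute d₁ d₂) (c13 : Commute d₁ d₃) (c23 : Commute d₂ d₃) (E CL K : Subgroup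 G) (hE : E = Subgroup.closure ({d₁ * d₂, d₁ * d₃} : Set G)) (hCL : CL = L ⊓ Subgroup.centralizer ({d₁ * d₂ * d₃} : Set G)) (hK : K = (Cfsg.generalizedFittingSubgroup ↥CL).map CL.subtype) : Cfsg.IsQuasisimple ↥K ∧ (Subgroup.center ↥K).map K.subtype = E ∧ K = L ⊓ Subgroup.centralizer (E : Set G) ∧ (∃ (_ : (E.subgroupOf K).Normal) (F : Type) (_ : Field F) (_ : Fintype F), Fintype.card F = 4 ∧ Nonempty (↥K ⧸ E.subgroupOf K ≃* Cfsg.PSU 6 F 2)) ∧ ∃ _ : (K.subgroupOf CL).Normal, Nonempty (↥CL ⧸ K.subgroupOf CL ≃* Equiv.Perm (Fin 3)) ∧ E ≤ CL ∧ ∃ (_ : (E.subgroupOf CL).Normal) (F : Type) (_ : Field F) (_ : Fintype F), Fintype.card F = 4 ∧ Nonempty (↥CL ⧸ E.subgroupOf CL ≃* MulAut (Cfsg.PSU 6 F 2)) := by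
  subst hL
  obtain ⟨l2, l1⟩ := L.comm24 hD hprim h24
  obtain ⟨Ω, _, M, hN, rfl⟩ := L.br24 hD hprim h24
  have o := hD.1.1
  have f := L.four_of (L.ord_mul (o _ h₁) (o _ h₂) h12 c12) (L.ord_mul (o _ h₁) (o _ h₃) h13 c13)
    (fun e => h23 (mul_left_cancel e)) (((Commute.refl _).mul_right c13).mul_left (c12.symm.mul_right c23))
  have hd := l1 _ h₁
  obtain ⟨M, -, rfl, rfl, rfl, e⟩ := (L.I24.tr3 M hN).ex3 (L.tup3 h₁ h₂ h₃ h12 h13 h23 c12 c13 c23)
  have a := L.Z24c.eqC M hN l2 hd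
  have b := L.Z24c.eqK M hN l2 hd
  rw [e, ← L.I24.ts1, ← L.I24.ts2, ← L.I24.ts3, ← L.I24.e3 M hN, ← L.cent_single, a.1] at hCL
  rw [← L.evA, ← L.evA, ← L.Z24c.e1 M hN, ← L.Z24c.e2 M hN, ← L.sub_pair, ← L.Z24c.es] at f hE
  subst hCL hE
  obtain ⟨F, _, _, hF⟩ := L.exF 2 2 two_ne_zero
  obtain ⟨S⟩ := H15.StdU62.std hF
  obtain ⟨T⟩ := H15.StdSym3.std
  obtain ⟨s, z, c⟩ := L.psu_two F hF 6 (by omega) S.card S.ne (by norm_num)
  have ej := L.Z24c.ej M hN
  have jk := L.Z24c.jk M hN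
  have vc := Subgroup.le_centralizer_iff.1 (L.Z24c.eqKL M hN)
  have n1 := (Subgroup.normal_subgroupOf_iff_le_normalizer ej).2 (jk.trans (L.Z24c.ne M hN))
  have n2 := (Subgroup.normal_subgroupOf_iff_le_normalizer jk).2 (L.Z24c.nj M hN)
  have n3 := (Subgroup.normal_subgroupOf_iff_le_normalizer (ej.trans jk)).2 (L.Z24c.ne M hN)
  have q := (L.Z24c.qs_ M hN (L.Pres.of fun _ _ => H15.StdU62.hom S)).iso ej S.card f.1.le b.2.ge S.ne
  obtain ⟨q1, q2, -, q4⟩ := L.qs_of ej vc q z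
  have k : H14.sub M.gen L.Z24c.ks ⊓ Subgroup.centralizer (H14.sub M.gen L.Z24c.js : Set G) ≤ H14.sub M.gen L.Z24c.js :=
    fun x hx => b.1.le ⟨L.Z24c.eqCO M hN l2 hx.1, Subgroup.centralizer_le ej hx.2⟩
  obtain rfl := hK.trans (L.gfit_eq_of_qs (q4 s (L.Z24c.perf M hN)) jk (L.Z24c.nj M hN) k)
  exact ⟨q4 s (L.Z24c.perf M hN), q1, b.1.symm, ⟨n1, F, _, _, hF, q⟩, n2, (L.Z24c.sqs_ M hN (L.Pres.of fun _ _ =>
    H15.StdSym3.hom T)).iso jk T.card b.2.le a.2.ge T.ne, ej.trans jk, n3, F, _, _, hF, L.aut_quot ej jk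
    (L.Z24c.nj M hN) q (fun h h1 h2 => have := L.hc_perf (L.Z24c.perf M hN) vc h2 ej; q2.le ⟨k ⟨h1, this⟩, this⟩)
    (by rw [c, f.1, a.2]; norm_num)⟩

end Cfsg.Agent.S5466
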