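import Cfsg.Statements.S5467
import Cfsg.Agent.L.B24c
import Cfsg.Agent.L.Z24d
import Cfsg.Agent.L.KL


set_option autoImplicit false
set_option linter.unusedVariables false
open Cfsg

namespace Cfsg.Agent.S5467

/-- Let G be a finite group with trivial centre generated by a conjugation-invariant set D of 3-transpositions on which it acts primitively, such that for some d in D the subgroup generated by the members of D other than d commuting with d has central largest normal 2- and 3-subgroups, and suppose G with D is of type M(24), and let L be the commutator subgroup of G. Let z be the product of four distinct pairwise commuting members of D (an involution of L) and C its centralizer in L. Then the generalized Fitting subgroup Q of C is extraspecial of order 2^13, and C has normal subgroups Q ≤ N ≤ M with N/Q of order 3, M/N isomorphic to the projective special unitary group of dimension 4 over the field with nine elements,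 and M of index 2 in C. -/
theorem result {G : Type*} [Group G] [Finite G] {D : Set G} (hD : Cfsg.IsThreeTranspositionGroup D) (hprim : Cfsg.IsPrimitiveUnderConj D) (d₀ : G) (hd₀ : d₀ ∈ D) (h3 : Cfsg.pCore 3 ↥(Subgroup.closure {y : G | y ∈ D ∧ y ≠ d₀ ∧ Commute d₀ y}) ≤ Subgroup.center ↥(Subgroup.closure {y : G | y ∈ D ∧ y ≠ d₀ ∧ Commute d₀ y})) (h2 : Cfsg.pCore 2 ↥(Subgroup.closure {y : G | y ∈ D ∧ y ≠ d₀ ∧ Commute d₀ y}) ≤ Subgroup.center ↥(Subgroup.closure {y : G | y ∈ D ∧ y ≠ d₀ ∧ Commute d₀ y})) (h24 : Cfsg.IsOfTypeM24 G D) (L : Subgroup G) (hL : L = commutator G) (z : G) (l : List G) (hl : (l.Nodup ∧ l.length = 4 ∧ (∀ a ∈ l, a ∈ D) ∧ (∀ a ∈ l, ∀ b ∈ l, Commute a b) ∧ l.prod = z)) (C : Subgroup G) (hC : C = L ⊓ Subgroup.centralizer ({z} : Set G)) : ∃ (Q : Subgroup ↥C) (_ : Q.Normal), Cfsg.generalizedFittingSubgroup ↥C = Q ∧ Cfsg.IsExtraspecial 2 ↥Q ∧ Nat.card Q = 2 ^ 13 ∧ ∃ (N M : Subgroup ↥C) (_ : N.Normal) (_ : M.Normal),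 Q ≤ N ∧ N ≤ M ∧ Nat.card N = 3 * Nat.card Q ∧ (∃ (K : Type) (_ : Field K) (_ : Fintype K), Fintype.card K = 9 ∧ Nonempty (↥M ⧸ N.subgroupOf M ≃* Cfsg.PSU 4 K 3)) ∧ M.index = 2 := by
  subst hL
  obtain ⟨l2, l1⟩ := L.comm24 hD hprim h24
  obtain ⟨Ω, _, M, hN, rfl⟩ := L.br24 hD hprim h24
  have t : L.Tup _ 4 l := ⟨hl.1, hl.2.1, hl.2.2.1, hl.2.2.2.1⟩
  obtain ⟨M, e, rfl⟩ := (L.I24.tr4 M hN).ex t
  have hd := l1 _ (hl.2.2.1 _ List.mem_cons_self)
  have a := L.Z24d.eqC M hN l2 hd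
  rw [← hl.2.2.2.2, L.prod_std, ← L.I24.e4 M hN, ← L.cent_single, a.1] at hC
  subst hC
  obtain ⟨F, _, _, hF⟩ := L.exF 3 2 two_ne_zero
  obtain ⟨S⟩ := H15.StdU43.std hF
  have x1 := L.Z24d.xq M hN
  have o : orderOf (H14.ev M.gen L.I24.u4) = 2 := by
    rw [L.I24.e4 M hN, ← L.prod_std]
    refine orderOf_eq_prime (t.sq hD.1) fun h => ?_
    have i := L.I24.inv M hN
    rw [L.prod_std] at h
    have h' : L.I24.R M 4 = L.I24.R M 0 := h.trans i.zero.symm
    exact absurd (i.ne 4 le_rfl 0 (by omega) (h' ▸ IsConj.refl _)) (by omega)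
  obtain ⟨-, k2, k3⟩ := L.rowE (L.Z24d.op M hN a.2) (L.Z24d.qc M hN) (L.card_single o) x1 (L.Z24d.xc M hN)
    (L.Z24d.cen M hN) (L.Z24d.cq M hN)
  have mk := L.Z24d.mk M hN
  have nk := (L.Z24d.nle M hN).trans mk
  have c1 := le_antisymm ((L.Z24d.nqs_ M hN (L.pres_zmod 3)).card_le (L.Z24d.qn M hN) (nk.trans (L.Z24d.nq M hN))
    (a := 3) (by rw [Nat.card_congr Multiplicative.toAdd, Nat.card_zmod]) (L.Z24d.qc M hN).le (by norm_num))
    (L.Z24d.nlow M hN)
  have q := L.Z24d.mqs_ M hN (L.Pres.of fun _ _ => H15.StdU43.hom S)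
  have n1 := (Subgroup.normal_subgroupOf_iff_le_normalizer (L.Z24d.nle M hN)).2 (mk.trans (L.Z24d.nn M hN))
  have n2 := (Subgroup.normal_subgroupOf_iff_le_normalizer nk).2 (L.Z24d.nn M hN)
  have c2 := le_antisymm (q.card_le (L.Z24d.nle M hN) (mk.trans (L.Z24d.nn M hN)) S.card c1.le S.ne) (L.Z24d.mlow M hN)
  have c3 := L.card_of_map k3 (L.Z24d.qc M hN)
  refine ⟨_, L.normal_of_map k3 (L.Z24d.nq M hN), rfl, L.extra_iso k3 k2, c3, _, _, n2,
    (Subgroup.normal_subgroupOf_iff_le_normalizer mk).2 (L.Z24d.nrm M hN), L.eq_subgroupOf k3 ▸ Subgroup.comap_mono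
    (L.Z24d.qn M hN), Subgroup.comap_mono (L.Z24d.nle M hN), ?_, ⟨F, _, _, hF, L.quot_sub mk
    (q.iso (L.Z24d.nle M hN) S.card c1.le c2.ge S.ne)⟩, L.index_of_card mk c2 a.2⟩
  rw [c3, Nat.card_congr (Subgroup.subgroupOfEquivOfLe nk).toEquiv, c1]

end Cfsg.Agent.S5467
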