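import Cfsg.Statements.S5468
import Cfsg.Agent.L.B23
import Cfsg.Agent.L.Z23b
import Cfsg.Agent.L.KL


set_option autoImplicit false
set_option linter.unusedVariables false
open Cfsg
open scoped commutatorElement

namespace Cfsg.Agent.S5468

/-- Let G be a finite group with trivial centre generated by a conjugation-invariant set D of 3-transpositions on which it acts primitively, such that for some d in D the subgroup generated by the members of D other than d commuting with d has central largest normal 2- and 3-subgroups, and suppose G with D is of type M(23). Let d₁, d₂ be distinct commuting members of D, j = d₁ d₂, K the joint centralizer of d₁ and d₂ and C the centralizer of j. Then K has index 2 in C, the centre of K is the subgroup generated by d₁ and d₂, K is quasisimple with K modulo its centre isomorphic to the projective special unitary group of dimension 6 over the field with four elements, and C modulo the subgroup generated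 by d₁ and d₂ has trivial centre (so it is that unitary group extended by an outer involution). -/
theorem result {G : Type*} [Group G] [Finite G] {D : Set G} (hD : Cfsg.IsThreeTranspositionGroup D) (hprim : Cfsg.IsPrimitiveUnderConj D) (d₀ : G) (hd₀ : d₀ ∈ D) (h3 : Cfsg.pCore 3 ↥(Subgroup.closure {y : G | y ∈ D ∧ y ≠ d₀ ∧ Commute d₀ y}) ≤ Subgroup.center ↥(Subgroup.closure {y : G | y ∈ D ∧ y ≠ d₀ ∧ Commute d₀ y})) (h2 : Cfsg.pCore 2 ↥(Subgroup.closure {y : G | y ∈ D ∧ y ≠ d₀ ∧ Commute d₀ y}) ≤ Subgroup.center ↥(Subgroup.closure {y : G | y ∈ D ∧ y ≠ d₀ ∧ Commute d₀ y})) (h23 : Cfsg.IsOfTypeM23 G D) (d₁ d₂ : G) (h₁ : d₁ ∈ D) (h₂ : d₂ ∈ D) (hne : d₁ ≠ d₂) (hc : Commute d₁ d₂) (K C V : Subgroup G) (hK : K = Subgroup.centralizer ({d₁, d₂} : Set G)) (hC : C = Subgroup.centralizer ({d₁ * d₂} : Set G)) (hV : V = Subgroup.closure ({d₁, d₂} : Set G)) [hn : (V.subgroupOf C).Normal] : K ≤ C ∧ (K.subgroupOf C).index = 2 ∧ (Subgroup.center ↥K).map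 K.subtype = V ∧ Cfsg.IsQuasisimple ↥K ∧ (∃ (F : Type) (_ : Field F) (_ : Fintype F), Fintype.card F = 4 ∧ Nonempty (↥K ⧸ Subgroup.center ↥K ≃* Cfsg.PSU 6 F 2)) ∧ Subgroup.center (↥C ⧸ V.subgroupOf C) = ⊥ := by
  obtain ⟨Ω, _, M, hN, rfl⟩ := L.br23 hD h23
  have f := L.four_of (hD.1.1 _ h₁) (hD.1.1 _ h₂) hne hc
  have kc : K ≤ C := hK ▸ hC ▸ L.cent2_le
  obtain ⟨M, -, rfl, rfl, e⟩ := (L.I23.tr2 M hN).ex2 (L.tup2 h₁ h₂ hne hc)
  rw [e, ← L.I23.ts1, ← L.I23.ts2, ← L.I23.e2 M hN, ← L.cent_single, (L.Z23b.eqC M hN).1] at hC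
  rw [← L.cent_pair, ← L.Z23b.vs, (L.Z23b.eqK M hN).1] at hK
  rw [← L.sub_pair, ← L.Z23b.vs] at f hV
  subst hK hC hV
  obtain ⟨F, _, _, hF⟩ := L.exF 2 2 two_ne_zero
  obtain ⟨S⟩ := H15.StdU62.std hF
  obtain ⟨s, z, -⟩ := L.psu_two F hF 6 (by omega) S.card S.ne (by norm_num)
  have vc := Subgroup.le_centralizer_iff.1 (L.Z23b.eqKL M hN)
  have n2 := (Subgroup.normal_subgroupOf_iff_le_normalizer (L.Z23b.vj M hN)).2
    ((L.Z23b.eqKL M hN).trans (Subgroup.centralizer_le_normalizer _))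
  obtain ⟨a, b, c, d⟩ := L.qs_of (L.Z23b.vj M hN) vc ((L.Z23b.qs_ M hN (L.Pres.of fun _ _ => H15.StdU62.hom S)).iso
    (L.Z23b.vj M hN) S.card f.1.le (L.Z23b.eqK M hN).2.ge S.ne) z
  refine ⟨kc, L.index_of_card kc (L.Z23b.eqK M hN).2 (L.Z23b.eqC M hN).2, a, d s (L.Z23b.perf M hN), ⟨F, _, _, hF, c⟩,
    eq_bot_iff.2 fun x hx => ?_⟩
  obtain ⟨x, rfl⟩ := QuotientGroup.mk_surjective x
  have h := L.hc_perf (L.Z23b.perf M hN) vc (h := x) (fun k hk => by
    have h1 := commutatorElement_eq_one_iff_mul_comm.2 (Subgroup.mem_center_iff.1 hx (QuotientGroup.mk ⟨k, kc hk⟩)).symm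
    exact (QuotientGroup.eq_one_iff (N := (H14.sub M.gen L.Z23b.vs).subgroupOf _) ⁅x, ⟨k, kc hk⟩⁆).1 h1) (L.Z23b.vj M hN)
  exact (QuotientGroup.eq_one_iff _).2 (b.le ⟨(L.Z23b.eqK M hN).1.le (Subgroup.centralizer_le (L.Z23b.vj M hN) h), h⟩)

end Cfsg.Agent.S5468
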