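import Cfsg.Statements.S5469
import Cfsg.Agent.L.B22
import Cfsg.Agent.L.Z22b
import Cfsg.Agent.L.KL


set_option autoImplicit false
set_option linter.unusedVariables false
open Cfsg

namespace Cfsg.Agent.S5469

/-- Let G be a finite group with trivial centre generated by a conjugation-invariant set D of 3-transpositions on which it acts primitively, such that for some d in D the subgroup generated by the members of D other than d commuting with d has central largest normal 2- and 3-subgroups, and suppose G with D is of type M(22). Let d₁, d₂ be distinct commuting members of D, j = d₁ d₂, K the joint centralizer of d₁ and d₂, C the centralizer of j and V the subgroup generated by d₁ and d₂. Then K has index 2 in C, V is the centre of K, and C has a normal subgroup E containing V with E/V elementary abelian of order 2^8 and C/E isomorphic to the full automorphism group of the projective special unitary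 group of dimension 4 over the field with four elements. -/
theorem result {G : Type*} [Group G] [Finite G] {D : Set G} (hD : Cfsg.IsThreeTranspositionGroup D) (hprim : Cfsg.IsPrimitiveUnderConj D) (d₀ : G) (hd₀ : d₀ ∈ D) (h3 : Cfsg.pCore 3 ↥(Subgroup.closure {y : G | y ∈ D ∧ y ≠ d₀ ∧ Commute d₀ y}) ≤ Subgroup.center ↥(Subgroup.closure {y : G | y ∈ D ∧ y ≠ d₀ ∧ Commute d₀ y})) (h2 : Cfsg.pCore 2 ↥(Subgroup.closure {y : G | y ∈ D ∧ y ≠ d₀ ∧ Commute d₀ y}) ≤ Subgroup.center ↥(Subgroup.closure {y : G | y ∈ D ∧ y ≠ d₀ ∧ Commute d₀ y})) (h22 : Cfsg.IsOfTypeM22 G D) (d₁ d₂ : G) (h₁ : d₁ ∈ D) (h₂ : d₂ ∈ D) (hne : d₁ ≠ d₂) (hc : Commute d₁ d₂) (K C V : Subgroup G) (hK : K = Subgroup.centralizer ({d₁, d₂} : Set G)) (hC : C = Subgroup.centralizer ({d₁ * d₂} : Set G)) (hV : V = Subgroup.closure ({d₁, d₂} : Set G)) : K ≤ C ∧ (K.subgroupOf C).index = 2 ∧ (Subgroup.center ↥K).map K.subtype = V ∧ ∃ E : Subgroup G,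 V ≤ E ∧ E ≤ C ∧ (∀ c ∈ C, ∀ x ∈ E, c * x * c⁻¹ ∈ E) ∧ Nat.card E = 2 ^ 10 ∧ (∀ x ∈ E, ∀ y ∈ E, x * y * x⁻¹ * y⁻¹ ∈ V ∧ x ^ 2 ∈ V) ∧ ∃ (_ : (E.subgroupOf C).Normal) (F : Type) (_ : Field F) (_ : Fintype F), Fintype.card F = 4 ∧ Nonempty (↥C ⧸ E.subgroupOf C ≃* MulAut (Cfsg.PSU 4 F 2)) := by
  obtain ⟨Ω, _, M, hN, rfl⟩ := L.br22 hD h22
  have f := L.four_of (hD.1.1 _ h₁) (hD.1.1 _ h₂) hne hc
  have o := hD.1.1 _ h₁
  have o2 := L.ord_mul o (hD.1.1 _ h₂) hne hc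
  obtain ⟨M, -, rfl, rfl, e⟩ := (L.I22.tr2 M hN).ex2 (L.tup2 h₁ h₂ hne hc)
  rw [e, ← L.I22.ts1, ← L.I22.ts2, ← L.I22.e2 M hN] at hC o2
  rw [← L.cent_single, (L.Z22b.eqC M hN).1] at hC
  rw [← L.sub_pair] at f
  have h1 := (L.eq_of_cards (L.Z22b.vc M hN) (L.Z22b.cen M hN) f.1.ge).1
  rw [← L.cent_pair, ← L.Z22b.vs, (L.Z22b.eqK M hN).1] at hK
  rw [← L.sub_pair] at hV
  obtain ⟨F, _, _, hF⟩ := L.exF 2 2 two_ne_zero
  obtain ⟨S⟩ := H15.StdU42.std hF
  obtain ⟨-, z, a⟩ := L.psu_two F hF 4 le_rfl S.card S.ne (by norm_num)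
  have kc : K ≤ C := by
    rw [hK, hC, ← (L.Z22b.eqC M hN).1]
    exact (L.Z22b.eqKL M hN).trans (Subgroup.centralizer_le (L.Z22b.uv M hN))
  subst hK hC hV
  have i := L.index_of_card (i := 2) kc (L.Z22b.eqK M hN).2 (L.Z22b.eqC M hN).2
  have n1 := (Subgroup.normal_subgroupOf_iff_le_normalizer (L.Z22b.qle M hN)).2 (L.Z22b.nq M hN)
  have n2 := (Subgroup.normal_subgroupOf_iff_le_normalizer (L.Z22b.qj M hN)).2 (kc.trans (L.Z22b.nq M hN))
  have q := (L.Z22b.uqs_ M hN (L.Pres.of fun _ _ => H15.StdU42.hom S)).iso (L.Z22b.qj M hN) S.card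
    (L.Z22b.qc M hN).le (L.Z22b.eqK M hN).2.ge S.ne
  refine ⟨kc, i, le_antisymm ?_ fun x hx => ⟨⟨x, L.Z22b.qj M hN (L.Z22b.vq M hN hx)⟩, Subgroup.mem_center_iff.2
    fun y => Subtype.ext (L.Z22b.eqKL M hN y.2 x hx).symm, rfl⟩, _, L.Z22b.vq M hN, L.Z22b.qle M hN,
    fun c hc x hx => (L.Z22b.nq M hN hc x).1 hx, L.Z22b.qc M hN, fun x hx y hy => ⟨L.Z22b.cq M hN
    (Subgroup.commutator_mem_commutator hx hy), L.Z22b.sq M hN x hx⟩, n1, F, _, _, hF, L.aut_quot (L.Z22b.qj M hN) kc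
    ((Subgroup.normal_subgroupOf_iff_le_normalizer kc).1 (Subgroup.normal_of_index_eq_two i)) q
    (L.hc_two q z (L.Z22b.op M hN) i kc) (by rw [a, L.Z22b.qc M hN, (L.Z22b.eqC M hN).2]; norm_num)⟩
  rintro _ ⟨x, hx, rfl⟩
  exact h1.le fun y hy => congrArg Subtype.val (Subgroup.mem_center_iff.1 hx ⟨y, L.Z22b.qj M hN hy⟩)

end Cfsg.Agent.S5469
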