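import Cfsg.Statements.S5471
import Cfsg.Agent.L.B23
import Cfsg.Agent.L.I23


set_option autoImplicit false
set_option linter.unusedVariables false
open Cfsg

namespace Cfsg.Agent.S5471

/-- Let G be a finite group with trivial centre generated by a conjugation-invariant set D of 3-transpositions on which it acts primitively, such that for some d in D the subgroup generated by the members of D other than d commuting with d has central largest normal 2- and 3-subgroups, and suppose G with D is of type M(23). Let d₁, d₂, d₃ be distinct pairwise commuting members of D and j their product. Then the joint centralizer of d₁, d₂, d₃ is normal in the centralizer of j with quotient isomorphic to the symmetric group of degree 3. -/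
theorem result {G : Type*} [Group G] [Finite G] {D : Set G} (hD : Cfsg.IsThreeTranspositionGroup D) (hprim : Cfsg.IsPrimitiveUnderConj D) (d₀ : G) (hd₀ : d₀ ∈ D) (h3 : Cfsg.pCore 3 ↥(Subgroup.closure {y : G | y ∈ D ∧ y ≠ d₀ ∧ Commute d₀ y}) ≤ Subgroup.center ↥(Subgroup.closure {y : G | y ∈ D ∧ y ≠ d₀ ∧ Commute d₀ y})) (h2 : Cfsg.pCore 2 ↥(Subgroup.closure {y : G | y ∈ D ∧ y ≠ d₀ ∧ Commute d₀ y}) ≤ Subgroup.center ↥(Subgroup.closure {y : G | y ∈ D ∧ y ≠ d₀ ∧ Commute d₀ y})) (h23 : Cfsg.IsOfTypeM23 G D) (d₁ d₂ d₃ : G) (h₁ : d₁ ∈ D) (h₂ : d₂ ∈ D) (h₃ : d₃ ∈ D) (h12 : d₁ ≠ d₂) (h13 : d₁ ≠ d₃) (h23 : d₂ ≠ d₃) (c12 : Commute d₁ d₂) (c13 : Commute d₁ d₃) (c23 : Commute d₂ d₃) (K C : Subgroup G) (hK : K = Subgroup.centralizer ({d₁, d₂, d₃} : Set G)) (hC : C = Subgroup.centralizer ({d₁ * d₂ * d₃} : Set G)) : K ≤ C ∧ ∃ _ : (K.subgroupOf C).Normal, Nonempty (↥C ⧸ K.subgroupOf C ≃* Equiv.Perm (Fin 3)) := by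
  rename_i ht
  obtain ⟨Ω, _, M, hN, rfl⟩ := L.br23 hD ht
  subst hK hC
  have i := L.I23.inv M hN
  have t := L.tup3 h₁ h₂ h₃ h12 h13 h23 c12 c13 c23
  have hp : [d₁, d₂, d₃].prod = d₁ * d₂ * d₃ := by simp [mul_assoc]
  refine ⟨L.cent3_le, L.tri_quot L.cls_conj t (fun l hl e x => (i.uniq hD.1 le_rfl (fun u v a b e => ?_)
    le_rfl hl t (e.trans hp.symm) x).1) le_rfl (fun l hl e => ?_) fun _ _ => Iff.rfl⟩
  · have h1 := (L.I23.cj4 M hN).trans ((L.I23.tr4 M hN).conj a)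
    exact absurd (i.ne 3 le_rfl 2 (by omega) (h1.trans (e ▸ (i.cj 2 (by omega) v b).symm))) (by omega)
  · obtain ⟨g, hg⟩ := (L.I23.tr3 M hN).two t hl
    refine ⟨g, fun x hx => ?_, hg⟩
    rw [hg, L.prod_cjL, hp] at e
    rw [hx]; exact (mul_inv_eq_iff_eq_mul.1 e).symm

end Cfsg.Agent.S5471
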