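import Cfsg.Statements.S5515
import Cfsg.Agent.L.EO


set_option autoImplicit false
set_option linter.unusedVariables false
open Cfsg

namespace Cfsg.Agent.S5515

/-- Let G and G′ be finite groups whose generalized Fitting subgroups are isomorphic to PΩ⁺(8, 3) (the commutator subgroup of the isometry group of the hyperbolic quadratic form in dimension 8 over the field with three elements, modulo its centre) with quotients isomorphic to the symmetric group of degree 3. Then G and G′ are isomorphic. -/
theorem result {G G' : Type*} [Group G] [Finite G] [Group G'] [Finite G'] (hF : Nonempty (↥(Cfsg.generalizedFittingSubgroup G) ≃* Cfsg.POmega (ZMod 3) (Cfsg.quadFormPlus 4 (ZMod 3)))) (hF' : Nonempty (↥(Cfsg.generalizedFittingSubgroup G') ≃* Cfsg.POmega (ZMod 3) (Cfsg.quadFormPlus 4 (ZMod 3)))) [hn : (Cfsg.generalizedFittingSubgroup G).Normal] [hn' : (Cfsg.generalizedFittingSubgroup G').Normal] (hq : Nonempty (G ⧸ Cfsg.generalizedFittingSubgroup G ≃* Equiv.Perm (Fin 3))) (hq' : Nonempty (G' ⧸ Cfsg.generalizedFittingSubgroup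 G' ≃* Equiv.Perm (Fin 3))) : Nonempty (G ≃* G') := by
  obtain ⟨a⟩ := hF
  obtain ⟨b⟩ := hF'
  obtain ⟨c⟩ := hq
  obtain ⟨d⟩ := hq'
  have k : Nat.card (Equiv.Perm (Fin 3)) = 6 := by rw [Nat.card_perm, Nat.card_fin]; rfl
  exact (L.s4_emb L.o83 a b (H17.centralizer_generalizedFittingSubgroup_le _) (H17.centralizer_generalizedFittingSubgroup_le _)
    ((Nat.card_congr c.toEquiv).trans k) ((Nat.card_congr d.toEquiv).trans k)).elim fun e _ => ⟨e⟩

end Cfsg.Agent.S5515
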