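import Cfsg.Statements.S5516
import Cfsg.Agent.L.EO
import Cfsg.Agent.L.UC
import Cfsg.Agent.L.F23
import Cfsg.Agent.H15.Fi23


set_option autoImplicit false
set_option linter.unusedVariables false
open Cfsg

namespace Cfsg.Agent.S5516

/-- PΩ⁺(8, 3) (the commutator subgroup of the isometry group of the hyperbolic quadratic form in dimension 8 over the field with three elements, modulo its centre) has exactly 13 conjugacy classes of subgroups of order 3; and a finite group G whose generalized Fitting subgroup L is isomorphic to PΩ⁺(8, 3) with G/L the symmetric group of degree 3 has exactly 7 orbits, under conjugation, on the subgroups of L of order 3. -/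
theorem result {G : Type*} [Group G] [Finite G] (L : Subgroup G) (hL : L = Cfsg.generalizedFittingSubgroup G) (hF : Nonempty (↥L ≃* Cfsg.POmega (ZMod 3) (Cfsg.quadFormPlus 4 (ZMod 3)))) [hn : L.Normal] (hq : Nonempty (G ⧸ L ≃* Equiv.Perm (Fin 3))) : (∃ Y : Fin 13 → Subgroup (Cfsg.POmega (ZMod 3) (Cfsg.quadFormPlus 4 (ZMod 3))), (∀ i, Nat.card (Y i) = 3) ∧ (∀ i j, (∃ g : Cfsg.POmega (ZMod 3) (Cfsg.quadFormPlus 4 (ZMod 3)), (Y i).map (MulAut.conj g).toMonoidHom = Y j) → i = j) ∧ (∀ X : Subgroup (Cfsg.POmega (ZMod 3) (Cfsg.quadFormPlus 4 (ZMod 3))), Nat.card X = 3 → ∃ i, ∃ g : Cfsg.POmega (ZMod 3) (Cfsg.quadFormPlus 4 (ZMod 3)), X.map (MulAut.conj g).toMonoidHom = Y i)) ∧ ∃ Y : Fin 7 → Subgroup G, (∀ i, Y i ≤ L ∧ Nat.card (Y i) = 3) ∧ (∀ i j, (∃ g : G, (Y i).map (MulAut.conj g).toMonoidHom = Y j) → i = j) ∧ ∀ X : Subgroup G, X ≤ L → Nat.card X = 3 → ∃ i, ∃ g : G, X.map (MulAut.conj g).toMonoidHom = Y i := by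
  obtain ⟨S⟩ := H15.StdO8p3.std (ZMod.card 3)
  obtain ⟨T⟩ := H15.StdSym3.std
  have kl := _root_.L.CO8p3x3.kl S.M S.card
  refine ⟨⟨_, kl⟩, ?_⟩
  obtain ⟨a⟩ := hF
  obtain ⟨c⟩ := hq
  have hN := H15.Fi23.card
  have : Finite Spor.Fi23 := Nat.finite_of_card_ne_zero (hN ▸ by norm_num)
  generalize H15.Fi23.M = M
  have := Cfsg.Agent.S0296.result (F := ZMod 3) 4 le_rfl
  obtain ⟨φ, h1, h2⟩ := H15.StdO8p3.hom S _ (_root_.L.F23.rel M hN)
  have h3 : ∀ l < 18, φ (S.M.gen l) = _root_.L.loc M.gen _root_.L.D23.ys l := fun l hl => by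
    simpa [H14.ev, H14.letter] using h2 [2 * l] (by revert l; decide +kernel)
  have h4 : ∀ w, (∀ a ∈ w, a < 2 * 18) → φ (H14.ev S.M.gen w) = H14.ev M.gen (H14.flat _root_.L.D23.ys w) := fun w hw => by
    rw [H14.map_ev, H14.ev_congr h3 hw, _root_.L.ev_flat]
  have h5 : (⊤ : Subgroup _).map φ = H14.sub M.gen _root_.L.D23.ys := by
    rw [← MonoidHom.range_eq_map]
    refine le_antisymm (h1 ▸ (H14.sub_le _).2 fun w _ => _root_.L.ev_flat M.gen _ w ▸ H14.ev_flat_mem _ _ _) ?_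
    rw [_root_.L.sub_eq_loc, Subgroup.closure_le]
    rintro _ ⟨l, hl, rfl⟩
    exact ⟨_, h3 l hl⟩
  have i := (_root_.L.D23.qs M hN fun Δ _ y hy => (H15.StdO8p3.hom S y hy).imp fun _ h => h.1).iso_simple
    (_root_.L.sub_ne_bot List.mem_cons_self (_root_.L.ne_base1 (F := _root_.L.K23T.F) (_root_.L.K23.base0 M hN) (by decide +kernel)))
  have cK := _root_.L.card_iso i S.card
  have h6 : Function.Injective φ := by
    have e := φ.ker.card_mul_index
    rw [Subgroup.index_ker, MonoidHom.range_eq_map, h5, cK, S.card] at e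
    exact (MonoidHom.ker_eq_bot_iff φ).1 (Subgroup.eq_bot_of_card_le _ (by omega))
  have h7 := (_root_.L.CL.map_iff h6).2 kl.cl
  have h8 : ∀ i : Fin 13, (H14.sub S.M.gen [H14.getL [] _root_.L.CO8p3x3.xs i]).map φ =
      H14.sub M.gen [H14.flat _root_.L.D23.ys (H14.getL [] _root_.L.CO8p3x3.xs i)] := fun i => by
    rw [_root_.L.sub_single, _root_.L.sub_single, MonoidHom.map_zpowers, h4 _ (by revert i; decide +kernel)]
  simp only [h5, h8] at h7
  have n := _root_.L.D23.hn M hN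
  have y := _root_.L.D23.hy M hN
  have h9 := h7.fuse y n (_root_.L.D23.hs M hN (_root_.L.loc_mem _ _ 0)) (_root_.L.D23.hs M hN (_root_.L.loc_mem _ _ 1))
    ((_root_.L.F23.hle M hN).trans ((H14.sub_append _ _ _).trans (congrArg _ (_root_.L.sub_pair _ _ _))).le)
    (_root_.L.cj_all (σ := _root_.L.F23.sg0) (_root_.L.F23.cj0 M hN) (by decide +kernel) fun i => (h7.1 i).2)
    (_root_.L.cj_all (σ := _root_.L.F23.sg1) (_root_.L.F23.cj1 M hN) (by decide +kernel) fun i => (h7.1 i).2)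
    ![0, 1, 2, 3, 4, 1, 5, 2, 1, 4, 6, 2, 4] ![0, 1, 2, 3, 4, 6, 10] (by decide +kernel)
  have := (Subgroup.normal_subgroupOf_iff_le_normalizer y).2 n
  have q := _root_.L.D23.q3 M hN fun Δ _ y hy => (H15.StdSym3.hom T y hy).imp fun _ h => h.1
  obtain ⟨i⟩ := i
  obtain ⟨e, he⟩ := _root_.L.s4_emb _root_.L.o83 a ((Subgroup.subgroupOfEquivOfLe y).trans i)
    (hL ▸ H17.centralizer_generalizedFittingSubgroup_le G)
    (fun x hx => _root_.L.cent_take ⊤ (_root_.L.D23.cs_eq ▸ _root_.L.D23.cen M hN) ⟨trivial, fun z hz => congrArg Subtype.val (hx ⟨z, y hz⟩ hz)⟩)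
    ((Nat.card_congr c.toEquiv).trans (by rw [Nat.card_perm, Nat.card_fin]; rfl))
    (_root_.L.index_of_card y cK (le_antisymm (q.card_le y n T.card cK.le T.ne) (_root_.L.D23.low M hN)))
  let ψ := (Subgroup.subtype _).comp e.toMonoidHom
  have k1 : L.map ψ = H14.sub M.gen _root_.L.D23.ys := by
    rw [← Subgroup.map_map, he, Subgroup.map_subgroupOf_eq_of_le y]
  have k2 : ψ.range = H14.sub M.gen (_root_.L.tws _root_.L.K23.a0 _root_.L.D23.ts) := by
    rw [MonoidHom.range_comp, MonoidHom.range_eq_top.2 e.surjective, ← MonoidHom.range_eq_map, Subgroup.range_subtype]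
  rw [← k1, ← k2, MonoidHom.range_eq_map] at h9
  have h10 := (_root_.L.CL.map_iff (ψ := ψ) ((Subgroup.subtype_injective _).comp e.injective) (Y := fun a => Subgroup.comap ψ _)).1
    ((funext fun a => Subgroup.map_comap_eq_self ((h9.1 a).1.trans (Subgroup.map_le_range _ _))).symm ▸ h9)
  exact ⟨_, h10.1, fun i j ⟨g, c⟩ => h10.2.1 i j ⟨g, trivial, c⟩, fun X hX c =>
    let ⟨i, g, _, c⟩ := h10.2.2 X hX c; ⟨i, g, c⟩⟩

end Cfsg.Agent.S5516
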