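import Cfsg.Statements.S5517
import Cfsg.Agent.L.B22
import Cfsg.Agent.L.D22
import Cfsg.Agent.L.KW
import Cfsg.Agent.S0295


set_option autoImplicit false
set_option linter.unusedVariables false
open Cfsg

namespace Cfsg.Agent.S5517

/-- Let G be a finite group with trivial centre generated by a conjugation-invariant set D of 3-transpositions on which it acts primitively, such that for some d in D the subgroup generated by the members of D other than d commuting with d has central largest normal 2- and 3-subgroups, and suppose G with D is of type M(22). Then G has a subgroup L generated by the members of D it contains and isomorphic to Ω(7, 3) (the commutator subgroup of the isometry group of a non-degenerate 7-dimensional quadratic form over the field with three elements, modulo its centre), and every Sylow 3-subgroup of L is a Sylow 3-subgroup of G. -/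
theorem result {G : Type*} [Group G] [Finite G] {D : Set G} (hD : Cfsg.IsThreeTranspositionGroup D) (hprim : Cfsg.IsPrimitiveUnderConj D) (d₀ : G) (hd₀ : d₀ ∈ D) (h3 : Cfsg.pCore 3 ↥(Subgroup.closure {y : G | y ∈ D ∧ y ≠ d₀ ∧ Commute d₀ y}) ≤ Subgroup.center ↥(Subgroup.closure {y : G | y ∈ D ∧ y ≠ d₀ ∧ Commute d₀ y})) (h2 : Cfsg.pCore 2 ↥(Subgroup.closure {y : G | y ∈ D ∧ y ≠ d₀ ∧ Commute d₀ y}) ≤ Subgroup.center ↥(Subgroup.closure {y : G | y ∈ D ∧ y ≠ d₀ ∧ Commute d₀ y})) (h22 : Cfsg.IsOfTypeM22 G D) : ∃ L : Subgroup G, Cfsg.IsDSubgroup D L ∧ Nonempty (↥L ≃* Cfsg.POmega (ZMod 3) (Cfsg.quadFormOdd 3 (ZMod 3))) ∧ ∀ P : Sylow 3 ↥L, ∃ P' : Sylow 3 G, (P : Subgroup ↥L).map L.subtype = (P' : Subgroup G) := by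
  obtain ⟨Ω, _, M, hN, rfl⟩ := L.br22 hD h22
  obtain ⟨S⟩ := H15.StdO73.std (ZMod.card 3)
  have := Cfsg.Agent.S0295.result (F := ZMod 3) (by rw [ZMod.card]; decide) 3 le_rfl
  have i := (L.D22.qs M hN fun Δ _ y hy => (H15.StdO73.hom S y hy).imp fun _ h => h.1).iso_simple
    (L.sub_ne_bot List.mem_cons_self (L.ne_base1 (F := L.K22T.F) (L.K22.base0 M hN) (by decide +kernel)))
  refine ⟨_, L.dsub_tws M _ _, i, fun P => ?_⟩
  have h : Nat.card P = 3 ^ 9 := by
    rw [Sylow.card_eq_multiplicity, L.card_iso i S.card]; decide +kernel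
  obtain ⟨Q, hQ⟩ := L.sylow_of_card ((L.card_map_sub _).symm.trans h) hN (by norm_num)
  exact ⟨Q, hQ.symm⟩

end Cfsg.Agent.S5517
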