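import Cfsg.Statements.S5518
import Cfsg.Agent.L.T24r


set_option autoImplicit false
set_option linter.unusedVariables false
open Cfsg

namespace Cfsg.Agent.S5518

/-- Let G be a finite group with trivial centre generated by a conjugation-invariant set D of 3-transpositions on which it acts primitively, such that for some d in D the subgroup generated by the members of D other than d commuting with d has central largest normal 2- and 3-subgroups, and suppose G with D is of type M(24). Then any two subgroups of order 13 are conjugate; and there are members a, b, c, d of D generating the direct product T of two symmetric groups of degree 3 (a, d non-commuting; b, c non-commuting; b and c commuting with a and d) whose centralizer K is isomorphic to the Chevalley group G₂(3), such that for every subgroup B of K of order 13: the normalizer of B lies in the normalizer of K, the normalizer F of B in K is a Frobenius group of order 78 with kernel B (order 78, centralizer of B in it equal to B), and the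 subgroup generated by F and T has index 2 in the normalizer of B. -/
theorem result {G : Type*} [Group G] [Finite G] {D : Set G} (hD : Cfsg.IsThreeTranspositionGroup D) (hprim : Cfsg.IsPrimitiveUnderConj D) (d₀ : G) (hd₀ : d₀ ∈ D) (h3 : Cfsg.pCore 3 ↥(Subgroup.closure {y : G | y ∈ D ∧ y ≠ d₀ ∧ Commute d₀ y}) ≤ Subgroup.center ↥(Subgroup.closure {y : G | y ∈ D ∧ y ≠ d₀ ∧ Commute d₀ y})) (h2 : Cfsg.pCore 2 ↥(Subgroup.closure {y : G | y ∈ D ∧ y ≠ d₀ ∧ Commute d₀ y}) ≤ Subgroup.center ↥(Subgroup.closure {y : G | y ∈ D ∧ y ≠ d₀ ∧ Commute d₀ y})) (h24 : Cfsg.IsOfTypeM24 G D) : (∀ X Y : Subgroup G, Nat.card X = 13 → Nat.card Y = 13 → ∃ g : G, X.map (MulAut.conj g).toMonoidHom = Y) ∧ ∃ (a b c d : G) (T K : Subgroup G), (∀ x ∈ [a, b, c, d], x ∈ D) ∧ ¬ Commute a d ∧ ¬ Commute b c ∧ Commute a b ∧ Commute a c ∧ Commute d b ∧ Commute d c ∧ T = Subgroup.closure ({a, b, c, d} : Set G) ∧ K = Subgroup.centralizer (T : Set G) ∧ Nonempty (↥K ≃* ↥(Cfsg.Lie.chevG2.group (ZMod 3))) ∧ ∀ B : Subgroup G, B ≤ K → Nat.card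 B = 13 → Subgroup.normalizer ((B : Subgroup G) : Set G) ≤ Subgroup.normalizer ((K : Subgroup G) : Set G) ∧ Nat.card ↥(K ⊓ Subgroup.normalizer ((B : Subgroup G) : Set G)) = 78 ∧ K ⊓ Subgroup.centralizer ((B : Subgroup G) : Set G) = B ∧ (((K ⊓ Subgroup.normalizer ((B : Subgroup G) : Set G)) ⊔ T).subgroupOf (Subgroup.normalizer ((B : Subgroup G) : Set G))).index = 2 := by
  obtain ⟨Ω, _, M, hN, rfl⟩ := L.br24 hD hprim h24
  have c := L.T24.cms M hN (L.T24.wcm M hN)
  have e : H14.sub M.gen (L.tws L.K24.a0 [L.T24.w, L.T24.u, L.P24.t, []]) = Subgroup.closure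
      {H14.ev M.gen L.K24.a0, H14.ev M.gen (L.tw L.K24.a0 L.T24.u), H14.ev M.gen (L.tw L.K24.a0 L.T24.w),
        H14.ev M.gen (L.tw L.K24.a0 L.P24.t)} := by
    rw [L.sub_tw4]; congr 1; ext; simp only [Set.mem_insert_iff, Set.mem_singleton_iff]; tauto
  refine ⟨L.conj_of_sylow1 (p := 13) (by norm_num) hN (by norm_num), _, _, _, _, _, _, ?_,
    L.ncomm_base (F := L.K24T.F) (L.K24.base0 M hN) _ _ (by decide +kernel), L.T24.wnc M hN, (c _ (by simp)).1,
    (c _ (by simp)).1, (c _ (by simp)).2, (c _ (by simp)).2, e, rfl, (L.T24.weq M hN).1 ▸ L.T24.iso M hN,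
    fun B h1 h2 => ?_⟩
  · simp only [List.mem_cons, List.not_mem_nil, or_false]
    rintro _ (rfl | rfl | rfl | rfl)
    exacts [IsConj.refl _, L.tw_mem M _ _, L.tw_mem M _ _, L.tw_mem M _ _]
  · obtain ⟨k, hk, h⟩ := L.conj_in (p := 13) (by norm_num) ((L.T24.weq M hN).1 ▸ (L.T24.weq M hN).2) (by norm_num)
      ((L.T24.frb M hN).2.1.trans (L.T24.fk M hN)) h1 (L.card_single (L.T24.ord M hN)) h2
    refine L.T24.row (L.cjM M k) hN (by rw [L.sub_cjM, h]) ?_ rfl
    rw [L.sub_cjM]
    exact (Subgroup.mem_normalizer_iff_map_conj_eq.1 (Subgroup.centralizer_le_normalizer _ hk)).symm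

end Cfsg.Agent.S5518
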