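import Cfsg.Statements.S5519
import Cfsg.Agent.L.B22
import Cfsg.Agent.L.Z22b
import Cfsg.Agent.L.KL


set_option autoImplicit false
set_option linter.unusedVariables false
open Cfsg

namespace Cfsg.Agent.S5519

/-- Let G be a finite group with trivial centre generated by a conjugation-invariant set D of 3-transpositions on which it acts primitively, such that for some d in D the subgroup generated by the members of D other than d commuting with d has central largest normal 2- and 3-subgroups, and suppose G with D is of type M(22). Let d₁, d₂ be distinct commuting members of D and C the centralizer of their product. Then the generalized Fitting subgroup of C is the direct product of a group of order 2 and an extraspecial 2-group of order 2^9, and C modulo it is isomorphic to the full isometry group of the elliptic quadratic form in dimension 6 over the field with two elements. -/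
theorem result {G : Type*} [Group G] [Finite G] {D : Set G} (hD : Cfsg.IsThreeTranspositionGroup D) (hprim : Cfsg.IsPrimitiveUnderConj D) (d₀ : G) (hd₀ : d₀ ∈ D) (h3 : Cfsg.pCore 3 ↥(Subgroup.closure {y : G | y ∈ D ∧ y ≠ d₀ ∧ Commute d₀ y}) ≤ Subgroup.center ↥(Subgroup.closure {y : G | y ∈ D ∧ y ≠ d₀ ∧ Commute d₀ y})) (h2 : Cfsg.pCore 2 ↥(Subgroup.closure {y : G | y ∈ D ∧ y ≠ d₀ ∧ Commute d₀ y}) ≤ Subgroup.center ↥(Subgroup.closure {y : G | y ∈ D ∧ y ≠ d₀ ∧ Commute d₀ y})) (h22 : Cfsg.IsOfTypeM22 G D) (d₁ d₂ : G) (h₁ : d₁ ∈ D) (h₂ : d₂ ∈ D) (hne : d₁ ≠ d₂) (hc : Commute d₁ d₂) (C : Subgroup G) (hC : C = Subgroup.centralizer ({d₁ * d₂} : Set G)) [hn : (Cfsg.generalizedFittingSubgroup ↥C).Normal] : (∃ (E : Type) (_ : Group E) (_ : Finite E), Cfsg.IsExtraspecial 2 E ∧ Nat.card E = 2 ^ 9 ∧ Nonempty (↥(Cfsg.generalizedFittingSubgroup ↥C) ≃* Multiplicative (ZMod 2) × E)) ∧ Nonempty (↥C ⧸ Cfsg.generalizedFittingSubgroup ↥C ≃* Cfsg.isometryGroup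 (ZMod 2) (Cfsg.quadFormMinus 2 (ZMod 2) 1 1)) := by
  obtain ⟨Ω, _, M, hN, rfl⟩ := L.br22 hD h22
  have f := L.four_of (hD.1.1 _ h₁) (hD.1.1 _ h₂) hne hc
  have o := hD.1.1 _ h₁
  have o2 := L.ord_mul o (hD.1.1 _ h₂) hne hc
  obtain ⟨M, -, rfl, rfl, e⟩ := (L.I22.tr2 M hN).ex2 (L.tup2 h₁ h₂ hne hc)
  rw [e, ← L.I22.ts1, ← L.I22.ts2, ← L.I22.e2 M hN] at hC o2
  rw [← L.cent_single, (L.Z22b.eqC M hN).1] at hC
  rw [← L.sub_pair] at f
  have h1 := (L.eq_of_cards (L.Z22b.vc M hN) (L.Z22b.cen M hN) f.1.ge).1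
  subst hC
  obtain ⟨S⟩ := H15.StdGO6m2.std
  have h2 := L.gfit_eq_oP (L.Z22b.op M hN) (inf_le_right.trans (h1.le.trans (L.Z22b.vq M hN)))
  have h3 := L.rowZE o (L.Z22b.eq M hN) (H14.ev_mem_sub _ List.mem_cons_self) h1 (L.Z22b.vq M hN)
    (by rw [← L.sub_single, ← H14.sub_append]; exact L.Z22b.qe M hN) (L.Z22b.qc M hN) (L.Z22b.ec M hN) f.1
    (L.Z22b.ue M hN) (L.Z22b.uv M hN) (L.card_single o2) (L.Z22b.ce M hN)
  exact ⟨L.shrinkE h3.1 (L.Z22b.ec M hN) (L.iso_map h2 h3.2), (L.Z22b.qs_ M hN (L.Pres.of fun _ _ =>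
    H15.StdGO6m2.hom S)).iso_map h2 S.card (L.Z22b.qc M hN).le (L.Z22b.eqC M hN).2.ge S.ne⟩

end Cfsg.Agent.S5519
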