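import Cfsg.Statements.S5520
import Cfsg.Agent.L.WU62b
import Cfsg.Agent.S0279
import Cfsg.Agent.S0283


set_option autoImplicit false
set_option linter.unusedVariables false
set_option maxHeartbeats 800000
open Cfsg

namespace Cfsg.Agent.S5520

/-- In the special unitary group of dimension 6 over the field with four elements (determinant-one matrices preserving the standard Hermitian form), the subgroups K whose centre has order 3 with K modulo its centre isomorphic to the projective special unitary group of dimension 4 over the field with nine elements fall into exactly three conjugacy classes. -/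
theorem result (F : Type) [Field F] [Fintype F] (hF : Fintype.card F = 4) (F9 : Type) [Field F9] [Fintype F9] (hF9 : Fintype.card F9 = 9) : ∃ K₁ K₂ K₃ : Subgroup ↥(Cfsg.SU 6 F 2), (∀ K ∈ [K₁, K₂, K₃], Nat.card ↥(Subgroup.center ↥K) = 3 ∧ Nonempty (↥K ⧸ Subgroup.center ↥K ≃* Cfsg.PSU 4 F9 3)) ∧ (¬ ∃ g : ↥(Cfsg.SU 6 F 2), K₁.map (MulAut.conj g).toMonoidHom = K₂) ∧ (¬ ∃ g : ↥(Cfsg.SU 6 F 2), K₁.map (MulAut.conj g).toMonoidHom = K₃) ∧ (¬ ∃ g : ↥(Cfsg.SU 6 F 2), K₂.map (MulAut.conj g).toMonoidHom = K₃) ∧ ∀ K : Subgroup ↥(Cfsg.SU 6 F 2), Nat.card ↥(Subgroup.center ↥K) = 3 → Nonempty (↥K ⧸ Subgroup.center ↥K ≃* Cfsg.PSU 4 F9 3) → ∃ g : ↥(Cfsg.SU 6 F 2), K.map (MulAut.conj g).toMonoidHom = K₁ ∨ K.map (MulAut.conj g).toMonoidHom = K₂ ∨ K.map (MulAut.conj g).toMonoidHom = K₃ := by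
  obtain ⟨S⟩ := H15.StdU62.std hF
  obtain ⟨U⟩ := H15.StdU43.std hF9
  have : Finite (PSU 6 F 2) := Nat.finite_of_card_ne_zero (S.card ▸ S.ne)
  have := Agent.S0283.result (q := 3) hF9 4 (by omega) (by omega)
  obtain ⟨A, B, C, h1, h2, h3⟩ := L.u62 S.M S.card U
  exact L.lift3 (L.center_simple' U.card U.ne (by norm_num)) (Agent.S0279.result (q := 2) hF 6 (by omega))
    S.card U.card h1 h2 h3

end Cfsg.Agent.S5520
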