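import Cfsg.Statements.S5541


set_option autoImplicit false
open Cfsg

namespace Cfsg.Agent.S5541

/-- Let ρ be a representation of a group H on a finite-dimensional real vector space U whose only ρ-invariant subspaces are the zero subspace and U, and suppose U carries a non-zero ρ-invariant symmetric bilinear form. Then the following are equivalent: (1) there is a non-zero ρ-equivariant commutative bilinear product on U of which every ρ-equivariant bilinear product is a scalar multiple; (2) there is a non-zero ρ-invariant trilinear form on U that is symmetric under all permutations of its arguments and of which every ρ-invariant trilinear form is a scalar multiple. -/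
theorem result {H : Type*} [Group H] {U : Type*} [AddCommGroup U] [Module ℝ U] [FiniteDimensional ℝ U] (ρ : Representation ℝ H U) (hirr : ∀ W : Submodule ℝ U, (∀ g : H, W.map (ρ g) ≤ W) → W = ⊥ ∨ W = ⊤) (B : LinearMap.BilinForm ℝ U) (hB0 : B ≠ 0) (hBs : ∀ u v, B u v = B v u) (hBi : ∀ (g : H) (u v : U), B (ρ g u) (ρ g v) = B u v) : (∃ m : U →ₗ[ℝ] U →ₗ[ℝ] U, m ≠ 0 ∧ (∀ u v, m u v = m v u) ∧ (∀ (g : H) (u v : U), m (ρ g u) (ρ g v) = ρ g (m u v)) ∧ ∀ m' : U →ₗ[ℝ] U →ₗ[ℝ] U, (∀ (g : H) (u v : U), m' (ρ g u) (ρ g v) = ρ g (m' u v)) → ∃ c : ℝ, m' = c • m) ↔ (∃ t : U →ₗ[ℝ] U →ₗ[ℝ] U →ₗ[ℝ] ℝ, t ≠ 0 ∧ (∀ u v w, t u v w = t v u w ∧ t u v w = t u w v) ∧ (∀ (g : H) (u v w : U), t (ρ g u) (ρ g v) (ρ g w) = t u v w) ∧ ∀ t' : U →ₗ[ℝ] U →ₗ[ℝ] U →ₗ[ℝ] ℝ, (∀ (g : H) (u v w : U), t' (ρ g u) (ρ g v) (ρ g w) = t' u v w) → ∃ c : ℝ, t' = c • t) := by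
  have nd : B.Nondegenerate := by
    have key : ∀ u, (∀ v, B u v = 0) → u = 0 := by
      have hk : ∀ g, (LinearMap.ker B).map (ρ g) ≤ LinearMap.ker B := by
        rintro g _ ⟨u, hu, rfl⟩
        refine LinearMap.mem_ker.2 (LinearMap.ext fun v => ?_)
        rw [← ρ.self_inv_apply g v, hBi, LinearMap.mem_ker.1 hu]; rfl
      rcases hirr _ hk with e | e
      · exact fun u hu => (Submodule.mem_bot ℝ).1 (e ▸ LinearMap.mem_ker.2 (LinearMap.ext hu))
      · exact absurd (LinearMap.ker_eq_top.1 e) hB0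
    exact ⟨key, fun u hu => key u fun v => (hBs _ _).trans (hu v)⟩
  let e := B.toDual nd
  have he : ∀ (f : Module.Dual ℝ U) w, B (e.symm f) w = f w := fun f w => B.apply_toDual_symm_apply f w
  have ext : ∀ {u v : U}, (∀ w, B u w = B v w) → u = v := fun h =>
    e.injective (LinearMap.ext h)
  have up : ∀ m : U →ₗ[ℝ] U →ₗ[ℝ] U, (∀ g u v, m (ρ g u) (ρ g v) = ρ g (m u v)) →
      ∀ g u v w, m.compr₂ B (ρ g u) (ρ g v) (ρ g w) = m.compr₂ B u v w := fun m hm g u v w => by
    simp only [LinearMap.compr₂_apply, hm, hBi]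
  have dn : ∀ t : U →ₗ[ℝ] U →ₗ[ℝ] U →ₗ[ℝ] ℝ, (∀ g u v w, t (ρ g u) (ρ g v) (ρ g w) = t u v w) →
      ∀ g u v, t.compr₂ e.symm.toLinearMap (ρ g u) (ρ g v) = ρ g (t.compr₂ e.symm.toLinearMap u v) :=
    fun t ht g u v => ext fun w => by
      rw [← ρ.self_inv_apply g w, hBi]
      simp only [LinearMap.compr₂_apply, LinearEquiv.coe_coe, he, ht]
  constructor
  · rintro ⟨m, h0, hc, hi, hu⟩
    have uq : ∀ t : U →ₗ[ℝ] U →ₗ[ℝ] U →ₗ[ℝ] ℝ, (∀ g u v w, t (ρ g u) (ρ g v) (ρ g w) = t u v w) →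
        ∃ c : ℝ, t = c • m.compr₂ B := fun t ht => by
      obtain ⟨c, hc⟩ := hu _ (dn t ht)
      refine ⟨c, LinearMap.ext₂ fun u v => LinearMap.ext fun w => ?_⟩
      have := congrArg (B · w) (LinearMap.congr_fun₂ hc u v)
      simpa [he] using this
    have n0 : m.compr₂ B ≠ 0 := fun h => h0 (LinearMap.ext₂ fun u v => ext fun w => by
      simpa using LinearMap.congr_fun (LinearMap.congr_fun₂ h u v) w)
    refine ⟨m.compr₂ B, n0, fun u v w => ⟨by simp only [LinearMap.compr₂_apply, hc u], ?_⟩, up m hi, uq⟩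
    obtain ⟨c, h⟩ := uq ((m.compr₂ B).compr₂ LinearMap.id |> (LinearMap.lflip.toLinearMap ∘ₗ ·))
      fun g u v w => up m hi g u w v
    have k : ∀ u v w, B (m u w) v = c * B (m u v) w := fun u v w =>
      LinearMap.congr_fun (LinearMap.congr_fun₂ h u v) w
    have c1 : c = 1 := by
      by_contra c1
      refine n0 (LinearMap.ext₂ fun u v => LinearMap.ext fun w => ?_)
      have k1 : B (m u v) w = c ^ 2 * B (m u v) w := by linear_combination k u w v + c * k u v w
      have k2 : B (m u v) w = c ^ 3 * B (m u v) w := by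
        have e1 := k u w v
        have e2 := k w v u
        have e3 := k v u w
        rw [hc w u] at e2
        rw [hc v w, hc v u] at e3
        linear_combination e1 + c * e2 + c ^ 2 * e3
      have : (c - 1) * B (m u v) w = 0 := by linear_combination c * k1 - k2
      exact (mul_eq_zero.1 this).resolve_left (sub_ne_zero.2 c1)
    simpa [c1] using k u w v
  · rintro ⟨t, h0, hs, hi, hu⟩
    refine ⟨t.compr₂ e.symm.toLinearMap, fun h => h0 (LinearMap.ext₂ fun u v => ?_),
      fun u v => ext fun w => by simp [he, (hs u v w).1], dn t hi, fun m hm => ?_⟩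
    · simpa using LinearMap.congr_fun₂ h u v
    · obtain ⟨c, hc⟩ := hu _ (up m hm)
      refine ⟨c, LinearMap.ext₂ fun u v => ext fun w => ?_⟩
      simpa [he] using LinearMap.congr_fun (LinearMap.congr_fun₂ hc u v) w

end Cfsg.Agent.S5541
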