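import Cfsg.Statements.S5543
import Cfsg.Agent.H14.Maj

set_option autoImplicit false
open Cfsg

namespace Cfsg.Agent.S5543

open H14.Mj

/-- Let V be a finite-dimensional real vector space with a commutative bilinear product and a positive-definite symmetric bilinear form that associates with the product and satisfies the Norton inequality (the Majorana setting of the definitions). Let X be a group of linear automorphisms of V in which every element squares to the identity, and suppose every non-identity element x of X is a Majorana involution with an axial vector a(x) of squared length 1, such that for any two distinct non-identity x, y the product a(x) ∘ a(y) equals (1/8)(a(x) + a(y) − a(xy)) (the dihedral subalgebra of type 2A whose third axis belongs to the involution xy). Then X has order at most 4. -/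
theorem result {V : Type*} [AddCommGroup V] [Module ℝ V] [FiniteDimensional ℝ V] (mul : V →ₗ[ℝ] V →ₗ[ℝ] V) (B : LinearMap.BilinForm ℝ V) (hV : Cfsg.Axial.IsMajoranaAmbient mul B) (X : Subgroup (V ≃ₗ[ℝ] V)) (hX : ∀ x ∈ X, x * x = 1) (ax : (V ≃ₗ[ℝ] V) → V) (hax : ∀ x ∈ X, x ≠ 1 → Cfsg.Axial.IsMajoranaPair mul B x (ax x)) (h1 : ∀ x ∈ X, x ≠ 1 → B (ax x) (ax x) = 1) (h2A : ∀ x ∈ X, ∀ y ∈ X, x ≠ 1 → y ≠ 1 → x ≠ y → mul (ax x) (ax y) = (1 / 8 : ℝ) • (ax x + ax y - ax (x * y))) : Nat.card ↥X ≤ 4 := by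
  by_contra hc
  push Not at hc
  have : Finite X := Nat.finite_of_card_ne_zero (by omega)
  have pick : ∀ s : Finset X, s.card ≤ 4 → ∃ x : X, x ∉ s := fun s hs => by
    have := Fintype.ofFinite X
    by_contra h
    push Not at h
    rw [Nat.card_eq_fintype_card, ← Finset.card_univ, ← Finset.eq_univ_of_forall h] at hc
    omega
  classical
  obtain ⟨x, hx⟩ := pick {1} (by simp)
  obtain ⟨y, hy⟩ := pick {1, x} (Finset.card_le_two.trans (by norm_num))
  obtain ⟨z, hz⟩ := pick {1, x, y, x * y} Finset.card_le_four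
  simp only [Finset.mem_insert, Finset.mem_singleton, not_or] at hx hy hz
  have sq : ∀ a : X, a * a = 1 := fun a => Subtype.ext (hX a a.2)
  have sq' : ∀ a b : X, a * (a * b) = b := fun a b => by rw [← mul_assoc, sq, one_mul]
  have iv : ∀ a : X, a⁻¹ = a := fun a => inv_eq_of_mul_eq_one_right (sq a)
  have cm : ∀ a b : X, a * b = b * a := fun a b => by rw [← iv (a * b), mul_inv_rev, iv, iv]
  have ne : ∀ {a b : X}, a ≠ b → a * b ≠ 1 := fun h e => h ((eq_inv_of_mul_eq_one_left e).trans (iv _))
  have pr : ∀ a b : X, a ≠ 1 → b ≠ 1 → a ≠ b →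
      mul (ax a) (ax b) = (1 / 8 : ℝ) • (ax a + ax b - ax (a * b : X)) := fun a b ha hb hab =>
    h2A a a.2 b b.2 (by simpa using ha) (by simpa using hb) (by simpa using hab)
  have mp : ∀ a : X, a ≠ 1 → MP mul B a (ax a) := fun a ha =>
    MP.of (hax a a.2 (by simpa using ha)) (h1 a a.2 (by simpa using ha))
  have n1 : ∀ {a b : X}, b ≠ 1 → a ≠ a * b := fun h e => h (by simpa using e)
  have ip : ∀ a b : X, a ≠ 1 → b ≠ 1 → a ≠ b → B (ax a) (ax b) = 1 / 8 := fun a b ha hb hab => by
    have e1 := hV.2.2.2.1 (ax a) (ax a) (ax b)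
    have e2 := hV.2.2.2.1 (ax a) (ax a) (ax (a * b : X))
    rw [pr a b ha hb hab, (mp a ha).idem] at e1
    rw [pr a _ ha (ne hab) (n1 hb), (mp a ha).idem, sq'] at e2
    simp only [map_add, map_sub, map_smul, (mp a ha).one, smul_eq_mul] at e1 e2
    linarith
  have eg : ∀ b : X, b ≠ 1 → x ≠ b →
      mul (ax x) (ax b - ax (x * b : X)) = (1 / 4 : ℝ) • (ax b - ax (x * b : X)) := fun b hb hab => by
    rw [map_sub, pr x b hx hb hab, pr x _ hx (ne hab) (n1 hb), sq']
    module
  have xy := Ne.symm hy.2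
  have xz := Ne.symm hz.2.1
  have yz := Ne.symm hz.2.2.1
  have a1 : x ≠ y * z := fun e => hz.2.2.2 (by rw [e, cm (y * z), sq'])
  have a2 : y ≠ x * z := fun e => a1 (by rw [e, mul_assoc, sq, mul_one])
  have f := (mp x hx).fqq' hV (eg y hy.1 xy) (eg z hz.1 xz)
  have g : mul (ax y - ax (x * y : X)) (ax z - ax (x * z : X)) =
      (-1 / 4 : ℝ) • (ax (y * z : X) - ax (x * (y * z) : X)) := by
    simp only [map_sub, LinearMap.sub_apply]
    rw [pr y z hy.1 hz.1 yz, pr _ z (ne xy) hz.1 (Ne.symm hz.2.2.2), pr y _ hy.1 (ne xz) a2,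
      pr _ _ (ne xy) (ne xz) (fun e => yz (mul_left_cancel e)), mul_assoc x y z,
      show y * (x * z) = x * (y * z) by rw [← mul_assoc, cm y, mul_assoc],
      show x * y * (x * z) = y * z by rw [cm x y, mul_assoc, sq']]
    module
  rw [g, map_smul, eg _ (ne yz) a1] at f
  have f2 := congrArg (B (ax (y * z : X))) f
  have f3 := congrArg (B (ax x)) f
  simp only [map_sub, map_smul, smul_eq_mul, (mp _ (ne yz)).one, (mp x hx).one, ip _ _ hx (ne yz) a1,
    ip _ _ (ne yz) hx a1.symm, ip _ _ hx (ne a1) (n1 (ne yz)),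
    ip _ _ (ne yz) (ne a1) (by rw [cm x]; exact n1 hx)] at f2 f3
  linarith

end Cfsg.Agent.S5543
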