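import Cfsg.Statements.S5545
import Cfsg.Agent.H14.Maj2

set_option autoImplicit false
open Cfsg

namespace Cfsg.Agent.S5545

open H14.Mj Cfsg.Axial

theorem conj {V : Type*} [AddCommGroup V] [Module ℝ V] {mul : V →ₗ[ℝ] V →ₗ[ℝ] V}
    {B : LinearMap.BilinForm ℝ V} {μ g : V ≃ₗ[ℝ] V} {a : V} (h : IsMajoranaPair mul B μ a)
    (h1 : ∀ u v, g (mul u v) = mul (g u) (g v)) (hc : g * μ = μ * g) : IsMajoranaPair mul B μ (g a) := by
  obtain ⟨h2, h3, ⟨⟨h0, h4, h5, h6⟩, h7⟩, h8, h9⟩ := h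
  have e1 : ∀ c v, g v ∈ eigen mul (g a) c ↔ v ∈ eigen mul a c := fun c v => by
    rw [mem_eigen, mem_eigen, ← h1, ← map_smul, g.injective.eq_iff]
  have e2 : ∀ c, eigen mul (g a) c = (eigen mul a c).map (g : V →ₗ[ℝ] V) := fun c => by
    ext v
    obtain ⟨v, rfl⟩ := g.surjective v
    rw [e1]
    exact ⟨fun h => ⟨v, h, rfl⟩, fun ⟨w, hw, e⟩ => g.injective e ▸ hw⟩
  have e3 : ∀ S, eigenSum mul (g a) S = (eigenSum mul a S).map (g : V →ₗ[ℝ] V) := fun S => by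
    simp only [eigenSum, e2, Submodule.map_iSup]
  have e4 : ∀ v, μ (g v) = g (μ v) := fun v => (LinearEquiv.congr_fun hc v).symm
  refine ⟨h2, h3, ⟨⟨by simpa using h0, by rw [← h1, h4], by rw [e3, h5]; simp, fun c hc d hd u hu v hv => ?_⟩,
    by rw [e2, h7]; simp [Submodule.map_span]⟩, fun v hv => ?_, fun v hv => ?_⟩
  · obtain ⟨u, rfl⟩ := g.surjective u
    obtain ⟨v, rfl⟩ := g.surjective v
    rw [← h1, e3]
    exact ⟨_, h6 c hc d hd u ((e1 _ _).1 hu) v ((e1 _ _).1 hv), rfl⟩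
  · rw [e3] at hv
    obtain ⟨v, hv, rfl⟩ := hv
    exact (e4 v).trans (congrArg g (h8 v hv))
  · obtain ⟨v, rfl⟩ := g.surjective v
    exact (e4 v).trans ((congrArg g (h9 v ((e1 _ _).1 hv))).trans (map_neg g v))

/-- Let V be a finite-dimensional real vector space with a commutative bilinear product and a positive-definite symmetric bilinear form that associates with the product and satisfies the Norton inequality (the Majorana setting of the definitions). Let μ₀, μ₁ be commuting Majorana involutions with distinct axial vectors a₀ ≠ a₁ of squared length 1, each involution having no other axial vector. Then either a₀ and a₁ are orthogonal with a₀ ∘ a₁ = 0 (type 2B), or their inner product is 1/8 and, with a₂ = a₀ + a₁ − 8 a₀ ∘ a₁, the vector a₂ is an idempotent and a₀ ∘ a₂ = (1/8)(a₀ + a₂ − a₁), a₁ ∘ a₂ = (1/8)(a₁ + a₂ − a₀) (type 2A: the three idempotents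 span a subalgebra with aᵢ ∘ aⱼ = (1/8)(aᵢ + aⱼ − aₖ)). -/
theorem result {V : Type*} [AddCommGroup V] [Module ℝ V] [FiniteDimensional ℝ V] (mul : V →ₗ[ℝ] V →ₗ[ℝ] V) (B : LinearMap.BilinForm ℝ V) (hV : Cfsg.Axial.IsMajoranaAmbient mul B) (μ₀ μ₁ : V ≃ₗ[ℝ] V) (a₀ a₁ : V) (h₀ : Cfsg.Axial.IsMajoranaPair mul B μ₀ a₀) (h₁ : Cfsg.Axial.IsMajoranaPair mul B μ₁ a₁) (hu₀ : ∀ a : V, Cfsg.Axial.IsMajoranaPair mul B μ₀ a → a = a₀) (hu₁ : ∀ a : V, Cfsg.Axial.IsMajoranaPair mul B μ₁ a → a = a₁) (hn₀ : B a₀ a₀ = 1) (hn₁ : B a₁ a₁ = 1) (hc : μ₀ * μ₁ = μ₁ * μ₀) (hne : a₀ ≠ a₁) : (B a₀ a₁ = 0 ∧ mul a₀ a₁ = 0) ∨ (B a₀ a₁ = 1 / 8 ∧ mul (a₀ + a₁ - (8 : ℝ) • mul a₀ a₁) (a₀ + a₁ - (8 : ℝ) • mul a₀ a₁) = a₀ + a₁ - (8 : ℝ) • mul a₀ a₁ ∧ mul a₀ (a₀ + a₁ - (8 : ℝ) • mul a₀ a₁) = (1 / 8 : ℝ) • (a₀ + (a₀ + a₁ - (8 : ℝ) • mul a₀ a₁) - a₁) ∧ mul a₁ (a₀ + a₁ - (8 : ℝ) • mul a₀ a₁)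 = (1 / 8 : ℝ) • (a₁ + (a₀ + a₁ - (8 : ℝ) • mul a₀ a₁) - a₀)) := by
  obtain ⟨c, rfl, rfl, h⟩ := exists_dih hV (MP.of h₀ hn₀) (MP.of h₁ hn₁)
  have t0 : ∀ j k, j + k = 0 → μ₀ (c j) = c k := fun j k e => by simpa using h.act 0 j k e
  have t1 : ∀ j k, j + k = 2 → μ₁ (c j) = c k := fun j k e =>
    (h.mp 1).uniq (MP.of h₁ hn₁) ▸ h.act 1 j k e
  have m1 : c (-1) = c 1 := t0 1 (-1) rfl ▸ hu₁ _ (conj h₁ h₀.1 hc)
  have p2 : c 2 = c 0 := t1 0 2 rfl ▸ hu₀ _ (conj h₀ h₁.1 hc.symm)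
  have m2 : c (-2) = c 0 := by rw [← t0 2 (-2) rfl, p2, t0 0 0 rfl]
  have p3 : c 3 = c 1 := by rw [← t1 (-1) 3 rfl, m1, t1 1 1 rfl]
  obtain ⟨s, hs⟩ : ∃ s, Sg mul (c 0) (c 1) = s := ⟨_, rfl⟩
  obtain ⟨x, hx⟩ : ∃ x, B (c 0) (c 1) = x := ⟨_, rfl⟩
  have hy : B (c 0) (c 2) = 1 := by rw [p2, hn₀]
  have he : Sg mul (c 0) (c 2) = (15 / 16 : ℝ) • c 0 := by rw [p2, Sg, (h.mp 0).idem]; module
  have ho : Sg mul (c (-1)) (c 1) = (15 / 16 : ℝ) • c 1 := by rw [m1, Sg, (h.mp 1).idem]; module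
  obtain ⟨k1, k2⟩ := h.core hs he ho hx hy
  have k3 := (h.rel hx hy (p3 ▸ hx) rfl rfl).1
  have q0 := h.mS 0 1 (-1) hs hx
  have q1 := h.mS 1 0 2 ((h.Sc _ _).trans hs) ((hV.2.1 _ _).trans hx)
  have p0 := mul_eq_Sg hs
  rw [map_smul, p0] at k1
  rw [m1, p2, m2] at *
  have k4 : x * (x - 1 / 8) * (x - 1) = 0 := by linear_combination (7 / 32768 : ℝ) * k3
  simp only [mul_eq_zero, sub_eq_zero] at k4
  rcases k4 with (rfl | rfl) | rfl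
  · exact Or.inl ⟨hx, by rw [p0]; linear_combination (norm := module) (3 / 4 : ℝ) • k1⟩
  · refine Or.inr ⟨hx, ?_⟩
    simp only [p0, map_add, map_sub, map_smul, LinearMap.add_apply, LinearMap.sub_apply,
      LinearMap.smul_apply, (h.mp _).idem, hV.1 s (c _), hV.1 (c 1) (c 0), q0, q1, k2]
    exact ⟨by module, by module, by module⟩
  · exact absurd (eq_of_one hV hn₀ hn₁ hx) hne

end Cfsg.Agent.S5545
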