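import Cfsg.Statements.S5548
import Cfsg.Agent.H14.M24Use

set_option autoImplicit false
open Cfsg

namespace Cfsg.Agent.S5548

open H14 MulAction
open scoped Pointwise
set_option maxRecDepth 100000
theorem duad {W : Set (Finset GolayPt)} (h : InvFam W) {s : Finset GolayPt} (hs : s ∈ W) (hs' : s ∉ GC) :
    ∀ t : Finset GolayPt, t.card = 2 → t ∈ W := by
  obtain ⟨c, hc, h4⟩ := exists_leader s
  obtain ⟨u, rfl⟩ : ∃ u, s = symmDiff u c := ⟨symmDiff s c, (symmDiff_symmDiff_cancel_right _ _).symm⟩
  rw [symmDiff_symmDiff_cancel_right] at h4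
  have hu : u.Nonempty := Finset.nonempty_iff_ne_empty.2 fun e => hs' (by
    rwa [e, ← Finset.bot_eq_empty, bot_symmDiff])
  -- moving one point and fixing the rest
  have mv : ∀ (F : Finset GolayPt) p q, F.card ≤ 4 → p ∉ F → q ∉ F → ∃ g : M24, (∀ x ∈ F, g • x = x) ∧ g • p = q := by
    intro F p q hF hp hq
    let e := F.equivFin.symm
    have i1 : ∀ p ∉ F, Function.Injective (Fin.cons p (fun i => (e i).1) : Fin (F.card + 1) → GolayPt) := fun p hp =>
      Fin.cons_injective_iff.2 ⟨fun ⟨i, hi⟩ => hp (hi ▸ (e i).2), Subtype.val_injective.comp e.injective⟩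
    obtain ⟨g, hg⟩ := M24_exists_smul (by omega) ⟨_, i1 p hp⟩ ⟨_, i1 q hq⟩
    exact ⟨g, fun x hx => by simpa [e] using hg (F.equivFin ⟨x, hx⟩).succ, hg 0⟩
  have out : ∀ F : Finset GolayPt, F.card < 24 → ∃ q, q ∉ F := fun F hF => by
    by_contra! e
    rw [Finset.eq_univ_of_forall e, Finset.card_univ, card_golayPt] at hF
    omega
  have fin : (∀ g : M24, symmDiff (g • u) u ∈ W) → ∀ t : Finset GolayPt, t.card = 2 → t ∈ W := fun e t ht => by
    obtain ⟨p, hp⟩ := hu
    obtain ⟨q, hq⟩ := out u (by omega)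
    obtain ⟨g, h1, h2⟩ := mv (u.erase p) p q (Finset.card_erase_le.trans h4) (by simp) (by simp [hq])
    have : g • u = insert q (u.erase p) := by
      conv_lhs => rw [← Finset.insert_erase hp, Finset.smul_finset_insert, h2, smul_eq_of_pw h1]
    have h3 := card_symmDiff_add (g • u) u
    rw [Finset.card_smul_finset, this, Finset.insert_inter_of_notMem hq, Finset.inter_eq_left.2 (Finset.erase_subset _ _),
      Finset.card_erase_of_mem hp, ← this] at h3
    have := Finset.card_pos.2 ⟨p, hp⟩
    obtain ⟨k, e'⟩ := M24_exists_smul_finset (s := symmDiff (g • u) u) (t := t) (by omega) (by omega)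
    exact e' ▸ h.sm k _ (e g)
  have sd : ∀ g : M24, symmDiff (symmDiff (g • u) u) (symmDiff (g • c) c) ∈ W := fun g => by
    have := h.sd _ (h.sm g _ hs) _ hs
    rwa [smul_symmDiff, symmDiff_symmDiff_symmDiff_comm] at this
  by_cases e : c = ∅ ∨ c = Finset.univ
  · refine fin fun g => ?_
    have := sd g
    rwa [show g • c = c from e.elim (fun e => by rw [e, Finset.smul_finset_empty]) fun e => by
      rw [e, Finset.smul_finset_univ], symmDiff_self, symmDiff_bot] at this
  push Not at e
  have hc' := card_mem_GC hc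
  have c0 := e.1.card_pos
  have c1 : c.card ≠ 24 := fun e' => e.2 (Finset.eq_univ_of_card _ (e'.trans card_golayPt.symm))
  obtain ⟨p, hp, hp'⟩ := Finset.exists_mem_notMem_of_card_lt_card (s := u) (t := c) (by omega)
  obtain ⟨q, hq⟩ := out (u ∪ c) ((Finset.card_union_le _ _).trans_lt (by omega))
  rw [Finset.notMem_union] at hq
  obtain ⟨g, h1, h2⟩ := mv u p q h4 hp' hq.1
  have h3 := sd g
  rw [smul_eq_of_pw h1, symmDiff_self, bot_symmDiff] at h3
  have h5 := h.of_code (symmDiff_mem_GC (smul_mem_GC g hc) hc) (Finset.ne_empty_of_mem (a := q)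
    (Finset.mem_symmDiff.2 (.inl ⟨by rw [← h2]; exact Finset.smul_mem_smul_finset hp, hq.2⟩))) (fun e' => by
      obtain ⟨x, hx⟩ := hu
      have : x ∈ symmDiff (g • c) c := by rw [e']; exact Finset.mem_univ x
      rw [Finset.mem_symmDiff, ← Finset.inv_smul_mem_iff, inv_smul_eq_iff.2 (h1 x hx).symm] at this
      exact this.elim (fun h => h.2 h.1) fun h => h.2 h.1) h3
  have h6 := h.sd _ hs _ (h5 hc)
  rw [symmDiff_symmDiff_cancel_right] at h6
  exact fin fun g => h.sd _ (h.sm g _ h6) _ h6
theorem even {W : Set (Finset GolayPt)} (h : InvFam W) (h2 : ∀ t : Finset GolayPt, t.card = 2 → t ∈ W)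
    (s : Finset GolayPt) (hs : 2 ∣ s.card) : s ∈ W := by
  induction e : s.card using Nat.strong_induction_on generalizing s with
  | _ k ih =>
    by_cases hk : k = 0
    · have := h.sd _ (h2 {none, some 0} rfl) _ (h2 {none, some 0} rfl)
      rwa [symmDiff_self, Finset.bot_eq_empty, ← Finset.card_eq_zero.1 (e.trans hk)] at this
    obtain ⟨t, ht, h5⟩ := Finset.exists_subset_card_eq (s := s) (n := 2) (by omega)
    have h3 := card_symmDiff_add s t
    rw [Finset.inter_eq_right.2 ht] at h3
    have := h.sd _ (ih _ (by omega) (symmDiff s t) (by omega) rfl) _ (h2 t h5)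
    rwa [symmDiff_symmDiff_cancel_right] at this

/-- For the automorphism group of the length-24 binary Golay code of the definitions (the Mathieu group of degree 24) acting on binary words of length 24 by permuting coordinates, the only invariant subspaces of the space of all words are: zero, the span of the all-ones word, the code itself, the even-weight words, and the whole space. (So the permutation module has a unique composition series.) -/
theorem result (W : Submodule (ZMod 2) (Cfsg.GolayPt → ZMod 2)) (hW : ∀ σ ∈ Cfsg.M24, ∀ w ∈ W, (fun p => w (σ.symm p)) ∈ W) : W = ⊥ ∨ W = Submodule.span (ZMod 2) {fun _ => (1 : ZMod 2)} ∨ W = Cfsg.golayCode ∨ (W : Set (Cfsg.GolayPt → ZMod 2)) = {w | ∑ p, w p = 0} ∨ W = ⊤ := by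
  have h := invFam_of hW
  have ev : ∀ s, ∑ p, indW s p = 0 ↔ 2 ∣ s.card := fun s => by rw [sum_indW, ZMod.natCast_eq_zero_iff]
  by_cases e : W ≤ golayCode
  · by_cases e1 : ∃ s, indW s ∈ W ∧ s ≠ ∅ ∧ s ≠ Finset.univ
    · obtain ⟨s, hs, e0, e1⟩ := e1
      refine .inr (.inr (.inl (le_antisymm e fun w hw => ?_)))
      exact indW_support w ▸ h.of_code (indW_mem.1 (e hs)) e0 e1 hs (support_mem_GC.2 hw)
    have key : ∀ w ∈ W, w = 0 ∨ w = fun _ => 1 := fun w hw => by
      rw [← indW_support w] at hw ⊢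
      by_cases e0 : support₂ w = ∅
      · rw [e0, indW_empty]; exact .inl rfl
      · rw [not_not.1 fun e2 => e1 ⟨_, hw, e0, e2⟩, indW_univ]; exact .inr rfl
    by_cases e2 : (fun _ => 1) ∈ W
    · exact .inr (.inl (le_antisymm (fun w hw => (key w hw).elim (· ▸ zero_mem _) (· ▸ Submodule.mem_span_singleton_self _))
        ((Submodule.span_singleton_le_iff_mem _ _).2 e2)))
    · exact .inl ((Submodule.eq_bot_iff _).2 fun w hw => (key w hw).resolve_right fun e3 => e2 (e3 ▸ hw))
  obtain ⟨w, hw, hw'⟩ := SetLike.not_le_iff_exists.1 e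
  have h1 := even h (duad h (s := support₂ w) (by show indW _ ∈ W; rwa [indW_support]) (mt support_mem_GC.1 hw'))
  by_cases e1 : ∀ s, indW s ∈ W → 2 ∣ s.card
  · refine .inr (.inr (.inr (.inl (Set.ext fun w => ?_))))
    rw [← indW_support w]
    exact ⟨fun hw => (ev _).2 (e1 _ hw), fun hw => h1 _ ((ev _).1 hw)⟩
  push Not at e1
  obtain ⟨s, hs, e1⟩ := e1
  refine .inr (.inr (.inr (.inr (Submodule.eq_top_iff'.2 fun w => ?_))))
  rw [← indW_support w]
  by_cases e2 : 2 ∣ (support₂ w).card
  · exact h1 _ e2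
  have h3 := card_symmDiff_add (support₂ w) s
  have := h.sd _ (h1 (symmDiff (support₂ w) s) (by omega)) _ hs
  rwa [symmDiff_symmDiff_cancel_right] at this

end Cfsg.Agent.S5548
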