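import Cfsg.Statements.S5549
import Cfsg.Agent.H14.M24Use
import Cfsg.Agent.H14.Design

set_option autoImplicit false
open Cfsg

namespace Cfsg.Agent.S5549
open H14 Finset
open scoped Pointwise
def χ : AddChar (ZMod 2) ℤ := AddChar.zmodChar 2 (neg_one_sq (R := ℤ))
theorem χ1 : ∀ a, χ a = 1 → a = 0 := by decide
theorem χ2 : ∀ a b, χ (a + 1 + (b + 1)) = χ (a + b) := by decide
theorem z2 : ∀ a : ZMod 2, a + a = 0 := by decide
theorem mw {A ι : Type*} [AddCommGroup A] [Fintype A] [Fintype ι] (g h : ι → A →+ ZMod 2)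
    (e : ∀ c, ∑ i, χ (g i c) = ∑ i, χ (h i c)) (i : ι) : ∃ j, g i = h j := by
  classical
  by_contra! k
  have T : ∀ f : A →+ ZMod 2, ∑ c, χ (f c) = if f = 0 then (Fintype.card A : ℤ) else 0 := fun f =>
    (AddChar.sum_eq_ite (χ.compAddMonoidHom f)).trans (if_congr
      ⟨fun q => by ext c; exact χ1 _ (DFunLike.congr_fun q c), fun q => by subst q; ext; simp⟩ rfl rfl)
  have n : ∀ f f' : A →+ ZMod 2, f + f' = 0 ↔ f' = f := fun f f' => by
    simp only [DFunLike.ext_iff, AddMonoidHom.add_apply, AddMonoidHom.zero_apply, CharTwo.add_eq_zero]; simp only [eq_comm]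
  have : ∑ j, ∑ c, χ ((g j + g i) c) = ∑ j, ∑ c, χ ((h j + g i) c) := by
    rw [sum_comm, sum_comm (f := fun j c => χ ((h j + g i) c))]
    simp only [AddMonoidHom.add_apply, AddChar.map_add_eq_mul, ← sum_mul, e]
  simp only [T, n, k, if_false, sum_const_zero] at this
  refine (sum_pos' (fun j _ => by positivity) ⟨i, mem_univ i, ?_⟩).ne' this
  simpa using Fintype.card_pos
abbrev δ (p : GolayPt) : GolayPt → ZMod 2 := Pi.single p 1
theorem ind (l : List GolayPt) (h7 : l.length ≤ 7) (h : ∀ c ∈ golayCode, (l.map c).sum = 0) : (l.map δ).sum = 0 := by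
  have h1 : ∀ c : GolayPt → ZMod 2, (l.map c).sum = ∑ p, c p * (l.map δ).sum p := fun c => by
    clear h h7
    induction l with
    | nil => simp
    | cons a l ih => simp [ih, mul_add, sum_add_distrib, Pi.single_apply]
  have h2 : (support₂ (l.map δ).sum).card ≤ l.length := (card_le_card fun p hp => by
    by_contra k
    refine (mem_filter.1 hp).2 ?_
    rw [Pi.list_sum_apply]
    refine List.sum_eq_zero fun y hy => ?_
    simp only [List.map_map, List.mem_map] at hy
    obtain ⟨a, ha, rfl⟩ := hy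
    exact Pi.single_eq_of_ne (fun e : p = a => k (List.mem_toFinset.2 (e ▸ ha))) _).trans l.toFinset_card_le
  generalize (l.map δ).sum = w at h1 h2
  rw [← indW_support w] at h1 ⊢
  have := card_mem_GC (mem_GC_of_even (s := support₂ w) fun b hb => by
    have := h1 _ ▸ h _ (indW_mem.2 (isCW_basis b hb).bset_mem)
    rw [← Nat.dvd_iff_mod_eq_zero, ← ZMod.natCast_eq_zero_iff, ← sum_indW, ← this]
    exact sum_congr rfl fun p _ => by simp only [indW, mem_inter]; split_ifs <;> simp_all)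
  rw [card_eq_zero.1 (show (support₂ w).card = 0 by omega), indW_empty]
theorem mt {a b c d u v : GolayPt} (h1 : a ≠ b) (h2 : c ≠ d) (h3 : u ≠ v) (e : δ a + δ b + δ c + δ d + δ u + δ v = 0) :
    a = c ∧ b ≠ d ∨ a = d ∧ b ≠ c ∨ b = c ∧ a ≠ d ∨ b = d ∧ a ≠ c := by
  have ea : a ≠ c → a ≠ d → a ≠ u → a ≠ v → False := fun _ _ _ _ => by simpa [*] using congrFun e a
  have eb : b ≠ c → b ≠ d → b ≠ u → b ≠ v → False := fun _ _ _ _ => by simpa [*, h1.symm] using congrFun e b
  have ec : c ≠ a → c ≠ b → c ≠ u → c ≠ v → False := fun _ _ _ _ => by simpa [*] using congrFun e c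
  have eu : ¬ (a = c ∧ b = d ∨ a = d ∧ b = c) := by
    have : δ a u + δ b u + δ c u + δ d u + 1 = 0 := by simpa [h3] using congrFun e u
    rintro (⟨rfl, rfl⟩ | ⟨rfl, rfl⟩) <;> exact one_ne_zero (by linear_combination this - z2 (δ a u) - z2 (δ b u))
  simp only [ne_eq, imp_false, not_not, ← or_iff_not_imp_left] at ea eb ec
  clear e
  grind
theorem star {α : Type*} {u v : ZMod 23 → α} (n : ∀ p, u p ≠ v p) (h : ∀ p q, p ≠ q →
    u p = u q ∧ v p ≠ v q ∨ u p = v q ∧ v p ≠ u q ∨ v p = u q ∧ u p ≠ v q ∨ v p = v q ∧ u p ≠ u q) : ∃ s, ∀ p, u p = s ∨ v p = s := by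
  by_contra! k
  obtain ⟨p, hp⟩ := k (u 0)
  obtain ⟨q, hq⟩ := k (v 0)
  obtain ⟨r, r0, rp, rq⟩ : ∃ r : ZMod 23, r ≠ 0 ∧ r ≠ p ∧ r ≠ q := by clear hp hq; revert p q; decide
  have p0 : p ≠ 0 := by rintro rfl; exact hp.1 rfl
  have q0 : q ≠ 0 := by rintro rfl; exact hq.2 rfl
  have := h p 0 p0
  have := h q 0 q0
  have pq : p ≠ q := by rintro rfl; grind
  have := h p q pq
  have := h r 0 r0
  have := h r p rp
  have := h r q rq
  have := n 0
  have := n p
  have := n q
  have := n r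
  clear h k n
  grind
theorem key (x : golayCode ≃ₗ[ZMod 2] golayCode) (h : ∀ c, ∃ σ : Equiv.Perm GolayPt, (x c).1 = (fun p => c.1 (σ.symm p)) ∨
    (x c).1 = (fun p => c.1 (σ.symm p)) + fun _ => 1) (p q : GolayPt) : ∃ a b, ∀ c, (x c).1 p + (x c).1 q = c.1 a + c.1 b := by
  have := Fintype.ofFinite golayCode
  let f : GolayPt × GolayPt → golayCode →+ ZMod 2 := fun p => AddMonoidHom.mk' (fun c => c.1 p.1 + c.1 p.2) fun _ _ => add_add_add_comm ..
  obtain ⟨a, e⟩ := mw (fun p => (f p).comp x.toAddMonoidHom) f (fun c => by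
    obtain ⟨σ, e⟩ := h c
    rw [← (σ.symm.prodCongr σ.symm).sum_comp fun p => χ (f p c)]
    refine Finset.sum_congr rfl fun p _ => ?_
    show χ ((x c).1 p.1 + (x c).1 p.2) = χ (c.1 (σ.symm p.1) + c.1 (σ.symm p.2))
    rcases e with e | e <;> rw [e]
    exact χ2 ..) (p, q)
  exact ⟨a.1, a.2, fun c => DFunLike.congr_fun e c⟩


/-- Let X be a group of linear automorphisms of the length-24 binary Golay code of the definitions that fix the all-ones word, containing the coordinate-permutation action of every element of the code's automorphism group (the Mathieu group of degree 24), and such that every element of X sends each codeword into its orbit under that Mathieu group up to adding the all-ones word (X has the same orbits as the Mathieu group on the code modulo the all-ones word). Then every element of X agrees, modulo the all-ones word, with the action of a single element of the Mathieu group: X induces exactly the Mathieu group on the code modulo the all-ones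 word. -/
theorem result (X : Subgroup (↥Cfsg.golayCode ≃ₗ[ZMod 2] ↥Cfsg.golayCode)) (h1 : ∀ x ∈ X, ∀ e : ↥Cfsg.golayCode, (e : (Cfsg.GolayPt → ZMod 2)) = (fun _ => (1 : ZMod 2)) → x e = e) (hM : ∀ σ ∈ Cfsg.M24, ∃ x ∈ X, ∀ c : ↥Cfsg.golayCode, ((x c : ↥Cfsg.golayCode) : (Cfsg.GolayPt → ZMod 2)) = fun p => (c : (Cfsg.GolayPt → ZMod 2)) (σ.symm p)) (horb : ∀ x ∈ X, ∀ c : ↥Cfsg.golayCode, ∃ σ ∈ Cfsg.M24, ((x c : ↥Cfsg.golayCode) : (Cfsg.GolayPt → ZMod 2)) = (fun p => (c : (Cfsg.GolayPt → ZMod 2)) (σ.symm p)) ∨ ((x c : ↥Cfsg.golayCode) : (Cfsg.GolayPt → ZMod 2)) = (fun p => (c : (Cfsg.GolayPt → ZMod 2)) (σ.symm p)) + fun _ => (1 : ZMod 2)) (x : ↥Cfsg.golayCode ≃ₗ[ZMod 2] ↥Cfsg.golayCode) (hx : x ∈ X) : ∃ σ ∈ Cfsg.M24, ∀ c : ↥Cfsg.golayCode, ((x c : ↥Cfsg.golayCode) : (Cfsg.GolayPt → ZMod 2)) = (fun p => (c : (Cfsg.GolayPt → ZMod 2)) (σ.symm p)) ∨ ((x c : ↥Cfsg.golayCode) : (Cfsg.GolayPt → ZMod 2)) = (fun p => (c : (Cfsg.GolayPt → ZMod 2)) (σ.symm p)) + fun _ =>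 (1 : ZMod 2) := by
  choose u v hF using key x fun c => (horb x hx c).imp fun _ k => k.2
  have in2 : ∀ p q, (∀ c, (x c).1 p + (x c).1 q = 0) → p = q := fun p q e => by_contra fun n => by
    have := congrFun (ind [p, q] (by simp) fun c hc => by simpa using e (x.symm ⟨c, hc⟩)) p
    simp [n] at this
  have ne : ∀ p q, p ≠ q → u p q ≠ v p q := fun p q n e => n (in2 p q fun c => by rw [hF, e, z2])
  obtain ⟨s, hs⟩ := star (u := fun p => u none (some p)) (v := fun p => v none (some p)) (fun p => ne _ _ (by simp)) fun p q n =>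
    mt (ne _ _ (by simp)) (ne _ _ (by simp)) (ne (some p) (some q) (by simpa)) (by
      simpa [add_assoc] using ind [u none p, v none p, u none q, v none q, u p q, v p q] (by simp) fun c hc => by
        have h1 := hF none p ⟨c, hc⟩
        have h2 := hF none q ⟨c, hc⟩
        have h3 := hF p q ⟨c, hc⟩
        simp only [List.map, List.sum_cons, List.sum_nil] at *
        linear_combination z2 ((x ⟨c, hc⟩).1 none) + z2 ((x ⟨c, hc⟩).1 p) + z2 ((x ⟨c, hc⟩).1 q) - h1 - h2 - h3)
  have : ∀ p, ∃ t, ∀ c, (x c).1 none + (x c).1 p = c.1 s + c.1 t := by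
    rintro (_ | p)
    · exact ⟨s, fun c => by rw [z2, z2]⟩
    rcases hs p with rfl | rfl
    exacts [⟨_, hF _ _⟩, ⟨_, fun c => (hF _ _ c).trans (add_comm ..)⟩]
  choose τ hτ using this
  let e := Equiv.ofBijective τ (Finite.injective_iff_bijective.1 fun p q e => in2 p q fun c => by
    linear_combination hτ p c + hτ q c + congrArg c.1 e + z2 (c.1 s) + z2 (c.1 (τ q)) - z2 ((x c).1 none))
  have fin : ∀ c, (x c).1 = (fun p => c.1 (e.symm.symm p)) ∨ (x c).1 = (fun p => c.1 (e.symm.symm p)) + fun _ => 1 := fun c =>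
    (show ∀ a : ZMod 2, a = 0 ∨ a = 1 by decide) (c.1 s - (x c).1 none) |>.imp
      (fun k => funext fun p => show _ = c.1 (τ p) by linear_combination hτ p c + k)
      fun k => funext fun p => show _ = c.1 (τ p) + 1 by linear_combination hτ p c + k
  refine ⟨e.symm, mem_M24_iff.2 fun b hb => indW_mem.1 ?_, fin⟩
  rw [show indW (e.symm • b) = fun p => indW b (e.symm.symm p) from funext fun p => by simp only [indW, ← Finset.inv_smul_mem_iff]; rfl]
  rcases fin ⟨_, indW_mem.2 hb⟩ with k | k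
  · exact k ▸ (x _).2
  · exact (add_mem_cancel_right (indW_univ ▸ indW_mem.2 univ_mem_GC)).1 (k ▸ (x _).2)

end Cfsg.Agent.S5549
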