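import Cfsg.Statements.S5550
import Cfsg.Agent.H14.M24Use

set_option autoImplicit false
open Cfsg

namespace Cfsg.Agent.S5550

open H14 MulAction
open scoped Pointwise
set_option maxRecDepth 100000
theorem key {ws : List Word} (h : (Nat.beq (andL 24 (fun w => agr 24 5 (arW 24 M24c.nets 5 w) (arI 24 5)) ws) 0 &&
    (Nat.beq (andL 276 (fun w => agr 276 9 (arW 276 ODu.nets 9 w) (arI 276 9)) ws) 0 &&
    (Nat.beq (andL 2024 (fun w => agr 2024 11 (arW 2024 OTr.nets 11 w) (arI 2024 11)) ws) 0 &&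
    Nat.beq (andL 1771 (fun w => agr 1771 11 (arW 1771 OSx.nets 11 w) (arI 1771 11)) ws) 0))) = true)
    {s : Finset GolayPt} (hs : s ∉ GC) : ∃ g ∈ sub M0.gen ws, symmDiff (g • s) s ∉ GC := by
  simp only [Bool.and_eq_true] at h
  obtain ⟨c, hc, h4⟩ := exists_leader s
  obtain ⟨u, rfl⟩ : ∃ u, s = symmDiff u c := ⟨symmDiff s c, (symmDiff_symmDiff_cancel_right _ _).symm⟩
  rw [symmDiff_symmDiff_cancel_right] at h4
  have hu : u.card ≠ 0 := fun e => hs (by rwa [Finset.card_eq_zero.1 e, ← Finset.bot_eq_empty, bot_symmDiff])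
  suffices ∃ g ∈ sub M0.gen ws, symmDiff (g • u) u ∉ GC from this.imp fun g hg => ⟨hg.1, fun e => hg.2 (by
    have := symmDiff_mem_GC e (symmDiff_mem_GC (smul_mem_GC g hc) hc)
    rwa [smul_symmDiff, symmDiff_symmDiff_symmDiff_comm (g • u), symmDiff_symmDiff_cancel_right] at this)⟩
  have sm : u.card ≤ 3 → (∃ g ∈ sub M0.gen ws, g • u ≠ u) → ∃ g ∈ sub M0.gen ws, symmDiff (g • u) u ∉ GC :=
    fun h3 => Exists.imp fun g hg => ⟨hg.1, fun e => hg.2 (by
      have h1 := card_mem_GC e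
      have h2 := card_symmDiff_add (g • u) u
      rw [Finset.card_smul_finset] at h2
      exact symmDiff_eq_bot.1 (Finset.card_eq_zero.1 (by omega)))⟩
  obtain e | e | e | e : u.card = 1 ∨ u.card = 2 ∨ u.card = 3 ∨ u.card = 4 := by omega
  · obtain ⟨p, rfl⟩ := Finset.card_eq_one.1 e
    obtain ⟨w, hw, e'⟩ := andL_eq_zero (gi_lt p) (by rw [beq_iff.1 h.1]; exact Nat.zero_testBit _)
    refine sm (by omega) ⟨_, ev_mem_sub _ hw, fun e2 => ?_⟩
    rw [Finset.smul_finset_singleton, Finset.singleton_inj, ← M0.mem_S_fix (D := 5) (by norm_num)] at e2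
    exact Bool.false_ne_true (e'.symm.trans e2)
  · exact sm (by omega) (oDu.no_fix (by norm_num) h.2.1 e)
  · exact sm (by omega) (oTr.no_fix (by norm_num) h.2.2.1 e)
  · obtain ⟨S, hS, hS'⟩ := exists_unique_sextet e
    obtain ⟨g, hg, e'⟩ := oSx.no_fix (by norm_num) h.2.2.2 hS.1
    refine ⟨g, hg, fun e2 => e' (hS' _ ⟨smul_mem_sextets g _ hS.1,
      mem_sextet_of (smul_mem_sextets g _ hS.1) (Finset.smul_mem_smul_finset hS.2) e e2⟩)⟩
theorem tr {x y : Finset GolayPt} (h : ∀ s ∉ GC, ∃ g ∈ stabilizer M24 x, symmDiff (g • s) s ∉ GC)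
    (e : ∃ a : M24, a • x = y) (s) (hs : s ∉ GC) : ∃ g : M24, g • y = y ∧ symmDiff (g • s) s ∉ GC := by
  obtain ⟨a, rfl⟩ := e
  obtain ⟨g, h1, h2⟩ := h (a⁻¹ • s) fun e => hs (by simpa using smul_mem_GC a e)
  refine ⟨a * g * a⁻¹, (conj_mem_stab a g x).2 h1, fun e => h2 ?_⟩
  simpa [smul_symmDiff, mul_smul] using smul_mem_GC a⁻¹ e

/-- Let u be a word of the length-24 binary Golay code of the definitions (possibly zero or all-ones) and w any binary word of length 24 outside the code. Then some automorphism of the code (a coordinate permutation preserving it) fixes u but moves w to a word not congruent to w modulo the code: the stabilizer of a codeword fixes no non-zero element of the quotient of the space of all words by the code. -/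
theorem result (u : (Cfsg.GolayPt → ZMod 2)) (hu : u ∈ Cfsg.golayCode) (w : (Cfsg.GolayPt → ZMod 2)) (hw : w ∉ Cfsg.golayCode) : ∃ σ ∈ Cfsg.M24, (fun p => u (σ.symm p)) = u ∧ (fun p => w (σ.symm p)) - w ∉ Cfsg.golayCode := by
  suffices ∀ u ∈ GC, ∀ s ∉ GC, ∃ g : M24, g • u = u ∧ symmDiff (g • s) s ∉ GC by
    obtain ⟨g, h1, h2⟩ := this _ (support_mem_GC.2 hu) _ (mt support_mem_GC.1 hw)
    refine ⟨g, g.2, ?_, fun e => h2 ?_⟩
    · rw [← indW_support u, ← indW_smul, h1]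
    · rw [← indW_mem, indW_symmDiff, indW_smul, indW_support]
      rwa [sub_eq_add_neg, ZModModule.neg_eq_self] at e
  have k1 : ∀ o ∈ octads, ∀ s ∉ GC, ∃ g : M24, g • o = o ∧ symmDiff (g • s) s ∉ GC := fun o ho =>
    tr (fun s hs => HOc_eq ▸ key (by decide +kernel) hs) (oOc.std ho)
  intro u hu s hs
  rcases card_mem_GC hu with e | e | e | e | e
  · obtain ⟨g, -, h⟩ := k1 _ (oOc.mem (i := 0) (by norm_num)) s hs
    exact ⟨g, by simp [Finset.card_eq_zero.1 e], h⟩
  · exact k1 u ⟨hu, e⟩ s hs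
  · exact tr (fun s hs => HDo_eq ▸ key (by decide +kernel) hs) (oDo.std ⟨hu, e⟩) s hs
  · obtain ⟨g, h1, h⟩ := k1 uᶜ ⟨compl_mem_GC hu, by rw [Finset.card_compl, card_golayPt, e]⟩ s hs
    exact ⟨g, by rwa [smul_compl_finset, compl_inj_iff] at h1, h⟩
  · obtain ⟨g, -, h⟩ := k1 _ (oOc.mem (i := 0) (by norm_num)) s hs
    exact ⟨g, by simp [Finset.eq_univ_of_card u (e.trans card_golayPt.symm)], h⟩

end Cfsg.Agent.S5550
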