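import Cfsg.Statements.S5551
import Cfsg.Agent.H14.Leech

set_option autoImplicit false
open Cfsg

namespace Cfsg.Agent.S5551

/-- In the Leech lattice of the definitions (integer coordinates, minimal squared length 32), let v and w be non-zero lattice vectors of squared length at most 64 that are congruent modulo twice the lattice. Then they have the same squared length, and if that length is less than 64 then w = v or w = −v. (So a class that contains a non-zero vector of squared length at most 64 has a well-defined type 2, 3 or 4, and a class of type 2 or 3 contains no such vector other than v and −v.) -/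
theorem result (v w : Cfsg.GolayPt → ℤ) (hv : v ∈ Cfsg.leechLattice) (hw : w ∈ Cfsg.leechLattice) (hv0 : v ≠ 0) (hw0 : w ≠ 0) (hvn : Cfsg.sqNorm v ≤ 64) (hwn : Cfsg.sqNorm w ≤ 64) (hc : ∃ z ∈ Cfsg.leechLattice, v - w = 2 • z) : Cfsg.sqNorm v = Cfsg.sqNorm w ∧ (Cfsg.sqNorm v < 64 → w = v ∨ w = -v) := by
  obtain ⟨z, hz, e⟩ := hc
  by_cases hxy : w = v
  · exact ⟨by rw [hxy], fun _ => Or.inl hxy⟩
  by_cases h : w = -v
  · exact ⟨by rw [h, H14.sqNorm_neg], fun _ => Or.inr h⟩
  have e1 : v - w = (2 : ℤ) • z := by rw [e]; funext i; simp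
  have e2 : v + w = (2 : ℤ) • (z + w) := by
    funext i; have := congrFun e1 i; simp at this ⊢; omega
  have h1 := H14.min_norm hz fun h0 => hxy (by rw [h0, smul_zero, sub_eq_zero] at e1; exact e1.symm)
  have h2 := H14.min_norm (add_mem hz hw) fun h0 => h (by
    rw [h0, smul_zero] at e2; exact eq_neg_of_add_eq_zero_right e2)
  have h3 := H14.sqNorm_sub v w
  have h4 := H14.sqNorm_add v w
  rw [e1, H14.sqNorm_zsmul] at h3
  rw [e2, H14.sqNorm_zsmul] at h4
  exact ⟨by omega, fun _ => by omega⟩

end Cfsg.Agent.S5551
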