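import Cfsg.Statements.S5588
import Cfsg.Agent.L.YP


set_option autoImplicit false
set_option linter.unusedVariables false
open Cfsg

namespace Cfsg.Agent.S5588

/-- In the group presented by the sixteen involutions of the Y₅₅₅ Coxeter diagram subject only to the Coxeter relations and the single spider relation (a b₁ c₁ a b₂ c₂ a b₃ c₃)^10 = 1, each of the further relators used in the definitions' presentation of the Bimonster (each end node equals the ninth power of the Coxeter element of a sub-diagram of type E₇) already holds. Equivalently, the Y₅₅₅ diagram with the spider relation alone presents the Bimonster. -/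
theorem result :
    ∀ r ∈ Cfsg.Spor.Bimonster.extra,
      (PresentedGroup.mk (Cfsg.Spor.coxRelators Cfsg.Spor.Bimonster.edges ∪ {r' | r' ∈ [(Cfsg.Spor.Bimonster.a * Cfsg.Spor.Bimonster.b1 * Cfsg.Spor.Bimonster.c1 * Cfsg.Spor.Bimonster.a * Cfsg.Spor.Bimonster.b2 * Cfsg.Spor.Bimonster.c2 * Cfsg.Spor.Bimonster.a * Cfsg.Spor.Bimonster.b3 * Cfsg.Spor.Bimonster.c3) ^ 10]}) r) = 1 := by
  generalize hR : Set.ofPred _ = R
  have s := PresentedGroup.one_of_mem (rels := Spor.coxRelators Spor.Bimonster.edges ∪ R)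
    (Or.inr (hR.le List.mem_cons_self))
  have t : ∀ k, H15.ev (fun x => (PresentedGroup.of ([.a, .b1, .c1, .d1, .e1, .f1, .b2, .c2, .d2, .e2, .f2, .b3, .c3, .d3,
      .e3, .f3].getD (x % 16) Spor.Bimonster.Gen.a) : PresentedGroup (_ ∪ R))) (H15.rotW k L.YB.sp) = 1 := fun k =>
    H15.ev_rotW k ((L.YB.ev_rep _ _).trans (by simp only [H15.ev_cons, H15.ev_nil, mul_one, ← mul_assoc]; exact s))
  obtain ⟨h1, h2⟩ := L.YB.arm (L.YB.cox_of [.a, .b1, .c1, .d1, .e1, .f1, .b2, .c2, .d2, .e2, .f2, .b3, .c3, .d3, .e3, .f3] R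
    (by decide +kernel)) (t 0)
  obtain ⟨h3, h4⟩ := L.YB.arm (L.YB.cox_of [.a, .b2, .c2, .d2, .e2, .f2, .b3, .c3, .d3, .e3, .f3, .b1, .c1, .d1, .e1, .f1] R
    (by decide +kernel)) (t 3)
  obtain ⟨h5, h6⟩ := L.YB.arm (L.YB.cox_of [.a, .b3, .c3, .d3, .e3, .f3, .b1, .c1, .d1, .e1, .f1, .b2, .c2, .d2, .e2, .f2] R
    (by decide +kernel)) (t 6)
  simp only [Spor.Bimonster.extra, List.forall_mem_cons]
  exact ⟨s, h1, h2, h4, h3, h5, h6, fun _ h => nomatch h⟩

end Cfsg.Agent.S5588
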