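import Cfsg.Statements.S5592
import Cfsg.Agent.H14.Leech

set_option autoImplicit false
open Cfsg

namespace Cfsg.Agent.S5592

/-- In the Leech lattice (integer coordinates, sum of squares equal to 8 times the customary norm, so the shortest non-zero vectors have sum of squares 32): if two distinct vectors of sum of squares at most 64 are congruent modulo twice the lattice, then either they are negatives of each other, or both have sum of squares 64 and they are orthogonal. -/
theorem result (x y : Cfsg.GolayPt → ℤ) (hx : x ∈ Cfsg.leechLattice) (hy : y ∈ Cfsg.leechLattice) (hxy : x ≠ y) (hxn : Cfsg.sqNorm x ≤ 64) (hyn : Cfsg.sqNorm y ≤ 64) (hc : (∃ z ∈ Cfsg.leechLattice, x - y = 2 • z)) :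
    x = -y ∨ (Cfsg.sqNorm x = 64 ∧ Cfsg.sqNorm y = 64 ∧ Cfsg.dotInt x y = 0) := by
  obtain ⟨z, hz, e⟩ := hc
  by_cases h : x = -y
  · exact Or.inl h
  right
  have e1 : x - y = (2 : ℤ) • z := by rw [e]; funext i; simp
  have e2 : x + y = (2 : ℤ) • (z + y) := by
    funext i; have := congrFun e1 i; simp at this ⊢; omega
  have h1 := H14.min_norm hz fun h0 => hxy (by rwa [h0, smul_zero, sub_eq_zero] at e1)
  have h2 := H14.min_norm (add_mem hz hy) fun h0 => h (by
    rw [h0, smul_zero] at e2; exact eq_neg_of_add_eq_zero_left e2)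
  have h3 := H14.sqNorm_sub x y
  have h4 := H14.sqNorm_add x y
  rw [e1, H14.sqNorm_zsmul] at h3
  rw [e2, H14.sqNorm_zsmul] at h4
  omega

end Cfsg.Agent.S5592
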