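import Cfsg.Statements.S5599
import Cfsg.Agent.H14.M24Use

set_option autoImplicit false
open scoped Pointwise
open Cfsg

namespace Cfsg.Agent.S5599

open H14 MulAction
open scoped Pointwise
set_option maxRecDepth 100000
noncomputable def z1 : Word := flat M24c.ws2 (dw (nat_lit 0x07010806110c120d12))
noncomputable def z2 : Word := flat M24c.ws2 (dw (nat_lit 0x0503050911090e1012))
abbrev A := Subgroup.centralizer {ev M0.gen z1} ⊓ Subgroup.centralizer {ev M0.gen z2}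
theorem i1 : M0.Inv (A ⊓ M0.fixL []) (nat_lit 0xffffff) :=
  (PM.Inv.full).of_eq (by decide +kernel)
theorem i2 : M0.Inv (A ⊓ M0.fixL []) (nat_lit 0x810001) :=
  (PM.Inv.fix (D := 5) (by norm_num) (z := z1) (M0.comm_of_le inf_le_left)).of_eq (by decide +kernel)
theorem i3 : M0.Inv (A ⊓ M0.fixL []) (nat_lit 0x7efffe) :=
  (i1.sdf i2).of_eq (by decide +kernel)
theorem i4 : M0.Inv (A ⊓ M0.fixL []) (nat_lit 0x800001) :=
  (PM.Inv.fix (D := 5) (by norm_num) (z := z2) (M0.comm_of_le inf_le_right)).of_eq (by decide +kernel)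
theorem i5 : M0.Inv (A ⊓ M0.fixL []) (nat_lit 0x10000) :=
  (i2.sdf i4).of_eq (by decide +kernel)
theorem i6 : M0.Inv (A ⊓ M0.fixL []) (nat_lit 0x7fdffe) :=
  (i3.img (z := z2) (M0.comm_of_le inf_le_right)).of_eq (by decide +kernel)
theorem i7 : M0.Inv (A ⊓ M0.fixL []) (nat_lit 0x7edffe) :=
  (i3.land i6).of_eq (by decide +kernel)
theorem i8 : M0.Inv (A ⊓ M0.fixL []) (nat_lit 0x2000) :=
  (i3.sdf i6).of_eq (by decide +kernel)
theorem i9 : M0.Inv (A ⊓ M0.fixL []) (nat_lit 0x7efffc) :=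
  (i7.img (z := z1) (M0.comm_of_le inf_le_left)).of_eq (by decide +kernel)
theorem i11 : M0.Inv (A ⊓ M0.fixL []) (nat_lit 0x2) :=
  (i7.sdf i9).of_eq (by decide +kernel)
theorem i12 : M0.Inv (A ⊓ M0.fixL []) (nat_lit 0x200000) :=
  (i8.img (z := z2) (M0.comm_of_le inf_le_right)).of_eq (by decide +kernel)
theorem i14 : M0.Inv (A ⊓ M0.fixL []) (nat_lit 0x400000) :=
  (i11.img (z := z2) (M0.comm_of_le inf_le_right)).of_eq (by decide +kernel)
theorem i18 : M0.Inv (A ⊓ M0.fixL []) (nat_lit 0x80) :=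
  (i12.img (z := z1) (M0.comm_of_le inf_le_left)).of_eq (by decide +kernel)
theorem i20 : M0.Inv (A ⊓ M0.fixL []) (nat_lit 0x100) :=
  (i14.img (z := z1) (M0.comm_of_le inf_le_left)).of_eq (by decide +kernel)
theorem i22 : M0.Inv (A ⊓ M0.fixL []) (nat_lit 0x20000) :=
  (i12.img (z := z2) (M0.comm_of_le inf_le_right)).of_eq (by decide +kernel)
theorem i24 : M0.Inv (A ⊓ M0.fixL []) (nat_lit 0x40000) :=
  (i14.img (z := z2) (M0.comm_of_le inf_le_right)).of_eq (by decide +kernel)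
theorem i30 : M0.Inv (A ⊓ M0.fixL []) (nat_lit 0x8) :=
  (i20.img (z := z2) (M0.comm_of_le inf_le_right)).of_eq (by decide +kernel)
theorem i32 : M0.Inv (A ⊓ M0.fixL []) (nat_lit 0x20) :=
  (i18.img (z := z1) (M0.comm_of_le inf_le_left)).of_eq (by decide +kernel)
theorem i36 : M0.Inv (A ⊓ M0.fixL []) (nat_lit 0x80000) :=
  (i22.img (z := z1) (M0.comm_of_le inf_le_left)).of_eq (by decide +kernel)
theorem i38 : M0.Inv (A ⊓ M0.fixL []) (nat_lit 0x10) :=
  (i24.img (z := z1) (M0.comm_of_le inf_le_left)).of_eq (by decide +kernel)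
theorem i44 : M0.Inv (A ⊓ M0.fixL []) (nat_lit 0x800) :=
  (i24.img (z := z2) (M0.comm_of_le inf_le_right)).of_eq (by decide +kernel)
theorem i46 : M0.Inv (A ⊓ M0.fixL []) (nat_lit 0x1000) :=
  (i30.img (z := z2) (M0.comm_of_le inf_le_right)).of_eq (by decide +kernel)
theorem i48 : M0.Inv (A ⊓ M0.fixL [5, 22, 4, 13, 11]) (nat_lit 0x2fd74f) :=
  (PM.Inv.conjL M0_eq5 (dw (nat_lit 0x030101030e020907160b10)) (Y := (nat_lit 0x7dbfd0)) (by decide +kernel)).of_eq (by decide +kernel)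
theorem i50 : M0.Inv (A ⊓ M0.fixL [5, 22, 4, 13, 11]) (nat_lit 0x800000) :=
  ((i4.lift (by decide +kernel)).sdf i48).of_eq (by decide +kernel)
theorem ub9 : Nat.card (A ⊓ M0.fixL [23, 19, 12, 1, 5, 22, 4, 13, 11] : Subgroup _) ≤ 1 :=
  M0.card_le_enum M0_eq5 m24cov5 (dw (nat_lit 0x010301010c08090b160d)) (Ys := [(nat_lit 0x10000), (nat_lit 0x2000)]) (fa_cons (i5.lift (by decide +kernel)) (fa_cons (i8.lift (by decide +kernel)) fa_nil)) (by decide +kernel)
theorem ub8 : Nat.card (A ⊓ M0.fixL [19, 12, 1, 5, 22, 4, 13, 11] : Subgroup _) ≤ 1 :=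
  M0.card_le_step (p := 1) (i50.lift (by decide +kernel)) (by decide +kernel) ub9
theorem ub7 : Nat.card (A ⊓ M0.fixL [12, 1, 5, 22, 4, 13, 11] : Subgroup _) ≤ 1 :=
  M0.card_le_step (p := 1) (i36.lift (by decide +kernel)) (by decide +kernel) ub8
theorem ub6 : Nat.card (A ⊓ M0.fixL [1, 5, 22, 4, 13, 11] : Subgroup _) ≤ 1 :=
  M0.card_le_step (p := 1) (i46.lift (by decide +kernel)) (by decide +kernel) ub7
theorem ub5 : Nat.card (A ⊓ M0.fixL [5, 22, 4, 13, 11] : Subgroup _) ≤ 1 :=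
  M0.card_le_step (p := 1) (i11.lift (by decide +kernel)) (by decide +kernel) ub6
theorem ub4 : Nat.card (A ⊓ M0.fixL [22, 4, 13, 11] : Subgroup _) ≤ 1 :=
  M0.card_le_step (p := 1) (i32.lift (by decide +kernel)) (by decide +kernel) ub5
theorem ub3 : Nat.card (A ⊓ M0.fixL [4, 13, 11] : Subgroup _) ≤ 1 :=
  M0.card_le_step (p := 1) (i14.lift (by decide +kernel)) (by decide +kernel) ub4
theorem ub2 : Nat.card (A ⊓ M0.fixL [13, 11] : Subgroup _) ≤ 1 :=
  M0.card_le_step (p := 1) (i38.lift (by decide +kernel)) (by decide +kernel) ub3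
theorem ub1 : Nat.card (A ⊓ M0.fixL [11] : Subgroup _) ≤ 1 :=
  M0.card_le_step (p := 1) (i8.lift (by decide +kernel)) (by decide +kernel) ub2
theorem ub0 : Nat.card (A ⊓ M0.fixL [] : Subgroup _) ≤ 1 :=
  M0.card_le_step (p := 1) i44 (by decide +kernel) ub1
theorem ub : Nat.card (A) ≤ 1 := M0.card_le_of_nil ub0

/-- In the automorphism group of the length-24 code, the two-point Mathieu group (permutations of the code's group fixing the extra point and the residue 0) has index 2 in the setwise stabiliser of that pair of points, and an element of the code's group interchanging the two points normalises the two-point group and induces on it, by conjugation, an automorphism that is not inner. -/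
theorem result (g : Equiv.Perm Cfsg.GolayPt) (hg : g ∈ Cfsg.M24) (h₁ : g none = some 0) (h₂ : g (some 0) = none) : Cfsg.Spor.M22.relIndex (Cfsg.M24 ⊓ MulAction.stabilizer (Equiv.Perm Cfsg.GolayPt) ({none, some 0} : Finset Cfsg.GolayPt)) = 2 ∧ (∀ x ∈ Cfsg.Spor.M22, g * x * g⁻¹ ∈ Cfsg.Spor.M22) ∧ ¬ ∃ h ∈ Cfsg.Spor.M22, ∀ x ∈ Cfsg.Spor.M22, g * x * g⁻¹ = h * x * h⁻¹ := by
  have hs : ∀ x ∈ Spor.M22, g * x * g⁻¹ ∈ Spor.M22 := fun x hx => ⟨⟨M24.mul_mem (M24.mul_mem hg hx.1.1) (M24.inv_mem hg), by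
    show g (x (g⁻¹ none)) = none
    rw [Equiv.Perm.inv_eq_iff_eq.2 h₂.symm, show x (some 0) = some 0 from hx.2, h₂]⟩, by
    show g (x (g⁻¹ (some 0))) = some 0
    rw [Equiv.Perm.inv_eq_iff_eq.2 h₁.symm, show x none = none from hx.1.2, h₁]⟩
  refine ⟨?_, hs, fun ⟨h, hh, e⟩ => ?_⟩
  · have h1 := Subgroup.card_mul_index (Spor.M22.subgroupOf (M24 ⊓ stabilizer (Equiv.Perm GolayPt)
      ({none, some 0} : Finset GolayPt)))
    rw [card_subgroupOf (fun x (hx : x ∈ Spor.M22) => Subgroup.mem_inf.2 ⟨hx.1.1, mem_stab_of_pw fun p hp => by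
      rcases Finset.mem_insert.1 hp with rfl | hp
      exacts [hx.1.2, Finset.mem_singleton.1 hp ▸ hx.2]⟩), isM22.2, card_inf_sub] at h1
    have h2 : {g : M24 | (g : Equiv.Perm GolayPt) ∈ stabilizer (Equiv.Perm GolayPt)
        ({none, some 0} : Finset GolayPt)}.ncard = 887040 := card_HDu (x := {none, some 0}) rfl
    rw [h2] at h1
    unfold Subgroup.relIndex
    omega
  have key : ∀ v, (⟨h, hh.1.1⟩ : M24)⁻¹ * ⟨g, hg⟩ ∈ Subgroup.centralizer {ev M0.gen (flat M24c.ws2 v)} := fun v => by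
    have hv := G22_eq ▸ ev_flat_mem M0.gen M24c.ws2 v
    have := e _ ⟨⟨(ev M0.gen (flat M24c.ws2 v)).2, hv.1⟩, hv.2⟩
    rw [Subgroup.mem_centralizer_singleton_iff]
    refine Subtype.ext ?_
    show h⁻¹ * g * _ = _ * (h⁻¹ * g)
    rw [mul_assoc, mul_inv_eq_iff_eq_mul.1 this]
    group
  have := (Subgroup.eq_bot_iff_forall _).1 (Subgroup.eq_bot_of_card_le A ub) _ (Subgroup.mem_inf.2 ⟨key _, key _⟩)
  rw [inv_mul_eq_one, Subtype.mk.injEq] at this
  rw [← this, show h none = none from hh.1.2] at h₁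
  exact absurd h₁ (by decide)

end Cfsg.Agent.S5599
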