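import Cfsg.Statements.S5600
import Cfsg.Agent.H14.M24Use

set_option autoImplicit false
open scoped Pointwise
open Cfsg

namespace Cfsg.Agent.S5600

open H14 MulAction
open scoped Pointwise
set_option maxRecDepth 100000
noncomputable def c1 : Lv := (.cons (nat_lit 0) [dw (nat_lit 0x010302050b0e160f1416)] [dw (nat_lit 0x01), dw (nat_lit 0x03), dw (nat_lit 0x09), dw (nat_lit 0x05), dw (nat_lit 0x01)]
(.cons (nat_lit 2) [dw (nat_lit 0x0f0a0b1610161412)] [dw (nat_lit 0x01), dw (nat_lit 0x07), dw (nat_lit 0x03), dw (nat_lit 0x09)]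
(.cons (nat_lit 1) [dw (nat_lit 0x0f080e0b160f1312)] [dw (nat_lit 0x01), dw (nat_lit 0x05), dw (nat_lit 0x07)]
(.cons (nat_lit 4) [dw (nat_lit 0x1612)] [dw (nat_lit 0x01), dw (nat_lit 0x03), dw (nat_lit 0x01), dw (nat_lit 0x05), dw (nat_lit 0x01), dw (nat_lit 0x03), dw (nat_lit 0x01)]
(.cons (nat_lit 3) [dw (nat_lit 0x10140f151411)] [dw (nat_lit 0x01), dw (nat_lit 0x03)]
(.cons (nat_lit 5) [dw (nat_lit 0x1002030214080a16101412)] [dw (nat_lit 0x01)]
.nil))))))
noncomputable def w1 : List Word := c1.gens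
noncomputable def c2 : Lv := (.cons (nat_lit 0) [dw (nat_lit 0x010302110f1213)] [dw (nat_lit 0x01), dw (nat_lit 0x03), dw (nat_lit 0x03), dw (nat_lit 0x01)]
(.cons (nat_lit 1) [dw (nat_lit 0x0f080b0d15)] [dw (nat_lit 0x01), dw (nat_lit 0x01), dw (nat_lit 0x01), dw (nat_lit 0x09)]
(.cons (nat_lit 4) [dw (nat_lit 0x090c0e161411)] [dw (nat_lit 0x01), dw (nat_lit 0x05), dw (nat_lit 0x07)]
(.cons (nat_lit 5) [dw (nat_lit 0x0f0a0b160d151312)] [dw (nat_lit 0x01), dw (nat_lit 0x03)]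
(.cons (nat_lit 3) [dw (nat_lit 0x0f0a0b160d1513)] [dw (nat_lit 0x01), dw (nat_lit 0x03)]
(.cons (nat_lit 2) [dw (nat_lit 0x0101030d0206080d0c0e1613)] [dw (nat_lit 0x01)]
.nil))))))
noncomputable def w2 : List Word := c2.gens
theorem std {E : Finset GolayPt} (hE : E.card = 6) : ∃ g : M24, g • bset 0x80002f = E ∨ g • bset 0x80001f = E := by
  obtain ⟨p, hp⟩ := Finset.card_pos.1 (show 0 < E.card by omega)
  obtain ⟨g, e⟩ := M24_exists_smul_finset (s := bset 0x80000f) (t := E.erase p)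
    (by rw [Finset.card_erase_of_mem hp, hE, card_bset_eq_iff]; decide +kernel)
    (by rw [card_bset]; decide +kernel)
  have hq : g⁻¹ • p ∉ bset 0x80000f := by rw [Finset.inv_smul_mem_iff, e]; simp
  have key : ∀ s O sc m, (PM.orbChk 24 M24c.nets M24c.ws5 s O sc && (tb O s && (Nat.ble (s + 1) 24 &&
      Nat.beq m (bit s ||| 0x80000f)))) = true → g⁻¹ • p ∈ bset O → ∃ g : M24, g • bset m = E := fun s O sc m h hO => by
    simp only [Bool.and_eq_true, beq_iff, Nat.ble_eq, tb_eq] at h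
    obtain ⟨k, hk, e2⟩ := M0.conn_of_chk h.1 (x := gp s) (mem_S_iff.2 (mem_bset.2 (by rw [gi_gp _ h.2.2.1, h.2.1])))
      (mem_S_iff.2 hO)
    refine ⟨g * k, ?_⟩
    rw [h.2.2.2, bset_or, bset_bit h.2.2.1, ← Finset.insert_eq, mul_smul, Finset.smul_finset_insert, e2,
      smul_bset_of_invChk M24c_ok (m := 0x80000f) (by decide +kernel) hk, Finset.smul_finset_insert, e,
      smul_inv_smul, Finset.insert_erase hp]
  by_cases h : g⁻¹ • p ∈ bset 0x82402f
  · exact (key 5 0x24020 [dw (nat_lit 0x01), dw (nat_lit 0x01)] _ (by decide +kernel) (by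
      revert h hq; generalize g⁻¹ • p = x; revert x; decide +kernel)).imp fun _ => .inl
  · exact (key 4 0x7dbfd0 [dw (nat_lit 0x01), dw (nat_lit 0x03), dw (nat_lit 0x01), dw (nat_lit 0x05), dw (nat_lit 0x01)] _ (by decide +kernel) (by
      revert h; generalize g⁻¹ • p = x; revert x; decide +kernel)).imp fun _ => .inr
theorem top (g : M24) {m k : ℕ} (c : Lv) (h : (subs 0x80000f m && (subs m (full 24) &&
    Nat.beq (cntA (arF 24 M24c.nets 5) (fun _ A => subs m (agr 24 5 A (arI 24 5))) m24Ts5 []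
      (arI 24 5)) k)) = true) (h2 : (invChk M24c.nets c.gens m && (Nat.beq (p24 m) 6 &&
        Nat.ble (720 * k) (c.val 24 M24c.nets))) = true) :
    (resHom M24 (g • bset m)).range = ⊤ ∧ {a : M24 | ∀ x ∈ g • bset m, a • x = x}.ncard = k ∧
      Nat.card (stabilizer M24 (g • bset m)) = 720 * k := by
  simp only [Bool.and_eq_true, ← card_bset_eq_iff, Nat.ble_eq] at h2
  have := resHom_top (Γ := M24) (s := g • bset m) (k := k) (by rw [ncard_pw, ncard_pw_bset h]) (by
    rw [card_stab_smul, Finset.card_smul_finset, h2.2.1]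
    exact h2.2.2.trans ((M0.low c inferInstance).trans (Subgroup.card_le_of_le (smul_bset_of_invChk _ h2.1))))
  rwa [Finset.card_smul_finset, h2.2.1] at this

/-- Although the group of the length-24 code is only 5-transitive on the 24 points, it induces the full symmetric group on every 6-element subset: every permutation of a 6-set E is the restriction of an element of the group mapping E to itself. The pointwise stabiliser of E has order 16 when E lies in an octad and order 3 otherwise; in the latter case the setwise stabiliser of E has order 2160. -/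
theorem result (E : Finset Cfsg.GolayPt) (hE : E.card = 6) : (∀ σ : Equiv.Perm ↥E, ∃ g ∈ Cfsg.M24, ∀ p : ↥E, g p = σ p) ∧ ((∃ o ∈ Cfsg.octads, E ⊆ o) → Nat.card {g : Equiv.Perm Cfsg.GolayPt // g ∈ Cfsg.M24 ∧ ∀ p ∈ E, g p = p} = 16) ∧ ((¬ ∃ o ∈ Cfsg.octads, E ⊆ o) → Nat.card {g : Equiv.Perm Cfsg.GolayPt // g ∈ Cfsg.M24 ∧ ∀ p ∈ E, g p = p} = 3 ∧ Nat.card ↥(MulAction.stabilizer Cfsg.M24 E) = 2160) := by
  rw [card_sub_sub]
  obtain ⟨g, rfl | rfl⟩ := std hE
  · obtain ⟨h1, h2, h3⟩ := top g (m := 0x80002f) (k := 16) c1 (by decide +kernel) (by decide +kernel)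
    exact ⟨fun σ => let ⟨a, _, h⟩ := exists_of_top h1 σ; ⟨a, a.2, h⟩, fun _ => h2, fun h => absurd
      ⟨_, smul_mem_octads g (bset_mem_octads (m := 0x82402f) (by decide +kernel)),
        Finset.smul_finset_subset_smul_finset (bset_subset (by decide +kernel))⟩ h⟩
  · obtain ⟨h1, h2, h3⟩ := top g (m := 0x80001f) (k := 3) c2 (by decide +kernel) (by decide +kernel)
    refine ⟨fun σ => let ⟨a, _, h⟩ := exists_of_top h1 σ; ⟨a, a.2, h⟩, fun ⟨o, ho, h⟩ => ?_, fun _ => ⟨h2, h3⟩⟩
    exfalso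
    have ho' := smul_mem_octads g⁻¹ ho
    obtain ⟨c, hc, e⟩ := mem_GC.1 ho'.1
    rw [Finset.smul_finset_subset_iff, ← e, bset_subset_iff (by norm_num)] at h
    have := forall_CW (f := fun c => !(Nat.beq (p24 c) 8 && subs 0x80001f c)) (by decide +kernel) hc
    rw [(card_bset_eq_iff _ _).1 (e ▸ ho'.2), h] at this
    exact Bool.false_ne_true this

end Cfsg.Agent.S5600
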