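import Cfsg.Statements.S5601
import Cfsg.Agent.H14.M24Use

set_option autoImplicit false
open scoped Pointwise
open Cfsg

namespace Cfsg.Agent.S5601

open H14 MulAction
open scoped Pointwise
set_option maxRecDepth 100000
theorem fx (x : M24) : {p : GolayPt | ∀ y ∈ Subgroup.zpowers x, ((y : M24) : Equiv.Perm GolayPt) p = p}.ncard =
    nfix GolayPt x := fix_zpowers x

/-- The group of the length-24 code has exactly two conjugacy classes of subgroups of order 3: a subgroup of order 3 fixes either exactly 6 of the 24 points or none of them, both cases occur, and two subgroups of order 3 with the same number of fixed points are conjugate. -/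
theorem result : (∀ X : Subgroup ↥Cfsg.M24, Nat.card X = 3 → {p : Cfsg.GolayPt | ∀ x ∈ X, ((x : ↥Cfsg.M24) : Equiv.Perm Cfsg.GolayPt) p = p}.ncard = 6 ∨ {p : Cfsg.GolayPt | ∀ x ∈ X, ((x : ↥Cfsg.M24) : Equiv.Perm Cfsg.GolayPt) p = p}.ncard = 0) ∧ (∃ X : Subgroup ↥Cfsg.M24, Nat.card X = 3 ∧ {p : Cfsg.GolayPt | ∀ x ∈ X, ((x : ↥Cfsg.M24) : Equiv.Perm Cfsg.GolayPt) p = p}.ncard = 6) ∧ (∃ X : Subgroup ↥Cfsg.M24, Nat.card X = 3 ∧ {p : Cfsg.GolayPt | ∀ x ∈ X, ((x : ↥Cfsg.M24) : Equiv.Perm Cfsg.GolayPt) p = p}.ncard = 0) ∧ ∀ X Y : Subgroup ↥Cfsg.M24, Nat.card X = 3 → Nat.card Y = 3 → {p : Cfsg.GolayPt | ∀ x ∈ X, ((x : ↥Cfsg.M24) : Equiv.Perm Cfsg.GolayPt) p = p}.ncard = {p : Cfsg.GolayPt | ∀ x ∈ Y, ((x : ↥Cfsg.M24) : Equiv.Perm Cfsg.GolayPt) p = p}.ncard → ∃ k : ↥Cfsg.M24, MulAut.conj k • X = Y := by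
  refine ⟨fun X hX => ?_, ⟨_, (Nat.card_zpowers _).trans ord_xA, (fx _).trans nfix_xA⟩,
    ⟨_, (Nat.card_zpowers _).trans ord_xB, (fx _).trans nfix_xB⟩, fun X Y hX hY e => ?_⟩
  · obtain ⟨x, h, rfl⟩ := exists_zpowers_eq Nat.prime_three hX
    rw [fx]
    exact (cls3 h).imp And.left And.left
  obtain ⟨x, h1, rfl⟩ := exists_zpowers_eq Nat.prime_three hX
  obtain ⟨y, h2, rfl⟩ := exists_zpowers_eq Nat.prime_three hY
  rw [fx, fx] at e
  have : ∃ k : M24, k * x * k⁻¹ = y := by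
    by_cases e' : nfix GolayPt x = 0
    · obtain ⟨a, ha⟩ := cls3B h1 e'
      obtain ⟨b, hb⟩ := cls3B h2 (e ▸ e')
      exact conj_trans ha hb
    · obtain ⟨a, ha⟩ := cls3A h1 e'
      obtain ⟨b, hb⟩ := cls3A h2 (e ▸ e')
      exact conj_trans ha hb
  obtain ⟨k, hk⟩ := this
  exact ⟨k, conj_zpowers hk⟩

end Cfsg.Agent.S5601
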