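import Cfsg.Statements.S5604
import Cfsg.Agent.H14.M24Use
import Cfsg.Agent.H14.Obj5

set_option autoImplicit false
open scoped Pointwise
open Cfsg

namespace Cfsg.Agent.S5604

open H14 MulAction
open scoped Pointwise
set_option maxRecDepth 100000
noncomputable def x : Word := dw (nat_lit 0x1002030e0801080f0b160f1613)
theorem ord_x : orderOf (ev M0.gen x) = 7 := M0.orderOf_prime (D := 5) (by norm_num) (by norm_num) (by norm_num) (by decide +kernel)
abbrev AC := Subgroup.centralizer {ev M0.gen x}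
theorem iC1 : M0.Inv (AC ⊓ M0.fixL []) (nat_lit 0xffffff) :=
  (PM.Inv.full).of_eq (by decide +kernel)
theorem iC2 : M0.Inv (AC ⊓ M0.fixL []) (nat_lit 0x20180) :=
  (PM.Inv.fix (D := 5) (by norm_num) (z := x) (M0.comm_of_le le_rfl)).of_eq (by decide +kernel)
theorem iC3 : M0.Inv (AC ⊓ M0.fixL []) (nat_lit 0xfdfe7f) :=
  (iC1.sdf iC2).of_eq (by decide +kernel)
theorem iC4 : M0.Inv (AC ⊓ M0.fixL [0]) (nat_lit 0x1) :=
  (PM.Inv.pt (b := 0) (by decide +kernel)).of_eq (by decide +kernel)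
theorem iC6 : M0.Inv (AC ⊓ M0.fixL [0]) (nat_lit 0x40) :=
  (iC4.img (z := x) (M0.comm_of_le le_rfl)).of_eq (by decide +kernel)
theorem iC8 : M0.Inv (AC ⊓ M0.fixL [0]) (nat_lit 0x2) :=
  (iC6.img (z := x) (M0.comm_of_le le_rfl)).of_eq (by decide +kernel)
theorem iC10 : M0.Inv (AC ⊓ M0.fixL [0]) (nat_lit 0x400) :=
  (iC8.img (z := x) (M0.comm_of_le le_rfl)).of_eq (by decide +kernel)
theorem iC12 : M0.Inv (AC ⊓ M0.fixL [0]) (nat_lit 0x40000) :=
  (iC10.img (z := x) (M0.comm_of_le le_rfl)).of_eq (by decide +kernel)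
theorem iC14 : M0.Inv (AC ⊓ M0.fixL [0]) (nat_lit 0x10000) :=
  (iC12.img (z := x) (M0.comm_of_le le_rfl)).of_eq (by decide +kernel)
theorem iC16 : M0.Inv (AC ⊓ M0.fixL [0]) (nat_lit 0x4) :=
  (iC14.img (z := x) (M0.comm_of_le le_rfl)).of_eq (by decide +kernel)
theorem iC18 : M0.Inv (AC ⊓ M0.fixL [18, 1, 2, 6, 0]) (nat_lit 0xf8fbb8) :=
  (PM.Inv.conjL M0_eq5 (dw (nat_lit 0x08010306020c16070c0d0f)) (Y := (nat_lit 0x7dbfd0)) (by decide +kernel)).of_eq (by decide +kernel)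
theorem iC20 : M0.Inv (AC ⊓ M0.fixL [18, 1, 2, 6, 0]) (nat_lit 0x20000) :=
  ((iC2.lift (by decide +kernel)).sdf iC18).of_eq (by decide +kernel)
theorem ubC8 : Nat.card (AC ⊓ M0.fixL [10, 17, 16, 18, 1, 2, 6, 0] : Subgroup _) ≤ 2 :=
  PM.card_le_cent (D := 5) (by norm_num) M0_eq5 m24cov5 (dw (nat_lit 0x1202030a020c16070b1110)) le_rfl (by decide +kernel)
theorem ubC7 : Nat.card (AC ⊓ M0.fixL [17, 16, 18, 1, 2, 6, 0] : Subgroup _) ≤ 2 :=
  M0.card_le_step (p := 1) (iC10.lift (by decide +kernel)) (by decide +kernel) ubC8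
theorem ubC6 : Nat.card (AC ⊓ M0.fixL [16, 18, 1, 2, 6, 0] : Subgroup _) ≤ 2 :=
  M0.card_le_step (p := 1) (iC20.lift (by decide +kernel)) (by decide +kernel) ubC7
theorem ubC5 : Nat.card (AC ⊓ M0.fixL [18, 1, 2, 6, 0] : Subgroup _) ≤ 2 :=
  M0.card_le_step (p := 1) (iC14.lift (by decide +kernel)) (by decide +kernel) ubC6
theorem ubC4 : Nat.card (AC ⊓ M0.fixL [1, 2, 6, 0] : Subgroup _) ≤ 2 :=
  M0.card_le_step (p := 1) (iC12.lift (by decide +kernel)) (by decide +kernel) ubC5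
theorem ubC3 : Nat.card (AC ⊓ M0.fixL [2, 6, 0] : Subgroup _) ≤ 2 :=
  M0.card_le_step (p := 1) (iC8.lift (by decide +kernel)) (by decide +kernel) ubC4
theorem ubC2 : Nat.card (AC ⊓ M0.fixL [6, 0] : Subgroup _) ≤ 2 :=
  M0.card_le_step (p := 1) (iC16.lift (by decide +kernel)) (by decide +kernel) ubC3
theorem ubC1 : Nat.card (AC ⊓ M0.fixL [0] : Subgroup _) ≤ 2 :=
  M0.card_le_step (p := 1) iC6 (by decide +kernel) ubC2
theorem ubC0 : Nat.card (AC ⊓ M0.fixL [] : Subgroup _) ≤ 42 :=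
  M0.card_le_step (p := 21) iC3 (by decide +kernel) ubC1
theorem ubC : Nat.card (AC) ≤ 42 := M0.card_le_of_nil ubC0
noncomputable def cC : Lv := (.cons (nat_lit 0) [dw (nat_lit 0x0602030101100814090e121512)] [dw (nat_lit 0x01), dw (nat_lit 0x01), dw (nat_lit 0x03), dw (nat_lit 0x01), dw (nat_lit 0x01), dw (nat_lit 0x01), dw (nat_lit 0x01), dw (nat_lit 0x01)
, dw (nat_lit 0x01), dw (nat_lit 0x01)]
(.cons (nat_lit 3) [dw (nat_lit 0x050203020c080b0b0f110f161412)] [dw (nat_lit 0x01)]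
.nil))
noncomputable def wC : List Word := cC.gens
theorem leC : sub M0.gen wC ≤ AC := (M0.le_cent (D := 5) (by norm_num) (by norm_num) (by decide +kernel))
theorem eqC : sub M0.gen wC = AC := (M0.eq_sub_of_low (c := cC) leC ubC (by decide +kernel)).1
theorem cardC : Nat.card (AC) = 42 := (M0.eq_sub_of_low (c := cC) leC ubC (by decide +kernel)).2
noncomputable def E7 : List Word := [dw (nat_lit 0x13020309020b07090d11151311), dw (nat_lit 0x0301010305010907090d0f15), dw (nat_lit 0x02030a010113050b140f16), dw (nat_lit 0x09020302020c08160b160d151312), dw (nat_lit 0x08020307010113050c0d151412), [], dw (nat_lit 0x1002030e0801080f0b160f1613)]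
theorem cov7 : Cover M0.gen (sub M0.gen [x]) [E7] := M0.cover_of_closed (D := 5) (by norm_num) (by norm_num) E7 (by decide +kernel)
abbrev AN := (⊤ : Subgroup M24) ⊓ Subgroup.normalizer (sub M0.gen [x] : Set M24)
theorem j1 : M0.Inv (AN ⊓ M0.fixL []) (nat_lit 0xffffff) :=
  (PM.Inv.full).of_eq (by decide +kernel)
theorem j2 : M0.Inv (AN ⊓ M0.fixL []) (nat_lit 0x20180) :=
  PM.Inv.orbits 1 [(nat_lit 7, (nat_lit 0x80), []),
 (nat_lit 8, (nat_lit 0x100), []),
 (nat_lit 17, (nat_lit 0x20000), [])] [(nat_lit 0, (nat_lit 0x50447), [dw (nat_lit 0x01), dw (nat_lit 0x0202), dw (nat_lit 0x010101)]),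
 (nat_lit 3, (nat_lit 0x28d208), [dw (nat_lit 0x01), dw (nat_lit 0x0101), dw (nat_lit 0x020202)]),
 (nat_lit 4, (nat_lit 0xd02830), [dw (nat_lit 0x01), dw (nat_lit 0x0202), dw (nat_lit 0x0101), dw (nat_lit 0x01)])] (PM.nml_of (M0.inf_fixL_nil rfl) (by decide +kernel)) j1 (by decide +kernel)
theorem j3 : M0.Inv (AN ⊓ M0.fixL []) (nat_lit 0xfdfe7f) :=
  (j1.sdf j2).of_eq (by decide +kernel)
theorem j4 : M0.Inv (AN ⊓ M0.fixL [7]) (nat_lit 0x80) :=
  (PM.Inv.pt (b := 7) (by decide +kernel)).of_eq (by decide +kernel)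
theorem j5 : M0.Inv (AN ⊓ M0.fixL [7]) (nat_lit 0x20100) :=
  ((j2.lift (by decide +kernel)).sdf j4).of_eq (by decide +kernel)
theorem j6 : M0.Inv (AN ⊓ M0.fixL [8, 7]) (nat_lit 0x100) :=
  (PM.Inv.pt (b := 8) (by decide +kernel)).of_eq (by decide +kernel)
theorem j7 : M0.Inv (AN ⊓ M0.fixL [8, 7]) (nat_lit 0x20000) :=
  ((j5.lift (by decide +kernel)).sdf j6).of_eq (by decide +kernel)
theorem j8 : M0.Inv (AN ⊓ M0.fixL [0, 8, 7]) (nat_lit 0x1) :=
  (PM.Inv.pt (b := 0) (by decide +kernel)).of_eq (by decide +kernel)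
theorem j9 : M0.Inv (AN ⊓ M0.fixL [0, 8, 7]) (nat_lit 0xfdfe7e) :=
  ((j3.lift (by decide +kernel)).sdf j8).of_eq (by decide +kernel)
theorem j10 : M0.Inv (AN ⊓ M0.fixL [0, 8, 7]) (nat_lit 0x50447) :=
  (PM.Inv.clos [dw (nat_lit 0x01), dw (nat_lit 0x0202), dw (nat_lit 0x010101)] (PM.nml_of (M0.inf_fixL_nil rfl) (by decide +kernel)) j8 (by decide +kernel)).of_eq (by decide +kernel)
theorem j11 : M0.Inv (AN ⊓ M0.fixL [0, 8, 7]) (nat_lit 0x50446) :=
  (j9.land j10).of_eq (by decide +kernel)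
theorem ubN4 : Nat.card (AN ⊓ M0.fixL [17, 0, 8, 7] : Subgroup _) ≤ 3 :=
  M0.card_le_nml (D := 5) (by norm_num) M0_eq4 m24cov4 (dw (nat_lit 0x070101030d020b07130c)) (Ys := [(nat_lit 0x50446)]) (fa_cons (j11.lift (by decide +kernel)) fa_nil) inf_le_right cov7 (by decide +kernel)
theorem ubN3 : Nat.card (AN ⊓ M0.fixL [0, 8, 7] : Subgroup _) ≤ 3 :=
  M0.card_le_step (p := 1) (j7.lift (by decide +kernel)) (by decide +kernel) ubN4
theorem ubN2 : Nat.card (AN ⊓ M0.fixL [8, 7] : Subgroup _) ≤ 63 :=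
  M0.card_le_step (p := 21) (j3.lift (by decide +kernel)) (by decide +kernel) ubN3
theorem ubN1 : Nat.card (AN ⊓ M0.fixL [7] : Subgroup _) ≤ 126 :=
  M0.card_le_step (p := 2) j5 (by decide +kernel) ubN2
theorem ubN0 : Nat.card (AN ⊓ M0.fixL [] : Subgroup _) ≤ 378 :=
  M0.card_le_step (p := 3) j2 (by decide +kernel) ubN1
theorem ubN : Nat.card (AN) ≤ 378 := M0.card_le_of_nil ubN0
noncomputable def cN : Lv := (.cons (nat_lit 0) [dw (nat_lit 0x09020313070114080e1613)] [dw (nat_lit 0x01), dw (nat_lit 0x03), dw (nat_lit 0x01), dw (nat_lit 0x03), dw (nat_lit 0x01), dw (nat_lit 0x05), dw (nat_lit 0x03)]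
(.cons (nat_lit 1) [dw (nat_lit 0x08160c0e160f15121312)] [dw (nat_lit 0x01), dw (nat_lit 0x01)]
(.cons (nat_lit 3) [dw (nat_lit 0x050203020c080b0b0f110f161412)] [dw (nat_lit 0x01)]
.nil)))
noncomputable def wN : List Word := cN.gens
theorem leN : sub M0.gen wN ≤ AN := le_inf le_top (le_normalizer_of (vs := [dw (nat_lit 0x0101), dw (nat_lit 0x01010101), dw (nat_lit 0x01)]) (M0.rels_of_idArr (D := 5) (by norm_num) (by decide +kernel)))
theorem eqN : sub M0.gen wN = AN := (M0.eq_sub_of_low (c := cN) leN (M0.card_nml_le (N := 126) (p := 7) (hp := ⟨by norm_num⟩) (k := 1) (m := 34974720) (by rw [sub_single, Nat.card_zpowers, ord_x]; rfl) card_M24 cN leN ubN (by decide +kernel)) (by decide +kernel)).1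
theorem cardN : Nat.card (AN) = 126 := (M0.eq_sub_of_low (c := cN) leN (M0.card_nml_le (N := 126) (p := 7) (hp := ⟨by norm_num⟩) (k := 1) (m := 34974720) (by rw [sub_single, Nat.card_zpowers, ord_x]; rfl) card_M24 cN leN ubN (by decide +kernel)) (by decide +kernel)).2

/-- For a subgroup S of order 7 of the group of the length-24 code (a Sylow 7-subgroup): the normaliser of S has order 126, the centraliser of S has order 42 and is non-abelian, and the whole normaliser leaves some trio invariant. (These are the orders of a Frobenius group of order 21 times a symmetric group of degree 3; the isomorphism type itself is not asserted here.) -/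
theorem result (S : Subgroup ↥Cfsg.M24) (hS : Nat.card S = 7) : Nat.card ↥(Subgroup.normalizer (S : Set ↥Cfsg.M24)) = 126 ∧ Nat.card ↥(Subgroup.centralizer (S : Set ↥Cfsg.M24)) = 42 ∧ (∃ x ∈ Subgroup.centralizer (S : Set ↥Cfsg.M24), ∃ y ∈ Subgroup.centralizer (S : Set ↥Cfsg.M24), x * y ≠ y * x) ∧ ∃ T ∈ Cfsg.trios, ∀ n ∈ Subgroup.normalizer (S : Set ↥Cfsg.M24), ((n : ↥Cfsg.M24) : Equiv.Perm Cfsg.GolayPt) • T = T := by
  have := Fact.mk (by norm_num : Nat.Prime 7)
  obtain ⟨y, hy, rfl⟩ := exists_zpowers_eq (by norm_num) hS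
  have c7 := (Nat.card_zpowers _).trans ord_x
  obtain ⟨g, -, hg⟩ := cls_of_sylow (p := 7) (k := 1) (m := 34974720) (j := 1) (H := ⊤) le_top c7
    (Subgroup.card_top.trans card_M24) (by norm_num) (t := y) trivial (by rw [pow_one, ← hy, pow_orderOf_eq_one])
  have e := eq_of_le_of_card (n := 7) (by norm_num) (Subgroup.zpowers_le_of_mem hg)
    ((Nat.card_zpowers _).trans (((MulAut.conj g).orderOf_eq y).trans hy)) c7
  have hN := conj_mem_nml ((conj_zpowers (g := g) rfl).trans e)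
  have hC : ∀ a, g * a * g⁻¹ ∈ AC ↔ a ∈ Subgroup.centralizer (Subgroup.zpowers y : Set M24) := fun a => by
    rw [AC, ← centralizer_zpowers, ← e, centralizer_zpowers, centralizer_zpowers, card_cent_conj rfl]
  have eN := eqN
  rw [AN, top_inf_eq, sub_single] at eN
  refine ⟨?_, (card_conj g hC).symm.trans cardC, ⟨g⁻¹ * ev M0.gen (flat wC [0]) * g, (hC _).1 ?_,
    g⁻¹ * ev M0.gen (flat wC [2]) * g, (hC _).1 ?_, fun h => ?_⟩, g⁻¹ • fTi 3652, smul_mem_trios _ _ (oTi.mem (by norm_num)),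
    fun n hn => ?_⟩
  · rw [← card_conj g hN, ← eN, eqN, cardN]
  · simpa [mul_assoc] using leC (ev_flat_mem _ _ _)
  · simpa [mul_assoc] using leC (ev_flat_mem _ _ _)
  · refine M0.ev_ne (D := 5) (u := flat wC [2] ++ flat wC [0]) (v := flat wC [0] ++ flat wC [2]) (by norm_num)
      (by decide +kernel) ?_
    simp only [← mul_assoc, mul_inv_cancel_right, mul_left_inj] at h
    simpa [mul_assoc] using h
  · have := oTi.le_stab (ws := wN) (i := 3652) (by decide +kernel) (eN.ge ((hN n).2 hn))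
    rw [mem_stabilizer_iff, mul_smul, mul_smul, ← eq_inv_smul_iff] at this
    exact this

end Cfsg.Agent.S5604
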