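import Cfsg.Statements.S5607
import Cfsg.Agent.H14.M24Use

set_option autoImplicit false
open scoped Pointwise
open Cfsg

namespace Cfsg.Agent.S5607

open H14 MulAction
open scoped Pointwise
set_option maxRecDepth 100000
theorem cm_iff {k t z : M24} (e : k * t * k⁻¹ = z) (c : M24) :
    k * c * k⁻¹ ∈ Subgroup.centralizer {z} ↔ (c : Equiv.Perm GolayPt) * t = t * c := by
  rw [card_cent_conj e, Subgroup.mem_centralizer_singleton_iff, Subtype.ext_iff]; rfl

/-- For a fixed-point-free involution t of the group of the length-24 code: its centraliser in that group has order 7680, is transitive on the 24 points, and is contained, together with t, in the stabiliser of some sextet. -/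
theorem result (t : Equiv.Perm Cfsg.GolayPt) (ht : t ∈ Cfsg.M24) (h₂ : orderOf t = 2) (h₀ : ∀ p, t p ≠ p) : Nat.card {c : Equiv.Perm Cfsg.GolayPt // c ∈ Cfsg.M24 ∧ c * t = t * c} = 7680 ∧ (∀ p q : Cfsg.GolayPt, ∃ c ∈ Cfsg.M24, c * t = t * c ∧ c p = q) ∧ ∃ S ∈ Cfsg.sextets, t • S = S ∧ ∀ c ∈ Cfsg.M24, c * t = t * c → c • S = S := by
  obtain ⟨k, e⟩ := cls2B ((orderOf_mk ht).trans h₂) (nfix_eq_zero.2 h₀)
  refine ⟨?_, fun p q => ?_, k⁻¹ • fSx 923, smul_mem_sextets _ _ (oSx.mem (by norm_num)), ?_⟩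
  · rw [card_sub_sub, ← ncard_conj k (cm_iff e)]
    exact cardCB
  · obtain ⟨c, hc, h⟩ := M0.conn_of_chk (ws := wCB) (s := 0) (O := full 24) (sc := [dw (nat_lit 0x01), dw (nat_lit 0x0101), dw (nat_lit 0x03), dw (nat_lit 0x05), dw (nat_lit 0x01), dw (nat_lit 0x01), dw (nat_lit 0x01)]) (by decide +kernel)
      (M0.mem_S_full' (k • p)) (M0.mem_S_full' (k • q))
    refine ⟨(k⁻¹ * c * k : M24), (k⁻¹ * c * k).2, (cm_iff e _).1 ?_, ?_⟩
    · rw [show k * (k⁻¹ * c * k) * k⁻¹ = c by group]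
      exact leCB hc
    · show (k⁻¹ * c * k) • p = q
      rw [mul_smul, mul_smul, h, inv_smul_smul]
  · have key : ∀ c ∈ M24, c * t = t * c → c • (k⁻¹ • fSx 923) = k⁻¹ • fSx 923 := fun c hc h => by
      have := oSx.le_stab (ws := wCB) (i := 923) (by decide +kernel) (eqCB.ge ((cm_iff e ⟨c, hc⟩).2 h))
      rw [mem_stabilizer_iff, mul_smul, mul_smul, ← eq_inv_smul_iff] at this
      exact this
    exact ⟨key t ht rfl, key⟩

end Cfsg.Agent.S5607
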