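import Cfsg.Statements.S5608
import Cfsg.Agent.H14.M24Use

set_option autoImplicit false
open scoped Pointwise
open Cfsg

namespace Cfsg.Agent.S5608

open H14 MulAction
open scoped Pointwise
set_option maxRecDepth 100000
noncomputable def y : Word := flat wCB (dw (nat_lit 0x030105))
theorem key {x : M24} (hx : x ∈ ACB) (h : orderOf x = 3) : nfix GolayPt x = 0 := by
  have := Fact.mk Nat.prime_three
  have o : orderOf (ev M0.gen y) = 3 := M0.orderOf_prime (D := 5) (by norm_num) (by norm_num) (by norm_num) (by decide +kernel)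
  obtain ⟨g, -, hg⟩ := cls_of_sylow (p := 3) (k := 1) (m := 2560) (j := 1) (X := Subgroup.zpowers (ev M0.gen y))
    (Subgroup.zpowers_le_of_mem (leCB (ev_flat_mem _ _ _))) ((Nat.card_zpowers _).trans o) cardCB (by norm_num) hx
    (by rw [pow_one, ← h, pow_orderOf_eq_one])
  rw [nfix_conj (g := g) rfl, ← fix_zpowers]
  have o2 : orderOf (g * x * g⁻¹) = 3 := (MulAut.conj g).orderOf_eq x |>.trans h
  rw [eq_of_le_of_card (n := 3) (by norm_num) (Subgroup.zpowers_le_of_mem hg) ((Nat.card_zpowers _).trans o2)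
    ((Nat.card_zpowers _).trans o), fix_zpowers]
  exact M0.nfix_ev (D := 5) (by norm_num) _ (by decide +kernel)

/-- If an element of order 3 and an involution of the group of the length-24 code commute, then either the element of order 3 has exactly 6 fixed points and the involution exactly 8, or both are fixed-point-free. -/
theorem result (x s : Equiv.Perm Cfsg.GolayPt) (hx : x ∈ Cfsg.M24) (hs : s ∈ Cfsg.M24) (h₃ : orderOf x = 3) (h₂ : orderOf s = 2) (hc : Commute x s) : ((Finset.univ.filter fun p => x p = p).card = 6 ∧ (Finset.univ.filter fun p => s p = p).card = 8) ∨ ((Finset.univ.filter fun p => x p = p).card = 0 ∧ (Finset.univ.filter fun p => s p = p).card = 0) := by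
  rw [← nfix_mk hx, ← nfix_mk hs]
  rw [← orderOf_mk hx] at h₃
  rw [← orderOf_mk hs] at h₂
  have hc' : (⟨x, hx⟩ : M24) * ⟨s, hs⟩ = ⟨s, hs⟩ * ⟨x, hx⟩ := Subtype.ext hc
  generalize (⟨x, hx⟩ : M24) = x at *
  generalize (⟨s, hs⟩ : M24) = s at *
  rcases cls2 h₂ with ⟨h, -⟩ | ⟨h, k, e⟩
  · refine .inl ⟨(cls3 h₃).elim And.left fun h' => ?_, h⟩
    exfalso
    have := Fact.mk Nat.prime_three
    let φ : Equiv.Perm {p : GolayPt // s • p = p} := (MulAction.toPerm x).subtypePerm fun p => by
      show s • x • p = x • p ↔ s • p = p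
      rw [← mul_smul, ← hc', mul_smul, smul_left_cancel_iff]
    have h1 : φ ^ 3 ^ 1 = 1 := by
      refine Equiv.ext fun p => Subtype.ext ?_
      show x • x • x • p.1 = p
      rw [← mul_smul, ← mul_smul, ← pow_three', ← h₃, pow_orderOf_eq_one, one_smul]
    obtain ⟨p, hp⟩ := Equiv.Perm.exists_fixed_point_of_prime (p := 3) (by
      rw [Fintype.card_subtype, nfix_eq_card, h]; norm_num) h1
    exact nfix_eq_zero.1 h'.1 p.1 (congrArg Subtype.val hp)
  · refine .inr ⟨(nfix_conj (g := k) rfl).trans (key ?_ ((MulAut.conj k).orderOf_eq x |>.trans h₃)), h⟩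
    exact (card_cent_conj e x).2 (Subgroup.mem_centralizer_singleton_iff.2 hc')

end Cfsg.Agent.S5608
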