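import Cfsg.Statements.S5609
import Cfsg.Agent.H14.M24Use

set_option autoImplicit false
open scoped Pointwise
open Cfsg

namespace Cfsg.Agent.S5609

open H14 MulAction
open scoped Pointwise
set_option maxRecDepth 100000
theorem adj {o o' : octads} (hne : o ≠ o') : (blockGraph octads).Adj o o' ↔ (o.1 ∩ o'.1).card = 0 := by
  rw [blockGraph, SimpleGraph.fromRel_adj, Finset.card_eq_zero, ← Finset.disjoint_iff_inter_eq_empty]
  exact ⟨fun h => h.2.elim id fun h => h.symm, fun h => ⟨hne, .inl h⟩⟩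
theorem adj' {o o' : octads} (h : (o.1 ∩ o'.1).card = 0) : (blockGraph octads).Adj o o' :=
  (adj fun e => by rw [e, Finset.inter_self, o'.2.2] at h; omega).2 h
theorem ex {a b c i j k : ℕ} (h : (oct a && (oct b && oct c) && (Nat.beq (p24 (a &&& b)) i &&
    (Nat.beq (p24 (a &&& c)) j && Nat.beq (p24 (c &&& b)) k))) = true) {o o' : octads} (e : (o.1 ∩ o'.1).card = i) :
    ∃ x : octads, (o.1 ∩ x.1).card = j ∧ (x.1 ∩ o'.1).card = k := by
  simp only [Bool.and_eq_true, ← card_bset_eq_iff, bset_and] at h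
  obtain ⟨g, e1, e2⟩ := octad_pair_trans (bset_mem_octads h.1.1) (bset_mem_octads h.1.2.1) o.2 o'.2 (h.2.1.trans e.symm)
  refine ⟨⟨_, smul_mem_octads g (bset_mem_octads h.1.2.2)⟩, ?_, ?_⟩
  · rw [← e1, ← Finset.smul_finset_inter, Finset.card_smul_finset, h.2.2.1]
  · rw [← e2, ← Finset.smul_finset_inter, Finset.card_smul_finset, h.2.2.2]
theorem w2 {o o' : octads} (e : (o.1 ∩ o'.1).card = 4) : ∃ w : (blockGraph octads).Walk o o', w.length = 2 := by
  obtain ⟨x, h1, h2⟩ := ex (a := 0x82402f) (b := 0x800c75) (c := 0x3da100) (j := 0) (k := 0) (by decide +kernel) e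
  exact ⟨.cons (adj' h1) (.cons (adj' h2) .nil), rfl⟩
theorem w3 {o o' : octads} (e : (o.1 ∩ o'.1).card = 2) : ∃ w : (blockGraph octads).Walk o o', w.length = 3 := by
  obtain ⟨x, h1, h2⟩ := ex (a := 0x82402f) (b := 0x200f68) (c := 0x960095) (j := 4) (k := 0) (by decide +kernel) e
  obtain ⟨w, hw⟩ := w2 h1
  exact ⟨w.concat (adj' h2), by rw [SimpleGraph.Walk.length_concat, hw]⟩
theorem n2 {o o' x : octads} (e : (o.1 ∩ o'.1).card = 2) (h1 : (x.1 ∩ o.1).card = 0) (h2 : (x.1 ∩ o'.1).card = 0) : False := by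
  obtain ⟨g, e1, e2⟩ := octad_pair_trans o.2 o'.2 (bset_mem_octads (m := 0x82402f) (by decide +kernel))
    (bset_mem_octads (m := 0x200f68) (by decide +kernel)) (by rw [e, ← bset_and, eq_comm, card_bset_eq_iff]; decide +kernel)
  have hx := smul_mem_octads g x.2
  obtain ⟨c, hc, e3⟩ := mem_GC.1 hx.1
  rw [← Finset.card_smul_finset g, Finset.smul_finset_inter, ← e3] at h1 h2
  rw [e1, ← bset_and, card_bset_eq_iff] at h1
  rw [e2, ← bset_and, card_bset_eq_iff] at h2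
  have := forall_CW (f := fun c => !(Nat.beq (p24 c) 8 && (Nat.beq (p24 (c &&& 0x82402f)) 0 && Nat.beq (p24 (c &&& 0x200f68)) 0)))
    (by decide +kernel) hc
  rw [(card_bset_eq_iff _ _).1 (e3 ▸ hx.2), h1, h2] at this
  exact Bool.false_ne_true this
theorem cases {o o' : octads} (hne : o ≠ o') : (o.1 ∩ o'.1).card = 0 ∨ (o.1 ∩ o'.1).card = 2 ∨ (o.1 ∩ o'.1).card = 4 := by
  have h1 := even_card_inter o.2.1 o'.2.1
  have h2 := mt (octad_eq_of_card_inter o.2 o'.2) (mt Subtype.ext hne)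
  omega
theorem conn : (blockGraph octads).Connected := by
  have : Nonempty octads := ⟨⟨_, oOc.mem (i := 0) (by norm_num)⟩⟩
  refine ⟨fun o o' => ?_⟩
  by_cases hne : o = o'
  · rw [hne]
  rcases cases hne with h | h | h
  exacts [(adj' h).reachable, (w3 h).choose.reachable, (w2 h).choose.reachable]

/-- In the graph on the 759 octads of the length-24 code in which two octads are adjacent when they are disjoint, the graph is connected (of diameter 3) and two distinct octads are at distance 1, 2 or 3 exactly when they meet in 0, 4 or 2 points respectively. -/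
theorem result (o o' : Finset Cfsg.GolayPt) (ho : o ∈ Cfsg.octads) (ho' : o' ∈ Cfsg.octads) (hne : o ≠ o') : (Cfsg.blockGraph Cfsg.octads).Connected ∧ ((Cfsg.blockGraph Cfsg.octads).dist ⟨o, ho⟩ ⟨o', ho'⟩ = 1 ↔ (o ∩ o').card = 0) ∧ ((Cfsg.blockGraph Cfsg.octads).dist ⟨o, ho⟩ ⟨o', ho'⟩ = 2 ↔ (o ∩ o').card = 4) ∧ ((Cfsg.blockGraph Cfsg.octads).dist ⟨o, ho⟩ ⟨o', ho'⟩ = 3 ↔ (o ∩ o').card = 2) := by
  refine ⟨conn, ?_⟩
  have hne' : (⟨o, ho⟩ : octads) ≠ ⟨o', ho'⟩ := mt Subtype.mk.inj hne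
  have h0 := conn.pos_dist_of_ne hne'
  have h1 := SimpleGraph.dist_eq_one_iff_adj.trans (adj hne')
  rcases cases hne' with h | h | h <;> simp only at h h1
  · omega
  · obtain ⟨w, hw⟩ := w3 (o := ⟨o, ho⟩) (o' := ⟨o', ho'⟩) h
    have h2 := hw ▸ SimpleGraph.dist_le w
    have h3 : (blockGraph octads).dist ⟨o, ho⟩ ⟨o', ho'⟩ ≠ 2 := fun e => by
      have := (conn _ _).coe_dist_eq_edist (u := ⟨o, ho⟩) (v := ⟨o', ho'⟩)
      rw [e] at this
      obtain ⟨-, -, x, hx⟩ := SimpleGraph.edist_eq_two_iff.1 this.symm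
      exact n2 (o := ⟨o, ho⟩) (o' := ⟨o', ho'⟩) h (x := x) ((adj (SimpleGraph.Adj.ne' (G := blockGraph octads) hx.1)).1 (SimpleGraph.Adj.symm hx.1))
        ((adj (SimpleGraph.Adj.ne' (G := blockGraph octads) hx.2)).1 (SimpleGraph.Adj.symm hx.2))
    omega
  · obtain ⟨w, hw⟩ := w2 (o := ⟨o, ho⟩) (o' := ⟨o', ho'⟩) h
    have h2 := hw ▸ SimpleGraph.dist_le w
    omega

end Cfsg.Agent.S5609
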