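import Cfsg.Statements.S5613
import Cfsg.Agent.H14.M24Obj
import Cfsg.Agent.H14.Obj2

set_option autoImplicit false
open scoped Pointwise
open Cfsg

namespace Cfsg.Agent.S5613

open H14 MulAction
set_option maxRecDepth 100000
theorem cnt {o o' : Finset GolayPt} (ho : o ∈ octads) (ho' : o' ∈ octads) {k : ℕ} (h : (o ∩ o').card = k) :
    Nat.card ↥(stabilizer M24 o ⊓ stabilizer M24 o') *
      pop 759 (selB (fun i => Nat.beq (p24 (Nat.land 0x82402f (cm 24 759 OOc.A i))) k) 759) = 322560 := by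
  rw [← card_HOc ho, ← card_inf_stabilizer_mul (stabilizer M24 o) o']
  congr 1
  have : {y | ∃ g ∈ stabilizer M24 o, g • o' = y} = {y | y ∈ octads ∧ (o ∩ y).card = k} := by
    ext y
    refine ⟨fun ⟨g, hg, e⟩ => ⟨e ▸ smul_mem_octads g ho', ?_⟩, fun hy => octad_conn ho ho' hy.1 (h.trans hy.2.symm)⟩
    rw [← e, ← mem_stabilizer_iff.1 hg, ← Finset.smul_finset_inter, Finset.card_smul_finset, h]
  rw [this]
  obtain ⟨g, rfl⟩ := oOc.std ho
  rw [ncard_smul_eq oOc.inv g (Q := fun x => (fOc 0 ∩ x).card = k) fun x _ => by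
    rw [← Finset.smul_finset_inter, Finset.card_smul_finset]]
  exact (oOc.ncard_sel fun i _ => by rw [fOc0, fOc, col_eq, ← bset_and, card_bset_eq_iff]; rfl).symm

/-- In the group of the length-24 code, the joint stabiliser of two octads has order 10752, 1152 or 720 according as the octads meet in 0, 4 or 2 points. -/
theorem result (o o' : Finset Cfsg.GolayPt) (ho : o ∈ Cfsg.octads) (ho' : o' ∈ Cfsg.octads) : ((o ∩ o').card = 0 → Nat.card ↥(MulAction.stabilizer Cfsg.M24 o ⊓ MulAction.stabilizer Cfsg.M24 o') = 10752) ∧ ((o ∩ o').card = 4 → Nat.card ↥(MulAction.stabilizer Cfsg.M24 o ⊓ MulAction.stabilizer Cfsg.M24 o') = 1152) ∧ ((o ∩ o').card = 2 → Nat.card ↥(MulAction.stabilizer Cfsg.M24 o ⊓ MulAction.stabilizer Cfsg.M24 o') = 720) := by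
  refine ⟨fun h => ?_, fun h => ?_, fun h => ?_⟩ <;> have := cnt ho ho' h
  · rw [show pop 759 _ = 30 by decide +kernel] at this; omega
  · rw [show pop 759 _ = 280 by decide +kernel] at this; omega
  · rw [show pop 759 _ = 448 by decide +kernel] at this; omega

end Cfsg.Agent.S5613
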