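import Cfsg.Statements.S5614
import Cfsg.Agent.H14.M24Use
import Cfsg.Agent.S5613

set_option autoImplicit false
open scoped Pointwise
open Cfsg

namespace Cfsg.Agent.S5614

open H14 MulAction
open scoped Pointwise
set_option maxRecDepth 100000

/-- In the group of the length-24 code, the joint stabiliser of two octads meeting in exactly two points is isomorphic to the symmetric group of degree 6. -/
theorem result (o o' : Finset Cfsg.GolayPt) (ho : o ∈ Cfsg.octads) (ho' : o' ∈ Cfsg.octads) (h₂ : (o ∩ o').card = 2) : Nonempty (↥(MulAction.stabilizer Cfsg.M24 o ⊓ MulAction.stabilizer Cfsg.M24 o') ≃* Equiv.Perm (Fin 6)) := by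
  have hc := (S5613.result o o' ho ho').2.2 h₂
  obtain ⟨g, rfl, rfl⟩ := octad_pair_trans (bset_mem_octads (m := 0x82402f) (by decide +kernel))
    (bset_mem_octads (m := 0x160ce0) (by decide +kernel)) ho ho' (by rw [h₂, ← bset_and, card_bset_eq_iff]; decide +kernel)
  have hm := conj_mem_inf (fun a => conj_mem_stab g a (bset 0x82402f)) (fun a => conj_mem_stab g a (bset 0x160ce0))
  rw [card_conj g hm] at hc
  refine (equiv_perm_of (s := bset 0x80400f) (fun a ha => ?_) (fun a ha h => ?_) ((card_bset_eq_iff _ _).2 (by decide +kernel))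
    hc).map (conjEquiv g hm).symm.trans
  · rw [mem_stabilizer_iff, show bset 0x80400f = bset 0x82402f ∩ (bset 0x160ce0)ᶜ by decide +kernel, Finset.smul_finset_inter,
      smul_compl_finset, ha.1, ha.2]
  · refine m24cov5.all (F := arF 24 M24c.nets 5) (A := arI 24 5) (f := fun w A => !subs 0x80400f (agr 24 5 A (arI 24 5)) ||
      (!Nat.beq (runW (letN M24c.nets) w 0x160ce0) 0x160ce0 || Nat.beq A (arI 24 5))) (by decide +kernel)
      (P := fun a => (∀ x ∈ bset 0x80400f, a • x = x) → a • bset 0x160ce0 = bset 0x160ce0 → a = 1) (fun w hw h1 h2 => ?_) a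
      (mem_ws5 h (by decide +kernel)) h ha.2
    rw [show runW (arF 24 M24c.nets 5) w (arI 24 5) = arW 24 M24c.nets 5 w from rfl,
      (pw_bset_iff w (by decide +kernel)).1 h1, M0.runW_eq_of_inv (inv_stab_bset _) h2] at hw
    exact M0.ev_eq (D := 5) (v := []) (by norm_num) (by norm_num) hw

end Cfsg.Agent.S5614
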