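import Cfsg.Statements.S5615
import Cfsg.Agent.H14.M24Use
import Cfsg.Agent.H14.Obj5

set_option autoImplicit false
open scoped Pointwise
open Cfsg

namespace Cfsg.Agent.S5615

open H14 MulAction
open scoped Pointwise
set_option maxRecDepth 100000
theorem pw_trans {p q : GolayPt} (hp : p ∉ fOc 0) (hq : q ∉ fOc 0) :
    ∃ k ∈ sub M0.gen wK0, k • p = q := by
  rw [fOc0, ← Finset.mem_compl, ← bset_compl] at hp hq
  exact M0.conn_of_chk (ws := wK0) (s := 4) (O := 0x82402f ^^^ full 24) (sc := [dw (nat_lit 0x01), dw (nat_lit 0x03), dw (nat_lit 0x05), dw (nat_lit 0x07)])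
    (by decide +kernel) (mem_S_iff.2 hp) (mem_S_iff.2 hq)
noncomputable def b15 : Nat := selB (fun i => (cms 3795 OTi.As i).any (Nat.beq 0x82402f)) 3795
theorem sel : {T | T ∈ trios ∧ fOc 0 ∈ T} = VS fTi 3795 b15 := oTi.sel_eq' fun i _ => by
  rw [show fTi i = _ from cols_eq _ _ i, mem_bsets, List.any_eq_true, fOc0]
  refine exists_congr fun m => and_congr_right fun hm => ?_
  obtain ⟨A, -, rfl⟩ := List.mem_map.1 hm
  rw [eq_comm, bset_eq_iff (by norm_num) (cm_lt _ _ _)]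
noncomputable def ws : List Word := [dw (nat_lit 0x10020e0809140f1514), dw (nat_lit 0x0307010b05090b160d1512), dw (nat_lit 0x0106080f0b0d16)]
theorem two {T U : Finset (Finset GolayPt)} (hT : T ∈ trios) (hU : U ∈ trios) (h1 : fOc 0 ∈ T) (h2 : fOc 0 ∈ U)
    (h : T ≠ U) : ∃ g : M24, g • fOc 0 = fOc 0 ∧ g • T = fTi 0 ∧ g • U = fTi 83 := by
  obtain ⟨a, ha, e⟩ := oTi.conn (ws := wOc) (s := 0) (b := b15) (sc := [dw (nat_lit 0x01), dw (nat_lit 0x03), dw (nat_lit 0x09), dw (nat_lit 0x0d), dw (nat_lit 0x01)]) (by decide +kernel)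
    (sel.le ⟨hT, h1⟩) ((oTi.mem_VS (i := 0) (by norm_num)).2 (by decide +kernel))
  replace ha : a • fOc 0 = fOc 0 := HOc_eq.le ha
  obtain ⟨j, ⟨hj, e2⟩, e3⟩ := (Set.ext_iff.1 sel (a • U)).1 ⟨smul_mem_trios a _ hU, ha ▸ Finset.smul_mem_smul_finset h2⟩
  obtain ⟨b, hb, e4⟩ := oTi.conn (ws := ws) (s := 83) (b := sdf b15 (bit 0)) (sc := [dw (nat_lit 0x01), dw (nat_lit 0x0404), dw (nat_lit 0x05), dw (nat_lit 0x01), dw (nat_lit 0x03)]) (by decide +kernel)
    (x := a • U) ⟨j, ⟨hj, by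
      rw [testBit_sdf, e2, testBit_bit, decide_eq_false]; · rfl
      rintro rfl
      exact h (MulAction.injective a (e.trans e3))⟩, e3⟩ ((oTi.mem_VS (i := 83) (by norm_num)).2 (by decide +kernel))
  exact ⟨b * a, by rw [mul_smul, ha]; exact oOc.le_stab (by decide +kernel) hb,
    by rw [mul_smul, e]; exact oTi.le_stab (by decide +kernel) hb, by rw [mul_smul, e4]⟩
theorem back {g : M24} (h : g ∈ sub M0.gen wK0) {T : Finset (Finset GolayPt)} (hT : T ∈ trios) (h1 : fOc 0 ∈ T) :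
    g • T = T := by
  obtain ⟨j, ⟨hj, e2⟩, rfl⟩ := sel.le ⟨hT, h1⟩
  have := allLt_spec (f := fun j => !tb b15 j || (Nat.ble (Nat.succ j) 3795 && invChk OTi.nets wK0 (bit j))) (by decide +kernel) j hj
  rw [tb_eq, e2] at this
  exact oTi.le_stab this h
theorem ker {g : M24} (h0 : g • fOc 0 = fOc 0) (h : ∀ T ∈ trios, fOc 0 ∈ T → g • T = T) : g ∈ sub M0.gen wK0 := by
  have hp : gp 4 ∉ fOc 0 := by rw [fOc0]; decide +kernel
  obtain ⟨k, hk, e⟩ := pw_trans (mt (smul_mem_iff_of_stab h0 _).1 hp) hp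
  rw [← mul_smul] at e
  have key : ∀ a ∈ [7903248, 5538256, 5350928, 4202192, 2460752, 832080, 7079696, 6889680, 4536592, 3421328, 3216208, 1584464, 2141072, 1903248, 628112], M0.Inv (Subgroup.zpowers (k * g)) a := fun a ha =>
    (inv_stab_bset a).mono (Subgroup.zpowers_le_of_mem (by
      have := List.all_eq_true.1 (show [7903248, 5538256, 5350928, 4202192, 2460752, 832080, 7079696, 6889680, 4536592, 3421328, 3216208, 1584464, 2141072, 1903248, 628112].all (fun a => oct a && (oct (a ^^^ 0x7dbfd0) && (tb a 4 &&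
        (!tb (a ^^^ 0x7dbfd0) 4 && (Nat.beq (p24 (0x82402f &&& a)) 0 && (Nat.beq (p24 (0x82402f &&& (a ^^^ 0x7dbfd0))) 0 &&
          Nat.beq (p24 (a &&& (a ^^^ 0x7dbfd0))) 0)))))) = true by decide +kernel) a ha
      simp only [Bool.and_eq_true, ← card_bset_eq_iff, bset_and, ← fOc0, Finset.card_eq_zero, tb_eq, Bool.not_eq_true',
        ← Finset.disjoint_iff_inter_eq_empty] at this
      obtain ⟨h1, h2, h3, h4, h5, h6, h7⟩ := this
      have p1 : gp 4 ∈ bset a := mem_bset.2 h3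
      have p2 : gp 4 ∉ bset (a ^^^ 0x7dbfd0) := fun e => Bool.false_ne_true (h4.symm.trans (mem_bset.1 e))
      have hT : {fOc 0, bset a, bset (a ^^^ 0x7dbfd0)} ∈ trios := by
        have n1 : fOc 0 ≠ bset a := fun e => hp (e ▸ p1)
        have n2 : bset a ≠ bset (a ^^^ 0x7dbfd0) := fun e => p2 (e ▸ p1)
        have n3 : fOc 0 ≠ bset (a ^^^ 0x7dbfd0) := fun e => by
          rw [← e, disjoint_self, Finset.bot_eq_empty] at h6
          have := (oOc.mem (i := 0) (by norm_num)).2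
          rw [h6] at this
          exact absurd this (by decide)
        refine ⟨Finset.card_eq_three.2 ⟨_, _, _, n1, n3, n2, rfl⟩, ?_, ?_⟩
        · simp only [Finset.mem_insert, Finset.mem_singleton, forall_eq_or_imp, forall_eq]
          exact ⟨oOc.mem (by norm_num), bset_mem_octads h1, bset_mem_octads h2⟩
        · simp only [Finset.mem_insert, Finset.mem_singleton, forall_eq_or_imp, forall_eq]
          exact ⟨⟨fun h => absurd rfl h, fun _ => h5, fun _ => h6⟩, ⟨fun _ => h5.symm, fun h => absurd rfl h, fun _ => h7⟩,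
            fun _ => h6.symm, fun _ => h7.symm, fun h => absurd rfl h⟩
      have h8 : (k * g) • bset a ∈ ({fOc 0, bset a, bset (a ^^^ 0x7dbfd0)} : Finset _) := by
        rw [← back hk hT (by simp), ← h _ hT (by simp), ← mul_smul]
        exact Finset.smul_mem_smul_finset (by simp)
      have h9 := e ▸ Finset.smul_mem_smul_finset (a := k * g) p1
      simp only [Finset.mem_insert, Finset.mem_singleton] at h8
      rcases h8 with h8 | h8 | h8
      exacts [absurd (h8 ▸ h9) hp, h8, absurd (h8 ▸ h9) p2]))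
  have h1 : ∀ x ∈ bset 0x7dbfd0, (k * g) • x = x := fun x hx =>
    M0.eq_of_sepL (C := 0x7dbfd0) (by decide +kernel) (mem_S_iff.2 (by
      rw [show bset 0x7dbfd0 = (fOc 0)ᶜ by rw [fOc0]; decide +kernel, Finset.mem_compl] at hx ⊢
      exact mt (smul_mem_iff_of_stab (mul_mem (oOc.le_stab (by decide +kernel) hk) h0) x).1 hx)) (mem_S_iff.2 hx)
      fun Y hY => (key Y hY).iff (Subgroup.mem_zpowers _) x
  rw [eq_inv_of_mul_eq_one_right (eq_one_of_pw (bset_mem_octads (m := 0x527c0) (by decide +kernel))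
    (fun x hx => h1 x (bset_subset (by decide +kernel) hx)) (p := gp 4) (by decide +kernel) e)]
  exact inv_mem hk

/-- An octad of the length-24 code lies in exactly 15 trios; the stabiliser of the octad in the code's group acts doubly transitively on these 15 trios, and the kernel of this action is the pointwise stabiliser of the octad. -/
theorem result (o : Finset Cfsg.GolayPt) (ho : o ∈ Cfsg.octads) : {T : Finset (Finset Cfsg.GolayPt) | T ∈ Cfsg.trios ∧ o ∈ T}.ncard = 15 ∧ (∀ T₁ T₂ T₁' T₂' : Finset (Finset Cfsg.GolayPt), T₁ ∈ Cfsg.trios → T₂ ∈ Cfsg.trios → T₁' ∈ Cfsg.trios → T₂' ∈ Cfsg.trios → o ∈ T₁ → o ∈ T₂ → o ∈ T₁' → o ∈ T₂' → T₁ ≠ T₂ → T₁' ≠ T₂' → ∃ g ∈ Cfsg.M24, g • o = o ∧ g • T₁ = T₁' ∧ g • T₂ = T₂') ∧ ∀ g ∈ Cfsg.M24, g • o = o → ((∀ T ∈ Cfsg.trios, o ∈ T → g • T = T) ↔ ∀ p ∈ o, g p = p) := by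
  obtain ⟨k, rfl⟩ := oOc.std ho
  refine ⟨(ncard_smul_eq oTi.inv k (Q := fun T => fOc 0 ∈ T) fun T _ => Finset.smul_mem_smul_finset_iff k).trans (by
    rw [sel, oTi.ncard_VS]; decide +kernel), fun T U T' U' a b c d a' b' c' d' h h' => ?_, fun g hg e => ?_⟩
  · rw [← inv_inv k, Finset.inv_smul_mem_iff] at a' b' c' d'
    obtain ⟨g, e0, e1, e2⟩ := two (smul_mem_trios _ _ a) (smul_mem_trios _ _ b) a' b' (mt (MulAction.injective _ ·) h)
    obtain ⟨g', e0', e1', e2'⟩ := two (smul_mem_trios _ _ c) (smul_mem_trios _ _ d) c' d' (mt (MulAction.injective _ ·) h')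
    refine ⟨(k * (g'⁻¹ * g) * k⁻¹ : M24), SetLike.coe_mem _, (conj_mem_stab k _ _).2 ?_, ?_, ?_⟩
    · rw [mem_stabilizer_iff, mul_smul, e0, inv_smul_eq_iff, e0']
    · show (k * (g'⁻¹ * g) * k⁻¹) • T = T'
      rw [mul_smul, mul_smul, mul_smul, e1, ← e1', inv_smul_smul, smul_inv_smul]
    · show (k * (g'⁻¹ * g) * k⁻¹) • U = U'
      rw [mul_smul, mul_smul, mul_smul, e2, ← e2', inv_smul_smul, smul_inv_smul]
  obtain ⟨a, ha⟩ := (MulAut.conj k).surjective ⟨g, hg⟩
  obtain rfl : ((k * a * k⁻¹ : M24) : Equiv.Perm GolayPt) = g := congrArg Subtype.val ha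
  refine ⟨fun h => (conj_pw k _ a).2 ((mem_fixingSubgroup_iff _).1 (K0_eq.le (ker ((conj_mem_stab k a _).1 e)
    fun T hT h1 => (conj_mem_stab k a _).1 (h _ (smul_mem_trios k _ hT) (Finset.smul_mem_smul_finset h1))))), fun h T hT h1 => ?_⟩
  obtain ⟨T, rfl⟩ := MulAction.surjective k T
  exact (conj_mem_stab k a T).2 (back (K0_eq.ge ((mem_fixingSubgroup_iff _).2 ((conj_pw k _ a).1 h)))
    (by simpa using smul_mem_trios k⁻¹ _ hT) ((Finset.smul_mem_smul_finset_iff k).1 h1))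

end Cfsg.Agent.S5615
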