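import Cfsg.Statements.S5616
import Cfsg.Agent.H14.M24Use

set_option autoImplicit false
open scoped Pointwise
open Cfsg

namespace Cfsg.Agent.S5616

open H14 MulAction
open scoped Pointwise
set_option maxRecDepth 100000
noncomputable abbrev c (Y : Finset GolayPt) (S : Finset (Finset GolayPt)) : ℕ := (S.filter fun t => (t ∩ Y).Nonempty).card
noncomputable def cN (i : Nat) : Nat := ((cms 1771 OSx.As i).filter fun m => !Nat.beq (p24 (Nat.land m 0x800003)) 0).length
theorem c_smul (g : M24) (Y : Finset GolayPt) (S : Finset (Finset GolayPt)) : c (g • Y) (g • S) = c Y S := by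
  rw [c, c, ← Finset.card_smul_finset g (S.filter _)]
  congr 1
  ext t
  obtain ⟨t, rfl⟩ := MulAction.surjective g t
  simp only [Finset.mem_filter, Finset.smul_mem_smul_finset_iff, ← Finset.smul_finset_inter, Finset.smul_finset_nonempty]
theorem hc (i : ℕ) (hi : i < 1771) : c (fTr 0) (fSx i) = cN i := by
  rw [c, show fSx i = _ from cols_eq _ _ i]
  refine card_filter_bsets (of_decide_eq_true (allLt_spec (f := fun i => decide (cms 1771 OSx.As i).Nodup)
    (by decide +kernel) i hi)) (fun m hm => ?_) fun m => ?_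
  · obtain ⟨A, -, rfl⟩ := List.mem_map.1 hm
    exact cm_lt _ _ _
  · rw [fTr0, ← bset_and, ← Finset.card_pos, Nat.pos_iff_ne_zero, Ne, card_bset_eq_iff, Bool.not_eq_true', Bool.not_eq_true]
    rfl
theorem cnt (g : M24) (k : ℕ) : {S | S ∈ sextets ∧ c (g • fTr 0) S = k}.ncard = pop 1771 (selB (fun i => Nat.beq (cN i) k) 1771) :=
  (ncard_smul_eq oSx.inv g (Q := fun S => c (fTr 0) S = k) fun x _ => by rw [c_smul]).trans
    (oSx.ncard_sel fun i hi => by rw [hc i hi, beq_iff])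

/-- Let Y be a set of 3 of the 24 points. The sextets of the length-24 code whose tetrads meeting Y number 1, 2 or 3 are respectively 21, 630 and 1120 in number, and two sextets with the same number of tetrads meeting Y are conjugate under the setwise stabiliser of Y in the code's group. -/
theorem result (Y : Finset Cfsg.GolayPt) (hY : Y.card = 3) : {S : Finset (Finset Cfsg.GolayPt) | S ∈ Cfsg.sextets ∧ (S.filter fun t => (t ∩ Y).Nonempty).card = 1}.ncard = 21 ∧ {S : Finset (Finset Cfsg.GolayPt) | S ∈ Cfsg.sextets ∧ (S.filter fun t => (t ∩ Y).Nonempty).card = 2}.ncard = 630 ∧ {S : Finset (Finset Cfsg.GolayPt) | S ∈ Cfsg.sextets ∧ (S.filter fun t => (t ∩ Y).Nonempty).card = 3}.ncard = 1120 ∧ ∀ S S' : Finset (Finset Cfsg.GolayPt), S ∈ Cfsg.sextets → S' ∈ Cfsg.sextets → (S.filter fun t => (t ∩ Y).Nonempty).card = (S'.filter fun t => (t ∩ Y).Nonempty).card → ∃ g ∈ Cfsg.M24, g • Y = Y ∧ g • S = S' := by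
  obtain ⟨g, rfl⟩ := oTr.std hY
  refine ⟨(cnt g 1).trans (by decide +kernel), (cnt g 2).trans (by decide +kernel), (cnt g 3).trans (by decide +kernel),
    fun S S' hS hS' h => ?_⟩
  obtain ⟨k, e1, e2⟩ := conn_transport (Γ := M24) (R := fun Y S S' => S ∈ sextets ∧ S' ∈ sextets ∧ c Y S = c Y S')
    (fun a Y S S' h => ⟨by simpa using smul_mem_sextets a⁻¹ _ h.1, by simpa using smul_mem_sextets a⁻¹ _ h.2.1,
      by simpa only [c_smul] using h.2.2⟩)
    (fun S S' h => HTr_eq ▸ oSx.conn_of_val hc [(0, [dw (nat_lit 0x01), dw (nat_lit 0x03), dw (nat_lit 0x01), dw (nat_lit 0x0d), dw (nat_lit 0x07), dw (nat_lit 0x01)]), (1, [dw (nat_lit 0x01), dw (nat_lit 0x03), dw (nat_lit 0x05), dw (nat_lit 0x07), dw (nat_lit 0x09), dw (nat_lit 0x01), dw (nat_lit 0x03), dw (nat_lit 0x05)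
  , dw (nat_lit 0x0d), dw (nat_lit 0x07), dw (nat_lit 0x03), dw (nat_lit 0x05), dw (nat_lit 0x01)]), (4, [dw (nat_lit 0x01), dw (nat_lit 0x03), dw (nat_lit 0x05), dw (nat_lit 0x07), dw (nat_lit 0x09), dw (nat_lit 0x0b), dw (nat_lit 0x0d), dw (nat_lit 0x01)
  , dw (nat_lit 0x03), dw (nat_lit 0x05), dw (nat_lit 0x07), dw (nat_lit 0x0d), dw (nat_lit 0x03)])] (by decide +kernel) h.1 h.2.1 h.2.2) ⟨g, rfl⟩ ⟨hS, hS', h⟩
  exact ⟨k, k.2, e1, e2⟩

end Cfsg.Agent.S5616
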