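import Cfsg.Statements.S5618
import Cfsg.Agent.H14.M24Use
import Cfsg.Agent.S0386

set_option autoImplicit false
open scoped Pointwise
open Cfsg

namespace Cfsg.Agent.S5618

open H14 MulAction
open scoped Pointwise
set_option maxRecDepth 100000
theorem conn0 {x y : Finset GolayPt} (hx : x ∈ octads) (hy : y ∈ octads)
    (e : (x ∩ fDo 0).card = (y ∩ fDo 0).card) : ∃ g ∈ stabilizer M24 (fDo 0), g • x = y :=
  HDo_eq ▸ oOc.conn_of_val (c := fun x => (x ∩ fDo 0).card)
    (cN := fun i => p24 (Nat.land (cm 24 759 OOc.A i) 0x5335f))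
    (fun i _ => by rw [fDo0, fOc, col_eq, ← bset_and, card_bset]; rfl)
    [(1, [dw (nat_lit 0x01), dw (nat_lit 0x03), dw (nat_lit 0x05), dw (nat_lit 0x09), dw (nat_lit 0x01), dw (nat_lit 0x07), dw (nat_lit 0x05), dw (nat_lit 0x03)
, dw (nat_lit 0x07)]), (5, [dw (nat_lit 0x01), dw (nat_lit 0x03), dw (nat_lit 0x07), dw (nat_lit 0x0b), dw (nat_lit 0x03), dw (nat_lit 0x01), dw (nat_lit 0x05), dw (nat_lit 0x01)
, dw (nat_lit 0x03), dw (nat_lit 0x01)]), (0, [dw (nat_lit 0x01), dw (nat_lit 0x03), dw (nat_lit 0x05), dw (nat_lit 0x07), dw (nat_lit 0x01), dw (nat_lit 0x09), dw (nat_lit 0x0b), dw (nat_lit 0x03)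
, dw (nat_lit 0x01), dw (nat_lit 0x09), dw (nat_lit 0x07), dw (nat_lit 0x01)])] (by decide +kernel) hx hy e
theorem sharp {d s : Finset GolayPt} (hd : d ∈ dodecads) (h : s ⊆ d) (h5 : 5 ≤ s.card) {g : M24} (hg : g • d = d)
    (e : ∀ p ∈ s, g • p = p) : g = 1 := by
  obtain ⟨x, hx⟩ := exists_emb h5
  exact dodecad_sharp hd x x.injective (fun i => h (hx i)) hg fun i => e _ (hx i)

/-- For a dodecad d of the length-24 code and a hexad C on it (a 6-point intersection of d with an octad): the joint stabiliser of d and C in the code's group is isomorphic to the symmetric group of degree 6, and it acts faithfully both on the six points of C and on the six points of d outside C. -/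
theorem result (d : Finset Cfsg.GolayPt) (hd : d ∈ Cfsg.dodecads) (C : Finset Cfsg.GolayPt) (hC : C ∈ Cfsg.hexadsOn d) : Nonempty (↥(MulAction.stabilizer Cfsg.M24 d ⊓ MulAction.stabilizer Cfsg.M24 C) ≃* Equiv.Perm (Fin 6)) ∧ (∀ g ∈ MulAction.stabilizer Cfsg.M24 d ⊓ MulAction.stabilizer Cfsg.M24 C, (∀ p ∈ C, ((g : ↥Cfsg.M24) : Equiv.Perm Cfsg.GolayPt) p = p) → g = 1) ∧ ∀ g ∈ MulAction.stabilizer Cfsg.M24 d ⊓ MulAction.stabilizer Cfsg.M24 C, (∀ p ∈ d \ C, ((g : ↥Cfsg.M24) : Equiv.Perm Cfsg.GolayPt) p = p) → g = 1 := by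
  obtain ⟨h6, o, ho, rfl⟩ := hC
  have k1 := fun g (hg : g ∈ stabilizer M24 d ⊓ stabilizer M24 (o ∩ d)) => sharp (s := o ∩ d) hd Finset.inter_subset_right (by omega) hg.1
  refine ⟨equiv_perm_of inf_le_right k1 h6 ?_, k1, fun g hg => sharp hd Finset.sdiff_subset (by
    rw [Finset.card_sdiff_of_subset Finset.inter_subset_right, hd.2, h6]; norm_num) hg.1⟩
  have h1 := card_inf_stabilizer_mul (stabilizer M24 d) o
  rw [card_HDo hd, show {y | ∃ g ∈ stabilizer M24 d, g • o = y} = {y | y ∈ octads ∧ (y ∩ d).card = 6} from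
    Set.ext fun y => ⟨fun ⟨g, hg, e⟩ => ⟨e ▸ smul_mem_octads g ho, by
      rw [← e, ← mem_stabilizer_iff.1 hg, ← Finset.smul_finset_inter, Finset.card_smul_finset, h6]⟩, fun hy =>
      conn_transport (Γ := M24) (R := fun d x y => x ∈ octads ∧ y ∈ octads ∧ (x ∩ d).card = (y ∩ d).card)
        (fun a d x y h => by
          simp only [← Finset.smul_finset_inter, Finset.card_smul_finset] at h
          exact ⟨by simpa using smul_mem_octads a⁻¹ h.1, by simpa using smul_mem_octads a⁻¹ h.2.1, h.2.2⟩)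
        (fun x y h => conn0 h.1 h.2.1 h.2.2) (oDo.std hd) ⟨ho, hy.1, h6.trans hy.2.symm⟩⟩,
    (S0386.result d hd).1, show stabilizer M24 d ⊓ stabilizer M24 o = stabilizer M24 d ⊓ stabilizer M24 (o ∩ d) from
      Subgroup.ext fun g => and_congr_right fun hg => ⟨fun h => by
        show g • (o ∩ d) = _
        rw [Finset.smul_finset_inter, h, hg], fun h =>
          smul_octad_eq ho h Finset.inter_subset_left (by omega)⟩] at h1
  have : Nat.factorial 6 = 720 := rfl
  omega

end Cfsg.Agent.S5618
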