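import Cfsg.Statements.S5619
import Cfsg.Agent.H14.M24Use
import Cfsg.Agent.H10.DicksonCount

set_option autoImplicit false
open scoped Pointwise
open Cfsg

namespace Cfsg.Agent.S5619

open H14 MulAction
open scoped Pointwise
set_option maxRecDepth 100000
noncomputable def wN : List Word := [dw (nat_lit 0x0e120f), dw (nat_lit 0x120d0f)]
noncomputable def EN : List Word := [[], dw (nat_lit 0x0e120f), dw (nat_lit 0x110d0d11), dw (nat_lit 0x120d0f), dw (nat_lit 0x110d10), dw (nat_lit 0x0d110f), dw (nat_lit 0x100d12), dw (nat_lit 0x0d0d0f0f)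
, dw (nat_lit 0x0f0d0d0f)]
theorem covN : Cover P12.gen (sub P12.gen wN) [EN] :=
  P12.cover_of_closed (D := 5) (by norm_num) (by norm_num) EN (by decide +kernel)
theorem cardN : Nat.card (sub P12.gen wN) = 9 :=
  P12.card_of_cover covN (.cons (nat_lit 3) [dw (nat_lit 0x03), dw (nat_lit 0x01)] [dw (nat_lit 0x01), dw (nat_lit 0x03), dw (nat_lit 0x01), dw (nat_lit 0x03)]
.nil) (by decide +kernel)
noncomputable def wQ : List Word := [dw (nat_lit 0x12), dw (nat_lit 0x10)]
noncomputable def EQ : List Word := [[], dw (nat_lit 0x12), dw (nat_lit 0x11), dw (nat_lit 0x10), dw (nat_lit 0x0f), dw (nat_lit 0x0f0f), dw (nat_lit 0x120f), dw (nat_lit 0x110f)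
]
theorem covQ : Cover P12.gen (sub P12.gen wQ) [EQ] :=
  P12.cover_of_closed (D := 5) (by norm_num) (by norm_num) EQ (by decide +kernel)
theorem cardQ : Nat.card (sub P12.gen wQ) = 8 :=
  P12.card_of_cover covQ (.cons (nat_lit 4) [dw (nat_lit 0x02), dw (nat_lit 0x03)] [dw (nat_lit 0x01), dw (nat_lit 0x03), dw (nat_lit 0x0202)]
.nil) (by decide +kernel)
abbrev H0 := stabilizer M24 d0 ⊓ stabilizer M24 (gp 0) ⊓ stabilizer M24 (gp 1) ⊓ stabilizer M24 (gp 2)
theorem H0_eq : H0 = sub P12.gen M12c.ws3 := by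
  rw [← M12c.stab2 P12 P12_rels, ← M12c.stab1 P12 P12_rels, ← M12c.stab0 P12 P12_rels, P12_top]; rfl
theorem mt3 : P12.MT G12 0x5335f [2, 1, 0] :=
  have hT : ∀ g ∈ G12, ∀ x ∈ P12.S 0x5335f, g • x ∈ P12.S 0x5335f := fun _ hg x hx =>
    mem_S_iff.2 ((smul_mem_iff_G12 hg x).2 (mem_S_iff.1 hx))
  have l0 := P12_top.le
  have l1 := ((M12c.stab0 P12 P12_rels).ge.trans inf_le_left).trans l0
  have l2 := ((M12c.stab1 P12 P12_rels).ge.trans inf_le_left).trans l1
  P12.mt_step hT l2 (M12c.orb2 P12 P12_rels) (by decide +kernel) <|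
  P12.mt_step hT l1 (M12c.orb1 P12 P12_rels) (by decide +kernel) <|
  P12.mt_step hT l0 (M12c.orb0 P12 P12_rels) (by decide +kernel) (P12.mt_nil _ _)
theorem leN : sub P12.gen wN ≤ H0 := H0_eq ▸ sub_le_of_memRels (vs := [dw (nat_lit 0x020603), dw (nat_lit 0x060103)]) (P12.rels_of_idArr (D := 5) (by norm_num) (by decide +kernel))
theorem leQ : sub P12.gen wQ ≤ H0 := H0_eq ▸ sub_le_of_memRels (vs := [dw (nat_lit 0x06), dw (nat_lit 0x04)]) (P12.rels_of_idArr (D := 5) (by norm_num) (by decide +kernel))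
theorem nml : H0 ≤ Subgroup.normalizer (sub P12.gen wN : Set M24) :=
  H0_eq ▸ le_normalizer_of (vs := [dw (nat_lit 0x0402), dw (nat_lit 0x0302), dw (nat_lit 0x03), dw (nat_lit 0x02), dw (nat_lit 0x0302), dw (nat_lit 0x0301)]) (P12.rels_of_idArr (D := 5) (by norm_num) (by decide +kernel))
theorem q8 : Nonempty (sub P12.gen wQ ≃* QuaternionGroup 2) := by
  have o : orderOf (⟨_, ev_flat_mem P12.gen wQ [2]⟩ : sub P12.gen wQ) = 2 * 2 := (Subgroup.orderOf_mk _ _).trans
    (P12.orderOf_ev (D := 5) (ps := [2]) (by norm_num) (by norm_num) (by norm_num) (fun p hp h => by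
      rw [(Nat.prime_dvd_prime_iff_eq hp Nat.prime_two).1 (hp.dvd_of_dvd_pow (n := 2) h)]; simp) (by decide +kernel))
  have e1 : ev P12.gen (flat wQ [0]) * ev P12.gen (flat wQ [2]) * (ev P12.gen (flat wQ [0]))⁻¹ = (ev P12.gen (flat wQ [2]))⁻¹ := by
    rw [← ev_conjW, ← ev_invW]; exact P12.ev_eq (D := 5) (by norm_num) (by norm_num) (by decide +kernel)
  refine H10.equiv_quaternion_of_index_two (t := ⟨_, ev_flat_mem P12.gen wQ [0]⟩) o ?_ (fun h => ?_) (Subtype.ext ?_)
    (Subtype.ext e1)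
  · have := (Subgroup.zpowers (⟨_, ev_flat_mem P12.gen wQ [2]⟩ : sub P12.gen wQ)).index_mul_card
    rw [Nat.card_zpowers, o, cardQ] at this
    omega
  · obtain ⟨k, hk⟩ := h
    have hk : ev P12.gen (flat wQ [2]) ^ k = ev P12.gen (flat wQ [0]) := congrArg Subtype.val hk
    rw [← hk, ← zpow_add_one, ← zpow_sub, add_sub_cancel_left, zpow_one, ← ev_invW] at e1
    exact P12.ev_ne (D := 5) (by norm_num) (by decide +kernel) e1
  · show _ * _ = ev P12.gen _ ^ 2
    rw [← ev_powW, ← ev_append]; exact P12.ev_eq (D := 5) (by norm_num) (by norm_num) (by decide +kernel)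
theorem main {G : Type*} [Group G] [Finite G] (e : H0 ≃* G) : (∀ Q : Sylow 3 G, (Q : Subgroup G).Normal ∧ Nat.card Q = 9 ∧
    ∀ x ∈ (Q : Subgroup G), x ^ 3 = 1) ∧ ∀ P : Sylow 2 G, Nonempty (P ≃* QuaternionGroup 2) := by
  have := Fact.mk Nat.prime_three
  have hG : Nat.card G = 72 := by rw [← Nat.card_congr e.toEquiv, H0_eq, M12c.card3 P12 P12_rels]
  have hc : ∀ X ≤ H0, Nat.card ((X.subgroupOf H0).map (e : H0 →* G)) = Nat.card X := fun X h => by
    rw [Subgroup.card_map_of_injective e.injective, card_subgroupOf h]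
  refine ⟨fun Q => ?_, fun P => ?_⟩
  · obtain ⟨S, hS⟩ := exists_sylow_eq (p := 3) (k := 2) (m := 8) ((hc _ leN).trans cardN) hG (by norm_num)
    have hn : (S : Subgroup G).Normal := hS ▸ (normal_subgroupOf nml).map _ e.surjective
    have := Sylow.unique_of_normal S hn
    rw [Subsingleton.elim Q S]
    refine ⟨hn, by rw [hS]; exact (hc _ leN).trans cardN, hS ▸ ?_⟩
    rintro _ ⟨x, hx, rfl⟩
    rw [← map_pow, show x ^ 3 = 1 from Subtype.ext (P12.pow_eq_one (D := 5) (by norm_num) (by norm_num) covN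
      (by norm_num) (by decide +kernel) _ hx), map_one]
  · obtain ⟨S, hS⟩ := exists_sylow_eq (p := 2) (k := 3) (m := 9) ((hc _ leQ).trans cardQ) hG (by norm_num)
    exact q8.map ((P.equiv S).trans ((MulEquiv.subgroupCongr hS).trans ((e.subgroupMap _).symm.trans
      (Subgroup.subgroupOfEquivOfLe leQ)))).trans

/-- In the group of the length-24 code, the subgroup fixing a dodecad setwise and three of its points individually (a group of order 72) has a normal Sylow 3-subgroup that is elementary abelian of order 9, and its Sylow 2-subgroups are quaternion of order 8. -/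
theorem result (d : Finset Cfsg.GolayPt) (hd : d ∈ Cfsg.dodecads) (p q r : Cfsg.GolayPt) (hp : p ∈ d) (hq : q ∈ d) (hr : r ∈ d) (hpq : p ≠ q) (hpr : p ≠ r) (hqr : q ≠ r) : (∀ Q : Sylow 3 ↥(MulAction.stabilizer Cfsg.M24 d ⊓ MulAction.stabilizer Cfsg.M24 p ⊓ MulAction.stabilizer Cfsg.M24 q ⊓ MulAction.stabilizer Cfsg.M24 r), (Q : Subgroup ↥(MulAction.stabilizer Cfsg.M24 d ⊓ MulAction.stabilizer Cfsg.M24 p ⊓ MulAction.stabilizer Cfsg.M24 q ⊓ MulAction.stabilizer Cfsg.M24 r)).Normal ∧ Nat.card ↥Q = 9 ∧ ∀ x ∈ (Q : Subgroup ↥(MulAction.stabilizer Cfsg.M24 d ⊓ MulAction.stabilizer Cfsg.M24 p ⊓ MulAction.stabilizer Cfsg.M24 q ⊓ MulAction.stabilizer Cfsg.M24 r)), x ^ 3 = 1) ∧ ∀ P : Sylow 2 ↥(MulAction.stabilizer Cfsg.M24 d ⊓ MulAction.stabilizer Cfsg.M24 p ⊓ MulAction.stabilizer Cfsg.M24 q ⊓ MulAction.stabilizer Cfsg.M24 r), Nonempty (↥P ≃* QuaternionGroup 2) := by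
  obtain ⟨a, rfl⟩ := dodecad_std hd
  rw [← Finset.inv_smul_mem_iff] at hp hq hr
  obtain ⟨g, hg, e⟩ := mt3.exists_smul P12 rfl ![gp 0, gp 1, gp 2] ![a⁻¹ • p, a⁻¹ • q, a⁻¹ • r]
    (inj3 (by decide) (by decide) (by decide)) (inj3 (by simpa) (by simpa) (by simpa))
    (fun i => mem_S_iff.2 (by revert i; decide +kernel)) (fun i => mem_S_iff.2 (by fin_cases i <;> assumption))
  have e0 : (a * g) • gp 0 = p := by rw [mul_smul, show g • gp 0 = _ from e 0]; simp
  have e1 : (a * g) • gp 1 = q := by rw [mul_smul, show g • gp 1 = _ from e 1]; simp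
  have e2 : (a * g) • gp 2 = r := by rw [mul_smul, show g • gp 2 = _ from e 2]; simp
  have e3 : (a * g) • d0 = a • d0 := by rw [mul_smul, show g • d0 = d0 from hg]
  rw [← e0, ← e1, ← e2, ← e3]
  exact main (conjEquiv (a * g) (conj_mem_inf (conj_mem_inf (conj_mem_inf (fun x => conj_mem_stab _ x _)
    fun x => conj_mem_stab _ x _) fun x => conj_mem_stab _ x _) fun x => conj_mem_stab _ x _))

end Cfsg.Agent.S5619
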