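import Cfsg.Statements.S5620
import Cfsg.Agent.H14.M24Use

set_option autoImplicit false
open scoped Pointwise
open Cfsg

namespace Cfsg.Agent.S5620

open H14 MulAction
open scoped Pointwise
set_option maxRecDepth 100000
noncomputable def g0 : M24 := ev M0.gen (dw (nat_lit 0x01030c08090b140f161412))
theorem e1 : g0 • d0 = d0ᶜ := (ev_smul_bset _ _ _).trans ((congrArg bset (by decide +kernel)).trans (bset_compl _))
theorem e2 : g0 • (some 0 : GolayPt) = none := by
  have := ev_smul_bset M24c_ok (dw (nat_lit 0x01030c08090b140f161412)) (bit 0)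
  rw [show runW _ _ _ = bit 23 by decide +kernel, bset_bit (by norm_num), bset_bit (by norm_num),
    Finset.smul_finset_singleton, Finset.singleton_inj] at this
  exact this
theorem e3 : MulAut.conj (g0 : Equiv.Perm GolayPt) • Spor.M11 =
    Spor.M12 ⊓ stabilizer (Equiv.Perm GolayPt) (none : GolayPt) := by
  ext x
  obtain ⟨x, rfl⟩ := (MulAut.conj (g0 : Equiv.Perm GolayPt)).surjective x
  refine Subgroup.smul_mem_pointwise_smul_iff.trans ?_
  rw [Spor.M11, Spor.M12, squareDodecad_eq, MulAut.conj_apply]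
  refine and_congr (and_congr ?_ ?_) ?_
  · exact ((M24.mul_mem_cancel_right (M24.inv_mem g0.2)).trans (M24.mul_mem_cancel_left g0.2)).symm
  · refine (conj_mem_stab (g0 : Equiv.Perm GolayPt) x d0).symm.trans ?_
    rw [show (g0 : Equiv.Perm GolayPt) • d0 = d0ᶜ from e1, mem_stabilizer_iff, smul_compl_finset, compl_inj_iff]
    rfl
  · refine (conj_mem_stab (g0 : Equiv.Perm GolayPt) x (some 0 : GolayPt)).symm.trans ?_
    rw [show (g0 : Equiv.Perm GolayPt) • (some 0 : GolayPt) = none from e2]; rfl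
noncomputable def w : Word := dw (nat_lit 0x05010f080c0d)

/-- Inside the stabiliser of the dodecad of squares (a Mathieu group of degree 12), the stabiliser of the residue 0 (a point of the dodecad) and the stabiliser of the extra point (a point outside the dodecad) are isomorphic but not conjugate; conjugation by a suitable element of the code's group that maps the dodecad of squares onto its complement carries the first onto the second. -/
theorem result : Nonempty (↥(Cfsg.Spor.M12 ⊓ MulAction.stabilizer (Equiv.Perm Cfsg.GolayPt) (none : Cfsg.GolayPt)) ≃* ↥Cfsg.Spor.M11) ∧ (¬ ∃ k ∈ Cfsg.Spor.M12, MulAut.conj k • Cfsg.Spor.M11 = Cfsg.Spor.M12 ⊓ MulAction.stabilizer (Equiv.Perm Cfsg.GolayPt) (none : Cfsg.GolayPt)) ∧ ∃ g ∈ Cfsg.M24, g • Cfsg.Spor.squareDodecad = Finset.univ \ Cfsg.Spor.squareDodecad ∧ MulAut.conj g • Cfsg.Spor.M11 = Cfsg.Spor.M12 ⊓ MulAction.stabilizer (Equiv.Perm Cfsg.GolayPt) (none : Cfsg.GolayPt) := by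
  refine ⟨⟨(MulEquiv.subgroupCongr e3.symm).trans (Subgroup.equivSMul _ _).symm⟩, fun ⟨k, hk, e⟩ => ?_,
    g0, g0.2, by rw [squareDodecad_eq]; exact e1, e3⟩
  have h1 : ((ev M0.gen w : M24) : Equiv.Perm GolayPt) ∈ MulAut.conj k • Spor.M11 := by
    rw [e, Spor.M12, squareDodecad_eq]
    exact ⟨⟨(ev M0.gen w).2, smul_bset_of_invChk M24c_ok (ws := [w]) (by decide +kernel) (ev_mem_sub _ List.mem_cons_self)⟩,
      le_G23 (h := M24c_ok) (ws := [w]) (by decide +kernel) (ev_mem_sub _ List.mem_cons_self)⟩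
  obtain ⟨x, hx, e'⟩ := h1
  rw [Spor.M12, squareDodecad_eq] at hk
  have h2 : ev M0.gen w • k • (some 0 : GolayPt) = k • (some 0 : GolayPt) := by
    have := (conj_mem_stab k x (some 0 : GolayPt)).2 hx.2
    rw [show k * x * k⁻¹ = _ from e'] at this
    exact this
  have h3 := (M0.mem_S_land _ _ _).2 ⟨(M0.mem_S_fix (D := 5) (by norm_num) _ _).2 h2,
    mem_S_iff.2 ((smul_mem_iff_of_stab hk.2 (some 0)).2 (by decide +kernel))⟩
  rw [show Nat.land _ _ = 0 by decide +kernel, PM.mem_S, Nat.zero_testBit] at h3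
  exact Bool.false_ne_true h3

end Cfsg.Agent.S5620
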