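import Cfsg.Statements.S5624
import Cfsg.Agent.H14.Code24

set_option autoImplicit false
open Cfsg

namespace Cfsg.Agent.S5624

open H14

/-- Let C be a self-dual binary code of length 24 with minimum weight at least 8 (a 12-dimensional subspace of the 24-dimensional space over the field with two elements, any two of whose words have dot product zero, with no non-zero word of weight below 8 — an abstract extended binary Golay code). Then C is spanned, as a vector space over the field with two elements, by its words of weight 8. -/
theorem result (C : Submodule (ZMod 2) (Fin 24 → ZMod 2)) (hdim : Module.finrank (ZMod 2) C = 12) (horth : ∀ v ∈ C, ∀ w ∈ C, ∑ i, v i * w i = 0) (hmin : ∀ w ∈ C, w ≠ 0 → 8 ≤ hammingNorm w) : Submodule.span (ZMod 2) {w : Fin 24 → ZMod 2 | w ∈ C ∧ hammingNorm w = 8} = C := by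
  refine le_antisymm (Submodule.span_le.2 fun w hw => hw.1) fun w hw => ?_
  obtain ⟨e, h1, h2⟩ := code_equiv hdim horth hmin
  have e1 : (fun i => (w ∘ e.symm) (e i)) = w := by ext; simp
  obtain ⟨m, hm, e2⟩ := mem_golayCode.1 ((h1 _).2 (e1.symm ▸ hw))
  rw [← e1, ← e2]
  refine hm.induction (P := fun m => (fun i => bword m (e i)) ∈ Submodule.span (ZMod 2)
    {w : Fin 24 → ZMod 2 | w ∈ C ∧ hammingNorm w = 8})
    (by rw [bword_zero]; exact Submodule.zero_mem _)
    (fun a b ha hb => by rw [bword_xor]; exact Submodule.add_mem _ ha hb) fun b hb =>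
    Submodule.subset_span ⟨(h1 _).1 (bword_basis_mem b hb), ?_⟩
  rw [h2, hn_eq, support_bword]
  exact (oct_mem _ (List.all_eq_true.1 (show gB.all oct = true by decide +kernel) b hb)).2

end Cfsg.Agent.S5624
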