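import Cfsg.Statements.S5627
import Cfsg.Agent.H14.Plane

set_option autoImplicit false
open Cfsg

namespace Cfsg.Agent.S5627

open H14
set_option maxRecDepth 100000

/-- In a projective plane of order 4 (a Steiner system S(2, 5, 21)), call a set of points independent when no line meets it in more than two points. There are exactly 2520 independent 4-sets and exactly 168 independent 6-sets (hyperovals), and every independent 4-set lies in exactly one hyperoval. -/
theorem result {α : Type*} [Fintype α] [DecidableEq α] (hα : Fintype.card α = 21) (L : Set (Finset α)) (hL : Cfsg.IsSteinerSystem 2 5 L) : {S : Finset α | (S.card = 4 ∧ ∀ l ∈ L, (l ∩ S).card ≤ 2)}.ncard = 2520 ∧ {H : Finset α | (H.card = 6 ∧ ∀ l ∈ L, (l ∩ H).card ≤ 2)}.ncard = 168 ∧ ∀ S : Finset α, (S.card = 4 ∧ ∀ l ∈ L, (l ∩ S).card ≤ 2) → ∃! H : Finset α, (H.card = 6 ∧ ∀ l ∈ L, (l ∩ H).card ≤ 2) ∧ S ⊆ H := by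
  obtain ⟨f, hf⟩ := mod21 hα hL
  have uniq : ∀ o ∈ hypO, ∀ o' ∈ hypO, 4 ≤ ((o \ bset 0x800003) ∩ (o' \ bset 0x800003)).card → o = o' := by
    intro o ho o' ho' h
    refine octad_eq_of_card_inter ho.1 ho'.1 ?_
    have h1 := Finset.card_union_add_card_inter (o ∩ bset 0x800003) (o' ∩ bset 0x800003)
    have h2 : (o ∩ bset 0x800003 ∪ o' ∩ bset 0x800003).card ≤ 3 := card_Y3 ▸ Finset.card_le_card
      (Finset.union_subset Finset.inter_subset_right Finset.inter_subset_right)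
    have h3 := Finset.card_sdiff_add_card_inter (o ∩ o') (bset 0x800003)
    rw [ho.2, ho'.2, ← Finset.inter_inter_distrib_right] at h1
    rw [show (o \ bset 0x800003) ∩ (o' \ bset 0x800003) = (o ∩ o') \ bset 0x800003 by
      ext; simp only [Finset.mem_inter, Finset.mem_sdiff]; tauto] at h
    omega
  have h2 : {H : Finset α | (H.card = 6 ∧ ∀ l ∈ L, (l ∩ H).card ≤ 2)}.ncard = 168 := by
    rw [← Set.ncard_image_of_injective _ (Finset.map_injective f), ← ncard_hypO,
      ← Set.ncard_image_of_injOn (s := hypO) (f := (· \ bset 0x800003)) fun o ho o' ho' e =>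
        uniq o ho o' ho' (by rw [show o \ _ = o' \ _ from e, Finset.inter_self, card_sdiff_hypO ho']; norm_num)]
    congr 1
    ext s
    constructor
    · rintro ⟨H, hH, rfl⟩
      exact (hyperoval_iff hα hL hf).1 hH
    · rintro ⟨o, ho, rfl⟩
      obtain ⟨H, e⟩ := hf.exists_map (d := o \ bset 0x800003) (by
        rw [show bset 0x7ffffc = Finset.univ \ bset 0x800003 by decide +kernel]
        exact Finset.sdiff_subset_sdiff (Finset.subset_univ _) le_rfl)
      exact ⟨H, (hyperoval_iff hα hL hf).2 ⟨o, ho, e.symm⟩, e⟩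
  have h3 : ∀ S : Finset α, (S.card = 4 ∧ ∀ l ∈ L, (l ∩ S).card ≤ 2) →
      ∃! H : Finset α, (H.card = 6 ∧ ∀ l ∈ L, (l ∩ H).card ≤ 2) ∧ S ⊆ H := by
    intro S hS
    refine existsUnique_of_exists_of_unique ?_ ?_
    · have := allSub_zero (f := fun c => (List.any [0x2800c4, 0x180818, 0x540060, 0x420c80, 0x50288, 0x330100, 0x81b0, 0x108604, 0x484300, 0x244410, 0x2402c, 0x1c840, 0x2548, 0x202a20, 0x412014, 0xea000, 0x41904, 0x21250, 0x91420, 0x609008, 0x107080] fun l => Nat.ble 3 (p24 (Nat.land l c)) &&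
          (Nat.beq (Nat.land l 0x800003) 0 && oct (Nat.lor l 0x800003))) ||
          List.any [0x800c75, 0x400a4f, 0xc0063a, 0xa0031d, 0x600527, 0xe00952, 0x900bc1, 0xd0018e, 0xb004a9, 0x700293, 0xc0237, 0x8c0e42, 0xcc040d, 0xac012a, 0x1c0583, 0xa0963, 0x8a0516, 0x2a060b, 0xea0031, 0x9a02a2, 0x860721, 0x46011b, 0xa60849, 0xe60206, 0x960095, 0x10f13, 0x810366, 0xc10929, 0x21007b, 0xa10c0e, 0xe10641, 0x1108a7, 0x9104d2, 0x8d0151, 0x6d0803, 0x8b0a05, 0xcb004a, 0x70447, 0x870832, 0x888269, 0x488453, 0xc88826, 0xa88d01, 0x48c2b, 0x84805e, 0xc48a11, 0x248343, 0xb48882, 0x828b0a, 0xc28145, 0x228817, 0xa28462, 0x1280cb, 0x9810f, 0xa98212, 0xd98081, 0xc58502, 0xa58025, 0x838419, 0x438223, 0x46e3, 0x804a96, 0xc040d9, 0x20498b, 0x104157, 0x904d22, 0xb0424a, 0xf04805, 0x8c48a1, 0x9a4441, 0x8641c2, 0x164a03, 0x814585, 0xe140a2, 0x914231, 0x51440b, 0x9d4006, 0xb4093, 0x88c48a, 0x38c023, 0x44c087, 0x94c109, 0xa2c281, 0xd2c012, 0x882691, 0x4820ab, 0x982125,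 0xf82402, 0x428d3, 0x8424a6, 0xe42181, 0x942312, 0x34200f, 0x22387, 0xa2209a, 0x122433, 0x922846, 0xd22209, 0x892982, 0x192243, 0x952c01, 0x8320e1, 0x80a88d, 0xc0a2c2, 0x50a903, 0xb0a051, 0x21a483, 0x91a02a, 0x86c07, 0x886072, 0x846245, 0xc4680a, 0x826911, 0x626043, 0xa96009, 0x56123, 0x836602, 0xe21b, 0xc0e421, 0xa0e106, 0x149f, 0x8018ea, 0xc012a5, 0xa01782, 0x10132b, 0xd01511, 0x301c43, 0xb01036, 0xcc1092, 0xbc1201, 0x8a1189, 0x5a1007, 0x2610a3, 0x96140a, 0x4111c3, 0xa11891, 0x91104d, 0xd11a02, 0x89a83, 0x989142, 0x8494c1, 0x929821, 0x159013, 0x839086, 0x805e09, 0x405833, 0xc05446, 0xa05161, 0xc504b, 0xaa5802, 0x81511a, 0x215207, 0xc75001, 0x88d015, 0x84d222, 0x2d503, 0x88320e, 0xc83841, 0x283113, 0x843039, 0x443603, 0xc23122, 0xa23405, 0xa53042, 0x3380b, 0xb067, 0x80bc12, 0x81b301] fun o => subs c o && (oct o && Nat.beq (p24 (Nat.land o 0x800003)) 2))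
        (bs := [0x4, 0x8, 0x10, 0x20, 0x40, 0x80, 0x100, 0x200, 0x400, 0x800, 0x1000, 0x2000, 0x4000, 0x8000, 0x10000, 0x20000, 0x40000, 0x80000, 0x100000, 0x200000, 0x400000]) (j := 4) (m := 0x7ffffc) (by decide +kernel) (by decide +kernel) (hf.map_sub S)
        (by rw [Finset.card_map, hS.1])
      simp only [Bool.or_eq_true, List.any_eq_true, Bool.and_eq_true (Nat.ble _ _), Nat.ble_eq,
        Bool.and_eq_true (subs _ _), Bool.and_eq_true (oct _), beq_iff] at this
      rcases this with ⟨l, -, h4, h5⟩ | ⟨o, -, h4, h5, h6⟩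
      · obtain ⟨l', hl, e⟩ := hf.exists_block (der_of oct_mem _ _ h5)
        have := hS.2 l' hl
        rw [← card_bset, show ∀ a b, Nat.land a b = a &&& b from fun _ _ => rfl, bset_and, bset_mask, ← e,
          ← Finset.map_inter, Finset.card_map] at h4
        omega
      · have ho : bset o ∈ hypO := ⟨oct_mem _ h5, by rw [← bset_and, card_bset]; exact h6⟩
        obtain ⟨H, e⟩ := hf.exists_map (d := bset o \ bset 0x800003) (by
          rw [show bset 0x7ffffc = Finset.univ \ bset 0x800003 by decide +kernel]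
          exact Finset.sdiff_subset_sdiff (Finset.subset_univ _) le_rfl)
        refine ⟨H, (hyperoval_iff hα hL hf).2 ⟨_, ho, e.symm⟩, (Finset.map_subset_map (f := f)).1 ?_⟩
        rw [e]
        exact Finset.subset_sdiff.2 ⟨bset_mask (S.map f) ▸ bset_subset h4,
          (show Disjoint (bset 0x7ffffc) (bset 0x800003) by decide +kernel).mono_left (hf.map_sub S)⟩
    · rintro H H' ⟨hH, s1⟩ ⟨hH', s2⟩
      obtain ⟨o, ho, e⟩ := (hyperoval_iff hα hL hf).1 hH
      obtain ⟨o', ho', e'⟩ := (hyperoval_iff hα hL hf).1 hH'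
      have := uniq o ho o' ho' (by
        rw [e, e', ← Finset.map_inter, Finset.card_map, ← hS.1]
        exact Finset.card_le_card (Finset.subset_inter s1 s2))
      exact Finset.map_injective f (by rw [← e, this, e'])
  refine ⟨?_, h2, h3⟩
  have := Finset.card_mul_eq_card_mul (s := blk {S : Finset α | (S.card = 4 ∧ ∀ l ∈ L, (l ∩ S).card ≤ 2)})
    (t := blk {H : Finset α | (H.card = 6 ∧ ∀ l ∈ L, (l ∩ H).card ≤ 2)}) (fun S H => S ⊆ H)
    (m := 1) (n := 15) (fun S hS => by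
      obtain ⟨H, h4, h5⟩ := h3 S (mem_blk.1 hS)
      refine Finset.card_eq_one.2 ⟨H, Finset.ext fun H' => ?_⟩
      rw [Finset.mem_bipartiteAbove, mem_blk, Finset.mem_singleton]
      exact ⟨h5 H', by rintro rfl; exact h4⟩) fun H hH => by
      have hH := mem_blk.1 hH
      rw [show Finset.bipartiteBelow (fun S H => S ⊆ H) _ H = H.powersetCard 4 from Finset.ext fun S => ?_,
        Finset.card_powersetCard, hH.1]
      · rfl
      rw [Finset.mem_bipartiteBelow, mem_blk, Finset.mem_powersetCard]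
      exact ⟨fun h => ⟨h.2, h.1.1⟩, fun h => ⟨⟨h.2, fun l hl => (Finset.card_le_card
        (Finset.inter_subset_inter le_rfl h.1)).trans (hH.2 l hl)⟩, h.1⟩⟩
  rw [card_blk, card_blk, h2] at this
  omega

end Cfsg.Agent.S5627
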