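import Cfsg.Statements.S5628
import Cfsg.Agent.H14.Plane
import Cfsg.Agent.S5600

set_option autoImplicit false
open Cfsg

namespace Cfsg.Agent.S5628

open H14 MulAction
open scoped Pointwise
set_option maxRecDepth 100000

/-- In a projective plane of order 4 (a Steiner system S(2, 5, 21)), every permutation of the six points of a hyperoval (a 6-set met by no line in more than two points) is the restriction of exactly one automorphism of the plane. In particular the stabiliser of a hyperoval in the automorphism group is isomorphic to the symmetric group of degree 6 acting faithfully on the hyperoval. -/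
theorem result {α : Type*} [Fintype α] [DecidableEq α] (hα : Fintype.card α = 21) (L : Set (Finset α)) (hL : Cfsg.IsSteinerSystem 2 5 L) (H : Finset α) (hH : (H.card = 6 ∧ ∀ l ∈ L, (l ∩ H).card ≤ 2)) (σ : Equiv.Perm ↥H) : ∃! g : Equiv.Perm α, g ∈ Cfsg.setSystemAut L ∧ ∀ p : ↥H, g p = σ p := by
  obtain ⟨f, hf⟩ := mod21 hα hL
  refine existsUnique_of_exists_of_unique ?_ ?_
  · obtain ⟨o, ho, e⟩ := (hyperoval_iff hα hL hf).1 hH
    let ε : H ≃ H.map f := H.equivMap f
    have hε : ∀ p : H, (ε p : GolayPt) = f p := fun _ => rfl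
    obtain ⟨g, hg, h1⟩ := (S5600.result (H.map f) (by rw [Finset.card_map, hH.1])).1 (ε.permCongr σ)
    have h2 : ∀ p : H, (⟨g, hg⟩ : M24) • f p = f (σ p) := fun p => (h1 (ε p)).trans (by simp [hε])
    generalize (⟨g, hg⟩ : M24) = g at h2
    have h3 : g • H.map f = H.map f := Finset.eq_of_subset_of_card_le (fun x hx => by
      obtain ⟨_, hy, rfl⟩ := Finset.mem_smul_finset.1 hx
      obtain ⟨y, hy', rfl⟩ := Finset.mem_map.1 hy
      rw [h2 ⟨y, hy'⟩]
      exact Finset.mem_map_of_mem _ (σ _).2) (Finset.card_smul_finset _ _).ge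
    have h4 : g • o = o := smul_octad_eq ho.1 h3 (e ▸ Finset.sdiff_subset) (by rw [Finset.card_map, hH.1]; norm_num)
    obtain ⟨y, hy⟩ := Finset.card_eq_one.1 (show (bset 0x800003 \ o).card = 1 by
      have := Finset.card_sdiff_add_card_inter (bset 0x800003) o
      rw [Finset.inter_comm, ho.2, card_Y3] at this
      omega)
    have hy' : y ∉ o := (Finset.mem_sdiff.1 (hy.ge (Finset.mem_singleton_self y))).2
    obtain ⟨a, a1, a2⟩ := exists_pw_smul ho.1 (p := g • y) (q := y)
      (by rwa [← h4, Finset.smul_mem_smul_finset_iff]) hy'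
    have h5 : (a * g) • bset 0x800003 = bset 0x800003 := by
      rw [← Finset.sdiff_union_inter (bset _) o, hy, Finset.inter_comm, ← Finset.sdiff_sdiff_self_left, e,
        Finset.smul_finset_union, Finset.smul_finset_singleton, mul_smul, a2, mul_smul,
        Finset.smul_finset_sdiff, h4, h3, smul_eq_of_pw fun x hx => a1 x (Finset.mem_sdiff.1 hx).1]
    obtain ⟨φ, hφ⟩ := hf.exists_hom (stabilizer M24 (bset 0x800003)) fun g hg =>
      ⟨smul_bset_compl (by decide +kernel) hg, der_smul hg fun _ => smul_mem_octads g⟩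
    refine ⟨φ ⟨a * g, h5⟩, (φ _).2, fun p => f.injective ?_⟩
    rw [hφ, mul_smul, h2, a1]
    exact Finset.sdiff_subset (e ▸ Finset.mem_map_of_mem _ (σ _).2)
  · rintro g g' ⟨hg, h1⟩ ⟨hg', h2⟩
    have h3 : ∀ p ∈ H, (g'⁻¹ * g) • p = p := fun p hp =>
      Equiv.Perm.inv_eq_iff_eq.2 ((h1 ⟨p, hp⟩).trans (h2 ⟨p, hp⟩).symm)
    have h4 := mem_setSystemAut_iff.1 (mul_mem (inv_mem hg') hg)
    rw [eq_comm, ← inv_mul_eq_one]
    generalize g'⁻¹ * g = ρ at h3 h4
    have key : ∀ p ∉ H, ∀ q ∈ H, ∃ l ∈ L, p ∈ l ∧ q ∈ l ∧ ρ p ∈ l := by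
      intro p hp q hq
      obtain ⟨l, ⟨hl, h5⟩, -⟩ := hL.2 {p, q} (Finset.card_pair (by rintro rfl; exact hp hq))
      rw [Finset.insert_subset_iff, Finset.singleton_subset_iff] at h5
      have h6 := hyperoval_ne_one hα hL hH.1 hH.2 hl
      have h7 := Finset.card_pos.2 ⟨q, Finset.mem_inter.2 ⟨h5.2, hq⟩⟩
      have h8 : ρ • l = l := steiner_eq hL (h4 l hl) hl ((show 2 ≤ (l ∩ H).card by omega).trans
        (Finset.card_le_card fun x hx => by
          rw [Finset.mem_inter] at hx ⊢
          exact ⟨h3 x hx.2 ▸ Finset.smul_mem_smul_finset hx.1, hx.1⟩))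
      exact ⟨l, hl, h5.1, h5.2, h8 ▸ Finset.smul_mem_smul_finset h5.1⟩
    ext p
    by_cases hp : p ∈ H
    · exact h3 p hp
    by_contra ne
    obtain ⟨q, hq⟩ := Finset.card_pos.1 (show 0 < H.card by rw [hH.1]; norm_num)
    obtain ⟨l, hl, l1, -, l3⟩ := key p hp q hq
    have := hH.2 l hl
    rw [Finset.inter_eq_right.2 fun r hr => ?_, hH.1] at this
    · omega
    obtain ⟨l', hl', l1', l2', l3'⟩ := key p hp r hr
    rwa [steiner_eq hL hl hl' ((Finset.card_pair ne).ge.trans (Finset.card_le_card (Finset.insert_subset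
      (Finset.mem_inter.2 ⟨l3, l3'⟩) (Finset.singleton_subset_iff.2 (Finset.mem_inter.2 ⟨l1, l1'⟩)))))]

end Cfsg.Agent.S5628
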