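import Cfsg.Statements.S5631
import Cfsg.Agent.H29.Lin

set_option autoImplicit false
open Cfsg

namespace Cfsg.Agent.S5631

open H11 H11.PForm H29 Matrix

/-- For a finite field F and n ≥ 13, the stabiliser in SL_n(F) of any proper non-zero subspace W of F^n is a maximal subgroup of SL_n(F). Here SL_n(F) is the kernel of the determinant inside GL_n(F) and the stabiliser is the set of elements of determinant one mapping W onto itself. -/
theorem result {F : Type*} [Field F] [Fintype F] (n : ℕ) (hn : 13 ≤ n) (W : Submodule F (Fin n → F)) (hW0 : W ≠ ⊥) (hW1 : W ≠ ⊤) : Cfsg.Geo.IsMaximalIn (Cfsg.Geo.specialLinear (Fin n) F) (Cfsg.Geo.subspaceStabilizer W ⊓ Cfsg.Geo.specialLinear (Fin n) F) := by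
  have : Nontrivial (Fin n) := Fin.nontrivial_iff_two_le.2 (by omega)
  have hstab : ∀ g : GL (Fin n) F, (∀ x ∈ W, (g : Matrix (Fin n) (Fin n) F) *ᵥ x ∈ W) →
      g ∈ Cfsg.Geo.subspaceStabilizer W := by
    intro g hg v
    refine ⟨hg v, fun hv => ?_⟩
    have h1 : W.map (glEquiv g : (Fin n → F) →ₗ[F] (Fin n → F)) = W :=
      Submodule.eq_of_le_of_finrank_eq (by rintro _ ⟨x, hx, rfl⟩; exact hg x hx)
        (LinearEquiv.finrank_map_eq _ _)
    rw [← h1] at hv
    obtain ⟨x, hx, hx'⟩ := hv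
    rwa [← (glEquiv g).injective hx']
  have hfun : ∀ (U : Submodule F (Fin n → F)) (u : Fin n → F), u ∉ U →
      ∃ φ : Module.Dual F (Fin n → F), (∀ x ∈ U, φ x = 0) ∧ φ u = 1 := by
    intro U u hu
    obtain ⟨φ, hφ, hφw⟩ := LinearMap.exists_extend_of_notMem (0 : U →ₗ[F] F) hu 1
    exact ⟨φ, fun x hx => by simpa using LinearMap.congr_fun hφ ⟨x, hx⟩, hφw⟩
  apply isMaximalIn_SL
  · obtain ⟨w, hw, hw0⟩ := Submodule.exists_mem_ne_zero_of_ne_bot hW0
    obtain ⟨x, hx⟩ : ∃ x, x ∉ W := by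
      by_contra h
      push Not at h
      exact hW1 (eq_top_iff.2 fun x _ => h x)
    obtain ⟨φ, h1, h2⟩ := hfun (F ∙ x) w (fun hm => by
      obtain ⟨c, rfl⟩ := Submodule.mem_span_singleton.1 hm
      have hc : c ≠ 0 := by rintro rfl; simp at hw0
      exact hx ((W.smul_mem_iff hc).1 hw))
    obtain ⟨g, hg, h⟩ := exists_tv_SL φ x (h1 x (Submodule.mem_span_singleton_self x))
    refine ⟨g, hg, fun hm => hx ?_⟩
    have := (hm w).1 hw
    rw [SetLike.mem_coe, show glToMat (Fin n) F g = (g : Matrix _ _ F) from rfl, h, h2,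
      one_smul] at this
    exact (W.add_mem_iff_right hw).1 this
  · intro L hL _
    have hW : W ≤ lfullSub (L.map glEquiv.toMonoidHom) := by
      intro u hu φ hφ
      obtain ⟨g, hg, h⟩ := exists_tv_SL φ u hφ
      exact ⟨glEquiv g, ⟨g, hL ⟨hstab g fun x hx => by
        rw [h]; exact W.add_mem hx (W.smul_mem _ hu), hg⟩, rfl⟩, h⟩
    by_cases hT : lfullSub (L.map glEquiv.toMonoidHom) ≤ W
    · exact Or.inr fun g hg => hstab g fun x hx => hT (LFull.map (hW hx) ⟨g, hg, rfl⟩)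
    left
    obtain ⟨u, hu, huW⟩ := Set.not_subset.1 hT
    refine sl_le_of_lfull L fun x => ?_
    by_cases hm : u ∈ W ⊔ F ∙ x
    · obtain ⟨w, hw, y, hy, rfl⟩ := Submodule.mem_sup.1 hm
      obtain ⟨c, rfl⟩ := Submodule.mem_span_singleton.1 hy
      have hc : c ≠ 0 := by rintro rfl; exact huW (by simpa using hw)
      exact (Submodule.smul_mem_iff _ hc).1 ((Submodule.add_mem_iff_right _ (hW hw)).1 hu)
    · obtain ⟨φ, h1, h2⟩ := hfun _ u hm
      obtain ⟨g, hg, h⟩ := exists_tv_SL φ x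
        (h1 x (Submodule.mem_sup_right (Submodule.mem_span_singleton_self x)))
      have hgL : g ∈ L := hL ⟨hstab g fun y hy => by
        rw [h, h1 y (Submodule.mem_sup_left hy)]; simpa using hy, hg⟩
      have h3 : glEquiv g u ∈ lfullSub (L.map glEquiv.toMonoidHom) := LFull.map hu ⟨g, hgL, rfl⟩
      rw [H29.glEquiv_apply, h, h2, one_smul] at h3
      exact (Submodule.add_mem_iff_right _ hu).1 h3

end Cfsg.Agent.S5631
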