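import Cfsg.Statements.S5632
import Cfsg.Agent.H29.Lin
import Cfsg.Agent.H29.LinAux

set_option autoImplicit false
open Cfsg

namespace Cfsg.Agent.S5632

open H11 H11.PForm H29 Matrix

/-- For a finite field F and subspaces 0 < W < U of F^n with dim W + dim U = n, the elements of SL_n(F) stabilising both W and U form a subgroup that is not maximal in SL_n(F): some subgroup lies strictly between it and SL_n(F). -/
theorem result {F : Type*} [Field F] [Fintype F] (n : ℕ) (W U : Submodule F (Fin n → F)) (hW0 : W ≠ ⊥) (hWU : W < U) (hdim : Module.finrank F W + Module.finrank F U = n) : ∃ K : Subgroup (Matrix.GeneralLinearGroup (Fin n) F), Cfsg.Geo.subspaceStabilizer W ⊓ Cfsg.Geo.subspaceStabilizer U ⊓ Cfsg.Geo.specialLinear (Fin n) F < K ∧ K < Cfsg.Geo.specialLinear (Fin n) F := by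
  have hW1 : W ≠ ⊤ := fun h => by rw [h] at hWU; exact not_top_lt hWU
  have hU1 : U ≠ ⊤ := fun h => by
    rw [h, finrank_top, Module.finrank_fin_fun] at hdim
    exact hW0 (Submodule.finrank_eq_zero.1 (by omega))
  refine ⟨Cfsg.Geo.subspaceStabilizer W ⊓ Cfsg.Geo.specialLinear (Fin n) F,
    lt_of_le_of_ne (inf_le_inf_right _ inf_le_left) fun he => ?_,
    lt_of_le_of_ne inf_le_right fun he => ?_⟩
  · obtain ⟨u, hu, huW⟩ := Set.exists_of_ssubset hWU
    obtain ⟨x, hx⟩ := exists_notMem_of_ne_top hU1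
    obtain ⟨g, hg, h1, h2⟩ := exists_SL_fix_move W (u := u) (x := x) (fun hm => by
      obtain ⟨w, hw, y, hy, rfl⟩ := Submodule.mem_sup.1 hm
      obtain ⟨c, rfl⟩ := Submodule.mem_span_singleton.1 hy
      have hc : c ≠ 0 := by rintro rfl; exact huW (by simpa using hw)
      exact hx ((Submodule.smul_mem_iff _ hc).1 ((Submodule.add_mem_iff_right _ (hWU.le hw)).1 hu)))
    have : g ∈ Cfsg.Geo.subspaceStabilizer W ⊓ Cfsg.Geo.specialLinear (Fin n) F :=
      ⟨mem_subspaceStabilizer_of_le fun y hy => by rw [h1 y hy]; exact hy, hg⟩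
    rw [← he] at this
    have h3 := mulVec_mem_of_stab this.1.2 hu
    rw [h2] at h3
    exact hx ((Submodule.add_mem_iff_right _ hu).1 h3)
  · obtain ⟨g, hg, h⟩ := exists_SL_not_stab hW0 hW1
    rw [← he] at hg
    exact h hg.1

end Cfsg.Agent.S5632
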