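import Cfsg.Statements.S5633
import Cfsg.Agent.H29.Lin
import Cfsg.Agent.H29.LinAux

set_option autoImplicit false
open Cfsg

namespace Cfsg.Agent.S5633

open H11 H11.PForm H29 Matrix

/-- For a finite field F and complementary non-zero subspaces W ⊕ U = F^n with dim W < dim U, the elements of SL_n(F) stabilising both W and U form a subgroup that is not maximal in SL_n(F): some subgroup lies strictly between it and SL_n(F). -/
theorem result {F : Type*} [Field F] [Fintype F] (n : ℕ) (W U : Submodule F (Fin n → F)) (hW0 : W ≠ ⊥) (hWU : W ⊓ U = ⊥) (hWU' : W ⊔ U = ⊤) (hdim : Module.finrank F W < Module.finrank F U) : ∃ K : Subgroup (Matrix.GeneralLinearGroup (Fin n) F), Cfsg.Geo.subspaceStabilizer W ⊓ Cfsg.Geo.subspaceStabilizer U ⊓ Cfsg.Geo.specialLinear (Fin n) F < K ∧ K < Cfsg.Geo.specialLinear (Fin n) F := by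
  have hU0 : U ≠ ⊥ := by rintro rfl; simp at hdim
  have hW1 : W ≠ ⊤ := fun h => by rw [h, top_inf_eq] at hWU; exact hU0 hWU
  refine ⟨Cfsg.Geo.subspaceStabilizer W ⊓ Cfsg.Geo.specialLinear (Fin n) F,
    lt_of_le_of_ne (inf_le_inf_right _ inf_le_left) fun he => ?_,
    lt_of_le_of_ne inf_le_right fun he => ?_⟩
  · obtain ⟨u, hu, hu0⟩ := Submodule.exists_mem_ne_zero_of_ne_bot hU0
    obtain ⟨x, hx, hx0⟩ := Submodule.exists_mem_ne_zero_of_ne_bot hW0
    have hd : ∀ y ∈ W, y ∈ U → y = 0 := fun y h1 h2 => by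
      have : y ∈ W ⊓ U := ⟨h1, h2⟩
      rwa [hWU] at this
    obtain ⟨g, hg, h1, h2⟩ := exists_SL_fix_move W (u := u) (x := x) (fun hm => by
      rw [sup_eq_left.2 ((Submodule.span_singleton_le_iff_mem x W).2 hx)] at hm
      exact hu0 (hd u hm hu))
    have : g ∈ Cfsg.Geo.subspaceStabilizer W ⊓ Cfsg.Geo.specialLinear (Fin n) F :=
      ⟨mem_subspaceStabilizer_of_le fun y hy => by rw [h1 y hy]; exact hy, hg⟩
    rw [← he] at this
    have h3 := mulVec_mem_of_stab this.1.2 hu
    rw [h2] at h3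
    exact hx0 (hd x hx ((Submodule.add_mem_iff_right _ hu).1 h3))
  · obtain ⟨g, hg, h⟩ := exists_SL_not_stab hW0 hW1
    rw [← he] at hg
    exact h hg.1

end Cfsg.Agent.S5633
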