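import Cfsg.Statements.S5635
import Cfsg.Agent.H29.NM2

set_option autoImplicit false
open Cfsg

namespace Cfsg.Agent.S5635

open H29 Matrix Cfsg.Geo Module

theorem not_dec2 {F : Type*} [Field F] [Fintype F] {n t m d : ℕ} {Ω : Subgroup (GL (Fin n) F)}
    {Sg : (Fin n → F) → Prop} (h : Big Ω Sg d) {D : Fin t → Submodule F (Fin n → F)}
    (hD : IsMDecomposition m D) (σ : F →+* F) (G : Matrix (Fin n) (Fin n) F) (j : ℕ) (hj : j ≤ t)
    (h1 : d ≤ j * m) (h2 : d + 1 ≤ (t - j) * m)
    (ha : ∀ x y, Sg x → Sg y → fm σ G y x = 0 → Sg (x + y)) : ¬ Ω ≤ decompositionStabilizer D := by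
  obtain ⟨I, -, hI⟩ := Finset.exists_subset_card_eq (s := (Finset.univ : Finset (Fin t))) (n := j)
    (by simpa)
  obtain ⟨x, hx, hx0, hx1⟩ := h.iso _ ((finrank_biSup hD.indep hD.finrank_eq I).symm ▸ hI ▸ h1)
  let φ : Dual F (Fin n → F) :=
    { toFun := fun y => fm σ G y x
      map_add' := fun a b => fm_add_left _ _ _
      map_smul' := fun c a => fm_smul_left _ _ _ }
  obtain ⟨y, hy, hy0, hy1⟩ := h.iso ((⨆ i ∈ Iᶜ, D i) ⊓ LinearMap.ker φ) (by
    have := finrank_le_inf_ker (⨆ i ∈ Iᶜ, D i) φ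
    rw [finrank_biSup hD.indep hD.finrank_eq, Finset.card_compl, hI, Fintype.card_fin] at this
    omega)
  exact h.not_dec hD (· ∈ I) hx (by simpa using hy.1) hx0 hy0 hx1 (ha x y hx1 hy1 hy.2)

/-- For a finite field F with q elements and n ≥ 13, let D be a decomposition of F^n into t ≥ 2 independent subspaces of equal dimension m spanning F^n, where m = 1 and q ≤ 4, or m = 2 and q = 2. Then the elements of SL_n(F) permuting the members of D form a subgroup that is not maximal: some subgroup lies strictly between it and SL_n(F). -/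
theorem result {F : Type*} [Field F] [Fintype F] (n : ℕ) (hn : 13 ≤ n) {t : ℕ} (m : ℕ) (D : Fin t → Submodule F (Fin n → F)) (hD : Cfsg.Geo.IsMDecomposition m D) (h : (m = 1 ∧ Fintype.card F ≤ 4) ∨ (m = 2 ∧ Fintype.card F = 2)) : ∃ K : Subgroup (Matrix.GeneralLinearGroup (Fin n) F), Cfsg.Geo.decompositionStabilizer D ⊓ Cfsg.Geo.specialLinear (Fin n) F < K ∧ K < Cfsg.Geo.specialLinear (Fin n) F := by
  have hn' : 3 ≤ Fintype.card (Fin n) := by simp; omega
  have h1 := mdec_card hD
  simp only [Fintype.card_fin] at h1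
  have hq := Fintype.one_lt_card (α := F)
  rcases h with ⟨rfl, h⟩ | ⟨rfl, h⟩
  swap
  · obtain ⟨T, hT⟩ := exists_decT' hD
    have h4 := HF.blockDiagonal (G := fun _ : Fin t => J2 F) (fun _ => rfl) fun _ => hf_J2
    have h5 := h4.gT T.symm
    refine between (X := Iso _ _) (fun g hg => ?_)
      (fun e => not_SL_le_sim hn' h5 (e.trans Iso_le_Sim)) fun e => (big_sp (h5.symp fun v => by
        rw [fm_gT]
        exact alt_of_skew h4 (fun ⟨i, j⟩ => by fin_cases i <;> simp [J2]) _) (by simp; omega)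
        (by simp; omega)).not_dec' hD 1 (by omega) (by omega) (by omega)
        (fun _ _ _ _ _ _ _ => trivial) fun g hg =>
          e ⟨hg, mem_specialLinear.2 (eq_one_of_card_two h (det_ne_zero g))⟩
    obtain ⟨τ, a, e⟩ := hT g hg.1
    exact mem_Iso_of_Φ e (by
      simp only [bm_gram, gram_J2, eq_one_of_card_two h (det_ne_zero _), one_smul])
  obtain h | h | h : Fintype.card F = 2 ∨ Fintype.card F = 3 ∨ Fintype.card F = 4 := by omega
  · obtain ⟨π, hπ⟩ := exists_pr hD.indep hD.iSup_eq_top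
    choose v hv h0 using fun i => Submodule.exists_mem_ne_zero_of_ne_bot (mdec_ne_bot hD i)
    have h2 : ∀ i, ∀ x ∈ D i, x ≠ 0 → x = v i := fun i x hx hx0 => by
      obtain ⟨c, hc⟩ := (finrank_eq_one_iff_of_nonzero' (⟨v i, hv i⟩ : D i)
        (by simpa using h0 i)).1 (hD.finrank_eq i) ⟨x, hx⟩
      obtain rfl : c • v i = x := congrArg Subtype.val hc
      rw [eq_one_of_card_two h (left_ne_zero_of_smul hx0), one_smul]
    have h3 : ∀ i j, π i (v j) = if i = j then v i else 0 := fun i j => by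
      split_ifs with e
      · exact e ▸ hπ.self i _ (hv i)
      · exact hπ.ne i j e _ (hv j)
    have h4 : ∀ i, π i (∑ j, v j) = v i := fun i => by simp [h3]
    obtain ⟨i, j, l, hij, hil, hjl⟩ := exists_three (t := t) (by omega)
    have h5 : ∑ j, v j ≠ 0 := fun e => h0 i (by rw [← h4, e, map_zero])
    refine between (stab_point (v := ∑ j, v j) fun g hg => ?_) ((big_SL hn').not_stab (by simpa)
      (ne_top_of_lt (by rw [finrank_span_singleton h5]; omega))) fun e => ?_
    · obtain ⟨τ, hτ⟩ := of_mem_decStab hg.1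
      rw [mulVec_sum, Finset.sum_congr rfl fun i _ => h2 _ _ (hτ i _ (hv i))
        (mulVec_ne_zero g (h0 i)), Equiv.sum_comp τ v]
      exact Submodule.mem_span_singleton_self _
    obtain ⟨g, g1, g2, g3⟩ := exists_SL_fix_move (F ∙ ∑ j, v j) (u := v i) (x := v j) fun e => by
      obtain ⟨_, a, _, b, e⟩ := Submodule.mem_sup.1 e
      obtain ⟨a, rfl⟩ := Submodule.mem_span_singleton.1 a
      obtain ⟨b, rfl⟩ := Submodule.mem_span_singleton.1 b
      have e1 := congrArg (π l) e
      have e2 := congrArg (π i) e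
      simp only [map_add, map_smul, h4, h3, hil.symm, hjl.symm, hij, if_false, smul_zero, add_zero,
        smul_eq_zero, h0, or_false, if_true] at e1 e2
      exact h0 i (by simpa [e1] using e2.symm)
    obtain ⟨τ, hτ⟩ := of_mem_decStab (e ⟨mem_subspaceStabilizer_of_le fun x hx => by
      rwa [g2 x hx], g1⟩)
    have h6 := hτ i _ (hv i)
    rw [g3] at h6
    obtain ⟨a, a1, a2⟩ : ∃ a, τ i ≠ a ∧ π a (v i + v j) = v a := by
      by_cases e : τ i = i
      · exact ⟨j, e.symm ▸ hij, by simp [h3, hij.symm]⟩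
      · exact ⟨i, e, by simp [h3, hij]⟩
    exact h0 a (a2 ▸ hπ.ne a _ a1.symm _ h6)
  · obtain ⟨G, h3, h4⟩ := dec_le_Iso hD (hf_one fun _ => rfl) (mem_Iso_fin_one
      (σ := RingHom.id F) fun c hc => by simpa [sq] using pow_card_sub h hc)
    have h2 : (2 : F) ≠ 0 := two_ne_zero_of_odd (by rw [h]; decide)
    have hQ := h3.quad h2
    refine between (inf_le_left.trans h4) (fun e => not_SL_le_sim hn' h3 (e.trans Iso_le_Sim))
      fun e => not_dec2 (big_omega hQ (by simp; omega)) hD (RingHom.id F) G 3 (by omega) (by omega)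
        (by omega) (fun x y a b c => by simp [fm_add_left, fm_add_right, a, b, c, h3.symm x y])
        fun g hg => e ⟨fun x y => ?_, omegaGL_le_SL hg⟩
    have := iso_of_quad (G := G + Gᵀ) (funext₂ polar_fm) (fun v => omegaGL_le hg v v) x y
    rw [h3.transpose_eq, ← two_smul F, fm_smul, fm_smul] at this
    exact mul_left_cancel₀ h2 this
  · obtain ⟨σ, h4, h5, h6⟩ := exists_frob_four h
    obtain ⟨G, h7, h8⟩ := dec_le_Iso hD (hf_one h5) (mem_Iso_fin_one fun c hc => by
      rw [h4, ← pow_succ', pow_card_sub h hc])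
    exact between (inf_le_left.trans h8) (fun e => not_SL_le_sim hn' h7 (e.trans Iso_le_Sim))
      (not_dec2 (big_su h7 h6 hn' (by simp; omega)) hD σ G 2 (by omega) (by omega) (by omega)
        fun x y a b c => by simp [fm_add_left, fm_add_right, a, b, c, h7.eq_zero_comm c])

end Cfsg.Agent.S5635
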