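import Cfsg.Statements.S5638
import Cfsg.Agent.H29.NM2

set_option autoImplicit false
open Cfsg

namespace Cfsg.Agent.S5638

open H29 Matrix Kronecker

/-- Over the field with 2 elements, for n = 2 n₂ ≥ 13, the stabiliser in SL_n of a tensor decomposition with factors of dimensions 2 and n₂ (the conjugate by any P of the Kronecker-product subgroup transported along any bijection Fin n ≃ Fin 2 × Fin n₂, intersected with SL_n) is not a maximal subgroup: some subgroup lies strictly between it and SL_n. -/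
theorem result {F : Type*} [Field F] [Fintype F] (n : ℕ) (hn : 13 ≤ n) (hq : Fintype.card F = 2) (n₂ : ℕ) (e : Fin n ≃ Fin 2 × Fin n₂) (P : Matrix.GeneralLinearGroup (Fin n) F) : ∃ K : Subgroup (Matrix.GeneralLinearGroup (Fin n) F), Cfsg.Geo.tensorProductSubgroup 2 n₂ e P ⊓ Cfsg.Geo.specialLinear (Fin n) F < K ∧ K < Cfsg.Geo.specialLinear (Fin n) F := by
  have h2 := two_eq_of_card (k := 1) hq
  have h7 : 7 ≤ n₂ := by have := Fintype.card_congr e; simp at this; omega
  obtain ⟨i, j, hij⟩ : ∃ i j : Fin n₂, i ≠ j := ⟨⟨0, by omega⟩, ⟨1, by omega⟩, by simp⟩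
  haveI : Nonempty (Fin n₂) := ⟨i⟩
  set T := coordT e P
  let N := Φ T ((om2 h2).1 ⊗ₖ single i j (1 : F))
  have hN : N * N = 0 := by
    rw [← map_mul, ← mul_kronecker_mul, single_mul_single_of_ne _ _ _ _ hij.symm, kronecker_zero,
      map_zero]
  let g : GL (Fin n) F := ⟨1 + N, 1 - N, by simp [add_mul, mul_sub, hN],
    by simp [sub_mul, mul_add, hN]⟩
  have hg : ∀ w u, g.1 *ᵥ pt T w u = pt T w u + pt T ((om2 h2).1 *ᵥ w) (Pi.single i (u j)) :=
    fun w u => by
      change (1 + N) *ᵥ _ = _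
      rw [add_mulVec, one_mulVec, pt, Φ_mulVec, kron_mulVec, single_mulVec]
      simp [pt, Pi.single]
  refine (big_SL (by simp; omega)).between_pow (om2_not_sc h2) (om2_kr hq h2 (kr_self e P))
    (g := g) (mem_specialLinear.2 (eq_one_of_card_two hq (det_ne_zero g))) ?_ fun h => ?_
  · change (1 + N) * Φ T (_ ⊗ₖ 1) = Φ T (_ ⊗ₖ 1) * (1 + N)
    rw [add_mul, mul_add, ← map_mul, ← map_mul, ← mul_kronecker_mul, ← mul_kronecker_mul]
    simp
  · obtain ⟨a, b, e'⟩ := kr_self e P g h
    obtain ⟨y, hy⟩ := kron_pure (u := Pi.single i 1) (by simp) (fun w => by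
      rw [hg, Pi.single_eq_of_ne hij.symm, Pi.single_zero, ← zero_smul F (0 : Fin n₂ → F),
        pt_smul_right, zero_smul, add_zero]) e' (Pi.single 0 1) (Pi.single j 1)
    rw [hg, pt, pt, pt, ← map_add] at hy
    simpa [om2] using congrFun (T.injective hy) (1, i)

end Cfsg.Agent.S5638
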