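import Cfsg.Statements.S5639
import Cfsg.Agent.H29.RatL

set_option autoImplicit false
open Cfsg

namespace Cfsg.Agent.S5639

open H11 H11.PForm H29 Matrix

/-- For a finite field F, a subfield F₀ with |F| = |F₀| ^ r for a prime r, and n ≥ 13, the subfield group (the conjugate by any P of the product of GL_n(F₀) with the non-zero scalars of F, intersected with SL_n(F)) is a maximal subgroup of SL_n(F). -/
theorem result {F : Type*} [Field F] [Fintype F] (n : ℕ) (hn : 13 ≤ n) (F₀ : Subfield F) (r : ℕ) (hr : r.Prime) (hcard : Fintype.card F = Nat.card F₀ ^ r) (P : Matrix.GeneralLinearGroup (Fin n) F) : Cfsg.Geo.IsMaximalIn (Cfsg.Geo.specialLinear (Fin n) F) (Cfsg.Geo.subfieldSubgroup F₀ P ⊓ Cfsg.Geo.specialLinear (Fin n) F) := by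
  have hr' := finrank_of_card (F₀ := F₀) (by rwa [Nat.card_eq_fintype_card])
  have : Nontrivial (Fin n) := Fin.nontrivial_iff_two_le.2 (by omega)
  refine isMaximalIn_SL _ ?_ fun L h1 _ => ?_
  · obtain ⟨l, hl⟩ := exists_notMem_subfield (hr' ▸ hr)
    obtain ⟨i, j, hij⟩ := exists_pair_ne (Fin n)
    obtain ⟨g, hg, h⟩ := exists_tv_SL (l • (basisOf P).coord j) (basisOf P i)
      (by simp [Finsupp.single_apply, hij])
    refine ⟨g, hg, fun h' => hl ?_⟩
    obtain ⟨c, hc, h2⟩ := mem_subfieldSubgroup_iff.1 h'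
    have h3 := mem_V0.1 (h2 _ (basis_mem_V0 j))
    have h4 := h3 j
    have h5 := h3 i
    simp [h, Finsupp.single_apply, hij, hij.symm] at h4 h5
    convert F₀.div_mem h5 (F₀.inv_mem h4) using 1
    field_simp
  · have hH : HRL F₀ (basisOf P) (L.map glEquiv.toMonoidHom) 1 := by
      intro e he χ hχ h0
      obtain ⟨g, hg, h⟩ := exists_tv_SL χ e h0
      refine ⟨glEquiv g, ⟨g, h1 ⟨mem_subfieldSubgroup_iff.2 ⟨1, one_ne_zero, fun x hx => ?_⟩, hg⟩,
        rfl⟩, fun x => by simpa using h x⟩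
      rw [h, inv_one, one_smul]
      exact Submodule.add_mem _ hx (V0_smul (hχ x hx) he)
    exact (hH.final (by simp; omega) (hr' ▸ hr)).imp (sl_le_of_lfull L) fun h g hg =>
      mem_subfieldSubgroup_iff.2 (h _ ⟨g, hg, rfl⟩)

end Cfsg.Agent.S5639
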