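import Cfsg.Statements.S5642
import Cfsg.Agent.H29.Lin

set_option autoImplicit false
open Cfsg

namespace Cfsg.Agent.S5642

open H11 H11.PForm H29 Matrix

/-- For a finite field F and n ≥ 13, let f be a non-degenerate symplectic form on F^n (so n is even). Then the elements of SL_n(F) that are similarities of f (f(gu, gv) = c f(u, v) for a non-zero scalar c depending on g) form a maximal subgroup of SL_n(F). -/
theorem result {F : Type*} [Field F] [Fintype F] (n : ℕ) (hn : 13 ≤ n) (f : (Fin n → F) → (Fin n → F) → F) (hf : Cfsg.Geo.IsSymplecticForm f) : Cfsg.Geo.IsMaximalIn (Cfsg.Geo.specialLinear (Fin n) F) (Cfsg.Geo.similarityGroup f ⊓ Cfsg.Geo.specialLinear (Fin n) F) := by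
  have hA : (bilinOf hf.bilinear).IsAlt := fun x => hf.alternating x
  have hS : (sympS _ hA).Nondeg := fun x hx => by
    by_contra h0
    obtain ⟨y, hy⟩ := (hf.nondegenerate x h0).2
    exact hy (hx y)
  refine isMaximalIn_sim hS (iso3_symp _) (by simp; omega) _ (fun u v a => ⟨1, fun x y => ?_⟩)
    (fun g => ⟨?_, ?_⟩)
  · simpa using isom_h ((sympS _ hA).eich u v a) x y
  · rintro ⟨c, hc⟩
    exact ⟨c, c.ne_zero, hc⟩
  · rintro ⟨c, hc0, hc⟩
    exact ⟨Units.mk0 c hc0, hc⟩

end Cfsg.Agent.S5642
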