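import Cfsg.Statements.S5643
import Cfsg.Agent.H29.Lin

set_option autoImplicit false
open Cfsg

namespace Cfsg.Agent.S5643

open H11 H11.PForm H29 Matrix

/-- For a finite field F and n ≥ 13, let σ be a field automorphism of F of order two and f a non-degenerate unitary form on F^n with respect to σ. Then the elements of SL_n(F) that are similarities of f form a maximal subgroup of SL_n(F). -/
theorem result {F : Type*} [Field F] [Fintype F] (n : ℕ) (hn : 13 ≤ n) (σ : F ≃+* F) (f : (Fin n → F) → (Fin n → F) → F) (hf : Cfsg.Geo.IsUnitaryForm σ f) : Cfsg.Geo.IsMaximalIn (Cfsg.Geo.specialLinear (Fin n) F) (Cfsg.Geo.similarityGroup f ⊓ Cfsg.Geo.specialLinear (Fin n) F) := by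
  have hσ : ∀ a, (σ : F →+* F) ((σ : F →+* F) a) = a := hf.involutive
  have hne : (σ : F →+* F) ≠ RingHom.id F := fun h => hf.ne_refl (RingEquiv.ext fun a => by
    simpa using DFunLike.congr_fun h a)
  let B : (Fin n → F) →ₛₗ[(σ : F →+* F)] (Fin n → F) →ₗ[F] F :=
    LinearMap.mk₂'ₛₗ (σ : F →+* F) (RingHom.id F) (fun x y => f y x)
      (fun x y v => by rw [hf.herm v, hf.add_left, map_add, ← hf.herm, ← hf.herm])
      (fun c x v => by rw [hf.herm v, hf.smul_left, map_mul, ← hf.herm]; rfl)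
      (fun v x y => hf.add_left x y v) (fun c v x => hf.smul_left c x v)
  have hB : ∀ x y, B x y = f y x := fun _ _ => rfl
  have hsym : B.IsSymm := ⟨fun x y => by rw [hB, hB]; exact (hf.herm x y).symm⟩
  have hS : (unitS hσ hne B hsym).Nondeg := fun x hx => by
    by_contra h0
    obtain ⟨y, hy⟩ := (hf.nondegenerate x h0).1
    exact hy (hx y)
  refine isMaximalIn_sim hS (iso3_unit hne _) (by simp; omega) _ (fun u v a => ⟨1, fun x y => ?_⟩)
    (fun g => ⟨?_, ?_⟩)
  · simpa [hB] using isom_h ((unitS hσ hne B hsym).eich u v a) y x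
  · rintro ⟨c, hc⟩
    exact ⟨c, c.ne_zero, fun x y => hc y x⟩
  · rintro ⟨c, hc0, hc⟩
    exact ⟨Units.mk0 c hc0, fun x y => hc y x⟩

end Cfsg.Agent.S5643
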