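import Cfsg.Statements.S5644
import Cfsg.Agent.H29.Lin

set_option autoImplicit false
open Cfsg

namespace Cfsg.Agent.S5644

open H11 H11.PForm H29 Matrix

/-- For a finite field F of odd order and n ≥ 13, let Q be a non-degenerate quadratic form on F^n (its polar form is non-degenerate). Then the elements of SL_n(F) that are similarities of Q (Q(gv) = c Q(v) for a non-zero scalar c depending on g) form a maximal subgroup of SL_n(F). -/
theorem result {F : Type*} [Field F] [Fintype F] (n : ℕ) (hn : 13 ≤ n) (hodd : Odd (Fintype.card F)) (Q : (Fin n → F) → F) (hQ : Cfsg.Geo.IsNondegenerateQuadraticForm Q) : Cfsg.Geo.IsMaximalIn (Cfsg.Geo.specialLinear (Fin n) F) (Cfsg.Geo.quadSimilarityGroup Q ⊓ Cfsg.Geo.specialLinear (Fin n) F) := by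
  have h2 := two_ne_zero_of_odd hodd
  refine isMaximalIn_sim (quadOf_nondeg hQ) (iso3_orth _) (by simp; omega) _
    (fun u v a => ⟨1, fun x => ?_⟩) (fun g => ⟨?_, ?_⟩)
  · rw [toGL_mulVec, Units.val_one, one_mul]
    exact orth_isom_q ((orthS (quadOf hQ)).eich u v a) x
  · rintro ⟨c, hc⟩
    refine ⟨c, c.ne_zero, fun x y => ?_⟩
    simp only [orthS_h, QuadraticMap.polar, coe_quadOf, ← Matrix.mulVec_add, hc]
    ring
  · rintro ⟨c, hc0, hc⟩
    refine ⟨Units.mk0 c hc0, fun x => ?_⟩
    have := hc x x
    rw [orth_h_self, orth_h_self] at this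
    apply mul_left_cancel₀ h2
    simp only [orthS_q, coe_quadOf] at this
    rw [this]; simp; ring

end Cfsg.Agent.S5644
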