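import Cfsg.Statements.S5646
import Cfsg.Agent.H29.ND

set_option autoImplicit false
open Cfsg

namespace Cfsg.Agent.S5646

open H11 H11.PForm H29 Matrix

/-- For a finite field F and m ≥ 7, in the symplectic group Sp_2m(F) of the standard alternating form on F^(2m), the stabiliser of any non-zero subspace W on which the form is non-degenerate and with dim W < m is a maximal subgroup. -/
theorem result {F : Type*} [Field F] [Fintype F] (m : ℕ) (hm : 7 ≤ m) (W : Submodule F (Fin m ⊕ Fin m → F)) (hW0 : W ≠ ⊥) (hW : Cfsg.Geo.IsNondegenerateOn (Cfsg.sympForm m F) W) (hdim : Module.finrank F W < m) : Cfsg.Geo.IsMaximalIn (Cfsg.spGL m F) (Cfsg.Geo.subspaceStabilizer W ⊓ Cfsg.spGL m F) := by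
  rw [spGL_eq]
  have hW' := restrict_nondeg_of_on (stdSymp m F) (fun x y h => by rwa [stdSymp_h]) hW
  exact isMaximalIn_nd_small (stdSymp_nondeg m) (iso3_symp _) (by simp; omega) hW' hW0
    (by simp; omega) (isomIrr_of_ne hW' symp_Λ_ne)

end Cfsg.Agent.S5646
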