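import Cfsg.Statements.S5647
import Cfsg.Agent.H29.ODec

set_option autoImplicit false
open Cfsg

namespace Cfsg.Agent.S5647

open H11 H11.PForm H29 Matrix

/-- For a finite field F with q elements and m ≥ 7, let D be a decomposition of F^(2m) into t ≥ 2 pairwise orthogonal subspaces of equal dimension k on each of which the standard alternating form is non-degenerate, spanning F^(2m). Unless k = 2 and q = 2, the elements of Sp_2m(F) permuting the members of D form a maximal subgroup of Sp_2m(F). -/
theorem result {F : Type*} [Field F] [Fintype F] (m : ℕ) (hm : 7 ≤ m) {t : ℕ} (k : ℕ) (D : Fin t → Submodule F (Fin m ⊕ Fin m → F)) (hD : Cfsg.Geo.IsNondegenerateMDecomposition (Cfsg.sympForm m F) k D) (hex : ¬ (k = 2 ∧ Fintype.card F = 2)) : Cfsg.Geo.IsMaximalIn (Cfsg.spGL m F) (Cfsg.Geo.decompositionStabilizer D ⊓ Cfsg.spGL m F) := by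
  rw [spGL_eq]
  have hS := stdSymp_nondeg (F := F) m
  have h : ODec (stdSymp m F) k D := odec_of _ (fun x y => by rw [stdSymp_h]) hD
  have i0 : Fin t := ⟨0, by have := h.two; omega⟩
  have hev : Even k := symp_even k (h.nondeg i0) (h.dim i0)
  have hpos := h.pos
  have hex' : (∃ c : F, c ≠ 0 ∧ c ≠ 1) ∨ 3 ≤ k := by
    by_cases hk : k = 2
    · left
      apply exists_ne_zero_ne_one
      have h1 : Fintype.card F ≠ 2 := fun h => hex ⟨hk, h⟩
      have h2 : 1 < Fintype.card F := Fintype.one_lt_card
      rw [Nat.card_eq_fintype_card]; omega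
    · right
      obtain ⟨r, hr⟩ := hev
      omega
  obtain ⟨e, he, he0⟩ : ∃ e ∈ D i0, e ≠ 0 := by
    apply Submodule.exists_mem_ne_zero_of_ne_bot
    intro hb
    have := h.dim i0
    rw [hb, finrank_bot] at this
    omega
  refine isMaximalIn_odec hS hD.1 h (h.exists_E_not_perm hS he he0 (by simp [PForm.Sing])) ?_
  intro H hH _
  exact symp_odec hS h hex' H fun g hg => hH g (by rw [hS.symp_E_eq_top]; trivial) hg

end Cfsg.Agent.S5647
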