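import Cfsg.Statements.S5648
import Cfsg.Agent.H29.NM

set_option autoImplicit false
open Cfsg

namespace Cfsg.Agent.S5648

open H29 Matrix

/-- Over the field with 2 elements and for m ≥ 7, let D be a decomposition of F^(2m) into t pairwise orthogonal non-degenerate 2-dimensional subspaces for the standard alternating form (t = m ≥ 2). Then the elements of Sp_2m(2) permuting the members of D form a subgroup that is not maximal: some subgroup lies strictly between it and Sp_2m(2). -/
theorem result {F : Type*} [Field F] [Fintype F] (m : ℕ) (hm : 7 ≤ m) (hq : Fintype.card F = 2) {t : ℕ} (D : Fin t → Submodule F (Fin m ⊕ Fin m → F)) (hD : Cfsg.Geo.IsNondegenerateMDecomposition (Cfsg.sympForm m F) 2 D) : ∃ K : Subgroup (Matrix.GeneralLinearGroup (Fin m ⊕ Fin m) F), Cfsg.Geo.decompositionStabilizer D ⊓ Cfsg.spGL m F < K ∧ K < Cfsg.spGL m F := by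
  rw [symp_eq] at hD
  rw [spGL_iso]
  obtain ⟨Q, h⟩ := qInv_planes hq (hf_J m) (alt_J m) hD le_rfl
  have hb := big_sp ((hf_J (F := F) m).symp (alt_J m)) (by simp; omega) (by simp; omega)
  refine between (X := Cfsg.Geo.quadSimilarityGroup Q) (fun g hg => ⟨1, fun v => by
    simpa using h.2.2 g hg.1 v⟩) (not_le_quadSim h.1 hb (by simp; omega)) fun h1 =>
      h.not_odec (by simp; omega) hD (le_trans (fun g hg => ?_) h1)
  have h2 := fun v => omegaGL_le hg v v
  exact ⟨⟨1, fun v => by simpa using h2 v⟩, iso_of_quad h.2.1 h2⟩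

end Cfsg.Agent.S5648
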