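import Cfsg.Statements.S5652
import Cfsg.Agent.H29.ND

set_option autoImplicit false
open Cfsg

namespace Cfsg.Agent.S5652

open H11 H11.PForm H29 Matrix Module

theorem key {F : Type*} [Field F] [Fintype F] (hc2 : ringChar F = 2) {V : Type*} [AddCommGroup V]
    [Module F V] [FiniteDimensional F V] {S : PForm (sympP F) V} {T : PForm (orthP F) V}
    (hS : S.Nondeg) (hST : ∀ x y, T.h x y = S.h x y) (hn : 6 ≤ finrank F V) (H : Subgroup S.Isom)
    (hH : ∀ g : S.Isom, (∀ x, T.q (g.1 x) = T.q x) → g ∈ H) :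
    S.E ≤ H ∨ ∀ g ∈ H, ∀ x, T.q (g.1 x) = T.q x := by
  have h2 : (2 : F) = 0 := by
    have := ringChar.Nat.cast_ringChar (R := F)
    rw [hc2] at this
    exact_mod_cast this
  have hT : T.Nondeg := fun x hx => hS x fun y => by rw [← hST]; exact hx y
  have h3 := iso3_orth T
  have hec : ∀ u v a, S.h u v = 0 → S.ECond u v a := fun u v a h => ⟨trivial, h, trivial⟩
  have heich : ∀ u v, T.Sing u → S.h u v = 0 → ∀ x,
      T.q ((S.eich u v (T.q v)).1 x) = T.q x := by
    intro u v hu huv x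
    have hc : T.ECond u v (T.q v) := ECond.of_q hu (by rw [hST, huv])
    rw [← orth_isom_q (T.eich u v (T.q v)) x, eich_apply hc, eich_apply (hec u v _ huv), hST, hST]
    congr 1
    simp only [sympP_ε, orthP_ε]
    linear_combination (norm := module) (h2 * (S.h v x + T.q v * S.h u x)) • u
  have hwitt : ∀ u u', u ≠ 0 → u' ≠ 0 → T.Sing u → T.Sing u' → ∃ g ∈ H, g.1 u = u' := by
    intro u u' h0 h0' hu hu'
    obtain ⟨g, hg⟩ := hT.witt_vec h0 h0' ((orthP F).Λ.sub_mem hu' hu)
    exact ⟨⟨g.1, symp_isIsom fun x y => by rw [← hST, ← hST, isom_h]⟩,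
      hH _ fun x => orth_isom_q g x, hg⟩
  by_cases hC : ∃ u a, u ≠ 0 ∧ T.Sing u ∧ a ≠ 0 ∧ S.eich u 0 a ∈ H
  · left
    obtain ⟨u, a, hu0, hu, ha0, ha⟩ := hC
    have hfull : Full H u := by
      refine full_of_BSet trivial (fun v hv => ⟨T.q v, hec _ _ _ hv, hH _ (heich u v hu hv)⟩)
        fun b _ => ?_
      obtain ⟨c, hc⟩ := FiniteField.isSquare_of_char_two hc2 (b / a)
      by_cases hc0 : c = 0
      · have : b = 0 := by simpa [hc0, ha0] using hc
        rw [this, eich_zero]; exact H.one_mem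
      obtain ⟨g, hg, h⟩ := hwitt u (c • u) hu0 (smul_ne_zero hc0 hu0) hu (hu.smul c)
      have := H.mul_mem (H.mul_mem hg ha) (H.inv_mem hg)
      rw [conj_eich, h, map_zero, transv_smul (symp_sing S u) (AddSubgroup.mem_top a)] at this
      convert this using 2
      simp only [RingHom.id_apply]
      field_simp at hc
      linear_combination hc
    obtain ⟨f, Hy⟩ := hT.exists_isHyp hu hu0
    obtain ⟨g, hg, h⟩ := hwitt u f hu0 Hy.f_ne hu Hy.sing_f
    exact S.E_le_iff.2 fun x v a _ => full_all_of_pair hS trivial trivial hfull (h ▸ hfull.map hg)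
      (by rw [← hST, Hy.h_ef]; exact one_ne_zero) x v a
  right
  push Not at hC
  have fix : ∀ k ∈ H, ∀ u, u ≠ 0 → T.Sing u → k.1 u = u → ∀ x, S.h u x = 0 →
      T.q (k.1 x) = T.q x := by
    intro k hk u hu0 hu hku x hx
    have hx' : S.h u (k.1 x) = 0 := by rw [← hku, isom_h, hx]
    have h1 := H.mul_mem (H.mul_mem hk (hH _ (heich u x hu hx))) (H.inv_mem hk)
    rw [conj_eich, hku] at h1
    have h4 := H.mul_mem h1 (H.inv_mem (hH _ (heich u _ hu hx')))
    rw [eich_inv (hec _ _ _ hx'), eich_mul (hec _ _ _ hx') (hec _ _ _ hx').neg, add_neg_cancel]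
      at h4
    by_contra hne
    refine hC u _ hu0 hu ?_ h4
    simp only [sympP_ε, RingHom.id_apply, map_neg, symp_h_self]
    intro h
    exact hne (by linear_combination -h)
  intro g hg
  have hadd : ∀ x y, T.q (g.1 (x + y)) - T.q (x + y) =
      (T.q (g.1 x) - T.q x) + (T.q (g.1 y) - T.q y) := by
    intro x y
    rw [map_add, orth_q_add, orth_q_add, hST, hST, isom_h]; ring
  let l : V →+ F := AddMonoidHom.mk' (fun x => T.q (g.1 x) - T.q x) hadd
  intro x
  have := span_sing_top hT h3 (by omega) l.ker (fun u hu => by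
    by_cases hu0 : u = 0
    · rw [hu0]; exact AddSubgroup.zero_mem _
    obtain ⟨y, -, hy, hyu⟩ := exists_sing_top hT h3 [u] [u] (by simp; omega)
    rw [list_set_one] at hyu
    have huy : S.h u y = 0 := by rw [← hST]; exact hy u (by simp)
    obtain ⟨v, hv, hvy⟩ := hS.exists_perp_of_notMem hyu 1
    rw [mem_perp_singleton] at hv
    obtain ⟨w, hw, hp, hw0⟩ := exists_sing_top hT h3 [g.1 u, g.1 v, g.1 y] [] (by simp; omega)
    simp only [List.mem_cons, List.not_mem_nil, or_false, forall_eq_or_imp, forall_eq,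
      Set.setOf_false, Submodule.span_empty, Submodule.mem_bot, hST] at hp hw0
    have h1 := fix _ (H.mul_mem (H.mul_mem hg (hH _ (heich u v hu hv))) (H.inv_mem hg)) w hw0 hw
      (by rw [conj_eich]; exact eich_apply_of_perp_perp hp.1 hp.2.1) (g.1 y)
      (S.h_swap_zero hp.2.2)
    have h4 := heich u v hu hv y
    simp only [isom_mul_apply, isom_inv_apply_self] at h1
    rw [eich_apply_of_perp (hec _ _ _ hv) huy, hvy] at h1 h4
    simp only [sympP_ε, mul_one, neg_smul, one_smul, sub_neg_eq_add] at h1 h4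
    have h5 := hadd y u
    rw [h1, h4] at h5
    show T.q (g.1 u) - T.q u = 0
    linear_combination -h5) x
  exact sub_eq_zero.1 this

/-- For a finite field F of characteristic two and m ≥ 7, let Q be a non-degenerate quadratic form on F^(2m) whose polar form is the standard alternating form. Then the elements of Sp_2m(F) that are similarities of Q (they are exactly the isometries of Q) form a maximal subgroup of Sp_2m(F). -/
theorem result {F : Type*} [Field F] [Fintype F] (m : ℕ) (hm : 7 ≤ m) (heven : ¬ Odd (Fintype.card F)) (Q : (Fin m ⊕ Fin m → F) → F) (hQ : Cfsg.Geo.IsNondegenerateQuadraticForm Q) (hpol : ∀ u v, QuadraticMap.polar Q u v = Cfsg.sympForm m F u v) : Cfsg.Geo.IsMaximalIn (Cfsg.spGL m F) (Cfsg.Geo.quadSimilarityGroup Q ⊓ Cfsg.spGL m F) := by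
  rw [spGL_eq]
  have hc2 := char_two_of_not_odd heven
  have hST : ∀ x y, (orthS (quadOf hQ)).h x y = (stdSymp m F).h x y := fun x y => by
    rw [stdSymp_h]; exact hpol x y
  have hT := quadOf_nondeg hQ
  apply isMaximalIn_EGL
  · obtain ⟨e, -, he0, he⟩ := iso3_orth (orthS (quadOf hQ)) ⊤ (by simp; omega)
    obtain ⟨f, Hy⟩ := hT.exists_isHyp he he0
    refine ⟨(stdSymp m F).eich e 0 1, (stdSymp m F).eich_mem_E _ _ _, ?_⟩
    rintro ⟨c, hc⟩
    have := hc f
    rw [toGL_mulVec, symp_transv_apply, ← hST, Hy.h_ef, mul_one, one_smul] at this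
    have h1 := (orthS (quadOf hQ)).orth_q_add f e
    rw [Hy.h_fe, (orth_sing _ _).1 he, (orth_sing _ _).1 Hy.sing_f] at h1
    have h2 : Q f = 0 := (orth_sing _ _).1 Hy.sing_f
    have h3 : Q (f + e) = 0 + 0 + 1 := h1
    rw [h2, h3] at this
    simp at this
  · intro H h1 _
    refine (key hc2 (stdSymp_nondeg m) hST (by simp; omega) H (fun g hg => h1 ⟨⟨1, fun x => ?_⟩,
      by rw [(stdSymp_nondeg m).symp_E_eq_top]; trivial⟩)).imp id fun h g hg => ⟨1, fun x => ?_⟩
    · rw [toGL_mulVec, Units.val_one, one_mul]; exact hg x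
    · rw [toGL_mulVec, Units.val_one, one_mul]; exact h g hg x

end Cfsg.Agent.S5652
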