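import Cfsg.Statements.S5656
import Cfsg.Agent.H29.NM2

set_option autoImplicit false
open Cfsg

namespace Cfsg.Agent.S5656

open H29 Matrix

/-- Let F be the field with 4 elements (q = 2) and n ≥ 13. Let D be a decomposition of F^n into t pairwise orthogonal 2-dimensional subspaces, each non-degenerate for the standard unitary form Σ u_i v_i². Then the elements of SU_n(2) permuting the members of D form a subgroup that is not maximal: some subgroup lies strictly between it and SU_n(2). -/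
theorem result {F : Type*} [Field F] [Fintype F] (n : ℕ) (hF : Fintype.card F = 4) (hn : 13 ≤ n) {t : ℕ} (D : Fin t → Submodule F (Fin n → F)) (hD : Cfsg.Geo.IsNondegenerateMDecomposition (Cfsg.hermForm n F 2) 2 D) : ∃ K : Subgroup (Matrix.GeneralLinearGroup (Fin n) F), Cfsg.Geo.decompositionStabilizer D ⊓ (Cfsg.GU n F 2 ⊓ Cfsg.Geo.specialLinear (Fin n) F) < K ∧ K < (Cfsg.GU n F 2 ⊓ Cfsg.Geo.specialLinear (Fin n) F) := by
  obtain ⟨σ, hq, hσ, hne⟩ := exists_frob_four hF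
  rw [herm_eq hq] at hD
  rw [GU_iso hq]
  have h := hf_one (κ := Fin n) hσ
  have h11 : (1 : F) + 1 = 0 := one_add_one_eq_two.trans (two_eq_of_card (k := 2) hF)
  have h1 := fun i => frame_u2 hF h hne (hD.decomp.finrank_eq i) (hD.nondegenerate i)
  let L : Set (Fin n → F) := {w | (∃ i, w ∈ D i) ∧ fm σ 1 w w ≠ 0}
  have h2 : ∀ w ∈ L, ∀ w' ∈ L, w' ∈ F ∙ w ∨ fm σ 1 w w' = 0 := by
    rintro w ⟨⟨i, hi⟩, a⟩ w' ⟨⟨j, hj⟩, b⟩
    obtain rfl | e := eq_or_ne i j
    · exact (h1 i).2 w hi w' hj a b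
    · exact .inr (hD.orthogonal i j e w hi w' hj)
  refine between (X := setStab L) (fun g hg w ⟨⟨i, hi⟩, a⟩ => ?_) (fun h3 => ?_) fun h3 => ?_
  · obtain ⟨τ, hτ⟩ := of_mem_decStab hg.1
    exact ⟨⟨_, hτ i w hi⟩, by rwa [hg.2.1]⟩
  · obtain ⟨t', D', h4, h5⟩ := dec_of_frame h (by simp; omega) (fun w hw => hw.2) h3 h2
      (eq_top_iff.2 (hD.decomp.iSup_eq_top ▸ iSup_le fun i => (h1 i).1.trans
        (Submodule.span_mono fun w hw => ⟨⟨i, hw.1⟩, hw.2⟩)))
    have := mdec_card h4.decomp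
    simp only [mul_one, Fintype.card_fin] at this
    exact (big_su h hne (by simp; omega) (by simp; omega)).not_dec' h4.decomp 2 (by omega)
      (by omega) (by omega) (fun p x hx y hy h6 h7 => by
        simp [fm_add_left, fm_add_right, h6, h7, orth_of_dec h4 p hx hy,
          h.eq_zero_comm (orth_of_dec h4 p hx hy)]) h5
  have key : ∀ i, ∃ x ∈ D i, fm σ 1 x x = 1 := fun i => by
    obtain ⟨B, a, b⟩ := exists_onb h hne (hD.decomp.finrank_eq i) (hD.nondegenerate i)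
    exact ⟨_, (a _).2 ⟨Pi.single 0 1, rfl⟩, by rw [b]; simp⟩
  have := hD.decomp.two_le
  obtain ⟨i, j, hij⟩ : ∃ i j : Fin t, i ≠ j := ⟨⟨0, by omega⟩, ⟨1, by omega⟩, by simp⟩
  obtain ⟨x, hx, x1⟩ := key i
  obtain ⟨y, hy, y1⟩ := key j
  have o1 := hD.orthogonal i j hij
  have o2 := hD.orthogonal j i hij.symm
  obtain ⟨g, g1, g2⟩ := h.exists_tv (z := x + y) (a := 1)
    (by simp [fm_add_left, fm_add_right, x1, y1, o1 x hx y hy, o2 y hy x hx, h11]) (by simpa)
  have hneg : ∀ x : Fin n → F, x + x = 0 := fun x => by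
    rw [← one_smul F x, ← add_smul, h11, zero_smul]
  simp only [fm_add_right, one_mul] at g2
  have d1 : g.1 *ᵥ x = y := by simp [g2, x1, o1 x hx y hy, ← add_assoc, hneg]
  have d2 : g.1 *ᵥ y = x := by simp [g2, y1, o2 y hy x hx, add_left_comm y, hneg]
  obtain ⟨w, w1, w2, w3⟩ := exists_mem_perp (σ := σ) (G := 1) (D i) x (hD.decomp.finrank_eq i).ge
  refine not_decStab hD.decomp w1 w2 (by simpa [g2, w3, o1 w w1 y hy]) hx (d1 ▸ fun e => hij
    (mdec_disj hD.decomp (by rintro rfl; simp at y1) e hy)) (h3 ⟨fun z hz => ⟨?_, ?_⟩, g1⟩)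
  · rcases h2 x ⟨⟨i, hx⟩, by simp [x1]⟩ z hz with a | a
    · obtain ⟨c, rfl⟩ := Submodule.mem_span_singleton.1 a
      exact ⟨j, by rw [mulVec_smul, d1]; exact Submodule.smul_mem _ _ hy⟩
    rcases h2 y ⟨⟨j, hy⟩, by simp [y1]⟩ z hz with b | b
    · obtain ⟨c, rfl⟩ := Submodule.mem_span_singleton.1 b
      exact ⟨i, by rw [mulVec_smul, d2]; exact Submodule.smul_mem _ _ hx⟩
    · simpa [g2, h.eq_zero_comm a, h.eq_zero_comm b] using hz.1
  · rw [g1.1]; exact hz.2

end Cfsg.Agent.S5656
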