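import Cfsg.Statements.S5658
import Cfsg.Agent.H29.RatC

set_option autoImplicit false
open Cfsg

namespace Cfsg.Agent.S5658

open H11 H11.PForm H29 Matrix

/-- Let F be the field with q² elements, n ≥ 13, and F₀ a subfield with |F| = |F₀| ^ r for an odd prime r. Let P be an invertible matrix such that the standard unitary form takes values in F₀ on the F₀-span of the columns of P. Then the elements of SU_n(q) lying in the subfield group of P (the conjugate by P of the product of GL_n(F₀) with the scalars) form a maximal subgroup of SU_n(q). -/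
theorem result {F : Type*} [Field F] [Fintype F] (n q : ℕ) (hF : Fintype.card F = q ^ 2) (hn : 13 ≤ n) (F₀ : Subfield F) (r : ℕ) (hr : r.Prime) (hro : Odd r) (hcard : Fintype.card F = Nat.card F₀ ^ r) (P : Matrix.GeneralLinearGroup (Fin n) F) (hP : Cfsg.Geo.IsFormRationalStructure (Cfsg.hermForm n F q) F₀ 1 P) : Cfsg.Geo.IsMaximalIn (Cfsg.GU n F q ⊓ Cfsg.Geo.specialLinear (Fin n) F) (Cfsg.Geo.subfieldSubgroup F₀ P ⊓ (Cfsg.GU n F q ⊓ Cfsg.Geo.specialLinear (Fin n) F)) := by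
  have hr' := finrank_of_card (F₀ := F₀) (by rwa [Nat.card_eq_fintype_card])
  obtain ⟨σ, hq, hσ, hne⟩ := H11.exists_frob hF
  rw [H29.su_eq hσ hne hq (by omega)]
  obtain ⟨θ, hθ, hθ'⟩ := exists_σ_ne_of_odd (F₀ := F₀) hσ hne (hr' ▸ hro)
  have hm := F₀.sub_mem hθ (pow_card_mem hq hθ)
  have h0 : θ - σ θ ≠ 0 := sub_ne_zero.2 hθ'.symm
  refine isMaximalIn_rat (stdUnit_nondeg hσ hne _) (by simp; omega)
    (rat_of_h (fun c hc => pow_card_mem hq hc) (fun x hx y hy => ?_) (F₀.div_mem hθ hm) ?_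
      fun a ha => by simpa [mem_unitP_Λ] using ha)
    (hr' ▸ hr) (Or.inr (Or.inr ⟨⟨θ - σ θ, h0, hm, by simp [mem_unitP_Λ, hσ]⟩,
      Or.inr ⟨θ, hθ, hθ'⟩⟩))
  · obtain ⟨u, hu, rfl⟩ := mem_V0_basisOf'.1 hx
    obtain ⟨v, hv, rfl⟩ := mem_V0_basisOf'.1 hy
    rw [stdUnit_h_eq hσ hne hq]
    simpa using hP v u hv hu
  · rw [map_div₀, map_sub, hσ, ← neg_sub θ, div_neg, ← sub_eq_add_neg, ← sub_div, div_self h0]

end Cfsg.Agent.S5658
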