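import Cfsg.Statements.S5659
import Cfsg.Agent.H29.RatC

set_option autoImplicit false
open Cfsg

namespace Cfsg.Agent.S5659

open H11 H11.PForm H29 Matrix

/-- Let F be the field with q² elements, q odd, n ≥ 13, and F₀ the subfield with q elements. Let P be an invertible matrix such that the standard unitary form takes values in F₀ on the F₀-span of the columns of P (so it restricts to a non-degenerate symmetric bilinear form there). Then the elements of SU_n(q) lying in the subfield group of P form a maximal subgroup of SU_n(q). -/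
theorem result {F : Type*} [Field F] [Fintype F] (n q : ℕ) (hF : Fintype.card F = q ^ 2) (hn : 13 ≤ n) (hodd : Odd q) (F₀ : Subfield F) (hcard : Fintype.card F = Nat.card F₀ ^ 2) (P : Matrix.GeneralLinearGroup (Fin n) F) (hP : Cfsg.Geo.IsFormRationalStructure (Cfsg.hermForm n F q) F₀ 1 P) : Cfsg.Geo.IsMaximalIn (Cfsg.GU n F q ⊓ Cfsg.Geo.specialLinear (Fin n) F) (Cfsg.Geo.subfieldSubgroup F₀ P ⊓ (Cfsg.GU n F q ⊓ Cfsg.Geo.specialLinear (Fin n) F)) := by
  have hr' := finrank_of_card (F₀ := F₀) (by rwa [Nat.card_eq_fintype_card])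
  obtain ⟨σ, hq, hσ, hne⟩ := H11.exists_frob hF
  rw [H29.su_eq hσ hne hq (by omega)]
  have h2 : (2 : F) ≠ 0 := two_ne_zero_of_odd (by rw [hF]; exact hodd.pow)
  refine isMaximalIn_rat (stdUnit_nondeg hσ hne _) (by simp; omega)
    (rat_of_h (fun c hc => pow_card_mem hq hc) (fun x hx y hy => ?_) (θ := 2⁻¹)
      (F₀.inv_mem (by exact_mod_cast natCast_mem F₀ 2)) ?_
      fun a ha => by simpa [mem_unitP_Λ] using ha)
    (hr' ▸ Nat.prime_two) (Or.inl hr')
  · obtain ⟨u, hu, rfl⟩ := mem_V0_basisOf'.1 hx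
    obtain ⟨v, hv, rfl⟩ := mem_V0_basisOf'.1 hy
    rw [stdUnit_h_eq hσ hne hq]
    simpa using hP v u hv hu
  · rw [map_inv₀, map_ofNat]; field_simp; norm_num

end Cfsg.Agent.S5659
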