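import Cfsg.Statements.S5660
import Cfsg.Agent.H29.RatC

set_option autoImplicit false
open Cfsg

namespace Cfsg.Agent.S5660

open H11 H11.PForm H29 Matrix

/-- Let F be the field with q² elements, n ≥ 13 even, and F₀ the subfield with q elements. Let ζ be a non-zero element with ζ + ζ^q = 0 and P an invertible matrix such that ζ times the standard unitary form takes values in F₀ on the F₀-span of the columns of P and the form vanishes on every pair (u, u) of that span (so ζ times the form restricts to a non-degenerate alternating form there). Then the elements of SU_n(q) lying in the subfield group of P form a maximal subgroup of SU_n(q). -/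
theorem result {F : Type*} [Field F] [Fintype F] (n q : ℕ) (hF : Fintype.card F = q ^ 2) (hn : 13 ≤ n) (heven : Even n) (F₀ : Subfield F) (hcard : Fintype.card F = Nat.card F₀ ^ 2) (ζ : F) (hζ0 : ζ ≠ 0) (hζ : ζ + ζ ^ q = 0) (P : Matrix.GeneralLinearGroup (Fin n) F) (hP : Cfsg.Geo.IsFormRationalStructure (Cfsg.hermForm n F q) F₀ ζ P) (halt : ∀ u : Fin n → F, (∀ i, u i ∈ F₀) → Cfsg.hermForm n F q (Matrix.mulVec (P : Matrix (Fin n) (Fin n) F) u) (Matrix.mulVec (P : Matrix (Fin n) (Fin n) F) u) = 0) : Cfsg.Geo.IsMaximalIn (Cfsg.GU n F q ⊓ Cfsg.Geo.specialLinear (Fin n) F) (Cfsg.Geo.subfieldSubgroup F₀ P ⊓ (Cfsg.GU n F q ⊓ Cfsg.Geo.specialLinear (Fin n) F)) := by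
  have hr' := finrank_of_card (F₀ := F₀) (by rwa [Nat.card_eq_fintype_card])
  obtain ⟨σ, hq, hσ, hne⟩ := H11.exists_frob hF
  have hη : σ ζ = -1 * ζ := by rw [hq]; linear_combination hζ
  rw [H29.su_eq hσ hne hq (by omega), EGL_scale _ hζ0 hη (by simp)]
  refine isMaximalIn_rat (scale_nondeg (stdUnit_nondeg hσ hne _)) (by simp; omega)
    ⟨fun c hc => pow_card_mem hq hc, fun x hx y hy => ?_, fun x hx => ⟨0, F₀.zero_mem, ?_⟩⟩
    (hr' ▸ Nat.prime_two) (Or.inl hr')
  · obtain ⟨u, hu, rfl⟩ := mem_V0_basisOf'.1 hx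
    obtain ⟨v, hv, rfl⟩ := mem_V0_basisOf'.1 hy
    rw [scale_h, stdUnit_h_eq hσ hne hq]
    exact hP v u hv hu
  · obtain ⟨u, hu, rfl⟩ := mem_V0_basisOf'.1 hx
    have := (unit_sing (stdUnit hσ hne (Fin n)) _).2 ((stdUnit_h_eq hσ hne hq n _ _).trans (halt u hu))
    rw [mem_scaleP, scale_q, zero_sub, mul_neg, ← mul_assoc, inv_mul_cancel₀ hζ0, one_mul]
    exact AddSubgroup.neg_mem _ this

end Cfsg.Agent.S5660
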