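import Cfsg.Statements.S5662
import Cfsg.Agent.H29.Cv3

set_option autoImplicit false
open Cfsg

namespace Cfsg.Agent.S5662

/-- Subgroup structure of the finite symplectic groups. Let F be a finite field and m ≥ 2 with (m, |F|) ≠ (2, 2), and let Sp_2m(F) be the group of invertible matrices preserving the standard alternating form on F^(2m). Let H be a subgroup of Sp_2m(F) whose product with the scalar matrices ±1 is not all of Sp_2m(F) (H does not cover PSp_2m(F)). Then either H is contained in a member of one of the eight geometric classes of subgroups of Sp_2m(F) (with the conditions built into InSymplecticClass), or H is in the residual class: modulo scalars it is almost simple, and the perfect preimage of its socle acts absolutely irreducibly, is realisable over no proper subfield, and fixes no non-degenerate quadratic form and no non-degenerate unitary form on F^(2m). -/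
theorem result {F : Type*} [Field F] [Fintype F] (m : ℕ) (hm : 2 ≤ m) (hex : ¬ (m = 2 ∧ Fintype.card F = 2)) (H : Subgroup (Matrix.GeneralLinearGroup (Fin m ⊕ Fin m) F)) (hH : H ≤ Cfsg.spGL m F) (hproper : H ⊔ (Cfsg.Geo.scalars (Fin m ⊕ Fin m) F ⊓ Cfsg.spGL m F) ≠ Cfsg.spGL m F) : (∃ M : Subgroup (Matrix.GeneralLinearGroup (Fin m ⊕ Fin m) F), Cfsg.Geo.InSymplecticClass m F M ∧ H ≤ M) ∨ Cfsg.Geo.InSymplecticResidualClass H := by
  refine (H29.sp_list hm hex hH (R := fun X => H ≤ X ⊓ Cfsg.spGL m F)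
    fun X h _ => le_inf h hH).imp_left ?_
  rintro (⟨W, h1, h2, h⟩ | ⟨W, h1, h2, h3, h⟩ | ⟨t, k, D, h1, -, -, -, -, h⟩ | ⟨h0, D, h1, h2, h⟩ |
    ⟨F₀, r, P, ζ, h1, h2, h3, h4, h⟩ | ⟨k, E, -, h1, h2, h3, h4, h5, h6, h7, h8, h⟩ |
    ⟨h0, Q, h1, h2, h⟩ | ⟨r, K, h1, -, h2, h3, h4, h⟩ | ⟨h0, K, h1, h2, h3, h⟩ |
    ⟨h0, a, b, e, P, f₁, f₂, -, -, -, h1, -, h2, h3, h4, h⟩ |
    ⟨h0, k, t, e, P, f₁, -, -, h1, h2, h3, h4, h5, h⟩) <;> refine ⟨_, ?_, h⟩
  · exact .inl (.inl ⟨W, h1, h2, rfl⟩)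
  · exact .inl (.inr (.inl ⟨W, h1, h2, h3, rfl⟩))
  · exact .inl (.inr (.inr (.inl ⟨t, k, D, h1, rfl⟩)))
  · exact .inl (.inr (.inr (.inr (.inl ⟨D, h0, h1, h2, rfl⟩))))
  · exact .inl (.inr (.inr (.inr (.inr (.inl ⟨F₀, r, P, ζ, h1, h2, h3, h4, rfl⟩)))))
  · exact .inl (.inr (.inr (.inr (.inr (.inr (.inl
      ⟨E, _, k, h3, h4, h5, h1, h2, rfl, h6, h7, h8, rfl⟩))))))
  · exact .inl (.inr (.inr (.inr (.inr (.inr (.inr ⟨Q, h0, h1, h2, rfl⟩))))))
  · exact .inr (.inl ⟨r, K, h1, h2, h3, h4, rfl⟩)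
  · exact .inr (.inr (.inl ⟨K, h0, h1, h2, h3, rfl⟩))
  · exact .inr (.inr (.inr (.inl ⟨a, b, e, P, f₁, f₂, h0, h1, h2, h3, h4, rfl⟩)))
  · exact .inr (.inr (.inr (.inr ⟨k, t, e, P, f₁, h0, h1, h2, by omega, h4, h5, rfl⟩)))

end Cfsg.Agent.S5662
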