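import Cfsg.Statements.S5665
import Cfsg.Agent.H29.ExtU

set_option autoImplicit false
open Cfsg

namespace Cfsg.Agent.S5665

open H11 H11.PForm H29 Matrix Module

/-- For a finite field F of odd order and m ≥ 7, let K be a subfield of the algebra of 2m × 2m matrices over F containing the scalars, of degree 2 over F, that is closed under adjoints for the standard alternating form on F^(2m) but whose elements are not all self-adjoint (so the adjoint map induces the automorphism of order two of K). Then the elements of Sp_2m(F) normalising K form a maximal subgroup of Sp_2m(F). -/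
theorem result {F : Type*} [Field F] [Fintype F] (m : ℕ) (hm : 7 ≤ m) (hodd : Odd (Fintype.card F)) (K : Subalgebra F (Matrix (Fin m ⊕ Fin m) (Fin m ⊕ Fin m) F)) (hK : Cfsg.Geo.IsFieldSubalgebra 2 K) (hac : Cfsg.Geo.IsAdjointClosedFor (Cfsg.sympForm m F) K) (hnsa : ¬ Cfsg.Geo.IsSelfAdjointFor (Cfsg.sympForm m F) K) : Cfsg.Geo.IsMaximalIn (Cfsg.spGL m F) (Cfsg.Geo.subalgebraNormalizer K ⊓ Cfsg.spGL m F) := by
  have hb := big_sp ((hf_J (F := F) m).symp (alt_J m)) (by simp; omega) (by simp; omega)
  haveI := hb.nonempty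
  have h1 := hb.not_field hK one_lt_two
  rw [← spGL_iso] at h1
  rw [spGL_eq] at h1 ⊢
  letI := (isField_of hK).toField
  haveI : Finite K := Subtype.finite
  have hS := stdSymp_nondeg (F := F) m
  obtain ⟨τ, hτ, θ, U, hne, hfix, h0, hθ, -, hU⟩ := exists_unit_form (K := K) hS hK.finrank_eq
    (fun k => let ⟨k', h, e⟩ := hac k k.2
      ⟨⟨k', h⟩, fun x y => by rw [stdSymp_h, stdSymp_h]; exact e x y⟩)
    fun h => hnsa fun k hk x y => by rw [← stdSymp_h, ← stdSymp_h]; exact h ⟨k, hk⟩ x y
  have h2 := Module.finrank_mul_finrank F K (Fin m ⊕ Fin m → F)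
  rw [hK.finrank_eq, finrank_fintype_fun_eq_card, Fintype.card_sum, Fintype.card_fin] at h2
  refine isMaximalIn_of_not_le _ h1 fun H hH => (symp_extU hS (two_ne_zero_of_odd hodd) hne hfix h0
    (by simpa using hθ) hU (by omega) H fun g _ => ⟨⟨g.1.restrictScalars F, symp_isIsom fun x y => ?_⟩,
      hH _ (hS.symp_E_eq_top ▸ Subgroup.mem_top _) (mem_nml_of_comm fun k x => ?_),
      fun _ => rfl⟩).imp_right fun h => le_nml ?_
  · refine (algebraMap F K).injective ?_
    rw [hU, hU, ← isom_h g x y]
    rfl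
  · rw [toGL_mulVec, toGL_mulVec]; exact map_smul g.1 k x
  · rintro _ ⟨g, hg, rfl⟩
    simp only [toGL_mulVec]
    exact h g hg

end Cfsg.Agent.S5665
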