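import Cfsg.Statements.S5666
import Cfsg.Agent.H20.Tp4

set_option autoImplicit false
open Cfsg H20

namespace Cfsg.Agent.S5666

/-- For a finite field F of odd order q and m ≥ 7, suppose the standard alternating form on F^(2m) is similar, through a change of basis P and a bijection of index sets e, to the tensor product of a non-degenerate symplectic form f₁ on F^(n₁) and a non-degenerate symmetric bilinear form f₂ on F^(n₂) with n₂ ≥ 3. Unless q = 3 and n₂ = 3, the elements of Sp_2m(F) in the stabiliser of this tensor decomposition (the conjugate by P of the Kronecker-product subgroup transported along e) form a maximal subgroup of Sp_2m(F). -/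
theorem result {F : Type*} [Field F] [Fintype F] (m : ℕ) (hm : 7 ≤ m) (hodd : Odd (Fintype.card F)) (n₁ n₂ : ℕ) (hn₂ : 3 ≤ n₂) (hex : ¬ (Fintype.card F = 3 ∧ n₂ = 3)) (e : (Fin m ⊕ Fin m) ≃ Fin n₁ × Fin n₂) (P : Matrix.GeneralLinearGroup (Fin m ⊕ Fin m) F) (f₁ : (Fin n₁ → F) → (Fin n₁ → F) → F) (f₂ : (Fin n₂ → F) → (Fin n₂ → F) → F) (hf₁ : Cfsg.Geo.IsSymplecticForm f₁) (hf₂ : Cfsg.Geo.IsSymmetricForm f₂) (hT : Cfsg.Geo.IsTensorFormStructure id (Cfsg.sympForm m F) f₁ f₂ e P) : Cfsg.Geo.IsMaximalIn (Cfsg.spGL m F) (Cfsg.Geo.tensorProductSubgroup n₁ n₂ e P ⊓ Cfsg.spGL m F) := by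
  have hc : m + m = n₁ * n₂ := by simpa using Fintype.card_congr e
  obtain ⟨a, ha⟩ := H11.PForm.symp_even n₁
    (S := H11.sympS (H29.bilinOf hf₁.bilinear) hf₁.alternating)
    (fun x hx => by_contra fun h0 => (hf₁.nondegenerate x h0).2.elim fun y hy => hy (hx y)) (by simp)
  by_cases h : n₁ = 2
  · subst h
    obtain rfl : n₂ = m := by omega
    exact Pl.sp_ten hodd (.inl (by omega)) e P f₁ f₂ hf₁ hf₂ hT
  · refine Tp.sp_ten' hodd (by_contra fun h3 => ?_) hn₂ hex e P f₁ f₂ hf₁ hf₂ hT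
    obtain rfl : n₁ = 0 := by omega
    omega

end Cfsg.Agent.S5666
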