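import Cfsg.Statements.S5667
import Cfsg.Agent.H29.NM2

set_option autoImplicit false
open Cfsg

namespace Cfsg.Agent.S5667

open H29 Matrix

/-- Over the field with 3 elements and for m ≥ 7, suppose the standard alternating form on F^(2m) is similar, through P and e, to the tensor product of a non-degenerate symplectic form f₁ on F^(n₁) and a non-degenerate symmetric bilinear form f₂ on F^3. Then the elements of Sp_2m(3) in the stabiliser of this tensor decomposition form a subgroup that is not maximal: some subgroup lies strictly between it and Sp_2m(3). -/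
theorem result {F : Type*} [Field F] [Fintype F] (m : ℕ) (hm : 7 ≤ m) (hq : Fintype.card F = 3) (n₁ : ℕ) (e : (Fin m ⊕ Fin m) ≃ Fin n₁ × Fin 3) (P : Matrix.GeneralLinearGroup (Fin m ⊕ Fin m) F) (f₁ : (Fin n₁ → F) → (Fin n₁ → F) → F) (f₂ : (Fin 3 → F) → (Fin 3 → F) → F) (hf₁ : Cfsg.Geo.IsSymplecticForm f₁) (hf₂ : Cfsg.Geo.IsSymmetricForm f₂) (hT : Cfsg.Geo.IsTensorFormStructure id (Cfsg.sympForm m F) f₁ f₂ e P) : ∃ K : Subgroup (Matrix.GeneralLinearGroup (Fin m ⊕ Fin m) F), Cfsg.Geo.tensorProductSubgroup n₁ 3 e P ⊓ Cfsg.spGL m F < K ∧ K < Cfsg.spGL m F := by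
  rw [symp_eq] at hT
  rw [spGL_iso]
  obtain ⟨G₁, rfl, h3⟩ := hf_of_symp hf₁
  obtain ⟨G₂, rfl, h4⟩ := hf_of_symm hf₂
  obtain ⟨c, hc, h5⟩ := krF_of_tfs (σ := RingHom.id F) hT
  have h6 := h4.smul hc (ε' := 1) (by simp)
  have hk := KrF.swap ⟨kr_self e P, h3, h6, h5⟩
  obtain ⟨w, w', p1, p2, p3, p4, p5⟩ := frame33' hq h6
  have h7 : 0 < n₁ := by have := Fintype.card_congr e; simp at this; omega
  exact hk.tv_between (big_sp ((hf_J (F := F) m).symp (alt_J m)) (by simp; omega)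
    (by simp; omega)) (hf_J m) (fun _ _ => trivial) le_rfl inf_le_left
    (fun w => fm (RingHom.id F) (c • G₂) w w = (c • G₂).det) (fun w e => e ▸ h6.det_ne) p4 p5 p1
    p2 p3 (u := Pi.single ⟨0, h7⟩ 1) (hf₁.alternating _) (by simp) (by simp)

end Cfsg.Agent.S5667
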