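import Cfsg.Statements.S5671
import Cfsg.Agent.H29.NM2

set_option autoImplicit false
open Cfsg

namespace Cfsg.Agent.S5671

open H29 Matrix

/-- Let F be the field with 4 elements (q = 2) and n = 2 n₂ ≥ 13. Suppose the standard unitary form Σ u_i v_i² on F^n is similar, through P and e, to the tensor product of non-degenerate unitary forms f₁ on F^2 and f₂ on F^(n₂). Then the elements of SU_n(2) in the stabiliser of this tensor decomposition form a subgroup that is not maximal: some subgroup lies strictly between it and SU_n(2). -/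
theorem result {F : Type*} [Field F] [Fintype F] (n : ℕ) (hF : Fintype.card F = 4) (hn : 13 ≤ n) (n₂ : ℕ) (e : Fin n ≃ Fin 2 × Fin n₂) (P : Matrix.GeneralLinearGroup (Fin n) F) (f₁ : (Fin 2 → F) → (Fin 2 → F) → F) (f₂ : (Fin n₂ → F) → (Fin n₂ → F) → F) (hf₁ : Cfsg.Geo.IsUnitaryFormPow 2 f₁) (hf₂ : Cfsg.Geo.IsUnitaryFormPow 2 f₂) (hT : Cfsg.Geo.IsTensorFormStructure (fun x : F => x ^ 2) (Cfsg.hermForm n F 2) f₁ f₂ e P) : ∃ K : Subgroup (Matrix.GeneralLinearGroup (Fin n) F), Cfsg.Geo.tensorProductSubgroup 2 n₂ e P ⊓ (Cfsg.GU n F 2 ⊓ Cfsg.Geo.specialLinear (Fin n) F) < K ∧ K < (Cfsg.GU n F 2 ⊓ Cfsg.Geo.specialLinear (Fin n) F) := by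
  obtain ⟨σ, hq, hσ, hne⟩ := exists_frob_four hF
  rw [herm_eq hq, ← show (σ : F → F) = fun x => x ^ 2 from funext hq] at hT
  rw [GU_iso hq]
  obtain ⟨G₁, rfl, h3⟩ := hf_of_unitPow hq hσ hf₁
  obtain ⟨G₂, rfl, h4⟩ := hf_of_unitPow hq hσ hf₂
  obtain ⟨c, hc, h5⟩ := krF_of_tfs hT
  have h6 := h4.smul hc (ε' := c / σ c) (by simp [hc])
  have h7 : 7 ≤ n₂ := by have := Fintype.card_congr e; simp at this; omega
  obtain ⟨u, -, u0, u1⟩ := (big_su h4 hne (by simp; omega) (by simp; omega)).iso ⊤ (by simp; omega)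
  obtain ⟨B, -, hB⟩ := exists_onb h3 hne (W := ⊤) (k := 2) (by simp) h3.ndTop
  refine KrF.tv_between (big_su (hf_one hσ) hne (by simp; omega) (by simp; omega)) (hf_one hσ)
    (fun _ h => h) inf_le_left le_rfl ⟨kr_self e P, h3, h6, h5⟩ (fun w => fm σ G₁ w w ≠ 0)
    (fun _ h => h) (fun a ha w hw => ?_) (fun w w' => (frame_u2 hF h3 hne (W := ⊤) (by simp)
      h3.ndTop).2 w trivial w' trivial) (w := B *ᵥ Pi.single 0 1) (w' := B *ᵥ Pi.single 1 1)
    (by rw [hB]; simp) (by rw [hB]; simp) (by rw [hB]; simp) (by rw [fm_smul, u1, mul_zero]) u0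
    (one_add_one_eq_two.trans (two_eq_of_card (k := 2) hF))
  obtain ⟨d, hd⟩ := ha
  rw [hd]
  exact mul_ne_zero d.ne_zero hw

end Cfsg.Agent.S5671
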