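import Cfsg.Statements.S5673
import Cfsg.Agent.H29.Cv5

set_option autoImplicit false
open Cfsg

namespace Cfsg.Agent.S5673

/-- Subgroup structure of the odd-dimensional orthogonal groups. Let F be a finite field of odd order and m ≥ 3, let Q be the standard quadratic form x₀² + Σ x_i y_i on F^(2m+1), and let Ω be the commutator subgroup of its isometry group, viewed inside GL_(2m+1)(F). Let H be a subgroup of Ω whose product with the scalar matrices in Ω is not all of Ω. Then either H is contained in a member of one of the geometric classes of subgroups of the isometry group (with the conditions built into InOrthogonalOddClass), or H is in the residual class: modulo scalars it is almost simple, and the perfect preimage of its socle acts absolutely irreducibly, is realisable over no proper subfield, and fixes no non-degenerate unitary form. -/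
theorem result {F : Type*} [Field F] [Fintype F] (hodd : Odd (Fintype.card F)) (m : ℕ) (hm : 3 ≤ m) (H : Subgroup (Matrix.GeneralLinearGroup (Unit ⊕ (Fin m ⊕ Fin m)) F)) (hH : H ≤ Cfsg.Geo.omegaGL (Cfsg.quadFormOdd m F)) (hproper : H ⊔ (Cfsg.Geo.scalars (Unit ⊕ (Fin m ⊕ Fin m)) F ⊓ Cfsg.Geo.omegaGL (Cfsg.quadFormOdd m F)) ≠ Cfsg.Geo.omegaGL (Cfsg.quadFormOdd m F)) : (∃ M : Subgroup (Matrix.GeneralLinearGroup (Unit ⊕ (Fin m ⊕ Fin m)) F), Cfsg.Geo.InOrthogonalOddClass m F M ∧ H ≤ M) ∨ Cfsg.Geo.InOrthogonalResidualClass H := by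
  rcases H29.oo_std hodd hm hH (R := fun X => H ≤ X) fun _ h _ => h with (⟨W, h1, h2, h⟩ |
    ⟨W, h1, h2, -, h3, -, h⟩ | ⟨t, k, D, -, -, h1, -, h2, h⟩ | ⟨r, K, hr, -, h1, h2, h3, h⟩ |
    ⟨a, b, e, P, f₁, f₂, -, h1, h2, h3, h4, h5, h⟩ | ⟨F₀, r, P, h1, h2, h3, h⟩ |
    ⟨k, t, e, P, f₁, -, h1, h2, h3, h4, h5, h⟩) | h
  rotate_right
  · exact .inr h
  all_goals refine .inl ⟨_, ?_, le_inf h (hH.trans H29.omegaGL_le)⟩
  · exact .inl ⟨W, h1, h2, rfl⟩
  · exact .inr (.inl ⟨W, h2, h1, h3, rfl⟩)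
  · obtain rfl | h3 := (Nat.succ_le_of_lt h2.1.1.pos).eq_or_lt
    · exact .inr (.inr (.inr (.inl ⟨t, D, h1 rfl, h2, rfl⟩)))
    · exact .inr (.inr (.inl ⟨t, k, D, h3, h2, rfl⟩))
  · exact .inr (.inr (.inr (.inr (.inl ⟨r, K, hr, by simp at h1; omega, h2, h3, rfl⟩))))
  · exact .inr (.inr (.inr (.inr (.inr (.inl ⟨a, b, e, P, f₁, f₂, h1, h2, h3, h4, h5, rfl⟩)))))
  · exact .inr (.inr (.inr (.inr (.inr (.inr (.inl ⟨F₀, r, P, h1, h2, h3, rfl⟩))))))
  · exact .inr (.inr (.inr (.inr (.inr (.inr (.inr ⟨k, t, e, P, f₁, h1, h2, h3, h4, h5, rfl⟩))))))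

end Cfsg.Agent.S5673
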