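import Cfsg.Statements.S5674
import Cfsg.Agent.H29.Bridge

set_option autoImplicit false
open Cfsg

namespace Cfsg.Agent.S5674

/-- Let F be a finite field of odd order, m ≥ 6, Q the standard quadratic form x₀² + Σ x_i y_i on F^(2m+1) and Ω the commutator subgroup of its isometry group inside GL_(2m+1)(F). The elements of Ω stabilising a non-zero subspace on which Q vanishes form a maximal subgroup of Ω. -/
theorem result {F : Type*} [Field F] [Fintype F] (hodd : Odd (Fintype.card F)) (m : ℕ) (hm : 6 ≤ m) (W : Submodule F (Unit ⊕ (Fin m ⊕ Fin m) → F)) (hW0 : W ≠ ⊥) (hW : Cfsg.Geo.IsTotallySingularQuad (Cfsg.quadFormOdd m F) W) : Cfsg.Geo.IsMaximalIn (Cfsg.Geo.omegaGL (Cfsg.quadFormOdd m F)) (Cfsg.Geo.subspaceStabilizer W ⊓ Cfsg.Geo.omegaGL (Cfsg.quadFormOdd m F)) := by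
  have hQ := H29.quadFormOdd_nondeg (H29.two_ne_zero_of_odd hodd) m
  have hS := H29.quadOf_nondeg hQ
  rw [← H29.coe_quadOf hQ, H29.omegaGL_eq _ hS (by simp; omega)]
  have hU : (H11.orthS (H29.quadOf hQ)).TS W := H29.orth_ts hW
  refine H29.isMaximalIn_ts hS (by simp; omega) hU hW0 (Or.inr ?_)
  by_cases h : 2 * Module.finrank F W + 2 < Module.finrank F (Unit ⊕ (Fin m ⊕ Fin m) → F)
  · exact Or.inl h
  · refine Or.inr fun U' hU' hle => (Submodule.eq_of_le_of_finrank_le hle ?_).ge
    have := hU'.two_mul_finrank_le hS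
    simp at h this
    omega

end Cfsg.Agent.S5674
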