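import Cfsg.Statements.S5675
import Cfsg.Agent.H29.ND

set_option autoImplicit false
open Cfsg

namespace Cfsg.Agent.S5675

open H11 H11.PForm H29 Matrix

/-- Let F be a finite field of odd order q, m ≥ 6, Q the standard quadratic form on F^(2m+1) and Ω the commutator subgroup of its isometry group. Let W be a non-zero subspace of even dimension on which the polar form of Q is non-degenerate; exclude the case q = 3, dim W = 2 with Q vanishing on some line of W (a plus-type plane). Then the elements of Ω stabilising W (equivalently, stabilising its orthogonal complement, of odd dimension) form a maximal subgroup of Ω. -/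
theorem result {F : Type*} [Field F] [Fintype F] (hodd : Odd (Fintype.card F)) (m : ℕ) (hm : 6 ≤ m) (W : Submodule F (Unit ⊕ (Fin m ⊕ Fin m) → F)) (hW0 : W ≠ ⊥) (hev : Even (Module.finrank F W)) (hW : Cfsg.Geo.IsNondegenerateOn (QuadraticMap.polar (Cfsg.quadFormOdd m F)) W) (hex : ¬ (Fintype.card F = 3 ∧ Module.finrank F W = 2 ∧ Cfsg.Geo.IsPlusTypeOn (Cfsg.quadFormOdd m F) W)) : Cfsg.Geo.IsMaximalIn (Cfsg.Geo.omegaGL (Cfsg.quadFormOdd m F)) (Cfsg.Geo.subspaceStabilizer W ⊓ Cfsg.Geo.omegaGL (Cfsg.quadFormOdd m F)) := by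
  have hQ := H29.quadFormOdd_nondeg (H29.two_ne_zero_of_odd hodd) m
  have hS := H29.quadOf_nondeg hQ
  have hW' := restrict_nondeg_of_on (orthS (quadOf hQ)) (fun x y h => h) hW
  rw [← H29.coe_quadOf hQ, H29.omegaGL_eq _ hS (by simp; omega)]
  have h1 := hS.finrank_perp W
  simp only [Module.finrank_fintype_fun_eq_card, Fintype.card_sum, Fintype.card_unit,
    Fintype.card_fin] at h1
  obtain ⟨k, hk⟩ := hev
  by_cases h : 2 * Module.finrank F W < 1 + (m + m)
  · refine isMaximalIn_nd_small hS (iso3_orth _) (by simp; omega) hW' hW0 (by simpa using h)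
      (orth_irr hW' ?_)
    rintro ⟨h3, h2, x, hx0, hx⟩
    refine hex ⟨?_, h2, F ∙ (x : _ → F), (Submodule.span_singleton_le_iff_mem _ _).2 x.2,
      fun w hw => ?_, by rw [finrank_span_singleton (by simpa using hx0), h2]⟩
    · rw [Nat.card_eq_fintype_card] at h3
      have := Fintype.one_lt_card (α := F)
      obtain ⟨j, hj⟩ := hodd
      omega
    · obtain ⟨c, rfl⟩ := Submodule.mem_span_singleton.1 hw
      rw [hQ.smul]
      exact mul_eq_zero_of_right _ hx
  · refine isMaximalIn_nd_large hS (iso3_orth _) (by simp; omega) hW' (fun h' => ?_)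
      (by simp; omega) (orth_irr (hS.restrict_perp hW') ?_)
    · rw [h'] at hk
      simp at hk
      omega
    · rintro ⟨-, h2, -⟩
      omega

end Cfsg.Agent.S5675
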