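import Cfsg.Statements.S5677
import Cfsg.Agent.H29.O3

set_option autoImplicit false
open Cfsg

namespace Cfsg.Agent.S5677

open H11 H11.PForm H29 Matrix

/-- Let F be a finite field of odd order q, m ≥ 6, Q the standard quadratic form on F^(2m+1) and Ω the commutator subgroup of its isometry group. Let D be a decomposition of F^(2m+1) into t ≥ 2 pairwise orthogonal, pairwise Q-isometric subspaces of equal dimension k > 1 on which the polar form is non-degenerate. Unless q = 3 and k = 3, the elements of Ω permuting the members of D form a maximal subgroup of Ω. -/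
theorem result {F : Type*} [Field F] [Fintype F] (hodd : Odd (Fintype.card F)) (m : ℕ) (hm : 6 ≤ m) {t : ℕ} (k : ℕ) (hk : 1 < k) (D : Fin t → Submodule F (Unit ⊕ (Fin m ⊕ Fin m) → F)) (hD : Cfsg.Geo.IsOrthogonalMDecomposition (Cfsg.quadFormOdd m F) k D) (hex : ¬ (Fintype.card F = 3 ∧ k = 3)) : Cfsg.Geo.IsMaximalIn (Cfsg.Geo.omegaGL (Cfsg.quadFormOdd m F)) (Cfsg.Geo.decompositionStabilizer D ⊓ Cfsg.Geo.omegaGL (Cfsg.quadFormOdd m F)) := by
  have h2 := H29.two_ne_zero_of_odd hodd
  have hQ := H29.quadFormOdd_nondeg h2 m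
  have hS := H29.quadOf_nondeg hQ
  have h : ODec (orthS (quadOf hQ)) k D := odec_of _ (fun x y => Iff.rfl) hD.decomp
  have heq : ∀ i j, Eqv ((orthS (quadOf hQ)).restrict (D i)) ((orthS (quadOf hQ)).restrict (D j)) :=
    fun i j => (hD.isometric i j).elim fun e he => ⟨e, orth_isIsom (f := e.toLinearMap) he⟩
  have hdim : k * t = 1 + (m + m) := by
    have h1 := (DirectSum.isInternal_submodule_of_iSupIndep_of_iSup_eq_top hD.decomp.1.indep
      hD.decomp.1.iSup_eq_top)
    have h3 := (LinearEquiv.ofBijective (DirectSum.coeLinearMap D) h1).finrank_eq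
    simp [Module.finrank_directSum, h.dim] at h3
    rw [mul_comm]; exact h3
  have hko : Odd k := (Nat.odd_mul.1 (show Odd (k * t) from ⟨m, by rw [hdim]; ring⟩)).1
  have hk3 : 3 ≤ k := by obtain ⟨r, hr⟩ := hko; omega
  rw [← H29.coe_quadOf hQ, H29.omegaGL_eq _ hS (by simp; omega)]
  have i0 : Fin t := ⟨0, by have := h.two; omega⟩
  obtain ⟨e, he, f, hf, Hy⟩ := exists_hyp_mem (iso3_orth _) (h.nondeg i0) (by rw [h.dim]; exact hk3)
  refine isMaximalIn_odec hS hD.decomp.1 h (h.exists_E_not_perm hS he Hy.e_ne Hy.sing_e) ?_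
  intro H hH _
  by_cases hk' : k = 3
  · subst hk'
    refine odec3_dichotomy hS h2 ?_ h (by simp; omega) heq H hH
    rw [Nat.card_eq_fintype_card]
    have := Fintype.one_lt_card (α := F)
    obtain ⟨j, hj⟩ := hodd
    omega
  · exact odec_dichotomy hS (iso3_orth _) h (by obtain ⟨r, hr⟩ := hko; omega) heq H hH

end Cfsg.Agent.S5677
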