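import Cfsg.Statements.S5680
import Cfsg.Agent.H29.QA
import Cfsg.Agent.H29.QB
import Cfsg.Agent.H29.QC
import Cfsg.Agent.H14.Q3G
import Cfsg.Agent.H14.Q3H
import Cfsg.Agent.H25.Q3E
import Cfsg.Agent.H21.Q3D

set_option autoImplicit false
open Cfsg

namespace Cfsg.Agent.S5680

open H29 H29.Q3

/-- Let F be a finite field of odd order, m ≥ 6, Q the standard quadratic form on F^(2m+1) and Ω the commutator subgroup of its isometry group. Let K be a subfield of the algebra of (2m+1) × (2m+1) matrices over F containing the scalars, of prime degree r over F with r ≠ 2m + 1, whose elements are self-adjoint for the polar form of Q. Then the elements of Ω normalising K form a maximal subgroup of Ω. -/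
theorem result {F : Type*} [Field F] [Fintype F] (hodd : Odd (Fintype.card F)) (m : ℕ) (hm : 6 ≤ m) (r : ℕ) (hr : r.Prime) (hrn : 2 * m + 1 ≠ r) (K : Subalgebra F (Matrix (Unit ⊕ (Fin m ⊕ Fin m)) (Unit ⊕ (Fin m ⊕ Fin m)) F)) (hK : Cfsg.Geo.IsFieldSubalgebra r K) (hsa : Cfsg.Geo.IsSelfAdjointFor (QuadraticMap.polar (Cfsg.quadFormOdd m F)) K) : Cfsg.Geo.IsMaximalIn (Cfsg.Geo.omegaGL (Cfsg.quadFormOdd m F)) (Cfsg.Geo.subalgebraNormalizer K ⊓ Cfsg.Geo.omegaGL (Cfsg.quadFormOdd m F)) := by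
  have h2 := H29.two_ne_zero_of_odd hodd
  have hQ := H29.quadFormOdd_nondeg h2 m
  have hc : Fintype.card (Unit ⊕ (Fin m ⊕ Fin m)) = 2 * m + 1 := by simp; omega
  letI := (isField_of hK).toField
  have h3 := Module.finrank_mul_finrank F K (Unit ⊕ (Fin m ⊕ Fin m) → F)
  rw [hK.finrank_eq, Module.finrank_fintype_fun_eq_card, hc] at h3
  generalize Module.finrank K (Unit ⊕ (Fin m ⊕ Fin m) → F) = k at h3
  have h4 : 3 ≤ k := by
    by_contra! c
    interval_cases k <;> omega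
  rcases h4.eq_or_lt with rfl | h4
  · refine oo_fld3 h2 (by omega) hQ hr (by omega) (by omega) hK hsa fun h => ?_
    obtain ⟨s1, s2, s3⟩ := pB h (pA h.toOX)
    have inj := H21.Q3D.pD h (fx h) (tx h s2) (ca h (tx h s2))
    exact ⟨s2, pE1 h (tx h s2) (ca h (tx h s2)), H25.Q3E.pE2 h s1 inj, pF1 h, pF2 h s2, H14.Q3G.pG1,
      H14.Q3G.pG2 h, H14.Q3G.pG3 h, H14.Q3G.pG4 h s3 inj⟩
  · exact oo_fld_max h2 (by omega) hQ hr (by rw [hc, ← h3]; nlinarith [hr.pos]) hK hsa

end Cfsg.Agent.S5680
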