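import Cfsg.Statements.S5683
import Cfsg.Agent.H29.RatC

set_option autoImplicit false
open Cfsg

namespace Cfsg.Agent.S5683

open H11 H11.PForm H29 Matrix

/-- Let F be a finite field of odd order, m ≥ 6, Q the standard quadratic form on F^(2m+1) and Ω the commutator subgroup of its isometry group. Let F₀ be a subfield with |F| = |F₀| ^ r for a prime r and P an invertible matrix such that Q takes values in F₀ on the F₀-span of the columns of P. Then the elements of Ω lying in the subfield group of P (the conjugate by P of the product of GL_(2m+1)(F₀) with the scalars) form a maximal subgroup of Ω. -/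
theorem result {F : Type*} [Field F] [Fintype F] (hodd : Odd (Fintype.card F)) (m : ℕ) (hm : 6 ≤ m) (F₀ : Subfield F) (r : ℕ) (hr : r.Prime) (hcard : Fintype.card F = Nat.card F₀ ^ r) (P : Matrix.GeneralLinearGroup (Unit ⊕ (Fin m ⊕ Fin m)) F) (hP : Cfsg.Geo.IsQuadFormRationalStructure (Cfsg.quadFormOdd m F) F₀ P) : Cfsg.Geo.IsMaximalIn (Cfsg.Geo.omegaGL (Cfsg.quadFormOdd m F)) (Cfsg.Geo.subfieldSubgroup F₀ P ⊓ Cfsg.Geo.omegaGL (Cfsg.quadFormOdd m F)) := by
  have hr' := finrank_of_card (F₀ := F₀) (by rwa [Nat.card_eq_fintype_card])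
  have hQ := H29.quadFormOdd_nondeg (H29.two_ne_zero_of_odd hodd) m
  have hS := H29.quadOf_nondeg hQ
  have hq : ∀ x ∈ V0 F₀ (basisOf P), Cfsg.quadFormOdd m F x ∈ F₀ := fun x hx => by
    obtain ⟨u, hu, rfl⟩ := mem_V0_basisOf'.1 hx
    exact hP u hu
  rw [← H29.coe_quadOf hQ, H29.omegaGL_eq _ hS (by simp; omega)]
  exact isMaximalIn_rat hS (by simp; omega)
    ⟨fun c hc => hc, fun x hx y hy => F₀.sub_mem (F₀.sub_mem (hq _ (Submodule.add_mem _ hx hy))
      (hq x hx)) (hq y hy), fun x hx => ⟨_, hq x hx, by simp [coe_quadOf]⟩⟩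
    (hr' ▸ hr) (Or.inr (Or.inl rfl))

end Cfsg.Agent.S5683
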