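import Cfsg.Statements.S5686
import Cfsg.Agent.H29.NM

set_option autoImplicit false
open Cfsg

namespace Cfsg.Agent.S5686

open H29 Matrix

/-- Let F be a finite field with q elements, n ≥ 13 even, Q a non-degenerate quadratic form on F^n of plus type (some subspace of dimension n/2 is totally singular), and Ω the commutator subgroup of the isometry group of Q, viewed inside GL_n(F). The elements of Ω stabilising a subspace of dimension n/2 − 1 on which Q vanishes form a subgroup that is not maximal: some subgroup lies strictly between it and Ω. -/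
theorem result {F : Type*} [Field F] [Fintype F] {n : ℕ} (hn : 13 ≤ n) (heven : Even n) (Q : (Fin n → F) → F) (hQ : Cfsg.Geo.IsNondegenerateQuadraticForm Q) (hplus : Cfsg.Geo.IsPlusTypeOn Q ⊤) (W : Submodule F (Fin n → F)) (hW : Cfsg.Geo.IsTotallySingularQuad Q W) (hdim : 2 * (Module.finrank F W + 1) = n) : ∃ K : Subgroup (Matrix.GeneralLinearGroup (Fin n) F), Cfsg.Geo.subspaceStabilizer W ⊓ Cfsg.Geo.omegaGL Q < K ∧ K < Cfsg.Geo.omegaGL Q := by
  obtain ⟨G, h⟩ := exists_qInv hQ
  have hn' : 7 ≤ Fintype.card (Fin n) := by simp; omega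
  obtain ⟨U, h1, h2, h3, h4⟩ := h.exists_stab_max hn' hplus hW (by simpa)
  simp only [Fintype.card_fin] at h3
  refine between h4 ((big_omega hQ hn').not_stab (by rintro rfl; simp at h3; omega)
    (ne_top_of_lt (by simp; omega))) fun h5 => ?_
  obtain ⟨u, u1, u2, -⟩ := exists_mem_ker_notMem [] U W (by simp; omega)
  obtain ⟨w, w1, w2, -⟩ := exists_mem_ker_notMem [] W (F ∙ u) (by
    have := finrank_span_one_le (F := F) u; simp; omega)
  obtain ⟨v, v1, v2⟩ := h.hf.exists_sep1 w2
  obtain ⟨g, g1, g2⟩ := h.exists_eich hn' (h2 u u1) (h.symm v u ▸ v1)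
  have h6 : ∀ x ∈ U, fm (RingHom.id F) G u x = 0 := fun x hx => h.ts_pp h2 u1 x hx
  have h7 := mulVec_mem_of_stab (h5 ⟨mem_subspaceStabilizer_of_le (g := g) fun x hx => by
    simpa [g2, h6 x hx] using U.sub_mem hx (U.smul_mem _ u1), g1⟩) w1
  rw [g2, h6 w (h1 w1)] at h7
  exact u2 ((W.smul_mem_iff v2).1 (by simpa using W.sub_mem w1 h7))

end Cfsg.Agent.S5686
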