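import Cfsg.Statements.S5687
import Cfsg.Agent.H29.Bridge

set_option autoImplicit false
open Cfsg

namespace Cfsg.Agent.S5687

/-- Let F be a finite field with q elements, n ≥ 13 even, Q a non-degenerate quadratic form on F^n of minus type (no subspace of dimension n/2 is totally singular), and Ω the commutator subgroup of the isometry group of Q, viewed inside GL_n(F). The elements of Ω stabilising a non-zero subspace on which Q vanishes form a maximal subgroup of Ω. -/
theorem result {F : Type*} [Field F] [Fintype F] {n : ℕ} (hn : 13 ≤ n) (heven : Even n) (Q : (Fin n → F) → F) (hQ : Cfsg.Geo.IsNondegenerateQuadraticForm Q) (hminus : ¬ Cfsg.Geo.IsPlusTypeOn Q ⊤) (W : Submodule F (Fin n → F)) (hW0 : W ≠ ⊥) (hW : Cfsg.Geo.IsTotallySingularQuad Q W) : Cfsg.Geo.IsMaximalIn (Cfsg.Geo.omegaGL Q) (Cfsg.Geo.subspaceStabilizer W ⊓ Cfsg.Geo.omegaGL Q) := by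
  have hS := H29.quadOf_nondeg hQ
  rw [← H29.coe_quadOf hQ, H29.omegaGL_eq _ hS (by simp; omega)]
  have hU : (H11.orthS (H29.quadOf hQ)).TS W := H29.orth_ts hW
  refine H29.isMaximalIn_ts hS (by simp; omega) hU hW0 (Or.inr ?_)
  by_cases h : 2 * Module.finrank F W + 2 < Module.finrank F (Fin n → F)
  · exact Or.inl h
  · refine Or.inr fun U' hU' hle => (Submodule.eq_of_le_of_finrank_le hle ?_).ge
    have := hU'.two_mul_finrank_le hS
    have h2 : 2 * Module.finrank F U' ≠ n := fun h2 => hminus ⟨U', le_top,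
      fun w hw => (H11.PForm.orth_sing _ w).1 (hU'.sing w hw), by simpa using h2⟩
    obtain ⟨k, rfl⟩ := heven
    simp at h this
    omega

end Cfsg.Agent.S5687
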