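import Cfsg.Statements.S5689
import Cfsg.Agent.H29.NM2
import Cfsg.Agent.H29.NDOrth

set_option autoImplicit false
open Cfsg

namespace Cfsg.Agent.S5689

open H11 H11.PForm H29 Matrix

/-- Let F be a finite field with q elements, n ≥ 13 even, Q a non-degenerate quadratic form on F^n of minus type (no subspace of dimension n/2 is totally singular), and Ω the commutator subgroup of the isometry group of Q, viewed inside GL_n(F). Let W be a non-zero proper subspace on which the polar form of Q is non-degenerate, not of odd dimension n/2. Exclude the case q ≤ 3 in which W, or its orthogonal complement, is a plane containing a line on which Q vanishes. Then the elements of Ω stabilising W form a maximal subgroup of Ω. -/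
theorem result {F : Type*} [Field F] [Fintype F] {n : ℕ} (hn : 13 ≤ n) (heven : Even n) (Q : (Fin n → F) → F) (hQ : Cfsg.Geo.IsNondegenerateQuadraticForm Q) (hminus : ¬ Cfsg.Geo.IsPlusTypeOn Q ⊤) (W : Submodule F (Fin n → F)) (hW0 : W ≠ ⊥) (hW1 : W ≠ ⊤) (hdim : ¬ (2 * Module.finrank F W = n ∧ Odd (Module.finrank F W))) (hW : Cfsg.Geo.IsNondegenerateOn (QuadraticMap.polar Q) W) (hex : ¬ (Fintype.card F ≤ 3 ∧ (∃ U : Submodule F (Fin n → F), Module.finrank F U = 2 ∧ Cfsg.Geo.IsNondegenerateOn (QuadraticMap.polar Q) U ∧ Cfsg.Geo.IsPlusTypeOn Q U ∧ (U = W ∨ (Cfsg.Geo.AreOrthogonalFor (QuadraticMap.polar Q) U W ∧ Module.finrank F U + Module.finrank F W = n))))) : Cfsg.Geo.IsMaximalIn (Cfsg.Geo.omegaGL Q) (Cfsg.Geo.subspaceStabilizer W ⊓ Cfsg.Geo.omegaGL Q) := by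
  refine isMaximalIn_nd_orth hn hQ W hW0 hW1 hW (fun h2 g hg => ?_) hex _
    (comap_subspaceStabilizer _ W)
  obtain ⟨G, h⟩ := exists_qInv hQ
  have h3 : Even (Module.finrank F W) := Nat.not_odd_iff_even.1 fun e => hdim ⟨h2, e⟩
  have h4 : Cfsg.Geo.IsNondegenerateOn (fm (RingHom.id F) G) W := h.2.1 ▸ hW
  obtain ⟨h5, h6⟩ := pp_compl (inf_pp h4)
  simp only [Fintype.card_fin] at h6
  have h7 := h.typ_sup h4 (h.hf.nd_of_inf (inf_pp h4)).2
    (fun x hx y hy => h.hf.eq_zero_comm (hy x hx)) h3.two_dvd (by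
      rw [show Module.finrank F (pp (RingHom.id F) G W) = Module.finrank F W by omega]
      exact h3.two_dvd)
  have h8 := h.isom_map (A := W) ((isometryGroup_eq (quadOf hQ)).ge ⟨g, rfl⟩)
  rw [toLin'_toGL, map_eq_of_le g.1 (W' := pp (RingHom.id F) G W)
    (fun x hx => h.S_perp W ▸ hg x hx) (by omega)] at h8
  rw [h5, ← typ_isom h8, Int.units_mul_self, typ_eq_one] at h7
  exact hminus h7

end Cfsg.Agent.S5689
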