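import Cfsg.Statements.S5691
import Cfsg.Agent.H29.NM2

set_option autoImplicit false
open Cfsg

namespace Cfsg.Agent.S5691

open H11 H11.PForm H29 Matrix Module

/-- Let F be a finite field with q elements, n ≥ 13 even, Q a non-degenerate quadratic form on F^n (of either type), and Ω the commutator subgroup of the isometry group of Q, viewed inside GL_n(F). Suppose q is even and v is a vector with Q(v) ≠ 0. Then the elements of Ω stabilising the line spanned by v form a maximal subgroup of Ω. -/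
theorem result {F : Type*} [Field F] [Fintype F] {n : ℕ} (hn : 13 ≤ n) (heven : Even n) (Q : (Fin n → F) → F) (hQ : Cfsg.Geo.IsNondegenerateQuadraticForm Q) (hchar : ¬ Odd (Fintype.card F)) (v : (Fin n → F)) (hv : Q v ≠ 0) : Cfsg.Geo.IsMaximalIn (Cfsg.Geo.omegaGL Q) (Cfsg.Geo.subspaceStabilizer (Submodule.span F {v}) ⊓ Cfsg.Geo.omegaGL Q) := by
  obtain ⟨G, h⟩ := exists_qInv hQ
  have h2 := two_eq_of_not_odd hchar
  have hS := h.nondeg
  have h3 := iso3_orth h.S
  have hv0 : v ≠ 0 := by rintro rfl; exact hv h.zero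
  have hd : finrank F (Fin n → F) = n := by simp
  rw [h.omega_eq (by simp; omega)]
  refine isMaximalIn_EGL h.S _ ?_ fun H hH _ => ?_
  · obtain ⟨g, g1, g2⟩ := exists_E_indep hS h3 (by omega) hv0
    exact ⟨g, g1, fun e => g2 ((((mem_subspaceStabilizer_toGL _ _ _).1 e) v).1
      (Submodule.mem_span_singleton_self v))⟩
  rw [comap_subspaceStabilizer] at hH ⊢
  have hE : ∀ u w a, h.S.h u v = 0 → h.S.h w v = 0 → h.S.eich u w a ∈ H := fun u w a b c =>
    hH ⟨mem_stab_of_le fun x hx => by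
      obtain ⟨c, rfl⟩ := Submodule.mem_span_singleton.1 hx
      rw [map_smul, eich_apply_of_perp_perp b ‹_›]
      exact hx, eich_mem_E _ _ _ _⟩
  have hB : ∀ u (hu : h.S.Sing u) y, h.S.h u v = 0 → h.S.h y v = 0 → h.S.h u y = 0 →
      y ∈ BSet H hu := fun u hu y a b c => ⟨_, ⟨hu, c, by rw [sub_self]; exact zero_mem _⟩,
        hE u y (h.S.q y) a b⟩
  by_cases hc : ∀ u (hu : h.S.Sing u), u ≠ 0 → h.S.h u v = 0 → ∀ z ∈ BSet H hu, h.S.h z v = 0
  · refine .inr fun g hg => mem_stab_of_le fun x hx => ?_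
    obtain ⟨c, rfl⟩ := Submodule.mem_span_singleton.1 hx
    rw [map_smul]
    refine Submodule.smul_mem _ _ ?_
    obtain ⟨u, u1, u2, u3⟩ := exists_sing_top hS h3 [v, g.1 v] [v, g.1 v] (by simp; omega)
    rw [list_set_two] at u3
    have u4 := h.S.h_swap_zero (u2 v (by simp))
    have u5 := h.S.h_swap_zero (u2 (g.1 v) (by simp))
    have : v ∈ Submodule.span F {u, g.1 v} := by_contra fun e => by
      obtain ⟨y, y1, y2, y3⟩ := h.hf.exists_sep2 e
      rw [← h.S_h] at y1 y2 y3
      refine y3 (hc u u1 (by rintro rfl; simp at u3) u4 y ?_)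
      have := BSet_map (hu' := u1) (hB _ ((isom_sing g⁻¹ _).2 u1) ((g⁻¹).1 y) (by rwa [← isom_h_right])
        (by rwa [← isom_h_right]) (by rw [isom_h]; exact h.S.h_swap_zero y1)) hg
        (isom_apply_inv_self _ _)
      rwa [isom_apply_inv_self] at this
    obtain ⟨a, b, e⟩ := Submodule.mem_span_pair.1 this
    obtain rfl : a = 0 := by_contra fun ha => u3 ((Submodule.smul_mem_iff _ ha).1 (by
      rw [eq_sub_of_add_eq e]
      exact sub_mem (Submodule.subset_span (by simp))
        (Submodule.smul_mem _ _ (Submodule.subset_span (by simp)))))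
    rw [zero_smul, zero_add] at e
    exact Submodule.mem_span_singleton.2 ⟨b⁻¹, (inv_smul_eq_iff₀
      (left_ne_zero_of_smul (e ▸ hv0))).2 e.symm⟩
  push Not at hc
  obtain ⟨u, hu, u0, u1, z, hz, z1⟩ := hc
  obtain ⟨f, f1, f2⟩ := h.hf.exists_sep1 (u := u) (w := v) fun e => by
    obtain ⟨c, rfl⟩ := Submodule.mem_span_singleton.1 e
    exact hv (by rw [h.smul, show Q u = 0 from (orth_sing _ u).1 hu, mul_zero])
  obtain ⟨a1, a2⟩ := h.nd_pair h2 (x := (fm (RingHom.id F) G f v)⁻¹ • f) (y := v)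
    (by rw [fm_smul_left, inv_mul_cancel₀ f2])
  set A := Submodule.span F {(fm (RingHom.id F) G f v)⁻¹ • f, v}
  have hW := hS.restrict_perp (h.nd a1)
  have a3 := hS.finrank_perp A
  have a4 : ∀ x ∈ h.S.perp A, h.S.h x v = 0 := fun x hx =>
    h.S.h_swap_zero (hx v (Submodule.subset_span (by simp)))
  have a5 : u ∈ h.S.perp A := (mem_perp_pair _).2 ⟨by simp [h.S_h, fm_smul_left, f1],
    h.S.h_swap_zero u1⟩
  have key := fun x y => exists_EW (H := H) (x := x) (y := y) h3 hW (by omega)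
    fun u hu w hw a => hE u w a (a4 u hu) (a4 w hw)
  have hF : Full H u := full_of_BSet hu (fun y hy => by
    obtain e | e := eq_or_ne (h.S.h y v) 0
    · exact hB u hu y u1 e hy
    have hc := div_ne_zero e z1
    obtain ⟨g, g1, g2, g3, -⟩ := key u _ a5 (Submodule.smul_mem _ (h.S.h y v / h.S.h z v) a5) u0
      (smul_ne_zero hc u0) (sub_mem (hu.smul _) hu)
    have b1 := BSet_smul (hu := hu) hc (BSet_map (hu' := hu.smul _) hz g1 g2)
    have g4 := g3 v (h.S.le_perp_perp A (Submodule.subset_span (by simp)))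
    have g5 : h.S.h (g.1 z) v = h.S.h z v := by conv_lhs => rw [← g4, isom_h]
    rw [← sub_add_cancel y ((RingHom.id F) (h.S.h y v / h.S.h z v) • g.1 z)]
    exact add_mem (hB u hu _ u1 (by
      rw [map_sub, LinearMap.sub_apply, h_smul_left, g5]; simp only [RingHom.id_apply, div_mul_cancel₀ _ z1, sub_self])
      (by rw [map_sub, hy, BSet_perp b1, sub_zero])) b1) fun a _ => hE u 0 a u1 (by simp)
  obtain ⟨w, w1, w2⟩ := exists_partner_mem hW a5 u0 hu
  obtain ⟨g, g1, g2, -⟩ := key u w a5 w1 u0 (by rintro rfl; simpa using w2.h_ef) (sub_mem w2.sing_f hu)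
  exact .inl (h.S.E_le_iff.2 fun x y a _ => full_all_of_pair hS hu w2.sing_f hF (g2 ▸ hF.map g1)
    (by rw [w2.h_ef]; exact one_ne_zero) x y a)

end Cfsg.Agent.S5691
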