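import Cfsg.Statements.S5693
import Cfsg.Agent.H29.NM

set_option autoImplicit false
open Cfsg

namespace Cfsg.Agent.S5693

open H29 Matrix

/-- Let F be a finite field with q elements, n ≥ 13 even, Q a non-degenerate quadratic form on F^n of plus type (some subspace of dimension n/2 is totally singular), and Ω the commutator subgroup of the isometry group of Q, viewed inside GL_n(F). Let D be a decomposition of F^n into t ≥ 2 pairwise orthogonal, pairwise Q-isometric subspaces of equal dimension k on which the polar form is non-degenerate (with, for even k, all members of plus type or t even; for odd k, q odd and square discriminant), in one of the cases: k = 2 with q = 3; k = 2 with plus-type members and q ∈ {2, 4, 5}; k = 3 with q = 3; k = 4 with plus-type members and q = 2. Then the elements of Ω permuting the members of D form a subgroup that is not maximal: some subgroup lies strictly between it and Ω. -/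
theorem result {F : Type*} [Field F] [Fintype F] {n : ℕ} (hn : 13 ≤ n) (heven : Even n) (Q : (Fin n → F) → F) (hQ : Cfsg.Geo.IsNondegenerateQuadraticForm Q) (hplus : Cfsg.Geo.IsPlusTypeOn Q ⊤) {t : ℕ} (k : ℕ) (D : Fin t → Submodule F (Fin n → F)) (hD : Cfsg.Geo.IsOrthogonalMDecomposition Q k D) (hke : Even k → ((∀ i, Cfsg.Geo.IsPlusTypeOn Q (D i)) ∨ Even t)) (hko : Odd k → (Odd (Fintype.card F) ∧ Cfsg.Geo.HasSquareDiscriminant Q)) (hcase : ((k = 2 ∧ (Fintype.card F = 3 ∨ ((∀ i, Cfsg.Geo.IsPlusTypeOn Q (D i)) ∧ (Fintype.card F = 2 ∨ Fintype.card F = 4 ∨ Fintype.card F = 5)))) ∨ (k = 3 ∧ Fintype.card F = 3) ∨ (k = 4 ∧ Fintype.card F = 2 ∧ ∀ i, Cfsg.Geo.IsPlusTypeOn Q (D i)))) : ∃ K : Subgroup (Matrix.GeneralLinearGroup (Fin n) F), Cfsg.Geo.decompositionStabilizer D ⊓ Cfsg.Geo.omegaGL Q < K ∧ K < Cfsg.Geo.omegaGL Q := by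
  obtain ⟨G, h⟩ := exists_qInv hQ
  have h1 := h.ndec hD
  have hn' : 7 ≤ Fintype.card (Fin n) := by simp; omega
  have i : Fin t := ⟨0, by have := h1.decomp.two_le; omega⟩
  rcases hcase with ⟨rfl, hq | ⟨hp, hq | hq | hq⟩⟩ | ⟨rfl, hq⟩ | ⟨rfl, hq, hp⟩
  · obtain ⟨v, a, b⟩ := h.exists_ne (h1.nondegenerate i) (mdec_ne_bot h1.decomp i)
    exact h.frame_between hn' (two_ne_zero_of_odd (by rw [hq]; decide)) hD (by omega)
      (by simp; omega) a b fun y hy z hz e e' => h.plane_three hq (h1.nondegenerate i)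
        (h1.decomp.finrank_eq i) hy hz (e ▸ b) (e'.trans e.symm)
  · exact h.even_between hn' (.inl hq) h1 hp
  · exact h.even_between hn' (.inr hq) h1 hp
  · obtain ⟨⟨v, a, b⟩, c⟩ := h.plane_plus (h1.nondegenerate i) (h1.decomp.finrank_eq i) (hp i)
    refine h.frame_between hn' (two_ne_zero_of_odd (by rw [hq]; decide)) hD (by omega)
      (by simp; omega) a (by simp [b]) fun y hy z hz e e' => ?_
    obtain ⟨s, hs, h9, h10⟩ := c y hy z hz (e.trans b) (e'.trans b)
    refine (mul_eq_zero.1 (show (s ^ 2 - 1) * (s ^ 2 + 1) = 0 by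
      linear_combination pow_card_sub (q := 4) hq hs)).imp (fun a => h10 (sub_eq_zero.1 a))
      fun a => ?_
    rw [h.symm, h9]
    field_simp
    linear_combination a
  · obtain ⟨v, a, b, c⟩ := h.frame3 hq (h1.nondegenerate i) (h1.decomp.finrank_eq i)
    exact h.frame_between hn' (two_ne_zero_of_odd (by rw [hq]; decide)) hD (by omega)
      (by simp; omega) a b c
  · exact h.four_between hn' hq h1 hp

end Cfsg.Agent.S5693
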