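import Cfsg.Statements.S5697
import Cfsg.Agent.H29.TSDec

set_option autoImplicit false
open Cfsg

namespace Cfsg.Agent.S5697

open H11 H11.PForm H29 Matrix

/-- Let F be a finite field with q elements, n ≥ 13 even, Q a non-degenerate quadratic form on F^n of plus type (some subspace of dimension n/2 is totally singular), and Ω the commutator subgroup of the isometry group of Q, viewed inside GL_n(F). Suppose n/2 is even and let D be a decomposition of F^n into two complementary subspaces of dimension n/2 on each of which Q vanishes. Then the elements of Ω preserving or interchanging the two subspaces form a maximal subgroup of Ω. -/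
theorem result {F : Type*} [Field F] [Fintype F] {n : ℕ} (hn : 13 ≤ n) (heven : Even n) (Q : (Fin n → F) → F) (hQ : Cfsg.Geo.IsNondegenerateQuadraticForm Q) (hplus : Cfsg.Geo.IsPlusTypeOn Q ⊤) (k : ℕ) (hk : 2 * k = n) (hke : Even k) (D : Fin 2 → Submodule F (Fin n → F)) (hD : Cfsg.Geo.IsMDecomposition k D) (hts : ∀ i, Cfsg.Geo.IsTotallySingularQuad Q (D i)) : Cfsg.Geo.IsMaximalIn (Cfsg.Geo.omegaGL Q) (Cfsg.Geo.decompositionStabilizer D ⊓ Cfsg.Geo.omegaGL Q) := by
  have hS := quadOf_nondeg hQ
  rw [← coe_quadOf hQ, omegaGL_eq _ hS (by simp; omega)]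
  have hts' : ∀ i, (orthS (quadOf hQ)).TS (D i) := fun i => orth_ts (hts i)
  have h := tsdec_of_mdec hD (hts' 0) (hts' 1)
  exact isMaximalIn_tsdec hS lmin_orth (by omega) hD h
    (h.exists_swap_orth hS (iso3_orth _) (by simp; omega) (by rwa [hD.finrank_eq]))

end Cfsg.Agent.S5697
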