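import Cfsg.Statements.S5698
import Cfsg.Agent.H29.NM

set_option autoImplicit false
open Cfsg

namespace Cfsg.Agent.S5698

open H29 Matrix

/-- Let F be a finite field with q elements, n ≥ 13 even, Q a non-degenerate quadratic form on F^n of plus type (some subspace of dimension n/2 is totally singular), and Ω the commutator subgroup of the isometry group of Q, viewed inside GL_n(F). Suppose n/2 is odd and let D be a decomposition of F^n into two complementary subspaces of dimension n/2 on each of which Q vanishes. Then the elements of Ω preserving or interchanging the two subspaces form a subgroup that is not maximal: some subgroup lies strictly between it and Ω. -/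
theorem result {F : Type*} [Field F] [Fintype F] {n : ℕ} (hn : 13 ≤ n) (heven : Even n) (Q : (Fin n → F) → F) (hQ : Cfsg.Geo.IsNondegenerateQuadraticForm Q) (hplus : Cfsg.Geo.IsPlusTypeOn Q ⊤) (k : ℕ) (hk : 2 * k = n) (hko : Odd k) (D : Fin 2 → Submodule F (Fin n → F)) (hD : Cfsg.Geo.IsMDecomposition k D) (hts : ∀ i, Cfsg.Geo.IsTotallySingularQuad Q (D i)) : ∃ K : Subgroup (Matrix.GeneralLinearGroup (Fin n) F), Cfsg.Geo.decompositionStabilizer D ⊓ Cfsg.Geo.omegaGL Q < K ∧ K < Cfsg.Geo.omegaGL Q := by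
  obtain ⟨G, h⟩ := exists_qInv hQ
  have hn' : 7 ≤ Fintype.card (Fin n) := by simp; omega
  have h3 := hD.finrank_eq
  refine between (stab_of_pair hQ hn' hD (hts 0) hko) ((big_omega hQ hn').not_stab
    (mdec_ne_bot hD 0) (ne_top_of_lt (by simp [h3]; omega))) fun h5 => ?_
  obtain ⟨u, u1, u2⟩ := Submodule.exists_mem_ne_zero_of_ne_bot (mdec_ne_bot hD 0)
  obtain ⟨x, x1, x2, x3⟩ := exists_mem_perp (σ := RingHom.id F) (G := G) (D 1) u
    (by rw [h3]; omega)
  obtain ⟨v, v1, v2⟩ : ∃ v ∈ D 0, fm (RingHom.id F) G v x ≠ 0 := by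
    by_contra! h6
    refine x2 (h.hf.right fun y => ?_)
    refine Submodule.iSup_induction D (motive := fun y => fm (RingHom.id F) G y x = 0)
      (hD.iSup_eq_top ▸ Submodule.mem_top : y ∈ iSup D) (fun i y hy => ?_) (by simp)
      fun a b ha hb => by simp [fm_add_left, ha, hb]
    fin_cases i
    · exact h6 y hy
    · exact h.ts_pp (hts 1) hy x x1
  have h6 : ∀ y ∈ D 0, ∀ x ∈ D 0, fm (RingHom.id F) G y x = 0 := fun y hy => h.ts_pp (hts 0) hy
  obtain ⟨g, g1, g2⟩ := h.exists_eich hn' (hts 0 u u1) (h6 u u1 v v1)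
  obtain ⟨τ, hτ⟩ := of_mem_decStab (h5 ⟨mem_subspaceStabilizer_of_le (g := g) fun x hx => by
    simpa [g2, h6 u u1 x hx, h6 v v1 x hx] using hx, g1⟩)
  have h7 := hτ 0 u u1
  have h8 := hτ 1 x x1
  simp only [g2, h6 u u1 u u1, h6 v v1 u u1, h.symm u x, x3] at h7 h8
  have h9 : τ 0 = 0 := mdec_disj hD u2 (by simpa using h7) u1
  have h10 : τ 1 = 1 := by
    have : τ 1 ≠ 0 := fun e => by simpa using τ.injective (e.trans h9.symm)
    omega
  rw [h10] at h8
  simpa using mdec_disj hD u2 u1 (((D 1).smul_mem_iff v2).1 (by simpa using (D 1).sub_mem x1 h8))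

end Cfsg.Agent.S5698
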