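import Cfsg.Statements.S5699
import Cfsg.Agent.H29.NDOrth

set_option autoImplicit false
open Cfsg

namespace Cfsg.Agent.S5699

open H11 H11.PForm H29 Matrix

/-- Let F be a finite field with q elements, n ≥ 13 even, Q a non-degenerate quadratic form on F^n (of either type), and Ω the commutator subgroup of the isometry group of Q, viewed inside GL_n(F). Let D be a decomposition of F^n into two orthogonal subspaces of odd dimension n/2 on which the polar form is non-degenerate and which are not Q-isometric to each other. Then the elements of Ω permuting (necessarily fixing) the two subspaces form a maximal subgroup of Ω. -/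
theorem result {F : Type*} [Field F] [Fintype F] {n : ℕ} (hn : 13 ≤ n) (heven : Even n) (Q : (Fin n → F) → F) (hQ : Cfsg.Geo.IsNondegenerateQuadraticForm Q) (k : ℕ) (hk : 2 * k = n) (hko : Odd k) (D : Fin 2 → Submodule F (Fin n → F)) (hD : Cfsg.Geo.IsNondegenerateMDecomposition (QuadraticMap.polar Q) k D) (hni : ¬ Cfsg.Geo.AreIsometricFor Q (D 0) (D 1)) : Cfsg.Geo.IsMaximalIn (Cfsg.Geo.omegaGL Q) (Cfsg.Geo.decompositionStabilizer D ⊓ Cfsg.Geo.omegaGL Q) := by
  have hS := quadOf_nondeg hQ
  have h0 := hD.decomp.finrank_eq 0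
  have h1 := hD.decomp.finrank_eq 1
  have hp := hS.finrank_perp (D 0)
  simp only [Module.finrank_fintype_fun_eq_card, Fintype.card_fin] at hp
  have hD1 : D 1 = (orthS (quadOf hQ)).perp (D 0) :=
    Submodule.eq_of_le_of_finrank_eq (fun y hy x hx => hD.orthogonal 0 1 (by decide) x hx y hy)
      (by omega)
  have hside : ∀ g : (orthS (quadOf hQ)).Isom,
      ¬ ∀ x ∈ D 0, g.1 x ∈ (orthS (quadOf hQ)).perp (D 0) := by
    intro g hg
    rw [← hD1] at hg
    have := map_eq_of_le g.1 hg (by omega)
    exact hni ⟨(g.1.submoduleMap (D 0)).trans (LinearEquiv.ofEq _ _ this),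
      fun w => orth_isom_q g w⟩
  refine isMaximalIn_nd_orth hn hQ (D 0) (fun h => ?_) (fun h => ?_) (hD.nondegenerate 0)
    (fun _ => hside) ?_ _ ?_
  · rw [h, finrank_bot] at h0; omega
  · rw [h, finrank_top, Module.finrank_fin_fun] at h0; omega
  · rintro ⟨-, U, h2, -, -, rfl | h⟩
    · omega
    · omega
  · ext g
    rw [Subgroup.mem_comap, mem_decompositionStabilizer_toGL]
    constructor
    · rintro ⟨τ, hτ⟩
      have := hτ 0
      rcases Fin.exists_fin_two.1 ⟨τ 0, rfl⟩ with h | h
      · rw [h] at this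
        exact mem_stab_iff_map.2 this
      · rw [h] at this
        exact absurd (fun x hx => by rw [← hD1, ← this]; exact ⟨x, hx, rfl⟩) (hside g)
    · intro hg
      refine ⟨1, Fin.forall_fin_two.2 ⟨mem_stab_iff_map.1 hg, ?_⟩⟩
      rw [Equiv.Perm.one_apply, hD1]
      exact mem_stab_iff_map.1 (stab_le_stab_perp _ hg)

end Cfsg.Agent.S5699
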