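import Cfsg.Statements.S5700
import Cfsg.Agent.H29.ExtU

set_option autoImplicit false
open Cfsg

namespace Cfsg.Agent.S5700

open H11 H11.PForm H29 Matrix Module

/-- Let F be a finite field with q elements, n ≥ 13 even, Q a non-degenerate quadratic form on F^n (of either type), and Ω the commutator subgroup of the isometry group of Q, viewed inside GL_n(F). Let K be a subfield of the algebra of n × n matrices over F containing the scalars, of degree 2 over F, closed under adjoints for the polar form of Q but not consisting of self-adjoint elements, and such that every k in K rescales Q (Q(k v) = c Q(v) for a constant c depending on k). Then the elements of Ω normalising K form a maximal subgroup of Ω. -/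
theorem result {F : Type*} [Field F] [Fintype F] {n : ℕ} (hn : 13 ≤ n) (heven : Even n) (Q : (Fin n → F) → F) (hQ : Cfsg.Geo.IsNondegenerateQuadraticForm Q) (K : Subalgebra F (Matrix (Fin n) (Fin n) F)) (hK : Cfsg.Geo.IsFieldSubalgebra 2 K) (hac : Cfsg.Geo.IsAdjointClosedFor (QuadraticMap.polar Q) K) (hnsa : ¬ Cfsg.Geo.IsSelfAdjointFor (QuadraticMap.polar Q) K) (hsc : ∀ k ∈ K, ∃ c : F, ∀ v : (Fin n → F), Q (Matrix.mulVec k v) = c * Q v) : Cfsg.Geo.IsMaximalIn (Cfsg.Geo.omegaGL Q) (Cfsg.Geo.subalgebraNormalizer K ⊓ Cfsg.Geo.omegaGL Q) := by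
  have hb := big_omega hQ (by simp; omega)
  haveI := hb.nonempty
  have h1 := hb.not_field hK one_lt_two
  have hS := quadOf_nondeg hQ
  have e := omegaGL_eq _ hS (by simp; omega)
  rw [coe_quadOf] at e
  rw [e] at h1 ⊢
  letI := (isField_of hK).toField
  haveI : Finite K := Subtype.finite
  obtain ⟨τ, hτ, θ, U, hne, hfix, h0, -, hθ, hU⟩ := exists_unit_form (K := K) hS hK.finrank_eq
    (fun k => let ⟨k', h, e⟩ := hac k k.2; ⟨⟨k', h⟩, e⟩) fun h => hnsa fun k hk => h ⟨k, hk⟩
  obtain rfl := hθ rfl
  simp only [one_mul] at hU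
  have inj := (algebraMap F K).injective
  have hq : ∀ x, algebraMap F K ((orthS (quadOf hQ)).q x) = U.h x x := by
    obtain ⟨s, hs⟩ := exists_trace_one hτ hne
    obtain ⟨c, hc⟩ := hsc _ s.2
    obtain ⟨d, hd⟩ := hsc _ (1 + s).2
    have h2 : ∀ x, algebraMap F K ((d - 1 - c) * Q x) = U.h x x := fun x => by
      have h3 := hU x (s • x)
      have h4 : Q (x + s • x) = d * Q x := by rw [← hd, ← one_smul K x, smul_smul, ← add_smul]; simp; rfl
      rw [orthS_h, QuadraticMap.polar, coe_quadOf, h4, show Q (s • x) = c * Q x from hc x, map_smul,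
        smul_eq_mul, map_mul, unit_h_self_fixed, ← add_mul, hs, one_mul] at h3
      rw [← h3]
      congr 1
      ring
    obtain ⟨x, hx⟩ := exists_ne (0 : Fin n → F)
    obtain ⟨y, hy⟩ := hS.exists_h_eq_one hx
    have h3 := h2 (x + y)
    simp only [map_add, LinearMap.add_apply, ← h2, U.unit_symm x y] at h3
    have h4 : Q (x + y) - Q x - Q y = 1 := hy
    have h6 : (d - 1 - c) * Q (x + y) = (d - 1 - c) * Q x + (d - 1 - c) * Q y + 1 := inj (by
      rw [map_add, map_add, h3, ← hy, hU]; ring)
    have h5 : d - 1 - c = 1 := by linear_combination h6 - (d - 1 - c) * h4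
    simp only [h5, one_mul] at h2
    exact h2
  have h2 := Module.finrank_mul_finrank F K (Fin n → F)
  rw [hK.finrank_eq, finrank_fintype_fun_eq_card, Fintype.card_fin] at h2
  let ρ : U.Isom →* (orthS (quadOf hQ)).Isom :=
    { toFun := fun g => ⟨g.1.restrictScalars F, orth_isIsom
        (f := (g.1.restrictScalars F).toLinearMap) fun x => inj (by rw [hq, hq]; exact isom_h g x x)⟩
      map_one' := rfl
      map_mul' := fun _ _ => rfl }
  haveI : FiniteDimensional K (Fin n → F) := Module.Finite.of_restrictScalars_finite F K _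
  have hU' : U.Nondeg := fun x hx => hS x fun y => by simpa [hx y] using hU x y
  refine isMaximalIn_of_not_le _ h1 fun H hH => (orth_ext hS hne hfix hU hq (by omega) H fun g hg =>
    ⟨ρ g, hH _ ?_ (mem_nml_of_comm fun k x => ?_), fun _ => rfl⟩).imp_right fun h => le_nml ?_
  · rw [orth_E_eq hS (by simp; omega)]
    exact Subgroup.map_commutator _ _ ρ ▸ Subgroup.mem_map_of_mem ρ (E_le_commutator hU'
      (iso3_unit hne U) (by omega) (lmin_unit hτ hne) hg) |> Subgroup.commutator_mono le_top le_top
  · rw [toGL_mulVec, toGL_mulVec]; exact map_smul g.1 k x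
  · rintro _ ⟨g, hg, rfl⟩
    simp only [toGL_mulVec]
    exact h g hg

end Cfsg.Agent.S5700
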