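import Cfsg.Statements.S5702
import Cfsg.Agent.H29.RatC

set_option autoImplicit false
open Cfsg

namespace Cfsg.Agent.S5702

open H11 H11.PForm H29 Matrix

/-- Let F be a finite field with q elements, n ≥ 13 even, Q a non-degenerate quadratic form on F^n (of either type), and Ω the commutator subgroup of the isometry group of Q, viewed inside GL_n(F). Let F₀ be a subfield with |F| = |F₀| ^ r for a prime r, ζ a non-zero scalar and P an invertible matrix such that ζ·Q takes values in F₀ on the F₀-span of the columns of P. Then the elements of Ω lying in the subfield group of P (the conjugate by P of the product of GL_n(F₀) with the scalars) form a maximal subgroup of Ω. -/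
theorem result {F : Type*} [Field F] [Fintype F] {n : ℕ} (hn : 13 ≤ n) (heven : Even n) (Q : (Fin n → F) → F) (hQ : Cfsg.Geo.IsNondegenerateQuadraticForm Q) (F₀ : Subfield F) (r : ℕ) (hr : r.Prime) (hcard : Fintype.card F = Nat.card F₀ ^ r) (P : Matrix.GeneralLinearGroup (Fin n) F) (ζ : F) (hζ : ζ ≠ 0) (hP : Cfsg.Geo.IsQuadFormRationalStructure (fun v : Fin n → F => ζ * Q v) F₀ P) : Cfsg.Geo.IsMaximalIn (Cfsg.Geo.omegaGL Q) (Cfsg.Geo.subfieldSubgroup F₀ P ⊓ Cfsg.Geo.omegaGL Q) := by
  have hr' := finrank_of_card (F₀ := F₀) (by rwa [Nat.card_eq_fintype_card])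
  have hS := H29.quadOf_nondeg hQ
  have hq : ∀ x ∈ V0 F₀ (basisOf P), ζ * Q x ∈ F₀ := fun x hx => by
    obtain ⟨u, hu, rfl⟩ := mem_V0_basisOf'.1 hx
    exact hP u hu
  rw [← H29.coe_quadOf hQ, H29.omegaGL_eq _ hS (by simp; omega),
    EGL_scale _ (η := 1) hζ (by simp) (by simp)]
  refine isMaximalIn_rat (scale_nondeg hS) (by simp; omega)
    ⟨fun c hc => hc, fun x hx y hy => ?_, fun x hx => ⟨_, hq x hx, by
      simp [mem_scaleP, scale_q, coe_quadOf]⟩⟩ (hr' ▸ hr) (Or.inr (Or.inl ?_))
  · convert F₀.sub_mem (F₀.sub_mem (hq _ (Submodule.add_mem _ hx hy)) (hq x hx)) (hq y hy) using 1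
    rw [scale_h, orthS_h, QuadraticMap.polar, coe_quadOf]
    ring
  · ext a
    simp [mem_scaleP, hζ]

end Cfsg.Agent.S5702
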