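import Cfsg.Statements.S5705
import Cfsg.Agent.H29.NM2

set_option autoImplicit false
open Cfsg

namespace Cfsg.Agent.S5705

open H29 Matrix Kronecker

/-- Let F be the field with 2 elements, n = 2 n₂ ≥ 13 even, Q a non-degenerate quadratic form on F^n of plus type and Ω the commutator subgroup of its isometry group. Suppose that, through P and e, the polar form of Q is similar to the tensor product of non-degenerate symplectic forms f₁ on F^2 and f₂ on F^(n₂), and Q vanishes on the images of all pure tensors. Then the elements of Ω in the stabiliser of this tensor decomposition form a subgroup that is not maximal: some subgroup lies strictly between it and Ω. -/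
theorem result {F : Type*} [Field F] [Fintype F] {n : ℕ} (hn : 13 ≤ n) (heven : Even n) (Q : (Fin n → F) → F) (hQ : Cfsg.Geo.IsNondegenerateQuadraticForm Q) (hplus : Cfsg.Geo.IsPlusTypeOn Q ⊤) (hq : Fintype.card F = 2) (n₂ : ℕ) (h2 : 2 < n₂) (e : (Fin n) ≃ Fin 2 × Fin n₂) (P : Matrix.GeneralLinearGroup (Fin n) F) (f₁ : (Fin 2 → F) → (Fin 2 → F) → F) (f₂ : (Fin n₂ → F) → (Fin n₂ → F) → F) (hf₁ : Cfsg.Geo.IsSymplecticForm f₁) (hf₂ : Cfsg.Geo.IsSymplecticForm f₂) (hT : Cfsg.Geo.IsTensorFormStructure id (QuadraticMap.polar Q) f₁ f₂ e P) (hpure : (∀ (x₁ : Fin 2 → F) (x₂ : Fin n₂ → F), Q (Matrix.mulVec (P : Matrix (Fin n) (Fin n) F) ((fun a : Fin 2 × Fin n₂ => x₁ a.1 * x₂ a.2) ∘ e)) = 0)) : ∃ K : Subgroup (Matrix.GeneralLinearGroup (Fin n) F), Cfsg.Geo.tensorProductSubgroup 2 n₂ e P ⊓ Cfsg.Geo.omegaGL Q < K ∧ K < Cfsg.Geo.omegaGL Q := by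
  obtain ⟨G, h⟩ := exists_qInv hQ
  have h2' := two_eq_of_card (k := 1) hq
  have h11 : (1 : F) + 1 = 0 := one_add_one_eq_two.trans h2'
  have hn' : 7 ≤ Fintype.card (Fin n) := by simp; omega
  have h7 : 7 ≤ n₂ := by have := Fintype.card_congr e; simp at this; omega
  haveI : Nonempty (Fin n₂) := ⟨⟨0, by omega⟩⟩
  obtain ⟨G₁, rfl, h3⟩ := hf_of_symp hf₁
  obtain ⟨G₂, rfl, h4⟩ := hf_of_symp hf₂
  rw [h.2.1] at hT
  obtain ⟨c, hc, h5⟩ := krF_of_tfs (σ := RingHom.id F) hT
  rw [eq_one_of_card_two hq hc, one_smul] at h5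
  set T := coordT e P
  have hp : ∀ w u, Q (pt T w u) = 0 := hpure
  have a1 : G₁ = !![0, 1; 1, 0] := by
    have b0 : G₁ 0 0 = 0 := (fm_single 0 0).symm.trans (hf₁.alternating _)
    have b1 : G₁ 1 1 = 0 := (fm_single 1 1).symm.trans (hf₁.alternating _)
    have b2 := h3.det_ne
    rw [det_fin_two, b0, zero_mul, zero_sub, neg_ne_zero, mul_ne_zero_iff] at b2
    rw [eta_fin_two G₁, b0, b1, eq_one_of_card_two hq b2.1, eq_one_of_card_two hq b2.2]
  have a2 : ∀ x y, fm (RingHom.id F) G₁ x y = x 0 * y 1 + x 1 * y 0 := fun x y => by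
    simp [a1, fm_eq, dotProduct, mulVec]
  obtain ⟨w₁, w0⟩ := exists_ne (0 : Fin n₂ → F)
  obtain ⟨w₂, w1, w2⟩ := exists_perp_notMem h4 (by simp; omega) w₁
  have w3 := h4.eq_zero_comm w2
  let W := ΦU T (kronU (om2 h2') 1)
  have hW : W ∈ Iso (RingHom.id F) G := ΦU_mem_Iso.2 (mem_Iso.2 (by
    rw [h5]
    change (_ ⊗ₖ _)ᵀ * _ * (_ ⊗ₖ _).map _ = _
    rw [kron_map, ← kroneckerMap_transpose, ← mul_kronecker_mul, ← mul_kronecker_mul]
    simp [a1, om2, h11, transpose_apply, ← Matrix.ext_iff, Matrix.mul_apply]))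
  set y := pt T ![1, 0] w₁ + pt T ![0, 1] w₂ with hy
  set y' := pt T ![0, 1] w₁ + pt T ![1, 1] w₂ with hy'
  have hneg : ∀ x : Fin n → F, x + x = 0 := fun x => by
    rw [← one_smul F x, ← add_smul, h11, zero_smul]
  have c0 : ∀ a b : F, (om2 h2').1 *ᵥ ![a, b] = ![b, a + b] := fun a b => by
    ext i; fin_cases i <;> simp [om2, mulVec, dotProduct]
  have c1 : W.1 *ᵥ y = y' := by simp [W, hy, hy', mulVec_add, pt_kron, c0, -coe_ΦU]
  have c2 : W.1 *ᵥ y' = y + y' := by
    simp only [W, hy, hy', mulVec_add, pt_kron, add_add_add_comm (pt T ![1, 0] w₁),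
      ← pt_add_left, c0]
    simp [h11]
  have c3 : ∀ a b, fm (RingHom.id F) G (pt T a w₁ + pt T b w₂) = fun x =>
    fm (RingHom.id F) G (pt T a w₁) x + fm (RingHom.id F) G (pt T b w₂) x :=
    fun a b => funext (fm_add_left _ _)
  obtain ⟨g, g1, g2⟩ := h.exists_eich hn' (u := y) (v := y')
    (by simp [hy, h.add, hp, fm_pt h5, w2])
    (by simp [hy, hy', fm_add_left, fm_add_right, fm_pt h5, w2, w3, hf₂.alternating])
  have c4 : Q y' = 0 := by simp [hy', h.add, hp, fm_pt h5, w2]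
  simp only [c4, zero_mul, add_zero] at g2
  refine (big_omega hQ hn').between_pow (om2_not_sc h2') (om2_kr hq h2' (kr_self e P)) g1
    (ext_mulVec fun x => ?_) fun h6 => ?_
  · have d1 : fm (RingHom.id F) G y' (W.1 *ᵥ x) = fm (RingHom.id F) G y x := by rw [← c1, hW]
    have d2 : fm (RingHom.id F) G y (W.1 *ᵥ x) =
        fm (RingHom.id F) G y x + fm (RingHom.id F) G y' x := by
      rw [← fm_add_left, ← hW (y + y'), mulVec_add _ y, c1, c2, add_left_comm, hneg, add_zero]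
    rw [← mulVec_mulVec, ← mulVec_mulVec, g2, g2, mulVec_sub, mulVec_add, mulVec_smul,
      mulVec_smul, c1, c2, d1, d2]
    linear_combination (norm := module) hneg (fm (RingHom.id F) G y' x • y') -
      hneg (fm (RingHom.id F) G y x • y)
  · obtain ⟨a, b, e'⟩ := kr_self e P g h6
    obtain ⟨u, u1, u2, -⟩ := exists_mem_ker_notMem [] (pp (RingHom.id F) G₂
      (Submodule.span F {w₁, w₂})) ⊥ (by
        have := h4.finrank_pp (Submodule.span F {w₁, w₂})
        have := finrank_span_two_le (F := F) w₁ w₂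
        simp at *; omega)
    have u3 := h4.eq_zero_comm (u1 w₁ (Submodule.subset_span (by simp)))
    have u4 := h4.eq_zero_comm (u1 w₂ (Submodule.subset_span (by simp)))
    obtain ⟨x, x1, x2⟩ := h4.exists_sep1 (u := w₂) (w := w₁) fun e => by
      obtain ⟨c, rfl⟩ := Submodule.mem_span_singleton.1 e
      exact w1 (Submodule.mem_span_singleton.2 ⟨c⁻¹, inv_smul_smul₀ (left_ne_zero_of_smul w0) _⟩)
    obtain ⟨z, z1, z2⟩ := h4.exists_sep1 w1
    obtain ⟨v, hv⟩ := kron_pure (T := T) (u := u) (by simpa using u2)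
      (fun w => by simp [g2, hy, hy', c3, fm_pt h5, u3, u4]) e' ![1, 0] x
    have := congrArg (fm (RingHom.id F) G (pt T ![1, 0] z)) hv
    have x3 : fm (RingHom.id F) G₂ w₁ x ≠ 0 := fun e => x2 (h4.eq_zero_comm e)
    simp [g2, hy, hy', c3, fm_pt h5, a2, h4.eq_zero_comm x1, fm_sub_right, fm_add_right,
      fm_smul_right, z2, x3] at this

end Cfsg.Agent.S5705
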