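import Cfsg.Statements.S5707
import Cfsg.Agent.H23.TW1

set_option autoImplicit false
open Cfsg

namespace Cfsg.Agent.S5707

open H29 H23.TW Matrix

/-- Let F be a finite field with q elements, n ≥ 13 even, Q a non-degenerate quadratic form on F^n of plus type (some subspace of dimension n/2 is totally singular), and Ω the commutator subgroup of the isometry group of Q, viewed inside GL_n(F). Suppose q is even and that, through P and e, the polar form of Q is similar to the t-fold tensor power (t ≥ 2) of a non-degenerate symplectic form f₁ on F^k with k ≤ 4 and (q, k) ≠ (2, 2), Q vanishing on the images of all pure tensors. Then the elements of Ω in the stabiliser of this decomposition form a subgroup that is not maximal: some subgroup lies strictly between it and Ω. -/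
theorem result {F : Type*} [Field F] [Fintype F] {n : ℕ} (hn : 13 ≤ n) (heven : Even n) (Q : (Fin n → F) → F) (hQ : Cfsg.Geo.IsNondegenerateQuadraticForm Q) (hplus : Cfsg.Geo.IsPlusTypeOn Q ⊤) (hchar : ¬ Odd (Fintype.card F)) (k t : ℕ) (ht : 2 ≤ t) (hk : k ≤ 4) (hex1 : ¬ (Fintype.card F = 2 ∧ k = 2)) (e : (Fin n) ≃ (Fin t → Fin k)) (P : Matrix.GeneralLinearGroup (Fin n) F) (f₁ : (Fin k → F) → (Fin k → F) → F) (hf₁ : Cfsg.Geo.IsSymplecticForm f₁) (hT : Cfsg.Geo.IsTensorPowerFormStructure id (QuadraticMap.polar Q) f₁ e P) (hpure : (∀ xs : Fin t → (Fin k → F), Q (Matrix.mulVec (P : Matrix (Fin n) (Fin n) F) ((fun a : Fin t → Fin k => ∏ i, xs i (a i)) ∘ e)) = 0)) : ∃ K : Subgroup (Matrix.GeneralLinearGroup (Fin n) F), Cfsg.Geo.tensorWreathSubgroup k t e P ⊓ Cfsg.Geo.omegaGL Q < K ∧ K < Cfsg.Geo.omegaGL Q := by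
  obtain ⟨G, h⟩ := exists_qInv hQ
  have h2 : (2 : F) = 0 := by
    obtain ⟨m, hm⟩ := Nat.not_odd_iff_even.1 hchar
    exact two_eq_of_card (k := m) (by omega)
  have hn' : 7 ≤ Fintype.card (Fin n) := by simp; omega
  have hc : n = k ^ t := by simpa using Fintype.card_congr e
  obtain ⟨G₀, rfl, h0⟩ := hf_of_symp hf₁
  rw [h.2.1] at hT
  obtain ⟨c, c0, hT⟩ := hT
  have hG : gT (RingHom.id F) G (coordT e P) = c • ten fun _ => G₀ :=
    fm_ext (σ := RingHom.id F) fun x y => by
      rw [fm_gT, coordT_apply, coordT_apply, hT, fm_smul, gram_fm]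
      rfl
  have ha := hf₁.alternating
  have hs : ∀ a b, fm (RingHom.id F) G₀ a b = fm (RingHom.id F) G₀ b a := fun a b => by
    linear_combination hf₁.skew a b - fm (RingHom.id F) G₀ b a * h2
  have hA := al_of ha
  have ij : (⟨0, by omega⟩ : Fin t) ≠ ⟨1, by omega⟩ := by simp
  have hk' : k = 2 ∨ k = 4 := by
    have := h0.det_ne
    interval_cases k
    · rw [zero_pow (by omega)] at hc; omega
    · rw [one_pow] at hc; omega
    · simp
    · exact absurd (by rw [hc] at heven; exact heven) (Nat.not_even_iff_odd.2 (Odd.pow (by decide)))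
    · simp
  rcases hk' with rfl | rfl
  · have ht' : 3 ≤ t := by
      by_contra e
      obtain rfl : t = 2 := by omega
      omega
    obtain ⟨p, p0⟩ := exists_ne (0 : Fin 2 → F)
    obtain ⟨w, w0⟩ : ∃ w, fm (RingHom.id F) G₀ w p ≠ 0 := not_forall.1 fun e => p0 (h0.right e)
    refine between_wr h hn' h2 (wr_self e P) c0 hG h0 ha hpure (fun y => y.trace = 0)
      (fun a _ y hy => by rw [cjA_apply, Matrix.trace_units_conj, hy]) (fun y z => anti2)
      (z := vecMulVec p (G₀ *ᵥ p)) (w := w) ?_ (ext_mulVec fun x => ?_) (fun a b => ?_) ?_ ij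
      (.inl ⟨⟨2, by omega⟩, by simp, by simp⟩)
    · rw [Matrix.trace_vecMulVec, ← ha p, fm_eq]; rfl
    · rw [← mulVec_mulVec, zz_mulVec, zz_mulVec, fm_smul_left, ha, mul_zero, zero_smul, zero_mulVec]
    · rw [zz_mulVec, zz_mulVec, fm_smul_left, fm_smul_right, hs p b, mul_comm]; rfl
    · rw [zz_mulVec]; exact smul_ne_zero w0 p0
  · obtain ⟨p, p0⟩ := exists_ne (0 : Fin 4 → F)
    obtain ⟨q, q1, q2⟩ := exists_perp_notMem h0 (by simp) p
    obtain ⟨w, w1, w2⟩ := h0.exists_sep1 q1
    have z1 : ∀ a, fm (RingHom.id F) G₀ a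
        ((vecMulVec p (G₀ *ᵥ q) + vecMulVec q (G₀ *ᵥ p)) *ᵥ a) = 0 := fun a => by
      simp only [add_mulVec, zz_mulVec, fm_add_right, fm_smul_right, RingHom.id_apply]
      linear_combination fm (RingHom.id F) G₀ a q * fm (RingHom.id F) G₀ a p * h2
    have z2 : (vecMulVec p (G₀ *ᵥ q) + vecMulVec q (G₀ *ᵥ p)) *
        (vecMulVec p (G₀ *ᵥ q) + vecMulVec q (G₀ *ᵥ p)) = 0 := ext_mulVec fun x => by
      simp [← mulVec_mulVec, add_mulVec, zz_mulVec, fm_smul_left, fm_add_left, ha, q2, hs q p]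
    refine between_wr h hn' h2 (wr_self e P) c0 hG h0 ha hpure
      (fun y => y * y = 0 ∧ ∀ a, fm (RingHom.id F) G₀ a (y *ᵥ a) = 0)
      (fun a a1 y hy => ⟨by rw [← map_mul, hy.1, map_zero], fun b => ?_⟩)
      (fun y z hy hz => anti4 h0.unit hA (al_of fun x => ?_) (al_of fun x => ?_) hy.1 hz.1)
      ⟨z2, z1⟩ z2 (fun a b => ?_) (w := w) ?_ ij (.inr ⟨z1, by simp⟩)
    · obtain ⟨d, hd⟩ := a1
      rw [← mulVec_inv_mulVec a b, cjA_mulVec, hd, hy.2, mul_zero]
    · simpa [fm_mulVec_right] using hy.2 x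
    · simpa [fm_mulVec_right] using hz.2 x
    · simp only [add_mulVec, zz_mulVec, fm_add_right, fm_smul_right, fm_add_left, fm_smul_left,
        RingHom.id_apply, hs p b, hs q b]
      ring
    · simp [add_mulVec, zz_mulVec, w1, w2, p0]

end Cfsg.Agent.S5707
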