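import Cfsg.Statements.S5775
import Cfsg.Agent.H29.Ar
import Cfsg.Agent.H29.Fld

set_option autoImplicit false
open Cfsg

namespace Cfsg.Agent.S5775

open Matrix Cfsg.Geo H29

def P4 (v : Fin 3 → F4) : Prop := ∀ i j, v i = 0 ∨ v j = 0 ∨ v i = v j

instance instDecP4 : DecidablePred P4 := fun v => by unfold P4; infer_instance

theorem fld4 {F : Type*} [Field F] [Fintype F] (hF : Fintype.card F = 4) {H : Subgroup (GL (Fin 3) F)}
    (hH : IsMaximalIn (specialLinear (Fin 3) F) H) {K : Subalgebra F (Matrix (Fin 3) (Fin 3) F)}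
    (hK : IsFieldSubalgebra 3 K) (h : H = subalgebraNormalizer K ⊓ specialLinear (Fin 3) F) :
    False := by
  obtain ⟨e⟩ := equiv_of_card (M := F4) hF (by simp [card_QA])
  refine fld_model (r := 7) (s := 3) (j := 2) e (.refl F _) hH (by simpa) (by simp [Nat.prime_three]) h
    (by norm_num) (by rw [card_GL_field, hF]; decide) (by simp [hF]) (by norm_num)
    (fun k hk hk' => Units.ext ?_) (by simp [hF]) (fun a _ ha => mem_SL_of_pow ha (by rw [hF]; decide)) P4
    (A := !![0, 0, 1; 1, 0, 1; 0, 1, 0]) (B := !![1, 0, 0; 0, 0, 1; 0, 1, 1])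
    (C := !![1, 1, 0; 0, 1, 0; 0, 0, 1]) (D := !![1, 0, 0; ⟨0, 1⟩, 1, 0; 0, 0, 1])
    (Y := !![1, 1, 0; 1, 1, 1; 0, 1, 0]) (fun X hX => exists_lift e _ ?_) (by decide +kernel)
    ⟨![1, 0, 0], by decide +kernel⟩ (by decide +kernel) (by decide +kernel) (by decide +kernel)
    (by decide +kernel) (by decide +kernel) (by decide +kernel)
  · simpa [hF] using fld_pow (by simpa) hk' (congrArg Units.val hk)
  · simp only [List.mem_cons, List.not_mem_nil, or_false] at hX
    rcases hX with rfl | rfl | rfl | rfl <;> decide +kernel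

/-- Every maximal subgroup of SL_3(q) is of one of the listed geometric types or lies in the residual class. Let F be a finite field with q elements and H a maximal subgroup of SL_3(F) (viewed inside GL_3(F)). Then H is the intersection with SL_3(F) of one of: the stabiliser of a proper non-zero subspace; for q ≥ 5, the stabiliser of a decomposition of F^3 into three independent lines; for q ≠ 4, the normaliser of a degree-3 subfield of the matrix algebra; a subfield group for a subfield F₀ with |F| = |F₀|^r, r prime; for q = p ≡ 1 mod 3 prime, the normaliser of an absolutely irreducible 3-subgroup R of exponent 3 with centre of order 3, all of whose characteristic abelian subgroups are cyclic, of order 3^(1+2m) for some m ≥ 1, with F the smallest field of characteristic p containing the cube roots of unity (so R is extraspecial of order 27); for q odd, the similarity group of a non-degenerate quadratic form; the similarity group of a non-degenerate unitary form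 — or else H lies in the residual class of the linear case (modulo scalars H is almost simple, with absolutely irreducible perfect socle preimage realisable over no proper subfield and fixing no non-degenerate quadratic, symplectic or unitary form). -/
theorem result {F : Type*} [Field F] [Fintype F] (H : Subgroup (Matrix.GeneralLinearGroup (Fin 3) F)) (hH : Cfsg.Geo.IsMaximalIn (Cfsg.Geo.specialLinear (Fin 3) F) H) :
    (∃ W : Submodule F (Fin 3 → F), W ≠ ⊥ ∧ W ≠ ⊤ ∧ H = Cfsg.Geo.subspaceStabilizer W ⊓ Cfsg.Geo.specialLinear (Fin 3) F) ∨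
    (5 ≤ Fintype.card F ∧ ∃ D : Fin 3 → Submodule F (Fin 3 → F), Cfsg.Geo.IsMDecomposition 1 D ∧ H = Cfsg.Geo.decompositionStabilizer D ⊓ Cfsg.Geo.specialLinear (Fin 3) F) ∨
    (Fintype.card F ≠ 4 ∧ ∃ K : Subalgebra F (Matrix (Fin 3) (Fin 3) F), Cfsg.Geo.IsFieldSubalgebra 3 K ∧ H = Cfsg.Geo.subalgebraNormalizer K ⊓ Cfsg.Geo.specialLinear (Fin 3) F) ∨
    (∃ (F₀ : Subfield F) (r : ℕ) (P : Matrix.GeneralLinearGroup (Fin 3) F), r.Prime ∧ Fintype.card F = Nat.card F₀ ^ r ∧ H = Cfsg.Geo.subfieldSubgroup F₀ P ⊓ Cfsg.Geo.specialLinear (Fin 3) F) ∨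
    (∃ (p : ℕ) (R : Subgroup (Matrix.GeneralLinearGroup (Fin 3) F)), p.Prime ∧ Fintype.card F = p ∧ p % 3 = 1 ∧ Cfsg.Geo.IsLinearSymplecticTypeData 3 R ∧ H = Cfsg.Geo.subgroupNormalizer R ⊓ Cfsg.Geo.specialLinear (Fin 3) F) ∨
    (Odd (Fintype.card F) ∧ ∃ Q : (Fin 3 → F) → F, Cfsg.Geo.IsNondegenerateQuadraticForm Q ∧ H = Cfsg.Geo.quadSimilarityGroup Q ⊓ Cfsg.Geo.specialLinear (Fin 3) F) ∨
    (∃ (σ : F ≃+* F) (f : (Fin 3 → F) → (Fin 3 → F) → F), Cfsg.Geo.IsUnitaryForm σ f ∧ H = Cfsg.Geo.similarityGroup f ⊓ Cfsg.Geo.specialLinear (Fin 3) F) ∨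
    Cfsg.Geo.InLinearResidualClass H := by
  rcases H29.lin_max (by norm_num) hH with h | ⟨t, m, D, hD, h1, h2, h3, h4, h⟩ |
    ⟨r, K, hr, h1, hK, h⟩ | ⟨a, b, e, P, h1, h2, h3, h4, h⟩ | h | ⟨r, R, hR, h⟩ |
    ⟨k, t, e, P, h1, h2, h3, h⟩ | h | ⟨h1, h⟩ | h | h
  · exact .inl h
  · obtain ⟨rfl, rfl⟩ : t = 3 ∧ m = 1 := by
      have : t ≤ 3 := Nat.le_of_dvd (by norm_num) ⟨_, h1.symm⟩
      interval_cases t <;> omega
    exact .inr (.inl ⟨h3 rfl, D, hD, h⟩)
  · obtain rfl : r = 3 := (Nat.prime_dvd_prime_iff_eq hr Nat.prime_three).1 h1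
    exact .inr (.inr (.inl ⟨fun e => fld4 e hH hK h, K, hK, h⟩))
  · have : a ≤ 3 := Nat.le_of_dvd (by norm_num) ⟨_, h3.symm⟩
    interval_cases a <;> omega
  · exact .inr (.inr (.inr (.inl h)))
  · obtain ⟨⟨m, h1⟩, hr, p, e, h2, h3⟩ := H29.lin_data (by norm_num) hR
    obtain rfl := H29.eq_of_pow (p := 3) h1 hr (by norm_num) (by norm_num)
    rcases h3 with ⟨h3, h4, h5⟩ | ⟨h3, h4, h5⟩
    · obtain ⟨h6, h7, h8⟩ := H29.min_odd_three h5 h2 h4
      exact .inr (.inr (.inr (.inr (.inl ⟨p, R, h6, h7, h8, hR, h⟩))))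
    · omega
  · obtain ⟨rfl, rfl⟩ := H29.wr_cases h1 h2 (by omega)
    omega
  · exact .inr (.inr (.inr (.inr (.inr (.inl h)))))
  · exact absurd h1 (by decide)
  · exact .inr (.inr (.inr (.inr (.inr (.inr (.inl h))))))
  · exact .inr (.inr (.inr (.inr (.inr (.inr (.inr h))))))

end Cfsg.Agent.S5775
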