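import Cfsg.Statements.S5778
import Cfsg.Agent.H24.U3e
import Cfsg.Agent.H24.U3g

set_option autoImplicit false
open Cfsg

namespace Cfsg.Agent.S5778

open Matrix Cfsg.Geo H29 H24.U3

/-- Every maximal subgroup of SU_3(q), q ≥ 3, is of one of the listed geometric types or lies in the residual class. Let F be the field with q² elements, f the standard unitary form Σ u_i v_i^q on F^3, and H a maximal subgroup of SU_3(q) (the determinant-one isometries of f, inside GL_3(F)). Then H is the intersection with SU_3(q) of one of: the stabiliser of a non-zero subspace on which f vanishes; the stabiliser of a non-degenerate 1-space; for q ≠ 5, the stabiliser of a decomposition into three mutually orthogonal non-degenerate 1-spaces; for q ≠ 3, 5, the normaliser of an adjoint-closed degree-3 subfield of the matrix algebra; a subfield group of odd prime index whose F₀-structure carries f; for q odd,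 q ≥ 7, a subfield group of index 2 whose F₀-structure carries f; for q = p ≡ 2 mod 3 prime with p ≥ 11, the normaliser of an absolutely irreducible subgroup of order 27 with centre of order 3, exponent 3 and all characteristic abelian subgroups cyclic, contained in the similarity group of f — or else H lies in the residual class of the unitary case. -/
theorem result {F : Type*} [Field F] [Fintype F] (q : ℕ) (hF : Fintype.card F = q ^ 2) (hq : 3 ≤ q) (H : Subgroup (Matrix.GeneralLinearGroup (Fin 3) F)) (hH : Cfsg.Geo.IsMaximalIn (Cfsg.GU 3 F q ⊓ Cfsg.Geo.specialLinear (Fin 3) F) H) :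
    (∃ W : Submodule F (Fin 3 → F), W ≠ ⊥ ∧ Cfsg.Geo.IsTotallySingularFor (Cfsg.hermForm 3 F q) W ∧ H = Cfsg.Geo.subspaceStabilizer W ⊓ (Cfsg.GU 3 F q ⊓ Cfsg.Geo.specialLinear (Fin 3) F)) ∨
    (∃ W : Submodule F (Fin 3 → F), W ≠ ⊥ ∧ Cfsg.Geo.IsNondegenerateOn (Cfsg.hermForm 3 F q) W ∧ 2 * Module.finrank F W < 3 ∧ H = Cfsg.Geo.subspaceStabilizer W ⊓ (Cfsg.GU 3 F q ⊓ Cfsg.Geo.specialLinear (Fin 3) F)) ∨
    (q ≠ 5 ∧ ∃ D : Fin 3 → Submodule F (Fin 3 → F), Cfsg.Geo.IsNondegenerateMDecomposition (Cfsg.hermForm 3 F q) 1 D ∧ H = Cfsg.Geo.decompositionStabilizer D ⊓ (Cfsg.GU 3 F q ⊓ Cfsg.Geo.specialLinear (Fin 3) F)) ∨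
    (q ≠ 3 ∧ q ≠ 5 ∧ ∃ K : Subalgebra F (Matrix (Fin 3) (Fin 3) F), Cfsg.Geo.IsFieldSubalgebra 3 K ∧ Cfsg.Geo.IsAdjointClosedFor (Cfsg.hermForm 3 F q) K ∧ H = Cfsg.Geo.subalgebraNormalizer K ⊓ (Cfsg.GU 3 F q ⊓ Cfsg.Geo.specialLinear (Fin 3) F)) ∨
    (∃ (F₀ : Subfield F) (r : ℕ) (P : Matrix.GeneralLinearGroup (Fin 3) F), r.Prime ∧ Odd r ∧ Fintype.card F = Nat.card F₀ ^ r ∧ Cfsg.Geo.IsFormRationalStructure (Cfsg.hermForm 3 F q) F₀ 1 P ∧ H = Cfsg.Geo.subfieldSubgroup F₀ P ⊓ (Cfsg.GU 3 F q ⊓ Cfsg.Geo.specialLinear (Fin 3) F)) ∨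
    (Odd q ∧ 7 ≤ q ∧ ∃ (F₀ : Subfield F) (P : Matrix.GeneralLinearGroup (Fin 3) F), Fintype.card F = Nat.card F₀ ^ 2 ∧ Cfsg.Geo.IsFormRationalStructure (Cfsg.hermForm 3 F q) F₀ 1 P ∧ H = Cfsg.Geo.subfieldSubgroup F₀ P ⊓ (Cfsg.GU 3 F q ⊓ Cfsg.Geo.specialLinear (Fin 3) F)) ∨
    (∃ (p : ℕ) (R : Subgroup (Matrix.GeneralLinearGroup (Fin 3) F)), p.Prime ∧ q = p ∧ p % 3 = 2 ∧ 11 ≤ p ∧ Cfsg.Geo.IsSymplecticTypeGroup 3 R ∧ Cfsg.Geo.ActsAbsolutelyIrreducibly (Cfsg.Geo.matrixSet R) ∧ R ≤ Cfsg.Geo.similarityGroup (Cfsg.hermForm 3 F q) ∧ Nat.card R = 27 ∧ Nat.card (Subgroup.center R) = 3 ∧ H = Cfsg.Geo.subgroupNormalizer R ⊓ (Cfsg.GU 3 F q ⊓ Cfsg.Geo.specialLinear (Fin 3) F)) ∨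
    Cfsg.Geo.InUnitaryResidualClass H := by
  obtain ⟨σ, hσq, hσ, hne⟩ := H11.exists_frob hF
  have h0 := hf_one (κ := Fin 3) hσ
  have hb := big_su h0 hne (by simp) (by
    rintro ⟨-, e⟩
    rw [hF] at e
    nlinarith)
  have hb' := hb
  rw [← GU_iso hσq] at hb'
  have mx := fun X h1 h2 => eq_of_max (M := X) hH h1 h2
  have pp : ∀ {p : ℕ}, p.Prime → q = p → p % 3 = 2 → q ≠ 5 → 11 ≤ p := fun {p} a b c d => by
    by_contra! e
    subst b
    interval_cases q <;> first | omega | exact absurd a (by norm_num)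
  rcases u_list (R := fun X => H ≤ X) le_rfl hF (hH.1.le.trans inf_le_left) (fun _ h _ => h) with (⟨W, h1, h2, h⟩ | ⟨W, h1, h2, h3, h⟩ |
    ⟨t, k, D, hD, h1, h2, h3, h⟩ | ⟨k, D, h1, h⟩ | ⟨F₀, r, P, h1, h2, h3, h4, h⟩ | ⟨h1, F₀, P, h2, h3, h⟩ | ⟨h1, h⟩ |
    ⟨r, m, p, e, E, h1, h2, h3, h4, h5, h6, h7, h8, h9, h10, h⟩ | ⟨r, K, hr, ho, h1, h2, h3, h⟩ | ⟨a, b, e, P, f₁, f₂, h1, h2, h3, h4, h⟩ |
    ⟨k, t, e, P, f₁, h1, h2, h3, h4, h⟩) | h
  · exact .inl ⟨W, h1, h2, mx _ h (hb'.not_stab h1 (ts_ne_top h0 (herm_eq hσq 3 ▸ h2)))⟩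
  · exact .inr (.inl ⟨W, h1, h2, h3, mx _ h (hb'.not_stab h1 (ne_top_of_lt (by simp; omega)))⟩)
  · obtain ⟨rfl, rfl⟩ : t = 3 ∧ k = 1 := by
      have : t ≤ 3 := Nat.le_of_dvd (by norm_num) ⟨_, h1.symm⟩
      interval_cases t <;> omega
    have e := mx _ h (GU_iso hσq 3 ▸ not_frame hF hq hσq hσ hne hb (herm_eq hσq 3 ▸ hD))
    refine .inr (.inr (.inl ⟨?_, D, hD, e⟩))
    rintro rfl
    exact not_between hH e (frame5 hF hD)
  · omega
  · exact .inr (.inr (.inr (.inr (.inl ⟨F₀, r, P, h1, h2, h3, h4, mx _ h (hb'.not_sub (ne_top_of_card h1 h3) P)⟩))))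
  · have e := mx _ h (hb'.not_sub (ne_top_of_card Nat.prime_two h2) P)
    refine .inr (.inr (.inr (.inr (.inr (.inl ⟨h1, not_lt.1 fun c => ?_, F₀, P, h2, h3, e⟩)))))
    obtain rfl | rfl : q = 3 ∨ q = 5 := by obtain ⟨k, rfl⟩ := h1; omega
    exacts [not_between hH e (orth3 hF h2 h3), not_between hH e (orth5 hF h2 h3)]
  · exact absurd h1 (by decide)
  · obtain rfl := H29.eq_of_pow (p := 3) h1 h6.prime (by norm_num) (by norm_num)
    obtain rfl : 1 = m := Nat.pow_right_injective (by norm_num : 2 ≤ 3) h1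
    obtain ⟨rfl, h11⟩ := min_ev_three h4 h2
    have e := mx _ h (hb'.not_nml h6.prime h6.pGroup h7 (GU_iso hσq 3 ▸ (nml_Iso' (((h5 (by decide)).trans (GU_iso hσq 3).le).trans Iso_le_Sim)).inf (nml_SL E)))
    refine .inr (.inr (.inr (.inr (.inr (.inr (.inl ⟨p, E, h4.1, h3.trans (pow_one p), h11, pp h4.1 (h3.trans (pow_one p)) h11 ?_, h6, h7, h8, h9, h10, e⟩))))))
    rintro rfl
    exact not_between hH e (ext5 hF (h5 (by decide)) h6 h7 h9 h10)
  · obtain rfl : r = 3 := (Nat.prime_dvd_prime_iff_eq hr Nat.prime_three).1 h1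
    have e := mx _ h (hb'.not_field h2 hr.one_lt)
    refine .inr (.inr (.inr (.inl ⟨?_, ?_, K, h2, h3, e⟩))) <;> rintro rfl
    exacts [fld3 hF hH h2 h3 e, fld5 hF hH h2 h3 e]
  · have : a ≤ 3 := Nat.le_of_dvd (by norm_num) ⟨_, h1.symm⟩
    interval_cases a <;> omega
  · obtain ⟨rfl, rfl⟩ := H29.wr_cases h2 h3 (by omega)
    omega
  · exact .inr (.inr (.inr (.inr (.inr (.inr (.inr h))))))

end Cfsg.Agent.S5778
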