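import Cfsg.Statements.S5781
import Cfsg.Agent.H29.Ar
import Cfsg.Agent.H29.Fq

set_option autoImplicit false
open Cfsg

namespace Cfsg.Agent.S5781

open Matrix Cfsg.Geo H29

def P5 (v : Fin 4 → ZMod 5) : Prop := wgt v ≤ 2 ∨ (∏ i, v i) ^ 2 = 1

instance instDecP5 : DecidablePred P5 := fun v => by unfold P5; infer_instance

theorem mono5 {F : Type*} [Field F] [Fintype F] (hF : Fintype.card F = 5)
    {D : Fin 4 → Submodule F (Fin 4 → F)} (hD : IsMDecomposition 1 D) :
    ∃ K, decompositionStabilizer D ⊓ specialLinear (Fin 4) F < K ∧ K < specialLinear (Fin 4) F := by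
  obtain ⟨e⟩ := equiv_of_card (M := ZMod 5) hF (ZMod.card 5)
  obtain ⟨b, h1, h2⟩ := exists_vecs hD
  obtain ⟨T, -, hT⟩ := exists_monoT hD h1 h2
  refine mono_between e hT P5 (fun τ d g hg e v hv => ?_)
    (A := !![3, 3, 3, 3; 3, 2, 3, 2; 3, 3, 2, 2; 3, 2, 2, 3])
    (B := !![1, 0, 0, 0; 0, 1, 0, 0; 1, 0, 1, 0; 0, 0, 0, 1])
    (exists_lift e T (by decide +kernel)) (exists_lift e T (by decide +kernel)) (by decide +kernel)
    ⟨![1, 1, 0, 0], by decide +kernel⟩ ⟨0, 1, 0, by decide +kernel⟩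
  obtain ⟨h3, h4⟩ := mono_sq (det_of_lift hg e)
  rwa [P5, wgt_mono _ h4, prod_mono, mul_pow, h3, one_mul]

theorem dec3 {F : Type*} [Field F] [Fintype F] (hF : Fintype.card F = 3)
    {D : Fin 2 → Submodule F (Fin 4 → F)} (hD : IsMDecomposition 2 D) :
    ∃ G, HF (RingHom.id F) (-1) G ∧ (∀ v, fm (RingHom.id F) G v v = 0) ∧
      decompositionStabilizer D ⊓ specialLinear (Fin 4) F ≤ Sim (RingHom.id F) G := by
  obtain ⟨T, hT⟩ := exists_decT' hD
  have h := HF.blockDiagonal (t := 2) (fun _ => rfl) fun _ => hf_J2 (F := F)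
  refine ⟨_, h.gT T.symm, fun v => ?_, fun g hg => ?_⟩
  · rw [fm_gT]
    exact alt_of_skew h (fun ⟨i, j⟩ => by fin_cases i <;> simp [J2]) _
  obtain ⟨τ, a, e⟩ := hT g hg.1
  have h1 : g.1.det = 1 := congrArg Units.val hg.2
  rw [e, det_Φ, det_bm, Fintype.card_fin, Int.units_sq, Fin.prod_univ_two] at h1
  have h2 : (a 1).1.det = (a 0).1.det := by
    have := pow_card_sub (q := 2) hF (det_ne_zero (a 0))
    simp only [Units.val_one, Int.cast_one, one_mul] at h1
    linear_combination (a 0).1.det * h1 - (a 1).1.det * this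
  refine mem_Sim_of_Φ e (det_ne_zero (a 0)) ?_
  simp only [bm_gram, gram_J2]
  rw [← blockDiagonal_smul]
  congr 1
  ext1 j
  fin_cases j <;> simp [h2]

/-- Every maximal subgroup of SL_4(q) is of one of the listed geometric types or lies in the residual class. Let F be a finite field with q elements and H a maximal subgroup of SL_4(F) (inside GL_4(F)). Then H is the intersection with SL_4(F) of one of: the stabiliser of a proper non-zero subspace; for q ≥ 7, the stabiliser of a decomposition into four independent lines; for q ≥ 4, the stabiliser of a decomposition into two independent planes; the normaliser of a degree-2 subfield of the matrix algebra; a subfield group for a subfield F₀ with |F| = |F₀|^r, r prime; for q = p ≡ 1 mod 4 prime, the normaliser of an absolutely irreducible 2-subgroup R of exponent 4 with centre of order 4, all of whose characteristic abelian subgroups are cyclic, of order 2^(2+2m) for some m (here |R| = 64),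 with 4 dividing p − 1; for q odd, the similarity group of a non-degenerate quadratic form; the similarity group of a non-degenerate symplectic form; the similarity group of a non-degenerate unitary form — or else H lies in the residual class of the linear case. -/
theorem result {F : Type*} [Field F] [Fintype F] (H : Subgroup (Matrix.GeneralLinearGroup (Fin 4) F)) (hH : Cfsg.Geo.IsMaximalIn (Cfsg.Geo.specialLinear (Fin 4) F) H) :
    (∃ W : Submodule F (Fin 4 → F), W ≠ ⊥ ∧ W ≠ ⊤ ∧ H = Cfsg.Geo.subspaceStabilizer W ⊓ Cfsg.Geo.specialLinear (Fin 4) F) ∨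
    (7 ≤ Fintype.card F ∧ ∃ D : Fin 4 → Submodule F (Fin 4 → F), Cfsg.Geo.IsMDecomposition 1 D ∧ H = Cfsg.Geo.decompositionStabilizer D ⊓ Cfsg.Geo.specialLinear (Fin 4) F) ∨
    (4 ≤ Fintype.card F ∧ ∃ D : Fin 2 → Submodule F (Fin 4 → F), Cfsg.Geo.IsMDecomposition 2 D ∧ H = Cfsg.Geo.decompositionStabilizer D ⊓ Cfsg.Geo.specialLinear (Fin 4) F) ∨
    (∃ K : Subalgebra F (Matrix (Fin 4) (Fin 4) F), Cfsg.Geo.IsFieldSubalgebra 2 K ∧ H = Cfsg.Geo.subalgebraNormalizer K ⊓ Cfsg.Geo.specialLinear (Fin 4) F) ∨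
    (∃ (F₀ : Subfield F) (r : ℕ) (P : Matrix.GeneralLinearGroup (Fin 4) F), r.Prime ∧ Fintype.card F = Nat.card F₀ ^ r ∧ H = Cfsg.Geo.subfieldSubgroup F₀ P ⊓ Cfsg.Geo.specialLinear (Fin 4) F) ∨
    (∃ (p : ℕ) (R : Subgroup (Matrix.GeneralLinearGroup (Fin 4) F)), p.Prime ∧ Fintype.card F = p ∧ p % 4 = 1 ∧ Cfsg.Geo.IsLinearSymplecticTypeData 2 R ∧ H = Cfsg.Geo.subgroupNormalizer R ⊓ Cfsg.Geo.specialLinear (Fin 4) F) ∨
    (Odd (Fintype.card F) ∧ ∃ Q : (Fin 4 → F) → F, Cfsg.Geo.IsNondegenerateQuadraticForm Q ∧ H = Cfsg.Geo.quadSimilarityGroup Q ⊓ Cfsg.Geo.specialLinear (Fin 4) F) ∨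
    (∃ f : (Fin 4 → F) → (Fin 4 → F) → F, Cfsg.Geo.IsSymplecticForm f ∧ H = Cfsg.Geo.similarityGroup f ⊓ Cfsg.Geo.specialLinear (Fin 4) F) ∨
    (∃ (σ : F ≃+* F) (f : (Fin 4 → F) → (Fin 4 → F) → F), Cfsg.Geo.IsUnitaryForm σ f ∧ H = Cfsg.Geo.similarityGroup f ⊓ Cfsg.Geo.specialLinear (Fin 4) F) ∨
    Cfsg.Geo.InLinearResidualClass H := by
  have h0 := Fintype.one_lt_card (α := F)
  rcases H29.lin_max (by norm_num) hH with h | ⟨t, m, D, hD, h1, h2, h3, h4, h⟩ |
    ⟨r, K, hr, h1, hK, h⟩ | ⟨a, b, e, P, h1, h2, h3, h4, h⟩ | h | ⟨r, R, hR, h⟩ |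
    ⟨k, t, e, P, h1, h2, h3, h⟩ | h | ⟨h1, h⟩ | h | h
  · exact .inl h
  · obtain ⟨rfl, rfl⟩ | ⟨rfl, rfl⟩ : t = 4 ∧ m = 1 ∨ t = 2 ∧ m = 2 := by
      have : t ≤ 4 := Nat.le_of_dvd (by norm_num) ⟨_, h1.symm⟩
      have := hD.pos
      interval_cases t <;> omega
    · refine .inr (.inl ⟨?_, D, hD, h⟩)
      have h5 : Fintype.card F ≠ 5 := fun e => not_between hH h (mono5 e hD)
      have h6 : Fintype.card F ≠ 6 := fun e => by
        have := e ▸ FiniteField.isPrimePow_card F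
        revert this
        decide
      have := h3 rfl
      omega
    · by_cases h5 : Fintype.card F = 3
      · obtain ⟨G, h6, h7, h8⟩ := dec3 h5 hD
        exact .inr (.inr (.inr (.inr (.inr (.inr (.inr (.inl ⟨_, h6.symp h7,
          eq_of_max hH (h ▸ h8) (not_SL_le_sim (by simp) h6)⟩)))))))
      · exact .inr (.inr (.inl ⟨by have := h4 rfl; omega, D, hD, h⟩))
  · obtain rfl : r = 2 := (Nat.prime_dvd_prime_iff_eq hr Nat.prime_two).1
      (hr.dvd_of_dvd_pow (n := 2) h1)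
    exact .inr (.inr (.inr (.inl ⟨K, hK, h⟩)))
  · have : a ≤ 4 := Nat.le_of_dvd (by norm_num) ⟨_, h3.symm⟩
    interval_cases a <;> omega
  · exact .inr (.inr (.inr (.inr (.inl h))))
  · obtain ⟨⟨m, h1⟩, hr, p, e, h2, h3⟩ := H29.lin_data (by norm_num) hR
    obtain rfl := H29.eq_of_pow (p := 2) h1 hr (by norm_num) (by norm_num)
    rcases h3 with ⟨h3, h4, h5⟩ | ⟨h3, h4, h5⟩
    · exact absurd h3 (by decide)
    · obtain ⟨h6, h7, h8⟩ := H29.min_one (by norm_num) h5
      exact .inr (.inr (.inr (.inr (.inr (.inl ⟨p, R, h6, h7, h8, hR, h⟩)))))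
  · obtain ⟨rfl, rfl⟩ := H29.wr_cases h1 h2 (by omega)
    omega
  · exact .inr (.inr (.inr (.inr (.inr (.inr (.inl h))))))
  · exact .inr (.inr (.inr (.inr (.inr (.inr (.inr (.inl h)))))))
  · exact .inr (.inr (.inr (.inr (.inr (.inr (.inr (.inr (.inl h))))))))
  · exact .inr (.inr (.inr (.inr (.inr (.inr (.inr (.inr (.inr h))))))))

end Cfsg.Agent.S5781
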