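import Cfsg.Statements.S5784
import Cfsg.Agent.H29.Ar
import Cfsg.Agent.H29.TS2

set_option autoImplicit false
open Cfsg

namespace Cfsg.Agent.S5784

open Matrix Cfsg.Geo H29

def P9 (v : Fin 4 → F9) : Prop := ∑ i, v i ^ 4 ≠ 0 ∧ (wgt v ≤ 2 ∨ (∏ i, v i) ^ 2 = 1)

instance instDecP9 : DecidablePred P9 := fun v => by unfold P9; infer_instance

theorem hP9 : ∀ a b c d : F9, P9 ![a, b, c, d] →
    P9 (!![2, 2, 2, 2; 2, 1, 2, 1; 2, 2, 1, 1; 2, 1, 1, 2] *ᵥ ![a, b, c, d]) := by decide +kernel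

variable {F : Type*} [Field F] [Fintype F]

theorem mono9 (hF : Fintype.card F = 3 ^ 2) {D : Fin 4 → Submodule F (Fin 4 → F)}
    (hD : IsNondegenerateMDecomposition (Cfsg.hermForm 4 F 3) 1 D) :
    ∃ K, decompositionStabilizer D ⊓ (Cfsg.GU 4 F 3 ⊓ specialLinear (Fin 4) F) < K ∧
      K < Cfsg.GU 4 F 3 ⊓ specialLinear (Fin 4) F := by
  obtain ⟨e⟩ := equiv_of_card (M := F9) hF (by simp [card_QA])
  obtain ⟨σ, hq, hσ, hne⟩ := H11.exists_frob hF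
  rw [GU_iso hq]
  rw [herm_eq hq] at hD
  obtain ⟨T, hG, hT⟩ := exists_monoU (hf_one hσ) hne hD
  refine mono_between e hT P9 (fun τ d g hg e v hv => ?_)
    (A := !![2, 2, 2, 2; 2, 1, 2, 1; 2, 2, 1, 1; 2, 1, 1, 2])
    (B := !![⟨1, 1⟩, ⟨0, 1⟩, ⟨0, 1⟩, 0; ⟨0, 1⟩, ⟨1, 1⟩, ⟨0, 1⟩, 0; ⟨0, 1⟩, ⟨0, 1⟩, ⟨1, 1⟩, 0; 0, 0, 0, 1])
    (lift_SU e hq hG (by decide +kernel)) (lift_SU e hq hG (by decide +kernel))
    (fun v => ?_) ⟨![0, 0, 1, 0], by decide +kernel⟩ ⟨0, 1, 0, by decide +kernel⟩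
  · obtain ⟨h1, h2⟩ := of_lift_SU hq hG hg e
    obtain ⟨h3, h4⟩ := mono_sq h1
    rwa [P9, wgt_mono _ h4, prod_mono, mul_pow, h3, one_mul, sum_mono _ (mono_norm three_ne_zero h2)]
  · rw [show v = ![v 0, v 1, v 2, v 3] by ext1 i; fin_cases i <;> rfl]
    exact hP9 _ _ _ _

theorem ts4 {q : ℕ} (hF : Fintype.card F = q ^ 2) (h3 : q ≤ 3) {D : Fin 2 → Submodule F (Fin 4 → F)}
    (hD : IsMDecomposition 2 D) (hs : ∀ i, IsTotallySingularFor (Cfsg.hermForm 4 F q) (D i)) :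
    ∃ K, decompositionStabilizer D ⊓ (Cfsg.GU 4 F q ⊓ specialLinear (Fin 4) F) < K ∧
      K < Cfsg.GU 4 F q ⊓ specialLinear (Fin 4) F := by
  obtain ⟨σ, hq, hσ, hne⟩ := H11.exists_frob hF
  rw [GU_iso hq]
  rw [herm_eq hq] at hs
  obtain ⟨T, hG, hT⟩ := exists_tsT (hf_one hσ) hD hs
  have h0 := Fintype.one_lt_card (α := F)
  have h1 : ∀ g ∈ Iso σ 1 ⊓ specialLinear (Fin 4) F, ∀ (τ : Equiv.Perm (Fin 2))
      (a : Fin 2 → GL (Fin 2) F), g.1 = Φ T (bm τ fun i => a i) → (a 1).1.det = (a 0).1.det := by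
    intro g hg τ a e
    have h1 : g.1.det = 1 := congrArg Units.val hg.2
    rw [e, det_Φ, det_bm, Fintype.card_fin, Int.units_sq, Fin.prod_univ_two] at h1
    simp only [Units.val_one, Int.cast_one, one_mul] at h1
    obtain ⟨c, h2, h4⟩ := ts_det (hG ▸ iso_of_Φ hg.1 e)
    rw [or_self_iff.1 h2, one_pow, one_mul, hq] at h4
    have h5 := mul_left_cancel₀ (det_ne_zero (a 0)) (h4.trans h1.symm)
    have h6 := det_ne_zero (a 1)
    interval_cases q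
    · omega
    · omega
    · have := mul_left_cancel₀ h6 ((sq _).symm.trans (h5.trans (mul_one _).symm))
      rw [this] at h1 ⊢
      simpa using h1.symm
    · refine mul_left_cancel₀ (pow_ne_zero 2 h6) ?_
      linear_combination h5 - (a 1).1.det * h1
  have hl : ∀ {M : Type} [Field M] (e : M ≃+* F) {A : Matrix _ _ M},
      A.det = 1 ∧ Aᵀ * hyp (Fin 2) 1 * A.map (· ^ q) = hyp (Fin 2) 1 →
      ∃ g ∈ Iso σ 1 ⊓ specialLinear (Fin 4) F, g.1 = Φ T (A.map e) := fun e A h => by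
    obtain ⟨g, hg, h1⟩ := exists_lift e T h.1
    exact ⟨g, ⟨lift_iso (fun x => by rw [hq, map_pow]) (by rw [hG, ← hyp_map, map_one]) h.2 h1, hg⟩, h1⟩
  interval_cases q
  · omega
  · omega
  · obtain ⟨e⟩ := equiv_of_card (M := F4) hF (by simp [card_QA])
    exact ts_between e hT h1 (A := pr4 !![1, 0, 0, 0; 1, 1, 0, 1; 1, 0, 1, 1; 0, 0, 0, 1])
      (B := pr4 !![1, 0, 0, 0; 0, 1, 0, 0; 0, 0, 1, 0; 0, 0, 1, 1]) (hl e (by decide +kernel))
      (hl e (by decide +kernel)) (by decide +kernel) (by decide +kernel) (by decide +kernel)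
  · obtain ⟨e⟩ := equiv_of_card (M := F9) hF (by simp [card_QA])
    exact ts_between e hT h1
      (A := pr4 !![1, 0, 0, 0; ⟨0, 1⟩, 1, 0, ⟨1, 1⟩; ⟨2, 1⟩, 0, 1, ⟨0, 2⟩; 0, 0, 0, 1])
      (B := pr4 !![1, 0, 0, 0; 0, 1, 0, 0; 0, 0, 1, 0; 0, 0, ⟨0, 1⟩, 1]) (hl e (by decide +kernel))
      (hl e (by decide +kernel)) (by decide +kernel) (by decide +kernel) (by decide +kernel)

/-- Every maximal subgroup of SU_4(q) is of one of the listed geometric types or lies in the residual class. Let F be the field with q² elements, f the standard unitary form Σ u_i v_i^q on F^4, and H a maximal subgroup of SU_4(q) (inside GL_4(F)). Then H is the intersection with SU_4(q) of one of: the stabiliser of a non-zero subspace on which f vanishes; the stabiliser of a non-degenerate 1-space; for q ≠ 3, the stabiliser of a decomposition into four mutually orthogonal non-degenerate 1-spaces; for q ≥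 3, of a decomposition into two orthogonal non-degenerate 2-spaces; for q ≥ 4, of a decomposition into two totally isotropic 2-spaces; a subfield group of odd prime index whose F₀-structure carries f; a subfield group of index 2 whose F₀-structure carries ζ f, vanishing on pairs (u, u), for some non-zero ζ with ζ + ζ^q = 0; for q odd, a subfield group of index 2 whose F₀-structure carries f; for q = p ≡ 3 mod 4 prime, the normaliser of an absolutely irreducible symplectic-type 2-group of exponent 4, order 64 and centre of order 4 inside the similarity group of f — or else H lies in the residual class of the unitary case. -/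
theorem result {F : Type*} [Field F] [Fintype F] (q : ℕ) (hF : Fintype.card F = q ^ 2) (H : Subgroup (Matrix.GeneralLinearGroup (Fin 4) F)) (hH : Cfsg.Geo.IsMaximalIn (Cfsg.GU 4 F q ⊓ Cfsg.Geo.specialLinear (Fin 4) F) H) :
    (∃ W : Submodule F (Fin 4 → F), W ≠ ⊥ ∧ Cfsg.Geo.IsTotallySingularFor (Cfsg.hermForm 4 F q) W ∧ H = Cfsg.Geo.subspaceStabilizer W ⊓ (Cfsg.GU 4 F q ⊓ Cfsg.Geo.specialLinear (Fin 4) F)) ∨
    (∃ W : Submodule F (Fin 4 → F), W ≠ ⊥ ∧ Cfsg.Geo.IsNondegenerateOn (Cfsg.hermForm 4 F q) W ∧ 2 * Module.finrank F W < 4 ∧ H = Cfsg.Geo.subspaceStabilizer W ⊓ (Cfsg.GU 4 F q ⊓ Cfsg.Geo.specialLinear (Fin 4) F)) ∨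
    (q ≠ 3 ∧ ∃ D : Fin 4 → Submodule F (Fin 4 → F), Cfsg.Geo.IsNondegenerateMDecomposition (Cfsg.hermForm 4 F q) 1 D ∧ H = Cfsg.Geo.decompositionStabilizer D ⊓ (Cfsg.GU 4 F q ⊓ Cfsg.Geo.specialLinear (Fin 4) F)) ∨
    (3 ≤ q ∧ ∃ D : Fin 2 → Submodule F (Fin 4 → F), Cfsg.Geo.IsNondegenerateMDecomposition (Cfsg.hermForm 4 F q) 2 D ∧ H = Cfsg.Geo.decompositionStabilizer D ⊓ (Cfsg.GU 4 F q ⊓ Cfsg.Geo.specialLinear (Fin 4) F)) ∨
    (4 ≤ q ∧ ∃ D : Fin 2 → Submodule F (Fin 4 → F), Cfsg.Geo.IsMDecomposition 2 D ∧ (∀ i, Cfsg.Geo.IsTotallySingularFor (Cfsg.hermForm 4 F q) (D i)) ∧ H = Cfsg.Geo.decompositionStabilizer D ⊓ (Cfsg.GU 4 F q ⊓ Cfsg.Geo.specialLinear (Fin 4) F)) ∨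
    (∃ (F₀ : Subfield F) (r : ℕ) (P : Matrix.GeneralLinearGroup (Fin 4) F), r.Prime ∧ Odd r ∧ Fintype.card F = Nat.card F₀ ^ r ∧ Cfsg.Geo.IsFormRationalStructure (Cfsg.hermForm 4 F q) F₀ 1 P ∧ H = Cfsg.Geo.subfieldSubgroup F₀ P ⊓ (Cfsg.GU 4 F q ⊓ Cfsg.Geo.specialLinear (Fin 4) F)) ∨
    (∃ (F₀ : Subfield F) (P : Matrix.GeneralLinearGroup (Fin 4) F) (ζ : F), Fintype.card F = Nat.card F₀ ^ 2 ∧ ζ ≠ 0 ∧ ζ + ζ ^ q = 0 ∧ Cfsg.Geo.IsFormRationalStructure (Cfsg.hermForm 4 F q) F₀ ζ P ∧ (∀ u : Fin 4 → F, (∀ i, u i ∈ F₀) → (Cfsg.hermForm 4 F q) (Matrix.mulVec (P : Matrix (Fin 4) (Fin 4) F) u) (Matrix.mulVec (P : Matrix (Fin 4) (Fin 4) F) u) = 0) ∧ H = Cfsg.Geo.subfieldSubgroup F₀ P ⊓ (Cfsg.GU 4 F q ⊓ Cfsg.Geo.specialLinear (Fin 4) F)) ∨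
    (Odd q ∧ ∃ (F₀ : Subfield F) (P : Matrix.GeneralLinearGroup (Fin 4) F), Fintype.card F = Nat.card F₀ ^ 2 ∧ Cfsg.Geo.IsFormRationalStructure (Cfsg.hermForm 4 F q) F₀ 1 P ∧ H = Cfsg.Geo.subfieldSubgroup F₀ P ⊓ (Cfsg.GU 4 F q ⊓ Cfsg.Geo.specialLinear (Fin 4) F)) ∨
    (∃ (p : ℕ) (R : Subgroup (Matrix.GeneralLinearGroup (Fin 4) F)), p.Prime ∧ q = p ∧ p % 4 = 3 ∧ Cfsg.Geo.IsSymplecticTypeGroup 2 R ∧ Cfsg.Geo.ActsAbsolutelyIrreducibly (Cfsg.Geo.matrixSet R) ∧ R ≤ Cfsg.Geo.similarityGroup (Cfsg.hermForm 4 F q) ∧ Nat.card R = 64 ∧ Nat.card (Subgroup.center R) = 4 ∧ H = Cfsg.Geo.subgroupNormalizer R ⊓ (Cfsg.GU 4 F q ⊓ Cfsg.Geo.specialLinear (Fin 4) F)) ∨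
    Cfsg.Geo.InUnitaryResidualClass H := by
  rcases H29.u_max (by norm_num) hF hH with (h | h | ⟨t, k, D, hD, h1, h2, h3, h⟩ |
    ⟨k, D, h1, h⟩ | h | h | ⟨h1, h⟩ | ⟨r, m, p, e, E, h1, h2, h3, h4, h5, h6, h7, h8, h9, h10, h⟩ |
    ⟨r, K, hr, ho, h1, h⟩ | ⟨a, b, e, P, f₁, f₂, h1, h2, h3, h4, h⟩ |
    ⟨k, t, e, P, f₁, h1, h2, h3, h4, h⟩) | h
  · exact .inl h
  · exact .inr (.inl h)
  · obtain ⟨rfl, rfl⟩ | ⟨rfl, rfl⟩ : t = 4 ∧ k = 1 ∨ t = 2 ∧ k = 2 := by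
      have : t ≤ 4 := Nat.le_of_dvd (by norm_num) ⟨_, h1.symm⟩
      interval_cases t <;> omega
    · refine .inr (.inr (.inl ⟨?_, D, hD, h⟩))
      rintro rfl
      exact not_between hH h (mono9 hF hD)
    · exact .inr (.inr (.inr (.inl ⟨h3 rfl, D, hD, h⟩)))
  · obtain rfl : k = 2 := by omega
    exact .inr (.inr (.inr (.inr (.inl ⟨not_lt.1 fun e =>
      not_between hH h.2.2 (ts4 hF (by omega) h.1 h.2.1), D, h⟩))))
  · exact .inr (.inr (.inr (.inr (.inr (.inl h)))))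
  · exact .inr (.inr (.inr (.inr (.inr (.inr (.inr (.inl h)))))))
  · exact .inr (.inr (.inr (.inr (.inr (.inr (.inl h))))))
  · obtain rfl := H29.eq_of_pow (p := 2) h1 h6.prime (by norm_num) (by norm_num)
    obtain rfl : 2 = m := Nat.pow_right_injective (by norm_num : 2 ≤ 2) h1
    obtain ⟨rfl, h11⟩ := H29.min_four h4 h2
    exact .inr (.inr (.inr (.inr (.inr (.inr (.inr (.inr (.inl ⟨p, E, h4.1, h3.trans (pow_one p), h11, h6, h7, h8, h9, h10, h⟩))))))))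
  · obtain rfl : r = 2 := (Nat.prime_dvd_prime_iff_eq hr Nat.prime_two).1
      (hr.dvd_of_dvd_pow (n := 2) h1)
    exact absurd ho (by decide)
  · have : a ≤ 4 := Nat.le_of_dvd (by norm_num) ⟨_, h1.symm⟩
    interval_cases a <;> omega
  · obtain ⟨rfl, rfl⟩ := H29.wr_cases h2 h3 (by omega)
    omega
  · exact .inr (.inr (.inr (.inr (.inr (.inr (.inr (.inr (.inr h))))))))

end Cfsg.Agent.S5784
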