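import Cfsg.Statements.S5787
import Cfsg.Agent.H29.Ar
import Cfsg.Agent.H29.Gram

set_option autoImplicit false
open Cfsg

namespace Cfsg.Agent.S5787

open Matrix Cfsg.Geo H29

local notation "ρ" => RingHom.id _

def W0 (R : Type*) [Ring R] : Matrix (Fin 4) (Fin 4) R :=
  !![0, -1, 0, 0; 1, 0, 0, 0; 0, 0, 0, -1; 0, 0, 1, 0]

def S0 : List (Matrix (Fin 4) (Fin 4) (ZMod 3)) := [!![0, 0, 1, 1; 0, 0, 1, 2; 2, 2, 0, 0; 2, 1, 0, 0], !![0, 0, 2, 2; 0, 0, 2, 1; 1, 1, 0, 0; 1, 2, 0, 0], !![0, 0, 1, 2; 0, 0, 2, 2; 2, 1, 0, 0; 1, 1, 0, 0], !![0, 0, 2, 0; 0, 0, 0, 2; 2, 0, 0, 0; 0, 2, 0, 0], !![0, 0, 0, 1; 0, 0, 2, 0; 0, 2, 0, 0; 1, 0, 0, 0], !![0, 0, 2, 1; 0, 0, 1, 1; 1, 2, 0, 0; 2, 2, 0, 0], !![0, 0, 0, 2; 0, 0, 1, 0; 0, 1, 0, 0; 2, 0, 0, 0], !![0, 0, 1, 0; 0, 0, 0, 1; 1, 0, 0, 0; 0, 1, 0, 0], !![1, 0, 0, 0; 0, 1, 0, 0; 0, 0, 2, 0; 0, 0, 0, 2], !![2, 0, 0, 0; 0, 2, 0, 0; 0, 0, 1, 0; 0, 0, 0, 1]]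

def mk (s a b c d a' b' c' d' : ZMod 3) : Matrix (Fin 4) (Fin 4) (ZMod 3) :=
  !![a, -s * b, a', -s * b'; b, s * a, b', s * a'; c, -s * d, c', -s * d'; d, s * c, d', s * c']

def QS (A : Matrix (Fin 4) (Fin 4) (ZMod 3)) : Prop := ∀ t ∈ S0, ∃ u ∈ S0, A * t = u * A

instance instDecQS : DecidablePred QS := fun A =>
  @List.decidableBAll _ _ (fun t => List.decidableBEx (fun u => A * t = u * A) S0) S0

set_option synthInstance.maxSize 1000 in
theorem chk : ∀ s a b c d : ZMod 3, s * (a * a + b * b + c * c + d * d) = 1 → ∀ a' b' c' d' : ZMod 3,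
    b * a' - a * b' + d * c' - c * d' = 0 → s * (a * a' + b * b' + c * c' + d * d') = 0 →
    s * (a' * a' + b' * b' + c' * c' + d' * d') = 1 →
    QS (mk s a b c d a' b' c' d') := by
  decide +kernel

theorem chk' {A : Matrix (Fin 4) (Fin 4) (ZMod 3)} {s : ZMod 3} (h1 : A * W0 _ = s • W0 _ * A)
    (h2 : Aᵀ * W0 _ * A.map id = W0 _) : ∀ t ∈ S0, ∃ u ∈ S0, A * t = u * A := by
  obtain ⟨a, b, c, d, a', b', c', d', rfl⟩ : ∃ a b c d a' b' c' d', A = mk s a b c d a' b' c' d' := by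
    refine ⟨A 0 0, A 1 0, A 2 0, A 3 0, A 0 2, A 1 2, A 2 2, A 3 2, ?_⟩
    have h := fun i j => congrFun (congrFun h1 i) j
    have a1 := h 0 0
    have a2 := h 1 0
    have a3 := h 2 0
    have a4 := h 3 0
    have a5 := h 0 2
    have a6 := h 1 2
    have a7 := h 2 2
    have a8 := h 3 2
    simp [W0, Matrix.mul_apply, Fin.sum_univ_four] at a1 a2 a3 a4 a5 a6 a7 a8
    ext i j
    fin_cases i <;> fin_cases j <;> simp [mk, a1, a2, a3, a4, a5, a6, a7, a8]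
  have h := fun i j => congrFun (congrFun h2 i) j
  have a1 := h 1 0
  have a2 := h 0 2
  have a3 := h 1 2
  have a4 := h 3 2
  simp [W0, mk, Matrix.mul_apply, Fin.sum_univ_four, vecMul, dotProduct] at a1 a2 a3 a4
  exact chk s a b c d (by linear_combination a1) a' b' c' d' (by linear_combination a2)
    (by linear_combination a3) (by linear_combination a4)

variable {F : Type*} [Field F] [Fintype F] {ι : Type} [Fintype ι] [DecidableEq ι] {G : Matrix ι ι F}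

theorem lift_Sp (e : ZMod 3 ≃+* F) {κ : Type} [Fintype κ] [DecidableEq κ] {T : (κ → F) ≃ₗ[F] (ι → F)}
    {G₀ A : Matrix κ κ (ZMod 3)} (hG : gT ρ G T = G₀.map e) (h : A.det = 1 ∧ Aᵀ * G₀ * A.map id = G₀) :
    ∃ g ∈ Iso ρ G, g.1 = Φ T (A.map e) :=
  let ⟨g, _, h1⟩ := exists_lift e T h.1; ⟨g, lift_iso (fun _ => rfl) hG h.2 h1, h1⟩

theorem ts3 (hF : Fintype.card F = 3) (h : HF ρ (-1) G) {D : Fin 2 → Submodule F (ι → F)}
    (hD : IsMDecomposition 2 D) (hs : ∀ i, IsTotallySingularFor (fm ρ G) (D i)) :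
    ∃ K, decompositionStabilizer D ⊓ Iso ρ G < K ∧ K < Iso ρ G := by
  obtain ⟨T, hG, hT⟩ := exists_tsT h hD hs
  obtain ⟨e⟩ := equiv_of_card (M := ZMod 3) hF (ZMod.card 3)
  have hG' : gT ρ G T = (hyp (Fin 2) (-1)).map e := by rw [hG, ← hyp_map, map_neg, map_one]
  refine ts_between e hT (fun g hg τ a e => ?_)
    (A := pr4 !![1, 0, 0, 0; 1, 1, 0, 2; 1, 0, 1, 2; 0, 0, 0, 1])
    (B := pr4 !![1, 0, 0, 0; 0, 1, 0, 0; 0, 0, 1, 0; 0, 0, 1, 1]) (lift_Sp e hG' (by decide +kernel))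
    (lift_Sp e hG' (by decide +kernel)) (by decide +kernel) (by decide +kernel) (by decide +kernel)
  obtain ⟨c, h2, h4⟩ := ts_det (hG ▸ iso_of_Φ hg e)
  rw [Fintype.card_fin, sq_eq_one_iff.2 h2, one_mul, RingHom.id_apply] at h4
  linear_combination (a 0).1.det * h4 - (a 1).1.det * pow_card_sub (q := 2) hF (det_ne_zero (a 0))

theorem norm_one (hF : Fintype.card F = 3) (h : HF ρ (-1) G) (ha : ∀ v, fm ρ G v v = 0)
    {w : Matrix ι ι F} (h1 : w * w = -1) (h2 : adj ρ G w = -w) (p : (ι → F) → Prop)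
    (p1 : ∀ x y, p x → p y → p (x + y)) (p2 : ∀ x, p x → p (w *ᵥ x)) {x y : ι → F} (hx : p x)
    (hy : p y) (h0 : fm ρ G (w *ᵥ x) y ≠ 0) : ∃ v, p v ∧ fm ρ G (w *ᵥ v) v = 1 := by
  have h3 : (3 : F) = 0 := by simpa [hF] using FiniteField.cast_card_eq_zero F
  obtain ⟨v, hv, h4⟩ : ∃ v, p v ∧ fm ρ G (w *ᵥ v) v ≠ 0 := by
    by_contra! h4
    have := h4 _ (p1 x y hx hy)
    rw [mulVec_add, fm_add_left, fm_add_right, fm_add_right, h4 x hx, h4 y hy, h.fm_adj w y, h2,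
      neg_mulVec, h.swap y, fm_neg_left] at this
    simp only [RingHom.id_apply] at this
    exact h0 (by linear_combination h3 * fm ρ G (w *ᵥ x) y - this)
  rcases sq_eq_one_iff.1 (pow_card_sub (q := 2) hF h4) with e | e
  · exact ⟨v, hv, e⟩
  · refine ⟨v + w *ᵥ v, p1 _ _ hv (p2 v hv), ?_⟩
    rw [mulVec_add, mulVec_mulVec, h1, neg_mulVec, one_mulVec, fm_add_left, fm_add_right,
      fm_add_right, ha, fm_neg_left, fm_neg_left, ha, h.swap v, e]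
    simp only [RingHom.id_apply]
    linear_combination -h3

theorem exists_T (hF : Fintype.card F = 3) (hn : 4 = Fintype.card ι) (h : HF ρ (-1) G)
    (ha : ∀ v, fm ρ G v v = 0) {w : Matrix ι ι F} (h1 : w * w = -1) (h2 : adj ρ G w = -w) :
    ∃ T : (Fin 4 → F) ≃ₗ[F] (ι → F), gT ρ G T = W0 F ∧ w = Φ T (W0 F) := by
  have hw : ∀ x, w *ᵥ w *ᵥ x = -x := fun x => by rw [mulVec_mulVec, h1, neg_mulVec, one_mulVec]
  have hB : ∀ x y, fm ρ G x (w *ᵥ y) = -fm ρ G (w *ᵥ x) y := fun x y => by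
    rw [h.fm_adj, h2, neg_mulVec, ← neg_one_smul F (w *ᵥ y), fm_smul_right]; simp
  have h0 : ∀ x, x ≠ 0 → ∃ y, fm ρ G (w *ᵥ x) y ≠ 0 := fun x hx => by
    by_contra! h3
    exact hx (neg_eq_zero.1 (by rw [← hw, h.left h3, mulVec_zero]))
  haveI : Nonempty ι := Fintype.card_pos_iff.1 (by omega)
  obtain ⟨x, hx⟩ := exists_ne (0 : ι → F)
  obtain ⟨y, hy⟩ := h0 x hx
  obtain ⟨v, -, hv⟩ := norm_one hF h ha h1 h2 (fun _ => True) (by simp) (by simp) trivial trivial hy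
  obtain ⟨x, hx⟩ : ∃ x, x ∉ Submodule.span F {v, w *ᵥ v} := by
    by_contra! h3
    classical
    have h4 := (finrank_span_finset_le_card (R := F) {v, w *ᵥ v}).trans Finset.card_le_two
    rw [Set.finrank, Finset.coe_pair, Submodule.eq_top_iff'.2 h3, finrank_top,
      Module.finrank_fintype_fun_eq_card] at h4
    omega
  obtain ⟨x, x1, x2, x3⟩ := h.exists_sep2 hx
  obtain ⟨y, hy⟩ := h0 x (by rintro rfl; simp at x3)
  obtain ⟨u, ⟨u1, u2⟩, hu⟩ := norm_one hF h ha h1 h2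
    (fun x => fm ρ G x v = 0 ∧ fm ρ G x (w *ᵥ v) = 0)
    (fun x y hx hy => by simp [fm_add_left, hx, hy])
    (fun x hx => ⟨by rw [← neg_eq_zero, ← hB, hx.2], by rw [hB, hw, fm_neg_left, hx.1]; simp⟩) ⟨x1, x2⟩
    (y := y + fm ρ G y (w *ᵥ v) • v + (-fm ρ G y v) • w *ᵥ v)
    ⟨by simp [fm_add_left, fm_smul_left, fm_neg_left, ha, hv],
      by simp [fm_add_left, fm_smul_left, fm_neg_left, ha, hv, hB v]⟩
    (by
      rw [hB] at x2
      rwa [fm_add_right, fm_add_right, fm_smul_right, fm_smul_right, hB (w *ᵥ x) v, hw, fm_neg_left, x1,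
        neg_eq_zero.1 x2, neg_zero, neg_zero, mul_zero, mul_zero, add_zero, add_zero])
  have u3 := h.eq_zero_comm u1
  have u4 := h.eq_zero_comm u2
  have u5 := neg_eq_zero.1 ((hB u v).symm.trans u2)
  obtain ⟨T, h3, h4⟩ := exists_T_of_gram (σ := ρ) (G := G) (fun _ => rfl) (by simpa)
    ![v, w *ᵥ v, u, w *ᵥ u] (G₀ := W0 F) (fun i j => by
      fin_cases i <;> fin_cases j <;> simp [W0, ha, hB, hv, hu, hw, fm_neg_left, u1, u3, u4, u5])
    (IsUnit.of_mul_eq_one (-W0 F) (by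
      ext i j; fin_cases i <;> fin_cases j <;> simp [W0, Matrix.mul_apply, Fin.sum_univ_four]))
  refine ⟨T, h4, eq_Φ fun x => ?_⟩
  refine LinearMap.congr_fun (?_ : toLin' w ∘ₗ T.toLinearMap = T.toLinearMap ∘ₗ toLin' (W0 F)) x
  have h5 : ∀ i, (W0 F).col i = (if i.1 % 2 = 0 then (1 : F) else -1) •
      Pi.single (![1, 0, 3, 2] i) 1 := fun i => by
    ext j; fin_cases i <;> fin_cases j <;> simp [W0]
  refine (Pi.basisFun F _).ext fun i => ?_
  fin_cases i <;> simp [h3, h5, hw]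

theorem gu3 (hF : Fintype.card F = 3) (hn : 4 = Fintype.card ι) (h : HF ρ (-1) G)
    (ha : ∀ v, fm ρ G v v = 0) {K : Subalgebra F (Matrix ι ι F)} (hK : IsFieldSubalgebra 2 K)
    (h1 : IsAdjointClosedFor (fm ρ G) K) (h0 : ¬ IsSelfAdjointFor (fm ρ G) K) :
    ∃ L, subalgebraNormalizer K ⊓ Iso ρ G < L ∧ L < Iso ρ G := by
  haveI : Nonempty ι := Fintype.card_pos_iff.1 (by omega)
  obtain ⟨e⟩ := equiv_of_card (M := ZMod 3) hF (ZMod.card 3)
  letI := (isField_of hK).toField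
  haveI : Fintype K := Fintype.ofFinite _
  obtain ⟨w, hw⟩ := (FiniteField.isSquare_neg_one_iff (F := K)).2 (by
    rw [← Nat.card_eq_fintype_card, fld_card hK, hF]; decide)
  have h2 : w.1 * w.1 = -1 := (congrArg Subtype.val hw).symm
  obtain ⟨T, hG, hT⟩ := exists_T hF hn h ha h2 (by
    rw [fld_adj2 h hK h1 h0 w.2, hF, pow_succ, sq, h2, neg_one_mul])
  have h3 : W0 F = (W0 (ZMod 3)).map e := by
    ext i j; fin_cases i <;> fin_cases j <;> simp [W0]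
  rw [h3] at hG hT
  obtain ⟨a, h4, h5⟩ := lift_Sp e hG (A := !![2, 1, 2, 2; 1, 0, 0, 1; 1, 1, 1, 2; 0, 2, 2, 0])
    (by decide +kernel)
  refine list_between e T S0 (fun A g hg hg' eg => ?_) ⟨a, h4, h5, fun h6 => ?_⟩
    (lift_Sp e hG (A := !![1, 0, 0, 0; 0, 1, 0, 0; 0, 0, 1, 0; 0, 0, 2, 1]) (by decide +kernel))
    (show QS _ by decide +kernel) (show ¬ QS _ by decide +kernel)
  · have h6 := iso_of_lift (s := id) (fun _ => rfl) hG hg' eg
    have h7 : (⟨_, nmlA_normalizer K g hg _ w.2⟩ : K) * ⟨_, nmlA_normalizer K g hg _ w.2⟩ = w * w :=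
      Subtype.ext (show cjA g _ * cjA g _ = w.1 * w.1 by rw [← map_mul, h2, map_neg, map_one])
    rcases mul_self_eq_mul_self_iff.1 h7 with h8 | h8
    · refine chk' (s := 1) ((Ψ e T).injective ?_) h6
      rw [one_smul, map_mul, map_mul, ← Ψ_apply, ← Ψ_apply, ← eg, ← hT]
      exact cjA_eq_iff.1 (congrArg Subtype.val h8)
    · refine chk' (s := -1) ((Ψ e T).injective ?_) h6
      rw [neg_one_smul, map_mul, map_mul, map_neg, ← Ψ_apply, ← Ψ_apply, ← eg, ← hT]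
      exact cjA_eq_iff.1 (congrArg Subtype.val h8)
  · have h7 := hK.comm _ (nmlA_normalizer K a h6 _ w.2) _ w.2
    rw [cjA_eq_iff.2 (show _ = Ψ e T !![1, 2, 0, 0; 2, 2, 0, 0; 0, 0, 1, 2; 0, 0, 2, 2] * _ by
      rw [h5, hT, Ψ_apply, Ψ_apply, ← map_mul, ← map_mul]; congr 1; decide +kernel), hT, Ψ_apply,
      ← map_mul, ← map_mul] at h7
    exact absurd ((Ψ e T).injective h7) (by decide +kernel)

/-- Every maximal subgroup of Sp_4(q), q odd, is of one of the listed geometric types or lies in the residual class. Let F be a finite field of odd order q, f the standard alternating form on F^4 (coordinates Fin 2 ⊕ Fin 2), and H a maximal subgroup of the isometry group Sp_4(F) (inside GL_4(F)). Then H is the intersection with Sp_4(F) of one of: the stabiliser of a non-zero totally isotropic subspace; the stabiliser of a decomposition into two orthogonal non-degenerate 2-spaces; for q ≥ 5,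 of a decomposition into two totally isotropic 2-spaces; the normaliser of a degree-2 subfield K of the matrix algebra, self-adjoint with f(k v, v) = 0; for q ≥ 5, the normaliser of a degree-2 subfield closed under adjoints but not self-adjoint; a subfield group whose F₀-structure carries a non-zero multiple of f, |F| = |F₀|^r with r prime; for q = p prime, the normaliser of an absolutely irreducible symplectic-type 2-group of exponent 4, order 32, centre of order 2 and minus type inside the similarity group of f — or else H lies in the residual class of the symplectic case. -/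
theorem result {F : Type*} [Field F] [Fintype F] (hodd : Odd (Fintype.card F)) (H : Subgroup (Matrix.GeneralLinearGroup (Fin 2 ⊕ Fin 2) F)) (hH : Cfsg.Geo.IsMaximalIn (Cfsg.spGL 2 F) H) :
    (∃ W : Submodule F (Fin 2 ⊕ Fin 2 → F), W ≠ ⊥ ∧ Cfsg.Geo.IsTotallySingularFor (Cfsg.sympForm 2 F) W ∧ H = Cfsg.Geo.subspaceStabilizer W ⊓ Cfsg.spGL 2 F) ∨
    (∃ D : Fin 2 → Submodule F (Fin 2 ⊕ Fin 2 → F), Cfsg.Geo.IsNondegenerateMDecomposition (Cfsg.sympForm 2 F) 2 D ∧ H = Cfsg.Geo.decompositionStabilizer D ⊓ Cfsg.spGL 2 F) ∨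
    (5 ≤ Fintype.card F ∧ ∃ D : Fin 2 → Submodule F (Fin 2 ⊕ Fin 2 → F), Cfsg.Geo.IsMDecomposition 2 D ∧ (∀ i, Cfsg.Geo.IsTotallySingularFor (Cfsg.sympForm 2 F) (D i)) ∧ H = Cfsg.Geo.decompositionStabilizer D ⊓ Cfsg.spGL 2 F) ∨
    (∃ K : Subalgebra F (Matrix (Fin 2 ⊕ Fin 2) (Fin 2 ⊕ Fin 2) F), Cfsg.Geo.IsFieldSubalgebra 2 K ∧ Cfsg.Geo.IsSelfAdjointFor (Cfsg.sympForm 2 F) K ∧ (∀ k ∈ K, ∀ v : (Fin 2 ⊕ Fin 2 → F), (Cfsg.sympForm 2 F) (Matrix.mulVec k v) v = 0) ∧ H = Cfsg.Geo.subalgebraNormalizer K ⊓ Cfsg.spGL 2 F) ∨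
    (5 ≤ Fintype.card F ∧ ∃ K : Subalgebra F (Matrix (Fin 2 ⊕ Fin 2) (Fin 2 ⊕ Fin 2) F), Cfsg.Geo.IsFieldSubalgebra 2 K ∧ Cfsg.Geo.IsAdjointClosedFor (Cfsg.sympForm 2 F) K ∧ ¬ Cfsg.Geo.IsSelfAdjointFor (Cfsg.sympForm 2 F) K ∧ H = Cfsg.Geo.subalgebraNormalizer K ⊓ Cfsg.spGL 2 F) ∨
    (∃ (F₀ : Subfield F) (r : ℕ) (P : Matrix.GeneralLinearGroup (Fin 2 ⊕ Fin 2) F) (ζ : F), r.Prime ∧ Fintype.card F = Nat.card F₀ ^ r ∧ ζ ≠ 0 ∧ Cfsg.Geo.IsFormRationalStructure (Cfsg.sympForm 2 F) F₀ ζ P ∧ H = Cfsg.Geo.subfieldSubgroup F₀ P ⊓ Cfsg.spGL 2 F) ∨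
    (∃ (p : ℕ) (R : Subgroup (Matrix.GeneralLinearGroup (Fin 2 ⊕ Fin 2) F)), p.Prime ∧ Fintype.card F = p ∧ Cfsg.Geo.IsSymplecticTypeGroup 2 R ∧ Cfsg.Geo.ActsAbsolutelyIrreducibly (Cfsg.Geo.matrixSet R) ∧ R ≤ Cfsg.Geo.similarityGroup (Cfsg.sympForm 2 F) ∧ Nat.card R = 32 ∧ Nat.card (Subgroup.center R) = 2 ∧ Cfsg.Geo.IsOfMinusType 2 R ∧ H = Cfsg.Geo.subgroupNormalizer R ⊓ Cfsg.spGL 2 F) ∨
    Cfsg.Geo.InSymplecticResidualClass H := by
  have h0 := Fintype.one_lt_card (α := F)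
  rcases H29.sp_max (by norm_num) (fun e => by rw [e.2] at hodd; exact absurd hodd (by decide)) hH with (h | h | ⟨t, k, D, hD, h1, h2, h3, h4, h⟩ | ⟨-, D, h⟩ |
    h | ⟨k, E, h1, h2, h3, h⟩ | h | ⟨r, K, hr, h1, h⟩ | ⟨-, K, h⟩ |
    ⟨h0, a, b, e, P, f₁, f₂, h1, h2, h3, h4, h5, h⟩ | ⟨h0, k, t, e, P, f₁, h1, h2, h3, h4, h5, h⟩) | h
  · exact .inl h
  · obtain ⟨W, h1, h2, h3, -⟩ := h
    obtain ⟨j, hj⟩ := H29.even_of_nd (H29.hf_J 2) (H29.alt_J 2) (H29.symp_eq (F := F) 2 ▸ h2)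
    have := Submodule.finrank_eq_zero.not.2 h1
    omega
  · obtain ⟨j, hj⟩ := h3
    obtain ⟨rfl, rfl⟩ : t = 2 ∧ k = 2 := by
      have : t ≤ 4 := Nat.le_of_dvd (by norm_num) ⟨_, h1.symm⟩
      interval_cases t <;> omega
    exact .inr (.inl ⟨D, hD, h⟩)
  · refine .inr (.inr (.inl ⟨five_le hodd fun e => ?_, D, h⟩))
    rw [symp_eq, spGL_iso] at h
    rw [spGL_iso] at hH
    exact not_between hH h.2.2 (ts3 e (hf_J 2) h.1 h.2.1)
  · exact .inr (.inr (.inr (.inr (.inr (.inl h)))))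
  · obtain rfl : 2 = k := Nat.pow_right_injective (by norm_num : 2 ≤ 2) h1
    exact .inr (.inr (.inr (.inr (.inr (.inr (.inl ⟨_, E, h2, rfl, h⟩))))))
  · exact absurd hodd h.1
  · obtain rfl : r = 2 := (Nat.prime_dvd_prime_iff_eq hr Nat.prime_two).1 h1
    exact .inr (.inr (.inr (.inl ⟨K, h⟩)))
  · refine .inr (.inr (.inr (.inr (.inl ⟨five_le hodd fun e => ?_, K, h⟩))))
    rw [symp_eq, spGL_iso] at h
    rw [spGL_iso] at hH
    exact not_between hH h.2.2.2 (gu3 e (by simp) (hf_J 2) (alt_J 2) h.1 h.2.1 h.2.2.1)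
  · nlinarith
  · have : k ^ 3 ≤ k ^ t := Nat.pow_le_pow_right (by omega) h4
    have : 2 ^ 3 ≤ k ^ 3 := Nat.pow_le_pow_left h2 3
    omega
  · exact .inr (.inr (.inr (.inr (.inr (.inr (.inr h))))))

end Cfsg.Agent.S5787
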