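import Cfsg.Statements.S5796
import Cfsg.Agent.H29.Ar
import Cfsg.Agent.H29.UFq

set_option autoImplicit false
open Cfsg

namespace Cfsg.Agent.S5796

open Matrix Cfsg.Geo H29

def mA : Matrix (Fin 5) (Fin 5) F4 := !![⟨1, 1⟩, 0, 0, ⟨0, 1⟩, ⟨0, 1⟩; 0, 0, 1, 0, 0; 0, ⟨1, 1⟩, 0, ⟨1, 1⟩, ⟨1, 1⟩; 1, ⟨1, 1⟩, 0, 0, ⟨1, 1⟩; ⟨0, 1⟩, 1, 0, 1, 0]
def mB : Matrix (Fin 5) (Fin 5) F4 := !![⟨0, 1⟩, ⟨1, 1⟩, 1, 1, ⟨1, 1⟩; ⟨0, 1⟩, ⟨0, 1⟩, 1, 1, 1; 0, 1, 1, 0, ⟨0, 1⟩; 1, ⟨1, 1⟩, 0, 0, 1; 0, ⟨1, 1⟩, 0, ⟨1, 1⟩, 1]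
def mC : Matrix (Fin 5) (Fin 5) F4 := !![1, ⟨1, 1⟩, 1, ⟨0, 1⟩, ⟨1, 1⟩; ⟨0, 1⟩, 0, ⟨1, 1⟩, 0, ⟨1, 1⟩; 1, ⟨0, 1⟩, 1, ⟨1, 1⟩, ⟨1, 1⟩; ⟨1, 1⟩, 0, ⟨0, 1⟩, 0, ⟨1, 1⟩; ⟨0, 1⟩, ⟨0, 1⟩, ⟨0, 1⟩, ⟨0, 1⟩, 1]
def mD : Matrix (Fin 5) (Fin 5) F4 := !![1, 0, 0, 0, 0; 0, 0, 0, ⟨1, 1⟩, 0; 0, 0, 1, 0, 0; 0, ⟨0, 1⟩, 0, 0, 0; 0, 0, 0, 0, 1]
def mY : Matrix (Fin 5) (Fin 5) F4 := !![0, 1, ⟨1, 1⟩, ⟨0, 1⟩, 0; 1, ⟨0, 1⟩, ⟨0, 1⟩, ⟨0, 1⟩, ⟨1, 1⟩; 0, 1, 0, ⟨0, 1⟩, 1; ⟨0, 1⟩, ⟨0, 1⟩, ⟨1, 1⟩, 1, 1; ⟨0, 1⟩, 1, 0, ⟨0, 1⟩, 0]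
def mA2 : Matrix (Fin 5) (Fin 5) F4 := !![⟨1, 1⟩, ⟨1, 1⟩, 0, ⟨1, 1⟩, 0; 0, ⟨1, 1⟩, 0, ⟨1, 1⟩, ⟨1, 1⟩; ⟨0, 1⟩, 1, ⟨1, 1⟩, ⟨1, 1⟩, ⟨0, 1⟩; ⟨0, 1⟩, ⟨1, 1⟩, ⟨1, 1⟩, 1, ⟨0, 1⟩; 0, ⟨1, 1⟩, 1, ⟨1, 1⟩, 0]
def mA4 : Matrix (Fin 5) (Fin 5) F4 := !![⟨1, 1⟩, ⟨0, 1⟩, ⟨0, 1⟩, ⟨1, 1⟩, ⟨1, 1⟩; 1, ⟨0, 1⟩, 1, ⟨1, 1⟩, ⟨1, 1⟩; 1, ⟨0, 1⟩, ⟨0, 1⟩, ⟨0, 1⟩, ⟨1, 1⟩; ⟨0, 1⟩, ⟨0, 1⟩, ⟨1, 1⟩, 1, 1; ⟨1, 1⟩, 1, 1, ⟨0, 1⟩, 1]
def mA8 : Matrix (Fin 5) (Fin 5) F4 := !![1, ⟨1, 1⟩, 1, ⟨0, 1⟩, ⟨0, 1⟩; ⟨1, 1⟩, 1, ⟨1, 1⟩, ⟨0, 1⟩, 1; ⟨0, 1⟩, ⟨0, 1⟩, 1, ⟨0, 1⟩, ⟨0, 1⟩; 1, ⟨0, 1⟩, ⟨0, 1⟩, ⟨0, 1⟩, ⟨0, 1⟩; ⟨0, 1⟩, ⟨1, 1⟩, ⟨0, 1⟩, ⟨1, 1⟩, 1]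
def msk : ℕ := 0x420040800280010e044122008080000e2e41e421420011001004110400022240028028e18e210110408002804200001e440020210880000e0008010201122880404002208801000e84e14080e8411010028042004080100e1018000400184840000201180018822010040008101484801102010200044420000000000000000e

theorem pow4 : mA ^ 4 = mA4 := by
  rw [show mA ^ 4 = mA * mA * (mA * mA) by simp only [pow_succ, pow_zero, one_mul, mul_assoc],
    show mA * mA = mA2 by decide +kernel]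
  decide +kernel

theorem pow11 : mA ^ 11 = 1 := by
  rw [show mA ^ 11 = mA ^ 4 * mA ^ 4 * (mA * mA * mA) by
    simp only [pow_succ, pow_zero, one_mul, mul_assoc], pow4, show mA4 * mA4 = mA8 by decide +kernel]
  decide +kernel

theorem fld2 {F : Type*} [Field F] [Fintype F] (hF : Fintype.card F = 2 ^ 2) {H : Subgroup (GL (Fin 5) F)}
    (hH : IsMaximalIn (Cfsg.GU 5 F 2 ⊓ specialLinear (Fin 5) F) H)
    {K : Subalgebra F (Matrix (Fin 5) (Fin 5) F)} (hK : IsFieldSubalgebra 5 K)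
    (ha : IsAdjointClosedFor (Cfsg.hermForm 5 F 2) K)
    (h : H = subalgebraNormalizer K ⊓ (Cfsg.GU 5 F 2 ⊓ specialLinear (Fin 5) F)) : False := by
  obtain ⟨e⟩ := equiv_of_card (M := F4) hF (by simp [card_QA])
  obtain ⟨σ, hq, hσ, hne⟩ := H11.exists_frob hF
  rw [GU_iso hq] at hH h
  rw [herm_eq hq] at ha
  have h1 := fun k => fld_unit (k := k) (hf_one hσ) hne hF hK ha
  refine fld_model (r := 11) (s := 3) (j := 4) e (.refl F _) hH (by simpa) (by simp [Nat.prime_five]) h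
    (by norm_num) (by rw [card_GL_field, hF]; decide) (by simp [hF]) (by norm_num)
    (fun k hk hk' => (h1 k hk').1 hk.1) (by simp [hF])
    (fun a h2 h3 => ⟨(h1 a h2).2 (by rw [show 2 ^ 5 + 1 = 11 * 3 by rfl, pow_mul, h3, one_pow]),
      mem_SL_of_pow h3 (by rw [hF]; decide)⟩) (BM msk)
    (A := mA) (B := mB) (C := mC) (D := mD) (Y := mY) (fun X hX => lift_SU e hq gT_refl ?_)
    (by decide +kernel) ⟨![⟨1, 1⟩, 0, 0, 1, 1], by decide +kernel⟩ pow11 (by decide +kernel)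
    (by rw [pow4]; decide +kernel) (by decide +kernel) (by decide +kernel) (by decide +kernel)
  simp only [List.mem_cons, List.not_mem_nil, or_false] at hX
  rcases hX with rfl | rfl | rfl | rfl <;> decide +kernel

/-- Every maximal subgroup of SU_5(q) is of one of the listed geometric types or lies in the residual class. Let F be the field with q² elements (characteristic p), f the standard unitary form Σ u_i v_i^q on F^5, and H a maximal subgroup of SU_5(q) (inside GL_5(F)). Then H is the intersection with SU_5(q) of one of: the stabiliser of a non-zero totally isotropic subspace; the stabiliser of a non-degenerate 1-space or 2-space; the stabiliser of a decomposition into five mutually orthogonal non-degenerate 1-spaces; for q ≥ 3, the normaliser of an adjoint-closed degree-5 subfield of the matrix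 algebra; a subfield group of odd prime index whose F₀-structure carries f; for q odd, a subfield group of index 2 whose F₀-structure carries f; for q = p ≡ 4 mod 5 or q = p² with p ≡ 2, 3 mod 5, the normaliser of an absolutely irreducible 5-group of exponent 5, order 125 and centre of order 5 with all characteristic abelian subgroups cyclic inside the similarity group of f — or else H lies in the residual class of the unitary case. -/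
theorem result {F : Type*} [Field F] [Fintype F] (q : ℕ) (hF : Fintype.card F = q ^ 2) (H : Subgroup (Matrix.GeneralLinearGroup (Fin 5) F)) (hH : Cfsg.Geo.IsMaximalIn (Cfsg.GU 5 F q ⊓ Cfsg.Geo.specialLinear (Fin 5) F) H) :
    (∃ W : Submodule F (Fin 5 → F), W ≠ ⊥ ∧ Cfsg.Geo.IsTotallySingularFor (Cfsg.hermForm 5 F q) W ∧ H = Cfsg.Geo.subspaceStabilizer W ⊓ (Cfsg.GU 5 F q ⊓ Cfsg.Geo.specialLinear (Fin 5) F)) ∨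
    (∃ W : Submodule F (Fin 5 → F), W ≠ ⊥ ∧ Cfsg.Geo.IsNondegenerateOn (Cfsg.hermForm 5 F q) W ∧ 2 * Module.finrank F W < 5 ∧ H = Cfsg.Geo.subspaceStabilizer W ⊓ (Cfsg.GU 5 F q ⊓ Cfsg.Geo.specialLinear (Fin 5) F)) ∨
    (∃ D : Fin 5 → Submodule F (Fin 5 → F), Cfsg.Geo.IsNondegenerateMDecomposition (Cfsg.hermForm 5 F q) 1 D ∧ H = Cfsg.Geo.decompositionStabilizer D ⊓ (Cfsg.GU 5 F q ⊓ Cfsg.Geo.specialLinear (Fin 5) F)) ∨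
    (3 ≤ q ∧ ∃ K : Subalgebra F (Matrix (Fin 5) (Fin 5) F), Cfsg.Geo.IsFieldSubalgebra 5 K ∧ Cfsg.Geo.IsAdjointClosedFor (Cfsg.hermForm 5 F q) K ∧ H = Cfsg.Geo.subalgebraNormalizer K ⊓ (Cfsg.GU 5 F q ⊓ Cfsg.Geo.specialLinear (Fin 5) F)) ∨
    (∃ (F₀ : Subfield F) (r : ℕ) (P : Matrix.GeneralLinearGroup (Fin 5) F), r.Prime ∧ Odd r ∧ Fintype.card F = Nat.card F₀ ^ r ∧ Cfsg.Geo.IsFormRationalStructure (Cfsg.hermForm 5 F q) F₀ 1 P ∧ H = Cfsg.Geo.subfieldSubgroup F₀ P ⊓ (Cfsg.GU 5 F q ⊓ Cfsg.Geo.specialLinear (Fin 5) F)) ∨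
    (Odd q ∧ ∃ (F₀ : Subfield F) (P : Matrix.GeneralLinearGroup (Fin 5) F), Fintype.card F = Nat.card F₀ ^ 2 ∧ Cfsg.Geo.IsFormRationalStructure (Cfsg.hermForm 5 F q) F₀ 1 P ∧ H = Cfsg.Geo.subfieldSubgroup F₀ P ⊓ (Cfsg.GU 5 F q ⊓ Cfsg.Geo.specialLinear (Fin 5) F)) ∨
    (∃ (p : ℕ) (R : Subgroup (Matrix.GeneralLinearGroup (Fin 5) F)), p.Prime ∧ CharP F p ∧ ((q = p ∧ p % 5 = 4) ∨ (q = p ^ 2 ∧ (p % 5 = 2 ∨ p % 5 = 3))) ∧ Cfsg.Geo.IsSymplecticTypeGroup 5 R ∧ Cfsg.Geo.ActsAbsolutelyIrreducibly (Cfsg.Geo.matrixSet R) ∧ R ≤ Cfsg.Geo.similarityGroup (Cfsg.hermForm 5 F q) ∧ Nat.card R = 125 ∧ Nat.card (Subgroup.center R) = 5 ∧ H = Cfsg.Geo.subgroupNormalizer R ⊓ (Cfsg.GU 5 F q ⊓ Cfsg.Geo.specialLinear (Fin 5) F)) ∨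
    Cfsg.Geo.InUnitaryResidualClass H := by
  rcases H29.u_max (by norm_num) hF hH with (h | h | ⟨t, k, D, hD, h1, h2, h3, h⟩ |
    ⟨k, D, h1, h⟩ | h | h | ⟨h1, h⟩ | ⟨r, m, p, e, E, h1, h2, h3, h4, h5, h6, h7, h8, h9, h10, h⟩ |
    ⟨r, K, hr, ho, h1, h⟩ | ⟨a, b, e, P, f₁, f₂, h1, h2, h3, h4, h⟩ |
    ⟨k, t, e, P, f₁, h1, h2, h3, h4, h⟩) | h
  · exact .inl h
  · exact .inr (.inl h)
  · obtain ⟨rfl, rfl⟩ : t = 5 ∧ k = 1 := by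
      have : t ≤ 5 := Nat.le_of_dvd (by norm_num) ⟨_, h1.symm⟩
      interval_cases t <;> omega
    exact .inr (.inr (.inl ⟨D, hD, h⟩))
  · omega
  · exact .inr (.inr (.inr (.inr (.inl h))))
  · exact .inr (.inr (.inr (.inr (.inr (.inl h)))))
  · exact absurd h1 (by decide)
  · obtain rfl := H29.eq_of_pow (p := 5) h1 h6.prime (by norm_num) (by norm_num)
    obtain rfl : 1 = m := Nat.pow_right_injective (by norm_num : 2 ≤ 5) h1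
    exact .inr (.inr (.inr (.inr (.inr (.inr (.inl ⟨p, E, h4.1, h4.2.1, (H29.min_ev_five h4 h2).imp
      (fun h => ⟨by rw [h3, h.1, pow_one], h.2⟩) fun h => ⟨by rw [h3, h.1], h.2⟩, h6, h7, h8, h9, h10, h⟩))))))
  · obtain rfl : r = 5 := (Nat.prime_dvd_prime_iff_eq hr Nat.prime_five).1 h1
    refine .inr (.inr (.inr (.inl ⟨three_le hF fun e => ?_, K, h⟩)))
    obtain rfl : q = 2 := Nat.pow_left_injective two_ne_zero (hF.symm.trans e)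
    exact fld2 hF hH h.1 h.2.1 h.2.2
  · have : a ≤ 5 := Nat.le_of_dvd (by norm_num) ⟨_, h1.symm⟩
    interval_cases a <;> omega
  · obtain ⟨rfl, rfl⟩ := H29.wr_cases h2 h3 (by omega)
    omega
  · exact .inr (.inr (.inr (.inr (.inr (.inr (.inr h))))))

end Cfsg.Agent.S5796
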