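import Cfsg.Statements.S5802
import Cfsg.Agent.H29.Ar
import Cfsg.Agent.H29.SimB

set_option autoImplicit false
open Cfsg

namespace Cfsg.Agent.S5802

open Matrix Cfsg.Geo H29

def P6 (v : Fin 6 → F4) : Prop := wgt v = 2 ∨ ∏ i, v i = 1

instance instDecP6 : DecidablePred P6 := fun v => by unfold P6; infer_instance

set_option synthInstance.maxSize 1000 in
theorem hP6 : ∀ a b c d e f s : F4, s = a + b + c + d + e + f → P6 ![a, b, c, d, e, f] →
    P6 ![a + s, b + s, c + s, d + s, e + s, f + s] := by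
  have : ∀ a b c d e f : F4, P6 ![a, b, c, d, e, f] → (fun s =>
    P6 ![a + s, b + s, c + s, d + s, e + s, f + s]) (a + b + c + d + e + f) := by decide +kernel
  rintro a b c d e f _ rfl
  exact this a b c d e f

variable {F : Type*} [Field F] [Fintype F]

theorem mono4 (hF : Fintype.card F = 2 ^ 2) {D : Fin 6 → Submodule F (Fin 6 → F)}
    (hD : IsNondegenerateMDecomposition (Cfsg.hermForm 6 F 2) 1 D) :
    ∃ K, decompositionStabilizer D ⊓ (Cfsg.GU 6 F 2 ⊓ specialLinear (Fin 6) F) < K ∧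
      K < Cfsg.GU 6 F 2 ⊓ specialLinear (Fin 6) F := by
  obtain ⟨e⟩ := equiv_of_card (M := F4) hF (by simp [card_QA])
  obtain ⟨σ, hq, hσ, hne⟩ := H11.exists_frob hF
  rw [GU_iso hq]
  rw [herm_eq hq] at hD
  obtain ⟨T, hG, hT⟩ := exists_monoU (hf_one hσ) hne hD
  refine mono_between e hT P6 (fun τ d g hg e v hv => ?_)
    (A := 1 + vecMulVec 1 1) (B := 1 + vecMulVec ![1, 1, 1, 1, 0, 0] ![1, 1, 1, 1, 0, 0])
    (lift_SU e hq hG ⟨det_tv (by decide +kernel), by decide +kernel⟩)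
    (lift_SU e hq hG ⟨det_tv (by decide +kernel), by decide +kernel⟩)
    (fun v hv => ?_) ⟨![1, ⟨0, 1⟩, 0, 0, 0, 0], by decide +kernel⟩ ⟨1, 2, 0, by decide +kernel⟩
  · obtain ⟨h1, h2⟩ := of_lift_SU hq hG hg e
    have h3 := (mono_sq h1).2
    rw [det_mono, show ((Equiv.Perm.sign τ : ℤ) : F4) = 1 by
      rcases Int.units_eq_one_or (Equiv.Perm.sign τ) with e | e <;> rw [e] <;> decide, one_mul] at h1
    rwa [P6, wgt_mono _ h3, prod_mono, h1, one_mul]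
  · have := hP6 (v 0) (v 1) (v 2) (v 3) (v 4) (v 5) _ rfl
      (by convert hv; ext1 i; fin_cases i <;> rfl)
    convert this
    ext1 i
    have : ∀ i, ((1 + vecMulVec 1 1) *ᵥ v) i = v i + (v 0 + v 1 + v 2 + v 3 + v 4 + v 5) := fun i => by
      rw [add_mulVec, one_mulVec, vecMulVec_mulVec, one_dotProduct, Fin.sum_univ_six]
      simp
    fin_cases i <;> exact this _

def ω : F4 := ⟨0, 1⟩

def kk (x y z : F4) : Matrix (Fin 3) (Fin 3) F4 := !![x, ω * z, ω * y; y, x, ω * z; z, y, x]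

def Θ : Matrix (Fin 3) (Fin 3) F4 := !![1, 0, 0; 0, 0, ω; 0, ω, 0]

def KK (X : Matrix (Fin 3) (Fin 3) F4) : Prop := ∃ x y z, X = kk x y z

theorem kk_of {X : Matrix (Fin 3) (Fin 3) F4} (h : X * kk 0 1 0 = kk 0 1 0 * X) : KK X := by
  refine ⟨X 0 0, X 1 0, X 2 0, ?_⟩
  have h := fun i j => congrFun (congrFun h i) j
  have a1 := h 0 0
  have a2 := h 1 0
  have a3 := h 2 0
  have a4 := h 0 1
  have a5 := h 1 1
  have a6 := h 2 1
  simp [kk, Matrix.mul_apply, Fin.sum_univ_three] at a1 a2 a3 a4 a5 a6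
  ext1 i j
  fin_cases i <;> fin_cases j <;> simp [kk, a1, a2, a3, a4, a5, a6]

theorem KK.comm {X Y : Matrix (Fin 3) (Fin 3) F4} (h : KK X) (h' : KK Y) : X * Y = Y * X := by
  obtain ⟨x, y, z, rfl⟩ := h
  obtain ⟨x', y', z', rfl⟩ := h'
  ext1 i j
  fin_cases i <;> fin_cases j <;> simp [kk, Matrix.mul_apply, Fin.sum_univ_three] <;> ring

theorem KK.tr {X : Matrix (Fin 3) (Fin 3) F4} (h : KK X) : Xᵀ * Θ = Θ * X := by
  obtain ⟨x, y, z, rfl⟩ := h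
  ext1 i j
  fin_cases i <;> fin_cases j <;> simp [kk, Θ, Matrix.mul_apply, Fin.sum_univ_three] <;> ring

theorem kk_sc : ∀ x y z : F4, (kk x y z).det * (kk x y z).det = 1 →
    (Θ * kk x y z).map (· ^ 2) * (Θ * kk x y z) = 1 → x ≠ 0 ∧ kk x y z = x • 1 := by
  decide +kernel

def U0 : Matrix (Fin 3 ⊕ Fin 3) (Fin 3 ⊕ Fin 3) F4 := fromBlocks (kk 0 1 0) 0 0 (kk 0 1 0)

def S0 : Matrix (Fin 3 ⊕ Fin 3) (Fin 3 ⊕ Fin 3) F4 := fromBlocks 0 Θ Θ 0

def D0 (c : F4) : Matrix (Fin 3 ⊕ Fin 3) (Fin 3 ⊕ Fin 3) F4 :=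
  diagonal (Sum.elim ![1, c, c * c] ![1, c, c * c])

theorem sim0 {A : Matrix (Fin 3 ⊕ Fin 3) (Fin 3 ⊕ Fin 3) F4} (h : A * U0 = U0 * A) (h1 : A.det = 1)
    (h2 : Aᵀ * 1 * A.map (· ^ 2) = 1) : ∃ c : F4, c ≠ 0 ∧ Aᵀ * S0 * A = c • S0 := by
  obtain ⟨P, Q, R, S, rfl⟩ : ∃ P Q R S, A = fromBlocks P Q R S := ⟨_, _, _, _, (fromBlocks_toBlocks A).symm⟩
  simp only [U0, fromBlocks_multiply, Matrix.mul_zero, Matrix.zero_mul, add_zero, zero_add,
    fromBlocks_inj] at h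
  have hP := kk_of h.1
  have hQ := kk_of h.2.1
  have hR := kk_of h.2.2.1
  have hS := kk_of h.2.2.2
  have h0 : ∀ X : Matrix (Fin 3) (Fin 3) F4, X + X = 0 := fun X => by
    rw [← two_smul F4, show (2 : F4) = 0 by decide, zero_smul]
  obtain ⟨x, y, z, hD⟩ : KK (R * Q + P * S) := kk_of (by
    rw [add_mul, mul_add, mul_assoc, mul_assoc, h.2.1, h.2.2.2, ← mul_assoc, ← mul_assoc, h.1,
      h.2.2.1, mul_assoc, mul_assoc])
  have h3 : (fromBlocks P Q R S)ᵀ * S0 * fromBlocks P Q R S =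
      fromBlocks 0 (Θ * kk x y z) (Θ * kk x y z) 0 := by
    simp only [S0, fromBlocks_transpose, fromBlocks_multiply, Matrix.mul_zero, add_zero, zero_add,
      hP.tr, hQ.tr, hR.tr, hS.tr, mul_assoc, ← mul_add, ← hD]
    rw [hR.comm hP, hS.comm hQ, h0, h0, mul_zero, hS.comm hP, hQ.comm hR, add_comm (P * S)]
  obtain ⟨h4, h5⟩ := kk_sc x y z (by
    have := congrArg det h3
    rw [show fromBlocks 0 (Θ * kk x y z) (Θ * kk x y z) 0 = S0 * fromBlocks (kk x y z) 0 0 (kk x y z) by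
      simp [S0, fromBlocks_multiply], det_mul, det_mul, det_mul, det_transpose, h1,
      det_fromBlocks_zero₂₁, one_mul, mul_one] at this
    exact (mul_left_cancel₀ (IsUnit.of_mul_eq_one (S0.map (· ^ 2)).det (by
      rw [← det_mul, show S0 * S0.map (· ^ 2) = 1 by decide +kernel, det_one])).ne_zero
      ((mul_one _).trans this)).symm) (by
    haveI : CharP F4 2 := CharTwo.of_one_ne_zero_of_two_eq_zero one_ne_zero (by decide)
    have h6 : ∀ X Y : Matrix (Fin 3 ⊕ Fin 3) (Fin 3 ⊕ Fin 3) F4,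
        (X * Y).map (· ^ 2) = X.map (· ^ 2) * Y.map (· ^ 2) := fun X Y =>
      Matrix.map_mul (f := frobenius F4 2)
    generalize fromBlocks P Q R S = A at h2 h3
    rw [mul_one] at h2
    have h7 : (Aᵀ * S0 * A).map (· ^ 2) * (Aᵀ * S0 * A) = 1 := by
      have h8 := congrArg transpose h2
      rw [transpose_mul, transpose_transpose, transpose_one] at h8
      rw [h6, h6, mul_assoc, mul_assoc, mul_assoc, ← mul_assoc (A.map _), mul_eq_one_comm.1 h2, one_mul,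
        ← mul_assoc (S0.map _), show S0.map (· ^ 2) * S0 = 1 by decide +kernel, one_mul]
      exact h8
    rw [h3, fromBlocks_map, fromBlocks_multiply, ← fromBlocks_one, fromBlocks_inj] at h7
    simpa using h7.1)
  refine ⟨x, h4, ?_⟩
  rw [h3, h5, S0, fromBlocks_smul, smul_zero, Matrix.mul_smul, mul_one]

theorem hD0 : ∀ c : F4, c ≠ 0 → (∏ i, Sum.elim ![1, c, c * c] ![1, c, c * c] i) = 1 ∧
    D0 c * U0 = c • (U0 * D0 c) ∧ (D0 c)ᵀ * 1 * (D0 c).map (· ^ 2) = 1 ∧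
      (D0 (c * c))ᵀ * S0 * D0 (c * c) = S0 ∧ D0 c * D0 (c * c) = 1 := by decide +kernel

theorem sim1 {A : Matrix (Fin 3 ⊕ Fin 3) (Fin 3 ⊕ Fin 3) F4} {c : F4} (hc : c ≠ 0)
    (h : c • (A * U0) = U0 * A) (h1 : A.det = 1)
    (h2 : Aᵀ * 1 * A.map (· ^ 2) = 1) : ∃ c : F4, c ≠ 0 ∧ Aᵀ * S0 * A = c • S0 := by
  haveI : CharP F4 2 := CharTwo.of_one_ne_zero_of_two_eq_zero one_ne_zero (by decide)
  obtain ⟨a1, a2, a3, a4, a5⟩ := hD0 c hc
  obtain ⟨d, hd, h3⟩ := sim0 (A := A * D0 c)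
    (by rw [mul_assoc, a2, Matrix.mul_smul, ← mul_assoc, ← Matrix.smul_mul, h, mul_assoc])
    (by rw [det_mul, h1, D0, det_diagonal, a1, one_mul])
    (by rw [show (A * D0 c).map (· ^ 2) = A.map (· ^ 2) * (D0 c).map (· ^ 2) from
      Matrix.map_mul (f := frobenius F4 2), transpose_mul, ← mul_assoc, mul_assoc _ Aᵀ,
      mul_assoc _ _ (A.map _), h2, a3])
  refine ⟨d, hd, ?_⟩
  rw [← mul_one A, ← a5, ← mul_assoc A, transpose_mul, ← mul_assoc, mul_assoc _ _ S0,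
    mul_assoc _ _ (A * D0 c), h3, Matrix.mul_smul, Matrix.smul_mul, a4]

theorem coef : ∀ β : F4, ∃ a b c : F4,
    a * a ^ 2 + b * b ^ 2 + c * c ^ 2 + (b * a ^ 2 + c * b ^ 2) * β + (a * b ^ 2 + b * c ^ 2) * β ^ 2 +
      c * a ^ 2 * (ω * β ^ 2) + a * c ^ 2 * (ω ^ 2 * β) = 1 ∧
    (a * b ^ 2 + b * c ^ 2) + (a * a ^ 2 + b * b ^ 2 + c * c ^ 2) * β + a * c ^ 2 * β ^ 2 +
      (b * a ^ 2 + c * b ^ 2) * (ω * β ^ 2) + c * a ^ 2 * ω = 0 := by decide +kernel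

variable {ι : Type} [Fintype ι] [DecidableEq ι] {G u : Matrix ι ι F} {σ : F →+* F}

theorem exists_on (e : F4 ≃+* F) (hq : ∀ x, σ x = x ^ 2) (h : HF σ 1 G) (hne : σ ≠ RingHom.id F)
    (h1 : ∀ x, u *ᵥ u *ᵥ u *ᵥ x = e ω • x) (h2 : ∀ x y, fm σ G (u *ᵥ x) (u *ᵥ y) = fm σ G x y)
    (p : (ι → F) → Prop) (p1 : ∀ x y, p x → p y → p (x + y)) (p2 : ∀ (c : F) x, p x → p (c • x))
    (p3 : ∀ x, p x → p (u *ᵥ x)) {x y : ι → F} (hx : p x) (hy : p y) (h0 : fm σ G x y ≠ 0) :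
    ∃ v, p v ∧ fm σ G v v = 1 ∧ fm σ G (u *ᵥ v) v = 0 := by
  obtain ⟨x, hx, h3⟩ := exists_aniso h hne p p1 p2 hx hy h0
  have h4 : fm σ G x x = 1 := mul_left_cancel₀ h3 (by
    rw [← sq, ← hq, mul_one, h.swap x x, one_mul, h.σσ, ← one_mul (σ _), ← h.swap])
  obtain ⟨β, hβ⟩ := e.surjective (fm σ G (u *ᵥ x) x)
  obtain ⟨a, b, c, h5, h6⟩ := coef β
  have h7 : fm σ G x (u *ᵥ x) = e β ^ 2 := by rw [h.swap, ← hβ, hq, one_mul]
  have hω : ∀ y : F4, y ^ 4 = y := by decide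
  have h8 : fm σ G x (u *ᵥ u *ᵥ x) = e ω ^ 2 * e β := by
    rw [← h2, h1, fm_smul_right, hq, hβ]
  have h9 : fm σ G (u *ᵥ u *ᵥ x) x = e ω * e β ^ 2 := by
    rw [h.swap, h8, hq, one_mul, mul_pow, ← pow_mul, ← map_pow, hω]
  replace h5 := congrArg e h5
  replace h6 := congrArg e h6
  simp only [map_add, map_mul, map_pow, map_one, map_zero] at h5 h6
  refine ⟨e a • x + e b • u *ᵥ x + e c • u *ᵥ u *ᵥ x,
    p1 _ _ (p1 _ _ (p2 _ _ hx) (p2 _ _ (p3 _ hx))) (p2 _ _ (p3 _ (p3 _ hx))), ?_, ?_⟩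
  · simp only [fm_add_left, fm_add_right, fm_smul_left, fm_smul_right, h2, h4, ← hβ, h7, h8, h9, hq]
    linear_combination h5
  · simp only [mulVec_add, mulVec_smul, h1, fm_add_left, fm_add_right, fm_smul_left, fm_smul_right,
      h2, h4, ← hβ, h7, h8, h9, hq]
    have h10 := congrArg e (show ω * ω ^ 2 = 1 by decide)
    simp only [map_mul, map_pow, map_one] at h10
    linear_combination h6 + e c * e c ^ 2 * e β * h10

theorem exists_T (e : F4 ≃+* F) (hq : ∀ x, σ x = x ^ 2) (h : HF σ 1 G) (hne : σ ≠ RingHom.id F)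
    (hn : 6 = Fintype.card ι) (h1 : ∀ x, u *ᵥ u *ᵥ u *ᵥ x = e ω • x)
    (h2 : ∀ x y, fm σ G (u *ᵥ x) (u *ᵥ y) = fm σ G x y) :
    ∃ T : (Fin 3 ⊕ Fin 3 → F) ≃ₗ[F] (ι → F), gT σ G T = 1 ∧ u = Φ T (U0.map e) := by
  haveI : Nonempty ι := Fintype.card_pos_iff.1 (by omega)
  have h0 : ∀ x, x ≠ 0 → ∃ y, fm σ G x y ≠ 0 := fun x hx => by
    by_contra! h3
    exact hx (h.left h3)
  have h3 : ∀ v, fm σ G (u *ᵥ v) v = 0 → fm σ G v (u *ᵥ v) = 0 ∧ fm σ G v (u *ᵥ u *ᵥ v) = 0 ∧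
      fm σ G (u *ᵥ u *ᵥ v) v = 0 := fun v hv => by
    have : fm σ G v (u *ᵥ u *ᵥ v) = 0 := by rw [← h2, h1, fm_smul_right, hv, mul_zero]
    exact ⟨h.eq_zero_comm hv, this, h.eq_zero_comm this⟩
  obtain ⟨x, hx⟩ := exists_ne (0 : ι → F)
  obtain ⟨y, hy⟩ := h0 x hx
  obtain ⟨v, -, v1, v2⟩ := exists_on e hq h hne h1 h2 (fun _ => True) (by simp) (by simp) (by simp)
    trivial trivial hy
  obtain ⟨v3, v4, v5⟩ := h3 v v2
  obtain ⟨x, hx⟩ : ∃ x, x ∉ Submodule.span F {v, u *ᵥ v, u *ᵥ u *ᵥ v} := by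
    by_contra! h3
    classical
    have h4 := (finrank_span_finset_le_card (R := F) {v, u *ᵥ v, u *ᵥ u *ᵥ v}).trans
      Finset.card_le_three
    rw [Set.finrank, Finset.coe_insert, Finset.coe_pair, Submodule.eq_top_iff'.2 h3, finrank_top,
      Module.finrank_fintype_fun_eq_card] at h4
    omega
  obtain ⟨x, x1, x3⟩ := h.exists_sep hx
  obtain ⟨y, hy⟩ := h0 x (by rintro rfl; simp at x3)
  have x4 := x1 v (Submodule.subset_span (by simp))
  have x5 := x1 (u *ᵥ v) (Submodule.subset_span (by simp))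
  have x6 := x1 (u *ᵥ u *ᵥ v) (Submodule.subset_span (by simp))
  have hω : e ω ≠ 0 := by rw [map_ne_zero]; decide
  obtain ⟨w, ⟨w1, w2, w3⟩, w4, w5⟩ := exists_on e hq h hne h1 h2
    (fun x => fm σ G x v = 0 ∧ fm σ G x (u *ᵥ v) = 0 ∧ fm σ G x (u *ᵥ u *ᵥ v) = 0)
    (fun x y hx hy => by simp only [fm_add_left, hx, hy, add_zero, and_self])
    (fun c x hx => by simp only [fm_smul_left, hx, mul_zero, and_self])
    (fun x hx => ⟨by
      have := hx.2.2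
      rw [← h2, h1, fm_smul_right] at this
      exact (mul_eq_zero.1 this).resolve_left ((map_ne_zero σ).2 hω), by rw [h2, hx.1], by rw [h2, hx.2.1]⟩)
    ⟨x4, x5, x6⟩ (y := y + (-fm σ G y v) • v + (-fm σ G y (u *ᵥ v)) • u *ᵥ v +
      (-fm σ G y (u *ᵥ u *ᵥ v)) • u *ᵥ u *ᵥ v)
    (by simp only [fm_add_left, fm_smul_left, h2, v1, v2, v3, v4, v5]; simp)
    (by simpa only [fm_add_right, fm_smul_right, x4, x5, x6, mul_zero, add_zero] using hy)
  obtain ⟨w6, w7, w8⟩ := h3 w w5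
  have w9 : fm σ G (u *ᵥ w) v = 0 := by
    rw [← h2, h1, fm_smul_right] at w3
    exact (mul_eq_zero.1 w3).resolve_left ((map_ne_zero σ).2 hω)
  have w10 : fm σ G (u *ᵥ u *ᵥ w) v = 0 := by
    rw [← h2, ← h2, h1, fm_smul_right] at w2
    exact (mul_eq_zero.1 w2).resolve_left ((map_ne_zero σ).2 hω)
  obtain ⟨T, h4, h5⟩ := exists_T_of_gram (σ := σ) (G := G) h.σσ (κ := Fin 3 ⊕ Fin 3) (by simpa)
    (Sum.elim ![v, u *ᵥ v, u *ᵥ u *ᵥ v] ![w, u *ᵥ w, u *ᵥ u *ᵥ w]) (G₀ := 1) (fun i j => by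
      rcases i with i | i <;> rcases j with j | j <;> fin_cases i <;> fin_cases j <;>
        simp [-mulVec_mulVec, h2, v1, v2, v3, v4, v5, w1, w2, w3, w4, w5, w6, w7, w8, w9, w10,
          h.eq_zero_comm w1, h.eq_zero_comm w2, h.eq_zero_comm w3, h.eq_zero_comm w9,
          h.eq_zero_comm w10]) isUnit_one
  refine ⟨T, h5, eq_Φ fun x => ?_⟩
  refine LinearMap.congr_fun (?_ : toLin' u ∘ₗ T.toLinearMap = T.toLinearMap ∘ₗ toLin' (U0.map e)) x
  have h6 : ∀ i, (U0.map e).col i = e (Sum.elim ![1, 1, ω] ![1, 1, ω] i) •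
      Pi.single (Sum.map (· + 1) (· + 1) i) 1 := fun i => by
    have : ∀ i j, U0 j i = Sum.elim ![1, 1, ω] ![1, 1, ω] i *
      if j = Sum.map (· + 1) (· + 1) i then 1 else 0 := by decide +kernel
    ext j
    simp [this, Pi.single_apply, apply_ite e]
  refine (Pi.basisFun F _).ext fun i => ?_
  rcases i with i | i <;> fin_cases i <;> simp [-mulVec_mulVec, h4, h6, h1]

theorem fld4 (hF : Fintype.card F = 2 ^ 2) {K : Subalgebra F (Matrix (Fin 6) (Fin 6) F)}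
    (hK : IsFieldSubalgebra 3 K) (ha : IsAdjointClosedFor (Cfsg.hermForm 6 F 2) K) :
    ∃ L, subalgebraNormalizer K ⊓ (Cfsg.GU 6 F 2 ⊓ specialLinear (Fin 6) F) < L ∧
      L < Cfsg.GU 6 F 2 ⊓ specialLinear (Fin 6) F := by
  obtain ⟨e⟩ := equiv_of_card (M := F4) hF (by simp [card_QA])
  obtain ⟨σ, hq, hσ, hne⟩ := H11.exists_frob hF
  rw [GU_iso hq]
  rw [herm_eq hq] at ha
  letI := (isField_of hK).toField
  haveI : Finite K := Subtype.finite
  have hω : ∀ n, algebraMap F K (e (ω ^ n)) = algebraMap F K (e ω) ^ n := fun n => by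
    rw [map_pow, map_pow]
  obtain ⟨u, hu⟩ : ∃ u : K, u ^ 3 = algebraMap F K (e ω) := by
    obtain ⟨z, hz⟩ := IsCyclic.exists_monoid_generator (α := Kˣ)
    obtain ⟨k, hk⟩ := hz (Units.mk0 (algebraMap F K (e ω)) (by rw [map_ne_zero, map_ne_zero]; decide))
    have h1 : orderOf z = 63 := by
      rw [orderOf_eq_card_of_forall_mem_powers hz, Nat.card_units, fld_card hK, hF]
      rfl
    have h2 : (z : K) ^ k = algebraMap F K (e ω) := congrArg Units.val hk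
    obtain ⟨j, rfl⟩ : 21 ∣ k := Nat.dvd_of_mul_dvd_mul_right three_pos (show 63 ∣ _ from
      h1 ▸ orderOf_dvd_of_pow_eq_one (Units.ext (by
        rw [pow_mul, Units.val_pow_eq_pow_val, Units.val_pow_eq_pow_val, h2, ← hω,
          show ω ^ 3 = 1 by decide, map_one, map_one, Units.val_one])))
    exact ⟨z ^ (7 * j), by rw [← h2]; ring⟩
  have h1 : u.1 * u.1 * u.1 = e ω • 1 :=
    (pow_three' _).symm.trans ((congrArg Subtype.val hu).trans (Algebra.algebraMap_eq_smul_one _))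
  have h2 : u ^ 8 * u = 1 := by
    rw [← pow_succ, show 8 + 1 = 3 * 3 by rfl, pow_mul, hu, ← hω, show ω ^ 3 = 1 by decide, map_one,
      map_one]
  obtain ⟨T, hG, hT⟩ := exists_T (u := u.1) e hq (hf_one hσ) hne (by simp)
    (fun x => by rw [mulVec_mulVec, mulVec_mulVec, h1, smul_mulVec, one_mulVec]) fun x y => by
      rw [(hf_one hσ).fm_adj, fld_adj (hf_one hσ) hne hF hK ha u.2, mulVec_mulVec,
        show u.1 ^ 2 ^ 3 * u.1 = 1 from congrArg Subtype.val h2, one_mulVec]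
  let z : Fin 3 ⊕ Fin 3 → F4 := Sum.elim ![1, 0, 0] ![1, 0, 0]
  let z' : Fin 3 ⊕ Fin 3 → F4 := Sum.elim ![1, 0, 0] ![0, 1, 0]
  obtain ⟨a, h4, h5⟩ := lift_SU e hq hG (A := 1 + vecMulVec z z)
    ⟨det_tv (by decide +kernel), by decide +kernel⟩
  refine sim_between e T S0 (fun A g hg hg' eg => ?_) ⟨a, h4, h5, not_nml_of hK (hT ▸ u.2)
    (Y := (1 + vecMulVec z z) * U0 * (1 + vecMulVec z z)) (by decide +kernel) (by decide +kernel) h5⟩
    (lift_SU e hq hG (A := 1 + vecMulVec z' z') ⟨det_tv (by decide +kernel), by decide +kernel⟩)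
    (by decide +kernel) (by decide +kernel)
  obtain ⟨h6, h7⟩ := of_lift_SU hq hG hg' eg
  let x : K := ⟨_, nmlA_normalizer K g hg _ u.2⟩
  have h8 : x ^ 3 = algebraMap F K (e ω) := Subtype.ext (by
    change cjA g u.1 ^ 3 = algebraMap F _ (e ω)
    rw [← map_pow, pow_three', h1, map_smul, map_one, Algebra.algebraMap_eq_smul_one])
  have h9 : ∀ c : F4, c ≠ 0 → algebraMap F K (e c) * x = u → ∃ c : F4, c ≠ 0 ∧ Aᵀ * S0 * A = c • S0 :=
    fun c hc h => sim1 hc ((Ψ e T).injective (by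
      have h10 : e c • cjA g u.1 = u.1 := by
        rw [Algebra.smul_def]; exact congrArg Subtype.val h
      rw [map_mul, ← Ψ_apply, ← Ψ_apply, ← Ψ_apply, ← hT, ← eg, Matrix.map_smul' _ _ _ (map_mul e),
        map_smul, Matrix.map_mul, map_mul, ← hT, ← eg, ← cjA_mul_self, ← Matrix.smul_mul, h10])) h6 h7
  have h10 : ∀ n, algebraMap F K (e ω) ^ n = 0 + algebraMap F K (e (ω ^ n)) := fun n => by
    rw [hω, zero_add]
  have h11 := congrArg (fun c => algebraMap F K (e c)) (show ω ^ 2 + ω + 1 = 0 by decide)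
  simp only [map_add, map_pow, map_one, map_zero] at h11
  have h12 : (x - u) * ((algebraMap F K (e ω) * x - u) * (algebraMap F K (e ω) ^ 2 * x - u)) = 0 := by
    linear_combination (algebraMap F K (e ω)) ^ 3 * h8 - hu + (algebraMap F K (e ω) *
      (algebraMap F K (e ω) - 1) - algebraMap F K (e ω) * x ^ 2 * u + x * u ^ 2) * h11
  rcases mul_eq_zero.1 h12 with h | h
  · exact h9 1 one_ne_zero (by rw [map_one, map_one, one_mul, sub_eq_zero.1 h])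
  · rcases mul_eq_zero.1 h with h | h
    · exact h9 ω (by decide) (sub_eq_zero.1 h)
    · exact h9 (ω ^ 2) (by decide) (by rw [hω, sub_eq_zero.1 h])

/-- Every maximal subgroup of SU_6(q) is of one of the listed geometric types or lies in the residual class. Let F be the field with q² elements, f the standard unitary form Σ u_i v_i^q on F^6, and H a maximal subgroup of SU_6(q) (inside GL_6(F)). Then H is the intersection with SU_6(q) of one of: the stabiliser of a non-zero totally isotropic subspace; the stabiliser of a non-degenerate 1- or 2-space; for q ≥ 3, the stabiliser of a decomposition into six mutually orthogonal non-degenerate 1-spaces; for q ≥ 3, of a decomposition into three mutually orthogonal non-degenerate 2-spaces; of a decomposition into two orthogonal non-degenerate 3-spaces; of a decomposition into two totally isotropic 3-spaces; for q ≥ 3, the normaliser of an adjoint-closed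 degree-3 subfield of the matrix algebra; for q ≥ 3, the stabiliser of a tensor decomposition of f into unitary forms on F^2 and F^3; a subfield group of odd prime index whose F₀-structure carries f; a subfield group of index 2 and symplectic type; for q odd, a subfield group of index 2 and orthogonal type — or else H lies in the residual class of the unitary case. -/
theorem result {F : Type*} [Field F] [Fintype F] (q : ℕ) (hF : Fintype.card F = q ^ 2) (H : Subgroup (Matrix.GeneralLinearGroup (Fin 6) F)) (hH : Cfsg.Geo.IsMaximalIn (Cfsg.GU 6 F q ⊓ Cfsg.Geo.specialLinear (Fin 6) F) H) :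
    (∃ W : Submodule F (Fin 6 → F), W ≠ ⊥ ∧ Cfsg.Geo.IsTotallySingularFor (Cfsg.hermForm 6 F q) W ∧ H = Cfsg.Geo.subspaceStabilizer W ⊓ (Cfsg.GU 6 F q ⊓ Cfsg.Geo.specialLinear (Fin 6) F)) ∨
    (∃ W : Submodule F (Fin 6 → F), W ≠ ⊥ ∧ Cfsg.Geo.IsNondegenerateOn (Cfsg.hermForm 6 F q) W ∧ 2 * Module.finrank F W < 6 ∧ H = Cfsg.Geo.subspaceStabilizer W ⊓ (Cfsg.GU 6 F q ⊓ Cfsg.Geo.specialLinear (Fin 6) F)) ∨
    (3 ≤ q ∧ ∃ D : Fin 6 → Submodule F (Fin 6 → F), Cfsg.Geo.IsNondegenerateMDecomposition (Cfsg.hermForm 6 F q) 1 D ∧ H = Cfsg.Geo.decompositionStabilizer D ⊓ (Cfsg.GU 6 F q ⊓ Cfsg.Geo.specialLinear (Fin 6) F)) ∨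
    (3 ≤ q ∧ ∃ D : Fin 3 → Submodule F (Fin 6 → F), Cfsg.Geo.IsNondegenerateMDecomposition (Cfsg.hermForm 6 F q) 2 D ∧ H = Cfsg.Geo.decompositionStabilizer D ⊓ (Cfsg.GU 6 F q ⊓ Cfsg.Geo.specialLinear (Fin 6) F)) ∨
    (∃ D : Fin 2 → Submodule F (Fin 6 → F), Cfsg.Geo.IsNondegenerateMDecomposition (Cfsg.hermForm 6 F q) 3 D ∧ H = Cfsg.Geo.decompositionStabilizer D ⊓ (Cfsg.GU 6 F q ⊓ Cfsg.Geo.specialLinear (Fin 6) F)) ∨
    (∃ D : Fin 2 → Submodule F (Fin 6 → F), Cfsg.Geo.IsMDecomposition 3 D ∧ (∀ i, Cfsg.Geo.IsTotallySingularFor (Cfsg.hermForm 6 F q) (D i)) ∧ H = Cfsg.Geo.decompositionStabilizer D ⊓ (Cfsg.GU 6 F q ⊓ Cfsg.Geo.specialLinear (Fin 6) F)) ∨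
    (3 ≤ q ∧ ∃ K : Subalgebra F (Matrix (Fin 6) (Fin 6) F), Cfsg.Geo.IsFieldSubalgebra 3 K ∧ Cfsg.Geo.IsAdjointClosedFor (Cfsg.hermForm 6 F q) K ∧ H = Cfsg.Geo.subalgebraNormalizer K ⊓ (Cfsg.GU 6 F q ⊓ Cfsg.Geo.specialLinear (Fin 6) F)) ∨
    (3 ≤ q ∧ ∃ (e : Fin 6 ≃ Fin 2 × Fin 3) (P : Matrix.GeneralLinearGroup (Fin 6) F) (f₁ : (Fin 2 → F) → (Fin 2 → F) → F) (f₂ : (Fin 3 → F) → (Fin 3 → F) → F), Cfsg.Geo.IsUnitaryFormPow q f₁ ∧ Cfsg.Geo.IsUnitaryFormPow q f₂ ∧ Cfsg.Geo.IsTensorFormStructure (fun x : F => x ^ q) (Cfsg.hermForm 6 F q) f₁ f₂ e P ∧ H = Cfsg.Geo.tensorProductSubgroup 2 3 e P ⊓ (Cfsg.GU 6 F q ⊓ Cfsg.Geo.specialLinear (Fin 6) F)) ∨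
    (∃ (F₀ : Subfield F) (r : ℕ) (P : Matrix.GeneralLinearGroup (Fin 6) F), r.Prime ∧ Odd r ∧ Fintype.card F = Nat.card F₀ ^ r ∧ Cfsg.Geo.IsFormRationalStructure (Cfsg.hermForm 6 F q) F₀ 1 P ∧ H = Cfsg.Geo.subfieldSubgroup F₀ P ⊓ (Cfsg.GU 6 F q ⊓ Cfsg.Geo.specialLinear (Fin 6) F)) ∨
    (∃ (F₀ : Subfield F) (P : Matrix.GeneralLinearGroup (Fin 6) F) (ζ : F), Fintype.card F = Nat.card F₀ ^ 2 ∧ ζ ≠ 0 ∧ ζ + ζ ^ q = 0 ∧ Cfsg.Geo.IsFormRationalStructure (Cfsg.hermForm 6 F q) F₀ ζ P ∧ (∀ u : Fin 6 → F, (∀ i, u i ∈ F₀) → (Cfsg.hermForm 6 F q) (Matrix.mulVec (P : Matrix (Fin 6) (Fin 6) F) u) (Matrix.mulVec (P : Matrix (Fin 6) (Fin 6) F) u) = 0) ∧ H = Cfsg.Geo.subfieldSubgroup F₀ P ⊓ (Cfsg.GU 6 F q ⊓ Cfsg.Geo.specialLinear (Fin 6) F)) ∨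
    (Odd q ∧ ∃ (F₀ : Subfield F) (P : Matrix.GeneralLinearGroup (Fin 6) F), Fintype.card F = Nat.card F₀ ^ 2 ∧ Cfsg.Geo.IsFormRationalStructure (Cfsg.hermForm 6 F q) F₀ 1 P ∧ H = Cfsg.Geo.subfieldSubgroup F₀ P ⊓ (Cfsg.GU 6 F q ⊓ Cfsg.Geo.specialLinear (Fin 6) F)) ∨
    Cfsg.Geo.InUnitaryResidualClass H := by
  have h0 : ∀ {p : Prop}, (q = 2 → ¬ p) → p → 3 ≤ q := fun h hp => three_le hF fun e =>
    h (Nat.pow_left_injective two_ne_zero (hF.symm.trans e)) hp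
  rcases H29.u_max (by norm_num) hF hH with (h | h | ⟨t, k, D, hD, h1, h2, h3, h⟩ |
    ⟨k, D, h1, h⟩ | h | h | ⟨h1, h⟩ | ⟨r, m, p, e, E, h1, h2, h3, h4, h5, h6, h7, h8, h9, h10, h⟩ |
    ⟨r, K, hr, ho, h1, h⟩ | ⟨a, b, e, P, f₁, f₂, h1, h2, h3, h4, h⟩ |
    ⟨k, t, e, P, f₁, h1, h2, h3, h4, h⟩) | h
  · exact .inl h
  · exact .inr (.inl h)
  · obtain ⟨rfl, rfl⟩ | ⟨rfl, rfl⟩ | ⟨rfl, rfl⟩ : t = 6 ∧ k = 1 ∨ t = 3 ∧ k = 2 ∨ t = 2 ∧ k = 3 := by
      have : t ≤ 6 := Nat.le_of_dvd (by norm_num) ⟨_, h1.symm⟩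
      interval_cases t <;> omega
    · refine .inr (.inr (.inl ⟨h0 ?_ trivial, D, hD, h⟩))
      rintro rfl -
      exact not_between hH h (mono4 hF hD)
    · exact .inr (.inr (.inr (.inl ⟨h3 rfl, D, hD, h⟩)))
    · exact .inr (.inr (.inr (.inr (.inl ⟨D, hD, h⟩))))
  · obtain rfl : k = 3 := by omega
    exact .inr (.inr (.inr (.inr (.inr (.inl ⟨D, h⟩)))))
  · exact .inr (.inr (.inr (.inr (.inr (.inr (.inr (.inr (.inl h))))))))
  · exact .inr (.inr (.inr (.inr (.inr (.inr (.inr (.inr (.inr (.inr (.inl h))))))))))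
  · exact .inr (.inr (.inr (.inr (.inr (.inr (.inr (.inr (.inr (.inl h)))))))))
  · have := H29.eq_of_pow (p := 2) h1 h6.prime (by norm_num) (by norm_num)
    have := H29.eq_of_pow (p := 3) h1 h6.prime (by norm_num) (by norm_num)
    omega
  · obtain rfl : r = 3 := by
      have : r ≤ 6 := Nat.le_of_dvd (by norm_num) h1
      interval_cases r <;> first | omega | exact absurd ho (by decide) | norm_num at hr
    refine .inr (.inr (.inr (.inr (.inr (.inr (.inl ⟨h0 ?_ trivial, K, h⟩))))))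
    rintro rfl -
    exact not_between hH h.2.2 (fld4 hF h.1 h.2.1)
  · obtain ⟨rfl, rfl⟩ : a = 2 ∧ b = 3 := by
      have : a ≤ 6 := Nat.le_of_dvd (by norm_num) ⟨_, h1.symm⟩
      interval_cases a <;> omega
    exact .inr (.inr (.inr (.inr (.inr (.inr (.inr (.inl ⟨h4 rfl, e, P, f₁, f₂, h⟩)))))))
  · obtain ⟨rfl, rfl⟩ := H29.wr_cases h2 h3 (by omega)
    omega
  · exact .inr (.inr (.inr (.inr (.inr (.inr (.inr (.inr (.inr (.inr (.inr h))))))))))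

end Cfsg.Agent.S5802
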