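import Cfsg.Statements.S5813
import Cfsg.Agent.H29.Fr3
import Cfsg.Agent.H29.NDOrth
import Cfsg.Agent.H23.OR1
import Cfsg.Agent.H23.OR2

set_option autoImplicit false
open Cfsg

namespace Cfsg.Agent.S5813

open H11 H11.PForm H29 H23.OR Module

/-- Maximal subgroups of Ω_7(q) of geometric type, q odd. Let F be a finite field of odd order q, Q the standard quadratic form x₀² + Σ x_i y_i on F^7 (coordinates Unit ⊕ (Fin 3 ⊕ Fin 3)), and Ω = Ω_7(q) the commutator subgroup of its isometry group, inside GL_7(F). Each of the following, intersected with Ω, is a maximal subgroup of Ω: (1) the stabiliser of any non-zero subspace on which Q vanishes identically (totally singular 1-, 2- and 3-spaces); (2) the stabiliser of any non-zero even-dimensional subspace W on which the polar form of Q is non-degenerate (equivalently of its odd-dimensional orthogonal complement), except when q = 3 and W is a 2-space containing a non-zero singular vector (a plus-type plane); (3) for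 q = p prime, the stabiliser of any decomposition of F^7 into seven pairwise orthogonal, pairwise Q-isometric non-degenerate 1-spaces; (4) every subfield group for a subfield F₀ with |F| = |F₀|^r, r prime, whose F₀-structure carries Q. -/
theorem result {F : Type*} [Field F] [Fintype F] (hodd : Odd (Fintype.card F)) :
    (∀ W : Submodule F (Unit ⊕ (Fin 3 ⊕ Fin 3) → F), W ≠ ⊥ → Cfsg.Geo.IsTotallySingularQuad (Cfsg.quadFormOdd 3 F) W → Cfsg.Geo.IsMaximalIn (Cfsg.Geo.omegaGL (Cfsg.quadFormOdd 3 F)) (Cfsg.Geo.subspaceStabilizer W ⊓ Cfsg.Geo.omegaGL (Cfsg.quadFormOdd 3 F))) ∧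
    (∀ W : Submodule F (Unit ⊕ (Fin 3 ⊕ Fin 3) → F), W ≠ ⊥ → Even (Module.finrank F W) → Cfsg.Geo.IsNondegenerateOn (QuadraticMap.polar (Cfsg.quadFormOdd 3 F)) W → ¬ (Fintype.card F = 3 ∧ Module.finrank F W = 2 ∧ Cfsg.Geo.IsPlusTypeOn (Cfsg.quadFormOdd 3 F) W) → Cfsg.Geo.IsMaximalIn (Cfsg.Geo.omegaGL (Cfsg.quadFormOdd 3 F)) (Cfsg.Geo.subspaceStabilizer W ⊓ Cfsg.Geo.omegaGL (Cfsg.quadFormOdd 3 F))) ∧
    ((Fintype.card F).Prime → ∀ D : Fin 7 → Submodule F (Unit ⊕ (Fin 3 ⊕ Fin 3) → F), Cfsg.Geo.IsOrthogonalMDecomposition (Cfsg.quadFormOdd 3 F) 1 D → Cfsg.Geo.IsMaximalIn (Cfsg.Geo.omegaGL (Cfsg.quadFormOdd 3 F)) (Cfsg.Geo.decompositionStabilizer D ⊓ Cfsg.Geo.omegaGL (Cfsg.quadFormOdd 3 F))) ∧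
    (∀ (F₀ : Subfield F) (r : ℕ) (P : Matrix.GeneralLinearGroup (Unit ⊕ (Fin 3 ⊕ Fin 3)) F), r.Prime → Fintype.card F = Nat.card F₀ ^ r → Cfsg.Geo.IsQuadFormRationalStructure (Cfsg.quadFormOdd 3 F) F₀ P → Cfsg.Geo.IsMaximalIn (Cfsg.Geo.omegaGL (Cfsg.quadFormOdd 3 F)) (Cfsg.Geo.subfieldSubgroup F₀ P ⊓ Cfsg.Geo.omegaGL (Cfsg.quadFormOdd 3 F))) := by
  have hQ := quadFormOdd_nondeg (two_ne_zero_of_odd hodd) 3
  refine ⟨oo_ts hodd le_rfl, fun W hW0 hev hW hex => ?_, fun hp => oo_frame hodd le_rfl hp,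
    fun F₀ r P hr hcard hP => oo_rat7 (by simp) hQ hr hcard one_ne_zero (by simpa using hP)⟩
  have hS := quadOf_nondeg hQ
  have hW' := restrict_nondeg_of_on (orthS (quadOf hQ)) (fun x y h => h) hW
  rw [← coe_quadOf hQ, omegaGL_eq _ hS (by simp)]
  have h1 := hS.finrank_perp W
  simp only [finrank_fintype_fun_eq_card, Fintype.card_sum, Fintype.card_unit,
    Fintype.card_fin] at h1
  obtain ⟨k, hk⟩ := hev
  have h0 := Submodule.finrank_eq_zero.not.2 hW0
  obtain h | h | h : finrank F W = 2 ∨ finrank F W = 4 ∨ finrank F W = 6 := by omega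
  · refine isMaximalIn_nd hS (iso3_orth _) (hS.restrict_perp hW') (by omega)
      (by rwa [hS.perp_perp]) (by
        rw [hS.perp_perp]
        refine orth_irr hW' ?_
        rintro ⟨h3, h2, x, hx0, hx⟩
        refine hex ⟨?_, h2, plusType_of_sing hQ h2 x.2 (by simpa using hx0) hx⟩
        rw [Nat.card_eq_fintype_card] at h3
        have := Fintype.one_lt_card (α := F)
        obtain ⟨j, hj⟩ := hodd
        omega) (hside_of_lt (by rw [hS.perp_perp]; omega)) _ ?_
    rw [comap_subspaceStabilizer, stab_perp hS]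
  · exact isMaximalIn_nd4 hS hW' h (Or.inl ⟨two_ne_zero_of_odd hodd, by simp⟩) _
      (comap_subspaceStabilizer _ W)
  · exact isMaximalIn_nd hS (iso3_orth _) hW' (by omega)
      (fun h' => by rw [h', finrank_bot] at h1; omega)
      (orth_irr (hS.restrict_perp hW') (by omega)) (hside_of_lt (by omega)) _
      (comap_subspaceStabilizer _ W)

end Cfsg.Agent.S5813
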