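import Cfsg.Statements.S5826
import Cfsg.Agent.H29.Cv5

set_option autoImplicit false
open Cfsg

namespace Cfsg.Agent.S5826

/-- Every maximal subgroup of Ω_8^-(q) is of one of the listed geometric types or lies in the residual class. Let F be a finite field with q elements, Q a non-degenerate quadratic form on F^8 of minus type (no totally singular 4-space), Ω the commutator subgroup of its isometry group, and H a maximal subgroup of Ω (inside GL_8(F)). Then H is the intersection with Ω of one of: the stabiliser of a non-zero totally singular subspace; for q odd, the stabiliser of a non-degenerate subspace of odd dimension; the stabiliser of a non-degenerate 2-space of minus type; for q ≥ 4, the stabiliser of a non-degenerate 2-space of plus type; the stabiliser of a non-degenerate 4-space; for q even, the stabiliser of the span of a non-singular vector; the normaliser of a degree-2 subfield of the matrix algebra; a subfield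 group of odd prime index whose F₀-structure carries a non-zero multiple of Q — or else H lies in the residual class of the orthogonal case (modulo scalars H is almost simple, with absolutely irreducible perfect socle preimage realisable over no proper subfield and fixing no non-degenerate unitary form). -/
theorem result {F : Type*} [Field F] [Fintype F] (Q : (Fin 8 → F) → F) (hQ : Cfsg.Geo.IsNondegenerateQuadraticForm Q) (hminus : ¬ Cfsg.Geo.IsPlusTypeOn Q ⊤) (H : Subgroup (Matrix.GeneralLinearGroup (Fin 8) F)) (hH : Cfsg.Geo.IsMaximalIn (Cfsg.Geo.omegaGL Q) H) :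
    (∃ W : Submodule F (Fin 8 → F), W ≠ ⊥ ∧ Cfsg.Geo.IsTotallySingularQuad Q W ∧ H = Cfsg.Geo.subspaceStabilizer W ⊓ Cfsg.Geo.omegaGL Q) ∨
    (Odd (Fintype.card F) ∧ ∃ W : Submodule F (Fin 8 → F), W ≠ ⊥ ∧ W ≠ ⊤ ∧ Odd (Module.finrank F W) ∧ Cfsg.Geo.IsNondegenerateOn (QuadraticMap.polar Q) W ∧ H = Cfsg.Geo.subspaceStabilizer W ⊓ Cfsg.Geo.omegaGL Q) ∨
    (∃ W : Submodule F (Fin 8 → F), Module.finrank F W = 2 ∧ Cfsg.Geo.IsNondegenerateOn (QuadraticMap.polar Q) W ∧ ¬ Cfsg.Geo.IsPlusTypeOn Q W ∧ H = Cfsg.Geo.subspaceStabilizer W ⊓ Cfsg.Geo.omegaGL Q) ∨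
    (4 ≤ Fintype.card F ∧ ∃ W : Submodule F (Fin 8 → F), Module.finrank F W = 2 ∧ Cfsg.Geo.IsNondegenerateOn (QuadraticMap.polar Q) W ∧ Cfsg.Geo.IsPlusTypeOn Q W ∧ H = Cfsg.Geo.subspaceStabilizer W ⊓ Cfsg.Geo.omegaGL Q) ∨
    (∃ W : Submodule F (Fin 8 → F), Module.finrank F W = 4 ∧ Cfsg.Geo.IsNondegenerateOn (QuadraticMap.polar Q) W ∧ H = Cfsg.Geo.subspaceStabilizer W ⊓ Cfsg.Geo.omegaGL Q) ∨
    (¬ Odd (Fintype.card F) ∧ ∃ v : (Fin 8 → F), Q v ≠ 0 ∧ H = Cfsg.Geo.subspaceStabilizer (Submodule.span F {v}) ⊓ Cfsg.Geo.omegaGL Q) ∨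
    (∃ K : Subalgebra F (Matrix (Fin 8) (Fin 8) F), Cfsg.Geo.IsFieldSubalgebra 2 K ∧ H = Cfsg.Geo.subalgebraNormalizer K ⊓ Cfsg.Geo.omegaGL Q) ∨
    (∃ (F₀ : Subfield F) (r : ℕ) (P : Matrix.GeneralLinearGroup (Fin 8) F) (ζ : F), r.Prime ∧ Odd r ∧ Fintype.card F = Nat.card F₀ ^ r ∧ ζ ≠ 0 ∧ Cfsg.Geo.IsQuadFormRationalStructure (fun v : Fin 8 → F => ζ * Q v) F₀ P ∧ H = Cfsg.Geo.subfieldSubgroup F₀ P ⊓ Cfsg.Geo.omegaGL Q) ∨
    Cfsg.Geo.InOrthogonalResidualClass H := by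
  rcases H29.oe_max (m := 4) hQ rfl (by norm_num) hH with (⟨W, h1, h2, h3, h⟩ |
    ⟨ho, W, h1, h2, h3, h4, h⟩ | ⟨k, W, h1, h2, h3, h4, h5, h⟩ | ⟨h1, h2, h⟩ | h |
    ⟨t, k, D, h1, h2, h3, h4, h5, h6, h7, h8, h9, h⟩ | ⟨h1, h2, h3, h⟩ | ⟨h1, h2, h⟩ |
    ⟨F₀, r, P, ζ, h1, h2, h⟩ | ⟨r, K, hr, h1, h2, h3, h4, h5, h⟩ | ⟨h0, K, h1, h2, h3, h4, h⟩ |
    ⟨h1, h2, h⟩ | ⟨a, b, e, P, f₁, f₂, h1, h2, h3, ⟨a', h4⟩, ⟨b', h5⟩, h6, h⟩ |
    ⟨ho, a, b, e, P, f₁, f₂, h1, h2, h3, h4, h5, h6, h7, h⟩ | ⟨k, t, h1, h2, h3⟩) | h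
  · exact .inl (⟨W, h1, h2, h⟩)
  · exact .inr (.inl (⟨ho, W, h2, h3, h4, h⟩))
  · obtain rfl : k = 1 := by omega
    by_cases hp : Cfsg.Geo.IsPlusTypeOn Q W
    · exact .inr (.inr (.inr (.inl (⟨h3 rfl hp, W, h4, h5, hp, h⟩))))
    · exact .inr (.inr (.inl (⟨W, h4, h5, hp, h⟩)))
  · exact .inr (.inr (.inr (.inr (.inl (h)))))
  · exact .inr (.inr (.inr (.inr (.inr (.inl (h))))))
  · obtain ⟨rfl, rfl⟩ | ⟨rfl, rfl⟩ | ⟨rfl, rfl⟩ : t = 8 ∧ k = 1 ∨ t = 4 ∧ k = 2 ∨ t = 2 ∧ k = 4 := by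
      have : t ≤ 8 := Nat.le_of_dvd (by norm_num) ⟨_, h1.symm⟩
      interval_cases t <;> omega
    · have := Nat.odd_iff.1 (h7 (by decide)).1
      refine absurd ((h7 (by decide)).2.2 ?_) hminus
      obtain e | e : Fintype.card F % 4 = 1 ∨ Fintype.card F % 4 = 3 := by omega
      all_goals rw [Nat.pow_mod, e]
    · exact absurd ((h8 (by decide)).elim (·.2) (·.2.2 (by decide))) hminus
    · exact absurd ((h8 (by decide)).elim (·.2) (·.2.2 (by decide))) hminus
  · exact absurd h1 (by decide)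
  · exact absurd h1 hminus
  · exact .inr (.inr (.inr (.inr (.inr (.inr (.inr (.inl (⟨F₀, r, P, ζ, h2, h2.odd_of_ne_two (mt h1 hminus), h⟩))))))))
  · obtain rfl : r = 2 := by
      have : r ≤ 8 := Nat.le_of_dvd (by norm_num) h1
      interval_cases r <;> first | omega | norm_num at hr
    exact .inr (.inr (.inr (.inr (.inr (.inr (.inl (⟨K, h4, h⟩)))))))
  · exact .inr (.inr (.inr (.inr (.inr (.inr (.inl (⟨K, h1, h⟩)))))))
  · exact absurd h1 hminus
  · have : a ≤ 3 := by nlinarith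
    obtain rfl : a = 2 := by omega
    exact absurd (h6 rfl).1 hminus
  · have : a ≤ 3 := by nlinarith
    obtain rfl : a = 3 := by omega
    omega
  · have hk : 1 < k := by
      by_contra! e
      interval_cases k <;> simp [Nat.zero_pow (show 0 < t by omega)] at h2
    have : k ^ 2 ≤ k ^ t := Nat.pow_le_pow_right (by omega) h1
    have : k ≤ 3 := by nlinarith
    have : t < 8 := (Nat.lt_pow_self hk).trans_eq h2
    interval_cases k <;> interval_cases t <;> simp_all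
  · exact .inr (.inr (.inr (.inr (.inr (.inr (.inr (.inr (h))))))))

end Cfsg.Agent.S5826
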