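import Cfsg.Statements.S5876
import Cfsg.Agent.H5.LinFix

set_option autoImplicit false
open Cfsg

namespace Cfsg.Agent.S5876
open H5
open H18 Subgroup

/-- Fixed-point spaces in primitive soluble linear groups. Let F be a finite field and G a soluble subgroup of GL_n(F) that acts irreducibly on F^n and primitively (G preserves no decomposition of F^n into two or more independent subspaces of equal dimension). Then every non-identity element g of G has fixed-point space {v : g v = v} of dimension at most 3n/4. -/
theorem result {F : Type*} [Field F] [Fintype F] {n : ℕ} (G : Subgroup (Matrix.GeneralLinearGroup (Fin n) F)) (hsol : IsSolvable G) (hirr : Cfsg.Geo.ActsIrreducibly (Cfsg.Geo.matrixSet G)) (hprim : ∀ (m t : ℕ) (D : Fin t → Submodule F (Fin n → F)), 2 ≤ t → Cfsg.Geo.IsMDecomposition m D → ¬ G ≤ Cfsg.Geo.decompositionStabilizer D) (g : Matrix.GeneralLinearGroup (Fin n) F) (hg : g ∈ G) (hg1 : g ≠ 1) :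
    4 * Module.finrank F (Module.End.eigenspace (Matrix.toLin' (g : Matrix (Fin n) (Fin n) F)) 1) ≤ 3 * n := by
  classical
  let ρ : Matrix.GeneralLinearGroup (Fin n) F →* Module.End F (Fin n → F) :=
    { toFun := fun g => Matrix.toLin' (g : Matrix (Fin n) (Fin n) F)
      map_one' := by simp; rfl
      map_mul' := fun a b => by rw [Units.val_mul, Matrix.toLin'_mul]; rfl }
  have h : LPrim ρ G := ⟨fun g _ hg => Units.ext (Matrix.toLin'.injective (LinearMap.ext fun v => by
      rw [Units.val_one, Matrix.toLin'_one]; exact hg v)), fun W hW => hirr W (by rintro _ ⟨g, hg, rfl⟩; exact hW g hg),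
    fun m t D h1 h2 h3 h4 h5 h6 => hprim m t D h1 ⟨h1, h2, h3, h4, h5⟩ h6⟩
  have := h.three_quarters hsol hg hg1
  rw [Module.finrank_fin_fun] at this
  rwa [show Module.End.eigenspace (Matrix.toLin' (g : Matrix (Fin n) (Fin n) F)) 1 = fixS ρ (zpowers g) from
    Submodule.ext fun v => by rw [mem_fixS_zpowers, Module.End.mem_eigenspace_iff, one_smul]; rfl]

end Cfsg.Agent.S5876
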