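import Cfsg.Statements.S5877
import Cfsg.Agent.H17.XEig

set_option autoImplicit false
open Cfsg

namespace Cfsg.Agent.S5877

open Subgroup H17.XE Cfsg.Geo
open scoped commutatorElement

/-- Eigenspaces of elements normalising an absolutely irreducible extraspecial group. Let F be a finite field, r a prime, and R ≤ GL_n(F) an absolutely irreducible extraspecial r-group (an r-group whose centre equals its derived subgroup and has order r) of exponent r or 4. Let g ∈ GL_n(F) normalise the product of R with the scalar matrices, have prime order ϖ and not be scalar, and let W be the eigenspace of g for any c ∈ F (W may be the zero subspace). Then dim W ≤ 3n/4 if ϖ = 2, dim W ≤ 2n/3 if ϖ = 3, and dim W ≤ n/2 if ϖ > 3; moreover if ϖ = 3 and 3 does not divide n then dim W ≤ n/2. -/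
theorem result {F : Type*} [Field F] [Fintype F] {n r ϖ : ℕ} (R : Subgroup (Matrix.GeneralLinearGroup (Fin n) F)) (hr : r.Prime) (hR : IsPGroup r R) (hZ : Nat.card (Subgroup.center R) = r) (hext : commutator R = Subgroup.center R) (hexp : Monoid.exponent R = r ∨ Monoid.exponent R = 4) (hirr : Cfsg.Geo.ActsAbsolutelyIrreducibly (Cfsg.Geo.matrixSet R)) (g : Matrix.GeneralLinearGroup (Fin n) F) (hg : g ∈ Cfsg.Geo.subgroupNormalizer (R ⊔ Cfsg.Geo.scalars (Fin n) F)) (hϖ : ϖ.Prime) (hord : orderOf g = ϖ) (hns : g ∉ Cfsg.Geo.scalars (Fin n) F) (c : F) :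
    (ϖ = 2 → 4 * Module.finrank F (Module.End.eigenspace (Matrix.toLin' (g : Matrix (Fin n) (Fin n) F)) c) ≤ 3 * n) ∧
    (ϖ = 3 → 3 * Module.finrank F (Module.End.eigenspace (Matrix.toLin' (g : Matrix (Fin n) (Fin n) F)) c) ≤ 2 * n) ∧
    (3 < ϖ → 2 * Module.finrank F (Module.End.eigenspace (Matrix.toLin' (g : Matrix (Fin n) (Fin n) F)) c) ≤ n) ∧
    (ϖ = 3 → ¬ 3 ∣ n → 2 * Module.finrank F (Module.End.eigenspace (Matrix.toLin' (g : Matrix (Fin n) (Fin n) F)) c) ≤ n) := by
  let ρ : Representation F (Matrix.GeneralLinearGroup (Fin n) F) (Fin n → F) :=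
    (Matrix.toLinAlgEquiv' (R := F) (n := Fin n)).toMonoidHom.comp (Units.coeHom _)
  have hρ : ∀ u, ρ u = Matrix.toLin' (u : Matrix (Fin n) (Fin n) F) := fun _ => rfl
  have hsc : ∀ u (c : F), ρ u = c • 1 ↔ (u : Matrix (Fin n) (Fin n) F) = c • 1 := fun u c => by
    rw [hρ, ← Matrix.toLin'.injective.eq_iff, map_smul, Matrix.toLin'_one]; rfl
  have hcm : ∀ u v (l : F), ρ u * ρ v = l • (ρ v * ρ u) ↔ (u * v : Matrix (Fin n) (Fin n) F) = l • (v * u) := fun u v l => by
    rw [← map_mul, ← map_mul, hρ, hρ, ← map_smul, Matrix.toLin'.injective.eq_iff]; rfl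
  have hS : ∀ h, (∀ v ∈ R, (h * v : Matrix (Fin n) (Fin n) F) = v * h) → ∃ c : F, h = c • 1 := fun h hh =>
    hirr.2 h (by rintro _ ⟨v, hv, rfl⟩; exact hh v hv)
  have hnt : Nontrivial (center R) := Finite.one_lt_card_iff_nontrivial.1 (hZ ▸ hr.one_lt)
  have hn : Nonempty (Fin n) := by
    by_contra h
    rw [not_nonempty_iff] at h
    exact hns (by rw [Subsingleton.elim g 1]; exact one_mem _)
  have hR1 : ∀ u ∈ R, ∀ v ∈ R, ∃ l : F, l ^ r = 1 ∧ (u * v : Matrix (Fin n) (Fin n) F) = l • (v * u) := fun u hu v hv => by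
    have h1 : ⁅(⟨u, hu⟩ : R), ⟨v, hv⟩⁆ ∈ center R := hext ▸ commutator_mem_commutator (mem_top _) (mem_top _)
    obtain ⟨l, hl⟩ := hS (⁅u, v⁆ : Matrix.GeneralLinearGroup (Fin n) F) fun w hw =>
      congrArg (fun x : R => ((x : Matrix.GeneralLinearGroup (Fin n) F) : Matrix (Fin n) (Fin n) F))
        (mem_center_iff.1 h1 ⟨w, hw⟩).symm
    have h2 : ⁅u, v⁆ ^ r = 1 := congrArg (fun x : center R => ((x : R) : Matrix.GeneralLinearGroup (Fin n) F))
      (hZ ▸ pow_card_eq_one' (x := (⟨_, h1⟩ : center R)))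
    refine ⟨l, ?_, ?_⟩
    · have := congrArg Units.val h2
      rw [Units.val_pow_eq_pow_val, hl, smul_pow, one_pow, Units.val_one] at this
      obtain ⟨i⟩ := hn
      simpa using congrFun (congrFun this i) i
    · rw [← Units.val_mul, show u * v = ⁅u, v⁆ * (v * u) by group, Units.val_mul, hl]; simp
  have hdec : ∀ u ∈ R ⊔ scalars (Fin n) F, ∃ a ∈ R, ∃ c : F, (u : Matrix (Fin n) (Fin n) F) = c • a := fun u hu => by
    have : u ∈ (↑(R ⊔ scalars (Fin n) F) : Set _) := hu
    rw [mul_normal] at this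
    obtain ⟨a, ha, s, hs, rfl⟩ := this
    obtain ⟨c, hc⟩ := (mem_scalars_iff s).1 hs
    exact ⟨a, ha, c, by simp [hc]⟩
  have H : Hy ρ (R ⊔ scalars (Fin n) F) r g := ⟨hr, fun u hu v hv => by
      obtain ⟨a, ha, c, hc⟩ := hdec u hu
      obtain ⟨b, hb, d, hd⟩ := hdec v hv
      obtain ⟨l, h1, h2⟩ := hR1 a ha b hb
      exact ⟨l, h1, by rw [hcm, hc, hd]; simp [h2, smul_smul, mul_comm, mul_left_comm]⟩,
    fun h hh => by
      obtain ⟨c, hc⟩ := hS h fun v hv => by simpa using (hcm h v 1).1 (by simpa using hh v (mem_sup_left hv))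
      exact ⟨c, (hsc _ _).2 hc⟩, mem_normalizer_iff.1 hg⟩
  have hg' : ¬ Sc ρ g := fun ⟨c, hc⟩ => hns ((mem_scalars_iff g).2 ⟨Units.mk0 c (by
    rintro rfl; exact ((Group.isUnit g).map ρ).ne_zero (by simpa using hc)), (hsc _ _).1 hc⟩)
  have hrn : r ∣ n := by
    obtain ⟨u, hu, v, hv, h⟩ : ∃ u ∈ R, ∃ v ∈ R, (u * v : Matrix (Fin n) (Fin n) F) ≠ v * u := by
      by_contra hc
      push Not at hc
      have : commutator R = ⊥ := commutator_eq_bot_iff_le_centralizer.2 fun u _ v _ =>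
        Subtype.ext (Units.ext (hc v v.2 u u.2))
      rw [← hext, this] at hnt
      exact not_subsingleton _ (inferInstance : Subsingleton (⊥ : Subgroup R))
    obtain ⟨l, h1, h2⟩ := hR1 u hu v hv
    refine ((prim hr h1 fun e => h (by simpa [e] using h2)).pow_eq_one_iff_dvd n).1 ?_
    have := congrArg Matrix.det h2
    rw [Matrix.det_smul, Matrix.det_mul, Matrix.det_mul, Fintype.card_fin, mul_comm v.1.det] at this
    exact (mul_eq_right₀ (mul_ne_zero u.det_ne_zero v.det_ne_zero)).1 this.symm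
  have hV : Module.finrank F (Fin n → F) = n := by simp
  have h1 : r * (2 * Module.finrank F (Module.End.eigenspace (ρ g) c)) ≤ r * n + n := by
    by_cases h0 : ∀ x ∈ R ⊔ scalars (Fin n) F, Sc ρ (g * x * g⁻¹ * x⁻¹)
    · have := H.triv hg' h0 c
      rw [hV] at this
      nlinarith
    · push Not at h0
      obtain ⟨x, hx, h0⟩ := h0
      simpa using H.simple hx h0 c
  have h2 := fun a b => H.half hϖ a b (hord ▸ pow_orderOf_eq_one g) hg' c
  rw [hV] at h2
  rw [← hρ]
  refine ⟨fun _ => ?_, fun h => ?_, fun h => h2 (by omega) (by omega), fun h h3 => h2 (by omega) ?_⟩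
  · have := hr.two_le
    by_contra hc
    nlinarith
  · by_cases h3 : r = 3
    · subst h3; omega
    · have := h2 (by omega) (by omega); omega
  · rintro rfl; exact (h3 (h ▸ hrn)).elim

end Cfsg.Agent.S5877
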