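import Cfsg.Statements.S5938
import Cfsg.Agent.H10.PSLx
import Mathlib.NumberTheory.LegendreSymbol.QuadraticChar.GaussSum

set_option autoImplicit false
open Cfsg

namespace Cfsg.Agent.S5938

open H10 Subgroup in

/-- Let p be a prime with p ≡ ±1 (mod 8) and F a field with p elements. Then PSL_2(F) has a maximal subgroup isomorphic to the symmetric group S_4. -/
theorem result {F : Type*} [Field F] [Fintype F] (p : ℕ) [Fact p.Prime] (hF : Fintype.card F = p) (hp : p % 8 = 1 ∨ p % 8 = 7) : ∃ H : Subgroup (Matrix.ProjectiveSpecialLinearGroup (Fin 2) F), IsCoatom H ∧ Nonempty (H ≃* Equiv.Perm (Fin 4)) := by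
  have hq : p.Prime := Fact.out
  have h2 : (2 : F) ≠ 0 := Ring.two_ne_zero fun h => by have := FiniteField.even_card_of_char_two h; omega
  obtain ⟨τ, hτ⟩ := (FiniteField.isSquare_two_iff (F := F)).2 (by omega)
  obtain ⟨a, c, h⟩ := exists_root_of_odd h2 τ
  obtain ⟨H, ⟨e⟩⟩ := exists_S4_of_root h2 (by rw [hτ, sq]) h
  have hH : Nat.card H = 24 := by rw [Nat.card_congr e.toEquiv, Nat.card_perm, Nat.card_fin]; rfl
  refine ⟨H, isCoatom_of_card (fun k => not_isSolvable_PSL2 (F := F) (by have := hq.two_le; omega)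
    (isSolvable_of_card_dvd_24 (by rw [← hH, k, card_top]))) (.inr ⟨h2, (e.symm : _ →* H).comp (Subgroup.subtype _),
      e.symm.injective.comp (subtype_injective _)⟩) ?_, ⟨e⟩⟩
  rw [hH]
  rintro n h1 h3 - - (rfl | rfl | rfl | ⟨s, m, k1, k2, -⟩)
  all_goals try omega
  have := (hq.pow_eq_iff.1 (k2.trans hF)).2
  omega

end Cfsg.Agent.S5938
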