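import Cfsg.Statements.S5941
import Cfsg.Agent.H10.PSLx

set_option autoImplicit false
open Cfsg

namespace Cfsg.Agent.S5941

open H10 Subgroup Matrix in

/-- Let K and F be finite fields of odd characteristic with #F = (#K)². Then PSL_2(F) has a maximal subgroup isomorphic to PGL_2(K). -/
theorem result {F K : Type*} [Field F] [Fintype F] [Field K] [Fintype K] (q : ℕ) (hK : Fintype.card K = q) (hF : Fintype.card F = q ^ 2) (hq : Odd q) : ∃ H : Subgroup (Matrix.ProjectiveSpecialLinearGroup (Fin 2) F), IsCoatom H ∧ Nonempty (H ≃* Matrix.ProjGenLinGroup (Fin 2) K) := by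
  have h3 : 3 ≤ q := by have := Fintype.one_lt_card (α := K); rw [Nat.odd_iff] at hq; omega
  have h2 : (2 : K) ≠ 0 := Ring.two_ne_zero fun h => by
    have := FiniteField.even_card_of_char_two h; rw [Nat.odd_iff] at hq; omega
  obtain ⟨f⟩ := exists_ringHom_of_card (K := K) (L := F) (m := 2) (by simp [hK, hF])
  have h2' : (2 : F) ≠ 0 := by rw [← map_ofNat f]; exact (map_ne_zero f).2 h2
  obtain ⟨H, ⟨e⟩⟩ := exists_subgroup_PSL _ (PGL2_map_injective f) (by
    rintro _ ⟨g, rfl⟩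
    obtain ⟨a, b, c, d, h, rfl⟩ := mob_surj g
    obtain ⟨k, rfl⟩ := hq
    rw [map_mob, mob_mem_PSL2_iff, ← map_mul, ← map_mul, ← map_sub, FiniteField.isSquare_iff
      (fun e => h2' (by exact_mod_cast e ▸ CharP.cast_eq_zero F (ringChar F))) ((map_ne_zero f).2 h), hF, ← map_pow,
      show (2 * k + 1) ^ 2 / 2 = (Fintype.card K - 1) * (k + 1) by
        rw [hK, Nat.add_sub_cancel]; exact Nat.div_eq_of_lt_le (by nlinarith) (by nlinarith),
      pow_mul, FiniteField.pow_card_sub_one_eq_one _ h, one_pow, map_one])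
  have hH : Nat.card H = q * (q - 1) * (q + 1) := by rw [Nat.card_congr e.toEquiv, card_PGL2, hK]
  have h4 : 24 ≤ q * (q - 1) * (q + 1) := (by gcongr <;> omega : 3 * 2 * 4 ≤ _)
  obtain ⟨g, hg⟩ := exists_A4_hom h2
  refine ⟨H, isCoatom_of_card (fun k => ?_) (.inr ⟨h2', ((e.symm : _ →* H).comp (ι K)).comp g,
    (e.symm.injective.comp ι_injective).comp hg⟩) ?_, ⟨e⟩⟩
  · have h5 := card_PSL2 (F := F)
    rw [← card_top, ← k, hH, hF] at h5
    have := Nat.gcd_le_left (q ^ 2 - 1) two_pos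
    obtain ⟨r, rfl⟩ : ∃ r, q = r + 1 := ⟨q - 1, by omega⟩
    rw [Nat.add_sub_cancel, show (r + 1) ^ 2 - 1 = r * (r + 2) by ring_nf; omega] at *
    nlinarith [Nat.mul_le_mul_right ((r + 1) * r * (r + 1 + 1)) this, Nat.zero_le (r ^ 4), Nat.zero_le (r ^ 5),
      Nat.zero_le (r ^ 6), Nat.zero_le (r ^ 3), Nat.zero_le (r ^ 2)]
  rw [hH]
  rintro n h1 h5 - - (rfl | rfl | rfl | ⟨s, m, k1, k2, k3⟩)
  · omega
  · omega
  · obtain rfl | rfl : q = 3 ∨ q = 4 := by
      by_contra
      have : 5 * 4 * 6 ≤ q * (q - 1) * (q + 1) := by gcongr <;> omega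
      omega
    · omega
    · simp at h5
  · obtain rfl := eq_of_dvd_subfield (hK ▸ FiniteField.isPrimePow_card K) Nat.prime_two k1 (k2.trans hF)
      ((h1.trans k3).mul_left 2)
    have := Nat.le_of_dvd (by omega) k3
    omega

end Cfsg.Agent.S5941
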