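import Cfsg.Statements.S5942
import Cfsg.Agent.H10.PSLx

set_option autoImplicit false
open Cfsg

namespace Cfsg.Agent.S5942

open H10 Subgroup Matrix in

/-- Let K and F be finite fields of odd characteristic with #F = (#K)^r for an odd prime r. Then PSL_2(F) has a maximal subgroup isomorphic to PSL_2(K). -/
theorem result {F K : Type*} [Field F] [Fintype F] [Field K] [Fintype K] (q r : ℕ) (hK : Fintype.card K = q) (hF : Fintype.card F = q ^ r) (hq : Odd q) (hr : r.Prime) (hr2 : r ≠ 2) : ∃ H : Subgroup (Matrix.ProjectiveSpecialLinearGroup (Fin 2) F), IsCoatom H ∧ Nonempty (H ≃* Matrix.ProjectiveSpecialLinearGroup (Fin 2) K) := by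
  have h3 : 3 ≤ q := by have := Fintype.one_lt_card (α := K); rw [Nat.odd_iff] at hq; omega
  have h2 : (2 : K) ≠ 0 := Ring.two_ne_zero fun h => by
    have := FiniteField.even_card_of_char_two h; rw [Nat.odd_iff] at hq; omega
  obtain ⟨f⟩ := exists_ringHom_of_card (K := K) (L := F) (m := r) (by simp [hK, hF])
  have h2' : (2 : F) ≠ 0 := by rw [← map_ofNat f]; exact (map_ne_zero f).2 h2
  obtain ⟨φ, hφ, -⟩ := exists_PSL_map f
  have e := MonoidHom.ofInjective hφ
  have h4 := card_PSL2 (F := K)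
  have h5 := card_PSL2 (F := F)
  have h6 := card_PSL2_lt (F := F) (K := K) (by rw [hK, hF]; exact Nat.pow_le_pow_right (by omega) hr.two_le)
  have ho := hq.pow (n := r)
  rw [hK, Nat.gcd_eq_left (Nat.Odd.sub_odd hq odd_one).two_dvd, Nat.card_congr e.toEquiv] at h4
  rw [hF, Nat.gcd_eq_left (Nat.Odd.sub_odd ho odd_one).two_dvd] at h5
  obtain ⟨g, hg⟩ := exists_A4_hom h2
  refine ⟨φ.range, isCoatom_of_card (fun k => ?_) (.inr ⟨h2', (e : _ →* φ.range).comp g,
    e.injective.comp hg⟩) ?_, ⟨e.symm⟩⟩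
  · rw [Nat.card_congr e.toEquiv, k, card_top] at h6
    omega
  obtain ⟨m, hm, h7⟩ : ∃ m, Odd m ∧ Nat.card (ProjectiveSpecialLinearGroup (Fin 2) F) = Nat.card φ.range * m := by
    obtain ⟨j, rfl⟩ : ∃ j, r = j + 1 := ⟨r - 1, by have := hr.pos; omega⟩
    refine ⟨q ^ j * ∑ i ∈ Finset.range (j + 1), (q ^ 2) ^ i, hq.pow.mul ?_, Nat.eq_of_mul_eq_mul_left two_pos ?_⟩
    · rw [Finset.odd_sum_iff_odd_card_odd, Finset.filter_true_of_mem fun i _ => hq.pow.pow, Finset.card_range]
      exact hr.odd_of_ne_two hr2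
    · have := Nat.geomSum_eq (m := q ^ 2) (by nlinarith) (j + 1)
      zify [show 1 ≤ q by omega, ho.pos] at h4 h5 ⊢
      rw [h5, ← mul_assoc, h4]
      linear_combination (-(q : ℤ) ^ (j + 1)) * mul_geom_sum ((q : ℤ) ^ 2) (j + 1)
  have h8 : ¬ 2 * Nat.card φ.range ∣ Nat.card (ProjectiveSpecialLinearGroup (Fin 2) F) := fun k => by
    rw [h7, mul_comm, Nat.mul_dvd_mul_iff_left Nat.card_pos] at k
    rw [Nat.odd_iff] at hm
    omega
  have h9 : q ≠ 3 → 60 ≤ Nat.card φ.range := fun k => by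
    have : 5 * 4 * 6 ≤ q * (q - 1) * (q + 1) := by rw [Nat.odd_iff] at hq; gcongr <;> omega
    omega
  rintro n h1 k4 k5 - (rfl | rfl | rfl | ⟨s, m, k1, k2, k3⟩)
  · by_cases k : q = 3
    · subst k; omega
    · have := h9 k; omega
  · by_cases k : q = 3
    · subst k; exact h8 ((dvd_of_eq (by omega)).trans k5)
    · have := h9 k; omega
  · by_cases k : q = 3
    · subst k
      obtain ⟨j, rfl⟩ := hr.odd_of_ne_two hr2
      have : 5 ∣ 3 ^ (2 * j + 1) * (3 ^ (2 * j + 1) - 1) * (3 ^ (2 * j + 1) + 1) := by omega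
      have k : 9 ^ j % 5 = 1 ∨ 9 ^ j % 5 = 4 := by
        clear * -
        induction j with
        | zero => simp
        | succ j ih => rw [pow_succ]; omega
      rw [pow_succ, pow_mul, show 3 ^ 2 = 9 from rfl] at this
      generalize 9 ^ j = y at k this
      simp only [Nat.prime_five.dvd_mul] at this
      omega
    · have := h9 k; omega
  · obtain rfl := eq_of_dvd_subfield (hK ▸ FiniteField.isPrimePow_card K) hr k1 (k2.trans hF)
      (h4 ▸ Nat.mul_dvd_mul_left 2 (h1.trans k3))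
    obtain ⟨c, rfl⟩ := h1
    rw [← h4, mul_comm 2, Nat.mul_dvd_mul_iff_left Nat.card_pos] at k3
    rcases (Nat.dvd_prime Nat.prime_two).1 k3 with rfl | rfl
    · omega
    · exact h8 (mul_comm 2 _ ▸ k5)

end Cfsg.Agent.S5942
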