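import Cfsg.Statements.S5943
import Cfsg.Agent.H10.PSLx

set_option autoImplicit false
open Cfsg

namespace Cfsg.Agent.S5943

open H10 Subgroup Matrix in

/-- Let K and F be finite fields of characteristic 2 with #K = q > 2 and #F = q^r for a prime r. Then PSL_2(F) has a maximal subgroup isomorphic to PSL_2(K) (which equals PGL_2(K) in characteristic 2). -/
theorem result {F K : Type*} [Field F] [Fintype F] [Field K] [Fintype K] (q r : ℕ) (hK : Fintype.card K = q) (hF : Fintype.card F = q ^ r) (hq : Even q) (hq2 : q ≠ 2) (hr : r.Prime) : ∃ H : Subgroup (Matrix.ProjectiveSpecialLinearGroup (Fin 2) F), IsCoatom H ∧ Nonempty (H ≃* Matrix.ProjectiveSpecialLinearGroup (Fin 2) K) := by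
  have h3 : 4 ≤ q := by have := Fintype.one_lt_card (α := K); rw [Nat.even_iff] at hq; omega
  obtain ⟨f⟩ := exists_ringHom_of_card (K := K) (L := F) (m := r) (by simp [hK, hF])
  obtain ⟨φ, hφ, -⟩ := exists_PSL_map f
  have e := MonoidHom.ofInjective hφ
  have h4 := card_PSL2 (F := K)
  have h6 := card_PSL2_lt (F := F) (K := K) (by rw [hK, hF]; exact Nat.pow_le_pow_right (by omega) hr.two_le)
  rw [hK, ((gcd_two_cases (by omega)).resolve_right (by rw [Nat.even_iff] at hq; omega)).2, one_mul,
    Nat.card_congr e.toEquiv] at h4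
  refine ⟨φ.range, isCoatom_of_card (fun k => ?_) (.inl fun k => not_isSolvable_PSL2 (F := K) (by omega)
    (Group.isSolvable_of_isSolvable_injective (f := e.toMonoidHom) e.injective)) ?_, ⟨e.symm⟩⟩
  · rw [Nat.card_congr e.toEquiv, k, card_top] at h6
    omega
  have : 4 * 3 * 5 ≤ q * (q - 1) * (q + 1) := by gcongr <;> omega
  rw [h4]
  rintro n h1 k4 - - (rfl | rfl | rfl | ⟨s, m, k1, k2, k3⟩)
  all_goals try omega
  obtain rfl := eq_of_dvd_subfield (hK ▸ FiniteField.isPrimePow_card K) hr k1 (k2.trans hF) ((h1.trans k3).mul_left 2)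
  have := Nat.le_of_dvd (by omega) k3
  omega

end Cfsg.Agent.S5943
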