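import Cfsg.Statements.S5945
import Cfsg.Agent.H29.Sym

set_option autoImplicit false
open Cfsg

namespace Cfsg.Agent.S5945

theorem stab_inj {Ω : Type*} [DecidableEq Ω] [Fintype Ω] (h : 3 ≤ Fintype.card Ω) {x y : Ω}
    (e : MulAction.stabilizer (Equiv.Perm Ω) x = MulAction.stabilizer (Equiv.Perm Ω) y) : x = y := by
  by_contra hne
  obtain ⟨z, hz⟩ : ∃ z, z ∉ ({x, y} : Finset Ω) := by
    by_contra hc
    push Not at hc
    have h1 : (Finset.univ : Finset Ω).card ≤ ({x, y} : Finset Ω).card :=
      Finset.card_le_card fun z _ => hc z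
    have h2 := Finset.card_le_two (a := x) (b := y)
    rw [Finset.card_univ] at h1
    omega
  simp only [Finset.mem_insert, Finset.mem_singleton, not_or] at hz
  have h1 : Equiv.swap y z ∈ MulAction.stabilizer (Equiv.Perm Ω) x :=
    Equiv.swap_apply_of_ne_of_ne hne (Ne.symm hz.1)
  rw [e] at h1
  have h2 : Equiv.swap y z y = y := h1
  rw [Equiv.swap_apply_left] at h2
  exact hz.2 h2

noncomputable def stabEquiv (x : Fin 6) :
    MulAction.stabilizer (Equiv.Perm (Fin 6)) x ≃* Equiv.Perm (Fin 5) := by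
  classical
  let f : Equiv.Perm {y : Fin 6 // y ≠ x} →* MulAction.stabilizer (Equiv.Perm (Fin 6)) x :=
    (Equiv.Perm.ofSubtype).codRestrict _ (fun g => Equiv.Perm.ofSubtype_apply_of_not_mem g (by simp))
  have hf : Function.Injective f := fun a b h =>
    Equiv.Perm.ofSubtype_injective (congrArg Subtype.val h)
  have hc : Fintype.card {y : Fin 6 // y ≠ x} = 5 := by simp
  have hb : Function.Bijective f := by
    rw [Nat.bijective_iff_injective_and_card]
    refine ⟨hf, ?_⟩
    rw [H29.card_of_index (H29.index_stab x), Nat.card_perm, Nat.card_eq_fintype_card, hc]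
    simp
  exact (MulEquiv.ofBijective f hb).symm.trans (Fintype.equivFinOfCardEq hc).permCongrHom

/-- The symmetric group S_6 has exactly 12 subgroups of index 6; each of them is isomorphic to S_5, and at least one of them is not the stabilizer of any point. -/
theorem result : Nat.card {H : Subgroup (Equiv.Perm (Fin 6)) // H.index = 6} = 12 ∧ (∀ H : Subgroup (Equiv.Perm (Fin 6)), H.index = 6 → Nonempty (H ≃* Equiv.Perm (Fin 5))) ∧ ∃ H : Subgroup (Equiv.Perm (Fin 6)), H.index = 6 ∧ ∀ a : Fin 6, H ≠ MulAction.stabilizer (Equiv.Perm (Fin 6)) a := by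
  obtain ⟨τ, h1, h2⟩ := H29.index_six_cases (Ω := Fin 6) (by simp)
  have hi : ∀ x : Fin 6, (MulAction.stabilizer (Equiv.Perm (Fin 6)) x).index = 6 := fun x => by
    simpa using H29.index_stab x
  have hi' : ∀ x : Fin 6, ((MulAction.stabilizer (Equiv.Perm (Fin 6)) x).comap τ.toMonoidHom).index = 6 :=
    fun x => by rw [Subgroup.index_comap_of_surjective _ τ.surjective, hi]
  refine ⟨?_, fun H hH => ?_, _, hi' 0, fun a => h1 a 0⟩
  · let f : Fin 6 ⊕ Fin 6 → {H : Subgroup (Equiv.Perm (Fin 6)) // H.index = 6} :=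
      Sum.elim (fun x => ⟨_, hi x⟩) (fun x => ⟨_, hi' x⟩)
    have hf : Function.Bijective f := by
      constructor
      · rintro (x | x) (y | y) h
        · rw [stab_inj (by simp) (congrArg Subtype.val h)]
        · exact absurd (congrArg Subtype.val h).symm (h1 _ _)
        · exact absurd (congrArg Subtype.val h) (h1 _ _)
        · rw [stab_inj (by simp) (Subgroup.comap_injective τ.surjective (congrArg Subtype.val h))]
      · rintro ⟨H, hH⟩
        obtain ⟨x, rfl | rfl⟩ := h2 H hH
        · exact ⟨Sum.inl x, rfl⟩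
        · exact ⟨Sum.inr x, rfl⟩
    rw [← Nat.card_eq_of_bijective f hf]
    simp
  · obtain ⟨x, rfl | rfl⟩ := h2 H hH
    · exact ⟨stabEquiv x⟩
    · rw [Subgroup.comap_equiv_eq_map_symm']
      exact ⟨(τ.symm.subgroupMap _).symm.trans (stabEquiv x)⟩

end Cfsg.Agent.S5945
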