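import Cfsg.Statements.S5949
import Cfsg.Agent.H20.El2

set_option autoImplicit false
open scoped MatrixGroups
open Cfsg H20

namespace Cfsg.Agent.S5949

/-- Elements of prime order of PSL_n(q) with no fixed `m`-space. Here `T = PSL_n(F)` for a field `F` with `q = p^f` elements (`n ≥ 2`, `(n, q) ≠ (2, 2), (2, 3)`); an element of `T` of prime order `r` is represented by a matrix `x` of determinant 1 with `x^r` scalar and `x` not scalar; `i` denotes the multiplicative order of `q` modulo `r` (when `r ≠ p`), and `(a)_r` the `r`-part of `a`. Let `1 ≤ m ≤ n/2` and let `r` be a prime dividing the number of `m`-dimensional subspaces of `F^n`. Then every element of `T` of order `r` fixes some `m`-dimensional subspace (the action on `m`-spaces is `r`-elusive) if and only if `r ≠ p` and either (i) `i = 1` and (`r ∣ m`, or `(q−1)_r ≥ (n)_r` where in addition `q ≡ 1 (mod 4)` is required when `r = 2` and `n` is even), or (ii) `2 ≤ i ≤ m` and `n mod i ≥ m mod i`. -/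
theorem result {F : Type*} [Field F] [Fintype F] {p : ℕ} [Fact p.Prime] [CharP F p] {q : ℕ} (hq : Fintype.card F = q)
    (n m : ℕ) (hn : 2 ≤ n) (hT : (n, q) ≠ (2, 2) ∧ (n, q) ≠ (2, 3)) (hm : 1 ≤ m) (hmn : 2 * m ≤ n)
    (r : ℕ) [Fact r.Prime] (hrΩ : r ∣ Nat.card {W : Submodule F (Fin n → F) // Module.finrank F ↥W = m}) :
    (∀ x : Matrix.SpecialLinearGroup (Fin n) F,
      (∃ c : F, ((x ^ r : Matrix.SpecialLinearGroup (Fin n) F) : Matrix (Fin n) (Fin n) F) = c • (1 : Matrix (Fin n) (Fin n) F)) →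
      (∀ c : F, (x : Matrix (Fin n) (Fin n) F) ≠ c • (1 : Matrix (Fin n) (Fin n) F)) →
      ∃ W : Submodule F (Fin n → F), Module.finrank F ↥W = m ∧ W.map (Matrix.toLin' (x : Matrix (Fin n) (Fin n) F)) ≤ W) ↔
    (r ≠ p ∧
      ((orderOf (q : ZMod r) = 1 ∧ (r ∣ m ∨ (padicValNat r n ≤ padicValNat r (q - 1) ∧ (r = 2 → Even n → q % 4 = 1)))) ∨
       (2 ≤ orderOf (q : ZMod r) ∧ orderOf (q : ZMod r) ≤ m ∧ m % orderOf (q : ZMod r) ≤ n % orderOf (q : ZMod r)))) := by
  have hq' : Nat.card F = q := by rw [Nat.card_eq_fintype_card, hq]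
  have hr : r.Prime := Fact.out
  have h1 : 1 < q := hq' ▸ Finite.one_lt_card
  have hn' : Module.finrank F (Fin n → F) = n := by simp
  have h2 := El.card_sub_top (F := F) (V := Fin n → F) (m := m) (by omega)
  rw [hn', hq'] at h2
  have hrp : r ≠ p := fun h => El.not_dvd_gO hr (by omega) (hq' ▸ (El.dvd_card_iff p hr).2 h) n
    (h2 ▸ (hrΩ.mul_right _).mul_right _)
  have h0 := H11.natCast_ne_zero_of_prime (F := F) p hr hrp
  have h3 := El.mod_lt_of (El.ord_of_dvd (a := 0) (k := n - m) hr h1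
    (fun h => hrp ((El.dvd_card_iff p hr).1 (hq' ▸ h))) (by omega : n - m ≤ n)
    (by rw [← h2, pow_zero, one_mul, mul_right_comm]; exact Dvd.intro _ rfl) hrΩ)
  rw [El.sl_all (Φ := fun f => ∃ W : Submodule F (Fin n → F), Module.finrank F W = m ∧ W.map f ≤ W),
    El.lin_iff (Ψ := fun μ => ∃ ν ≤ μ, ν.sum = m) h0 hn' (by omega) (fun f c _ ⟨W, h, h'⟩ => ⟨W, h, El.map_smul_le c h'⟩)
    (fun g hg => El.inv_iff hg) ⟨.replicate m 1, (Multiset.replicate_le_replicate _).2 (by omega), by simp⟩ hq' rfl,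
    El.lin_fin (hq' ▸ H11.orderOf_card_ne_zero hr h0) (fun s hs => El.sum_rep_iff' hr.pos (by omega))
    (fun hi => by simp only [El.sum_rep_iff]; exact El.arith_sub (by omega) (by omega) h3)]
  simp [hrp, El.Good]

end Cfsg.Agent.S5949
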