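import Cfsg.Statements.S5950
import Cfsg.Agent.H20.El2

set_option autoImplicit false
open scoped MatrixGroups
open Cfsg H20

namespace Cfsg.Agent.S5950

/-- Elements of prime order of PSL_n(q) fixing no decomposition `F^n = U ⊕ W` with `dim U = m`. Here `T = PSL_n(F)` for a field `F` with `q = p^f` elements (`n ≥ 2`, `(n, q) ≠ (2, 2), (2, 3)`); an element of `T` of prime order `r` is represented by a matrix `x` of determinant 1 with `x^r` scalar and `x` not scalar; `i` denotes the multiplicative order of `q` modulo `r` (when `r ≠ p`), and `(a)_r` the `r`-part of `a`. Let `n ≥ 3`, `1 ≤ m < n/2`, and let `r` be a prime dividing the number of such decompositions (unordered pairs `{U, W}` of complementary subspaces with `dim U = m`; since `m ≠ n − m` these are the ordered pairs with `dim U = m`). Then every element of `T` of order `r` fixes such a pair (fixes both `U` and `W` for some complementary `U, W` with `dim U = m`) if and only if one of: (i) `r = p > 2` and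 every partition of `n` into parts of size at most `p` contains, as a sub-multiset, a partition of `m`; (ii) `r = p = 2` and `n` is odd or `m` is even; (iii) `r ≠ p`, `i = 1`, and `r ∣ m` or `(q−1)_r ≥ (n)_r` (with `q ≡ 1 (mod 4)` required when `r = 2` and `n` is even); (iv) `r ≠ p`, `2 ≤ i ≤ m` and `n mod i ≥ m mod i`. -/
theorem result {F : Type*} [Field F] [Fintype F] {p : ℕ} [Fact p.Prime] [CharP F p] {q : ℕ} (hq : Fintype.card F = q)
    (n m : ℕ) (hn : 3 ≤ n) (hm : 1 ≤ m) (hmn : 2 * m < n)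
    (r : ℕ) [Fact r.Prime]
    (hrΩ : r ∣ Nat.card {P : Submodule F (Fin n → F) × Submodule F (Fin n → F) // IsCompl P.1 P.2 ∧ Module.finrank F ↥P.1 = m}) :
    (∀ x : Matrix.SpecialLinearGroup (Fin n) F,
      (∃ c : F, ((x ^ r : Matrix.SpecialLinearGroup (Fin n) F) : Matrix (Fin n) (Fin n) F) = c • (1 : Matrix (Fin n) (Fin n) F)) →
      (∀ c : F, (x : Matrix (Fin n) (Fin n) F) ≠ c • (1 : Matrix (Fin n) (Fin n) F)) →
      ∃ U W : Submodule F (Fin n → F), IsCompl U W ∧ Module.finrank F ↥U = m ∧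
        U.map (Matrix.toLin' (x : Matrix (Fin n) (Fin n) F)) ≤ U ∧ W.map (Matrix.toLin' (x : Matrix (Fin n) (Fin n) F)) ≤ W) ↔
    ((r = p ∧ 2 < p ∧ (∀ μ : Multiset ℕ, (∀ a ∈ μ, 0 < a ∧ a ≤ p) → μ.sum = n → ∃ ν : Multiset ℕ, ν ≤ μ ∧ ν.sum = m)) ∨
     (r = p ∧ p = 2 ∧ (Odd n ∨ Even m)) ∨
     (r ≠ p ∧
      ((orderOf (q : ZMod r) = 1 ∧ (r ∣ m ∨ (padicValNat r n ≤ padicValNat r (q - 1) ∧ (r = 2 → Even n → q % 4 = 1)))) ∨
       (2 ≤ orderOf (q : ZMod r) ∧ orderOf (q : ZMod r) ≤ m ∧ m % orderOf (q : ZMod r) ≤ n % orderOf (q : ZMod r))))) := by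
  have hq' : Nat.card F = q := by rw [Nat.card_eq_fintype_card, hq]
  have hr : r.Prime := Fact.out
  have h1 : 1 < q := hq' ▸ Finite.one_lt_card
  have hn' : Module.finrank F (Fin n → F) = n := by simp
  have h2 := El.card_compl (F := F) (V := Fin n → F) (m := m) (by omega)
  rw [hn', hq'] at h2
  have h4 : ∃ ν ≤ Multiset.replicate n 1, ν.sum = m :=
    ⟨.replicate m 1, (Multiset.replicate_le_replicate _).2 (by omega), by simp⟩
  rw [El.sl_all (Φ := fun f => ∃ U W : Submodule F (Fin n → F), IsCompl U W ∧ Module.finrank F U = m ∧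
    U.map f ≤ U ∧ W.map f ≤ W)]
  by_cases hrp : r = p
  · subst hrp
    rw [El.unip_iff (Ψ := fun μ => ∃ ν ≤ μ, ν.sum = m) r hn'
      (fun f c _ ⟨U, W, h, h', h5, h6⟩ => ⟨U, W, h, h', El.map_smul_le c h5, El.map_smul_le c h6⟩)
      (fun g _ => El.compl_iff) h4]
    rcases hr.eq_two_or_odd' with rfl | h5
    · simp [← El.part_two (show m ≤ n by omega)]
    · have : 2 < r := by have := hr.two_le; rcases h5 with ⟨k, rfl⟩; omega
      simp [this, this.ne']
  have h0 := H11.natCast_ne_zero_of_prime (F := F) p hr hrp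
  have h3 := El.mod_lt_of (El.ord_of_dvd (k := n - m) hr h1
    (fun h => hrp ((El.dvd_card_iff p hr).1 (hq' ▸ h))) (by omega : n - m ≤ n) h2 hrΩ)
  rw [El.lin_iff (Ψ := fun μ => ∃ ν ≤ μ, ν.sum = m) h0 hn' (by omega)
    (fun f c _ ⟨U, W, h, h', h5, h6⟩ => ⟨U, W, h, h', El.map_smul_le c h5, El.map_smul_le c h6⟩)
    (fun g hg => El.compl_iff) h4 hq' rfl,
    El.lin_fin (hq' ▸ H11.orderOf_card_ne_zero hr h0) (fun s hs => El.sum_rep_iff' hr.pos (by omega))
    (fun hi => by simp only [El.sum_rep_iff]; exact El.arith_sub (by omega) (by omega) h3)]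
  simp [hrp, El.Good]

end Cfsg.Agent.S5950
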