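import Cfsg.Statements.S5951
import Cfsg.Agent.H20.El2

set_option autoImplicit false
open scoped MatrixGroups
open Cfsg H20

namespace Cfsg.Agent.S5951

/-- Elements of prime order of PSL_n(q) fixing no pair of subspaces `U < W` with `dim U = m`, `dim W = n − m`. Here `T = PSL_n(F)` for a field `F` with `q = p^f` elements (`n ≥ 2`, `(n, q) ≠ (2, 2), (2, 3)`); an element of `T` of prime order `r` is represented by a matrix `x` of determinant 1 with `x^r` scalar and `x` not scalar; `i` denotes the multiplicative order of `q` modulo `r` (when `r ≠ p`), and `(a)_r` the `r`-part of `a`. Let `1 ≤ m < n/2` and let `r` be a prime dividing the number of such pairs. Then every element of `T` of order `r` fixes such a pair (both `U` and `W`) if and only if `r ≠ p` and either (i) `i = 1` and (`r ∣ m`, or `(q−1)_r ≥ (n)_r` with `q ≡ 1 (mod 4)` required when `r = 2` and `n` is even), or (ii) `2 ≤ i ≤ m` and `n mod i ≥ 2 (m mod i)`. -/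
theorem result {F : Type*} [Field F] [Fintype F] {p : ℕ} [Fact p.Prime] [CharP F p] {q : ℕ} (hq : Fintype.card F = q)
    (n m : ℕ) (hn : 2 ≤ n) (hT : (n, q) ≠ (2, 2) ∧ (n, q) ≠ (2, 3)) (hm : 1 ≤ m) (hmn : 2 * m < n)
    (r : ℕ) [Fact r.Prime]
    (hrΩ : r ∣ Nat.card {P : Submodule F (Fin n → F) × Submodule F (Fin n → F) //
        P.1 ≤ P.2 ∧ Module.finrank F ↥P.1 = m ∧ Module.finrank F ↥P.2 = n - m}) :
    (∀ x : Matrix.SpecialLinearGroup (Fin n) F,
      (∃ c : F, ((x ^ r : Matrix.SpecialLinearGroup (Fin n) F) : Matrix (Fin n) (Fin n) F) = c • (1 : Matrix (Fin n) (Fin n) F)) →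
      (∀ c : F, (x : Matrix (Fin n) (Fin n) F) ≠ c • (1 : Matrix (Fin n) (Fin n) F)) →
      ∃ U W : Submodule F (Fin n → F), U ≤ W ∧ Module.finrank F ↥U = m ∧ Module.finrank F ↥W = n - m ∧
        U.map (Matrix.toLin' (x : Matrix (Fin n) (Fin n) F)) ≤ U ∧ W.map (Matrix.toLin' (x : Matrix (Fin n) (Fin n) F)) ≤ W) ↔
    (r ≠ p ∧
      ((orderOf (q : ZMod r) = 1 ∧ (r ∣ m ∨ (padicValNat r n ≤ padicValNat r (q - 1) ∧ (r = 2 → Even n → q % 4 = 1)))) ∨
       (2 ≤ orderOf (q : ZMod r) ∧ orderOf (q : ZMod r) ≤ m ∧ 2 * (m % orderOf (q : ZMod r)) ≤ n % orderOf (q : ZMod r)))) := by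
  have hq' : Nat.card F = q := by rw [Nat.card_eq_fintype_card, hq]
  have hr : r.Prime := Fact.out
  have h1 : 1 < q := hq' ▸ Finite.one_lt_card
  have hn' : Module.finrank F (Fin n → F) = n := by simp
  have h2 := El.card_flag (F := F) (V := Fin n → F) (m := m) (by omega)
  simp only [hn', hq'] at h2
  have hrp : r ≠ p := fun h => El.not_dvd_gO hr (by omega) (hq' ▸ (El.dvd_card_iff p hr).2 h) n
    (h2 ▸ (hrΩ.mul_right _).mul_right _)
  have h0 := H11.natCast_ne_zero_of_prime (F := F) p hr hrp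
  have h3 := El.mod_lt_of (El.ord_of_dvd (a := 0) (k := n - 2 * m) hr h1
    (fun h => hrp ((El.dvd_card_iff p hr).1 (hq' ▸ h))) (by omega : n - 2 * m ≤ n)
    (by rw [← h2, pow_zero, one_mul, mul_right_comm]; exact Dvd.intro _ rfl) hrΩ)
  rw [El.sl_all (Φ := fun f => ∃ U W : Submodule F (Fin n → F), U ≤ W ∧ Module.finrank F U = m ∧
      Module.finrank F W = n - m ∧ U.map f ≤ U ∧ W.map f ≤ W),
    El.lin_iff (Ψ := fun ρ => ∃ ν μ, ν + μ ≤ ρ ∧ ν.sum = m ∧ (ν + μ).sum = n - m) h0 hn' (by omega)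
    (fun f c _ ⟨U, W, h, h', h4, h5, h6⟩ => ⟨U, W, h, h', h4, El.map_smul_le c h5, El.map_smul_le c h6⟩)
    (fun g hg => El.flag_iff hg) ⟨.replicate m 1, .replicate (n - 2 * m) 1, by
      rw [← Multiset.replicate_add]; exact (Multiset.replicate_le_replicate _).2 (by omega), by simp,
      by simp; omega⟩ hq' rfl,
    El.lin_fin (m := m) (C := orderOf (q : ZMod r) ≤ m ∧ 2 * (m % orderOf (q : ZMod r)) ≤ n % orderOf (q : ZMod r))
      (hq' ▸ H11.orderOf_card_ne_zero hr h0) (fun s hs => ?_) (fun hi => ?_)]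
  · simp [hrp, El.Good]
  swap
  · rw [← El.arith_two (by omega) (by omega) h3]
    exact forall₄_congr fun e s _ he => El.flag_rep_iff he (by omega)
  · have := El.flag_rep_iff (e := 0) (m := m) (by simpa using hs) (by omega)
    rw [Multiset.replicate_zero, zero_add] at this
    rw [this]
    constructor
    · rintro ⟨e₁, e₂, s₁, s₂, h4, -, h5, -⟩
      exact ⟨s₁, by rw [mul_comm]; omega⟩
    · rintro ⟨k, rfl⟩
      exact ⟨0, 0, k, k, le_rfl, Nat.le_of_mul_le_mul_right (by rw [add_mul, mul_comm k]; omega) hr.pos,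
        by simp [mul_comm], by simp [mul_comm]⟩

end Cfsg.Agent.S5951
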