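import Cfsg.Statements.S5952
import Mathlib

set_option autoImplicit false
open Cfsg

namespace Cfsg.Agent.S5952

open Module

/-- Which dimensions of invariant subspaces a semisimple linear map has. Let `V` be a finite-dimensional vector space over a field `F` and `f` an invertible semisimple linear map of `V`. Suppose `V` is the internal direct sum of the fixed space `C_V(f)` (the eigenspace for 1) and subspaces `U_1, …, U_s`, each `f`-invariant of dimension `a ≥ 1` on which `f` acts irreducibly (no `f`-invariant subspaces other than 0 and `U_j`). Let `0 < m < dim V` and `ℓ = m mod a`. Then `f` leaves some `m`-dimensional subspace invariant if and only if `dim C_V(f) ≥ m`, or `a ≤ m` and `dim C_V(f) ≥ ℓ`. -/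
theorem result {F V : Type*} [Field F] [AddCommGroup V] [Module F V]
    [FiniteDimensional F V] (f : V →ₗ[F] V) (hf : Function.Bijective f) (hss : Module.End.IsSemisimple f)
    {s a : ℕ} (ha : 1 ≤ a) (U : Fin s → Submodule F V)
    (hUinv : ∀ j, (U j).map f ≤ U j) (hUdim : ∀ j, Module.finrank F ↥(U j) = a)
    (hUirr : ∀ j, ∀ W : Submodule F V, W ≤ U j → W.map f ≤ W → W = ⊥ ∨ W = U j)
    (hdec : DirectSum.IsInternal (fun o : Option (Fin s) => o.elim (Module.End.eigenspace f 1) U))
    (m : ℕ) (hm : 0 < m) (hmV : m < Module.finrank F V) :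
    (∃ W : Submodule F V, Module.finrank F ↥W = m ∧ W.map f ≤ W) ↔
    (m ≤ Module.finrank F ↥(Module.End.eigenspace f 1) ∨
      (a ≤ m ∧ m % a ≤ Module.finrank F ↥(Module.End.eigenspace f 1))) := by
  classical
  set C := End.eigenspace f 1 with hC
  have hind : iSupIndep (fun o : Option (Fin s) => o.elim C U) := hdec.submodule_iSupIndep
  have htop : (⨆ o : Option (Fin s), o.elim C U) = ⊤ := hdec.submodule_iSup_eq_top
  have hCf : ∀ x ∈ C, f x = x := fun x hx => by simpa using End.mem_eigenspace_iff.1 hx
  let X : Finset (Fin s) → Submodule F V := fun t => ⨆ j ∈ t, U j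
  have hXi : ∀ t j, X (insert j t) = U j ⊔ X t := fun t j => Finset.iSup_insert _ _ _
  have hX0 : X ∅ = ⊥ := by simp [X]
  have hdisj : ∀ (t : Finset (Fin s)) j, j ∉ t → Disjoint (U j) (C ⊔ X t) := fun t j hj => by
    refine (hind (some j)).mono_right (sup_le ?_ (iSup₂_le fun i hi => ?_))
    · exact le_iSup₂_of_le (f := fun (o : Option (Fin s)) (_ : o ≠ some j) => o.elim C U) none (by simp) le_rfl
    · exact le_iSup₂_of_le (f := fun (o : Option (Fin s)) (_ : o ≠ some j) => o.elim C U) (some i)
        (by rintro h; cases h; exact hj hi) le_rfl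
  have hXf : ∀ t, (X t).map f ≤ X t := fun t => by
    simp only [X, Submodule.map_iSup]
    exact iSup₂_mono fun j _ => hUinv j
  have hdim : ∀ (D : Submodule F V), D ≤ C → ∀ t : Finset (Fin s),
      finrank F ↥(D ⊔ X t) = finrank F D + t.card * a := fun D hD t => by
    induction t using Finset.induction_on with
    | empty => rw [hX0, sup_bot_eq]; simp
    | insert j t hj ih =>
      have h1 := Submodule.finrank_sup_add_finrank_inf_eq (U j) (D ⊔ X t)
      rw [((hdisj t j hj).mono_right (sup_le_sup_right hD _)).eq_bot, finrank_bot, hUdim, ih] at h1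
      rw [hXi, sup_left_comm, Finset.card_insert_of_notMem hj]
      linarith
  have hall : C ⊔ X Finset.univ = ⊤ := by
    rw [eq_top_iff, ← htop]
    refine iSup_le fun o => ?_
    rcases o with _ | j
    · exact le_sup_left
    · exact le_sup_of_le_right (le_iSup₂_of_le (f := fun (j : Fin s) (_ : j ∈ Finset.univ) => U j) j
        (Finset.mem_univ j) le_rfl)
  have hV : finrank F V = finrank F C + s * a := by
    have := hdim C le_rfl Finset.univ
    rw [hall, finrank_top, Finset.card_univ, Fintype.card_fin] at this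
    exact this
  constructor
  · rintro ⟨W, rfl, hW⟩
    have key : ∀ t : Finset (Fin s), ∃ k, finrank F ↥(W ⊓ (C ⊔ X t)) = finrank F ↥(W ⊓ C) + k * a := by
      intro t
      induction t using Finset.induction_on with
      | empty => exact ⟨0, by rw [hX0, sup_bot_eq]; simp⟩
      | insert j t hj ih =>
        obtain ⟨k, hk⟩ := ih
        set Y := C ⊔ X t with hY
        have hYf : Y.map f ≤ Y := by
          rw [hY, Submodule.map_sup]
          exact sup_le_sup (by rintro _ ⟨x, hx, rfl⟩; rw [hCf x hx]; exact hx) (hXf t)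
        have e1 : C ⊔ X (insert j t) = U j ⊔ Y := by rw [hXi, sup_left_comm]
        rw [e1]
        set A := W ⊓ (U j ⊔ Y) with hA
        have hAf : A.map f ≤ A := (Submodule.map_inf_le _).trans (inf_le_inf hW (by
          rw [Submodule.map_sup]; exact sup_le_sup (hUinv j) hYf))
        have h1 := Submodule.finrank_sup_add_finrank_inf_eq A Y
        have h2 : A ⊓ Y = W ⊓ Y := by rw [hA, inf_assoc, inf_eq_right.2 (le_sup_right : Y ≤ U j ⊔ Y)]
        have h3 : (U j ⊓ (A ⊔ Y)) ⊔ Y = A ⊔ Y := by
          rw [sup_comm, ← sup_inf_assoc_of_le _ (le_sup_right : Y ≤ A ⊔ Y), inf_eq_right]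
          exact sup_le (inf_le_right.trans (sup_comm _ _).le) le_sup_left
        have h4 := Submodule.finrank_sup_add_finrank_inf_eq (U j ⊓ (A ⊔ Y)) Y
        rw [((hdisj t j hj).mono_left inf_le_left).eq_bot, finrank_bot, h3] at h4
        rw [h2, hk] at h1
        rcases hUirr j (U j ⊓ (A ⊔ Y)) inf_le_left ((Submodule.map_inf_le _).trans (inf_le_inf (hUinv j) (by
          rw [Submodule.map_sup]; exact sup_le_sup hAf hYf))) with h | h
        · rw [h, finrank_bot] at h4
          exact ⟨k, by omega⟩
        · rw [h, hUdim] at h4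
          exact ⟨k + 1, by linarith⟩
    obtain ⟨k, hk⟩ := key Finset.univ
    rw [hall, inf_top_eq] at hk
    have h1 : finrank F ↥(W ⊓ C) ≤ finrank F C := Submodule.finrank_mono inf_le_right
    rcases k with _ | k
    · left; omega
    · right
      refine ⟨by rw [hk]; nlinarith, ?_⟩
      rw [hk, Nat.add_mul_mod_self_right]
      exact (Nat.mod_le _ _).trans h1
  · intro h
    obtain ⟨c, k, hc, hk, hm'⟩ : ∃ c k, c ≤ finrank F C ∧ k ≤ s ∧ m = c + k * a := by
      rcases h with h | ⟨h1, h2⟩
      · exact ⟨m, 0, h, Nat.zero_le _, by simp⟩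
      by_cases h3 : m / a ≤ s
      · exact ⟨m % a, m / a, h2, h3, (Nat.mod_add_div' m a).symm⟩
      · have h4 : s * a ≤ m := (Nat.mul_le_mul_right a (le_of_not_ge h3)).trans (Nat.div_mul_le_self m a)
        exact ⟨m - s * a, s, by omega, le_rfl, by omega⟩
    obtain ⟨D, hD, hDc⟩ : ∃ D : Submodule F V, D ≤ C ∧ finrank F D = c := by
      obtain ⟨v, hv⟩ := exists_linearIndependent_of_le_finrank (R := F) (M := C) hc
      exact ⟨(Submodule.span F (Set.range v)).map C.subtype, Submodule.map_subtype_le _ _, by
        rw [Submodule.finrank_map_subtype_eq, finrank_span_eq_card hv, Fintype.card_fin]⟩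
    obtain ⟨t, -, ht⟩ := Finset.exists_subset_card_eq (s := (Finset.univ : Finset (Fin s))) (n := k) (by simpa)
    refine ⟨D ⊔ X t, by rw [hdim D hD, hDc, ht, hm'], ?_⟩
    rw [Submodule.map_sup]
    exact sup_le_sup (by rintro _ ⟨x, hx, rfl⟩; rw [hCf x (hD hx)]; exact hx) (hXf t)

end Cfsg.Agent.S5952
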