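import Cfsg.Statements.S5953
import Cfsg.Agent.H20.El7

set_option autoImplicit false
open scoped MatrixGroups
open Cfsg H20

namespace Cfsg.Agent.S5953

/-- Elements of prime order of PSU_n(q) with no fixed totally isotropic `m`-space. Here `T = PSU_n(q)` (`n ≥ 3`, `(n, q) ≠ (3, 2)`), realised through the matrices of determinant 1 over the field `F` with `q²` elements preserving the Hermitian form `h(u, v) = Σ u_i v_i^q`; an element of `T` of prime order `r` is such a matrix `x` with `x^r` scalar and `x` not scalar. For `r ≠ p` let `i` be the multiplicative order of `q` modulo `r`, `b = i/2` for `i` even and `b = i` for `i` odd, `c = i, i/2, 2i` according as `i ≡ 0, 2 (mod 4)` or `i` odd, and write `k = n mod c`, `ℓ = m mod b`, `ℓ' = m mod c`, `n' = ⌊n/b⌋`, `m' = ⌊m/b⌋`, `s = (r−1)/b`; `(a)_r` is the `r`-part of `a`. Let `1 ≤ m ≤ n/2` and let `r` be a prime dividing the number of totally isotropic `m`-spaces.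 Then every element of `T` of order `r` fixes a totally isotropic `m`-space if and only if either (i) `r = 2`, `p ≠ 2`, and (`m < n/2` or `(q+1)_2 ≤ (n)_2`); or (ii) `r ≠ p`, `r > 2`, `b ≤ m`, `k ≥ 2ℓ`, and either `i ≢ 2 (mod 4)`, or `i ≡ 2 (mod 4)`, `n' − 2m' ≥ s` and (`i > 2`, or `i = 2` and (`r ∣ m` or `(q+1)_r ≥ (n)_r`)). -/
theorem result {F : Type*} [Field F] [Fintype F] {p : ℕ} [Fact p.Prime] [CharP F p] {q : ℕ} (hq : Fintype.card F = q ^ 2)
    (n m : ℕ) (hn : 3 ≤ n) (hT : (n, q) ≠ (3, 2)) (hm : 1 ≤ m) (hmn : 2 * m ≤ n)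
    (r : ℕ) [Fact r.Prime]
    (hrΩ : r ∣ Nat.card {W : Submodule F (Fin n → F) // Module.finrank F ↥W = m ∧ (∀ u ∈ W, ∀ v ∈ W, Cfsg.hermForm n F q u v = 0)})
    (i b c : ℕ) (hi : i = orderOf (q : ZMod r)) (hb : b = if Even i then i / 2 else i)
    (hc : c = if i % 4 = 0 then i else if i % 4 = 2 then i / 2 else 2 * i) :
    (∀ x : Matrix.SpecialLinearGroup (Fin n) F, x ∈ Cfsg.SU n F q →
      (∃ z : F, ((x ^ r : Matrix.SpecialLinearGroup (Fin n) F) : Matrix (Fin n) (Fin n) F) = z • (1 : Matrix (Fin n) (Fin n) F)) →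
      (∀ z : F, (x : Matrix (Fin n) (Fin n) F) ≠ z • (1 : Matrix (Fin n) (Fin n) F)) →
      ∃ W : Submodule F (Fin n → F), Module.finrank F ↥W = m ∧ (∀ u ∈ W, ∀ v ∈ W, Cfsg.hermForm n F q u v = 0) ∧
        W.map (Matrix.toLin' (x : Matrix (Fin n) (Fin n) F)) ≤ W) ↔
    ((r = 2 ∧ p ≠ 2 ∧ (2 * m < n ∨ padicValNat 2 (q + 1) ≤ padicValNat 2 n)) ∨
     (r ≠ p ∧ 2 < r ∧ b ≤ m ∧ 2 * (m % b) ≤ n % c ∧
       (i % 4 ≠ 2 ∨ (i % 4 = 2 ∧ (r - 1) / b + 2 * (m / b) ≤ n / b ∧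
         (2 < i ∨ (i = 2 ∧ (r ∣ m ∨ padicValNat r n ≤ padicValNat r (q + 1)))))))) := by
  obtain ⟨σ, hq', hσ, hne⟩ := H11.exists_frob hq
  have hF : Nat.card F = q ^ 2 := by rw [Nat.card_eq_fintype_card, hq]
  have hr : r.Prime := Fact.out
  have hS := H11.stdUnit_nondeg hσ hne (Fin n)
  have hn' : Module.finrank F (Fin n → F) = n := by simp
  have e : ∀ W : Submodule F (Fin n → F), (∀ u ∈ W, ∀ v ∈ W, Cfsg.hermForm n F q u v = 0) ↔
      (H11.stdUnit hσ hne (Fin n)).TS W := fun W => by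
    rw [H11.PForm.unit_ts_iff]
    simp only [H11.stdUnit_h_eq hσ hne hq']
    exact ⟨fun h x hx y hy => h y hy x hx, fun h x hx y hy => h y hy x hx⟩
  simp only [e] at hrΩ ⊢
  have h1 : r ∣ q ↔ r = p := by rw [← El.dvd_card_iff (F := F) p hr, hF, hr.prime.dvd_pow_iff_dvd two_ne_zero]
  have hrp : r ≠ p := fun h => El.unit_ts_card hne hF hS (by omega) hr (h1.2 h) hrΩ
  have h0 := H11.natCast_ne_zero_of_prime (F := F) p hr hrp
  let Φ := fun f : Module.End F (Fin n → F) => ∃ W : Submodule F (Fin n → F),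
    Module.finrank F W = m ∧ (H11.stdUnit hσ hne (Fin n)).TS W ∧ W.map f ≤ W
  have hΦ : ∀ f (c : F), c ≠ 0 → Φ f → Φ (c • f) := fun f c _ ⟨W, h, h', h3⟩ => ⟨W, h, h', El.map_smul_le c h3⟩
  refine (El.su_all (hσ := hσ) (hne := hne) hq' (Φ := Φ)).trans ?_
  by_cases h2 : r = 2
  · subst h2
    refine (El.unit_ts_two hne hF (by exact_mod_cast h0) hq' hS hm (by omega)).trans ?_
    simp [hrp.symm]
  have h3 : 2 < r := by have := hr.two_le; omega
  have A := El.ar_unit hne hF (hσ := hσ) p hq' hr h2 hrp hi hb hc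
  have B := A.ts_all hS hn' hmn hrΩ
  by_cases h4 : r ∣ q + 1
  · have h5 : i = 2 := hi.trans ((El.ord_two hr h2).2 h4)
    subst h5
    obtain rfl : b = 1 := hb
    obtain rfl : c = 1 := hc
    refine (El.unit_one hne hF hq' hS h2 h4 (by omega) hΦ (A := r - 1 + 2 * m ≤ n) (B := r ∣ m)
      (fun h => B.2 ⟨hm, by omega, .inr (by simpa using h)⟩) (fun h => hn' ▸ A.ts_nec rfl hS hm (by omega) h)
      fun g z k1 k2 k3 => ⟨fun ⟨W, k4, _, k5⟩ => k4 ▸ El.irr_dvd hr.ne_zero k1 k2 k5,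
        El.irr_ts hS (El.rg_unit hne hS g) hr.ne_zero k1 k2 k3 (by omega)⟩).trans ?_
    simp [h2, hrp, h3, hm, Nat.mod_one]
  have h5 : i ≠ 2 := fun h => h4 ((El.ord_two hr h2).1 (hi ▸ h))
  refine ((El.cop_su hS (H11.card_normOne_unit hσ hne hF ▸ (hr.coprime_iff_not_dvd.2 h4).symm) hΦ).trans B).trans ?_
  by_cases h6 : i % 4 = 2
  · simp [h2, hrp, h3, h6, show 2 < i by omega]
  · simp [h2, hrp, h3, h6]

end Cfsg.Agent.S5953
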