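import Cfsg.Statements.S5954
import Cfsg.Agent.H20.El7

set_option autoImplicit false
open scoped MatrixGroups
open Cfsg H20

namespace Cfsg.Agent.S5954

/-- Elements of prime order of PSU_n(q) with no fixed nondegenerate `m`-space. Here `T = PSU_n(q)` (`n ≥ 3`, `(n, q) ≠ (3, 2)`), realised through the matrices of determinant 1 over the field `F` with `q²` elements preserving the Hermitian form `h(u, v) = Σ u_i v_i^q`; an element of `T` of prime order `r` is such a matrix `x` with `x^r` scalar and `x` not scalar. For `r ≠ p` let `i` be the multiplicative order of `q` modulo `r`, `b = i/2` for `i` even and `b = i` for `i` odd, `c = i, i/2, 2i` according as `i ≡ 0, 2 (mod 4)` or `i` odd, and write `k = n mod c`, `ℓ = m mod b`, `ℓ' = m mod c`, `n' = ⌊n/b⌋`, `m' = ⌊m/b⌋`, `s = (r−1)/b`; `(a)_r` is the `r`-part of `a`. Let `1 ≤ m < n/2` and let `r` be a prime dividing the number of nondegenerate `m`-spaces. Then every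 element of `T` of order `r` fixes a nondegenerate `m`-space if and only if one of: (i) `r = p > 2` and every partition of `n` into parts of size at most `p` contains (as a sub-multiset) a partition of `m`; (ii) `r = p = 2` and (`n` is odd or `m` is even); (iii) `r = 2 ≠ p` and (`n` is odd, or `m` is even, or `(q+1)_2 ≥ (n)_2` and `q ≡ 3 (mod 4)`); (iv) `r ≠ p`, `r > 2`, and either `i ≠ 2`, `c ≤ m` and `k ≥ ℓ'`, or `i = 2` and (`r ∣ m` or `(q+1)_r ≥ (n)_r`). -/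
theorem result {F : Type*} [Field F] [Fintype F] {p : ℕ} [Fact p.Prime] [CharP F p] {q : ℕ} (hq : Fintype.card F = q ^ 2)
    (n m : ℕ) (hn : 3 ≤ n) (hT : (n, q) ≠ (3, 2)) (hm : 1 ≤ m) (hmn : 2 * m < n)
    (r : ℕ) [Fact r.Prime]
    (hrΩ : r ∣ Nat.card {W : Submodule F (Fin n → F) // Module.finrank F ↥W = m ∧ (∀ u ∈ W, u ≠ 0 → ∃ v ∈ W, Cfsg.hermForm n F q u v ≠ 0)})
    (i b c : ℕ) (hi : i = orderOf (q : ZMod r)) (hb : b = if Even i then i / 2 else i)
    (hc : c = if i % 4 = 0 then i else if i % 4 = 2 then i / 2 else 2 * i) :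
    (∀ x : Matrix.SpecialLinearGroup (Fin n) F, x ∈ Cfsg.SU n F q →
      (∃ z : F, ((x ^ r : Matrix.SpecialLinearGroup (Fin n) F) : Matrix (Fin n) (Fin n) F) = z • (1 : Matrix (Fin n) (Fin n) F)) →
      (∀ z : F, (x : Matrix (Fin n) (Fin n) F) ≠ z • (1 : Matrix (Fin n) (Fin n) F)) →
      ∃ W : Submodule F (Fin n → F), Module.finrank F ↥W = m ∧ (∀ u ∈ W, u ≠ 0 → ∃ v ∈ W, Cfsg.hermForm n F q u v ≠ 0) ∧
        W.map (Matrix.toLin' (x : Matrix (Fin n) (Fin n) F)) ≤ W) ↔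
    ((r = p ∧ 2 < p ∧ (∀ μ : Multiset ℕ, (∀ a ∈ μ, 0 < a ∧ a ≤ p) → μ.sum = n → ∃ ν : Multiset ℕ, ν ≤ μ ∧ ν.sum = m)) ∨
     (r = p ∧ p = 2 ∧ (Odd n ∨ Even m)) ∨
     (r = 2 ∧ p ≠ 2 ∧ (Odd n ∨ Even m ∨ (padicValNat 2 n ≤ padicValNat 2 (q + 1) ∧ q % 4 = 3))) ∨
     (r ≠ p ∧ 2 < r ∧ ((i ≠ 2 ∧ c ≤ m ∧ m % c ≤ n % c) ∨ (i = 2 ∧ (r ∣ m ∨ padicValNat r n ≤ padicValNat r (q + 1)))))) := by
  obtain ⟨σ, hq', hσ, hne⟩ := H11.exists_frob hq
  have hF : Nat.card F = q ^ 2 := by rw [Nat.card_eq_fintype_card, hq]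
  have hr : r.Prime := Fact.out
  have hS := H11.stdUnit_nondeg hσ hne (Fin n)
  have hn' : Module.finrank F (Fin n → F) = n := by simp
  simp only [El.nd_iff' (S := H11.stdUnit hσ hne (Fin n)) (f := Cfsg.hermForm n F q) (fun u v => by
    rw [← H11.stdUnit_h_eq hσ hne hq', H11.PForm.h_eq_zero_comm])] at hrΩ ⊢
  have h1 : r ∣ q ↔ r = p := by rw [← El.dvd_card_iff (F := F) p hr, hF, hr.prime.dvd_pow_iff_dvd two_ne_zero]
  let Φ := fun f : Module.End F (Fin n → F) => ∃ W : Submodule F (Fin n → F),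
    Module.finrank F W = m ∧ ((H11.stdUnit hσ hne (Fin n)).restrict W).Nondeg ∧ W.map f ≤ W
  have hΦ : ∀ f (c : F), c ≠ 0 → Φ f → Φ (c • f) := fun f c _ ⟨W, h, h', h3⟩ => ⟨W, h, h', El.map_smul_le c h3⟩
  refine (El.su_all (hσ := hσ) (hne := hne) hq' (Φ := Φ)).trans ?_
  have h7 : ¬ r ∣ q + 1 → _ := fun h4 =>
    El.cop_su hS (H11.card_normOne_unit hσ hne hF ▸ (hr.coprime_iff_not_dvd.2 h4).symm) hΦ
  have h3 := hr.two_le
  by_cases hrp : r = p
  · subst hrp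
    refine ((h7 fun h => hr.one_lt.ne' (Nat.dvd_one.1 ((Nat.dvd_add_right (h1.2 rfl)).1 h))).trans
      (El.unit_nd_unip hne r hS hn' (by omega))).trans ?_
    by_cases h2 : r = 2
    · subst h2
      simp [El.part_two (show m ≤ n by omega)]
    · simp [h2, show 2 < r by omega]
  have h0 := H11.natCast_ne_zero_of_prime (F := F) p hr hrp
  by_cases h2 : r = 2
  · subst h2
    refine (El.unit_nd_two hne hF (by exact_mod_cast h0) hq' hS (by omega) (by omega)).trans ?_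
    simp [hrp, Ne.symm hrp]
  have h3 : 2 < r := by omega
  have A := El.ar_unit hne hF (hσ := hσ) p hq' hr h2 hrp hi hb hc
  have B := A.nd_all hS hn' (by omega) (one_dvd _) hrΩ
  by_cases h4 : r ∣ q + 1
  · have h5 : i = 2 := hi.trans ((El.ord_two hr h2).2 h4)
    subst h5
    obtain rfl : c = 1 := hc
    refine (El.unit_one hne hF hq' hS h2 h4 (by omega) hΦ (A := True) (B := r ∣ m)
      (fun h => B.2 ⟨hm, by omega⟩) (fun _ => trivial)
      fun g z k1 k2 k3 => ⟨fun ⟨W, k4, _, k5⟩ => k4 ▸ El.irr_dvd hr.ne_zero k1 k2 k5,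
        El.irr_nd hS (El.rg_unit hne hS g) hr.ne_zero k1 k2 k3 (by omega)⟩).trans ?_
    simp [h2, hrp, h3]
  have h5 : i ≠ 2 := fun h => h4 ((El.ord_two hr h2).1 (hi ▸ h))
  refine ((h7 h4).trans B).trans ?_
  simp [h2, hrp, h3, h5]

end Cfsg.Agent.S5954
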