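import Cfsg.Statements.S5956
import Cfsg.Agent.H20.El6

set_option autoImplicit false
open scoped MatrixGroups
open Cfsg H20

namespace Cfsg.Agent.S5956

/-- Elements of prime order of PSp_n(q) with no fixed nondegenerate `m`-space. Here `T = PSp_n(q)` with `n = 2d ≥ 4`, `(n, q) ≠ (4, 2)`, realised through the symplectic matrices over the field `F` with `q` elements (preserving the standard alternating form); an element of `T` of prime order `r` is such a matrix `x` with `x^r` scalar and `x` not scalar. For `r ≠ p` let `i` be the multiplicative order of `q` modulo `r`, `c = i` for `i` even and `c = 2i` for `i` odd, and write `k = n mod c`, `ℓ = m mod i`, `ℓ' = m mod c`, `n' = ⌊n/i⌋`, `m' = ⌊m/i⌋`, `t = (r−1)/i`. Let `m` be even with `2 ≤ m < n/2` and let `r` be a prime dividing the number of nondegenerate `m`-spaces. Then every element of `T` of order `r` fixes a nondegenerate `m`-space if and only if one of: (i) `r = p > 2`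 and every partition of `n` into parts of size at most `p` in which every odd part has even multiplicity contains (as a sub-multiset) a partition of `m` in which every odd part has even multiplicity; (ii) `r = p = 2` and (`n ≡ 2 (mod 4)` or `m ≡ 0 (mod 4)`); (iii) `r = 2 ≠ p`; (iv) `r ≠ p`, `r > 2`, `c ≤ m` and `k ≥ ℓ'`. -/
theorem result {F : Type*} [Field F] [Fintype F] {p : ℕ} [Fact p.Prime] [CharP F p] {q : ℕ} (hq : Fintype.card F = q)
    (d m : ℕ) (hd : 2 ≤ d) (hT : (d, q) ≠ (2, 2)) (hm : 2 ≤ m) (hme : Even m) (hmd : m < d)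
    (r : ℕ) [Fact r.Prime]
    (hrΩ : r ∣ Nat.card {W : Submodule F (Fin d ⊕ Fin d → F) // Module.finrank F ↥W = m ∧ (∀ u ∈ W, u ≠ 0 → ∃ v ∈ W, Cfsg.sympForm d F u v ≠ 0)})
    (i c : ℕ) (hi : i = orderOf (q : ZMod r)) (hc : c = if Even i then i else 2 * i) :
    (∀ x : ↥(Matrix.symplecticGroup (Fin d) F),
      (∃ z : F, ((x ^ r : ↥(Matrix.symplecticGroup (Fin d) F)) : Matrix (Fin d ⊕ Fin d) (Fin d ⊕ Fin d) F) = z • (1 : Matrix (Fin d ⊕ Fin d) (Fin d ⊕ Fin d) F)) →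
      (∀ z : F, (x : Matrix (Fin d ⊕ Fin d) (Fin d ⊕ Fin d) F) ≠ z • (1 : Matrix (Fin d ⊕ Fin d) (Fin d ⊕ Fin d) F)) →
      ∃ W : Submodule F (Fin d ⊕ Fin d → F), Module.finrank F ↥W = m ∧ (∀ u ∈ W, u ≠ 0 → ∃ v ∈ W, Cfsg.sympForm d F u v ≠ 0) ∧
        W.map (Matrix.toLin' (x : Matrix (Fin d ⊕ Fin d) (Fin d ⊕ Fin d) F)) ≤ W) ↔
    ((r = p ∧ 2 < p ∧ (∀ μ : Multiset ℕ, (∀ a ∈ μ, 0 < a ∧ a ≤ p) → (∀ a : ℕ, Odd a → Even (μ.count a)) → μ.sum = 2 * d →
        ∃ ν : Multiset ℕ, ν ≤ μ ∧ ν.sum = m ∧ ∀ a : ℕ, Odd a → Even (ν.count a))) ∨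
     (r = p ∧ p = 2 ∧ ((2 * d) % 4 = 2 ∨ m % 4 = 0)) ∨
     (r = 2 ∧ p ≠ 2) ∨
     (r ≠ p ∧ 2 < r ∧ c ≤ m ∧ m % c ≤ (2 * d) % c)) := by
  have hq' : Nat.card F = q := by rw [Nat.card_eq_fintype_card, hq]
  have hr : r.Prime := Fact.out
  have hS := H11.stdSymp_nondeg (F := F) d
  have hn := H11.finrank_sum_fun (F := F) d
  simp only [El.nd_iff' (S := H11.stdSymp d F) (f := Cfsg.sympForm d F) (by simp [H11.stdSymp_h])] at hrΩ ⊢
  let Φ := fun f : Module.End F (Fin d ⊕ Fin d → F) => ∃ W : Submodule F (Fin d ⊕ Fin d → F),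
    Module.finrank F W = m ∧ ((H11.stdSymp d F).restrict W).Nondeg ∧ W.map f ≤ W
  have hΦ : ∀ f (c : F), c ≠ 0 → Φ f → Φ (c • f) := fun f c _ ⟨W, h, h', h3⟩ => ⟨W, h, h', El.map_smul_le c h3⟩
  refine (El.sp_all (Φ := Φ)).trans ?_
  have h3 := hr.two_le
  by_cases h2 : r = 2
  · subst h2
    by_cases hp : p = 2
    · subst hp
      refine ⟨fun h => .inr (.inl ⟨rfl, rfl, ?_⟩), fun h g ⟨z, h4⟩ _ => El.symp_nd_two hS h4 hme (by omega) (.inr ?_)⟩
      · by_contra h4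
        obtain ⟨g, h5, h6, h7⟩ := El.symp_bad_two hS CharTwo.two_eq_zero hn (by omega) (Nat.even_iff.2 (by omega))
        obtain ⟨W, h8, h9, h10⟩ := (El.cop_all hS (El.cop_symp (.inr CharTwo.two_eq_zero)) hΦ).1 h g h5 h6
        have := h7 W h9 h10
        omega
      · simpa [hn] using h
    · have h0 := H11.natCast_ne_zero_of_prime (F := F) p hr (Ne.symm hp)
      exact ⟨fun _ => by simp [hp], fun _ g ⟨z, h4⟩ _ => El.symp_nd_two hS h4 hme (by omega) (.inl (by exact_mod_cast h0))⟩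
  rw [El.cop_all hS (El.cop_symp (.inl (hr.odd_of_ne_two h2))) hΦ]
  by_cases hrp : r = p
  · subst hrp
    refine (El.symp_nd_unip r hS (by exact_mod_cast H11.natCast_ne_zero_of_prime (F := F) r Nat.prime_two (Ne.symm h2)) hn
      (by omega) hme).trans ?_
    simp [h2, show 2 < r by omega]
  refine ((El.ar_symp hr h2 (fun h => hrp ((El.dvd_card_iff p hr).1 h)) (H11.natCast_ne_zero_of_prime p hr hrp)
    (hq' ▸ hi) hc).nd_all hS hn (by omega) hme.two_dvd hrΩ).trans ?_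
  simp [h2, hrp, show 2 < r by omega]

end Cfsg.Agent.S5956
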