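import Cfsg.Statements.S5957
import Cfsg.Agent.H20.El3

set_option autoImplicit false
open scoped MatrixGroups
open Cfsg H20

namespace Cfsg.Agent.S5957

/-- Involutions of PSL_n(q) and imprimitive subgroups. Here `T = PSL_n(F)` for a field `F` with `q = p^f` elements (`n ≥ 2`, `(n, q) ≠ (2, 2), (2, 3)`), `n = a·t` with `t ≥ 2`, and Ω is the set of direct-sum decompositions of `F^n` into `t` subspaces of dimension `a` (unordered; their number is the number of ordered ones divided by `t!`), whose stabilizers are the imprimitive subgroups of type GL_a(q) ≀ S_t (maximal except in some small cases; maximality is not assumed); an element of `T` of prime order `r` (a matrix `x` of determinant 1 with `x^r` scalar, `x` not scalar) fixes a point of Ω when it permutes the summands of some such decomposition. If the number of such decompositions is even, then every involution of `T` stabilizes one of them (the action is 2-elusive). -/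
theorem result {F : Type*} [Field F] [Fintype F] {p : ℕ} [Fact p.Prime] [CharP F p] {q : ℕ} (hq : Fintype.card F = q)
    (n a t : ℕ) (hn : 2 ≤ n) (hT : (n, q) ≠ (2, 2) ∧ (n, q) ≠ (2, 3)) (hat : n = a * t) (ha : 1 ≤ a) (ht : 2 ≤ t)
    (hΩ : 2 ∣ Nat.card {D : Fin t → Submodule F (Fin n → F) // Cfsg.Geo.IsMDecomposition a D} / Nat.factorial t)
    (x : Matrix.SpecialLinearGroup (Fin n) F)
    (hx1 : ∃ z : F, ((x ^ 2 : Matrix.SpecialLinearGroup (Fin n) F) : Matrix (Fin n) (Fin n) F) = z • (1 : Matrix (Fin n) (Fin n) F))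
    (hx2 : ∀ z : F, (x : Matrix (Fin n) (Fin n) F) ≠ z • (1 : Matrix (Fin n) (Fin n) F)) :
    ∃ D : Fin t → Submodule F (Fin n → F), Cfsg.Geo.IsMDecomposition a D ∧
        ∃ σ : Equiv.Perm (Fin t), ∀ j, (D j).map (Matrix.toLin' (x : Matrix (Fin n) (Fin n) F)) = D (σ j) := by
  have hn' : Module.finrank F (Fin n → F) = a * t := by simp [hat]
  have h2 : Fact (Nat.Prime 2) := ⟨Nat.prime_two⟩
  rw [El.hd_iff' ha ht]
  refine El.sl_all (r := 2) (Φ := fun f : Module.End F (Fin n → F) => El.HD f a (fun _ => True) (fun _ _ => True) ⊤ t).2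
    (El.all_of Nat.prime_two (fun f c hc h => h.smul hc) (fun g h3 h4 => ?_) fun g z h3 h4 _ _ => ?_) x hx1 hx2
  · have h5 := El.inj_of_pow (f := g) (z := (1 : F)) two_ne_zero one_ne_zero (by simpa using h3)
    have h6 := H11.JT_sum g
    by_cases hp : 2 = p
    · subst hp
      have h7 := H11.unip_of_pow 2 h3
      obtain ⟨e, s, h8⟩ := El.eq_rep_two (μ := H11.JT g) fun k hk => ⟨H11.JT_pos hk,
        h7.pow_eq_zero_iff.1 (by simpa using (H11.pow_char_pow_eq_one_iff 2 (j := 1)).1 (by simpa using h3)) k hk⟩
      have h9 := El.hasED_top g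
      rw [h7.ED_eq, h8, add_comm] at h9
      rw [h8, hn'] at h6
      exact El.hd_invol h5 ha one_ne_zero El.natDegree_X_sub_one (El.eE_char 2) (k := s) (e := e)
        (by simp at h6; omega) _ (by simpa using h9)
    · have h0 := H11.natCast_ne_zero_of_prime (F := F) p Nat.prime_two hp
      obtain ⟨-, e, s, h7, -⟩ := El.jt_of_pow Nat.prime_two h0 h3
      have h8 : orderOf (Nat.card F : ZMod 2) = 1 := by
        have := (H11.PhiF_spec Nat.prime_two h0).2
        exact Nat.eq_one_of_mul_eq_one_left this
      rw [h8, ← Multiset.replicate_add] at h7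
      rw [h7, hn'] at h6
      exact El.hd_dist h5 one_pos (e := e + s) (s := 0) (by simpa using h6) (by simp) (El.hasED_top g)
        (by simpa [H11.JT] using h7)
  · obtain ⟨-, s, h5, h6, -⟩ := El.irr_spec two_ne_zero h3 h4
    have h7 := El.ne_zero_of_irr le_rfl h3
    exact El.hd_invol (El.inj_of_pow two_ne_zero h7 h4) ha h7 El.natDegree_X_sub_one (El.eE_irr two_ne_zero h3)
      (k := s) (e := 0) (by omega) _ (by simpa [h5] using El.hasED_top g)

end Cfsg.Agent.S5957
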