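import Cfsg.Statements.S5958
import Cfsg.Agent.H20.El3

set_option autoImplicit false
open scoped MatrixGroups
open Cfsg H20

namespace Cfsg.Agent.S5958

/-- Elements of odd prime order of PSL_n(q) and imprimitive subgroups. Here `T = PSL_n(F)` for a field `F` with `q = p^f` elements (`n ≥ 2`, `(n, q) ≠ (2, 2), (2, 3)`), `n = a·t` with `t ≥ 2`, and Ω is the set of direct-sum decompositions of `F^n` into `t` subspaces of dimension `a` (unordered; their number is the number of ordered ones divided by `t!`), whose stabilizers are the imprimitive subgroups of type GL_a(q) ≀ S_t (maximal except in some small cases; maximality is not assumed); an element of `T` of prime order `r` (a matrix `x` of determinant 1 with `x^r` scalar, `x` not scalar) fixes a point of Ω when it permutes the summands of some such decomposition. Let `r ≠ p` be an odd prime dividing the number of such decompositions, let `c` be the multiplicative order of `q` modulo `r`, and write `k = n mod c`, `ℓ = a mod c`. Then every element of `T` of order `r` stabilizes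 such a decomposition if and only if either `a = 1`, `c = r − 1 > 1` and `n ≤ k·r`, or `c ≤ a` and `k = t·ℓ`. -/
theorem result {F : Type*} [Field F] [Fintype F] {p : ℕ} [Fact p.Prime] [CharP F p] {q : ℕ} (hq : Fintype.card F = q)
    (n a t : ℕ) (hn : 2 ≤ n) (hT : (n, q) ≠ (2, 2) ∧ (n, q) ≠ (2, 3)) (hat : n = a * t) (ha : 1 ≤ a) (ht : 2 ≤ t)
    (r : ℕ) [Fact r.Prime] (hr2 : r ≠ 2) (hrp : r ≠ p) (hΩ : r ∣ Nat.card {D : Fin t → Submodule F (Fin n → F) // Cfsg.Geo.IsMDecomposition a D} / Nat.factorial t)
    (c : ℕ) (hc : c = orderOf (q : ZMod r)) :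
    (∀ x : Matrix.SpecialLinearGroup (Fin n) F,
      (∃ z : F, ((x ^ r : Matrix.SpecialLinearGroup (Fin n) F) : Matrix (Fin n) (Fin n) F) = z • (1 : Matrix (Fin n) (Fin n) F)) →
      (∀ z : F, (x : Matrix (Fin n) (Fin n) F) ≠ z • (1 : Matrix (Fin n) (Fin n) F)) →
      ∃ D : Fin t → Submodule F (Fin n → F), Cfsg.Geo.IsMDecomposition a D ∧
        ∃ σ : Equiv.Perm (Fin t), ∀ j, (D j).map (Matrix.toLin' (x : Matrix (Fin n) (Fin n) F)) = D (σ j)) ↔
    ((a = 1 ∧ 1 < c ∧ c = r - 1 ∧ n ≤ (n % c) * r) ∨ (c ≤ a ∧ n % c = t * (a % c))) := by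
  have hq' : Nat.card F = q := by rw [Nat.card_eq_fintype_card, hq]
  have hr : r.Prime := Fact.out
  have hn' : Module.finrank F (Fin n → F) = n := by simp
  have h0 := H11.natCast_ne_zero_of_prime (F := F) p hr hrp
  have h1 := El.ord_le_of_mdec hr (fun h => hrp ((El.dvd_card_iff p hr).1 h)) hat ha ht hΩ
  have h2 := H11.PhiF_spec hr h0
  have h3 := H11.orderOf_card_ne_zero hr h0
  have hjt := fun g => El.jt_of_pow (F := F) (V := Fin n → F) (g := g) hr h0
  have hex := fun hc e s hs he P hP => El.exists_jt (F := F) (V := Fin n → F) (e := e) (s := s) (P := P) hr h0 hc hs he hP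
  have hbad := fun g z => El.bad_of (F := F) (V := Fin n → F) (r := r) (g := g) (z := z)
  rw [hq', ← hc] at h1 h2 h3 hjt hex hbad
  simp only [El.hd_iff' ha ht]
  rw [El.sl_all (Φ := fun f : Module.End F (Fin n → F) => El.HD f a (fun _ => True) (fun _ _ => True) ⊤ t)]
  have hnc := Nat.mod_add_div' n c
  have hac := Nat.mod_add_div' a c
  constructor
  · intro h
    by_cases hc1 : c = 1
    · simp [hc1, ha, Nat.mod_one]
    obtain ⟨P, hP⟩ := El.exists_mem_PhiF hr h0
    have key : ∀ e s, 0 < s → e + s * c = n → ∃ k, ∃ L : Multiset (Multiset (Polynomial F)), (∀ s ∈ L, El.dg s = a) ∧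
        L.card + r * k = t ∧ (k ≠ 0 → c = r - 1) ∧ k * a ≤ e ∧ k * a ≤ s ∧
        L.sum = .replicate (e - k * a) (.X - 1) + .replicate (s - k * a) P := fun e s hs he => by
      classical
      obtain ⟨g, h4, h5, h6, h7, -⟩ := hex (by omega) e s hs (he.trans hn'.symm) P hP
      obtain ⟨k, L, h8, h9, h10⟩ := (h g h4 ⟨1, by simpa using h5⟩ h6).ed hr ha one_ne_zero (by simpa using h5)
      rw [h7, El.eE_one hr h0] at h10
      have hne : P ≠ .X - 1 := fun h => H11.X_sub_one_notMem_PhiF hr h0 (h ▸ hP)
      by_cases hk : k = 0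
      · exact ⟨0, L, fun s hs => (h8 s hs).1, hk ▸ h9, by simp, by simp, by simp, by simpa [hk] using h10.symm⟩
      have h11 : H11.PhiF F r = {P} := Finset.eq_singleton_iff_unique_mem.2 ⟨hP, fun Q hQ => by
        have : Q ∈ Multiset.replicate e (.X - 1) + .replicate s P := by
          simp [h10, Multiset.mem_nsmul, hk, hQ, show a ≠ 0 by omega]
        rcases Multiset.mem_add.1 this with h | h
        · exact absurd (Multiset.eq_of_mem_replicate h ▸ hQ) (H11.X_sub_one_notMem_PhiF hr h0)
        · exact Multiset.eq_of_mem_replicate h⟩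
      rw [h11, Finset.singleton_val, ← Multiset.singleton_add, nsmul_add, Multiset.nsmul_singleton,
        Multiset.nsmul_singleton] at h10
      have h12 := congrArg (Multiset.count (.X - 1)) h10
      have h13 := congrArg (Multiset.count P) h10
      simp [Multiset.count_replicate, hne, hne.symm] at h12 h13
      obtain ⟨e, rfl⟩ := Nat.exists_eq_add_of_le (show k * a ≤ e by omega)
      obtain ⟨s, rfl⟩ := Nat.exists_eq_add_of_le (show k * a ≤ s by omega)
      rw [Multiset.replicate_add, Multiset.replicate_add, add_add_add_comm, add_right_inj] at h10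
      exact ⟨k, L, fun s hs => (h8 s hs).1, h9, fun _ => by simpa [h11] using h2.2, by simp, by simp, by simp [h10]⟩
    have hd := Nat.div_pos h1 (by omega)
    have hm := Nat.mod_lt n (show 0 < c by omega)
    obtain ⟨k, L, h4, h5, h6, h7, h8, h9⟩ := key _ _ hd hnc
    obtain ⟨h10, h11⟩ := El.sum_eq_of_small El.natDegree_X_sub_one (h2.1 P hP) h4 (by omega) h9
    by_cases hk : k = 0
    · subst hk
      simp at h5 h10 h11
      rw [h5] at h10 h11
      refine .inr ⟨not_lt.1 fun h => ?_, h10⟩
      rw [Nat.div_eq_of_lt h] at h11; omega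
    have h12 := Nat.le_mul_of_pos_left a (Nat.pos_of_ne_zero hk)
    have h13 : a / c = 0 := Nat.div_eq_of_lt (by omega)
    rw [h13] at h11
    have h14 : n / c * c ≤ n % c * c := Nat.mul_le_mul_right _ (by omega)
    obtain rfl : r = c + 1 := by have := h6 hk; have := hr.pos; omega
    refine .inl ⟨?_, by omega, rfl, by rw [mul_add]; omega⟩
    by_contra ha1
    obtain ⟨k', L', h4', -, -, -, h8', h9'⟩ := key (n % c + c) (n / c - 1) (by omega)
      (by rw [Nat.sub_mul]; have := Nat.le_mul_of_pos_left c hd; omega)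
    have h15 : n / c - 1 - k' * a = 0 := by
      by_contra h15
      obtain ⟨M, hM, h16⟩ := Multiset.mem_join.1 (show P ∈ L'.sum by simp [h9', Multiset.mem_replicate, h15])
      have := El.dg_mono (Multiset.singleton_le.2 h16)
      rw [El.dg_singleton, h4' M hM, h2.1 P hP] at this
      omega
    have : a ∣ 1 := by
      rw [show 1 = k * a - k' * a by omega, ← Nat.sub_mul]; exact Dvd.intro_left _ rfl
    exact ha1 (Nat.dvd_one.1 this)
  intro h
  refine El.all_of hr (fun f c hc h => h.smul hc) (fun g h4 _ => ?_) fun g z h4 h5 h6 _ => ?_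
  · have h5 := El.inj_of_pow (f := g) (z := (1 : F)) hr.ne_zero one_ne_zero (by simpa using h4)
    have h6 := H11.JT_sum g
    rcases h with ⟨rfl, h7, h8, h9⟩ | ⟨h7, h8⟩
    · obtain ⟨-, e, s, h10, h11, -⟩ := El.ed_of_pow hr h0 h4
      obtain ⟨P, hP⟩ := Finset.card_eq_one.1 (show (H11.PhiF F r).card = 1 from
        Nat.eq_of_mul_eq_mul_right (show 0 < c by omega) (by rw [h2.2]; omega))
      have h12 := Multiset.eq_replicate_card.2 fun Q hQ => Finset.mem_singleton.1 (hP ▸ h11 Q hQ)
      generalize s.card = k at h12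
      subst h12
      have h13 := El.dg_ED g
      simp [h10, El.natDegree_X_sub_one, h2.1 P (by simp [hP])] at h13
      obtain ⟨b, h14, h15⟩ := El.exists_le_div (by omega) h13
      obtain rfl : r = c + 1 := by have := hr.pos; omega
      have h16 : n / c ≤ n % c := Nat.le_of_mul_le_mul_right (by rw [mul_add] at h9; omega) (show 0 < c by omega)
      obtain ⟨e, rfl⟩ := Nat.exists_eq_add_of_le (show k ≤ e by omega)
      have := El.hd_cycs hr one_pos one_ne_zero (fun U (hU : El.HasED g U (.replicate e (.X - 1))) =>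
        El.hd_dist h5 one_pos (e := e) (s := 0) (t := e) (by simp) (by simp) hU (by simp [El.natDegree_X_sub_one])) k ⊤
        (by
          have := El.hasED_top g
          rw [h10] at this
          convert this using 1
          rw [El.eE_one hr h0, hP, Finset.singleton_val, ← Multiset.singleton_add, nsmul_add, Multiset.nsmul_singleton,
            Multiset.nsmul_singleton, mul_one, Multiset.replicate_add]
          abel)
      convert this using 1
      rw [add_mul, mul_comm c]; omega
    · obtain ⟨-, e, s, h9, -⟩ := hjt g h4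
      rw [h9, hn'] at h6
      simp at h6
      obtain ⟨b, h14, h15⟩ := El.exists_le_div (by omega) h6
      refine El.hd_dist h5 (show 0 < c by omega) (hat ▸ h6) ?_ (El.hasED_top g) h9
      have : n / c * c = t * (a / c) * c := by
        have := congrArg (t * ·) hac
        simp only [mul_add, mul_comm t a, ← mul_assoc] at this
        omega
      have := Nat.eq_of_mul_eq_mul_right (show 0 < c by omega) this
      omega
  · obtain ⟨-, s, h7, h8, h9, -⟩ := El.irr_spec hr.ne_zero h4 h5
    have h10 := El.ne_zero_of_irr hr.two_le h4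
    rw [hn', hat] at h8
    rcases (Nat.Prime.dvd_mul hr).1 ⟨s, by rw [← h8, mul_comm]⟩ with ⟨b, rfl⟩ | ⟨b, rfl⟩
    · refine El.hd_dist (El.inj_of_pow hr.ne_zero h10 h5) hr.pos (e := 0) (s := s) (by simpa using h8) ?_
        (El.hasED_top g) (by simpa [H11.JT] using h9)
      rw [Nat.mul_div_cancel_left _ hr.pos]
      exact (Nat.eq_of_mul_eq_mul_right hr.pos (by rw [h8]; ring)).le
    · obtain rfl : s = b * a := Nat.eq_of_mul_eq_mul_right hr.pos (by rw [h8]; ring)
      exact El.hd_cycs hr ha h10 (t := 0) (M := 0) (fun U hU => by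
        obtain rfl : U = ⊥ := Submodule.finrank_eq_zero.1 hU.finrank_eq
        exact El.HD.zero) b ⊤ (by simpa [El.eE_irr hr.ne_zero h4, Multiset.nsmul_singleton, h7] using El.hasED_top g)

end Cfsg.Agent.S5958
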