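import Cfsg.Statements.S5959
import Cfsg.Agent.H20.El3

set_option autoImplicit false
open scoped MatrixGroups
open Cfsg H20

namespace Cfsg.Agent.S5959

/-- Elements of order `p` of PSL_n(q) and imprimitive subgroups: a necessary condition. Here `T = PSL_n(F)` for a field `F` with `q = p^f` elements (`n ≥ 2`, `(n, q) ≠ (2, 2), (2, 3)`), `n = a·t` with `t ≥ 2`, and Ω is the set of direct-sum decompositions of `F^n` into `t` subspaces of dimension `a` (unordered; their number is the number of ordered ones divided by `t!`), whose stabilizers are the imprimitive subgroups of type GL_a(q) ≀ S_t (maximal except in some small cases; maximality is not assumed); an element of `T` of prime order `r` (a matrix `x` of determinant 1 with `x^r` scalar, `x` not scalar) fixes a point of Ω when it permutes the summands of some such decomposition. Suppose `p > 2` divides the number of such decompositions. If every element of `T` of order `p` stabilizes such a decomposition, then every partition of `n` into parts of size at most `p` in which the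 part `p` occurs fewer than `a` times contains (as a sub-multiset) a partition of `a`. -/
theorem result {F : Type*} [Field F] [Fintype F] {p : ℕ} [Fact p.Prime] [CharP F p] {q : ℕ} (hq : Fintype.card F = q)
    (n a t : ℕ) (hn : 2 ≤ n) (hT : (n, q) ≠ (2, 2) ∧ (n, q) ≠ (2, 3)) (hat : n = a * t) (ha : 1 ≤ a) (ht : 2 ≤ t)
    (hp : 2 < p) (hΩ : p ∣ Nat.card {D : Fin t → Submodule F (Fin n → F) // Cfsg.Geo.IsMDecomposition a D} / Nat.factorial t)
    (h : ∀ x : Matrix.SpecialLinearGroup (Fin n) F,
      (∃ z : F, ((x ^ p : Matrix.SpecialLinearGroup (Fin n) F) : Matrix (Fin n) (Fin n) F) = z • (1 : Matrix (Fin n) (Fin n) F)) →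
      (∀ z : F, (x : Matrix (Fin n) (Fin n) F) ≠ z • (1 : Matrix (Fin n) (Fin n) F)) →
      ∃ D : Fin t → Submodule F (Fin n → F), Cfsg.Geo.IsMDecomposition a D ∧
        ∃ σ : Equiv.Perm (Fin t), ∀ j, (D j).map (Matrix.toLin' (x : Matrix (Fin n) (Fin n) F)) = D (σ j)) :
    (∀ μ : Multiset ℕ, (∀ b ∈ μ, 0 < b ∧ b ≤ p) → μ.sum = n → μ.count p < a → ∃ ν : Multiset ℕ, ν ≤ μ ∧ ν.sum = a) := by
  intro μ h1 h2 h3
  have hn' : Module.finrank F (Fin n → F) = n := by simp
  have hp' : p.Prime := Fact.out
  simp only [El.hd_iff' ha ht] at h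
  rw [El.sl_all (Φ := fun f : Module.End F (Fin n → F) => El.HD f a (fun _ => True) (fun _ _ => True) ⊤ t),
    El.unip_all p fun f c hc h => h.smul hc, hn'] at h
  by_cases h4 : μ = .replicate n 1
  · exact ⟨.replicate a 1, h4 ▸ (Multiset.replicate_le_replicate _).2 (by nlinarith), by simp⟩
  obtain ⟨f, h5, rfl⟩ := H11.exists_JT (F := F) (V := Fin n → F) (fun k hk => (h1 k hk).1) (h2.trans hn'.symm)
  have h6 : f ^ p = (1 : F) • 1 := by
    simpa using (H11.pow_char_pow_eq_one_iff p (f := f) (j := 1)).2
      (by simpa using h5.pow_eq_zero_iff.2 fun k hk => (h1 k hk).2)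
  obtain ⟨k, L, h7, h8, h9⟩ := (h f h5 (fun k hk => (h1 k hk).2) h4).ed hp' ha one_ne_zero h6
  obtain rfl : k = 0 := by
    rw [H11.JT, h9, El.eE_char p] at h3
    simp [Multiset.map_nsmul, El.natDegree_X_sub_one] at h3
    by_contra hk
    have := Nat.le_mul_of_pos_left a (Nat.pos_of_ne_zero hk)
    omega
  obtain ⟨s, hs⟩ := Multiset.card_pos_iff_exists_mem.1 (show 0 < L.card by omega)
  exact ⟨_, Multiset.map_le_map (h9 ▸ by simpa using Multiset.single_le_sum (fun _ _ => Multiset.zero_le _) s hs),
    (h7 s hs).1⟩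

end Cfsg.Agent.S5959
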