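import Cfsg.Statements.S5963
import Cfsg.Agent.H20.El6

set_option autoImplicit false
open scoped MatrixGroups
open Cfsg H20

namespace Cfsg.Agent.S5963

/-- Derangements of odd prime order of PSp_n(q), q odd, on pairs of complementary totally isotropic subspaces. Here `T = PSp_n(q)`, `n = 2d ≥ 4`, `q` odd, realised through the symplectic matrices over the field `F` with `q` elements; Ω is the set of unordered pairs `{U, W}` of complementary totally isotropic `d`-spaces (`F^n = U ⊕ W`), whose stabilizers are the subgroups of type GL_d(q).2 (maximal except in some small cases; maximality is not assumed); an element of `T` of prime order `r` (a symplectic matrix `x` with `x^r` scalar, `x` not scalar) fixes such a pair when it fixes or interchanges `U` and `W`. For every odd prime `r ≠ p` dividing the number of such pairs, some element of `T` of order `r` fixes no such pair (the action is never `r`-elusive for odd `r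 ≠ p`). -/
theorem result {F : Type*} [Field F] [Fintype F] {p : ℕ} [Fact p.Prime] [CharP F p] {q : ℕ} (hq : Fintype.card F = q)
    (d : ℕ) (hd : 2 ≤ d) (hT : (d, q) ≠ (2, 2)) (hodd : Odd q)
    (r : ℕ) [Fact r.Prime] (hr2 : r ≠ 2) (hrp : r ≠ p) (hΩ : r ∣ Nat.card {P : Submodule F (Fin d ⊕ Fin d → F) × Submodule F (Fin d ⊕ Fin d → F) // IsCompl P.1 P.2 ∧ (∀ u ∈ P.1, ∀ v ∈ P.1, Cfsg.sympForm d F u v = 0) ∧ (∀ u ∈ P.2, ∀ v ∈ P.2, Cfsg.sympForm d F u v = 0)} / 2) :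
    ∃ x : ↥(Matrix.symplecticGroup (Fin d) F),
      (∃ z : F, ((x ^ r : ↥(Matrix.symplecticGroup (Fin d) F)) : Matrix (Fin d ⊕ Fin d) (Fin d ⊕ Fin d) F) = z • (1 : Matrix (Fin d ⊕ Fin d) (Fin d ⊕ Fin d) F)) ∧
      (∀ z : F, (x : Matrix (Fin d ⊕ Fin d) (Fin d ⊕ Fin d) F) ≠ z • (1 : Matrix (Fin d ⊕ Fin d) (Fin d ⊕ Fin d) F)) ∧
      ¬ (∃ U W : Submodule F (Fin d ⊕ Fin d → F), IsCompl U W ∧ (∀ u ∈ U, ∀ v ∈ U, Cfsg.sympForm d F u v = 0) ∧ (∀ u ∈ W, ∀ v ∈ W, Cfsg.sympForm d F u v = 0) ∧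
        ((U.map (Matrix.toLin' (x : Matrix (Fin d ⊕ Fin d) (Fin d ⊕ Fin d) F)) = U ∧ W.map (Matrix.toLin' (x : Matrix (Fin d ⊕ Fin d) (Fin d ⊕ Fin d) F)) = W) ∨
         (U.map (Matrix.toLin' (x : Matrix (Fin d ⊕ Fin d) (Fin d ⊕ Fin d) F)) = W ∧ W.map (Matrix.toLin' (x : Matrix (Fin d ⊕ Fin d) (Fin d ⊕ Fin d) F)) = U))) := by
  have hq' : Nat.card F = q := by rw [Nat.card_eq_fintype_card, hq]
  have hr : r.Prime := Fact.out
  have hS := H11.stdSymp_nondeg (F := F) d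
  have hn := H11.finrank_sum_fun (F := F) d
  simp only [← H11.stdSymp_h, El.symp_ts_iff] at hΩ ⊢
  obtain ⟨g, h1, h2, h3⟩ := El.symp_pair_ex hS (hq' ▸ hodd) hr hr2 (fun h => hrp ((El.dvd_card_iff p hr).1 h))
    (H11.natCast_ne_zero_of_prime p hr hrp) (by omega) (by
      rwa [Nat.card_congr (Equiv.subtypeEquivRight (q := fun x => (H11.stdSymp d F).Polar x.1 x.2) fun x =>
        ⟨fun h => ⟨h.2.1, h.2.2, h.1⟩, fun h => ⟨h.compl, h.ts1, h.ts2⟩⟩)] at hΩ)
  by_contra h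
  let Φ := fun f : Module.End F (Fin d ⊕ Fin d → F) => ∃ U W : Submodule F (Fin d ⊕ Fin d → F),
    IsCompl U W ∧ (H11.stdSymp d F).TS U ∧ (H11.stdSymp d F).TS W ∧
      ((U.map f = U ∧ W.map f = W) ∨ (U.map f = W ∧ W.map f = U))
  obtain ⟨U, W, h4, h5, h6, h7⟩ := (El.cop_all (Φ := Φ) hS (El.cop_symp (.inl (hr.odd_of_ne_two hr2)))
    fun f c hc h => by simpa only [Φ, Submodule.map_smul _ _ _ hc] using h).1
    ((El.sp_all (Φ := Φ)).1 fun x h4 h5 => not_not.1 fun h6 => h ⟨x, h4, h5, h6⟩) g h1 h2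
  exact h3 U W ⟨h5, h6, h4⟩ h7

end Cfsg.Agent.S5963
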