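import Cfsg.Statements.S5964
import Cfsg.Agent.H2.EluS

set_option autoImplicit false
open scoped MatrixGroups
open Cfsg

open H11 H20.El H2.Eu Module Matrix Cfsg.Geo

namespace Cfsg.Agent.S5964



/-- Involutions of PSL_n(q) and subfield subgroups. Here `T = PSL_n(F)` for a field `F` with `q = p^f` elements (`n ≥ 2`, `(n, q) ≠ (2, 2), (2, 3)`), `F₀` is the subfield with `q₀` elements where `q = q₀^k` for a prime `k`, and `H` is the subgroup of matrices of determinant 1 lying in the subfield group of `F₀` (invertible matrices over `F₀` times scalars) — a maximal subgroup of type GL_n(q₀) (the case `n = 2`, `q₀ = 2` is excluded); Ω is the set of `T`-conjugates of `H` (cosets of `H`), so an element of `T` of prime order `r` (a matrix `x` of determinant 1 with `x^r` scalar, `x` not scalar) fixes a point of Ω when some conjugate of `x` by a matrix of determinant 1 lies in `H`. Suppose the index of `H` is even. Then every involution of `T` is conjugate in `T` into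 `H` if and only if either `q` is even, or `k = 2` and `(n)_2 ≤ (q − 1)_2`. (For `q` odd and `k` odd the index of `H` is odd, so that case does not arise.) -/
theorem result {F : Type*} [Field F] [Fintype F] {p : ℕ} [Fact p.Prime] [CharP F p] {q : ℕ} (hq : Fintype.card F = q)
    (n : ℕ) (hn : 2 ≤ n) (hT : (n, q) ≠ (2, 2) ∧ (n, q) ≠ (2, 3))
    (F₀ : Subfield F) (k q₀ : ℕ) (hk : k.Prime) (hF₀ : Nat.card ↥F₀ = q₀) (hqk : q = q₀ ^ k) (hC5 : ¬ (n = 2 ∧ q₀ = 2)) (hΩ : 2 ∣ ((Cfsg.Geo.subfieldSubgroup F₀ 1).comap (Matrix.SpecialLinearGroup.toGL : Matrix.SpecialLinearGroup (Fin n) F →* GL (Fin n) F)).index) :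
    (∀ x : Matrix.SpecialLinearGroup (Fin n) F,
      (∃ z : F, ((x ^ 2 : Matrix.SpecialLinearGroup (Fin n) F) : Matrix (Fin n) (Fin n) F) = z • (1 : Matrix (Fin n) (Fin n) F)) →
      (∀ z : F, (x : Matrix (Fin n) (Fin n) F) ≠ z • (1 : Matrix (Fin n) (Fin n) F)) →
      ∃ P : Matrix.SpecialLinearGroup (Fin n) F, P⁻¹ * x * P ∈ ((Cfsg.Geo.subfieldSubgroup F₀ 1).comap (Matrix.SpecialLinearGroup.toGL : Matrix.SpecialLinearGroup (Fin n) F →* GL (Fin n) F))) ↔
    (Odd q → (k = 2 ∧ padicValNat 2 n ≤ padicValNat 2 (q - 1))) := by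
  rw [← Nat.card_eq_fintype_card] at hq
  subst hq hF₀
  have : Nonempty (Fin n) := ⟨⟨0, by omega⟩⟩
  rw [all_sl, ← two_ne_zero_iff]
  by_cases h0 : (2 : F) = 0
  · exact iff_of_true (all_two' h0 scal_le_sub fun g h _ _ => inG_unip h) fun h => (h h0).elim
  have h1 := two_ne_zero_iff.1 h0
  obtain ⟨j, -, -, -, h2⟩ := sub_idx Nat.prime_two (by rwa [Nat.two_dvd_ne_zero, ← Nat.odd_iff])
    (by omega : 1 ≤ n) hqk (by rwa [index_comap_toGL] at hΩ)
  have h3 : Odd (Nat.card F₀) := (Nat.odd_pow_iff hk.ne_zero).1 (hqk ▸ h1)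
  obtain rfl : 2 = k := (Nat.prime_dvd_prime_iff_eq Nat.prime_two hk).1 (h2 (by
    rw [(ZMod.natCast_eq_one_iff_odd).2 h3, one_pow]))
  have h4 : Nat.card F % 4 = 1 := by
    obtain ⟨k, hk⟩ := h3
    rw [hqk, hk, show (2 * k + 1) ^ 2 = 1 + 4 * (k ^ 2 + k) by ring, Nat.add_mul_mod_self_left]
  simp only [ne_eq, h0, not_false_eq_true, true_and, forall_const]
  constructor
  · intro h5
    by_contra h6
    obtain ⟨g, z, h7, h8, h9, h10⟩ := exists_bad (F := F) (V := Fin n → F) (r := 2)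
      ((orderOf_eq_one_iff Nat.card_pos).2 (by omega)) finrank_pos fun e => h6 (by simpa using e.1)
    refine not_all h7 h8 h9 (fun h11 => ?_) h5
    obtain ⟨c, A, hc, h12⟩ := h11.exists_map
    obtain ⟨w, hw⟩ := isSquare_of_sq h0 hqk (pow_mem_of_sim (r := 2) (z := c ^ 2 * z) h12 (by
      rw [_root_.smul_pow, h8, smul_smul]))
    exact not_pow_of_irr le_rfl h10 (w / c) (by field_simp; linear_combination -hw)
  · intro h5
    refine all_of' hk h0 scal_le_sub (fun g c h6 _ _ => ?_) fun g z h6 h7 h8 =>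
      ((bad_of h6 h7 h8 finrank_pos).2 ⟨by simpa using h5, fun _ _ => h4⟩).elim
    obtain ⟨a, b, h7, -⟩ := eig_of_sq h0 h6
    exact h7.inG_sub h0 h6 (by simp)

end Cfsg.Agent.S5964
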