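import Cfsg.Statements.S5965
import Cfsg.Agent.H2.EluS

set_option autoImplicit false
open scoped MatrixGroups
open Cfsg

open H11 H20.El H2.Eu Module Matrix Cfsg.Geo Polynomial

namespace Cfsg.Agent.S5965

theorem pow_eq_iff {K : Type*} [Field K] {x : K} {r : ℕ} (hr : r ≠ 0) (h : orderOf x = r) {a b : ℕ} :
    x ^ a = x ^ b ↔ (a : ZMod r) = b := by
  rw [(orderOf_ne_zero_iff.1 (h ▸ hr)).pow_eq_pow_iff_modEq, h, ZMod.natCast_eq_natCast_iff]

theorem map_eq_iff {F : Type*} [Field F] [Finite F] (p : ℕ) [Fact p.Prime] [CharP F p] {σ : F →+* F}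
    {e : ℕ} (he : ∀ x, σ x = x ^ p ^ e) {r : ℕ} (hr : r.Prime) (h : (r : F) ≠ 0) {P : F[X]}
    (hP : P ∈ PhiF F r) : P.map σ = P ↔ ∃ j, (Nat.card F : ZMod r) ^ j = ((p ^ e : ℕ) : ZMod r) := by
  obtain ⟨h1, h2, h3, h4⟩ := (mem_PhiF' hr h).1 hP
  have h5 : Irreducible (P.map σ) := (MulEquiv.irreducible_iff (mapEquiv (RingEquiv.ofBijective σ
    (Finite.injective_iff_bijective.1 σ.injective)))).2 h1
  obtain ⟨K, _, _, _, x, hx, -⟩ := exists_root_field h1
  have := charP_of_injective_algebraMap (algebraMap F K).injective p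
  have := Fact.mk hr
  have h7 : orderOf x = r := orderOf_eq_prime (by
    simpa [sub_eq_zero] using aeval_eq_zero_of_dvd_aeval_eq_zero h3 hx) fun h8 =>
      h4 (eq_of_common_root h1 h2 irreducible_X_sub_one monic_X_sub_one hx (by simp [h8]))
  have h9 : aeval (iterateFrobenius K p e x) (P.map σ) = 0 := by
    rw [aeval_def, eval₂_map, ← show (iterateFrobenius K p e).comp (algebraMap F K) =
      (algebraMap F K).comp σ from RingHom.ext fun a => by simp [he, iterateFrobenius_def],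
      ← hom_eval₂, ← aeval_def, hx, map_zero]
  have h10 : ∀ j, iterateFrobenius K p e x = x ^ Nat.card F ^ j ↔
      (Nat.card F : ZMod r) ^ j = ((p ^ e : ℕ) : ZMod r) := fun j => by
    rw [iterateFrobenius_def, pow_eq_iff hr.ne_zero h7, eq_comm, Nat.cast_pow]
  exact ⟨fun h => (exists_pow_of_root h1 hx (h ▸ h9)).imp fun j => (h10 j).1, fun ⟨j, hj⟩ =>
    eq_of_common_root h5 (h2.map _) h1 h2 h9 ((h10 j).2 hj ▸ aeval_pow_card hx j)⟩

theorem val_sq' {q r : ℕ} [hr : Fact r.Prime] (hq : 1 < q) (h : ¬ r ∣ q - 1) :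
    padicValNat r (q ^ 2 - 1) = padicValNat r (q + 1) := by
  rw [← one_pow 2, Nat.sq_sub_sq, padicValNat.mul (by omega) (by omega), one_pow,
    padicValNat.eq_zero_of_not_dvd h, add_zero]

/-- Elements of odd prime order r ≠ p of PSL_n(q) and subfield subgroups. Here `T = PSL_n(F)` for a field `F` with `q = p^f` elements (`n ≥ 2`, `(n, q) ≠ (2, 2), (2, 3)`), `F₀` is the subfield with `q₀` elements where `q = q₀^k` for a prime `k`, and `H` is the subgroup of matrices of determinant 1 lying in the subfield group of `F₀` (invertible matrices over `F₀` times scalars) — a maximal subgroup of type GL_n(q₀) (the case `n = 2`, `q₀ = 2` is excluded); Ω is the set of `T`-conjugates of `H` (cosets of `H`), so an element of `T` of prime order `r` (a matrix `x` of determinant 1 with `x^r` scalar, `x` not scalar) fixes a point of Ω when some conjugate of `x` by a matrix of determinant 1 lies in `H`. Let `r ≠ p` be an odd prime dividing the index of `H`, with `(n,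 r) ≠ (6, 3)` and, when `r = k` divides `q₀ − 1`, with `(n)_r ≤ (q − 1)_r`. Then every element of `T` of order `r` is conjugate in `T` into `H` if and only if `r = k`, or `k = 2`, `r = n ∈ {3, 5}` and `(q₀ + 1)_r = r`. The two excluded cases, `(n, r) = (6, 3)` and `r = k ∣ q₀ − 1` with `(n)_r > (q − 1)_r`, are ones where this criterion can fail, so they are left out. -/
theorem result {F : Type*} [Field F] [Fintype F] {p : ℕ} [Fact p.Prime] [CharP F p] {q : ℕ} (hq : Fintype.card F = q)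
    (n : ℕ) (hn : 2 ≤ n) (hT : (n, q) ≠ (2, 2) ∧ (n, q) ≠ (2, 3))
    (F₀ : Subfield F) (k q₀ : ℕ) (hk : k.Prime) (hF₀ : Nat.card ↥F₀ = q₀) (hqk : q = q₀ ^ k) (hC5 : ¬ (n = 2 ∧ q₀ = 2)) (r : ℕ) [Fact r.Prime] (hr2 : r ≠ 2) (hrp : r ≠ p) (hgap : ¬ (n = 6 ∧ r = 3)) (hgapk : r = k → r ∣ q₀ - 1 → padicValNat r n ≤ padicValNat r (q - 1)) (hΩ : r ∣ ((Cfsg.Geo.subfieldSubgroup F₀ 1).comap (Matrix.SpecialLinearGroup.toGL : Matrix.SpecialLinearGroup (Fin n) F →* GL (Fin n) F)).index) :
    (∀ x : Matrix.SpecialLinearGroup (Fin n) F,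
      (∃ z : F, ((x ^ r : Matrix.SpecialLinearGroup (Fin n) F) : Matrix (Fin n) (Fin n) F) = z • (1 : Matrix (Fin n) (Fin n) F)) →
      (∀ z : F, (x : Matrix (Fin n) (Fin n) F) ≠ z • (1 : Matrix (Fin n) (Fin n) F)) →
      ∃ P : Matrix.SpecialLinearGroup (Fin n) F, P⁻¹ * x * P ∈ ((Cfsg.Geo.subfieldSubgroup F₀ 1).comap (Matrix.SpecialLinearGroup.toGL : Matrix.SpecialLinearGroup (Fin n) F →* GL (Fin n) F))) ↔
    (r = k ∨ (k = 2 ∧ r = n ∧ (n = 3 ∨ n = 5) ∧ padicValNat r (q₀ + 1) = 1)) := by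
  classical
  have hr : r.Prime := Fact.out
  rw [← Nat.card_eq_fintype_card] at hq
  subst hq hF₀
  have : Nonempty (Fin n) := ⟨⟨0, by omega⟩⟩
  have h0 : (r : F) ≠ 0 := natCast_ne_zero_of_prime p hr hrp
  have hq0 := Finite.one_lt_card (α := F₀)
  have hx : (Nat.card F : ZMod r) = (Nat.card F₀ : ZMod r) ^ k := by rw [hqk, Nat.cast_pow]
  have hone : ∀ {a : ℕ}, 0 < a → ((a : ZMod r) = 1 ↔ r ∣ a - 1) := fun ha => by
    rw [← H20.El.orderOf_eq_one_iff ha, _root_.orderOf_eq_one_iff]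
  have hmap : ∀ P ∈ PhiF F r, P.map (psi F₀) = P ↔
      ∃ j, (Nat.card F : ZMod r) ^ j = (Nat.card F₀ : ZMod r) := fun P hP => by
    have := Fintype.ofFinite F₀
    obtain ⟨e, -, he⟩ := FiniteField.card F₀ p
    rw [← Nat.card_eq_fintype_card] at he
    rw [map_eq_iff p (fun x => (psi_apply x).trans (by rw [he])) hr h0 hP, he]
  rw [all_sl]
  constructor
  swap
  · rintro (rfl | ⟨rfl, rfl, h1, h2⟩)
    · rw [ZMod.pow_card] at hx
      refine all_of' hr h0 scal_le_sub (fun g _ h1 _ _ => inG_of_fix h0 h1 ?_) fun g z h1 h2 h3 => ?_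
      · obtain ⟨-, e, s, h2, h3, -⟩ := ed_of_pow hr h0 h1
        rw [charpoly_eq_prod_ED, Polynomial.map_multiset_prod, h2, Multiset.map_add,
          Multiset.map_congr rfl fun P hP => (hmap P (h3 P hP)).2 ⟨1, by rw [pow_one, hx]⟩]
        simp
      · obtain ⟨h4, h5⟩ := bad_of h1 h2 h3 finrank_pos
        rw [_root_.orderOf_eq_one_iff, hx, hone (by omega)] at h4
        exact (h5 ⟨by simpa using hgapk rfl h4, fun e => (hr2 e).elim⟩).elim
    · have h3 := dvd_of_one_le_padicValNat h2.ge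
      refine all35 h1 (by simp) (by
        rw [hqk, val_sq' hq0 fun e => ?_, h2]
        have := Nat.dvd_sub h3 e
        rw [show Nat.card F₀ + 1 - (Nat.card F₀ - 1) = 2 by omega] at this
        exact hr2 ((Nat.prime_dvd_prime_iff_eq hr Nat.prime_two).1 this)) scal_le_sub
        fun f s h4 h5 h6 => h4.inG_sub h0 h5 ((Multiset.map_congr rfl fun a ha => ?_).trans h6)
      obtain ⟨l, hl⟩ := h3
      refine eq_inv_of_mul_eq_one_left ?_
      rw [psi_apply, ← pow_succ, hl, pow_mul, h4.pow_one_iff.1 h5 a ha, one_pow]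
  intro h1
  by_contra h2
  revert h1
  rw [not_or] at h2
  obtain ⟨j, h3, h4, h5, h6⟩ := sub_idx hr (not_dvd_card p hr hrp) (by omega : 1 ≤ n) hqk
    (by rwa [index_comap_toGL] at hΩ)
  have h6 : (Nat.card F₀ : ZMod r) ^ j ≠ 1 := fun e =>
    h2.1 ((Nat.prime_dvd_prime_iff_eq hr hk).1 (h6 e))
  have h7 : (Nat.card F₀ : ZMod r) ≠ 1 := fun e => h6 (by rw [e, one_pow])
  rw [← hx] at h5
  by_cases hi : orderOf (Nat.card F : ZMod r) = 1
  · have h8 := (H20.El.orderOf_eq_one_iff Nat.card_pos).1 hi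
    have hψ : ∀ ω : F, IsPrimitiveRoot ω r → psi F₀ ω ≠ ω := fun ω hω e => h7 (by
      rw [psi_apply, ← pow_one ω, ← pow_mul, one_mul, pow_eq_iff hr.ne_zero hω.eq_orderOf.symm] at e
      simpa using e)
    by_cases hn2 : n = 2
    · subst hn2
      obtain rfl : j = 2 := by omega
      obtain ⟨ω, hω⟩ := exists_prim h8
      have h9 := hω.ne_zero hr.ne_zero
      obtain ⟨f, hf⟩ := exists_eig (V := Fin 2 → F) (s := {ω, ω⁻¹}) (by simp)
      refine not_all (z := 1) (by simp [hf.det, h9]) (hf.pow_iff.2 (by simp [hω.pow_eq_one]))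
        (hf.ne (a := ω) (b := ω⁻¹) (by simp) (by simp) fun e => hr2
          ((Nat.prime_dvd_prime_iff_eq hr Nat.prime_two).1 ((hω.pow_eq_one_iff_dvd 2).1 (by
            rw [pow_two]; nth_rewrite 2 [e]; exact mul_inv_cancel₀ h9)))) fun h10 => h6 ?_
      obtain ⟨t, ht⟩ := sub_stab f _ hf h10
      have h11 := congrArg Multiset.prod ht
      have h12 : t * psi F₀ ω ∈ ({ω, ω⁻¹} : Multiset F) := ht ▸ by simp
      have h13 : psi F₀ ω ≠ 0 := (_root_.map_ne_zero _).2 h9
      have h14 : t ^ r = 1 := by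
        have : (t * psi F₀ ω) ^ r = 1 := by
          rcases (by simpa using h12 : _ ∨ _) with e | e <;> simp [e, hω.pow_eq_one]
        rwa [mul_pow, ← map_pow, hω.pow_eq_one, map_one, mul_one] at this
      obtain rfl : t = 1 := (pow_eq_one_iff_of_coprime
        ((Nat.coprime_primes Nat.prime_two hr).2 (Ne.symm hr2))).1 ⟨by
          simp only [Multiset.insert_eq_cons, Multiset.map_cons, Multiset.map_singleton,
            Multiset.prod_cons, Multiset.prod_singleton, map_inv₀] at h11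
          field_simp at h11
          exact h11, h14⟩
      have h15 : psi F₀ (psi F₀ ω) = ω := by
        rcases (by simpa using h12 : _ ∨ _) with e | e
        · rw [e, e]
        · rw [e, map_inv₀, e, inv_inv]
      rw [psi_apply, psi_apply, ← pow_mul, ← pow_one ω, ← pow_mul, one_mul,
        pow_eq_iff hr.ne_zero hω.eq_orderOf.symm] at h15
      simpa [sq] using h15
    refine not_all_stab hr hr2 scal_le_sub (psi F₀).toMonoidWithZeroHom hψ
      (fun f s h _ h' => sub_stab f s h h') h8 (by simp; omega) (by simpa using hgap)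
      fun ⟨h9, h10, h11⟩ => h2.2 ?_
    rw [Fintype.card_fin] at h10
    rw [_root_.orderOf_eq_one_iff, hx] at hi
    have := Fact.mk hk
    have h12 := ZMod.orderOf_dvd_card_sub_one (p := r) (a := (Nat.card F₀ : ZMod r)) fun e => by
      rw [e, zero_pow hk.ne_zero] at hi; exact zero_ne_one hi
    rw [orderOf_eq_prime hi h7] at h12
    obtain rfl : k = 2 := (Nat.prime_dvd_prime_iff_eq hk Nat.prime_two).1 (hk.dvd_of_dvd_pow (n := 2)
      (h12.trans (by rcases h9 with rfl | rfl <;> norm_num)))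
    exact ⟨rfl, h10.symm, by omega, by
      rwa [hqk, val_sq' hq0 fun e => h7 ((hone (by omega)).2 e)] at h11⟩
  have h8 := orderOf_card_ne_zero hr h0
  obtain ⟨Q, hQ⟩ := exists_mem_PhiF hr h0
  obtain ⟨f, h9, h10, h11, h12, -⟩ := exists_one (ι := Fin n) hr h0 (by omega) (by
    rw [Fintype.card_fin]
    exact (Nat.le_of_dvd (by omega) (orderOf_dvd_of_pow_eq_one h5)).trans h4) hQ
  refine not_all h9 (h10.trans (one_smul F _).symm) h11 fun h13 => h6 ?_
  obtain ⟨c, A, hc, h14⟩ := h13.exists_map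
  have h15 := psi_eq_iff.2 (pow_mem_of_sim (r := r) (z := c ^ r) h14 (by rw [_root_.smul_pow, h10]))
  have h16 : c ∈ F₀ := psi_eq_iff.1 ((div_eq_one_iff_eq hc).1 (eq_one_of_pow hr hi (by
    rw [div_pow, ← map_pow, h15, div_self (pow_ne_zero _ hc)])))
  have h17 := charpoly_fix (f := f) (A := (⟨c⁻¹, inv_mem h16⟩ : F₀) • A.1) (by
    have := h14.smul c⁻¹
    rwa [smul_smul, inv_mul_cancel₀ hc, one_smul, ← mE_smul] at this)
  obtain ⟨a, ha⟩ := ED_eq_nED f
  rw [charpoly_eq_prod_ED, ha, h12] at h17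
  simp only [Multiset.prod_add, Multiset.prod_replicate, Multiset.prod_singleton, Polynomial.map_mul,
    Polynomial.map_pow, Polynomial.map_sub, map_X, Polynomial.map_one] at h17
  obtain ⟨l, hl⟩ := (hmap Q hQ).1 (mul_left_cancel₀ (pow_ne_zero _ monic_X_sub_one.ne_zero) h17)
  rw [← hl, pow_right_comm, h5, one_pow]

end Cfsg.Agent.S5965
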