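import Cfsg.Statements.S5966
import Cfsg.Agent.H2.EluS

set_option autoImplicit false
open scoped MatrixGroups
open Cfsg

open H11 H20.El H2.Eu Module Matrix Cfsg.Geo

namespace Cfsg.Agent.S5966

theorem detC_sq {F : Type*} [Field F] {m : ℕ} {a : F}
    (h : DetC (mE (fromBlocks 1 1 0 1 : Matrix (Fin m ⊕ Fin m) (Fin m ⊕ Fin m) F)) a) : IsSquare a := by
  obtain ⟨c, hc, rfl⟩ := h
  obtain ⟨A, rfl⟩ := mE_surj c
  have := hc.eq
  rw [← mE_mul, ← mE_mul, mE_inj, ← fromBlocks_toBlocks A, fromBlocks_multiply, fromBlocks_multiply,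
    fromBlocks_inj] at this
  simp only [Matrix.mul_one, Matrix.mul_zero, add_zero, Matrix.one_mul, Matrix.zero_mul, zero_add,
    add_comm A.toBlocks₁₁, add_right_inj] at this
  rw [det_mE, ← fromBlocks_toBlocks A, add_eq_right.1 this.2.2.2, det_fromBlocks_zero₂₁, this.2.1]
  exact ⟨_, rfl⟩

theorem blk_spec (F : Type*) [Field F] (m : ℕ) :
    (mE (fromBlocks 1 1 0 1 : Matrix (Fin m ⊕ Fin m) (Fin m ⊕ Fin m) F) - 1) ^ 2 = 0 ∧
    finrank F (LinearMap.range
      (mE (fromBlocks 1 1 0 1 : Matrix (Fin m ⊕ Fin m) (Fin m ⊕ Fin m) F) - 1)) = m := by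
  classical
  have h4 : (fromBlocks 1 1 0 1 : Matrix (Fin m ⊕ Fin m) (Fin m ⊕ Fin m) F) - 1 = fromBlocks 0 1 0 0 := by
    rw [← fromBlocks_one, sub_eq_add_neg, fromBlocks_neg, fromBlocks_add]; simp
  refine ⟨by rw [mE_sub_one_pow, h4, sq, fromBlocks_multiply]; simp [mE_zero], ?_⟩
  rw [← rank_sub_one, h4, ← rank_mul_eq_left_of_isUnit_det (fromBlocks 0 1 1 0) _
    ((isUnit_iff_isUnit_det _).1 (IsUnit.of_mul_eq_one (fromBlocks 0 1 1 0) (by
      simp [fromBlocks_multiply]))), fromBlocks_multiply]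
  simp only [Matrix.mul_zero, Matrix.mul_one, zero_add, add_zero]
  nth_rewrite 3 [← diagonal_zero]
  rw [← diagonal_one, fromBlocks_diagonal, rank_diagonal, Fintype.card_congr Equiv.subtypeSum]
  simp

theorem not_scalar_of_mem' {F V : Type*} [Field F] [AddCommGroup V] [Module F V] [FiniteDimensional F V]
    {f : End F V} (h : (f - 1) ^ 2 = 0) {m : ℕ} (h' : finrank F (LinearMap.range (f - 1)) = m)
    (hm : m ≠ 0) : ∀ z : F, f ≠ z • 1 := by
  obtain ⟨P, hP, e⟩ := Multiset.mem_map.1 (show 2 ∈ JT f by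
    simp [(JT_of_sq h h').2, Multiset.mem_replicate, hm])
  exact not_scalar_of_mem hP e.ge

theorem exists_det {F : Type*} [Field F] {n : ℕ} (hn : 0 < n) {a : F} (ha : a ≠ 0) :
    ∃ g : GL (Fin n) F, g.1.det = a :=
  have : (diagonal (Function.update 1 (⟨0, hn⟩ : Fin n) a)).det = a := by
    simp [Finset.prod_update_of_mem]
  ⟨GeneralLinearGroup.mkOfDetNeZero _ (this.trans_ne ha), this⟩

/-- Elements of order 3 of PSL_n(q) in characteristic 3 and subfield subgroups. Here `T = PSL_n(F)` for a field `F` with `q` elements, `q` a power of 3 (`n ≥ 2`, `(n, q) ≠ (2, 2), (2, 3)`), `F₀` is the subfield with `q₀` elements where `q = q₀^k` for a prime `k`, and `H` is the subgroup of matrices of determinant 1 lying in the subfield group of `F₀` (invertible matrices over `F₀` times scalars) — a maximal subgroup of type GL_n(q₀) (the case `n = 2`, `q₀ = 2` is excluded); Ω is the set of `T`-conjugates of `H` (cosets of `H`), so an element of `T` of prime order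 `r` (a matrix `x` of determinant 1 with `x^r` scalar, `x` not scalar) fixes a point of Ω when some conjugate of `x` by a matrix of determinant 1 lies in `H`. Suppose 3 divides the index of `H`. Then every element of `T` of order 3 is conjugate in `T` into `H` if and only if `n` is odd, or `n` is even and `k > 2`. -/
theorem result {F : Type*} [Field F] [Fintype F] [CharP F 3] {q : ℕ} (hq : Fintype.card F = q)
    (n : ℕ) (hn : 2 ≤ n) (hT : (n, q) ≠ (2, 3))
    (F₀ : Subfield F) (k q₀ : ℕ) (hk : k.Prime) (hF₀ : Nat.card ↥F₀ = q₀) (hqk : q = q₀ ^ k) (hC5 : ¬ (n = 2 ∧ q₀ = 2)) (hΩ : 3 ∣ ((Cfsg.Geo.subfieldSubgroup F₀ 1).comap (Matrix.SpecialLinearGroup.toGL : Matrix.SpecialLinearGroup (Fin n) F →* GL (Fin n) F)).index) :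
    (∀ x : Matrix.SpecialLinearGroup (Fin n) F,
      (∃ z : F, ((x ^ 3 : Matrix.SpecialLinearGroup (Fin n) F) : Matrix (Fin n) (Fin n) F) = z • (1 : Matrix (Fin n) (Fin n) F)) →
      (∀ z : F, (x : Matrix (Fin n) (Fin n) F) ≠ z • (1 : Matrix (Fin n) (Fin n) F)) →
      ∃ P : Matrix.SpecialLinearGroup (Fin n) F, P⁻¹ * x * P ∈ ((Cfsg.Geo.subfieldSubgroup F₀ 1).comap (Matrix.SpecialLinearGroup.toGL : Matrix.SpecialLinearGroup (Fin n) F →* GL (Fin n) F))) ↔
    (Odd n ∨ (Even n ∧ 2 < k)) := by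
  rw [← Nat.card_eq_fintype_card] at hq
  subst hq hF₀
  have : Nonempty (Fin n) := ⟨⟨0, by omega⟩⟩
  have h0 : (2 : F) ≠ 0 := natCast_ne_zero_of_prime 3 Nat.prime_two (by norm_num)
  have hc3 : ∀ {K : Type _} [Field K] [CharP K 3], ringChar K ≠ 2 := fun {K} _ _ => by
    rw [ringChar.eq K 3]; norm_num
  rw [all_sl]
  constructor
  · intro h1
    by_contra! h2
    obtain ⟨m, hm⟩ := Nat.not_odd_iff_even.1 h2.1
    obtain rfl : k = 2 := le_antisymm (h2.2 ⟨m, hm⟩) hk.two_le
    obtain ⟨ν, hν⟩ := FiniteField.exists_nonsquare (F := F) hc3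
    obtain ⟨g, rfl⟩ := exists_det (n := n) (by omega) (fun e => hν (e ▸ IsSquare.zero) : ν ≠ 0)
    obtain ⟨B, hB⟩ := exists_mat_sim (ι := Fin n)
      (mE (fromBlocks 1 1 0 1 : Matrix (Fin m ⊕ Fin m) (Fin m ⊕ Fin m) F₀)) (by simp [hm])
    have key : ∀ A : Matrix (Fin n) (Fin n) F₀,
        ((mE (A.map F₀.subtype) - 1) ^ 2 = 0 ↔ (mE A - 1) ^ 2 = 0) ∧
        finrank F (LinearMap.range (mE (A.map F₀.subtype) - 1)) =
          finrank F₀ (LinearMap.range (mE A - 1)) := fun A => by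
      have : A.map F₀.subtype - 1 = F₀.subtype.mapMatrix (A - 1) := by rw [map_sub, map_one]; rfl
      rw [mE_sub_one_pow, mE_sub_one_pow, ← rank_sub_one, ← rank_sub_one, this, ← map_pow, mE_eq_zero,
        mE_eq_zero, map_eq_zero_iff _ (Matrix.map_injective F₀.subtype.injective)]
      exact ⟨Iff.rfl, rank_map' _ _⟩
    have h3 := (hB.sub_one_pow 2).eq_zero_iff.2 (blk_spec F₀ m).1
    have h4 := (hB.sub_one_pow 1).finrank_range
    rw [pow_one, pow_one, (blk_spec F₀ m).2] at h4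
    have h5 : Sim (mE (g.1 * B.map F₀.subtype * (g⁻¹).1)) (mE (B.map F₀.subtype)) :=
      sim_of_mul (g := g) (by rw [← mE_mul, ← mE_mul, Units.inv_mul_cancel_right])
    have h6 := (h5.sub_one_pow 2).eq_zero_iff.2 ((key B).1.2 h3)
    have h7 := (h5.sub_one_pow 1).finrank_range
    rw [pow_one, pow_one, (key B).2, h4] at h7
    have h8 : ∀ f : End F (Fin n → F), (f - 1) ^ 2 = 0 → f ^ 3 = 1 := fun f hf =>
      (pow_char_pow_eq_one_iff 3 (j := 1)).2 (pow_eq_zero_of_le (by norm_num) hf)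
    obtain ⟨P, h9, y, h10, h11⟩ := h1 _ (Unip.det ⟨2, h6⟩) ⟨1, (h8 _ h6).trans (one_smul F _).symm⟩
      (not_scalar_of_mem' h6 h7 (by omega))
    have h12 := sim_of_mul h11
    obtain ⟨c, A, hc, h13⟩ := mem_sub.1 h10
    have h14 := (h12.sub_one_pow 2).eq_zero_iff.1 h6
    have h15 : c⁻¹ ∈ F₀ := by
      have := psi_eq_iff.2 (pow_mem_of_sim (r := 3) (z := c⁻¹ ^ 3) (Sim.refl (mE (A.1.map F₀.subtype))) (by
        have := h8 _ h14
        rw [h13, mE_smul, _root_.smul_pow] at this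
        rw [← this, smul_smul, ← mul_pow, inv_mul_cancel₀ hc, one_pow, one_smul]))
      exact psi_eq_iff.1 (frobenius_inj F 3 (by rwa [map_pow] at this))
    have h16 : y.1 = ((⟨c, (inv_mem_iff).1 h15⟩ : F₀) • A.1).map F₀.subtype := by
      rw [h13]; rfl
    have h17 := (h12.sub_one_pow 1).finrank_range
    rw [pow_one, pow_one, h7, h16, (key _).2] at h17
    rw [h16, (key _).1] at h14
    obtain ⟨u, hu⟩ := exists_mul_of_sim (sim_of_sq h14 h3 rfl (h17.symm.trans h4.symm))
    rw [← mE_mul, ← mE_mul, mE_inj] at hu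
    have hu := congrArg F₀.subtype.mapMatrix hu
    simp only [map_mul, RingHom.mapMatrix_apply, ← h16] at hu
    rw [← mE_mul, ← mE_mul, mE_inj] at h11
    obtain ⟨w, hw⟩ := detC_sq ((sim_of_sq ((key B).1.2 h3) (blk_spec F m).1 (by simp [hm])
      (by rw [(key B).2, h4, (blk_spec F m).2])).detC ⟨mE ((g⁻¹).1 * P.1 * u.1.map F₀.subtype), by
        rw [Commute, SemiconjBy, ← mE_mul, ← mE_mul, Matrix.mul_assoc, hu, ← Matrix.mul_assoc,
          Matrix.mul_assoc _ P.1, h11]
        simp only [← Matrix.mul_assoc, Units.inv_mul, Matrix.one_mul], rfl⟩)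
    obtain ⟨v, hv⟩ := isSquare_of_sq h0 hqk u.1.det.2
    rw [det_mE, det_mul, det_mul, h9, mul_one, ← RingHom.mapMatrix_apply, ← RingHom.map_det,
      show F₀.subtype u.1.det = v * v from hv, coe_units_inv, det_nonsing_inv, Ring.inverse_eq_inv'] at hw
    have h18 : v ≠ 0 := fun e => u.det_ne_zero (Subtype.ext (by rw [hv, e, mul_zero]; rfl))
    have h19 := g.det_ne_zero
    have h20 : w ≠ 0 := fun e => by simp [e, h18, h19] at hw
    exact hν ⟨v / w, by field_simp at hw ⊢; linear_combination -hw⟩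
  · intro h1
    refine all_unip 3 scal_le_sub fun g h2 h3 h4 => ?_
    by_cases e : 1 ∈ JT g ∨ 3 ∈ JT g
    · refine (inG_unip h2).inS fun a => ?_
      rcases e with e | e
      · exact pow_one a ▸ h2.detC e a
      · obtain ⟨b, rfl⟩ := surjective_frobenius F 3 a
        exact h2.detC e b
    have h5 : JT g = Multiset.replicate (JT g).card 2 := Multiset.eq_replicate_card.2 fun b hb => by
      have := JT_pos hb
      have := h2.pow_eq_zero_iff.1 h3 b hb
      by_contra
      obtain rfl | rfl : b = 1 ∨ b = 3 := by omega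
      exacts [e (.inl hb), e (.inr hb)]
    have h6 := JT_sum g
    rw [h5, Multiset.sum_replicate, smul_eq_mul, finrank_fin_fun] at h6
    have h7 : 2 ∈ JT g := by rw [h5, Multiset.mem_replicate]; omega
    obtain ⟨l, hl⟩ := hk.odd_of_ne_two (by rw [Nat.odd_iff] at h1; omega)
    obtain ⟨ν, hν⟩ := FiniteField.exists_nonsquare (F := F₀) hc3
    have h8 : ν ≠ 0 := fun e => hν (e ▸ IsSquare.zero)
    have h9 : ¬ IsSquare (ν : F) := fun ⟨b, hb⟩ => hν ⟨Algebra.norm F₀ b / ν ^ l, by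
      have := Algebra.norm_algebraMap (S := F) ν
      rw [show algebraMap F₀ F ν = b * b from hb, map_mul, Nat.pow_right_injective
        (Finite.one_lt_card (α := F₀)) ((natCard_eq_pow_finrank (K := F₀)).symm.trans hqk), hl] at this
      field_simp
      linear_combination -this⟩
    refine (inG_unip h2).inS' fun a ha => ?_
    by_cases e : IsSquare a
    · obtain ⟨b, rfl⟩ := e
      exact ⟨1, one_mem _, _, h2.detC h7 b, by simp [sq]⟩
    · obtain ⟨b, -, rfl⟩ := exists_sq_mul_of_sqSign_eq (a := ν.1) (by simpa using h8) ha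
        ((sqSign_eq_neg_one_iff.2 h9).trans (sqSign_eq_neg_one_iff.2 e).symm)
      obtain ⟨A, rfl⟩ := exists_det (n := n) (by omega) h8
      exact ⟨_, map_mem_sub A, _, h2.detC h7 b, congrArg _ (F₀.subtype.map_det A.1).symm⟩

end Cfsg.Agent.S5966
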