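import Cfsg.Statements.S5967
import Cfsg.Agent.H2.EluF

set_option autoImplicit false
open scoped MatrixGroups
open Cfsg

open H11 H11.PForm H20.El H2.Eu Module Matrix Cfsg.Geo

namespace Cfsg.Agent.S5967



/-- Involutions of PSL_n(q) and the symplectic-type subgroups. Here `T = PSL_n(F)` for a field `F` with `q` elements, `n ≥ 4` even, `f` is a nondegenerate alternating form on `F^n`, and `H` is the subgroup of matrices of determinant 1 preserving `f` up to a scalar — a maximal subgroup of type Sp_n(q); Ω is the set of `T`-conjugates of `H` (cosets of `H`), so an element of `T` of prime order `r` (a matrix `x` of determinant 1 with `x^r` scalar, `x` not scalar) fixes a point of Ω when some conjugate of `x` by a matrix of determinant 1 preserves `f` up to a scalar. Suppose the index of `H` is even. Then every involution of `T` is conjugate in `T` into `H` if and only if `(q − 1)_2 ≤ (n)_2`. -/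
theorem result {F : Type*} [Field F] [Fintype F] {p : ℕ} [Fact p.Prime] [CharP F p] {q : ℕ} (hq : Fintype.card F = q)
    (n : ℕ) (hn : 4 ≤ n) (he : Even n) (f : (Fin n → F) → (Fin n → F) → F) (hf : Cfsg.Geo.IsSymplecticForm f)
    (hΩ : 2 ∣ ((Cfsg.Geo.similarityGroup f).comap (Matrix.SpecialLinearGroup.toGL : Matrix.SpecialLinearGroup (Fin n) F →* GL (Fin n) F)).index) :
    (∀ x : Matrix.SpecialLinearGroup (Fin n) F,
      (∃ z : F, ((x ^ 2 : Matrix.SpecialLinearGroup (Fin n) F) : Matrix (Fin n) (Fin n) F) = z • (1 : Matrix (Fin n) (Fin n) F)) →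
      (∀ z : F, (x : Matrix (Fin n) (Fin n) F) ≠ z • (1 : Matrix (Fin n) (Fin n) F)) →
      ∃ P : Matrix.SpecialLinearGroup (Fin n) F, P⁻¹ * x * P ∈ ((Cfsg.Geo.similarityGroup f).comap (Matrix.SpecialLinearGroup.toGL : Matrix.SpecialLinearGroup (Fin n) F →* GL (Fin n) F))) ↔
    padicValNat 2 (q - 1) ≤ padicValNat 2 n := by
  classical
  rw [← Nat.card_eq_fintype_card] at hq
  subst hq
  obtain ⟨S, hS, h⟩ := symp_model hf
  rw [all_sl]
  have : Nonempty (Fin n) := ⟨⟨0, by omega⟩⟩
  obtain ⟨m, hm⟩ := he
  have hE : Eqv (stdSymp m F) S := symp_eqv n (stdSymp_nondeg m) hS (by simp [hm]) (by simp)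
  by_cases h0 : (2 : F) = 0
  · refine iff_of_true (all_two' h0 h.scal fun g h1 h2 _ => ?_) (val_two_eq_zero h0 ▸ Nat.zero_le _)
    obtain ⟨s, hs⟩ : ∃ s, finrank F (LinearMap.range (g - 1)) = s := ⟨_, rfl⟩
    have h3 := (JT_of_sq h2 hs).1
    rw [finrank_fin_fun] at h3
    let D : Matrix (Fin m) (Fin m) F := diagonal fun i => if i.1 < s then 1 else 0
    have h4 : (fromBlocks 1 D 0 1 : Matrix (Fin m ⊕ Fin m) (Fin m ⊕ Fin m) F) - 1 = fromBlocks 0 D 0 0 := by
      rw [← fromBlocks_one, sub_eq_add_neg, fromBlocks_neg, fromBlocks_add]; simp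
    have h5 : (mE (fromBlocks 1 D 0 1 : Matrix (Fin m ⊕ Fin m) (Fin m ⊕ Fin m) F) - 1) ^ 2 = 0 := by
      rw [mE_sub_one_pow, h4, sq, fromBlocks_multiply]; simp [mE_zero]
    refine (h.inG hE (Unip.isUnit ⟨2, h5⟩) one_ne_zero fun x y => ?_).sim
      (sim_of_sq h2 h5 (by simp [hm]) ?_)
    · simp only [stdSymp_h, sympForm_eq, mE_apply, fromBlocks_mulVec, Sum.elim_inl, Sum.elim_inr,
        one_mulVec, zero_mulVec, zero_add, Pi.add_apply, D, mulVec_diagonal, Function.comp, one_mul]
      exact Finset.sum_congr rfl fun i _ => by ring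
    · rw [hs, ← rank_sub_one, h4, ← rank_mul_eq_left_of_isUnit_det (fromBlocks 0 1 1 0) _
        ((isUnit_iff_isUnit_det _).1 (IsUnit.of_mul_eq_one (fromBlocks 0 1 1 0) (by
          simp [fromBlocks_multiply]))), fromBlocks_multiply]
      simp only [Matrix.mul_zero, Matrix.mul_one, zero_add, add_zero, D]
      nth_rewrite 3 [← diagonal_zero]
      rw [fromBlocks_diagonal, rank_diagonal, Fintype.card_congr Equiv.subtypeSum]
      simp [Fintype.card_subtype, Fin.card_filter_val_lt]
      omega
  constructor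
  · intro h1
    by_contra! h2
    refine not_all_neg h0 h.scal (by simp; omega) (by simpa using h2) (fun g h3 h4 h5 h6 => ?_) h1
    obtain ⟨k, t, h7, -, h8, h9⟩ := h.exists_mult hS h6 h3
    rcases sq_eq_one_iff.1 h8 with rfl | rfl
    · have := mem_SIsom.1 (E_le_SIsom (hS.symp_E_eq_top ▸ Subgroup.mem_top
        (mkIsom hS k (symp_isIsom (by simpa using h9)))))
      have := congrArg Units.val this
      rw [LinearEquiv.coe_det] at this
      have h10 : LinearMap.det k = 1 := by
        rw [← Units.val_one, ← this]; congr 1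
      exact h0 (by linear_combination h4 - h7.det - h10)
    · have h10 := (h7.sub_one_pow 1).finrank_ker
      rw [pow_one, pow_one, h5] at h10
      have h11 := hS.finrank_perp (LinearMap.ker (k - 1))
      have h12 : LinearMap.ker (k - 1) ≤ S.perp (LinearMap.ker (k - 1)) := fun x hx =>
        (S.mem_perp).2 fun y hy => by
          have := h9 y x
          rw [show k x = x from sub_eq_zero.1 hx, show k y = y from sub_eq_zero.1 hy] at this
          exact (mul_eq_zero.1 (by linear_combination this)).resolve_left h0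
      have := Submodule.finrank_mono h12
      simp only [finrank_fin_fun, Fintype.card_fin] at h10 h11
      omega
  · intro h1
    refine all_two h0 h.scal (by simp; omega) (by simpa using h1) (fun g a b h2 h3 => ?_)
      fun g z h2 h3 => ?_
    · rw [Fintype.card_fin] at h3
      obtain rfl : b = 2 * (m - a) := by omega
      have h4 := (eig_smul_one (V := Fin a ⊕ Fin a → F) (-1 : F)).prodMap
        (eig_smul_one (V := Fin (m - a) ⊕ Fin (m - a) → F) (1 : F))
      rw [finrank_sum_fun, finrank_sum_fun] at h4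
      refine (h.inG (symp_eqv n ((stdSymp_nondeg a).prod (stdSymp_nondeg (m - a))) hS
        (by simp; omega) (by simp)) ((LinearMap.isUnit_iff_isUnit_det _).2 (by rw [h4.det]; simp))
        one_ne_zero fun x y => by simp [prod_h]).sim (h2.sim h4)
    · have hz : z ≠ 0 := fun e => not_pow_of_irr le_rfl h2 0 (by simp [e])
      have h4 : mE (fromBlocks 0 (z • 1) 1 0 : Matrix (Fin m ⊕ Fin m) (Fin m ⊕ Fin m) F) ^ 2 = z • 1 := by
        rw [← mE_pow, ← mE_one, ← mE_smul, sq, fromBlocks_multiply, ← fromBlocks_one, fromBlocks_smul]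
        simp
      have h5 := sim_irr' two_ne_zero h2 h3 h4 (by simp [hm])
      refine (h.inG hE ((isUnit_pow_iff two_ne_zero).1 (by
        rw [h4, ← Algebra.algebraMap_eq_smul_one]; exact hz.isUnit.map _)) (neg_ne_zero.2 hz)
        fun x y => ?_).sim h5
      simp only [stdSymp_h, sympForm_eq, mE_apply, fromBlocks_mulVec, Sum.elim_inl, Sum.elim_inr,
        one_mulVec, zero_mulVec, zero_add, add_zero, smul_mulVec, Pi.smul_apply, smul_eq_mul,
        Function.comp, Finset.mul_sum]
      exact Finset.sum_congr rfl fun i _ => by ring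

end Cfsg.Agent.S5967
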