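import Cfsg.Statements.S5968
import Cfsg.Agent.H2.EluF

set_option autoImplicit false
open scoped MatrixGroups
open Cfsg

open H11 H11.PForm H20.El H2.Eu Module Matrix Cfsg.Geo

namespace Cfsg.Agent.S5968



/-- Derangements of odd prime order of PSL_n(q) on the cosets of a symplectic-type subgroup. Here `T = PSL_n(F)` for a field `F` with `q` elements, `n ≥ 4` even, `f` is a nondegenerate alternating form on `F^n`, and `H` is the subgroup of matrices of determinant 1 preserving `f` up to a scalar — a maximal subgroup of type Sp_n(q); Ω is the set of `T`-conjugates of `H` (cosets of `H`), so an element of `T` of prime order `r` (a matrix `x` of determinant 1 with `x^r` scalar, `x` not scalar) fixes a point of Ω when some conjugate of `x` by a matrix of determinant 1 preserves `f` up to a scalar. For every odd prime `r` dividing the index of `H`, with `(n, r) ≠ (6, 3)`, there is an element of `T` of order `r` with no conjugate in `H`. (For `n = 6`, `r = 3` this can fail: when `(q − 1)_3 = 3` every element of order 3 is conjugate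 into `H`.) -/
theorem result {F : Type*} [Field F] [Fintype F] {p : ℕ} [Fact p.Prime] [CharP F p] {q : ℕ} (hq : Fintype.card F = q)
    (n : ℕ) (hn : 4 ≤ n) (he : Even n) (f : (Fin n → F) → (Fin n → F) → F) (hf : Cfsg.Geo.IsSymplecticForm f)
    (r : ℕ) [Fact r.Prime] (hr2 : r ≠ 2) (hgap : ¬ (n = 6 ∧ r = 3)) (hΩ : r ∣ ((Cfsg.Geo.similarityGroup f).comap (Matrix.SpecialLinearGroup.toGL : Matrix.SpecialLinearGroup (Fin n) F →* GL (Fin n) F)).index) :
    ∃ x : Matrix.SpecialLinearGroup (Fin n) F,
      (∃ z : F, ((x ^ r : Matrix.SpecialLinearGroup (Fin n) F) : Matrix (Fin n) (Fin n) F) = z • (1 : Matrix (Fin n) (Fin n) F)) ∧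
      (∀ z : F, (x : Matrix (Fin n) (Fin n) F) ≠ z • (1 : Matrix (Fin n) (Fin n) F)) ∧
      ∀ P : Matrix.SpecialLinearGroup (Fin n) F, P⁻¹ * x * P ∉ ((Cfsg.Geo.similarityGroup f).comap (Matrix.SpecialLinearGroup.toGL : Matrix.SpecialLinearGroup (Fin n) F →* GL (Fin n) F)) := by
  have hr : r.Prime := Fact.out
  rw [← Nat.card_eq_fintype_card] at hq
  subst hq
  obtain ⟨S, hS, h⟩ := symp_model hf
  suffices h1 : ¬ All (similarityGroup f) r by
    rw [← all_sl] at h1
    push Not at h1
    exact h1
  have : Nonempty (Fin n) := ⟨⟨0, by omega⟩⟩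
  rw [index_comap_toGL] at hΩ
  by_cases hrp : r = p
  · subst hrp
    have h3 : 3 ≤ r := by have := hr.two_le; omega
    obtain ⟨x, h1, h2, h4, h5, h6⟩ := exists_unip (F := F) (V := Fin n → F) r
      (μ := 3 ::ₘ Multiset.replicate (n - 3) 1) (fun k hk => by
        rcases Multiset.mem_cons.1 hk with rfl | hk
        · omega
        · rw [Multiset.eq_of_mem_replicate hk]; omega) (by simp; omega) (Multiset.mem_cons_self _ _)
        (by norm_num)
    refine not_all h4 h5 h6 fun h7 => ?_
    obtain ⟨g, t, h8, -, h9, h10⟩ := h.exists_mult hS h7 (h5.trans (one_smul F _))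
    obtain rfl : t = 1 := frobenius_inj F r (by simpa [frobenius_def] using h9)
    have h11 := h8.unip h1
    rw [h8.JT_eq] at h2
    have h12 : (g - 1) ^ 3 = 0 := h11.pow_eq_zero_iff.2 (by
      simp +contextual [h2, Multiset.mem_replicate, or_imp])
    have h13 := h11.finrank_ker 2
    have h14 := ((g - 1) ^ 2).finrank_range_add_finrank_ker
    simp only [h2, Multiset.map_cons, Multiset.map_replicate, Multiset.sum_cons, Multiset.sum_replicate,
      smul_eq_mul, finrank_fin_fun, show min 2 1 = 1 from rfl, show min 2 3 = 2 from rfl] at h13 h14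
    have h15 : finrank F (LinearMap.range ((g - 1) ^ 2)) = 1 := by omega
    obtain ⟨N, rfl⟩ : ∃ N, g = N + 1 := ⟨g - 1, by simp⟩
    rw [add_sub_cancel_right] at h12 h15
    have h16 : ∀ u, N (N (N u)) = 0 := fun u => by simpa [pow_succ] using LinearMap.congr_fun h12 u
    have h17 : ∀ u v, S.h (N u) (N v) + S.h (N u) v + S.h u (N v) = 0 := fun u v => by
      have := h10 u v
      simp only [LinearMap.add_apply, End.one_apply, map_add] at this
      linear_combination this
    have h18 : ∀ u v, S.h (N (N u)) v = S.h u (N (N v)) := fun u v => by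
      have a1 := h17 (N u) v
      have a2 := h17 u (N v)
      have a3 := h17 (N (N u)) v
      have a4 := h17 u (N (N v))
      have a5 := h17 (N (N u)) (N v)
      have a6 := h17 (N u) (N (N v))
      have a7 := h17 (N u) (N v)
      simp only [h16, map_zero, LinearMap.zero_apply] at a3 a4 a5 a6
      linear_combination a1 - a2 - a3 + a4
    obtain ⟨⟨_, u, rfl⟩, hu, h19⟩ := finrank_eq_one_iff'.1 h15
    obtain ⟨v, hv⟩ := hS.exists_h_eq_one (x := (N ^ 2) u) fun e => hu (Subtype.ext e)
    obtain ⟨c, hc⟩ := h19 ⟨_, v, rfl⟩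
    have hc : c • N (N u) = N (N v) := congrArg Subtype.val hc
    have h20 : (2 : F) ≠ 0 := fun e => hr2 ((Nat.prime_dvd_prime_iff_eq hr Nat.prime_two).1
      ((CharP.cast_eq_zero_iff F r 2).1 e))
    have h21 := h18 u u
    rw [S.symp_symm] at h21
    have h22 : S.h u (N (N u)) = 0 := (mul_eq_zero.1 (by linear_combination -h21)).resolve_left h20
    have hv : S.h (N (N u)) v = 1 := hv
    rw [h18, ← hc, h_smul_right, h22, mul_zero] at hv
    exact zero_ne_one hv
  obtain ⟨m, hm⟩ := he
  obtain rfl : n = 2 * m := by omega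
  have h1 := h.idx
  rw [symp_card_Isom m hS (by simp), Fintype.card_fin, gO_two_mul] at h1
  obtain ⟨h2, h3⟩ := odd_ord hr Nat.card_pos
    (dvd_of_idx hr (prod_even_pos Finite.one_lt_card m) h1 hΩ (not_dvd_card p hr hrp))
  exact h.not_all_odd hS hr hr2 (natCast_ne_zero_of_prime p hr hrp) h2 (by rw [Fintype.card_fin]; omega)
    (by simp; omega) (by simpa using hgap) (by simp; omega)

end Cfsg.Agent.S5968
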