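import Cfsg.Statements.S5969
import Cfsg.Agent.H2.EluX

set_option autoImplicit false
open scoped MatrixGroups
open Cfsg

open H11 H20.El H2.Eu Module Matrix Cfsg.Geo

namespace Cfsg.Agent.S5969

theorem eig_two {F V : Type*} [Field F] [AddCommGroup V] [Module F V] [FiniteDimensional F V]
    (h0 : (2 : F) ≠ 0) {f : End F V} (h : f ^ 2 = 1) (h' : ∀ z : F, f ≠ z • 1) (hV : finrank F V = 2) :
    Eig f (Multiset.replicate 1 (-1) + Multiset.replicate 1 1) := by
  obtain ⟨a, b, h1, h2, -⟩ := eig_of_sq h0 h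
  have h3 : a ≠ 0 := fun e => h' 1 (by
    rw [← pow_one f, h1.pow_iff]; simp +contextual [e, Multiset.mem_replicate])
  have h4 : b ≠ 0 := fun e => h' (-1) (by
    rw [← pow_one f, h1.pow_iff]; simp +contextual [e, Multiset.mem_replicate])
  obtain rfl : a = 1 := by omega
  obtain rfl : b = 1 := by omega
  exact h1

theorem rank_one {F V : Type*} [Field F] [AddCommGroup V] [Module F V] [FiniteDimensional F V]
    {f : End F V} (h : (f - 1) ^ 2 = 0) (h' : f ≠ 1) (hV : finrank F V = 2) :
    finrank F (LinearMap.range (f - 1)) = 1 := by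
  have := (JT_of_sq h rfl).1
  have : finrank F (LinearMap.range (f - 1)) ≠ 0 := fun e => h' (sub_eq_zero.1
    (LinearMap.range_eq_bot.1 (Submodule.finrank_eq_zero.1 e)))
  omega

/-- Involutions of PSL_n(q) and extension-field subgroups of degree 2. Here `T = PSL_n(F)` for a field `F` with `q = p^f` elements (`n ≥ 2`, `(n, q) ≠ (2, 2), (2, 3)`), `k` is a prime dividing `n`, `K` is a subalgebra of the `n × n` matrices that is a field of degree `k` over `F` (an extension-field structure F_{q^k} on `F^n`), and `H` is the subgroup of matrices of determinant 1 normalizing `K` — a subgroup of type GL_{n/k}(q^k) (maximal except in some small cases; maximality is not assumed); Ω is the set of cosets of `H` in `T`, so an element of `T` of prime order `r` (a matrix `x` of determinant 1 with `x^r` scalar, `x` not scalar) fixes a point of Ω when some conjugate of `x` by a matrix of determinant 1 normalizes `K`. Take `k = 2` and suppose the index of `H` is even. Then every involution of `T` is conjugate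 in `T` into `H` if and only if `n = 2`, or `q` is odd and `(q − 1)_2 ≤ (n)_2`. -/
theorem result {F : Type*} [Field F] [Fintype F] {p : ℕ} [Fact p.Prime] [CharP F p] {q : ℕ} (hq : Fintype.card F = q)
    (n : ℕ) (hn : 2 ≤ n) (hT : (n, q) ≠ (2, 2) ∧ (n, q) ≠ (2, 3))
    (k : ℕ) (hk : k.Prime) (hkn : k ∣ n) (K : Subalgebra F (Matrix (Fin n) (Fin n) F)) (hK : Cfsg.Geo.IsFieldSubalgebra k K) (hk2 : k = 2) (hΩ : 2 ∣ ((Cfsg.Geo.subalgebraNormalizer K).comap (Matrix.SpecialLinearGroup.toGL : Matrix.SpecialLinearGroup (Fin n) F →* GL (Fin n) F)).index) :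
    (∀ x : Matrix.SpecialLinearGroup (Fin n) F,
      (∃ z : F, ((x ^ 2 : Matrix.SpecialLinearGroup (Fin n) F) : Matrix (Fin n) (Fin n) F) = z • (1 : Matrix (Fin n) (Fin n) F)) →
      (∀ z : F, (x : Matrix (Fin n) (Fin n) F) ≠ z • (1 : Matrix (Fin n) (Fin n) F)) →
      ∃ P : Matrix.SpecialLinearGroup (Fin n) F, P⁻¹ * x * P ∈ ((Cfsg.Geo.subalgebraNormalizer K).comap (Matrix.SpecialLinearGroup.toGL : Matrix.SpecialLinearGroup (Fin n) F →* GL (Fin n) F))) ↔
    (n = 2 ∨ (Odd q ∧ padicValNat 2 (q - 1) ≤ padicValNat 2 n)) := by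
  classical
  subst hk2
  rw [← Nat.card_eq_fintype_card] at hq
  subst hq
  have : Nonempty (Fin n) := ⟨⟨0, by omega⟩⟩
  obtain ⟨L, _, _, _, ρ, hL, rfl⟩ := ext_model hK
  have key : n ≠ 2 → ∀ g : End F (Fin n → F), finrank F (LinearMap.ker (g - 1)) = n - 1 →
      ¬ InG (subalgebraNormalizer ρ.range) g := fun h g h1 h4 => by
    have := ext_cases ρ h4 1
    rw [one_smul, h1, hL, Fintype.card_fin] at this
    omega
  rw [all_sl]
  by_cases h2 : n = 2
  · subst h2
    refine iff_of_true ?_ (.inl rfl)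
    obtain ⟨φ, h2, h3, h4⟩ := exists_frob_end ρ (by simpa using hL) (by simp)
    rw [Fintype.card_fin] at h2
    by_cases h0 : (2 : F) = 0
    · have := charP_two h0
      have h5 : (φ - 1) ^ 2 = 0 := (pow_char_pow_eq_one_iff 2 (j := 1)).1 h2
      exact all_two' h0 (scal_le_norm _) fun g _ h6 h7 => h4.sim (sim_of_sq h6 h5 (by simp [hL])
        (by rw [rank_one h6 h7 (by simp), rank_one h5 (ne_one_of h3) hL]))
    · exact all_of' hk h0 (scal_le_norm _) (fun g _ h5 h6 _ => h4.sim ((eig_two h0 h5 h6 (by simp)).sim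
        (eig_two h0 h2 h3 hL))) fun g z h5 h6 _ => inG_sqrt ρ h0 hL h5 h6
  simp only [h2, false_or, ← two_ne_zero_iff]
  by_cases h0 : (2 : F) = 0
  · refine iff_of_false ?_ fun e => e.1 h0
    have := charP_two h0
    obtain ⟨f, h3, h4, h5, -, h6, -⟩ := exists_tv (F := F) (V := Fin n → F) 2 (by simpa using hn)
    exact not_all h3 h4 h5 (key h2 f (by simpa using h6))
  rw [and_iff_right h0]
  constructor
  · intro h1
    by_contra! h3
    exact not_all_neg h0 (scal_le_norm _) (by simpa using hn) (by simpa using h3)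
      (fun g _ _ h4 => key h2 g (by simpa using h4)) h1
  · intro h1
    refine all_two h0 (scal_le_norm _) (by simp; omega) (by simpa using h1) (fun g a b h3 h4 => ?_)
      fun g z h3 h4 => inG_sqrt ρ h0 hL h3 h4
    obtain ⟨b, rfl⟩ : 2 ∣ b := by rw [Fintype.card_fin] at h4; omega
    exact inG_neg ρ hL h3 h4

end Cfsg.Agent.S5969
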