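import Cfsg.Statements.S5970
import Cfsg.Agent.H2.EluX

set_option autoImplicit false
open scoped MatrixGroups
open Cfsg

open H11 H20.El H2.Eu Module Matrix Cfsg.Geo

namespace Cfsg.Agent.S5970



/-- Elements of order `n` of PSL_n(q), `n` prime, and the normalizer of a Singer cycle. Here `T = PSL_n(F)` for a field `F` with `q = p^f` elements (`n ≥ 2`, `(n, q) ≠ (2, 2), (2, 3)`), `k` is a prime dividing `n`, `K` is a subalgebra of the `n × n` matrices that is a field of degree `k` over `F` (an extension-field structure F_{q^k} on `F^n`), and `H` is the subgroup of matrices of determinant 1 normalizing `K` — a subgroup of type GL_{n/k}(q^k) (maximal except in some small cases; maximality is not assumed); Ω is the set of cosets of `H` in `T`, so an element of `T` of prime order `r` (a matrix `x` of determinant 1 with `x^r` scalar, `x` not scalar) fixes a point of Ω when some conjugate of `x` by a matrix of determinant 1 normalizes `K`. Take `k = n > 3` prime with `n ≠ p` (so `H` is the normalizer of a Singer cycle), and suppose `n`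 divides the index of `H`. Then every element of `T` of order `n` is conjugate in `T` into `H` if and only if the multiplicative order of `q` modulo `n` is `n − 1`. -/
theorem result {F : Type*} [Field F] [Fintype F] {p : ℕ} [Fact p.Prime] [CharP F p] {q : ℕ} (hq : Fintype.card F = q)
    (n : ℕ) (hn : 2 ≤ n) (hT : (n, q) ≠ (2, 2) ∧ (n, q) ≠ (2, 3))
    (k : ℕ) (hk : k.Prime) (hkn : k ∣ n) (K : Subalgebra F (Matrix (Fin n) (Fin n) F)) (hK : Cfsg.Geo.IsFieldSubalgebra k K) (hkn' : k = n) (hn3 : 3 < n) (hnp : n ≠ p) (hΩ : n ∣ ((Cfsg.Geo.subalgebraNormalizer K).comap (Matrix.SpecialLinearGroup.toGL : Matrix.SpecialLinearGroup (Fin n) F →* GL (Fin n) F)).index) :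
    (∀ x : Matrix.SpecialLinearGroup (Fin n) F,
      (∃ z : F, ((x ^ n : Matrix.SpecialLinearGroup (Fin n) F) : Matrix (Fin n) (Fin n) F) = z • (1 : Matrix (Fin n) (Fin n) F)) →
      (∀ z : F, (x : Matrix (Fin n) (Fin n) F) ≠ z • (1 : Matrix (Fin n) (Fin n) F)) →
      ∃ P : Matrix.SpecialLinearGroup (Fin n) F, P⁻¹ * x * P ∈ ((Cfsg.Geo.subalgebraNormalizer K).comap (Matrix.SpecialLinearGroup.toGL : Matrix.SpecialLinearGroup (Fin n) F →* GL (Fin n) F))) ↔
    orderOf (q : ZMod n) = n - 1 := by
  classical
  subst hkn'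
  rw [← Nat.card_eq_fintype_card] at hq
  subst hq
  have := Fact.mk hk
  have : Nonempty (Fin k) := ⟨⟨0, by omega⟩⟩
  obtain ⟨L, _, _, _, ρ, hL, rfl⟩ := ext_model hK
  have h0 : (k : F) ≠ 0 := natCast_ne_zero_of_prime p hk hnp
  have h5 : 5 ≤ k := by
    by_contra e
    obtain rfl : k = 4 := by omega
    norm_num at hk
  have key : ∀ g : End F (Fin k → F), ∀ e, finrank F (LinearMap.ker (g - 1)) = e → e < k → k < 2 * e →
      ¬ InG (subalgebraNormalizer ρ.range) g := fun g e h1 h2 h3 h4 => by
    have := ext_cases ρ h4 1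
    rw [one_smul, h1, hL, Fintype.card_fin] at this
    exact this.elim (fun h => by have := Nat.le_of_dvd (by omega) h; omega) (by omega)
  rw [all_sl]
  constructor
  · intro h1
    by_contra h2
    revert h1
    have h3 := (PhiF_spec hk h0).2
    have h4 := orderOf_card_ne_zero hk h0
    have h6 : 2 * orderOf (Nat.card F : ZMod k) ≤ k - 1 := by
      rw [← h3]
      refine Nat.mul_le_mul_right _ ?_
      by_contra e
      obtain e | e : (PhiF F k).card = 0 ∨ (PhiF F k).card = 1 := by omega
      all_goals rw [e] at h3; omega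
    by_cases e : orderOf (Nat.card F : ZMod k) = 1
    · obtain ⟨ω, hω⟩ := exists_prim (F := F) ((orderOf_eq_one_iff Nat.card_pos).1 e)
      have h1 := hω.ne_one hk.one_lt
      have h2 := hω.ne_zero hk.ne_zero
      obtain ⟨f, hf⟩ := exists_eig (V := Fin k → F) (s := Multiset.replicate (k - 2) 1 + {ω, ω⁻¹})
        (by simp; omega)
      refine not_all (z := 1) (by simp [hf.det, h2]) (hf.pow_iff.2 ?_) (hf.ne (a := ω) (b := 1)
        (by simp) (by simp [Multiset.mem_replicate]; omega) h1) (key f (k - 2) ?_ (by omega) (by omega))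
      · simp +contextual [Multiset.mem_replicate, or_imp, hω.pow_eq_one]
      · rw [← one_smul F (1 : End F _), hf.finrank_ker, Multiset.count_add, Multiset.count_replicate_self,
          Multiset.count_eq_zero_of_notMem (by simp [h1, h1.symm, eq_comm]), add_zero]
    · obtain ⟨Q, hQ⟩ := exists_mem_PhiF hk h0
      obtain ⟨f, h7, h8, h9, -, h10⟩ := exists_one (ι := Fin k) hk h0 (by omega)
        (by rw [Fintype.card_fin]; omega) hQ
      rw [Fintype.card_fin] at h10
      exact not_all h7 (h8.trans (one_smul F _).symm) h9 (key f _ rfl (by omega) (by omega))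
  · intro h1
    obtain ⟨φ, h2, h3, h4⟩ := exists_frob_end ρ (by simpa using hL) (by simp; omega)
    rw [Fintype.card_fin] at h2
    refine all_of' hk h0 (scal_le_norm _) (fun g _ h6 h7 _ => h4.sim (sim_of_full hk (by omega) h0 h1
      (by simp) hL h6 h2 (ne_one_of h7) (ne_one_of h3))) fun g z h6 h7 h8 => ?_
    have := (bad_of h6 h7 h8 finrank_pos).1
    omega

end Cfsg.Agent.S5970
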