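import Cfsg.Statements.S5971
import Cfsg.Agent.H2.EluX

set_option autoImplicit false
open scoped MatrixGroups
open Cfsg

open H11 H20.El H2.Eu Module Matrix Cfsg.Geo

namespace Cfsg.Agent.S5971

theorem eq_roots {F : Type*} [Field F] {ω : F} (hω : IsPrimitiveRoot ω 3) {s : Multiset F}
    (h1 : s.card = 3) (h2 : ∀ a ∈ s, a ^ 3 = 1) (h3 : s.Nodup) : s = Polynomial.nthRoots 3 1 :=
  Multiset.eq_of_le_of_card_le ((Multiset.le_iff_subset h3).2 fun a ha =>
    (Polynomial.mem_nthRoots (by norm_num)).2 (h2 a ha)) (by rw [h1, hω.card_nthRoots_one])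

/-- Elements of order 3 of PSL_3(q) and the normalizer of a Singer cycle. Here `T = PSL_n(F)` for a field `F` with `q = p^f` elements (`n ≥ 2`, `(n, q) ≠ (2, 2), (2, 3)`), `k` is a prime dividing `n`, `K` is a subalgebra of the `n × n` matrices that is a field of degree `k` over `F` (an extension-field structure F_{q^k} on `F^n`), and `H` is the subgroup of matrices of determinant 1 normalizing `K` — a subgroup of type GL_{n/k}(q^k) (maximal except in some small cases; maximality is not assumed); Ω is the set of cosets of `H` in `T`, so an element of `T` of prime order `r` (a matrix `x` of determinant 1 with `x^r` scalar, `x` not scalar) fixes a point of Ω when some conjugate of `x` by a matrix of determinant 1 normalizes `K`. Take `n = k = 3` and suppose 3 divides the index of `H`. Then every element of `T` of order 3 is conjugate in `T` into `H` if and only if `q ≡ 4, 7` or `8 (mod 9)`. -/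
theorem result {F : Type*} [Field F] [Fintype F] {p : ℕ} [Fact p.Prime] [CharP F p] {q : ℕ} (hq : Fintype.card F = q)
    (n : ℕ) (hn : n = 3) (k : ℕ) (hk : k.Prime) (hkn : k ∣ n) (K : Subalgebra F (Matrix (Fin n) (Fin n) F)) (hK : Cfsg.Geo.IsFieldSubalgebra k K) (hk3 : k = 3) (hΩ : 3 ∣ ((Cfsg.Geo.subalgebraNormalizer K).comap (Matrix.SpecialLinearGroup.toGL : Matrix.SpecialLinearGroup (Fin n) F →* GL (Fin n) F)).index) :
    (∀ x : Matrix.SpecialLinearGroup (Fin n) F,
      (∃ z : F, ((x ^ 3 : Matrix.SpecialLinearGroup (Fin n) F) : Matrix (Fin n) (Fin n) F) = z • (1 : Matrix (Fin n) (Fin n) F)) →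
      (∀ z : F, (x : Matrix (Fin n) (Fin n) F) ≠ z • (1 : Matrix (Fin n) (Fin n) F)) →
      ∃ P : Matrix.SpecialLinearGroup (Fin n) F, P⁻¹ * x * P ∈ ((Cfsg.Geo.subalgebraNormalizer K).comap (Matrix.SpecialLinearGroup.toGL : Matrix.SpecialLinearGroup (Fin n) F →* GL (Fin n) F))) ↔
    (q % 9 = 4 ∨ q % 9 = 7 ∨ q % 9 = 8) := by
  classical
  subst hn hk3
  rw [← Nat.card_eq_fintype_card] at hq
  obtain ⟨L, _, _, _, ρ, hL, rfl⟩ := ext_model hK
  have key : ∀ (g : End F (Fin 3 → F)), finrank F (LinearMap.ker (g - 1)) = 2 →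
      ¬ InG (subalgebraNormalizer ρ.range) g := fun g h1 h4 => by
    have := ext_cases ρ h4 1
    rw [one_smul, h1, hL, Fintype.card_fin] at this
    omega
  rw [all_sl]
  by_cases h3 : p = 3
  · subst h3
    have := (dvd_card_iff (F := F) 3 hk).2 rfl
    refine iff_of_false ?_ (by omega)
    obtain ⟨f, h3, h4, h5, -, h6, -⟩ := exists_tv (F := F) (V := Fin 3 → F) 3 (by simp)
    exact not_all h3 h4 h5 (key f (by simpa using h6))
  have h0 : ((3 : ℕ) : F) ≠ 0 := natCast_ne_zero_of_prime p hk (Ne.symm h3)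
  have h1 := not_dvd_card (F := F) p hk (Ne.symm h3)
  have hq1 := Finite.one_lt_card (α := F)
  obtain ⟨φ, h4, h5, h6⟩ := exists_frob_end ρ (by simpa using hL) (by simp)
  rw [Fintype.card_fin] at h4
  by_cases e : 3 ∣ Nat.card F - 1
  · obtain ⟨ω, hω⟩ := exists_prim e
    have h7 : Nat.card F - 1 ≠ 0 := by omega
    by_cases e' : 3 ^ 2 ∣ Nat.card F - 1
    · refine iff_of_false ?_ (by omega)
      obtain ⟨c, hc⟩ := exists_root (F := F) hk (n := 3) (by norm_num) (by
        rw [padicValNat_self]; exact (padicValNat_dvd_iff_le h7).1 e')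
      have h2 : c ≠ 0 := fun h => hc.ne_zero (by norm_num) (by simp [h])
      have h3 := hc.ne_one (by norm_num)
      obtain ⟨f, hf⟩ := exists_eig (V := Fin 3 → F) (s := {1, 1, c ^ 3}) (by simp)
      have h4 : f ^ 3 = 1 := hf.pow_one_iff.2 (by simp [hc.pow_eq_one])
      refine not_all (f := c⁻¹ • f) (z := c⁻¹ ^ 3) (by simp [LinearMap.det_smul, hf.det, h2])
        (by rw [_root_.smul_pow, h4]) (fun z hz => hf.ne (a := 1) (b := c ^ 3)
          (by simp) (by simp) h3.symm (c * z) (by
            rw [← smul_smul, ← hz, smul_smul, mul_inv_cancel₀ h2, one_smul])) fun h5 => key f ?_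
        (h5.of_smul (scal_le_norm _) (inv_ne_zero h2))
      rw [← one_smul F (1 : End F _), hf.finrank_ker]; simp [h3.symm]
    refine iff_of_true (all35 (.inl rfl) (by simp) (le_antisymm (by
      by_contra! h; exact e' ((padicValNat_dvd_iff_le h7).2 h)) (one_le_padicValNat_of_dvd h7 e))
      (scal_le_norm _) fun f s h8 h9 h10 => ?_) (by omega)
    obtain ⟨t, ht⟩ := exists_eig_of_pow (by norm_num) hω h4
    have h11 := eq_roots hω (ht.card.trans hL) (ht.pow_one_iff.1 h4) (Multiset.nodup_iff_count_le_one.2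
      fun a => by
        have h11 := ext_cases ρ h6 a
        have h12 := Multiset.count_le_card a t
        have h13 : t.count a ≠ t.card := fun e => h5 a (by
          rw [← pow_one φ, ht.pow_iff]
          exact fun b hb => by rw [pow_one, Multiset.count_eq_card.1 e b hb])
        rw [ht.finrank_ker, hL, Fintype.card_fin] at h11
        rw [ht.card, hL] at h12 h13
        omega)
    have h12 := h8.pow_one_iff.1 h9
    by_cases e : s.Nodup
    · rw [eq_roots hω (by simp [h8.card]) h12 e, ← h11] at h8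
      exact h6.sim (h8.sim ht)
    obtain ⟨a, ha⟩ : ∃ a, a ::ₘ a ::ₘ 0 ≤ s := by simpa [Multiset.nodup_iff_le] using e
    obtain ⟨u, rfl⟩ := Multiset.le_iff_exists_add.1 ha
    obtain ⟨b, rfl⟩ := Multiset.card_eq_one.1 (show u.card = 1 by simpa using h8.card)
    have h13 := congrArg Multiset.prod h10
    rw [Multiset.prod_map_inv'] at h13
    have ha := h12 a (by simp)
    have hb := h12 b (by simp)
    have h14 : a ≠ 0 := fun e => by simp [e] at ha
    have h15 : b ≠ 0 := fun e => by simp [e] at hb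
    obtain rfl : b = a := by
      simp only [Multiset.prod_add, Multiset.prod_cons, Multiset.prod_zero,
        Multiset.prod_singleton] at h13
      field_simp at h13
      linear_combination b * h13 + a ^ 4 * hb + a * ha
    refine (InG.smul (scal_le_norm _) (f := (1 : End F (Fin 3 → F))) ⟨1, one_mem _, ?_⟩ h14).sim ?_
    · exact mE_one (F := F) (ι := Fin 3) ▸ Sim.refl _
    · exact h8.sim (by simpa using eig_smul_one (V := Fin 3 → F) b)
  have h7 : Nat.card F % 3 = 2 := by omega
  have h8 : orderOf (Nat.card F : ZMod 3) = 3 - 1 := by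
    rw [← ZMod.natCast_mod, h7]; exact orderOf_eq_prime (p := 2) (by decide) (by decide)
  refine iff_of_true (all_of' hk h0 (scal_le_norm _) (fun g _ h9 h10 _ => h6.sim (sim_of_full hk
    (by norm_num) h0 h8 (by simp) hL h9 h4 (ne_one_of h10) (ne_one_of h5))) fun g z h9 h10 h11 => by
      have := (bad_of h9 h10 h11 finrank_pos).1
      omega) ?_
  obtain ⟨y, h9, h10⟩ := h6
  have h11 : orderOf y = 3 := by
    rw [← orderOf_mE_gl]
    refine orderOf_eq_prime ?_ fun e => ne_one_of h5 ?_
    · have := ((h10.pow 3).sub_one_pow 1).eq_zero_iff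
      rwa [h4, pow_one, pow_one, sub_self, eq_self, true_iff, sub_eq_zero] at this
    · have := (h10.sub_one_pow 1).eq_zero_iff
      rwa [e, pow_one, pow_one, sub_self, eq_self, iff_true, sub_eq_zero] at this
  have h12 := idx_dvd (Subgroup.zpowers y).subtype Subtype.val_injective fun k =>
    (Subgroup.zpowers_le.2 h9) k.2
  rw [Nat.card_zpowers, h11, ← index_comap_toGL, hq] at h12
  have h13 := (ZMod.natCast_eq_zero_iff _ 9).2 ((Nat.mul_dvd_mul_right hΩ 3).trans h12)
  rw [hq] at h7 hq1
  have h14 : ∀ j, ((q ^ (j + 1) - 1 : ℕ) : ZMod 9) = ((q % 9 : ℕ) : ZMod 9) ^ (j + 1) - 1 := fun j => by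
    rw [Nat.cast_sub (Nat.one_le_pow _ _ (by omega)), ZMod.natCast_mod]; simp
  simp only [gO, Fintype.card_fin, Finset.prod_range_succ, Nat.cast_mul, h14, Nat.cast_pow,
    Finset.range_zero, Finset.prod_empty, Nat.cast_one] at h13
  rw [← ZMod.natCast_mod q] at h13
  by_contra h15
  obtain e | e : q % 9 = 2 ∨ q % 9 = 5 := by omega
  all_goals rw [e] at h13; revert h13; decide

end Cfsg.Agent.S5971
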