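import Cfsg.Statements.S5973
import Cfsg.Agent.H21.Eo6

set_option autoImplicit false
open scoped MatrixGroups
open Cfsg

namespace Cfsg.Agent.S5973

open H11 H11.PForm H21.Eo

/-- Elements of prime order of PΩ⁺_n(q), n = 2d ≥ 8, with no fixed totally singular `m`-space, `m < n/2`. Here `T = PΩ⁺_n(q)` is realised through `Ω⁺_n(q)`, the commutator subgroup of the isometry group of the quadratic form `Σ xᵢyᵢ` over the field `F` with `q` elements; an element of `T` of prime order `r` is an element `x` of `Ω⁺_n(q)` with `x^r` scalar and `x` not scalar. Let `1 ≤ m < d` and let `r` be a prime dividing the number of totally singular `m`-spaces. For `r ≠ p` let `i` be the multiplicative order of `q` modulo `r`, `c = i` for `i` even and `c = 2i` for `i` odd, and write `k = n mod c`, `ℓ = m mod i`, `n' = ⌊n/i⌋`, `m' = ⌊m/i⌋`, `t = (r−1)/i`. Then every element of `T` of order `r` fixes some totally singular `m`-space if and only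 if one of: (i) `r = 2 ≠ p` and either `q ≡ 1 (mod 4)`, or `q ≡ 3 (mod 4)`, `m ≤ n/2 − 2` and (`m` even or `n ≡ 2 (mod 4)`); (ii) `r ≠ p` odd, `i` odd, `i ≤ m` and `k ≥ 2ℓ`; (iii) `r ≠ p` odd, `i` even, `i ≤ m`, `n' − 2m' ≥ t`, and one of: `i ≥ 2ℓ`, `k = 0`, `n/i` odd and `n' − 2m' > t`; or `k ≥ 2ℓ` and `n'` even; or `k > 2ℓ` and `n'` odd. -/
theorem result {F : Type*} [Field F] [Fintype F] {p : ℕ} [Fact p.Prime] [CharP F p] {q : ℕ} (hq : Fintype.card F = q)
    (d m : ℕ) (hd : 4 ≤ d) (hm : 1 ≤ m) (hmd : m < d)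
    (r : ℕ) [Fact r.Prime]
    (hrΩ : r ∣ Nat.card {W : Submodule F (Fin d ⊕ Fin d → F) // Module.finrank F ↥W = m ∧ (∀ w ∈ W, Cfsg.quadFormPlus d F w = 0)})
    (i c : ℕ) (hi : i = orderOf (q : ZMod r)) (hc : c = if Even i then i else 2 * i) :
    (∀ x : GL (Fin d ⊕ Fin d) F, x ∈ Cfsg.Geo.omegaGL (Cfsg.quadFormPlus d F) →
      (∃ z : F, ((x ^ r : GL (Fin d ⊕ Fin d) F) : Matrix (Fin d ⊕ Fin d) (Fin d ⊕ Fin d) F) = z • (1 : Matrix (Fin d ⊕ Fin d) (Fin d ⊕ Fin d) F)) →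
      (∀ z : F, (x : Matrix (Fin d ⊕ Fin d) (Fin d ⊕ Fin d) F) ≠ z • (1 : Matrix (Fin d ⊕ Fin d) (Fin d ⊕ Fin d) F)) →
      ∃ W : Submodule F (Fin d ⊕ Fin d → F), Module.finrank F ↥W = m ∧ (∀ w ∈ W, Cfsg.quadFormPlus d F w = 0) ∧
        W.map (Matrix.toLin' (x : Matrix (Fin d ⊕ Fin d) (Fin d ⊕ Fin d) F)) ≤ W) ↔
    ((r = 2 ∧ p ≠ 2 ∧ (q % 4 = 1 ∨ (q % 4 = 3 ∧ m + 2 ≤ d ∧ (Even m ∨ (2 * d) % 4 = 2)))) ∨
     (r ≠ p ∧ 2 < r ∧ Odd i ∧ i ≤ m ∧ 2 * (m % i) ≤ (2 * d) % c) ∨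
     (r ≠ p ∧ 2 < r ∧ Even i ∧ i ≤ m ∧ (r - 1) / i + 2 * (m / i) ≤ (2 * d) / i ∧
       ((2 * (m % i) ≤ i ∧ (2 * d) % c = 0 ∧ Odd ((2 * d) / i) ∧ (r - 1) / i + 2 * (m / i) < (2 * d) / i) ∨
        (2 * (m % i) ≤ (2 * d) % c ∧ Even ((2 * d) / i)) ∨
        (2 * (m % i) < (2 * d) % c ∧ Odd ((2 * d) / i))))) := by
  have hr : r.Prime := Fact.out
  have hS := sPlus_nondeg d F
  have hn : Module.finrank F (Fin d ⊕ Fin d → F) = 2 * d := by simp [two_mul]
  have e1 : Pl (sPlus d F) := (pl_iff hn).2 (sPlus_hasTS d F)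
  have : Nonempty (Fin d ⊕ Fin d) := ⟨.inl ⟨0, by omega⟩⟩
  have h3 : ∀ U, (∀ w ∈ U, qPlus d F w = 0) ↔ (orthS (qPlus d F)).TS U := fun U => (orth_ts_iff (S := orthS (qPlus d F))).symm
  simp only [← qPlus_coe, h3, ← and_assoc (a := Module.finrank F _ = m)] at hrΩ ⊢
  rw [bridge (qPlus d F) hS]
  have hrp := ts_ne hq p hS (by omega) hrΩ
  by_cases hr2 : r = 2
  · subst hr2
    have h0 := (odd_q hq p).2 hrp.symm
    rw [ts_two' hq hS (Nat.odd_iff.2 h0) hn (by omega) (by omega)]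
    simp only [e1, hrp.symm, lt_irrefl, implies_true, Nat.even_iff (n := d), Nat.even_iff (n := m), true_or, or_true, false_or, or_false, true_and, and_true, false_and, and_false, true_iff, iff_true, false_iff,
      iff_false, not_true, not_false_iff, ne_eq, forall_const, IsEmpty.forall_iff, Nat.even_iff (n := _ / _), Nat.odd_iff (n := _ / _)]
    omega
  obtain ⟨M, A, h4, h5, h7, h8, h9, h11, h10, ⟨h12, h13, rfl⟩ | ⟨h12, h13, rfl⟩⟩ :=
    ts_num hq p hr hr2 hrp hi hc hS hn (by omega) (by omega) hrΩ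
  · have h14 := (dv_two (m := m) h10).2
    simp only [h4, Sp, Dv, e1, h12, h13, hr2, hrp, h7, h14.2.1, h14.2.2, true_or, or_true, false_or, or_false, true_and, and_true, false_and, and_false, true_iff, iff_true, false_iff,
      iff_false, not_true, not_false_iff, ne_eq, forall_const, IsEmpty.forall_iff, Nat.even_iff (n := _ / _), Nat.odd_iff (n := _ / _)]
      at h8 h9 h11 ⊢
    replace h14 := h14.1
    generalize (2 * d + 2 * m - 2 * ((2 * d) % (2 * i))) / (2 * i) = z at h11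
    generalize (2 * d - 2 * m) / (2 * i) = a', (2 * d - 2 * m) % (2 * i) = k', (2 * d) / (2 * i) = a₀, (2 * d) % (2 * i) = k,
      m / i = b₀, m % i = l at h8 h9 h11 h14 ⊢
    clear hc hi h4 hrΩ
    omega
  · obtain ⟨h14, h15, -⟩ := dv_two (m := m) h10
    simp only [h4, Sp, Dv, e1, h12, h13, hr2, hrp, h7, true_or, or_true, false_or, or_false, true_and, and_true, false_and, and_false, true_iff, iff_true, false_iff,
      iff_false, not_true, not_false_iff, ne_eq, forall_const, IsEmpty.forall_iff, Nat.even_iff (n := _ / _), Nat.odd_iff (n := _ / _)]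
      at h8 h9 h11 ⊢
    replace h11 := And.intro h11.1 (And.intro h11.2.1 (And.intro h11.2.2.2.1
      (And.intro h11.2.2.2.2.1 h11.2.2.2.2.2.1)))
    generalize (2 * d - 2 * m) / c = a', (2 * d - 2 * m) % c = k', (2 * d) / c = a₀, (2 * d) % c = k, 2 * m / c = b',
      2 * m % c = l', m / c = b₀, m % c = l, (r - 1) / c = t at h8 h9 h11 h14 h15 ⊢
    clear hc hi h4 hrΩ
    omega

end Cfsg.Agent.S5973
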