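import Cfsg.Statements.S5974
import Cfsg.Agent.H21.Eo6

set_option autoImplicit false
open scoped MatrixGroups
open Cfsg

namespace Cfsg.Agent.S5974

open H11 H11.PForm H21.Eo

/-- Elements of prime order of PΩ⁺_n(q), n = 2d ≥ 8, with no fixed nondegenerate hyperbolic `m`-space. Here `T = PΩ⁺_n(q)` is realised through `Ω⁺_n(q)`, the commutator subgroup of the isometry group of `Q = Σ xᵢyᵢ` over the field `F` with `q` elements; an element of `T` of prime order `r` is an element `x` of `Ω⁺_n(q)` with `x^r` scalar and `x` not scalar. A hyperbolic `m`-space is a subspace `W` of even dimension `m` on which the polar form of `Q` is nondegenerate and which contains a totally singular subspace of dimension `m/2`. Let `m` be even with `2 ≤ m < n/2`, and let `r` be a prime dividing the number of hyperbolic `m`-spaces, with `r = 2` or `r ≠ p`. For `r ≠ p` let `i` be the multiplicative order of `q` modulo `r`, `c = i` for `i` even and `c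 = 2i` for `i` odd, and write `k = n mod c`, `ℓ' = m mod c`. Then every element of `T` of order `r` fixes some hyperbolic `m`-space if and only if one of: (i) `r = 2` and (`n ≡ 2 (mod 4)`, or `m ≡ 0 (mod 4)`, or `q ≡ 1 (mod 4)`); (ii) `r ≠ p` odd, `i` odd, `c ≤ m` and `k ≥ ℓ'`; (iii) `r ≠ p` odd, `i` even, and either `k = 0` and (`n/i` odd, or `ℓ' = 0` and `m/i` even), or `i ≤ m` and (`k > ℓ' > 0`, or `k = ℓ' > 0` and `(n + m − 2k)/i` even, or `k > ℓ' = 0` and `m/i` even). -/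
theorem result {F : Type*} [Field F] [Fintype F] {p : ℕ} [Fact p.Prime] [CharP F p] {q : ℕ} (hq : Fintype.card F = q)
    (d m : ℕ) (hd : 4 ≤ d) (hm : 2 ≤ m) (hme : Even m) (hmd : m < d)
    (r : ℕ) [Fact r.Prime] (hr : r = 2 ∨ r ≠ p)
    (hrΩ : r ∣ Nat.card {W : Submodule F (Fin d ⊕ Fin d → F) // (Module.finrank F ↥W = m ∧ (∀ u ∈ W, u ≠ 0 → ∃ v ∈ W, QuadraticMap.polar (Cfsg.quadFormPlus d F) u v ≠ 0) ∧
          ∃ U : Submodule F (Fin d ⊕ Fin d → F), U ≤ W ∧ 2 * Module.finrank F ↥U = m ∧ ∀ u ∈ U, Cfsg.quadFormPlus d F u = 0)})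
    (i c : ℕ) (hi : i = orderOf (q : ZMod r)) (hc : c = if Even i then i else 2 * i) :
    (∀ x : GL (Fin d ⊕ Fin d) F, x ∈ Cfsg.Geo.omegaGL (Cfsg.quadFormPlus d F) →
      (∃ z : F, ((x ^ r : GL (Fin d ⊕ Fin d) F) : Matrix (Fin d ⊕ Fin d) (Fin d ⊕ Fin d) F) = z • (1 : Matrix (Fin d ⊕ Fin d) (Fin d ⊕ Fin d) F)) →
      (∀ z : F, (x : Matrix (Fin d ⊕ Fin d) (Fin d ⊕ Fin d) F) ≠ z • (1 : Matrix (Fin d ⊕ Fin d) (Fin d ⊕ Fin d) F)) →
      ∃ W : Submodule F (Fin d ⊕ Fin d → F), (Module.finrank F ↥W = m ∧ (∀ u ∈ W, u ≠ 0 → ∃ v ∈ W, QuadraticMap.polar (Cfsg.quadFormPlus d F) u v ≠ 0) ∧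
          ∃ U : Submodule F (Fin d ⊕ Fin d → F), U ≤ W ∧ 2 * Module.finrank F ↥U = m ∧ ∀ u ∈ U, Cfsg.quadFormPlus d F u = 0) ∧
        W.map (Matrix.toLin' (x : Matrix (Fin d ⊕ Fin d) (Fin d ⊕ Fin d) F)) ≤ W) ↔
    ((r = 2 ∧ ((2 * d) % 4 = 2 ∨ m % 4 = 0 ∨ q % 4 = 1)) ∨
     (r ≠ p ∧ 2 < r ∧ Odd i ∧ c ≤ m ∧ m % c ≤ (2 * d) % c) ∨
     (r ≠ p ∧ 2 < r ∧ Even i ∧
       (((2 * d) % c = 0 ∧ (Odd ((2 * d) / i) ∨ (m % c = 0 ∧ Even (m / i)))) ∨
        (i ≤ m ∧ ((m % c < (2 * d) % c ∧ 0 < m % c) ∨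
                  ((2 * d) % c = m % c ∧ 0 < m % c ∧ Even ((2 * d + m - 2 * ((2 * d) % c)) / i)) ∨
                  (0 < (2 * d) % c ∧ m % c = 0 ∧ Even (m / i))))))) := by
  have hr' := hr
  replace hr : r.Prime := Fact.out
  have hS := sPlus_nondeg d F
  have hn : Module.finrank F (Fin d ⊕ Fin d → F) = 2 * d := by simp [two_mul]
  have e1 : Pl (sPlus d F) := (pl_iff hn).2 (sPlus_hasTS d F)
  have : Nonempty (Fin d ⊕ Fin d) := ⟨.inl ⟨0, by omega⟩⟩
  obtain ⟨W₀, hW, h1, h2, h3⟩ := exists_W (qPlus d F) hS hme (by omega) (by omega) True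
  simp only [iff_true] at h2 h3
  have h3' : ∀ U : Submodule F (Fin d ⊕ Fin d → F), (Module.finrank F U = m ∧
      (∀ u ∈ U, u ≠ 0 → ∃ v ∈ U, QuadraticMap.polar (qPlus d F) u v ≠ 0) ∧ ∃ A : Submodule F (Fin d ⊕ Fin d → F),
      A ≤ U ∧ 2 * Module.finrank F A = m ∧ ∀ u ∈ A, qPlus d F u = 0) ↔ _ := fun U => Iff.trans (and_congr_right fun h => by
    rw [nd_iff, nd_iff', ← h]
    exact and_congr_right fun _ => exists_congr fun A => and_congr_right fun _ => and_comm) (h3 U)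
  simp only [← qPlus_coe, h3'] at hrΩ ⊢
  rw [bridge (qPlus d F) hS]
  have e2 := ((pl_perp hS hW ⟨d, by omega⟩ (h1 ▸ hme)).1 e1).1 h2
  rw [Nat.even_iff] at hme
  by_cases hr2 : r = 2
  · subst hr2
    have h0 := odd_q hq p
    by_cases hp : p = 2
    · subst hp
      obtain ⟨M, A, B, h4, h8, h9, h10⟩ := nd_num_two hS hn (by omega) hW h1 (by omega) (by omega)
      simp only [h4, Sp, h2, e1, e2, lt_irrefl, true_or, or_true, false_or, or_false, true_and, and_true, false_and, and_false, true_iff, iff_true, false_iff,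
      iff_false, not_true, not_false_iff, ne_eq, forall_const, IsEmpty.forall_iff, Nat.even_iff (n := _ / _), Nat.odd_iff (n := _ / _)] at h0 h8 h9 h10 ⊢
      omega
    · rw [nd_two' hq hS (Nat.odd_iff.2 (h0.2 hp)) hn hW h1 (by omega) (by omega)]
      simp only [h2, e1, hp, lt_irrefl, true_or, or_true, false_or, or_false, true_and, and_true, false_and, and_false, true_iff, iff_true, false_iff,
      iff_false, not_true, not_false_iff, ne_eq, forall_const, IsEmpty.forall_iff, Nat.even_iff (n := _ / _), Nat.odd_iff (n := _ / _)] at h0 ⊢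
      omega
  have hrp := hr'.resolve_left hr2
  obtain ⟨M, A, B, h4, h5, h6, h7, h8, h9, h10, h11, ⟨h12, h13⟩ | ⟨h12, h13, rfl⟩⟩ :=
    nd_num hq p hr hr2 hrp hi hc hS hn (by omega) hW h1 (by omega) (by omega) hrΩ
  all_goals
    simp only [h4, Sp, Dv, h2, e1, e2, h12, h13, hr2, hrp, h7, true_or, or_true, false_or, or_false, true_and, and_true, false_and, and_false, true_iff, iff_true, false_iff,
      iff_false, not_true, not_false_iff, ne_eq, forall_const, IsEmpty.forall_iff, Nat.even_iff (n := _ / _), Nat.odd_iff (n := _ / _)]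
      at h8 h9 h10 h11 ⊢
    generalize (2 * d + m - 2 * ((2 * d) % c)) / c = z at h11 ⊢
    generalize (2 * d - m) / c = a', (2 * d - m) % c = k', (2 * d) / c = a, (2 * d) % c = k, m / c = b, m % c = l
      at h8 h9 h10 h11 ⊢
    clear hc hi h4 h3 hrΩ
    omega

end Cfsg.Agent.S5974
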