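import Cfsg.Statements.S5981
import Cfsg.Agent.H2.EluF

set_option autoImplicit false
open scoped MatrixGroups
open Cfsg

open H11 H11.PForm H20.El H2.Eu Module Matrix Cfsg.Geo

namespace Cfsg.Agent.S5981

section
variable {F : Type*} [Field F] [Finite F] {ι κ : Type} [Fintype ι] [DecidableEq ι] [Fintype κ]
  [DecidableEq κ] {H : Subgroup (GL ι F)} {S : PForm (orthP F) (ι → F)}

theorem inG_gram (h : IsSim H S) (hS : S.Nondeg) (h2 : (2 : F) ≠ 0)
    (hc : Fintype.card ι = Fintype.card κ) {A : Matrix κ κ F} (hA : IsUnit A) {t : F} (ht : t ≠ 0)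
    (hM : ∀ δ : F, δ ≠ 0 → ∃ M : Matrix κ κ F, M.IsSymm ∧ M.det = δ ∧ Aᵀ * M * A = t • M) :
    InG H (mE A) := by
  obtain ⟨δ, h1, h3⟩ : ∃ δ : F, δ ≠ 0 ∧ sqSign δ = sqSign (2 : F) ^ finrank F (ι → F) * hS.disc := by
    rcases Int.units_eq_one_or (sqSign (2 : F) ^ finrank F (ι → F) * hS.disc) with e | e <;> rw [e]
    · exact ⟨1, one_ne_zero, sqSign_one⟩
    · obtain ⟨a, ha⟩ := FiniteField.exists_nonsquare (F := F) fun e => h2 (by
        rw [← Nat.cast_ofNat, ← e]; exact ringChar.Nat.cast_ringChar)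
      exact ⟨a, fun e => ha (e ▸ IsSquare.zero), sqSign_eq_neg_one_iff.2 ha⟩
  obtain ⟨M, h4, rfl, h5⟩ := hM δ h1
  obtain ⟨b, hb⟩ := hS.exists_basis_gram h2 h4 h1 (by simp [hc]) h3
  refine h.inG (T := symmS h2 (Matrix.toBilin' M) (Matrix.isSymm_toBilin'_iff_isSymm.2 h4))
    (eqv_of_basis (Pi.basisFun F κ) b (fun i j => by simp [hb]) fun i => ?_) (isUnit_mE.2 hA) ht
    fun x y => ?_
  · have := S.orth_h_self (b i)
    simp only [orthP_Λ, AddSubgroup.mem_bot, symmS_q, Pi.basisFun_apply, toBilin'_single, ← hb, this]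
    field_simp; ring
  · simp only [symmS_h, mE_apply, toBilin'_apply']
    rw [mulVec_mulVec, dotProduct_mulVec, vecMul_mulVec, ← dotProduct_mulVec, ← Matrix.mul_assoc, h5,
      smul_mulVec, dotProduct_smul, smul_eq_mul]

omit [Finite F] [Fintype ι] [DecidableEq ι] in
theorem isom_of (h2 : (2 : F) ≠ 0) {g : End F (ι → F)} (h : ∀ x y, S.h (g x) (g y) = 1 * S.h x y) :
    IsIsom S S g := orth_isIsom fun x => mul_left_cancel₀ h2 (by
  rw [← orth_h_self, ← orth_h_self, h, one_mul])

theorem all_inv (h : IsSim H S) (hS : S.Nondeg) (h2 : (2 : F) ≠ 0) [Nonempty ι] : All H 2 := by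
  classical
  refine all_of' Nat.prime_two h2 h.scal (fun g c h3 _ _ => ?_) fun g z h3 h4 _ => ?_
  · obtain ⟨s, hs⟩ := exists_eig_of_pow two_ne_zero (prim_neg_one h2) h3
    obtain ⟨d, rfl⟩ := H2.Pg.exists_fun_ms hs.card
    have h4 : ∀ i, d i * d i = 1 := fun i => by
      rw [← sq]; exact hs.pow_one_iff.1 h3 _ (Multiset.mem_map_of_mem _ (Finset.mem_univ_val i))
    obtain ⟨i₀⟩ : Nonempty (Fin (finrank F (ι → F))) := ⟨⟨0, finrank_pos⟩⟩
    refine (inG_gram h hS h2 (by simp) (IsUnit.of_mul_eq_one (diagonal d) (by simp [h4])) one_ne_zero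
      fun δ _ => ⟨diagonal (Function.update 1 i₀ δ), isSymm_diagonal _, by simp [Finset.prod_update_of_mem],
        ?_⟩).sim (hs.sim (eig_diag d))
    rw [diagonal_transpose, diagonal_mul_diagonal, diagonal_mul_diagonal, one_smul]
    congr 1; ext i; rw [mul_right_comm, h4, one_mul]
  · have hz : z ≠ 0 := fun e => not_pow_of_irr le_rfl h3 0 (by simp [e])
    obtain ⟨-, m, -, hm, -⟩ := irr_spec two_ne_zero h3 h4
    obtain ⟨m, rfl⟩ : ∃ k, m = k + 1 := Nat.exists_eq_succ_of_ne_zero fun e => by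
      have := finrank_pos (R := F) (M := ι → F); omega
    let A : Matrix (Fin 2 × Fin (m + 1)) (Fin 2 × Fin (m + 1)) F := blockDiagonal fun _ => !![0, z; 1, 0]
    have h5 : A ^ 2 = z • 1 := by
      rw [sq, ← blockDiagonal_mul, ← blockDiagonal_one, ← blockDiagonal_smul]
      congr 1; ext k i j; fin_cases i <;> fin_cases j <;> simp
    refine (inG_gram h hS h2 (A := A) (by simpa [mul_comm] using hm.symm) ((isUnit_pow_iff two_ne_zero).1
      (by rw [h5, ← Algebra.algebraMap_eq_smul_one]; exact hz.isUnit.map _)) hz fun δ _ => ?_).sim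
      (sim_irr' two_ne_zero h3 h4 (by rw [← mE_pow, h5, mE_smul, mE_one]) (by simp [← hm, mul_comm]))
    have := Fintype.ofFinite F
    obtain ⟨α, β, h6⟩ := FiniteField.exists_root_sum_quadratic
      (f := Polynomial.C z * Polynomial.X ^ 2 - Polynomial.C (δ / z ^ m)) (g := -Polynomial.X ^ 2)
      (by rw [Polynomial.degree_sub_C] <;> simp [Polynomial.degree_C hz]) (by simp)
      (by rw [← Nat.card_eq_fintype_card, ← Nat.odd_iff]; exact two_ne_zero_iff.1 h2)
    simp only [Polynomial.eval_sub, Polynomial.eval_mul, Polynomial.eval_C, Polynomial.eval_pow,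
      Polynomial.eval_X, Polynomial.eval_neg] at h6
    let a : Fin (m + 1) → F := Fin.cons α 1
    let b : Fin (m + 1) → F := Fin.cons β 0
    refine ⟨blockDiagonal fun k => !![a k, b k; b k, z * a k], ?_, ?_, ?_⟩
    · rw [IsSymm, blockDiagonal_transpose]
      congr 1; ext k i j; fin_cases i <;> fin_cases j <;> simp
    · simp only [det_blockDiagonal, det_fin_two_of, Fin.prod_univ_succ, a, b, Fin.cons_zero,
        Fin.cons_succ, Pi.one_apply, Pi.zero_apply, mul_one, one_mul, mul_zero, sub_zero,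
        Finset.prod_const, Finset.card_univ, Fintype.card_fin]
      field_simp at h6
      linear_combination h6
    · rw [blockDiagonal_transpose, ← blockDiagonal_mul, ← blockDiagonal_mul, ← blockDiagonal_smul]
      congr 1; ext k i j
      fin_cases i <;> fin_cases j <;> simp [Matrix.mul_apply, Fin.sum_univ_two] <;> ring

end

/-- Elements of prime order of PSL_n(q), q odd, and the subgroups of orthogonal type. Here `T = PSL_n(F)` for a field `F` with `q` elements, `q` odd, `n ≥ 3`; `Q` is a non-degenerate quadratic form on `F^n` (of either type when `n` is even) and `H` is the subgroup of matrices of determinant 1 that preserve `Q` up to a scalar — a subgroup of type O^ε_n(q) (maximality is not assumed); Ω is the set of cosets of `H` in `T`, so an element of `T` of prime order `r` (a matrix `x` of determinant 1 with `x^r` scalar, `x` not scalar) fixes a point of Ω exactly when some conjugate of `x` by a matrix of determinant 1 preserves `Q` up to a scalar.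 Let `r` be a prime dividing the index of `H`, with `(n, r) ≠ (6, 3)`. Then every element of `T` of order `r` fixes a point of Ω if and only if `r = 2`, or `r ∈ {3, 5}`, `n = r` and `(q − 1)_r = r` (the `r`-part of `q − 1` is exactly `r`). The case `(n, r) = (6, 3)` is not covered by this statement. -/
theorem result {F : Type*} [Field F] [Fintype F] {p : ℕ} [Fact p.Prime] [CharP F p] {q : ℕ} (hq : Fintype.card F = q)
    (hodd : Odd q) (n : ℕ) (hn : 3 ≤ n) (Q : (Fin n → F) → F) (hQ : Cfsg.Geo.IsNondegenerateQuadraticForm Q)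
    (r : ℕ) [Fact r.Prime] (hgap : ¬ (n = 6 ∧ r = 3))
    (hΩ : r ∣ (Cfsg.Geo.quadSimilarityGroup Q).relIndex (Cfsg.Geo.specialLinear (Fin n) F)) :
    (∀ x ∈ Cfsg.Geo.specialLinear (Fin n) F, (∃ z : F, ((x ^ r : GL (Fin n) F) : Matrix (Fin n) (Fin n) F) = z • (1 : Matrix (Fin n) (Fin n) F)) →
      (∀ z : F, (x : Matrix (Fin n) (Fin n) F) ≠ z • (1 : Matrix (Fin n) (Fin n) F)) →
      ∃ g ∈ Cfsg.Geo.specialLinear (Fin n) F, g⁻¹ * x * g ∈ Cfsg.Geo.quadSimilarityGroup Q) ↔
    (r = 2 ∨ ((r = 3 ∨ r = 5) ∧ n = r ∧ padicValNat r (q - 1) = 1)) := by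
  classical
  have hr : r.Prime := Fact.out
  rw [← Nat.card_eq_fintype_card] at hq
  subst hq
  have h2 : (2 : F) ≠ 0 := two_ne_zero_iff.2 hodd
  obtain ⟨S, hS, h⟩ := orth_model h2 hQ
  have : Nonempty (Fin n) := ⟨⟨0, by omega⟩⟩
  rw [all_gl]
  by_cases hr2 : r = 2
  · subst hr2
    exact iff_of_true (all_inv h hS h2) (.inl rfl)
  constructor
  swap
  · rintro (e | ⟨h3, rfl, h4⟩)
    · exact (hr2 e).elim
    refine all35 h3 (by simp) h4 h.scal fun f s h5 h6 h7 => ?_
    have h0 : (n : F) ≠ 0 := fun e => by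
      have := (dvd_card_iff (F := F) p hr).2 ((Nat.prime_dvd_prime_iff_eq Fact.out hr).1
        ((CharP.cast_eq_zero_iff F p n).1 e)).symm
      have h8 := (Nat.dvd_sub_iff_right Nat.card_pos this).1 (dvd_of_one_le_padicValNat h4.ge)
      exact hr.not_dvd_one h8
    have h8 : Dl (RingHom.id F) f := h5.dl_of (fun _ => rfl)
      (fun a ha e => by simpa [e, hr.ne_zero] using h5.pow_one_iff.1 h6 a ha) h7
    have h9 := mem_PhiF_of_pow hr h0 h6
    obtain ⟨k, hk⟩ := (hS.orth_real_iff hr hr2 h0 _ h9 (h8.map_nED (fun _ => rfl) h5.ss)).2 (.inl (by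
      rw [← sum_natDegree_PhiF hr h0 h9, ← finrank_range_eq_nED h5.ss]
      refine Submodule.finrank_lt fun e => ?_
      obtain ⟨T, hT, -⟩ := h8.exists_isom (sympP F) (isUnit_sq_sub_one (hr.odd_of_ne_two hr2) h6
        ((LinearMap.isUnit_iff_range_eq_top _).2 e))
      exact Nat.not_even_iff_odd.2 (hr.odd_of_ne_two hr2) (symp_even n hT (by simp))))
    exact (h.inG_isom (.refl S) k).sim ((sim_iff_nED rfl).2 hk.symm)
  intro h1
  by_contra h3
  revert h1
  have h3 : ¬ ((r = 3 ∨ r = 5) ∧ Fintype.card (Fin n) = r ∧ padicValNat r (Nat.card F - 1) = 1) :=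
    fun e => h3 (.inr (by simpa using e))
  by_cases hrp : r = p
  · subst hrp
    obtain ⟨x, h4, h5, h6, h7, -, h8⟩ := exists_tv (F := F) (V := Fin n → F) r (by simp; omega)
    refine not_all h4 h5 h6 fun h9 => ?_
    obtain ⟨g, t, h10, -, h11, h12⟩ := h.exists_mult hS h9 (h5.trans (one_smul F _))
    obtain rfl : t = 1 := frobenius_inj F r (by simpa [frobenius_def] using h11)
    have h13 := (h10.sub_one_pow 2).eq_zero_iff.1 h7
    have h14 := (h10.sub_one_pow 1).finrank_range
    rw [pow_one, pow_one, h8] at h14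
    obtain ⟨N, rfl⟩ : ∃ N, g = N + 1 := ⟨g - 1, by simp⟩
    rw [add_sub_cancel_right] at h13 h14
    have h16 : ∀ u, N (N u) = 0 := fun u => by simpa [pow_succ] using LinearMap.congr_fun h13 u
    have h17 : ∀ u v, S.h (N u) (N v) + S.h (N u) v + S.h u (N v) = 0 := fun u v => by
      have := h12 u v
      simp only [LinearMap.add_apply, End.one_apply, map_add] at this
      linear_combination this
    have h18 : ∀ u v, S.h (N u) v = -S.h u (N v) := fun u v => by
      have a1 := h17 u (N v)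
      simp only [h16, map_zero] at a1
      linear_combination h17 u v - a1
    obtain ⟨⟨_, u, rfl⟩, hu, h19⟩ := finrank_eq_one_iff'.1 h14.symm
    obtain ⟨v, hv⟩ := hS.exists_h_eq_one (x := N u) fun e => hu (Subtype.ext e)
    obtain ⟨c, hc⟩ := h19 ⟨_, v, rfl⟩
    have hc : c • N u = N v := congrArg Subtype.val hc
    have h21 := h18 u u
    rw [S.orth_symm] at h21
    have h22 : S.h u (N u) = 0 := (mul_eq_zero.1 (by linear_combination h21)).resolve_left h2
    rw [h18, ← hc, h_smul_right, h22, mul_zero, neg_zero] at hv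
    exact zero_ne_one hv
  have h0 : (r : F) ≠ 0 := natCast_ne_zero_of_prime p hr hrp
  have hrq := not_dvd_card (F := F) p hr hrp
  have h1 := h.idx
  have hq1 := Finite.one_lt_card (α := F)
  have key := fun a b => h.not_all_odd hS hr hr2 h0 a b (by simpa using hn) (by simpa using hgap) h3
  rw [Fintype.card_fin] at h1 key
  obtain ⟨m, rfl | rfl⟩ := Nat.even_or_odd' n
  swap
  · rw [orth_card_odd m hS (by simp), gO_succ, gO_two_mul, mul_right_comm _ _ (_ - 1),
      ← Finset.prod_range_succ fun i => Nat.card F ^ (2 * i + 1) - 1] at h1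
    obtain ⟨h4, h5⟩ := odd_ord hr Nat.card_pos (dvd_of_idx hr (prod_even_pos hq1 m) h1 hΩ hrq)
    exact key h4 (by omega)
  obtain ⟨m, rfl⟩ : ∃ k, m = k + 1 := ⟨m - 1, by omega⟩
  have h4 : 1 < Nat.card F ^ (m + 1) := Nat.one_lt_pow (by omega) hq1
  rw [gO_two_mul, Finset.prod_range_succ fun i => Nat.card F ^ (2 * (i + 1)) - 1,
    show Nat.card F ^ (2 * (m + 1)) - 1 = (Nat.card F ^ (m + 1) + 1) * (Nat.card F ^ (m + 1) - 1) by
      rw [← Nat.sq_sub_sq _ 1, ← pow_mul, mul_comm, one_pow]] at h1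
  obtain h5 | h5 : r ∣ ∏ i ∈ Finset.range (m + 1), (Nat.card F ^ (2 * i + 1) - 1) ∨
      (Nat.card F : ZMod r) ^ (m + 1) = -if S.HasTS (m + 1) then 1 else -1 := by
    split_ifs with e
    · rw [hS.orth_card_plus (by omega) (by simp) e, Nat.add_sub_cancel, mul_assoc (2 * _)] at h1
      refine ((Nat.Prime.dvd_mul hr).1 (dvd_of_idx (a := (2 * (m + 1)).choose 2)
        (B := (∏ i ∈ Finset.range (m + 1), (Nat.card F ^ (2 * i + 1) - 1)) * (Nat.card F ^ (m + 1) + 1)) hr
        (Nat.mul_pos (Nat.sub_pos_of_lt h4) (prod_even_pos hq1 m)) (h1.trans (dvd_of_eq (by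
          congr 1; ac_rfl))) hΩ hrq)).imp_right fun e => ?_
      rw [← ZMod.natCast_eq_zero_iff] at e
      exact eq_neg_of_add_eq_zero_left (by simpa using e)
    · rw [hS.orth_card_minus (by simp) e, Nat.add_sub_cancel, mul_assoc (2 * _)] at h1
      refine ((Nat.Prime.dvd_mul hr).1 (dvd_of_idx (a := (2 * (m + 1)).choose 2)
        (B := (∏ i ∈ Finset.range (m + 1), (Nat.card F ^ (2 * i + 1) - 1)) * (Nat.card F ^ (m + 1) - 1)) hr
        (Nat.mul_pos (Nat.add_one_pos _) (prod_even_pos hq1 m)) (h1.trans (dvd_of_eq (by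
          congr 1; ac_rfl))) hΩ hrq)).imp_right fun e => ?_
      rw [neg_neg]
      exact orderOf_dvd_iff_pow_eq_one.1 ((ord_dvd_iff Nat.card_pos).2 e)
  · obtain ⟨h6, h7⟩ := odd_ord hr Nat.card_pos h5
    exact key h6 h7.le
  obtain ⟨s, hs⟩ : orderOf (Nat.card F : ZMod r) ∣ 2 * (m + 1) := orderOf_dvd_of_pow_eq_one (by
    rw [pow_mul', h5]; split_ifs <;> simp)
  have hs0 : 0 < s := Nat.pos_of_ne_zero fun e => by simp [e] at hs
  rcases Nat.even_or_odd (orderOf (Nat.card F : ZMod r)) with h6 | h6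
  swap
  · exact key h6 (Nat.le_of_dvd (by omega) ⟨s, hs⟩)
  have h7 := orderOf_card_ne_zero hr h0
  have h8 : 2 ≤ orderOf (Nat.card F : ZMod r) := by obtain ⟨k, hk⟩ := h6; omega
  obtain ⟨P, hP⟩ := exists_mem_PhiF hr h0
  obtain ⟨f, h9, h10, h11, h12, -⟩ := exists_jt (V := Fin (2 * (m + 1)) → F) hr h0 h8 (e := 0) hs0
    (by rw [finrank_fin_fun, hs, zero_add, mul_comm]) hP
  refine not_all h9 (h10.trans (one_smul F _).symm) h11 fun h13 => ?_
  obtain ⟨g, t, h14, h15, h16, h17⟩ := h.exists_mult hS h13 h10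
  rw [eq_one_of_pow hr (by omega) h16] at h17
  have h18 : IsUnit (g - 1) := by
    rw [isUnit_sub_one_iff, ← sim_iff_ED.1 h14, h12]
    intro R hR e
    obtain rfl : R = P := Multiset.eq_of_mem_replicate (by simpa using hR)
    obtain ⟨h19, h20, -, h21⟩ := (mem_PhiF' hr h0).1 hP
    exact h21 (Polynomial.eq_of_monic_of_associated monic_X_sub_one h20
      (irreducible_X_sub_one.associated_of_dvd h19 e)).symm
  have h19 := orth_type_of_free hS (m := m + 1) (by simp) hr h0 (g := mkIsom hS g (isom_of h2 h17))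
    (j := 1) (iE_inj.1 (by rw [pow_one, iE_pow, iE_one, ← h15]; congr 1)) fun x hx =>
    LinearMap.ker_eq_bot'.1 ((LinearMap.isUnit_iff_ker_eq_bot _).1 h18) x (sub_eq_zero.2 hx)
  have : Fact (2 < r) := ⟨lt_of_le_of_ne hr.two_le (Ne.symm hr2)⟩
  rw [h5] at h19
  split_ifs at h19
  · exact ZMod.neg_one_ne_one h19
  · exact ZMod.neg_one_ne_one (neg_injective h19)

end Cfsg.Agent.S5981
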