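import Cfsg.Statements.S5982
import Cfsg.Agent.H2.EluF

set_option autoImplicit false
open scoped MatrixGroups
open Cfsg

open H11 H11.PForm H20.El H2.Eu Module Matrix Cfsg.Geo

namespace Cfsg.Agent.S5982

theorem gO_sq (q n : ℕ) : gO (q ^ 2) n =
    (∏ i ∈ Finset.range n, if Even i then q ^ (i + 1) - 1 else q ^ (i + 1) + 1) *
      ∏ i ∈ Finset.range n, if Even i then q ^ (i + 1) + 1 else q ^ (i + 1) - 1 := by
  rw [gO, ← Finset.prod_mul_distrib]
  refine Finset.prod_congr rfl fun i _ => ?_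
  rw [← pow_mul, mul_comm 2, pow_mul, ← one_pow 2, Nat.sq_sub_sq]
  split_ifs
  exacts [by rw [one_pow, mul_comm], by rw [one_pow]]

theorem val_sq {q r : ℕ} [hr : Fact r.Prime] (hr2 : r ≠ 2) (hq : 1 < q) (h : r ∣ q - 1) :
    padicValNat r (q ^ 2 - 1) = padicValNat r (q - 1) := by
  rw [← one_pow 2, Nat.sq_sub_sq, padicValNat.mul (by omega) (by omega), one_pow,
    padicValNat.eq_zero_of_not_dvd, zero_add]
  intro e
  have := Nat.dvd_sub e h
  rw [show q + 1 - (q - 1) = 2 by omega] at this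
  exact hr2 ((Nat.prime_dvd_prime_iff_eq hr.out Nat.prime_two).1 this)

/-- Elements of prime order of PSL_n(q), q = q₀², and the subgroups of unitary type. Here `T = PSL_n(F)` for a field `F` with `q = q₀²` elements (`n ≥ 3`), `f` is a non-degenerate unitary form on `F^n` for the involutory automorphism `x ↦ x^{q₀}`, and `H` is the subgroup of matrices of determinant 1 that preserve `f` up to a scalar — a subgroup of type GU_n(q₀) (maximality is not assumed); Ω is the set of cosets of `H` in `T`, so an element of `T` of prime order `r` (a matrix `x` of determinant 1 with `x^r` scalar, `x` not scalar) fixes a point of Ω exactly when some conjugate of `x` by a matrix of determinant 1 preserves `f` up to a scalar. Let `r` be a prime dividing the index of `H`, with `r = 2` or `r` different from the characteristic `p`, and with `(n, r) ≠ (6, 3)`. Then every element of `T` of order `r` fixes a point of Ω if and only if either `r = 2` and (`p = 2` or `(n)_2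 ≤ (q − 1)_2`), or `r ∈ {3, 5}`, `n = r` and `(q₀ − 1)_r = r`. (Odd `r = p` and the case `(n, r) = (6, 3)` are not covered by this statement.) -/
theorem result {F : Type*} [Field F] [Fintype F] {p : ℕ} [Fact p.Prime] [CharP F p] {q : ℕ} (hq : Fintype.card F = q)
    (q₀ : ℕ) (hq₀ : q = q₀ ^ 2) (n : ℕ) (hn : 3 ≤ n) (f : (Fin n → F) → (Fin n → F) → F) (hf : Cfsg.Geo.IsUnitaryFormPow q₀ f)
    (r : ℕ) [Fact r.Prime] (hr : r = 2 ∨ r ≠ p) (hgap : ¬ (n = 6 ∧ r = 3))
    (hΩ : r ∣ (Cfsg.Geo.similarityGroup f).relIndex (Cfsg.Geo.specialLinear (Fin n) F)) :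
    (∀ x ∈ Cfsg.Geo.specialLinear (Fin n) F, (∃ z : F, ((x ^ r : GL (Fin n) F) : Matrix (Fin n) (Fin n) F) = z • (1 : Matrix (Fin n) (Fin n) F)) →
      (∀ z : F, (x : Matrix (Fin n) (Fin n) F) ≠ z • (1 : Matrix (Fin n) (Fin n) F)) →
      ∃ g ∈ Cfsg.Geo.specialLinear (Fin n) F, g⁻¹ * x * g ∈ Cfsg.Geo.similarityGroup f) ↔
    ((r = 2 ∧ (p = 2 ∨ padicValNat 2 n ≤ padicValNat 2 (q - 1))) ∨ ((r = 3 ∨ r = 5) ∧ n = r ∧ padicValNat r (q₀ - 1) = 1)) := by
  classical
  have hr' : r.Prime := Fact.out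
  have hp : p.Prime := Fact.out
  subst hq₀
  obtain ⟨σ, hσq, hσ, hne⟩ := exists_frob hq
  rw [← Nat.card_eq_fintype_card] at hq
  have hq2 := two_le_of_card_sq hq
  obtain ⟨S, hS, h⟩ := unit_model hσ hne hσq hf
  have : Nonempty (Fin n) := ⟨⟨0, by omega⟩⟩
  have key : ∀ g : End F (Fin n → F), Dl σ g → InG (similarityGroup f) g := fun g hg => by
    obtain ⟨T, hT, k, rfl⟩ := hg.unit_exists hσ hne
    exact h.inG_isom (unit_eqv hne n hT hS (by simp) (by simp)) k
  rw [all_gl, ← hq]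
  by_cases hr2 : r = 2
  · subst hr2
    simp only [true_and, Nat.reduceEqDiff, or_self, false_and, or_false]
    by_cases hp2 : p = 2
    · subst hp2
      exact iff_of_true (all_two' (CharP.cast_eq_zero F 2) h.scal fun g h1 _ _ => key g (h1.dl hσ))
        (.inl rfl)
    have h0 : (2 : F) ≠ 0 := natCast_ne_zero_of_prime p hr' (Ne.symm hp2)
    obtain ⟨k, rfl⟩ : Odd q₀ := (Nat.odd_pow_iff two_ne_zero).1 (hq ▸ two_ne_zero_iff.1 h0)
    have h4 : Nat.card F % 4 = 1 := by
      rw [hq, show (2 * k + 1) ^ 2 = 1 + 4 * (k ^ 2 + k) by ring, Nat.add_mul_mod_self_left]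
    simp only [hp2, false_or]
    constructor
    · intro h1
      by_contra h2
      obtain ⟨g, z, h3, h5, h6, h7⟩ := exists_bad (F := F) (V := Fin n → F) (r := 2)
        ((orderOf_eq_one_iff Nat.card_pos).2 (by omega)) finrank_pos fun e => h2 (by simpa using e.1)
      refine not_all h3 h5 h6 (fun ⟨y, h8, h9⟩ => ?_) h1
      obtain ⟨t, ht, h10⟩ := (h y).1 h8
      have h11 : ∀ x, y.1 *ᵥ y.1 *ᵥ x = z • x := fun x => by
        obtain ⟨e, he⟩ := h9
        obtain ⟨x, rfl⟩ := e.surjective x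
        rw [← mE_apply, ← mE_apply, ← he, ← he, ← map_smul]
        exact congrArg e (LinearMap.congr_fun h5 x)
      obtain ⟨u, hu⟩ := exists_ne (0 : Fin n → F)
      obtain ⟨v, hv⟩ := hS.exists_h_eq_one hu
      have h12 := h10 (y.1 *ᵥ u) (y.1 *ᵥ v)
      rw [h11, h11, h10, h_smul_left, h_smul_right, hv, hσq] at h12
      have h13 := h10 v u
      rw [S.unit_symm, h10, S.unit_symm u v, hv, mul_one, map_one, mul_one, hσq, pow_succ] at h13
      have hz : z ≠ 0 := fun e => not_pow_of_irr le_rfl h7 0 (by simp [e])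
      obtain ⟨c, hc⟩ := (FiniteField.isSquare_iff (F := F) (by rwa [ringChar.eq F p]) hz).2 (by
        rw [← Nat.card_eq_fintype_card, hq, show (2 * k + 1) ^ 2 / 2 = (2 * k + 1 + 1) * k by
          rw [show (2 * k + 1) ^ 2 = 1 + 2 * ((2 * k + 1 + 1) * k) by ring]; omega,
          pow_mul, pow_succ, show z ^ (2 * k + 1) * z = t ^ 2 by linear_combination h12, ← pow_mul]
        exact mul_right_cancel₀ ht (h13.trans (one_mul t).symm))
      exact not_pow_of_irr le_rfl h7 c (by rw [hc, sq])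
    · intro h1
      refine all_of' hr' h0 h.scal (fun g c h2 _ _ => ?_) fun g z h2 h3 h5 =>
        ((bad_of h2 h3 h5 finrank_pos).2 ⟨by simpa using h1, fun _ _ => h4⟩).elim
      obtain ⟨a, b, h3, -⟩ := eig_of_sq h0 h2
      exact key g (h3.dl_of hσ (by simp +contextual [Multiset.mem_replicate, or_imp]) (by simp))
  have hrp := hr.resolve_left hr2
  have h0 : (r : F) ≠ 0 := natCast_ne_zero_of_prime p hr' hrp
  have hfix : r ∣ q₀ - 1 → ∀ a : F, a ^ r = 1 → σ a = a := fun ⟨l, hl⟩ a ha => by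
    rw [hσq, show q₀ = r * l + 1 by omega, pow_succ, pow_mul, ha, one_pow, one_mul]
  simp only [hr2, false_and, false_or]
  constructor
  swap
  · rintro ⟨h1, rfl, h2⟩
    have h3 := dvd_of_one_le_padicValNat h2.ge
    refine all35 h1 (by simp) (by rw [hq, val_sq hr2 hq2 h3, h2]) h.scal fun g s h4 h5 h6 =>
      key g (h4.dl_of hσ (fun a ha e => ?_) ?_)
    · simpa [e, hr'.ne_zero] using h4.pow_one_iff.1 h5 a ha
    · exact (Multiset.map_congr rfl fun a ha => by rw [hfix h3 a (h4.pow_one_iff.1 h5 a ha)]).trans h6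
  intro h1
  by_contra h2
  revert h1
  have h1 := h.idx
  have hrq := not_dvd_card (F := F) p hr' hrp
  rw [unit_card_Isom hne hq n hS (by simp), guOrd, Fintype.card_fin] at h1
  nth_rewrite 2 [hq] at h1
  rw [gO_sq] at h1
  obtain ⟨j, h3, h4⟩ := (Prime.dvd_finsetProd_iff hr'.prime _).1 (dvd_of_idx hr'
    (Finset.prod_pos fun i _ => by
      have := Nat.one_lt_pow (a := q₀) (n := i + 1) (by omega) hq2
      split_ifs <;> omega) h1 hΩ hrq)
  rw [Finset.mem_range] at h3
  have : Fact (2 < r) := ⟨lt_of_le_of_ne hr'.two_le (Ne.symm hr2)⟩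
  have h5 : ((q₀ : ZMod r) ^ 2) ^ (j + 1) = 1 ∧ orderOf (q₀ : ZMod r) % 4 ≠ 2 := by
    split_ifs at h4 with e
    · rw [← ord_dvd_iff (by omega)] at h4
      exact ⟨by rw [pow_right_comm, orderOf_dvd_iff_pow_eq_one.1 h4, one_pow], fun e' => by
        have := Nat.odd_iff.1 (e.add_one.of_dvd_nat h4); omega⟩
    · rw [← ZMod.natCast_eq_zero_iff] at h4
      have h5 : (q₀ : ZMod r) ^ (j + 1) = -1 := eq_neg_of_add_eq_zero_left (by simpa using h4)
      refine ⟨by rw [pow_right_comm, h5]; simp, fun e' => ZMod.neg_one_ne_one (h5.symm.trans ?_)⟩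
      have h6 : orderOf (q₀ : ZMod r) ∣ (j + 1) * 2 := orderOf_dvd_of_pow_eq_one (by
        rw [pow_mul, h5]; simp)
      obtain ⟨u, hu⟩ : ∃ u, orderOf (q₀ : ZMod r) = (2 * u + 1) * 2 :=
        ⟨orderOf (q₀ : ZMod r) / 4, by omega⟩
      rw [← orderOf_dvd_iff_pow_eq_one, hu]
      rw [hu] at h6
      exact Nat.Coprime.mul_dvd_of_dvd_of_dvd (by simp) (Nat.dvd_of_mul_dvd_mul_right two_pos h6)
        (by rw [Nat.not_even_iff_odd, Nat.odd_iff] at e; omega)
  have h6 : (Nat.card F : ZMod r) = (q₀ : ZMod r) ^ 2 := by rw [hq, Nat.cast_pow]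
  have h7 := orderOf_card_ne_zero hr' h0
  by_cases e : orderOf (Nat.card F : ZMod r) = 1
  · have h8 : r ∣ q₀ - 1 := by
      rw [h6, _root_.orderOf_eq_one_iff, sq_eq_one_iff] at e
      rcases e with e | e
      · exact (H20.El.orderOf_eq_one_iff (by omega)).1 (_root_.orderOf_eq_one_iff.2 e)
      · exact (h5.2 (by rw [e, orderOf_eq_prime (p := 2) (by simp) ZMod.neg_one_ne_one])).elim
    exact h.not_all_one hS hσ hr' hr2 (hfix h8) ((H20.El.orderOf_eq_one_iff Nat.card_pos).1 e)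
      (by simpa using hn) (by simpa using hgap) fun e' => h2 (by
        rw [hq, val_sq hr2 hq2 h8] at e'; simpa using e')
  refine h.not_all_dual hS hσ hr' h0 (by omega) ?_ fun Q hQ e' => h5.2 ?_
  · rw [h6, Fintype.card_fin]
    exact (Nat.le_of_dvd j.succ_pos (orderOf_dvd_of_pow_eq_one h5.1)).trans h3
  · obtain ⟨k, -, hk⟩ := FiniteField.card F p
    rw [← Nat.card_eq_fintype_card, hq] at hk
    obtain ⟨l, -, rfl⟩ := (Nat.dvd_prime_pow hp).1 (hk ▸ dvd_pow_self q₀ two_ne_zero)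
    rw [dualP_eq_self_iff hσ p hσq hr' h0 hQ, h6] at e'
    refine (exists_pow_eq_neg_iff hr' hr2 fun e => h7 ?_).1 e'
    rw [h6, orderOf_eq_zero_iff, isOfFinOrder_pow, ← orderOf_ne_zero_iff, e]; simp

end Cfsg.Agent.S5982
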