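import Cfsg.Statements.S5983
import Cfsg.Agent.H20.El8

set_option autoImplicit false
open scoped MatrixGroups
open Cfsg H20

namespace Cfsg.Agent.S5983

/-- Elements of prime order of PSp_n(q), q even, and the subgroups of orthogonal type. Here `T = Sp_{2d}(F)` for a field `F` of characteristic 2 with `q` elements (`d ≥ 2`, `(d, q) ≠ (2, 2)`), realised as the invertible matrices preserving the standard alternating form; `Q` is a non-degenerate quadratic form on `F^{2d}` whose polar form is that alternating form, and `H` is the subgroup of `T` preserving `Q` up to a scalar (equivalently preserving `Q`) — a subgroup of type O^±_{2d}(q) (maximality is not assumed); `Q` is of plus type when `F^{2d}` contains a `d`-dimensional subspace on which `Q` vanishes, of minus type otherwise. Ω is the set of cosets of `H` in `T`, so an element of `T` of prime order `r` (`x ∈ T` with `x^r` scalar, `x` not scalar) fixes a point of Ω exactly when some `T`-conjugate of `x` preserves `Q`.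 Let `r` be a prime dividing the index of `H`. Then every element of `T` of order `r` fixes a point of Ω if and only if `r = 2` and either `Q` is of plus type or `d` is odd. -/
theorem result {F : Type*} [Field F] [Fintype F] {p : ℕ} [Fact p.Prime] [CharP F p] {q : ℕ} (hq : Fintype.card F = q)
    (hp : p = 2) (d : ℕ) (hd : 2 ≤ d) (hT : (d, q) ≠ (2, 2)) (Q : (Fin d ⊕ Fin d → F) → F) (hQ : Cfsg.Geo.IsNondegenerateQuadraticForm Q)
    (hQf : ∀ u v, QuadraticMap.polar Q u v = Cfsg.sympForm d F u v)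
    (r : ℕ) [Fact r.Prime]
    (hΩ : r ∣ (Cfsg.Geo.quadSimilarityGroup Q).relIndex (Cfsg.spGL d F)) :
    (∀ x ∈ Cfsg.spGL d F, (∃ z : F, ((x ^ r : GL (Fin d ⊕ Fin d) F) : Matrix (Fin d ⊕ Fin d) (Fin d ⊕ Fin d) F) = z • (1 : Matrix (Fin d ⊕ Fin d) (Fin d ⊕ Fin d) F)) →
      (∀ z : F, (x : Matrix (Fin d ⊕ Fin d) (Fin d ⊕ Fin d) F) ≠ z • (1 : Matrix (Fin d ⊕ Fin d) (Fin d ⊕ Fin d) F)) →
      ∃ g ∈ Cfsg.spGL d F, g⁻¹ * x * g ∈ Cfsg.Geo.quadSimilarityGroup Q) ↔
    (r = 2 ∧ (Cfsg.Geo.IsPlusTypeOn Q ⊤ ∨ Odd d)) := by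
  subst hp
  have hS := H11.stdSymp_nondeg (F := F) d
  have hn := H11.finrank_sum_fun (F := F) d
  have h1 : ∀ u v, QuadraticMap.polar (H29.quadOf hQ) u v = (H11.stdSymp d F).h u v := fun u v =>
    (hQf u v).trans (H11.stdSymp_h d u v).symm
  have h2 : (Cfsg.Geo.quadSimilarityGroup Q).comap (H29.toGL (H11.stdSymp d F)) = El.oS (H11.stdSymp d F) (H29.quadOf hQ) := by
    refine Subgroup.ext fun g => ⟨fun ⟨c, hc⟩ v => ?_, fun h => ⟨1, fun v => by simpa [H29.coe_quadOf] using h v⟩⟩
    simp only [H29.toGL_mulVec] at hc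
    have := Module.nontrivial_of_finrank_pos (show 0 < Module.finrank F (Fin d ⊕ Fin d → F) by omega)
    obtain ⟨x, hx⟩ := exists_ne (0 : Fin d ⊕ Fin d → F)
    obtain ⟨y, hy⟩ := hS.exists_h_eq_one hx
    have h3 := h1 (g.1 x) (g.1 y)
    have h4 := h1 x y
    rw [H11.PForm.isom_h, hy, QuadraticMap.polar, H29.coe_quadOf, ← map_add, hc, hc, hc] at h3
    rw [hy, QuadraticMap.polar, H29.coe_quadOf] at h4
    rw [H29.coe_quadOf, hc, show (c : F) = 1 by linear_combination h3 - c * h4, one_mul]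
  refine El.sp_conj hΩ fun h => ?_
  rw [h2] at h ⊢
  rw [El.symp_orth h1 hS CharTwo.two_eq_zero hn (by omega) Fact.out h]
  refine and_congr_right' (or_congr_left ⟨fun ⟨U, h3, h4⟩ => ⟨U, le_top, H11.PForm.orth_ts_iff.1 h3, by simp [h4, two_mul]⟩,
    fun ⟨U, _, h3, h4⟩ => ⟨U, H11.PForm.orth_ts_iff.2 h3, by simp at h4; omega⟩⟩)

end Cfsg.Agent.S5983
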