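import Cfsg.Statements.S5984
import Cfsg.Agent.H20.El7

set_option autoImplicit false
open scoped MatrixGroups
open Cfsg H20

namespace Cfsg.Agent.S5984

/-- Elements of prime order of PSU_n(q) and the stabilizers of pairs of complementary totally singular subspaces. Here `T = PSU_n(q)` is realised through `SU_n(q)`, the matrices of determinant 1 over the field `F` with `q²` elements preserving the hermitian form `Σ uᵢ vᵢ^q`, with `n ≥ 4` even; `D` is a pair of complementary subspaces of dimension `n/2` on each of which the form vanishes identically, and `H` is the subgroup of `SU_n(q)` fixing or interchanging the two members — a subgroup of type GL_{n/2}(q²).2 (maximality is not assumed). Ω is the set of cosets of `H`, so an element of `T` of prime order `r` (`x ∈ SU_n(q)` with `x^r` scalar, `x` not scalar) fixes a point of Ω exactly when some `SU_n(q)`-conjugate of `x` lies in `H`. Let `r` be a prime dividing the index of `H`. Then every element of `T` of order `r` fixes a point of Ω if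 and only if `r = 2`, `q` is odd and `(q + 1)_2 ≤ (n)_2` (2-parts). -/
theorem result {F : Type*} [Field F] [Fintype F] {p : ℕ} [Fact p.Prime] [CharP F p] {q : ℕ} (hq : Fintype.card F = q ^ 2)
    (n : ℕ) (hn : 4 ≤ n) (he : Even n) (D : Fin 2 → Submodule F (Fin n → F)) (hD : Cfsg.Geo.IsMDecomposition (n / 2) D)
    (hDs : ∀ i, Cfsg.Geo.IsTotallySingularFor (Cfsg.hermForm n F q) (D i))
    (r : ℕ) [Fact r.Prime]
    (hΩ : r ∣ (Cfsg.Geo.decompositionStabilizer D).relIndex (Cfsg.GU n F q ⊓ Cfsg.Geo.specialLinear (Fin n) F)) :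
    (∀ x ∈ Cfsg.GU n F q ⊓ Cfsg.Geo.specialLinear (Fin n) F, (∃ z : F, ((x ^ r : GL (Fin n) F) : Matrix (Fin n) (Fin n) F) = z • (1 : Matrix (Fin n) (Fin n) F)) →
      (∀ z : F, (x : Matrix (Fin n) (Fin n) F) ≠ z • (1 : Matrix (Fin n) (Fin n) F)) →
      ∃ g ∈ Cfsg.GU n F q ⊓ Cfsg.Geo.specialLinear (Fin n) F, g⁻¹ * x * g ∈ Cfsg.Geo.decompositionStabilizer D) ↔
    (r = 2 ∧ Odd q ∧ padicValNat 2 (q + 1) ≤ padicValNat 2 n) := by
  obtain ⟨σ, hq', hσ, hne⟩ := H11.exists_frob hq
  have hF : Nat.card F = q ^ 2 := by rw [Nat.card_eq_fintype_card, hq]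
  have hS := H11.stdUnit_nondeg hσ hne (Fin n)
  have hn' : Module.finrank F (Fin n → F) = n := by simp
  have e : ∀ i, (H11.stdUnit hσ hne (Fin n)).TS (D i) := fun i => H11.PForm.unit_ts_iff.2 fun x hx y hy =>
    (H11.stdUnit_h_eq hσ hne hq' n x y).trans (hDs i y hy x hx)
  have T := H29.tsdec_of_mdec hD (e 0) (e 1)
  have hP : (H11.stdUnit hσ hne (Fin n)).Polar (D 0) (D 1) := ⟨T.ts, T.ts', T.compl⟩
  obtain ⟨h1, h2⟩ := El.pr_iff hP (fun A B h => El.polar_trans hne hS (by omega) hP h)
    (M := (Cfsg.Geo.decompositionStabilizer D).comap (H29.toGL _)) (H29.mem_decompositionStabilizer_toGL _ D)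
  rw [El.su_eq' (hσ := hσ) (hne := hne) hq', ← Subgroup.relIndex_comap] at hΩ
  obtain ⟨k, hk⟩ := he
  have h3 := El.unit_pair hne hF p hq' hS (k := k) (by omega) (by omega) Fact.out (hΩ.trans h2)
  rw [hn'] at h3
  rw [El.conj_all (El.su_eq' (hσ := hσ) (hne := hne) hq'), ← h3]
  simp only [h1]
  exact forall_congr' fun g => imp_congr_left (by rw [H11.PForm.SIsom, MonoidHom.mem_ker, H11.PForm.det_iE, Units.val_eq_one])

end Cfsg.Agent.S5984
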