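import Cfsg.Statements.S5987
import Cfsg.Agent.H21.Eo6

set_option autoImplicit false
open scoped MatrixGroups
open Cfsg

namespace Cfsg.Agent.S5987

open H11 H11.PForm H21.Eo

/-- Elements of prime order of PΩ⁻_n(q) with no fixed totally singular `m`-space. Here `T = PΩ⁻_n(F)`, `n = 2d ≥ 8`, realised through `Ω⁻_n(q)`, the commutator subgroup of the isometry group of `Q = Σ_{i<d−1} xᵢyᵢ + z₁² + a z₁z₂ + b z₂²` with `z₁² + a z₁z₂ + b z₂²` anisotropic, over the field `F` with `q` elements; an element of `T` of prime order `r` is an element `x` of `Ω⁻_n(q)` with `x^r` scalar and `x` not scalar. Let `1 ≤ m ≤ d − 1` and let `r` be a prime dividing the number of totally singular `m`-spaces (subspaces of dimension `m` on which `Q` vanishes); for `r ≠ p` let `i` be the multiplicative order of `q` modulo `r`, `c = i` for `i` even and `c = 2i` for `i` odd, and write `k = n mod c`, `ℓ = m mod i`, `n' =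 ⌊n/i⌋`, `m' = ⌊m/i⌋`, `t = (r−1)/i`. Then every element of `T` of order `r` fixes some totally singular `m`-space if and only if one of: (i) `r = 2 ≠ p` and (`n ≡ 0 (mod 4)`, or `m` is even, or `q ≢ 7 (mod 8)`); (ii) `r ≠ p` odd, `i` odd, `i ≤ m` and (`k = 0` or `k > 2ℓ`); (iii) `r ≠ p` odd, `i` even, `i ≤ m`, `n' − 2m' ≥ t`, and one of: (a) `i ≥ 2ℓ`, `k = 0`, `n/i` even and `n' − 2m' > t` (all four); (b) `k ≥ 2ℓ` and `n'` odd; (c) `k > 2ℓ` and `n'` even. -/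
theorem result {F : Type*} [Field F] [Fintype F] {p : ℕ} [Fact p.Prime] [CharP F p] {q : ℕ} (hq : Fintype.card F = q)
    (d m : ℕ) (hd : 4 ≤ d) (hm : 1 ≤ m) (hmd : m + 1 ≤ d) (a b : F) (hab : ∀ x y : F, x ^ 2 + a * x * y + b * y ^ 2 = 0 → x = 0 ∧ y = 0)
    (r : ℕ) [Fact r.Prime]
    (hrΩ : r ∣ Nat.card {W : Submodule F ((Fin (d - 1) ⊕ Fin (d - 1)) ⊕ Fin 2 → F) // Module.finrank F ↥W = m ∧ Cfsg.Geo.IsTotallySingularQuad (Cfsg.quadFormMinus (d - 1) F a b) W})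
    (i c : ℕ) (hi : i = orderOf (q : ZMod r)) (hc : c = if Even i then i else 2 * i) :
    (∀ x : GL ((Fin (d - 1) ⊕ Fin (d - 1)) ⊕ Fin 2) F, x ∈ Cfsg.Geo.omegaGL (Cfsg.quadFormMinus (d - 1) F a b) →
      (∃ z : F, ((x ^ r : GL ((Fin (d - 1) ⊕ Fin (d - 1)) ⊕ Fin 2) F) : Matrix ((Fin (d - 1) ⊕ Fin (d - 1)) ⊕ Fin 2) ((Fin (d - 1) ⊕ Fin (d - 1)) ⊕ Fin 2) F) = z • (1 : Matrix ((Fin (d - 1) ⊕ Fin (d - 1)) ⊕ Fin 2) ((Fin (d - 1) ⊕ Fin (d - 1)) ⊕ Fin 2) F)) →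
      (∀ z : F, (x : Matrix ((Fin (d - 1) ⊕ Fin (d - 1)) ⊕ Fin 2) ((Fin (d - 1) ⊕ Fin (d - 1)) ⊕ Fin 2) F) ≠ z • (1 : Matrix ((Fin (d - 1) ⊕ Fin (d - 1)) ⊕ Fin 2) ((Fin (d - 1) ⊕ Fin (d - 1)) ⊕ Fin 2) F)) →
      ∃ W : Submodule F ((Fin (d - 1) ⊕ Fin (d - 1)) ⊕ Fin 2 → F), (Module.finrank F ↥W = m ∧ Cfsg.Geo.IsTotallySingularQuad (Cfsg.quadFormMinus (d - 1) F a b) W) ∧ W.map (Matrix.toLin' (x : Matrix ((Fin (d - 1) ⊕ Fin (d - 1)) ⊕ Fin 2) ((Fin (d - 1) ⊕ Fin (d - 1)) ⊕ Fin 2) F)) ≤ W) ↔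
    ((r = 2 ∧ p ≠ 2 ∧ (Even d ∨ Even m ∨ q % 8 ≠ 7)) ∨
     (r ≠ p ∧ 2 < r ∧ Odd i ∧ i ≤ m ∧ ((2 * d) % c = 0 ∨ 2 * (m % i) < (2 * d) % c)) ∨
     (r ≠ p ∧ 2 < r ∧ Even i ∧ i ≤ m ∧ (r - 1) / i + 2 * (m / i) ≤ (2 * d) / i ∧
       ((2 * (m % i) ≤ i ∧ (2 * d) % c = 0 ∧ Even ((2 * d) / i) ∧ (r - 1) / i + 2 * (m / i) < (2 * d) / i) ∨
        (2 * (m % i) ≤ (2 * d) % c ∧ Odd ((2 * d) / i)) ∨
        (2 * (m % i) < (2 * d) % c ∧ Even ((2 * d) / i))))) := by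
  have hr : r.Prime := Fact.out
  have hS := sMinus_nondeg (d - 1) hab
  have hn := finrank_minus_fun' (F := F) (m := d) (by omega)
  have e1 : ¬ Pl (sMinus (d - 1) F a b) := (pl_iff hn).not.2 (sMinus_not_hasTS' (by omega) hab)
  have h3 : ∀ U, (∀ w ∈ U, qMinus (d - 1) F a b w = 0) ↔ (orthS (qMinus (d - 1) F a b)).TS U := fun U => (orth_ts_iff (S := orthS (qMinus (d - 1) F a b))).symm
  simp only [Cfsg.Geo.IsTotallySingularQuad, ← qMinus_coe, h3, ← and_assoc (a := Module.finrank F _ = m)] at hrΩ ⊢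
  rw [bridge (qMinus (d - 1) F a b) hS]
  have hrp := ts_ne hq p hS (by omega) hrΩ
  by_cases hr2 : r = 2
  · subst hr2
    have h0 := (odd_q hq p).2 hrp.symm
    rw [ts_two' hq hS (Nat.odd_iff.2 h0) hn (by omega) (by omega)]
    simp only [e1, hrp.symm, lt_irrefl, implies_true, Nat.even_iff (n := d), Nat.even_iff (n := m), true_or, or_true, false_or, or_false, true_and, and_true, false_and, and_false, true_iff, iff_true, false_iff,
      iff_false, not_true, not_false_iff, ne_eq, forall_const, IsEmpty.forall_iff, Nat.even_iff (n := _ / _), Nat.odd_iff (n := _ / _)]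
    omega
  obtain ⟨M, A, h4, h5, h7, h8, h9, h11, h10, ⟨h12, h13, rfl⟩ | ⟨h12, h13, rfl⟩⟩ :=
    ts_num hq p hr hr2 hrp hi hc hS hn (by omega) (by omega) hrΩ
  · have h14 := (dv_two (m := m) h10).2
    simp only [h4, Sp, Dv, e1, h12, h13, hr2, hrp, h7, h14.2.1, h14.2.2, true_or, or_true, false_or, or_false, true_and, and_true, false_and, and_false, true_iff, iff_true, false_iff,
      iff_false, not_true, not_false_iff, ne_eq, forall_const, IsEmpty.forall_iff, Nat.even_iff (n := _ / _), Nat.odd_iff (n := _ / _)]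
      at h8 h9 h11 ⊢
    replace h14 := h14.1
    generalize (2 * d + 2 * m - 2 * ((2 * d) % (2 * i))) / (2 * i) = z at h11
    generalize (2 * d - 2 * m) / (2 * i) = a', (2 * d - 2 * m) % (2 * i) = k', (2 * d) / (2 * i) = a₀, (2 * d) % (2 * i) = k,
      m / i = b₀, m % i = l at h8 h9 h11 h14 ⊢
    clear hc hi h4 hrΩ
    omega
  · obtain ⟨h14, h15, -⟩ := dv_two (m := m) h10
    simp only [h4, Sp, Dv, e1, h12, h13, hr2, hrp, h7, true_or, or_true, false_or, or_false, true_and, and_true, false_and, and_false, true_iff, iff_true, false_iff,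
      iff_false, not_true, not_false_iff, ne_eq, forall_const, IsEmpty.forall_iff, Nat.even_iff (n := _ / _), Nat.odd_iff (n := _ / _)]
      at h8 h9 h11 ⊢
    replace h11 := And.intro h11.1 (And.intro h11.2.1 (And.intro h11.2.2.2.1
      (And.intro h11.2.2.2.2.1 h11.2.2.2.2.2.1)))
    generalize (2 * d - 2 * m) / c = a', (2 * d - 2 * m) % c = k', (2 * d) / c = a₀, (2 * d) % c = k, 2 * m / c = b',
      2 * m % c = l', m / c = b₀, m % c = l, (r - 1) / c = t at h8 h9 h11 h14 h15 ⊢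
    clear hc hi h4 hrΩ
    omega

end Cfsg.Agent.S5987
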