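import Cfsg.Statements.S5988
import Cfsg.Agent.H21.Eo6

set_option autoImplicit false
open scoped MatrixGroups
open Cfsg

namespace Cfsg.Agent.S5988

open H11 H11.PForm H21.Eo

/-- Elements of prime order of PΩ⁺_n(q) with no fixed elliptic `m`-space. Here `T = PΩ⁺_n(F)`, `n = 2d ≥ 8`, realised through `Ω⁺_n(q)`, the commutator subgroup of the isometry group of `Q = Σ xᵢyᵢ` over the field `F` with `q` elements; an element of `T` of prime order `r` is an element `x` of `Ω⁺_n(q)` with `x^r` scalar and `x` not scalar; a nondegenerate `m`-space (even `m`) is a subspace on which the polar form of `Q` is nondegenerate; it is hyperbolic if it contains an `m/2`-dimensional subspace on which `Q` vanishes, elliptic otherwise. Let `m` be even with `2 ≤ m < n/2` and let `r` be a prime dividing the number of elliptic `m`-spaces; for `r ≠ p` let `i` be the multiplicative order of `q` modulo `r`, `c = i` for `i` even and `c = 2i` for `i` odd, and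 write `k = n mod c`, `ℓ = m mod i`, `ℓ' = m mod c`, `n' = ⌊n/i⌋`, `m' = ⌊m/i⌋`, `t = (r−1)/i`. Then every element of `T` of order `r` fixes some elliptic `m`-space if and only if one of: (i) `r = 2 ≠ p` and either `n ≡ 0 (mod 4)`, `q ≡ 3 (mod 4)` and `m ≡ 2 (mod 4)`, or `n ≡ 2 (mod 4)` and `q ≢ 1 (mod 8)`; (ii) `r ≠ p` odd, `i` odd, `c ≤ m` and `k > ℓ' > 0`; (iii) `r ≠ p` odd, `i` even, and either `k = 0` and (`n/i` odd, or `ℓ' = 0` and `m/i` odd), or `i ≤ m` and (`k > ℓ' > 0`, or `k = ℓ' > 0` and `(n + m − 2k)/i` odd, or `k > ℓ' = 0` and `m/i` odd). (For `r = p` there is always an element of order `p` fixing no elliptic `m`-space.) -/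
theorem result {F : Type*} [Field F] [Fintype F] {p : ℕ} [Fact p.Prime] [CharP F p] {q : ℕ} (hq : Fintype.card F = q)
    (d m : ℕ) (hd : 4 ≤ d) (hm : 2 ≤ m) (hme : Even m) (hmd : m < d)
    (r : ℕ) [Fact r.Prime]
    (hrΩ : r ∣ Nat.card {W : Submodule F (Fin d ⊕ Fin d → F) // Module.finrank F ↥W = m ∧ Cfsg.Geo.IsNondegenerateOn (QuadraticMap.polar (Cfsg.quadFormPlus d F)) W ∧ ¬ Cfsg.Geo.IsPlusTypeOn (Cfsg.quadFormPlus d F) W})
    (i c : ℕ) (hi : i = orderOf (q : ZMod r)) (hc : c = if Even i then i else 2 * i) :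
    (∀ x : GL (Fin d ⊕ Fin d) F, x ∈ Cfsg.Geo.omegaGL (Cfsg.quadFormPlus d F) →
      (∃ z : F, ((x ^ r : GL (Fin d ⊕ Fin d) F) : Matrix (Fin d ⊕ Fin d) (Fin d ⊕ Fin d) F) = z • (1 : Matrix (Fin d ⊕ Fin d) (Fin d ⊕ Fin d) F)) →
      (∀ z : F, (x : Matrix (Fin d ⊕ Fin d) (Fin d ⊕ Fin d) F) ≠ z • (1 : Matrix (Fin d ⊕ Fin d) (Fin d ⊕ Fin d) F)) →
      ∃ W : Submodule F (Fin d ⊕ Fin d → F), (Module.finrank F ↥W = m ∧ Cfsg.Geo.IsNondegenerateOn (QuadraticMap.polar (Cfsg.quadFormPlus d F)) W ∧ ¬ Cfsg.Geo.IsPlusTypeOn (Cfsg.quadFormPlus d F) W) ∧ W.map (Matrix.toLin' (x : Matrix (Fin d ⊕ Fin d) (Fin d ⊕ Fin d) F)) ≤ W) ↔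
    ((r = 2 ∧ p ≠ 2 ∧ ((Even d ∧ q % 4 = 3 ∧ m % 4 = 2) ∨ (Odd d ∧ q % 8 ≠ 1))) ∨
     (r ≠ p ∧ 2 < r ∧ Odd i ∧ c ≤ m ∧ 0 < m % c ∧ m % c < (2 * d) % c) ∨
     (r ≠ p ∧ 2 < r ∧ Even i ∧
       (((2 * d) % c = 0 ∧ (Odd ((2 * d) / i) ∨ (m % c = 0 ∧ Odd (m / i)))) ∨
        (i ≤ m ∧ ((0 < m % c ∧ m % c < (2 * d) % c) ∨
                  (0 < m % c ∧ m % c = (2 * d) % c ∧ Odd ((2 * d + m - 2 * ((2 * d) % c)) / i)) ∨
                  (m % c = 0 ∧ 0 < (2 * d) % c ∧ Odd (m / i))))))) := by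
  have hr : r.Prime := Fact.out
  have hS := sPlus_nondeg d F
  have hn : Module.finrank F (Fin d ⊕ Fin d → F) = 2 * d := by simp [two_mul]
  have e1 : Pl (sPlus d F) := (pl_iff hn).2 (sPlus_hasTS d F)
  have : Nonempty (Fin d ⊕ Fin d) := ⟨.inl ⟨0, by omega⟩⟩
  obtain ⟨W₀, hW, h1, h2, h3⟩ := exists_W (qPlus d F) hS hme (by omega) (by omega) False
  simp only [iff_false] at h2 h3
  simp only [← qPlus_coe, h3] at hrΩ ⊢
  rw [bridge (qPlus d F) hS]
  have e2 := mt ((pl_perp hS hW ⟨d, by omega⟩ (h1 ▸ hme)).1 e1).2 h2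
  rw [Nat.even_iff] at hme
  by_cases hr2 : r = 2
  · subst hr2
    have h0 := odd_q hq p
    by_cases hp : p = 2
    · subst hp
      obtain ⟨M, A, B, h4, h8, h9, h10⟩ := nd_num_two hS hn (by omega) hW h1 (by omega) (by omega)
      simp only [h4, Sp, h2, e1, e2, lt_irrefl, true_or, or_true, false_or, or_false, true_and, and_true, false_and, and_false, true_iff, iff_true, false_iff,
      iff_false, not_true, not_false_iff, ne_eq, forall_const, IsEmpty.forall_iff, Nat.even_iff (n := _ / _), Nat.odd_iff (n := _ / _)] at h0 h8 h9 h10 ⊢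
      omega
    · rw [nd_two' hq hS (Nat.odd_iff.2 (h0.2 hp)) hn hW h1 (by omega) (by omega)]
      simp only [h2, e1, hp, lt_irrefl, Nat.even_iff (n := d), Nat.odd_iff (n := d), true_or, or_true, false_or, or_false, true_and, and_true, false_and, and_false, true_iff, iff_true, false_iff,
      iff_false, not_true, not_false_iff, ne_eq, forall_const, IsEmpty.forall_iff, Nat.even_iff (n := _ / _), Nat.odd_iff (n := _ / _)] at h0 ⊢
      omega
  by_cases hrp : r = p
  · subst hrp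
    refine iff_of_false (fun h => ?_) (by simp [hr2])
    obtain ⟨a', h4, b', h5, c', h6, h7, h8, h9⟩ := nd_123 r ((two_ne r).2 hr2) hS hW h (a := 2 * (d % 2)) (b := d / 2)
      (c := 0) (by omega) (by omega) (.inr e1)
    by_cases h10 : a' = 0
    · exact h2 (h8 h10 (by omega))
    · exact e2 (h9 (by omega) (by omega))
  obtain ⟨M, A, B, h4, h5, h6, h7, h8, h9, h10, h11, ⟨h12, h13⟩ | ⟨h12, h13, rfl⟩⟩ :=
    nd_num hq p hr hr2 hrp hi hc hS hn (by omega) hW h1 (by omega) (by omega) hrΩ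
  all_goals
    simp only [h4, Sp, Dv, h2, e1, e2, h12, h13, hr2, hrp, h7, true_or, or_true, false_or, or_false, true_and, and_true, false_and, and_false, true_iff, iff_true, false_iff,
      iff_false, not_true, not_false_iff, ne_eq, forall_const, IsEmpty.forall_iff, Nat.even_iff (n := _ / _), Nat.odd_iff (n := _ / _)]
      at h8 h9 h10 h11 ⊢
    generalize (2 * d + m - 2 * ((2 * d) % c)) / c = z at h11 ⊢
    generalize (2 * d - m) / c = a', (2 * d - m) % c = k', (2 * d) / c = a, (2 * d) % c = k, m / c = b, m % c = l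
      at h8 h9 h10 h11 ⊢
    clear hc hi h4 h3 hrΩ
    omega

end Cfsg.Agent.S5988
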