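import Cfsg.Statements.S5989
import Cfsg.Agent.H21.Eo6

set_option autoImplicit false
open scoped MatrixGroups
open Cfsg

namespace Cfsg.Agent.S5989

open H11 H11.PForm H21.Eo

/-- Elements of prime order of PΩ⁺_n(q), q odd, with no fixed nondegenerate `m`-space of odd dimension. Here `T = PΩ⁺_n(F)`, `n = 2d ≥ 8`, realised through `Ω⁺_n(q)`, the commutator subgroup of the isometry group of `Q = Σ xᵢyᵢ` over the field `F` with `q` elements; an element of `T` of prime order `r` is an element `x` of `Ω⁺_n(q)` with `x^r` scalar and `x` not scalar; `q` and `m` are odd, `1 ≤ m < n/2`. The nondegenerate `m`-spaces (subspaces on which the polar form is nondegenerate) fall into two isometry classes, each an orbit of `T`, and the two actions are equivalent; fix one such space `W₀` and let Ω be the set of nondegenerate `m`-spaces isometric to `W₀` (some linear isomorphism preserves `Q`). Let `r` be a prime dividing the size of Ω; for `r ≠ p` let `i` be the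 multiplicative order of `q` modulo `r`, `c = i` for `i` even and `c = 2i` for `i` odd, and write `k = n mod c`, `ℓ = m mod i`, `ℓ' = m mod c`, `n' = ⌊n/i⌋`, `m' = ⌊m/i⌋`, `t = (r−1)/i`. Then every element of `T` of order `r` fixes a member of Ω if and only if one of: (i) `r = 2`, `n ≡ 2 (mod 4)` and `q ≢ 1 (mod 8)`; (ii) `r ≠ p` odd, `i` odd, `c ≤ m` and `k > ℓ' > 0`; (iii) `r ≠ p` odd, `i` even, and either `k = 0` and `n/i` odd, or `i ≤ m` and `k > ℓ' > 0`. (For `r = p` there is always an element of order `p` fixing no member of Ω.) -/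
theorem result {F : Type*} [Field F] [Fintype F] {p : ℕ} [Fact p.Prime] [CharP F p] {q : ℕ} (hq : Fintype.card F = q)
    (hodd : Odd q) (d m : ℕ) (hd : 4 ≤ d) (hm : Odd m) (hmd : m < d)
    (W₀ : Submodule F (Fin d ⊕ Fin d → F)) (hW₀ : Module.finrank F ↥W₀ = m ∧ Cfsg.Geo.IsNondegenerateOn (QuadraticMap.polar (Cfsg.quadFormPlus d F)) W₀)
    (r : ℕ) [Fact r.Prime]
    (hrΩ : r ∣ Nat.card {W : Submodule F (Fin d ⊕ Fin d → F) // Module.finrank F ↥W = m ∧ Cfsg.Geo.IsNondegenerateOn (QuadraticMap.polar (Cfsg.quadFormPlus d F)) W ∧ Cfsg.Geo.AreIsometricFor (Cfsg.quadFormPlus d F) W W₀})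
    (i c : ℕ) (hi : i = orderOf (q : ZMod r)) (hc : c = if Even i then i else 2 * i) :
    (∀ x : GL (Fin d ⊕ Fin d) F, x ∈ Cfsg.Geo.omegaGL (Cfsg.quadFormPlus d F) →
      (∃ z : F, ((x ^ r : GL (Fin d ⊕ Fin d) F) : Matrix (Fin d ⊕ Fin d) (Fin d ⊕ Fin d) F) = z • (1 : Matrix (Fin d ⊕ Fin d) (Fin d ⊕ Fin d) F)) →
      (∀ z : F, (x : Matrix (Fin d ⊕ Fin d) (Fin d ⊕ Fin d) F) ≠ z • (1 : Matrix (Fin d ⊕ Fin d) (Fin d ⊕ Fin d) F)) →
      ∃ W : Submodule F (Fin d ⊕ Fin d → F), (Module.finrank F ↥W = m ∧ Cfsg.Geo.IsNondegenerateOn (QuadraticMap.polar (Cfsg.quadFormPlus d F)) W ∧ Cfsg.Geo.AreIsometricFor (Cfsg.quadFormPlus d F) W W₀) ∧ W.map (Matrix.toLin' (x : Matrix (Fin d ⊕ Fin d) (Fin d ⊕ Fin d) F)) ≤ W) ↔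
    ((r = 2 ∧ Odd d ∧ q % 8 ≠ 1) ∨
     (r ≠ p ∧ 2 < r ∧ Odd i ∧ c ≤ m ∧ 0 < m % c ∧ m % c < (2 * d) % c) ∨
     (r ≠ p ∧ 2 < r ∧ Even i ∧ (((2 * d) % c = 0 ∧ Odd ((2 * d) / i)) ∨ (i ≤ m ∧ 0 < m % c ∧ m % c < (2 * d) % c)))) := by
  have hr : r.Prime := Fact.out
  have hS := sPlus_nondeg d F
  have hn : Module.finrank F (Fin d ⊕ Fin d → F) = 2 * d := by simp [two_mul]
  have e1 : Pl (sPlus d F) := (pl_iff hn).2 (sPlus_hasTS d F)
  have : Nonempty (Fin d ⊕ Fin d) := ⟨.inl ⟨0, by omega⟩⟩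
  have hW := (nd_iff (qPlus d F) W₀).1 hW₀.2
  have h1 := hW₀.1
  simp only [← qPlus_coe, isom_W (qPlus d F) hW₀] at hrΩ ⊢
  rw [bridge (qPlus d F) hS]
  have h2 := pl_of_odd hW (h1 ▸ hm)
  rw [Nat.odd_iff] at hm
  have e2 := pl_of_odd (hS.restrict_perp hW) (by have := hS.finrank_perp W₀; rw [Nat.odd_iff]; omega)
  by_cases hr2 : r = 2
  · subst hr2
    rw [nd_two' hq hS hodd hn hW h1 (by omega) (by omega)]
    rw [Nat.odd_iff] at hodd
    simp only [h2, e1, lt_irrefl, Nat.even_iff (n := d), Nat.odd_iff (n := d), true_or, or_true, false_or, or_false, true_and, and_true, false_and, and_false, true_iff, iff_true, false_iff,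
      iff_false, not_true, not_false_iff, ne_eq, forall_const, IsEmpty.forall_iff, Nat.even_iff (n := _ / _), Nat.odd_iff (n := _ / _)]
    omega
  by_cases hrp : r = p
  · subst hrp
    refine iff_of_false (fun h => ?_) (by simp [hr2])
    by_cases h3 : d % 2 = 0
    · exact not_elu_odd r (two_ne' hq hodd) hS hW (by omega) (by rw [Nat.odd_iff]; omega) h
    by_cases h4 : m % 4 = 1
    · obtain ⟨a', h4, b', h5, c', h6, h7, -⟩ := nd_123 r (two_ne' hq hodd) hS hW h (a := 0) (b := d / 2 - 1)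
        (c := 2) (by omega) (by omega) (.inl (by omega))
      omega
    · obtain ⟨a', h4, b', h5, c', h6, h7, -⟩ := nd_123 r (two_ne' hq hodd) hS hW h (a := 2) (b := d / 2)
        (c := 0) (by omega) (by omega) (.inl (by omega))
      omega
  obtain ⟨M, A, B, h4, h5, h6, h7, h8, h9, h10, h11, ⟨h12, h13⟩ | ⟨h12, h13, rfl⟩⟩ :=
    nd_num hq p hr hr2 hrp hi hc hS hn (by omega) hW h1 (by omega) (by omega) hrΩ
  all_goals
    simp only [h4, Sp, Dv, h2, e1, e2, h12, h13, hr2, hrp, h7, true_or, or_true, false_or, or_false, true_and, and_true, false_and, and_false, true_iff, iff_true, false_iff,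
      iff_false, not_true, not_false_iff, ne_eq, forall_const, IsEmpty.forall_iff, Nat.even_iff (n := _ / _), Nat.odd_iff (n := _ / _)]
      at h8 h9 h10 h11 ⊢
    generalize (2 * d + m - 2 * ((2 * d) % c)) / c = z at h11 ⊢
    generalize (2 * d - m) / c = a', (2 * d - m) % c = k', (2 * d) / c = a, (2 * d) % c = k, m / c = b, m % c = l
      at h8 h9 h10 h11 ⊢
    clear hc hi h4 hrΩ
    omega

end Cfsg.Agent.S5989
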