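import Cfsg.Statements.S5994
import Cfsg.Agent.H21.Eo6

set_option autoImplicit false
open scoped MatrixGroups
open Cfsg

namespace Cfsg.Agent.S5994

open H11 H11.PForm H21.Eo

/-- A necessary condition for every element of order p of PΩ⁻_n(q), q odd, to fix an elliptic `m`-space. Here `T = PΩ⁻_n(F)`, `n = 2d ≥ 8`, realised through `Ω⁻_n(q)`, the commutator subgroup of the isometry group of `Q = Σ_{i<d−1} xᵢyᵢ + z₁² + a z₁z₂ + b z₂²` with `z₁² + a z₁z₂ + b z₂²` anisotropic, over the field `F` with `q` elements; an element of `T` of prime order `r` is an element `x` of `Ω⁻_n(q)` with `x^r` scalar and `x` not scalar; `q` is odd; a nondegenerate `m`-space (even `m`) is a subspace on which the polar form of `Q` is nondegenerate; it is hyperbolic if it contains an `m/2`-dimensional subspace on which `Q` vanishes, elliptic otherwise. Let `m` be even with `2 ≤ m ≤ n − 2` and suppose `p` divides the number of elliptic `m`-spaces. If every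 element of `T` of order `p` fixes some elliptic `m`-space, then `n ≡ m (mod 4)` and every partition of `n` into parts of size at most `p` in which every even part has even multiplicity contains (as a sub-multiset) a partition of `m` in which every even part has even multiplicity. -/
theorem result {F : Type*} [Field F] [Fintype F] {p : ℕ} [Fact p.Prime] [CharP F p] {q : ℕ} (hq : Fintype.card F = q) (hqodd : Odd q)
    (d m : ℕ) (hd : 4 ≤ d) (hm : 2 ≤ m) (hme : Even m) (hmn : m + 2 ≤ 2 * d) (a b : F) (hab : ∀ x y : F, x ^ 2 + a * x * y + b * y ^ 2 = 0 → x = 0 ∧ y = 0)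
    (hpΩ : p ∣ Nat.card {W : Submodule F ((Fin (d - 1) ⊕ Fin (d - 1)) ⊕ Fin 2 → F) // Module.finrank F ↥W = m ∧ Cfsg.Geo.IsNondegenerateOn (QuadraticMap.polar (Cfsg.quadFormMinus (d - 1) F a b)) W ∧ ¬ Cfsg.Geo.IsPlusTypeOn (Cfsg.quadFormMinus (d - 1) F a b) W}) :
    (∀ x : GL ((Fin (d - 1) ⊕ Fin (d - 1)) ⊕ Fin 2) F, x ∈ Cfsg.Geo.omegaGL (Cfsg.quadFormMinus (d - 1) F a b) →
      (∃ z : F, ((x ^ p : GL ((Fin (d - 1) ⊕ Fin (d - 1)) ⊕ Fin 2) F) : Matrix ((Fin (d - 1) ⊕ Fin (d - 1)) ⊕ Fin 2) ((Fin (d - 1) ⊕ Fin (d - 1)) ⊕ Fin 2) F) = z • (1 : Matrix ((Fin (d - 1) ⊕ Fin (d - 1)) ⊕ Fin 2) ((Fin (d - 1) ⊕ Fin (d - 1)) ⊕ Fin 2) F)) →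
      (∀ z : F, (x : Matrix ((Fin (d - 1) ⊕ Fin (d - 1)) ⊕ Fin 2) ((Fin (d - 1) ⊕ Fin (d - 1)) ⊕ Fin 2) F) ≠ z • (1 : Matrix ((Fin (d - 1) ⊕ Fin (d - 1)) ⊕ Fin 2) ((Fin (d - 1) ⊕ Fin (d - 1)) ⊕ Fin 2) F)) →
      ∃ W : Submodule F ((Fin (d - 1) ⊕ Fin (d - 1)) ⊕ Fin 2 → F), (Module.finrank F ↥W = m ∧ Cfsg.Geo.IsNondegenerateOn (QuadraticMap.polar (Cfsg.quadFormMinus (d - 1) F a b)) W ∧ ¬ Cfsg.Geo.IsPlusTypeOn (Cfsg.quadFormMinus (d - 1) F a b) W) ∧ W.map (Matrix.toLin' (x : Matrix ((Fin (d - 1) ⊕ Fin (d - 1)) ⊕ Fin 2) ((Fin (d - 1) ⊕ Fin (d - 1)) ⊕ Fin 2) F)) ≤ W) →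
    ((2 * d) % 4 = m % 4 ∧ (∀ μ : Multiset ℕ, (∀ e ∈ μ, 0 < e ∧ e ≤ p) → (∀ e : ℕ, Even e → Even (μ.count e)) → μ.sum = 2 * d →
        ∃ ν : Multiset ℕ, ν ≤ μ ∧ ν.sum = m ∧ ∀ e : ℕ, Even e → Even (ν.count e))) := by
  have hS := sMinus_nondeg (d - 1) hab
  have hn := finrank_minus_fun' (F := F) (m := d) (by omega)
  have e1 : ¬ Pl (sMinus (d - 1) F a b) := (pl_iff hn).not.2 (sMinus_not_hasTS' (by omega) hab)
  obtain ⟨W₀, hW, h1, h2, h3⟩ := exists_W (qMinus (d - 1) F a b) hS hme (by omega) (by omega) False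
  simp only [iff_false] at h2 h3
  simp only [← qMinus_coe, h3]
  rw [bridge (qMinus (d - 1) F a b) hS]
  have h0 := two_ne' hq hqodd
  rw [Nat.even_iff] at hme
  refine fun h => ⟨?_, fun μ h4 h5 h6 => ?_⟩
  · by_cases h4 : d % 2 = 0
    · obtain ⟨a', h4, b', h5, c', h6, h7, -⟩ := nd_123 p h0 hS hW h (a := 1) (b := d / 2 - 1)
        (c := 1) (by omega) (by omega) (.inl (by omega))
      rcases (by omega : c' = 0 ∨ c' = 1) with rfl | rfl <;> omega
    · obtain ⟨a', h4, b', h5, c', h6, h7, h8, -⟩ := nd_123 p h0 hS hW h (a := 2) (b := d / 2)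
        (c := 0) (by omega) (by omega) (.inl (by omega))
      by_contra h9
      exact h2 (h8 (by omega) (by omega))
  by_cases h7 : ∃ k ∈ μ, Odd k
  · exact h1 ▸ nd_part p h0 hS hW h h4 h5 (h6.trans hn.symm) (.inl h7)
  push Not at h7
  simp only [Nat.not_odd_iff_even] at h7
  obtain ⟨k, hk⟩ := Multiset.exists_mem_of_ne_zero (s := μ) (by rintro rfl; simp at h6; omega)
  have h8 := h7 k hk
  have h9 := h4 k hk
  have h10 := p_odd p h0
  obtain ⟨μ', rfl⟩ := Multiset.le_iff_exists_add.1 (Multiset.le_count_iff_replicate_le.1 (show 2 ≤ μ.count k by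
    have := h5 k h8
    have := Multiset.count_pos.2 hk
    rw [Nat.even_iff] at *
    omega))
  have h11 : ∀ j ∈ μ', j % 2 = 0 := fun j hj => Nat.even_iff.1 (h7 j (by simp [hj]))
  rw [Nat.even_iff] at h8
  rw [Nat.odd_iff] at h10
  have h12 : ∀ j, j % 2 = 0 → ∀ s : Multiset ℕ, ((k + 1) ::ₘ (k - 1) ::ₘ s).count j = s.count j := fun j hj s => by
    rw [Multiset.count_cons_of_ne (by omega), Multiset.count_cons_of_ne (by omega)]
  have h13 : ∀ j, (Multiset.replicate 2 k).count j % 2 = 0 := fun j => by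
    rw [Multiset.count_replicate]; split_ifs <;> rfl
  obtain ⟨ν, h14, h15, h16⟩ := nd_part p h0 hS hW h (μ := (k + 1) ::ₘ (k - 1) ::ₘ μ') (fun j hj => by
    simp only [Multiset.mem_cons] at hj
    rcases hj with rfl | rfl | hj
    exacts [by omega, by omega, h4 j (by simp [hj])]) (fun j hj => by
      have := h5 j hj
      have := h13 j
      rw [h12 j (Nat.even_iff.1 hj)]
      rw [Multiset.count_add] at *
      rw [Nat.even_iff] at *
      omega) (by simp at h6 ⊢; omega) (.inl ⟨k + 1, by simp, Nat.odd_iff.2 (by omega)⟩)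
  have h17 : ∀ s ≤ μ', s.sum % 2 = 0 := fun s hs => Nat.mod_eq_zero_of_dvd (Multiset.dvd_sum fun j hj =>
    Nat.dvd_of_mod_eq_zero (h11 j (Multiset.mem_of_le hs hj)))
  rw [h1] at h15
  by_cases h18 : k + 1 ∈ ν
  · obtain ⟨ν, rfl⟩ := Multiset.exists_cons_of_mem h18
    rw [Multiset.cons_le_cons_iff] at h14
    by_cases h19 : k - 1 ∈ ν
    · obtain ⟨ν, rfl⟩ := Multiset.exists_cons_of_mem h19
      rw [Multiset.cons_le_cons_iff] at h14
      refine ⟨Multiset.replicate 2 k + ν, by gcongr, by simp at h15 ⊢; omega, fun j hj => ?_⟩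
      have := h16 j hj
      have := h13 j
      rw [h12 j (Nat.even_iff.1 hj)] at *
      rw [Multiset.count_add]
      rw [Nat.even_iff] at *
      omega
    · have := h17 ν ((Multiset.le_cons_of_notMem h19).1 h14)
      rw [Multiset.sum_cons] at h15
      omega
  · rw [Multiset.le_cons_of_notMem h18] at h14
    by_cases h19 : k - 1 ∈ ν
    · obtain ⟨ν, rfl⟩ := Multiset.exists_cons_of_mem h19
      have := h17 ν ((Multiset.cons_le_cons_iff _).1 h14)
      rw [Multiset.sum_cons] at h15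
      omega
    · exact ⟨ν, ((Multiset.le_cons_of_notMem h19).1 h14).trans (Multiset.le_add_left _ _), h15, h16⟩

end Cfsg.Agent.S5994
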