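import Cfsg.Statements.S5997
import Cfsg.Agent.H22.PGL4

set_option autoImplicit false
open scoped MatrixGroups
open Cfsg

namespace Cfsg.Agent.S5997

open Subgroup Matrix H10 H22
open scoped MatrixGroups

theorem q8 : ∃ i j : QuaternionGroup 2, i * j * i⁻¹ * j⁻¹ = i * i ∧ j * j = i * i ∧ i * i * (i * i) = 1 ∧ i * i ≠ 1 ∧
    i * j ≠ j * i ∧ ∀ q, ∃ (a : Fin 4) (b : Fin 2), q = i ^ (a : ℕ) * j ^ (b : ℕ) :=
  ⟨QuaternionGroup.a 1, QuaternionGroup.xa 0, by decide⟩

variable {F : Type*} [Field F]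

theorem lift {g : GL (Fin 2) F} (h : g ∈ Geo.specialLinear (Fin 2) F) : ∃ s : SL(2, F), SpecialLinearGroup.toGL s = g :=
  ⟨⟨g.1, congrArg Units.val h⟩, Units.ext rfl⟩

theorem mem_SL (s : SL(2, F)) : SpecialLinearGroup.toGL s ∈ Geo.specialLinear (Fin 2) F := Units.ext s.2

theorem lift_of_sq (h2 : (2 : F) ≠ 0) {i j : GL (Fin 2) F} (h : i * i = SpecialLinearGroup.toGL (-1 : SL(2, F)))
    (hij : i * j ≠ j * i) : ∃ s : SL(2, F), SpecialLinearGroup.toGL s = i := by
  refine lift (Units.ext ?_)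
  have h1 : (i : H24.M2 F) * i = -1 := congrArg Units.val h
  have h3 := H24.cayley (i : H24.M2 F)
  have h4 : (i : H24.M2 F).det * (i : H24.M2 F).det = 1 := by rw [← det_mul, h1]; simp [det_neg]
  refine (mul_self_eq_one_iff.1 h4).resolve_right fun e => hij (Units.ext ?_)
  rw [h1, e, neg_neg, one_smul] at h3
  have h5 : (i : H24.M2 F).trace • (i : H24.M2 F) = (-2 : F) • 1 := by
    rw [← add_right_inj 1, ← h3]; module
  have h6 : (i : H24.M2 F).trace ≠ 0 := fun e => by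
    have := congrFun (congrFun h5 0) 0
    simp [e, h2] at this
  refine smul_right_injective _ h6 ?_
  simp only [Units.val_mul]
  rw [← smul_mul_assoc, ← mul_smul_comm, h5]; simp

/-- Elements of prime order of PSL_2(p) and the normalizer of a quaternion subgroup. Here `T = PSL_2(F)` for the field `F` with `p` elements, `p ≥ 5` prime; `R` is a subgroup of GL_2(F) isomorphic to the quaternion group of order 8 (an absolutely irreducible 2-group of symplectic type), and `H` is the subgroup of matrices of determinant 1 normalizing `R` — a subgroup of type 2^{1+2}.O₂⁻(2), isomorphic modulo scalars to A₄ or S₄ (maximality is not assumed). Ω is the set of cosets of `H` in `T`, so an element of `T` of prime order `r` (a matrix `x` of determinant 1 with `x^r` scalar, `x` not scalar) fixes a point of Ω exactly when some conjugate of `x` by a matrix of determinant 1 normalizes `R`. Let `r` be a prime dividing the index of `H`. Then every element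 of `T` of order `r` fixes a point of Ω if and only if `r = 2` or `r = 3`. -/
theorem result {F : Type*} [Field F] [Fintype F] {p : ℕ} [Fact p.Prime] [CharP F p] (hF : Fintype.card F = p) (hp : 5 ≤ p)
    (R : Subgroup (GL (Fin 2) F)) (hR : Nonempty (↥R ≃* QuaternionGroup 2))
    (r : ℕ) [Fact r.Prime]
    (hΩ : r ∣ (Cfsg.Geo.subgroupNormalizer R).relIndex (Cfsg.Geo.specialLinear (Fin 2) F)) :
    (∀ x ∈ Cfsg.Geo.specialLinear (Fin 2) F, (∃ z : F, ((x ^ r : GL (Fin 2) F) : Matrix (Fin 2) (Fin 2) F) = z • (1 : Matrix (Fin 2) (Fin 2) F)) →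
      (∀ z : F, (x : Matrix (Fin 2) (Fin 2) F) ≠ z • (1 : Matrix (Fin 2) (Fin 2) F)) →
      ∃ g ∈ Cfsg.Geo.specialLinear (Fin 2) F, g⁻¹ * x * g ∈ Cfsg.Geo.subgroupNormalizer R) ↔ (r = 2 ∨ r = 3) := by
  have hp' : p.Prime := Fact.out
  have hr : r.Prime := Fact.out
  have hne : ∀ n : ℕ, 0 < n → n < 5 → (n : F) ≠ 0 := fun n h1 h2 h =>
    absurd (Nat.le_of_dvd h1 ((CharP.cast_eq_zero_iff F p n).1 h)) (by omega)
  have h2 : (2 : F) ≠ 0 := hne 2 (by norm_num) (by norm_num)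
  have h3 : (3 : F) ≠ 0 := hne 3 (by norm_num) (by norm_num)
  obtain ⟨e⟩ := hR
  obtain ⟨i0, j0, q1, q2, q3, q4, q5, q6⟩ := q8
  let f := R.subtype.comp e.symm.toMonoidHom
  have hf : Function.Injective f := R.subtype_injective.comp e.symm.injective
  obtain ⟨z, hz⟩ : ∃ z : SL(2, F), SpecialLinearGroup.toGL z = f (i0 * i0) := lift (by
    rw [← q1]; change GeneralLinearGroup.det _ = 1; simp [mul_right_comm])
  have hinj := SpecialLinearGroup.toGL_injective (n := Fin 2) (R := F)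
  obtain rfl : z = -1 := (SL2_eq_of_mul_self h2 (hinj (by rw [map_mul, hz, ← map_mul, q3, map_one, map_one]))).resolve_left
    fun h => q4 (hf (by rw [← hz, h, map_one, map_one]))
  have q5' : f i0 * f j0 ≠ f j0 * f i0 := fun h => q5 (hf (by rwa [map_mul, map_mul]))
  obtain ⟨i, hi⟩ := lift_of_sq h2 (by rw [hz, map_mul]) q5'
  obtain ⟨j, hj⟩ := lift_of_sq h2 (by rw [hz, ← q2, map_mul]) q5'.symm
  have ii : i * i = -1 := hinj (by rw [map_mul, hi, hz, map_mul])
  have jj : j * j = -1 := hinj (by rw [map_mul, hj, hz, ← q2, map_mul])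
  have ij : i * j * i⁻¹ * j⁻¹ = -1 := hinj (by rw [hz, ← q1]; simp only [map_mul, map_inv, hi, hj])
  have nij : i * j ≠ j * i := fun h => q5' (by rw [← hi, ← hj, ← map_mul, h, map_mul])
  have hk : KPair (SpecialLinearGroup.toPGL i) (SpecialLinearGroup.toPGL j) := by
    refine ⟨?_, ?_, ?_, ?_, ?_, ?_⟩
    · rw [← map_mul, ii, toPGL_eq_one_iff]; simp
    · rw [← map_mul, jj, toPGL_eq_one_iff]; simp
    · rw [Ne, toPGL_eq_one_iff]; rintro (rfl | rfl) <;> simp at nij
    · rw [Ne, toPGL_eq_one_iff]; rintro (rfl | rfl) <;> simp at nij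
    · rw [Ne, toPGL_eq_iff]; rintro (rfl | rfl) <;> simp at nij
    · rw [← map_mul, ← map_mul, toPGL_eq_iff]
      exact Or.inr (by rw [mul_inv_eq_iff_eq_mul, mul_inv_eq_iff_eq_mul] at ij; simp [ij])
  have hx : SpecialLinearGroup.toPGL i ∈ PSL2 F := mem_PSL2_iff_exists.2 ⟨i, rfl⟩
  have hy : SpecialLinearGroup.toPGL j ∈ PSL2 F := mem_PSL2_iff_exists.2 ⟨j, rfl⟩
  set x := SpecialLinearGroup.toPGL i with hxi
  set y := SpecialLinearGroup.toPGL j with hyj
  have iR : SpecialLinearGroup.toGL i ∈ R := hi ▸ (e.symm i0).2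
  have jR : SpecialLinearGroup.toGL j ∈ R := hj ▸ (e.symm j0).2
  have hgen : ∀ g ∈ R, ∃ a b : ℕ, g = SpecialLinearGroup.toGL (i ^ a * j ^ b) := fun g hg => by
    obtain ⟨a, b, h⟩ := q6 (e ⟨g, hg⟩)
    refine ⟨a, b, ?_⟩
    rw [map_mul, map_pow, map_pow, hi, hj, ← map_pow, ← map_pow, ← map_mul, ← h]
    simp [f]
  have hV : R.map ProjGenLinGroup.mk = Subgroup.closure {x, y} := by
    refine le_antisymm ?_ ((closure_le _).2 (by rintro _ (rfl | rfl); exacts [⟨_, iR, rfl⟩, ⟨_, jR, rfl⟩]))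
    rintro _ ⟨g, hg, rfl⟩
    obtain ⟨a, b, rfl⟩ := hgen g hg
    change SpecialLinearGroup.toPGL _ ∈ _
    rw [map_mul, map_pow, map_pow]
    exact mul_mem (pow_mem (subset_closure (by simp [hxi])) _) (pow_mem (subset_closure (by simp [hyj])) _)
  have hN : ∀ s : SL(2, F), SpecialLinearGroup.toGL s ∈ Geo.subgroupNormalizer R ↔
      SpecialLinearGroup.toPGL s * x * (SpecialLinearGroup.toPGL s)⁻¹ ∈ Subgroup.closure {x, y} ∧
      SpecialLinearGroup.toPGL s * y * (SpecialLinearGroup.toPGL s)⁻¹ ∈ Subgroup.closure {x, y} := fun s => by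
    constructor
    · intro hs
      rw [← hV]
      exact ⟨⟨_, (mem_normalizer_iff.1 hs _).1 iR, by simp [hxi]⟩, ⟨_, (mem_normalizer_iff.1 hs _).1 jR, by simp [hyj]⟩⟩
    · refine fun hs => mem_normalizer_fintype (S := (R : Set (GL (Fin 2) F))) fun g hg => ?_
      have h4 := conj_mem_closure hs.1 hs.2 (hV ▸ mem_map_of_mem _ hg)
      rw [← hV] at h4
      obtain ⟨g', hg', h5⟩ := h4
      obtain ⟨a, b, rfl⟩ := hgen g hg
      obtain ⟨a', b', rfl⟩ := hgen g' hg'
      have h6 : SpecialLinearGroup.toPGL (s * (i ^ a * j ^ b) * s⁻¹) = SpecialLinearGroup.toPGL (i ^ a' * j ^ b') := by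
        rw [map_mul, map_mul, map_inv]; exact h5.symm
      rw [← map_inv, ← map_mul, ← map_mul]
      rcases (toPGL_eq_iff _ _).1 h6 with h7 | h7 <;> rw [h7]
      · exact hg'
      · rw [← neg_one_mul, ← ii, map_mul, map_mul]; exact mul_mem (mul_mem iR iR) hg'
  have hsc : ∀ s : SL(2, F), (∃ z : F, ((SpecialLinearGroup.toGL s : GL (Fin 2) F) : Matrix (Fin 2) (Fin 2) F) = z • 1) ↔
      SpecialLinearGroup.toPGL s = 1 := fun s => by
    rw [toPGL_eq_one_iff, ← H24.isScal_SL_iff]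
    refine ⟨?_, fun h => ⟨_, h.eq_smul⟩⟩
    rintro ⟨z, hz⟩
    change (s : H24.M2 F) = _ at hz
    simp [H24.IsScal, hz]
  constructor
  · intro h
    by_contra hn
    have r2 : r ≠ 2 := fun e => hn (Or.inl e)
    obtain ⟨⟨g, hg⟩, ho⟩ := exists_prime_orderOf_dvd_card' (G := Geo.specialLinear (Fin 2) F) r (hΩ.trans (index_dvd_card _))
    obtain ⟨s, rfl⟩ := lift hg
    have h4 : orderOf s = r := by rw [← ho, ← orderOf_coe, orderOf_injective _ hinj]
    have h5 : SpecialLinearGroup.toPGL s ≠ 1 := fun e => r2 ((Nat.prime_dvd_prime_iff_eq hr Nat.prime_two).1 (by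
      rw [← h4, orderOf_dvd_iff_pow_eq_one]; rcases (toPGL_eq_one_iff s).1 e with rfl | rfl <;> simp))
    have h6 : s ^ r = 1 := h4 ▸ pow_orderOf_eq_one s
    obtain ⟨g, hg, h7⟩ := h _ hg ⟨1, by rw [← map_pow, h6]; simp⟩ fun z e => h5 ((hsc s).1 ⟨z, e⟩)
    obtain ⟨u, rfl⟩ := lift hg
    rw [← map_inv, ← map_mul, ← map_mul, hN] at h7
    have h8 := kp_pow12 h2 hk hx hy h7.1 h7.2
    have h9 : orderOf (SpecialLinearGroup.toPGL s) = r := orderOf_eq_prime (by rw [← map_pow, h6, map_one]) h5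
    rw [map_mul, map_mul, map_inv, show ∀ a b : PGL(2, F), a⁻¹ * b * a = a⁻¹ * b * a⁻¹⁻¹ by simp,
      conj_pow, conj_eq_one_iff, ← orderOf_dvd_iff_pow_eq_one, h9] at h8
    have := Nat.le_of_dvd (by norm_num) h8
    interval_cases r <;> simp_all (config := {decide := true})
  · intro h g hg h4 h5
    obtain ⟨s, rfl⟩ := lift hg
    rw [← map_pow, hsc, map_pow] at h4
    have h6 : SpecialLinearGroup.toPGL s ≠ 1 := fun e => (((hsc s).2 e).elim h5)
    have hs : SpecialLinearGroup.toPGL s ∈ PSL2 F := mem_PSL2_iff_exists.2 ⟨s, rfl⟩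
    obtain ⟨t, ht, n, h7, h8⟩ : ∃ t ∈ PSL2 F, ∃ n, t * SpecialLinearGroup.toPGL s * t⁻¹ = n ∧
        n * x * n⁻¹ ∈ Subgroup.closure {x, y} ∧ n * y * n⁻¹ ∈ Subgroup.closure {x, y} := by
      rcases h with rfl | rfl
      · obtain ⟨t, ht, h7⟩ := exists_conj_involution h2 hs (by rwa [← pow_two]) h6 hx hk.xx hk.x1
        exact ⟨t, ht, x, h7, by simp [hk.mem_closure_iff], by simp [hk.mem_closure_iff, ← hk.comm]⟩
      · obtain ⟨n, hn, n3, h7, h8⟩ := kp_three h2 hk hx hy
        obtain ⟨t, ht, h9⟩ := conj_three h3 hs h4 h6 hn n3 fun e => hk.ne (by simpa [e] using h8.symm)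
        exact ⟨t, ht, n, h9, by simp [h7, hk.mem_closure_iff], by simp [h8, hk.mem_closure_iff]⟩
    obtain ⟨u, rfl⟩ := mem_PSL2_iff_exists.1 ht
    refine ⟨_, mem_SL u⁻¹, ?_⟩
    rw [← map_inv, ← map_mul, ← map_mul, hN, inv_inv, map_mul, map_mul, map_inv, h7]
    exact h8

end Cfsg.Agent.S5997
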