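import Cfsg.Statements.S5998
import Cfsg.Agent.H21.Xs4

set_option autoImplicit false
open scoped MatrixGroups
open Cfsg

namespace Cfsg.Agent.S5998

open H21.Xs

/-- Elements of prime order of PSL_3(p), p ≡ 1 (mod 3), and the normalizer of an extraspecial subgroup of order 27. Here `T = PSL_3(F)` for the field `F` with `p` elements, `p` a prime with `p ≡ 1 (mod 3)`; `R` is a non-abelian subgroup of GL_3(F) of order 27 and exponent 3 (an extraspecial group 3^{1+2}, acting absolutely irreducibly), and `H` is the subgroup of matrices of determinant 1 normalizing `R` — a subgroup of type 3^{1+2}.Sp₂(3) (maximality is not assumed). Ω is the set of cosets of `H` in `T`, so an element of `T` of prime order `r` (a matrix `x` of determinant 1 with `x^r` scalar, `x` not scalar) fixes a point of Ω exactly when some conjugate of `x` by a matrix of determinant 1 normalizes `R`. Let `r` be a prime dividing the index of `H`. Then every element of `T` of order `r` fixes a point of Ω if and only if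 `r = 2`, or `r = 3` and `p ≡ 1 (mod 9)`. -/
theorem result {F : Type*} [Field F] [Fintype F] {p : ℕ} [Fact p.Prime] [CharP F p] (hF : Fintype.card F = p) (hp3 : p % 3 = 1)
    (R : Subgroup (GL (Fin 3) F)) (hR : Nat.card R = 27) (hRe : Monoid.exponent R = 3) (hRna : ¬ IsMulCommutative R)
    (r : ℕ) [Fact r.Prime]
    (hΩ : r ∣ (Cfsg.Geo.subgroupNormalizer R).relIndex (Cfsg.Geo.specialLinear (Fin 3) F)) :
    (∀ x ∈ Cfsg.Geo.specialLinear (Fin 3) F, (∃ z : F, ((x ^ r : GL (Fin 3) F) : Matrix (Fin 3) (Fin 3) F) = z • (1 : Matrix (Fin 3) (Fin 3) F)) →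
      (∀ z : F, (x : Matrix (Fin 3) (Fin 3) F) ≠ z • (1 : Matrix (Fin 3) (Fin 3) F)) →
      ∃ g ∈ Cfsg.Geo.specialLinear (Fin 3) F, g⁻¹ * x * g ∈ Cfsg.Geo.subgroupNormalizer R) ↔ (r = 2 ∨ (r = 3 ∧ p % 9 = 1)) := by
  have hp : p.Prime := Fact.out
  have hne : ∀ n : ℕ, n.Prime → n % 3 ≠ 1 → (n : F) ≠ 0 := fun n h1 h2 e =>
    h2 ((Nat.prime_dvd_prime_iff_eq hp h1).1 ((CharP.cast_eq_zero_iff F p n).1 e) ▸ hp3)
  have h1 : Nat.card (Geo.specialLinear (Fin 3) F) = Nat.card SL(3, F) := Nat.card_congr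
    ⟨fun g => ⟨g.1.1, mem_SL.1 g.2⟩, fun g => ⟨Matrix.SpecialLinearGroup.toGL g, mem_SL.2 g.2⟩,
      fun g => Subtype.ext (Units.ext rfl), fun g => rfl⟩
  have h2 := congrArg (Nat.cast : ℕ → ℤ) (H10.card_SL (F := F) 3 (by norm_num))
  have h3 := hp.one_lt
  have := three (t := p) (r := r) (by simp) (by simpa using hne 2 Nat.prime_two (by simp))
    (by simpa using hne 3 Nat.prime_three (by simp))
    (by simpa [hF] using lg_top (ι := Fin 3) (F := F)) (by simpa [hF] using ex_top (ι := Fin 3) (F := F)) le_top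
    (by omega) hR hRe hRna (by
      rw [top_inf_eq, h1]
      refine dvd_of_eq (mul_left_cancel₀ (show (p - 1 : ℤ) ≠ 0 by omega) ?_)
      rw [hF, Fin.prod_univ_three] at h2
      push_cast [Nat.cast_sub h3.le] at h2
      rw [h2, Nat.cast_sub (Nat.pow_le_pow_right hp.pos (by simp)), Nat.cast_sub (Nat.pow_le_pow_right hp.pos (by simp)),
        Nat.cast_sub (Nat.pow_le_pow_right hp.pos (by simp))]
      simp; ring) (by rwa [top_inf_eq])
  rw [top_inf_eq] at this
  rw [show p % 9 = 1 ↔ (p : ℤ) % 9 = 1 by omega]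
  exact this

end Cfsg.Agent.S5998
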