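import Cfsg.Statements.S5999
import Cfsg.Agent.H21.Xs4
import Cfsg.Agent.H20.El7

set_option autoImplicit false
open scoped MatrixGroups
open Cfsg

namespace Cfsg.Agent.S5999

open H21.Xs H11

/-- Elements of prime order of PSU_3(p), p ≡ 2 (mod 3), and the normalizer of an extraspecial subgroup of order 27. Here `T = PSU_3(p)` for a prime `p ≥ 5` with `p ≡ 2 (mod 3)`, realised through `SU_3(p)`, the matrices of determinant 1 over the field `F` with `p²` elements preserving the hermitian form `Σ uᵢvᵢ^p`; `R` is a non-abelian subgroup of order 27 and exponent 3 of the full unitary group of that form (an extraspecial group 3^{1+2}, acting absolutely irreducibly), and `H` is the subgroup of `SU_3(p)` normalizing `R` — a subgroup of type 3^{1+2}.Sp₂(3) (maximality is not assumed). Ω is the set of cosets of `H`, so an element of `T` of prime order `r` (`x ∈ SU_3(p)` with `x^r` scalar, `x` not scalar) fixes a point of Ω exactly when some `SU_3(p)`-conjugate of `x` normalizes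 `R`. Let `r` be a prime dividing the index of `H`. Then every element of `T` of order `r` fixes a point of Ω if and only if `r = 2`, or `r = 3` and `p ≡ 8 (mod 9)`. -/
theorem result {F : Type*} [Field F] [Fintype F] {p : ℕ} [Fact p.Prime] [CharP F p] (hF : Fintype.card F = p ^ 2) (hp : 5 ≤ p) (hp3 : p % 3 = 2)
    (R : Subgroup (GL (Fin 3) F)) (hRU : R ≤ Cfsg.GU 3 F p) (hR : Nat.card R = 27) (hRe : Monoid.exponent R = 3) (hRna : ¬ IsMulCommutative R)
    (r : ℕ) [Fact r.Prime]
    (hΩ : r ∣ (Cfsg.Geo.subgroupNormalizer R).relIndex (Cfsg.GU 3 F p ⊓ Cfsg.Geo.specialLinear (Fin 3) F)) :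
    (∀ x ∈ Cfsg.GU 3 F p ⊓ Cfsg.Geo.specialLinear (Fin 3) F, (∃ z : F, ((x ^ r : GL (Fin 3) F) : Matrix (Fin 3) (Fin 3) F) = z • (1 : Matrix (Fin 3) (Fin 3) F)) →
      (∀ z : F, (x : Matrix (Fin 3) (Fin 3) F) ≠ z • (1 : Matrix (Fin 3) (Fin 3) F)) →
      ∃ g ∈ Cfsg.GU 3 F p ⊓ Cfsg.Geo.specialLinear (Fin 3) F, g⁻¹ * x * g ∈ Cfsg.Geo.subgroupNormalizer R) ↔ (r = 2 ∨ (r = 3 ∧ p % 9 = 8)) := by
  have hp' : p.Prime := Fact.out
  have hne : ∀ n : ℕ, n.Prime → n < 5 → (n : F) ≠ 0 := fun n h1 h2 e => by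
    have := (Nat.prime_dvd_prime_iff_eq hp' h1).1 ((CharP.cast_eq_zero_iff F p n).1 e); omega
  obtain ⟨σ, hq, hσ, hs⟩ := exists_frob hF
  have h1 := (stdUnit_nondeg hσ hs (Fin 3)).unit_card_SIsom hs (Nat.card_eq_fintype_card.trans hF) (n := 3) (by simp)
    (by norm_num)
  have h2 := congrArg (Nat.cast : ℕ → ℤ) h1
  have := three (r := r) (by simp) (by simpa using hne 2 Nat.prime_two (by simp))
    (by simpa using hne 3 Nat.prime_three (by simp)) (lg_gu hF) (ex_gu hF) hRU (by omega) hR hRe hRna (by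
      rw [H20.El.su_eq' (hσ := hσ) (hne := hs) hq, Subgroup.card_map_of_injective (H29.toGL_injective _)]
      refine dvd_of_eq (mul_left_cancel₀ (show (p + 1 : ℤ) ≠ 0 by omega) ?_)
      simp [guOrd, Finset.prod_range_succ, Nat.cast_sub (Nat.one_le_pow 2 p hp'.pos)] at h2
      rw [h2]; ring) hΩ
  rw [show p % 9 = 8 ↔ (-p : ℤ) % 9 = 1 by omega]
  exact this

end Cfsg.Agent.S5999
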